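import Cfsg.Statements.S5395
import Cfsg.Agent.H1.LX
import Cfsg.Agent.H2.Pq1

set_option autoImplicit false
open Cfsg

namespace Cfsg.Agent.S5395

/-- For a finite extraspecial 2-group E, an automorphism of E that induces the identity on E modulo its centre is inner (so these automorphisms form exactly the inner automorphism group, an elementary abelian 2-group of order |E|/2). -/
theorem result {E : Type*} [Group E] [Finite E] (hE : Cfsg.IsExtraspecial 2 E) (φ : E ≃* E) (hφ : ∀ x : E, φ x * x⁻¹ ∈ Subgroup.center E) : ∃ g : E, ∀ x : E, φ x = g * x * g⁻¹ := by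
  open Subgroup CfsgH2 in
  open CfsgH1 hiding SS card_inf_mul_relIndex card_lt_of_lt card_lt_of_ne_top card_map_mul_card_inf_ker card_mul_relIndex card_subgroupOf card_sup_dvd card_sup_mul_card_inf coprime_le_sup_cent exists_card_prime_le isNilpotent_map isNilpotent_of_le isPGroup_pCore isSolvable_map isSolvable_of_le le_pCore le_pPrimeCore relIndex_map_dvd in
  open scoped CfsgH1 in
  open CfsgL0 hiding cj cj_injective comm_zpowers_le conj_mem_of_mem_normalizer conj_mem_of_mem_normalizer' isPGroup_of_forall isPGroup_zpowers isPGroup_zpowers_of_orderOf mem_normalizer_of_conj_mem sec_sub in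
  open scoped CfsgL0 in
  open scoped commutatorElement in
  · obtain ⟨z, h⟩ := exists_xz (Q := (⊤ : Subgroup E)) (extraspecial_iff.2 (extraspecial_top_iff.1 hE))
    have e : center E = zpowers z := by rw [← h.zc, cent_top, top_inf_eq]
    obtain ⟨u, hu⟩ := h.wx.inner (φ := φ) hφ fun g hg => by
      rcases (mem_zp2 h.ord).1 (e ▸ hg) with rfl | rfl
      · exact map_one φ
      · refine ((mem_zp2 h.ord).1 (e ▸ (mul_mem_cancel_right (inv_mem hg)).1 (hφ g))).resolve_left ?_
        simpa using ne_one_of_two h.ord
    exact ⟨u, fun x => hu ▸ rfl⟩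

end Cfsg.Agent.S5395
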