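import Cfsg.Statements.S0780
import Cfsg.Agent.H5.Unit2

set_option autoImplicit false
open Cfsg

namespace Cfsg.Agent.S0780

/-- Generation of SU_n(q), n ≥ 3, (n, q) ≠ (3, 2), by unitary transvections: the subgroup generated by the elements whose matrix is x ↦ x + c h(x, v) v with v isotropic is all of SU_n(q). -/
theorem result {F : Type*} [Field F] [Fintype F] {q : ℕ} (hF : Fintype.card F = q ^ 2) (n : ℕ) (hn : 3 ≤ n) (h32 : ¬ (n = 3 ∧ q = 2)) : Subgroup.closure {A : ↥(Cfsg.SU n F q) | ∃ (v : Fin n → F) (c : F), Cfsg.hermForm n F q v v = 0 ∧ ((A : Matrix.SpecialLinearGroup (Fin n) F) : Matrix (Fin n) (Fin n) F) = Cfsg.unitaryTransvection n q v c} = ⊤ := by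
  have H := CfsgH5.frobq_UF hF
  have h1 := (CfsgH5.CForm.unit_isSimple H (CfsgH5.hermC_nondeg H n) (by simpa) (by simpa using h32)).2.2.1
  rw [eq_top_iff]
  intro g _
  set S := Subgroup.closure {A : ↥(Cfsg.SU n F q) | ∃ (v : Fin n → F) (c : F), Cfsg.hermForm n F q v v = 0 ∧ ((A : Matrix.SpecialLinearGroup (Fin n) F) : Matrix (Fin n) (Fin n) F) = Cfsg.unitaryTransvection n q v c}
  have h : (CfsgH5.hermC H n).Tr ≤
      S.map ((CfsgH5.hermC H n).SIsom.subtype.comp (CfsgH5.suEquiv H n).toMonoidHom) :=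
    CfsgH5.CForm.Tr_le fun g x c hg => by
      obtain ⟨g', e⟩ := (CfsgH5.suEquiv H n).surjective ⟨g, h1 ▸ hg.mem_Tr⟩
      have e' : g = CfsgH5.suEquiv H n g' := (congrArg Subtype.val e).symm
      refine ⟨g', Subgroup.subset_closure ⟨x, -c, hg.hx, CfsgH5.mat_ext_mulVec fun v => ?_⟩,
        e'.symm⟩
      rw [CfsgH5.unitaryTransvection_mulVec, ← CfsgH5.suEquiv_apply H, ← e', hg.app,
        ← CfsgH5.hermC_B H]
      simp [sub_eq_add_neg]
  rw [← h1] at h
  obtain ⟨g', hg', e⟩ := h (CfsgH5.suEquiv H n g).2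
  rwa [← (CfsgH5.suEquiv H n).injective (Subtype.ext e)]

end Cfsg.Agent.S0780
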