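import Cfsg.Statements.S0157
import Cfsg.Agent.H3.More

set_option autoImplicit false
open Cfsg

namespace Cfsg.Agent.S0157
open CfsgH3

/-- For a transitive action of a finite group on a finite set with at least two points: the action is 2-transitive if and only if the function sending g to (number of fixed points of g) − 1 is an irreducible character. -/
theorem result {G : Type*} [Group G] [Finite G] (X : Type*) [MulAction G X] [Finite X] [MulAction.IsPretransitive G X] (hX : 2 ≤ Nat.card X) : Cfsg.IsIrrCharacter G (fun g => (Nat.card (MulAction.fixedBy X g) : ℂ) - 1) ↔ MulAction.IsMultiplyPretransitive G X 2 := by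
  classical
  have := Fintype.ofFinite G
  have hπ := isCharacter_fixedBy (G := G) X
  have h1 : Cfsg.classInner (fun g : G => (Nat.card (MulAction.fixedBy X g) : ℂ)) (fun _ => 1) = 1 := by
    rw [classInner_fixedBy_one]
    have : Nonempty X := (Nat.card_pos_iff.1 (by omega : 0 < Nat.card X)).1
    have : Unique (Quotient (MulAction.orbitRel G X)) :=
      Classical.choice ((MulAction.pretransitive_iff_unique_quotient_of_nonempty G X).1 inferInstance)
    simp
  have h2 := hπ.sub_of_constituent isIrr_one (by rw [h1]; exact one_ne_zero)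
  have h3 : Cfsg.classInner (fun g : G => (Nat.card (MulAction.fixedBy X g) : ℂ))
      (fun g : G => (Nat.card (MulAction.fixedBy X g) : ℂ)) =
      Nat.card (Quotient (MulAction.orbitRel G (X × X))) := by
    rw [← classInner_fixedBy_one]
    unfold Cfsg.classInner
    congr 1
    refine Finset.sum_congr rfl fun g _ => ?_
    rw [map_natCast, map_one, mul_one, ← Nat.cast_mul, ← Nat.card_prod]
    congr 1
    exact Nat.card_congr
      { toFun := fun x => ⟨(x.1.1, x.2.1), Prod.ext x.1.2 x.2.2⟩
        invFun := fun y => (⟨y.1.1, congrArg Prod.fst y.2⟩, ⟨y.1.2, congrArg Prod.snd y.2⟩)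
        left_inv := fun _ => rfl
        right_inv := fun _ => rfl }
  change Cfsg.IsIrrCharacter G ((fun g : G => (Nat.card (MulAction.fixedBy X g) : ℂ)) - fun _ => 1) ↔ _
  rw [h2.isIrr_iff, classInner_sub_left, classInner_sub_right, classInner_sub_right, h3, h1,
    isCharacter_one.classInner_comm hπ, h1, isIrr_one.classInner_self,
    MulAction.is_two_pretransitive_iff]
  have h4 : (Nat.card (Quotient (MulAction.orbitRel G (X × X))) : ℂ) - 1 - (1 - 1) = 1 ↔
      Nat.card (Quotient (MulAction.orbitRel G (X × X))) = 2 := by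
    rw [sub_self, sub_zero, sub_eq_iff_eq_add, one_add_one_eq_two]
    exact_mod_cast Iff.rfl
  rw [h4, Nat.card_eq_two_iff]
  have : Finite X := inferInstance
  obtain ⟨a, b, hab⟩ : ∃ a b : X, a ≠ b := by
    have := Finite.one_lt_card_iff_nontrivial.1 (by omega : 1 < Nat.card X)
    exact exists_pair_ne X
  have hd : ∀ x y z : X, x ≠ y → (Quotient.mk'' (x, y) : Quotient (MulAction.orbitRel G (X × X))) ≠
      Quotient.mk'' (z, z) := by
    intro x y z hxy h
    obtain ⟨g, hg⟩ := Quotient.exact' h
    exact hxy ((congrArg Prod.fst hg).symm.trans (congrArg Prod.snd hg))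
  have hdd : ∀ x y : X, (Quotient.mk'' (x, x) : Quotient (MulAction.orbitRel G (X × X))) =
      Quotient.mk'' (y, y) := by
    intro x y
    obtain ⟨g, hg⟩ := MulAction.exists_smul_eq G y x
    exact Quotient.sound' ⟨g, Prod.ext hg hg⟩
  constructor
  · rintro ⟨u, v, huv, h⟩ x y z w hxy hzw
    have hall : ∀ t : Quotient (MulAction.orbitRel G (X × X)), t = u ∨ t = v := fun t => by
      have : t ∈ ({u, v} : Set _) := h ▸ Set.mem_univ t
      simpa using this
    have : (Quotient.mk'' (z, w) : Quotient (MulAction.orbitRel G (X × X))) = Quotient.mk'' (x, y) := by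
      have e1 := hd x y a hxy
      have e2 := hd z w a hzw
      rcases hall (Quotient.mk'' (a, a)) with h1 | h1 <;>
      rcases hall (Quotient.mk'' (x, y)) with h2 | h2 <;>
      rcases hall (Quotient.mk'' (z, w)) with h3 | h3 <;> simp_all
    obtain ⟨g, hg⟩ := Quotient.exact' this
    exact ⟨g, congrArg Prod.fst hg, congrArg Prod.snd hg⟩
  · intro h
    refine ⟨Quotient.mk'' (a, b), Quotient.mk'' (a, a), hd a b a hab, ?_⟩
    rw [Set.eq_univ_iff_forall]
    intro t
    obtain ⟨⟨x, y⟩, rfl⟩ := Quotient.mk''_surjective t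
    by_cases hxy : x = y
    · subst hxy
      exact Or.inr (hdd x a)
    · obtain ⟨g, hg⟩ := h hab hxy
      exact Or.inl (Quotient.sound' ⟨g, Prod.ext hg.1 hg.2⟩)


end Cfsg.Agent.S0157
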