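import Cfsg.Statements.S0236
import Mathlib
import Cfsg.Agent.L0.Invol

set_option autoImplicit false
open Cfsg

namespace Cfsg.Agent.S0236

/-- If x is an involution, the number of ordered pairs (u, v) of involutions with uv = x, plus one, equals the number of involutions in the centralizer of x. -/
theorem result {G : Type*} [Group G] [Finite G] (x : G) (hx : orderOf x = 2) : Nat.card {p : G × G // orderOf p.1 = 2 ∧ orderOf p.2 = 2 ∧ p.1 * p.2 = x} + 1 = Nat.card {t : G // orderOf t = 2 ∧ Commute t x} := by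
  have hx1 := CfsgL0.inv_mul_self hx
  have e : {p : G × G // orderOf p.1 = 2 ∧ orderOf p.2 = 2 ∧ p.1 * p.2 = x} ≃
      {t : {t : G // orderOf t = 2 ∧ Commute t x} // t ≠ ⟨x, hx, Commute.refl x⟩} := by
    refine ⟨fun p => ⟨⟨p.1.1, p.2.1, ?_⟩, ?_⟩, fun t => ⟨(t.1.1, t.1.1 * x), t.1.2.1, ?_, ?_⟩, ?_, ?_⟩
    · obtain ⟨⟨u, v⟩, hu, hv, h⟩ := p
      have := CfsgL0.left_inverts_mul (CfsgL0.inv_mul_self hu) (CfsgL0.inv_mul_self hv)
      simp only at h
      rw [h, CfsgL0.inv_inv_eq hx] at this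
      exact mul_inv_eq_iff_eq_mul.1 this
    · obtain ⟨⟨u, v⟩, hu, hv, h⟩ := p
      intro h1
      simp only [Subtype.mk.injEq] at h1 h
      rw [h1] at h
      exact CfsgL0.inv_ne_one hv (by simpa using h)
    · obtain ⟨⟨t, ht, h⟩, hne⟩ := t
      refine CfsgL0.orderOf_two_iff.2 ⟨?_, ?_⟩
      · show t * x * (t * x) = 1
        rw [mul_assoc, ← mul_assoc x, ← h.eq, mul_assoc, hx1, mul_one, CfsgL0.inv_mul_self ht]
      · intro h1
        apply hne
        have := eq_inv_of_mul_eq_one_left h1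
        rw [CfsgL0.inv_inv_eq hx] at this
        exact Subtype.ext this
    · show t.1.1 * (t.1.1 * x) = x
      rw [← mul_assoc, CfsgL0.inv_mul_self t.1.2.1, one_mul]
    · rintro ⟨⟨u, v⟩, hu, hv, h⟩
      simp only [Subtype.mk.injEq, Prod.mk.injEq, true_and] at h ⊢
      rw [← h, ← mul_assoc, CfsgL0.inv_mul_self hu, one_mul]
    · rintro ⟨⟨t, ht⟩, _⟩; rfl
  classical
  rw [Nat.card_congr e, ← Finite.card_option]
  exact Nat.card_congr (Equiv.optionSubtypeNe _)

end Cfsg.Agent.S0236
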