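import Cfsg.Statements.S0238
import Mathlib
import Cfsg.Agent.L0.Count
import Cfsg.Agent.S0236
import Cfsg.Agent.S0237

set_option autoImplicit false
open Cfsg

namespace Cfsg.Agent.S0238

theorem le_inv {G : Type*} [Group G] [Finite G] (x : G) : Nat.card {p : G × G // orderOf p.1 = 2 ∧ orderOf p.2 = 2 ∧ p.1 * p.2 = x} ≤ Nat.card {g : G // g * x * g⁻¹ = x⁻¹} := by
  refine Nat.card_le_card_of_injective (fun p => ⟨p.1.1, ?_⟩) ?_
  · obtain ⟨⟨u, v⟩, hu, hv, rfl⟩ := p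
    exact CfsgL0.left_inverts_mul (CfsgL0.inv_mul_self hu) (CfsgL0.inv_mul_self hv)
  · rintro ⟨⟨u, v⟩, hu, hv, h⟩ ⟨⟨u', v'⟩, hu', hv', h'⟩ e
    simp only [Subtype.mk.injEq, Prod.mk.injEq] at e h h' ⊢
    subst e
    exact ⟨rfl, mul_left_cancel (h.trans h'.symm)⟩

/-- For every x in a finite group G, the number c of ordered pairs (u, v) of involutions with uv = x is at most |C_G(x)|; c = 0 when x is not conjugate to x⁻¹; and c + 2 ≤ |C_G(x)| when x is an involution. -/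
theorem result {G : Type*} [Group G] [Finite G] (x : G) : Nat.card {p : G × G // orderOf p.1 = 2 ∧ orderOf p.2 = 2 ∧ p.1 * p.2 = x} ≤ Nat.card (Subgroup.centralizer ({x} : Set G)) ∧ (¬ IsConj x x⁻¹ → Nat.card {p : G × G // orderOf p.1 = 2 ∧ orderOf p.2 = 2 ∧ p.1 * p.2 = x} = 0) ∧ (orderOf x = 2 → Nat.card {p : G × G // orderOf p.1 = 2 ∧ orderOf p.2 = 2 ∧ p.1 * p.2 = x} + 2 ≤ Nat.card (Subgroup.centralizer ({x} : Set G))) := by
  have h0 : ¬ IsConj x x⁻¹ → Nat.card {p : G × G // orderOf p.1 = 2 ∧ orderOf p.2 = 2 ∧ p.1 * p.2 = x} = 0 := by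
    intro h
    have : IsEmpty {g : G // g * x * g⁻¹ = x⁻¹} := ⟨fun g => h (isConj_iff.2 ⟨g.1, g.2⟩)⟩
    simpa using le_inv x
  refine ⟨?_, h0, fun hx => ?_⟩
  · by_cases h : IsConj x x⁻¹
    · rw [← Cfsg.Agent.S0237.result x h]; exact le_inv x
    · rw [h0 h]; exact Nat.zero_le _
  · have h1 := Cfsg.Agent.S0236.result x hx
    have h2 : Nat.card {w : G // orderOf w = 2 ∧ Commute w x} < Nat.card (Subgroup.centralizer ({x} : Set G)) :=
      CfsgL0.card_subtype_lt' (q := fun w => w ∈ Subgroup.centralizer ({x} : Set G))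
        (fun a ha => Subgroup.mem_centralizer_singleton_iff.2 ha.2) 1 (Subgroup.one_mem _) (by simp)
    omega

end Cfsg.Agent.S0238
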