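import Cfsg.Statements.S0304
import Cfsg.Agent.H5.Orth7

set_option autoImplicit false
open Cfsg

namespace Cfsg.Agent.S0304

/-- In characteristic 2, O_{2m+1}(q) is isomorphic to Sp_{2m}(q). -/
theorem result {F : Type*} [Field F] [Fintype F] [CharP F 2] (m : ℕ) : Nonempty (Cfsg.isometryGroup F (Cfsg.quadFormOdd m F) ≃* Matrix.symplecticGroup (Fin m) F) := by
  have h2 : (2 : F) = 0 := CharP.cast_eq_zero F 2
  let f := CfsgH5.CForm.ofQuad (CfsgH5.oddQ F m)
  let π : (Unit ⊕ (Fin m ⊕ Fin m) → F) →ₗ[F] (Fin m ⊕ Fin m → F) := LinearMap.funLeft F F Sum.inr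
  let j : (Fin m ⊕ Fin m → F) →ₗ[F] (Unit ⊕ (Fin m ⊕ Fin m) → F) := CfsgH5.extZero F Sum.inr
  let e : Unit ⊕ (Fin m ⊕ Fin m) → F := Pi.single (.inl ()) 1
  have hneg : ∀ a : F, -a = a := fun a => by linear_combination -a * h2
  have πj : ∀ v, π (j v) = v := fun v => funext fun i => CfsgH5.extZero_apply Sum.inr_injective v i
  have j0 : ∀ v, j v (.inl ()) = 0 := fun v => CfsgH5.extZero_apply' _ (by simp)
  have dec : ∀ v, v = v (.inl ()) • e + j (π v) := fun v => funext fun i => by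
    rcases i with i | i
    · simp [e, j0]
    · simp only [e, Pi.add_apply, Pi.smul_apply, Pi.single_eq_of_ne Sum.inr_ne_inl, smul_zero, zero_add]
      exact (congrFun (πj (π v)) i).symm
  have πe : π e = 0 := funext fun i => by simp [π, e]
  have hB : ∀ u v, f.B u v = (CfsgH5.spForm F m).B (π u) (π v) := fun u v => by
    simp [f, CfsgH5.CForm.ofQuad_B, CfsgH5.oddQ_coe, CfsgH5.polar_odd, h2, CfsgH5.spForm_B,
      CfsgH5.sympForm_apply, π, sub_eq_add_neg, hneg, add_comm]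
  have hQ : ∀ v, f.Q v = v (.inl ()) ^ 2 + Cfsg.quadFormPlus m F (π v) := fun v => rfl
  have ge : ∀ g ∈ f.Isom, g e = e := fun g hg => by
    have h1 : π (g e) = 0 := CfsgH5.spForm_nondeg m _ fun u => by
      rw [← πj u, ← hB, ← g.apply_symm_apply (j u), f.Isom_B hg, hB, πe]; simp
    have h3 := f.Isom_Q hg e
    rw [hQ, hQ, h1, πe, add_left_inj] at h3
    have h4 : g e (.inl ()) = 1 := by
      simpa [e, hneg] using h3
    rw [dec (g e), h1, h4]; simp
  have key : ∀ g ∈ f.Isom, ∀ v, π (g (j (π v))) = π (g v) := fun g hg v => by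
    conv_rhs => rw [dec v]
    simp [ge g hg, πe]
  let φ : f.Isom →* (CfsgH5.spForm F m).Isom := MonoidHom.mk' (fun g =>
    ⟨LinearEquiv.ofLinear (π ∘ₗ g.1.toLinearMap ∘ₗ j) (π ∘ₗ g.1.symm.toLinearMap ∘ₗ j)
      (LinearMap.ext fun v => by simp [key g.1 g.2, πj])
      (LinearMap.ext fun v => by simp [key g.1.symm (inv_mem g.2), πj]),
      CfsgH5.CForm.mem_Isom_symp.2 fun u v => by
        simp [← hB, f.Isom_B g.2]; rw [hB, πj, πj]⟩) fun a b =>
      Subtype.ext (LinearEquiv.ext fun v => (key a.1 a.2 _).symm)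
  have φa : ∀ g v, (φ g).1 v = π (g.1 (j v)) := fun _ _ => rfl
  refine ⟨((CfsgH5.orthEquiv (CfsgH5.oddQ F m)).trans (MulEquiv.ofBijective φ ⟨?_, fun s => ?_⟩)).trans
    (CfsgH5.spEquiv m).symm⟩
  · rw [injective_iff_map_eq_one]
    intro g hg
    refine Subtype.ext (LinearEquiv.ext fun v => ?_)
    have h1 : π (g.1 (j (π v))) = π v := by rw [← φa, hg]; rfl
    have h3 := f.Isom_Q g.2 (j (π v))
    rw [hQ, hQ, h1, πj, add_left_inj, j0] at h3
    change g.1 v = v
    conv_lhs => rw [dec v, map_add, map_smul, ge _ g.2, dec (g.1 (j (π v))), h1]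
    simp only [pow_eq_zero_iff two_ne_zero, ne_eq, OfNat.ofNat_ne_zero, not_false_eq_true,
      zero_pow] at h3
    rw [h3, zero_smul, zero_add, ← dec v]
  · choose r hr using CfsgH5.exists_sq_of_two_eq_zero h2
    have inj : ∀ a b : F, a ^ 2 = b ^ 2 → a = b := fun a b h => by
      simpa [hneg] using sq_eq_sq_iff_eq_or_eq_neg.1 h
    let f0 := CfsgH5.CForm.ofQuad (CfsgH5.plusQ F m)
    have b0 : ∀ u v, f0.B u v = (CfsgH5.spForm F m).B u v := fun u v => by
      simp [f0, CfsgH5.CForm.ofQuad_B, CfsgH5.plusQ_coe, CfsgH5.polar_plus, CfsgH5.spForm_B,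
        CfsgH5.sympForm_apply, sub_eq_add_neg, hneg, add_comm]
    let ψ : (Fin m ⊕ Fin m → F) →ₗ[F] F :=
      { toFun v := r (f0.Q (s.1 v) + f0.Q v)
        map_add' u v := inj _ _ (by
          rw [add_sq, hr, hr, hr, map_add, f0.orth_Q_add, f0.orth_Q_add, b0, b0,
            (CfsgH5.spForm F m).Isom_B s.2, h2]
          linear_combination ((CfsgH5.spForm F m).B u v) * h2)
        map_smul' c v := inj _ _ (by
          rw [RingHom.id_apply, smul_eq_mul, mul_pow, hr, hr, map_smul, f0.orth_Q_smul,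
            f0.orth_Q_smul, mul_add]) }
    let g : (Unit ⊕ (Fin m ⊕ Fin m) → F) →ₗ[F] (Unit ⊕ (Fin m ⊕ Fin m) → F) :=
      (LinearMap.proj (R := F) (φ := fun _ : Unit ⊕ (Fin m ⊕ Fin m) => F) (Sum.inl ()) + ψ ∘ₗ π).smulRight e + j ∘ₗ s.1.toLinearMap ∘ₗ π
    have g1 : ∀ v, π (g v) = s.1 (π v) := fun v => by simp [g, πe, πj]
    have g2 : ∀ v, g v (.inl ()) = v (.inl ()) + ψ (π v) := fun v => by simp [g, j0, e]
    have g3 : Function.Injective g := by
      rw [injective_iff_map_eq_zero]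
      intro v hv
      have a : π v = 0 := by simpa [hv] using (g1 v).symm
      have b := g2 v
      rw [hv, a, map_zero, add_zero] at b
      rw [dec v, a, ← b]; simp
    refine ⟨⟨LinearEquiv.ofInjectiveEndo g g3, CfsgH5.CForm.mem_Isom_orth.2 fun v => ?_⟩,
      Subtype.ext (LinearEquiv.ext fun v => ?_)⟩
    · change f.Q (g v) = _
      rw [hQ, hQ, g1, g2, add_sq, h2]
      have : ψ (π v) ^ 2 = Cfsg.quadFormPlus m F (s.1 (π v)) + Cfsg.quadFormPlus m F (π v) := hr _
      linear_combination this + Cfsg.quadFormPlus m F (s.1 (π v)) * h2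
    · exact (g1 _).trans (by rw [πj])

end Cfsg.Agent.S0304
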