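import Cfsg.Statements.S3994
import Mathlib
import Cfsg.Agent.L0.G2

set_option autoImplicit false
open Cfsg

namespace Cfsg.Agent.S3994

open Cfsg Subgroup CfsgH2 CfsgL0

/-- Let G be a finite group and n a positive integer. The number of elements of G whose order is divisible by n is either 0 or divisible by the largest divisor of the order of G that is coprime to n. -/
theorem result {G : Type*} [Group G] [Finite G] (n : ℕ) (hn : 0 < n) :
    Nat.card {g : G // n ∣ orderOf g} = 0 ∨
      (Nat.card G / Nat.gcd (Nat.card G) (n ^ Nat.card G)) ∣ Nat.card {g : G // n ∣ orderOf g} := by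
  have e := Nat.div_mul_cancel (Nat.gcd_dvd_left (Nat.card G) (n ^ Nat.card G))
  generalize Nat.card G / _ = d at e ⊢
  have hc : n.Coprime d := Nat.coprime_of_dvd fun p hp a b =>
    Nat.pow_succ_factorization_not_dvd (Nat.card_pos (α := G)).ne' hp (by
      rw [pow_succ']
      exact (mul_dvd_mul b (Nat.dvd_gcd (Nat.ordProj_dvd _ _) ((pow_dvd_pow _
        (Nat.factorization_lt _ Nat.card_pos.ne').le).trans (pow_dvd_pow_of_dvd a _)))).trans e.dvd)
  have := frob_pow (⊤ : Subgroup G) (m := d) (n := d) (C := {y | n ∣ orderOf y})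
    (card_top (G := G) ▸ Dvd.intro _ e) dvd_rfl fun x hx h _ => by
      rwa [Set.mem_setOf_eq, orderOf_conj']
  refine .inr (this.trans (dvd_of_eq (congrArg _ (Set.ext fun x => ⟨fun h =>
    Dvd.dvd.trans h (orderOf_pow_dvd d), fun h => hc.dvd_of_dvd_mul_left (Dvd.dvd.trans h ?_)⟩))))
  rw [orderOf_dvd_iff_pow_eq_one, pow_mul, pow_orderOf_eq_one]

end Cfsg.Agent.S3994
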