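import Cfsg.Statements.S0936
import Mathlib
import Cfsg.Agent.H4.Hgt

set_option autoImplicit false
open Cfsg

open Cfsg CfsgH3 CfsgH4 CfsgH1 CfsgL0 MonoidAlgebra

namespace Cfsg.Agent.S0936

/-- Brauer's Third Main Theorem. Let H be a subgroup of the finite group G and b a block of H (relative to a maximal ideal M of the algebraic integers containing the prime p) whose induced block in G is defined. Then b induces the principal block of G if and only if b is the principal block of H. -/
theorem result {G : Type*} [Group G] [Finite G] (p : ℕ) [Fact p.Prime] (M : Ideal Cfsg.AlgInt) (hM : Cfsg.IsPModular p M) (H : Subgroup G) (b : Set (Cfsg.IrrCharacter H)) (hdef : Cfsg.InducedBlockDefined M H b) : Cfsg.IsInducedBlock M H b (Cfsg.principalBlock M G) ↔ b = Cfsg.principalBlock M H := by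
  haveI : PMod p M := ⟨hM⟩
  have := Fintype.ofFinite G
  have := Fintype.ofFinite H
  obtain ⟨E, hE⟩ := hdef
  rw [← hE.indB.principal_iff H.subtype_injective hE.1 hE.2.1]
  exact ⟨fun h => hE.unique h, fun h => h ▸ hE⟩

end Cfsg.Agent.S0936
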