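import Cfsg.Statements.S0958
import Mathlib
import Cfsg.Agent.H4.IndB

set_option autoImplicit false
open Cfsg

open Cfsg CfsgH3 CfsgH4 CfsgH1 CfsgL0 MonoidAlgebra

namespace Cfsg.Agent.S0958

/-- Let P be a p-subgroup of the finite group G and H a subgroup with P ⊔ C_G(P) ≤ H ≤ N_G(P); fix a maximal ideal M of the algebraic integers containing p. Then a block B of G is induced by some block of H if and only if some conjugate of P is contained in a defect group of B. -/
theorem result {G : Type*} [Group G] [Finite G] (p : ℕ) [Fact p.Prime] (M : Ideal Cfsg.AlgInt) (hM : Cfsg.IsPModular p M) (P H : Subgroup G) (hP : IsPGroup p P) (hPH : P ⊔ Subgroup.centralizer (P : Set G) ≤ H) (hHN : H ≤ Subgroup.normalizer (P : Set G)) (B : Set (Cfsg.IrrCharacter G)) (hB : Cfsg.IsPBlock M B) : (∃ b : Set (Cfsg.IrrCharacter H), Cfsg.IsInducedBlock M H b B) ↔ ∃ D : Subgroup G, Cfsg.IsDefectGroup p M B D ∧ ∃ x : G, P.map (MulAut.conj x).toMonoidHom ≤ D := by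
  haveI : PMod p M := ⟨hM⟩
  have hl : BrLoc p P H := ⟨hP, le_sup_right.trans hPH, hHN, Or.inl (le_sup_left.trans hPH)⟩
  constructor
  · rintro ⟨b, hb⟩
    have h1 := (hl.isInducedBlock_iff_ne hb.1 hB).1 hb
    obtain ⟨D, hD⟩ := hB.exists_defectGroup
    obtain ⟨x, -, hx⟩ := (hB.isDefectGroup_iff.1 hD).exists_cj_le le_top hP
      (left_ne_zero_of_mul h1)
    exact ⟨D, hD, x, hx⟩
  · rintro ⟨D, hD, x, hx⟩
    have h1 := (hB.isDefectGroup_iff.1 hD).br_ne_zero (inv_eB B) (Subgroup.mem_top x) hx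
    obtain ⟨e, he, h2⟩ := exists_blk_mul_ne_zero (le_refl H) h1
    obtain ⟨b, hb, rfl⟩ := he.exists_eq_subtype
    exact ⟨b, (hl.isInducedBlock_iff_ne hb hB).2 h2⟩

end Cfsg.Agent.S0958
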