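import Cfsg.Statements.S0824
import Cfsg.Agent.H5.Ht1

set_option autoImplicit false
open Cfsg

namespace Cfsg.Agent.S0824

open CfsgH5 CfsgH5.Ht CfsgH5.CForm Module

/-- O⁻_4(2) ≅ S_5: the isometry group of the form x y + z_1² + z_1 z_2 + z_2² over the field with 2 elements is isomorphic to the symmetric group on 5 letters. -/
theorem result {F : Type*} [Field F] [Fintype F] (hF : Fintype.card F = 2) : Nonempty (↥(Cfsg.isometryGroup F (Cfsg.quadFormMinus 1 F 1 1)) ≃* Equiv.Perm (Fin 5)) := by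
  have h2 : (2 : F) = 0 := by simpa [hF] using FiniteField.cast_card_eq_zero F
  have z : ∀ a : F, a = 0 ∨ a = 1 := fun a => by
    have := FiniteField.pow_card a
    rw [hF] at this
    exact (mul_eq_zero.1 (show a * (a - 1) = 0 by linear_combination this)).imp_right sub_eq_zero.1
  have an : ∀ z₁ z₂ : F, z₁ ^ 2 + 1 * z₁ * z₂ + 1 * z₂ ^ 2 = 0 → z₁ = 0 ∧ z₂ = 0 := fun a b h => by
    rcases z a with rfl | rfl <;> rcases z b with rfl | rfl <;> simp [one_add_one_eq_two, h2] at h ⊢
  rw [← Nat.card_eq_fintype_card] at hF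
  let s : (Fin 5 → F) →ₗ[F] F := ∑ i, LinearMap.proj i
  have hs : ∀ v, v ∈ LinearMap.ker s ↔ ∑ i, v i = 0 := fun v => by simp [s]
  have nd : ((e2 F 5).res (LinearMap.ker s)).Nondeg := fun ⟨v, hv⟩ k => by
    have a : ∀ i, v i = v 0 := fun i => by
      have := k ⟨Pi.single i 1 - Pi.single 0 1, by simp [hs]⟩
      exact Eq.symm (by simpa [res_B, e2_B, sub_mul, Pi.single_apply, sub_eq_zero] using this)
    rw [hs, Finset.sum_congr rfl fun i _ => a i] at hv
    refine Subtype.ext (funext fun i => (a i).trans ?_)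
    simp at hv ⊢
    exact hv.resolve_left fun e => one_ne_zero (α := F) (by linear_combination e - 2 * h2)
  have d : finrank F (LinearMap.ker s) = 4 := by
    have := s.finrank_range_add_finrank_ker
    rw [LinearMap.range_eq_top.2 fun a => ⟨Pi.single 0 a, by simp [s]⟩] at this
    simp at this
    omega
  have m : ∀ σ, pm F 5 σ ∈ stabS F (LinearMap.ker s : Set _) := fun σ v => by
    simp only [SetLike.mem_coe, hs, pm_apply, σ.symm.sum_comp v]
  let φ : Equiv.Perm (Fin 5) →* ((e2 F 5).res (LinearMap.ker s)).Isom :=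
    ((resHom _).comp ((pm F 5).codRestrict _ m)).codRestrict _ fun σ => mem_Isom_orth.2 fun v => Isom_Q _ (pm_mem σ) v.1
  have i : Function.Injective φ := (injective_iff_map_eq_one _).2 fun σ k => pm_inj h2 le_rfl fun v l =>
    ⟨0, (congrArg (fun g => (g.1 ⟨v, (hs v).2 l⟩).1) k).trans (by simp)⟩
  have c := orth_card_even 1 nd d
  have : Finite (LinearMap.ker s ≃ₗ[F] LinearMap.ker s) := DFunLike.finite _
  have p : ¬ ((e2 F 5).res (LinearMap.ker s)).IsPlus := fun p => by
    have := Subgroup.card_dvd_of_injective φ i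
    rw [p.sgn, hF] at c
    zify at this
    rw [c, Nat.card_perm] at this
    simp [oOrd, Nat.factorial] at this
  obtain ⟨e, he⟩ := orth_exists_isIso_even 2 (minusQ_nondeg 1 an) nd (by simp) d (iff_of_false (minusQ_not_isPlus 1 an) p)
  refine ⟨(orthEquiv (minusQ 1 1 1)).trans (he.isomEquiv.trans (MulEquiv.ofBijective φ
    ((Nat.bijective_iff_injective_and_card _).2 ⟨i, ?_⟩)).symm)⟩
  zify
  rw [c, sgn_of_not p, hF, Nat.card_perm]
  simp [oOrd, Nat.factorial]

end Cfsg.Agent.S0824
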