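import Cfsg.Statements.S0414
import Cfsg.Agent.H1.St4

set_option autoImplicit false
open Cfsg

namespace Cfsg.Agent.S0414

/-- Aut of an S(3, 6, 22) has order 887040, is 3-transitive, and contains a simple subgroup of index 2. -/
theorem result {α : Type*} [Fintype α] [DecidableEq α] (hα : Fintype.card α = 22) {B : Set (Finset α)} (hB : Cfsg.IsSteinerSystem 3 6 B) : Nat.card (Cfsg.setSystemAut B) = 887040 ∧ MulAction.IsMultiplyPretransitive (Cfsg.setSystemAut B) α 3 ∧ ∃ H : Subgroup (Cfsg.setSystemAut B), H.index = 2 ∧ Cfsg.IsM22 H := by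
  open CfsgH1.St CfsgH1.Un CfsgH7 CfsgH7.Gol Finset in
  open scoped commutatorElement in
  · open Pointwise in
    obtain ⟨ι, h⟩ := n22 hα hB
    obtain ⟨φ, hφ⟩ := a22 h
    have le : K22 ≤ K2 := fun g hg => by
      show g • S 0x800001 = S 0x800001
      rw [Z2_eq, smul_finset_insert, smul_finset_singleton, hg.1, hg.2]
    have c := (Nat.card_congr φ.toEquiv).symm.trans card2
    refine ⟨c, mpt_of φ hφ 3 fun x y => ?_, (K22.subgroupOf K2).map φ.toMonoidHom, ?_⟩
    · have m : ∀ a, ι a ∈ (Set.univ \ {px 23}) \ {px 0} := fun a => by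
        have := mem_of h.rng a
        simp only [Z2_eq, mem_compl, mem_insert, mem_singleton, not_or] at this
        exact ⟨⟨trivial, this.1⟩, this.2⟩
      obtain ⟨z, hz, e⟩ := cons_tr (A := Set.univ \ {px 23}) (px 0) ⟨trivial, by decide +kernel⟩ (cons_tr (px 23) (Set.mem_univ _) tr24) _ _
        (ι.injective.comp x.injective) (ι.injective.comp y.injective) (fun _ => m _) fun _ => m _
      exact ⟨z, le ⟨hz.1.2, hz.2⟩, e⟩
    · let ψ := (Subgroup.subgroupOfEquivOfLe le).symm.trans (φ.subgroupMap (K22.subgroupOf K2))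
      have c2 := (Nat.card_congr ψ.toEquiv).symm.trans card22
      refine ⟨?_, haveI := simple22; ψ.symm.isSimpleGroup, c2⟩
      have := ((K22.subgroupOf K2).map φ.toMonoidHom).card_mul_index
      rw [c] at this
      erw [c2] at this
      omega

end Cfsg.Agent.S0414
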