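import Cfsg.Statements.S0428
import Cfsg.Agent.H1.St2

set_option autoImplicit false
open Cfsg

namespace Cfsg.Agent.S0428

/-- The point-block graph of an S(3, 6, 22) is strongly regular with parameters (100, 22, 0, 6). -/
theorem result {α : Type*} [Fintype α] (hα : Fintype.card α = 22) {B : Set (Finset α)} (hB : Cfsg.IsSteinerSystem 3 6 B) [Fintype B] [DecidableRel (Cfsg.pointBlockGraph B).Adj] : (Cfsg.pointBlockGraph B).IsSRGWith 100 22 0 6 := by
  open CfsgH1.St Finset in
  open scoped commutatorElement in
  · classical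
    have ne : ∀ {b c : B}, Disjoint (b : Finset α) c → b ≠ c := by
      rintro b _ h rfl
      have := hB.1 b b.2
      rw [disjoint_self.1 h] at this; simp at this
    have cnt : ∀ (p : Finset α → Prop) [DecidablePred p], (univ.filter fun b : B => p b).card = ((bl B).filter p).card := by
      intro p _
      exact card_bij (fun b _ => b.1) (fun b hb => by simpa using hb) (fun _ _ _ _ h => Subtype.ext h)
        (fun b hb => ⟨⟨b, by simp at hb; exact hb.1⟩, by simp at hb ⊢; exact hb.2, rfl⟩)
    have sp : ∀ (P : Option (α ⊕ B) → Prop) [DecidablePred P], (univ.filter P).card = (if P none then 1 else 0) +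
        (univ.filter fun a => P (some (Sum.inl a))).card + (univ.filter fun b => P (some (Sum.inr b))).card := by
      intro P _
      simp only [card_filter, Fintype.sum_option, Fintype.sum_sum_type, add_assoc]
    have a1 : ¬ (Cfsg.pointBlockGraph B).Adj none none := (Cfsg.pointBlockGraph B).loopless.irrefl _
    have a2 : ∀ a, (Cfsg.pointBlockGraph B).Adj none (some (Sum.inl a)) := fun a => by
      simp [Cfsg.pointBlockGraph, Cfsg.pointBlockRel]
    have a3 : ∀ b, ¬ (Cfsg.pointBlockGraph B).Adj none (some (Sum.inr b)) := fun a => by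
      simp [Cfsg.pointBlockGraph, Cfsg.pointBlockRel]
    have a4 : ∀ a a', ¬ (Cfsg.pointBlockGraph B).Adj (some (Sum.inl a)) (some (Sum.inl a')) := fun a a' => by
      simp [Cfsg.pointBlockGraph, Cfsg.pointBlockRel]
    have a5 : ∀ a (b : B), (Cfsg.pointBlockGraph B).Adj (some (Sum.inl a)) (some (Sum.inr b)) ↔ a ∈ (b : Finset α) := fun a a' => by
      simp [Cfsg.pointBlockGraph, Cfsg.pointBlockRel]
    have a6 : ∀ b c : B, (Cfsg.pointBlockGraph B).Adj (some (Sum.inr b)) (some (Sum.inr c)) ↔ Disjoint (b : Finset α) c := fun b c => by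
      simp only [Cfsg.pointBlockGraph, Cfsg.pointBlockRel, SimpleGraph.fromRel_adj]
      exact ⟨fun h => h.2.elim id fun h => h.symm, fun h => ⟨by simpa using ne h, Or.inl h⟩⟩
    have a2' : ∀ a, (Cfsg.pointBlockGraph B).Adj (some (Sum.inl a)) none := fun a => (a2 a).symm
    have a3' : ∀ b, ¬ (Cfsg.pointBlockGraph B).Adj (some (Sum.inr b)) none := fun a h => a3 a h.symm
    have a5' : ∀ a (b : B), (Cfsg.pointBlockGraph B).Adj (some (Sum.inr b)) (some (Sum.inl a)) ↔ a ∈ (b : Finset α) := fun a b => by
      rw [(Cfsg.pointBlockGraph B).adj_comm, a5]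
    have com : ∀ x y, Fintype.card ((Cfsg.pointBlockGraph B).commonNeighbors x y) = (univ.filter fun z => (Cfsg.pointBlockGraph B).Adj x z ∧ (Cfsg.pointBlockGraph B).Adj y z).card := by
      intro x y
      rw [← Set.toFinset_card]
      congr 1; ext d; simp [SimpleGraph.mem_commonNeighbors]
    have l1 : ∀ a : α, ((bl B).filter fun b => a ∈ b).card = 21 := fun a => by
      have := lam_small hB (by norm_num) hα (s := {a}) (by simp)
      rw [card_singleton, show A 22 3 6 1 = 21 by decide +kernel] at this
      simpa [lam] using this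
    have l2 : ∀ a a' : α, a ≠ a' → ((bl B).filter fun b => a ∈ b ∧ a' ∈ b).card = 5 := fun a a' h => by
      have := lam_small hB (by norm_num) hα (s := {a, a'}) (by simp [card_pair h])
      rw [card_pair h, show A 22 3 6 2 = 5 by decide +kernel] at this
      simpa [lam, insert_subset_iff] using this
    have c1 : ∀ a, (univ.filter fun z => (Cfsg.pointBlockGraph B).Adj none z ∧ (Cfsg.pointBlockGraph B).Adj (some (Sum.inl a)) z).card = 0 := fun a => by
      rw [sp]; simp [a1, a3, a4]
    have c2 : ∀ b : B, (univ.filter fun z => (Cfsg.pointBlockGraph B).Adj none z ∧ (Cfsg.pointBlockGraph B).Adj (some (Sum.inr b)) z).card = 6 := fun b => by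
      rw [sp]; simp [a1, a2, a3, a5', hB.1 b b.2]
    have c3 : ∀ a a', a ≠ a' →
        (univ.filter fun z => (Cfsg.pointBlockGraph B).Adj (some (Sum.inl a)) z ∧ (Cfsg.pointBlockGraph B).Adj (some (Sum.inl a')) z).card = 6 := fun a a' h => by
      rw [sp]; simp only [a2', a4, a5]
      rw [cnt (fun b => a ∈ b ∧ a' ∈ b), l2 a a' h]; simp
    have c4 : ∀ a (b : B), (univ.filter fun z => (Cfsg.pointBlockGraph B).Adj (some (Sum.inl a)) z ∧ (Cfsg.pointBlockGraph B).Adj (some (Sum.inr b)) z).card =
        if a ∈ (b : Finset α) then 0 else 6 := fun a b => by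
      rw [sp]; simp only [a3', a4, a5, a6]
      rw [cnt (fun c => a ∈ c ∧ Disjoint (b : Finset α) c)]
      by_cases h : a ∈ (b : Finset α)
      · simp only [false_and, and_false, if_false, if_pos h, filter_false, card_empty, zero_add, card_eq_zero,
          filter_eq_empty_iff]
        exact fun c _ h1 => disjoint_left.1 h1.2 h h1.1
      · rw [pt22 hα hB b.2 h]; simp [h]
    have c5 : ∀ b c : B, b ≠ c → (univ.filter fun z => (Cfsg.pointBlockGraph B).Adj (some (Sum.inr b)) z ∧ (Cfsg.pointBlockGraph B).Adj (some (Sum.inr c)) z).card =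
        3 * ((b : Finset α) ∩ c).card := fun b c h => by
      rw [sp]; simp only [a3', a5', a6]
      rw [cnt (fun d => Disjoint (b : Finset α) d ∧ Disjoint (c : Finset α) d),
        com22 hα hB b.2 c.2 (fun e => h (Subtype.ext e))]
      have : (univ.filter fun a => a ∈ (b : Finset α) ∧ a ∈ (c : Finset α)) = (b : Finset α) ∩ c := by ext; simp
      rw [this]; simp; omega
    have sw : ∀ x y, (univ.filter fun z => (Cfsg.pointBlockGraph B).Adj x z ∧ (Cfsg.pointBlockGraph B).Adj y z) = univ.filter fun z => (Cfsg.pointBlockGraph B).Adj y z ∧ (Cfsg.pointBlockGraph B).Adj x z := by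
      intro x y; simp only [and_comm]
    refine ⟨?_, fun x => ?_, fun x y h => ?_, fun x y h h' => ?_⟩
    · have := cnt (fun _ => True)
      rw [filter_true, filter_true, card_bl hB (by norm_num) hα, card_univ, ← Nat.card_eq_fintype_card] at this
      rw [← Nat.card_eq_fintype_card, Finite.card_option, Nat.card_sum, this, Nat.card_eq_fintype_card, hα]
      decide +kernel
    · rw [← SimpleGraph.card_neighborFinset_eq_degree, SimpleGraph.neighborFinset_eq_filter, sp]
      rcases x with _ | a | b
      · simp [a1, a2, a3, hα]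
      · simp only [a2', a4, a5]; rw [cnt (fun b => a ∈ b), l1]; simp
      · simp only [a3', a5', a6]; rw [cnt (fun c => Disjoint (b : Finset α) c), deg22 hα hB b.2]
        simp [hB.1 b b.2]
    · rw [com]
      rcases x with _ | a | b <;> rcases y with _ | a' | b'
      · exact absurd h a1
      · exact c1 _
      · exact absurd h (a3 _)
      · rw [sw]; exact c1 _
      · exact absurd h (a4 _ _)
      · rw [c4, if_pos ((a5 _ _).1 h)]
      · exact absurd h (a3' _)
      · rw [sw, c4, if_pos ((a5' _ _).1 h)]
      · rw [c5 _ _ (ne ((a6 _ _).1 h)), disjoint_iff_inter_eq_empty.1 ((a6 _ _).1 h)]; rfl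
    · rw [com]
      rcases x with _ | a | b <;> rcases y with _ | a' | b'
      · exact absurd rfl h
      · exact absurd (a2 _) h'
      · exact c2 _
      · exact absurd (a2' _) h'
      · exact c3 _ _ fun e => h (by rw [e])
      · rw [c4, if_neg fun e => h' ((a5 _ _).2 e)]
      · rw [sw]; exact c2 _
      · rw [sw, c4, if_neg fun e => h' ((a5' _ _).2 e)]
      · have hn : b ≠ b' := fun e => h (by rw [e])
        rw [c5 _ _ hn]
        rcases i22 hα hB b.2 b'.2 (fun e => hn (Subtype.ext e)) with e | e
        · exact absurd ((a6 _ _).2 (disjoint_iff_inter_eq_empty.2 (card_eq_zero.1 e))) h'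
        · rw [e]

end Cfsg.Agent.S0428
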