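import Cfsg.Statements.S0430
import Cfsg.Agent.H1.St5

set_option autoImplicit false
open Cfsg

namespace Cfsg.Agent.S0430

/-- Uniqueness of the strongly regular graph with parameters (100, 22, 0, 6). -/
theorem result {V W : Type*} [Fintype V] [Fintype W] {G : SimpleGraph V} {H : SimpleGraph W} [DecidableRel G.Adj] [DecidableRel H.Adj] (hG : G.IsSRGWith 100 22 0 6) (hH : H.IsSRGWith 100 22 0 6) : Nonempty (G ≃g H) := by
  open CfsgH1.St CfsgH1.Un CfsgH7 CfsgH7.Gol Finset in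
  open scoped commutatorElement in
  · classical
    obtain ⟨v⟩ : Nonempty V := Fintype.card_pos_iff.1 (by rw [hG.card]; norm_num)
    obtain ⟨w⟩ : Nonempty W := Fintype.card_pos_iff.1 (by rw [hH.card]; norm_num)
    obtain ⟨B, h1, ⟨e⟩⟩ := srg100 hG v
    obtain ⟨B', h2, ⟨e'⟩⟩ := srg100 hH w
    obtain ⟨ι, h⟩ := n22 (by rw [SimpleGraph.card_neighborSet_eq_degree, hG.regular v]) h1
    obtain ⟨ι', h'⟩ := n22 (by rw [SimpleGraph.card_neighborSet_eq_degree, hH.regular w]) h2
    obtain ⟨i⟩ := pb_iso (h.iso h')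
    exact ⟨(e.symm.trans i).trans e'⟩

end Cfsg.Agent.S0430
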