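import Cfsg.Statements.S0033
import Cfsg.Agent.H3.Thompson

set_option autoImplicit false
open Cfsg

namespace Cfsg.Agent.S0033
open CfsgH3

/-- Thompson's Theorem on fixed-point-free automorphisms: a finite group with an automorphism of prime order fixing only the identity is nilpotent. -/
theorem result {G : Type*} [Group G] [Finite G] (φ : G ≃* G)
    (hφ : MonoidHom.FixedPointFree (φ : G →* G)) (p : ℕ) (hp : p.Prime) (hord : orderOf φ = p) :
    Group.IsNilpotent G := by
  obtain ⟨X, _, _, i, j, hi, hj, hc, hn, -, -⟩ :=
    CfsgH1.exists_ambient (G := G) (Subgroup.zpowers (show MulAut G from φ)).subtype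
  have h1 : Group.IsNilpotent (Subgroup.map i ⊤) := by
    refine nilpotent_of_fpf (A := Subgroup.map j ⊤) (by rw [Subgroup.normalizer_eq_top]; exact le_top) ?_ ?_
    · intro h
      have h2 : j ⟨φ, Subgroup.mem_zpowers _⟩ = j 1 := by
        rw [map_one, ← Subgroup.mem_bot, ← h]; exact ⟨_, trivial, rfl⟩
      have h3 : φ = 1 := congrArg Subtype.val (hj h2)
      rw [h3, orderOf_one] at hord
      exact hp.one_lt.ne hord
    · rintro _ ⟨a, -, rfl⟩ a1
      rw [eq_bot_iff]
      rintro _ ⟨⟨g, -, rfl⟩, hg⟩
      have h2 : i (a.1 g) = i g := by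
        have := hc a g
        have hg' := Subgroup.mem_centralizer_singleton_iff.1 hg
        rw [← hg', mul_inv_cancel_right] at this
        exact this.symm
      have h3 := hi h2
      have h4 : a.1 ≠ 1 := fun e => a1 (by rw [show a = 1 from Subtype.ext e, map_one])
      have h5 : (show MulAut G from φ) ∈ Subgroup.zpowers a.1 := by
        rw [CfsgH2.zpowers_eq_of_prime (K := Subgroup.zpowers (show MulAut G from φ))
          (by rw [Nat.card_zpowers]; exact hord ▸ hp) a.2 h4]
        exact Subgroup.mem_zpowers _
      obtain ⟨k, hk⟩ := h5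
      have h6 : φ g = g := by
        have : a.1 ∈ MulAction.stabilizer (MulAut G) g := h3
        have := zpow_mem this k
        simp only at hk
        rw [hk] at this
        exact this
      rw [hφ g h6, map_one]
      exact Subgroup.mem_bot.2 rfl
  exact nilpotent_of_mulEquiv ((Subgroup.topEquiv.symm.trans
    (Subgroup.equivMapOfInjective ⊤ i hi)).symm)


end Cfsg.Agent.S0033
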