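import Cfsg.Statements.S0989
import Cfsg.Agent.H1.Misc1
import Cfsg.Agent.H2.BG0

set_option autoImplicit false
open Cfsg

namespace Cfsg.Agent.S0989

/-- In the symmetric group on p or p + 1 letters, p a prime, the normalizer of a Sylow p-subgroup has order p * (p - 1). -/
theorem result {α : Type*} [Fintype α] [DecidableEq α] (p : ℕ) [Fact p.Prime] (hα : Fintype.card α = p ∨ Fintype.card α = p + 1) (P : Sylow p (Equiv.Perm α)) : Nat.card ↥(Subgroup.normalizer ((P : Subgroup (Equiv.Perm α)) : Set (Equiv.Perm α))) = p * (p - 1) := by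
  open Subgroup CfsgH2 in
  open CfsgH1 hiding card_inf_mul_relIndex card_lt_of_lt card_lt_of_ne_top card_map_mul_card_inf_ker card_mul_relIndex card_subgroupOf card_sup_dvd card_sup_mul_card_inf coprime_le_sup_cent exists_card_prime_le isNilpotent_map isNilpotent_of_le isPGroup_pCore isSolvable_map isSolvable_of_le le_pCore le_pPrimeCore relIndex_map_dvd in
  open scoped CfsgH1 in
  open scoped commutatorElement in
  · have pp : p.Prime := Fact.out
    have p2 := pp.two_le
    have hS := syl_top P
    have c : o[(P : Subgroup (Equiv.Perm α))] = p := by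
      rw [P.card_eq_multiplicity, Nat.card_perm, Nat.card_eq_fintype_card]
      have : (Nat.factorial p).factorization p = 1 := by simpa using Nat.factorization_factorial_mul (n := 1) pp
      rcases hα with e | e <;> rw [e]
      · rw [this, pow_one]
      · rw [Nat.factorial_succ, Nat.factorization_mul (by omega) (Nat.factorial_ne_zero _), Finsupp.add_apply, this,
          Nat.factorization_eq_zero_of_not_dvd (by simpa using pp.ne_one), pow_one]
    generalize (P : Subgroup (Equiv.Perm α)) = Q at *
    have t : ∀ y ∈ Q, y ≠ 1 → y.cycleType = {p} := fun y hy y1 => by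
      have o : orderOf y = p := by rw [← Nat.card_zpowers, zpowers_eq_of_prime (c ▸ pp) hy y1, c]
      have := Equiv.Perm.isCycle_of_prime_order' (o ▸ pp) (by omega)
      rw [this.cycleType, ← this.orderOf, o]
    obtain ⟨⟨x, hx⟩, x1⟩ := ne_bot_iff_exists_ne_one.1 fun e : Q = ⊥ => by rw [e, card_bot] at c; omega
    replace x1 : x ≠ 1 := fun e => x1 (Subtype.ext e)
    have e := zpowers_eq_of_prime (c ▸ pp) hx x1
    have k := Equiv.Perm.nat_card_centralizer x
    rw [t x hx x1] at k
    replace k : o[C1[x]] = p := by rcases hα with e | e <;> simpa [e] using k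
    have l : C1[x] ≤ N[Q] := by rw [← cent_zpowers, e]; exact cent_le_norm _
    rw [← card_mul_relIndex l, k]
    congr 1
    letI : MulAction N[Q] (Equiv.Perm α) := MulAction.compHom _ ((MulAut.conj : _ →* MulAut _).comp N[Q].subtype)
    have h1 : MulAction.stabilizer N[Q] x = C1[x].subgroupOf N[Q] := Subgroup.ext fun y =>
      (mul_inv_eq_iff_eq_mul (a := y.1 * x)).trans mem_centralizer_singleton_iff.symm
    rw [relIndex, ← h1, MulAction.index_stabilizer, ← c]
    refine Eq.trans (congrArg _ (Set.ext fun y => ?_)) (Set.ncard_diff_singleton_of_mem (one_mem Q))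
    refine ⟨fun ⟨g, hg⟩ => hg ▸ ⟨conj_mem_of_norm g.2 hx, fun d => x1 (conj_eq_one_iff.1 d)⟩, fun hy => ?_⟩
    obtain ⟨g, hg⟩ := isConj_iff.1 (Equiv.Perm.isConj_iff_cycleType_eq.2 ((t x hx x1).trans (t y hy.1 hy.2).symm))
    exact ⟨⟨g, mem_norm_of_map_le (by rw [← e, MonoidHom.map_zpowers, e, zpowers_le]; exact (hg ▸ hy.1 : g * x * g⁻¹ ∈ Q))⟩, hg⟩

end Cfsg.Agent.S0989
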