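import Cfsg.Statements.S0710
import Cfsg.Agent.H1.Misc1
import Cfsg.Agent.H2.BG0
import Cfsg.Agent.H1.Sm3
import Cfsg.Agent.S0989

set_option autoImplicit false
open Cfsg

namespace Cfsg.Agent.S0710

/-- No transitive permutation group on 13 points has order `13 * 12 * 11 * 10 * 9 * 8`. -/
theorem result {α : Type*} [Fintype α] [DecidableEq α] (hα : Fintype.card α = 13) (G : Subgroup (Equiv.Perm α)) [MulAction.IsPretransitive G α] : Nat.card G ≠ 13 * 12 * 11 * 10 * 9 * 8 := by
  open Subgroup CfsgH2 in
  open CfsgH1 hiding card_inf_mul_relIndex card_lt_of_lt card_lt_of_ne_top card_map_mul_card_inf_ker card_mul_relIndex card_subgroupOf card_sup_dvd card_sup_mul_card_inf coprime_le_sup_cent exists_card_prime_le isNilpotent_map isNilpotent_of_le isPGroup_pCore isSolvable_map isSolvable_of_le le_pCore le_pPrimeCore relIndex_map_dvd in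
  open scoped CfsgH1 in
  open scoped commutatorElement in
  · intro h
    haveI : Fact (Nat.Prime 13) := ⟨by norm_num⟩
    obtain ⟨P, hP⟩ := exists_syl (p := 13) G
    have c : o[P] = 13 := by rw [hP.card_eq, CfsgSm.fact_eq (k := 1) (m := 95040) Fact.out h (by norm_num)]; rfl
    obtain ⟨Q, rfl⟩ := (hP.trans le_top fun d => by
      have := G.card_mul_index
      rw [relIndex_top_right] at d
      obtain ⟨m, hm⟩ := d
      rw [h, hm, Nat.card_perm, Nat.card_eq_fintype_card, hα] at this
      norm_num [Nat.factorial] at this; omega).exists_top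
    have k := S0989.result 13 (Or.inl hα) Q
    have m := (syl_iff.2 hP).relIndex_normalizer_modEq
    have i := card_inf_mul_relIndex N[(Q : Subgroup (Equiv.Perm α))] G
    have d1 := k ▸ card_dvd_of_le (inf_le_right : G ⊓ N[(Q : Subgroup (Equiv.Perm α))] ≤ _)
    obtain ⟨e, he⟩ := c ▸ card_dvd_of_le (le_inf hP.le le_normalizer)
    rw [he] at d1
    have d2 := Nat.le_of_dvd (by norm_num) d1
    simp only [inf_comm N[(Q : Subgroup (Equiv.Perm α))], he, h] at i
    unfold Nat.ModEq at m
    have : e < 13 := by omega
    interval_cases e <;> omega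

end Cfsg.Agent.S0710
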