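import Cfsg.Statements.S0006
import Cfsg.Agent.H1.Schmidt

set_option autoImplicit false
open Cfsg

namespace Cfsg.Agent.S0006

/-- Converse of Hall's Theorem: if for every prime p a finite group has a subgroup of index equal to the p-part of the group order (a Hall p-complement), then the group is solvable. -/
theorem result {G : Type*} [Group G] [Finite G]
    (h : ∀ p : ℕ, p.Prime → ∃ H : Subgroup G, H.index = p ^ (Nat.card G).factorization p) :
    Group.IsSolvable G := by
  open Pointwise Subgroup CfsgH1 in
  open CfsgH2 hiding card_inf_mul_relIndex card_lt_of_lt card_lt_of_ne_top card_map_mul_card_inf_ker card_mul_relIndex card_subgroupOf card_sup_dvd card_sup_mul_card_inf exists_card_prime_le isNilpotent_map isNilpotent_of_le isPGroup_pCore isSolvable_map isSolvable_of_le le_pCore le_pPrimeCore relIndex_map_dvd in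
  open scoped CfsgH2 in
  open scoped commutatorElement in
  · rw [← isSolvable_top_iff]
    refine isSolvable_of_hall_compl _ fun p hp _ => ?_
    obtain ⟨H, hH⟩ := h p hp
    exact ⟨H, (hallIn_compl_singleton_iff hp).2 ⟨le_top, by rwa [relIndex_top_right, card_top]⟩⟩

end Cfsg.Agent.S0006
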