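import Cfsg.Statements.S0014
import Cfsg.Agent.H1.Frattini

set_option autoImplicit false
open Cfsg

namespace Cfsg.Agent.S0014

/-- Burnside's basis Theorem: in a finite p-group whose Frattini quotient has order p ^ n, every generating set contains n elements that already generate, and no set with fewer than n elements generates. -/
theorem result {G : Type*} [Group G] [Finite G] (p n : ℕ) [Fact p.Prime]
    (hG : IsPGroup p G) (hn : (frattini G).index = p ^ n) :
    (∀ S : Finset G, Subgroup.closure (S : Set G) = ⊤ → ∃ T : Finset G, T ⊆ S ∧ T.card = n ∧ Subgroup.closure (T : Set G) = ⊤) ∧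
    (∀ T : Finset G, Subgroup.closure (T : Set G) = ⊤ → n ≤ T.card) := by
  have := hG.isNilpotent
  have hc : IsMulCommutative (G ⧸ frattini G) :=
    Subgroup.Normal.quotient_commutative_iff_commutator_le.mpr CfsgH1.commutator_le_frattini
  have hpow : ∀ x : G ⧸ frattini G, x ^ p = 1 := fun x => by
    obtain ⟨x, rfl⟩ := QuotientGroup.mk_surjective x
    rw [← QuotientGroup.mk_pow, QuotientGroup.eq_one_iff]
    exact CfsgH1.pow_mem_frattini hG x
  have key : ∀ S : Finset G, Subgroup.closure (S : Set G) = ⊤ →
      ∃ T : Finset G, T ⊆ S ∧ T.card = n ∧ Subgroup.closure (T : Set G) = ⊤ := by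
    intro S hS
    obtain ⟨T, hT, h1, h2⟩ := CfsgH1.exists_basis_subset (Fact.out : p.Prime) hpow
      (QuotientGroup.mk' (frattini G)) S
    rw [← MonoidHom.map_closure] at h2
    rw [← MonoidHom.map_closure, ← MonoidHom.map_closure, hS,
      Subgroup.map_top_of_surjective _ (QuotientGroup.mk'_surjective _)] at h1
    refine ⟨T, hT, ?_, frattini_nongenerating ((CfsgH1.map_mk'_eq_top_iff _).mp h1)⟩
    rw [h1, Subgroup.card_top, ← Subgroup.index_eq_card, hn] at h2
    exact (Nat.pow_right_injective (Fact.out : p.Prime).two_le h2).symm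
  refine ⟨key, fun T hT => ?_⟩
  obtain ⟨U, hU, h1, -⟩ := key T hT
  exact h1 ▸ Finset.card_le_card hU

end Cfsg.Agent.S0014
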