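import Cfsg.Statements.S0015
import Cfsg.Agent.H1.Schmidt

set_option autoImplicit false
open Cfsg

namespace Cfsg.Agent.S0015

/-- In a finite nilpotent group, an abelian normal subgroup that is maximal among abelian normal subgroups equals its own centralizer. -/
theorem result {G : Type*} [Group G] [Finite G] [Group.IsNilpotent G]
    (N : Subgroup G) [N.Normal] [IsMulCommutative N]
    (hmax : ∀ M : Subgroup G, M.Normal → IsMulCommutative M → N ≤ M → M = N) :
    Subgroup.centralizer (N : Set G) = N := by
  open Pointwise Subgroup CfsgH1 in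
  open CfsgH2 hiding card_inf_mul_relIndex card_lt_of_lt card_lt_of_ne_top card_map_mul_card_inf_ker card_mul_relIndex card_subgroupOf card_sup_dvd card_sup_mul_card_inf exists_card_prime_le isNilpotent_map isNilpotent_of_le isPGroup_pCore isSolvable_map isSolvable_of_le le_pCore le_pPrimeCore relIndex_map_dvd in
  open scoped CfsgH2 in
  open scoped commutatorElement in
  · refine le_antisymm ?_ (le_cent_self ‹_›)
    by_contra hc
    have hn : ∀ H : Subgroup G, H ≤ N[N] := fun H => le_normalizer_of_normal
    haveI := isNilpotent_qt (K := N) (A := ⊤) inferInstance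
    obtain ⟨y, ⟨h1, h2⟩, h3⟩ := exists_ne_one (inf_centralizer_ne_bot_of_isNilpotent (U := qt N C[N])
      (L := qt N ⊤) (qt_mono le_top) (qt_le_norm le_normalizer_of_normal)
      fun h => hc ((qt_eq_bot (hn _)).1 h))
    obtain ⟨x, hx, rfl⟩ := mem_qt.1 h1
    have h4 : ⁅zpowers (x : G), ⊤⁆ ≤ N := by
      rw [← qt_le_cent_iff (hn _) (hn _), qt_zpowers x.2]; exact zpowers_le.2 h2
    have := hmax (N ⊔ zpowers (x : G)) (normal_of_top_le_norm (le_norm_of_comm_le
      (commutator_sup_le (hn _) (hn _) (comm_le_left (hn _)) h4) le_sup_left))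
      (isMulComm_sup_zpowers ‹_› hx) le_sup_left
    exact h3 (qmk_eq_one.2 (this.le (mem_sup_right (mem_zpowers _))))

end Cfsg.Agent.S0015
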