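import Cfsg.Statements.S0016
import Cfsg.Agent.H2.MaxCl3

set_option autoImplicit false
open Cfsg

namespace Cfsg.Agent.S0016
open CfsgH2

/-- A finite p-group in which only one subgroup has order p is either cyclic or (with p = 2) isomorphic to a generalized quaternion group. -/
theorem result {G : Type*} [Group G] [Finite G] (p : ℕ) [Fact p.Prime]
    (hG : IsPGroup p G) (huniq : ∀ H K : Subgroup G, Nat.card H = p → Nat.card K = p → H = K) :
    IsCyclic G ∨ (p = 2 ∧ ∃ n : ℕ, Nonempty (G ≃* QuaternionGroup (2 ^ n))) := by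
  open Subgroup Function in
  have h1 : prk p (⊤ : Subgroup G) ≤ 1 := by
    by_contra h
    obtain ⟨E, -, hE⟩ := exists_el_of_le (show 2 ≤ prk p (⊤ : Subgroup G) by omega)
    obtain ⟨A, a1, a2⟩ := hE.exists_le (show 1 ≤ 2 by omega)
    obtain ⟨B, b1, b2⟩ := exists_compl_of_elem Fact.out hE.el a1
    have hc := card_sup_of_disj (Or.inl ((a1.trans (le_cent_of_comm hE.comm (b2 ▸ le_sup_right))).trans
      (cent_le_norm _))) b1
    have hp : p.Prime := Fact.out
    have ha : Nat.card A = p := by simpa using a2.card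
    rw [b2, hE.card, ha, pow_two] at hc
    have hb := (Nat.eq_of_mul_eq_mul_left hp.pos hc).symm
    rw [← huniq A B ha hb, inf_idem] at b1
    exact ne_bot_of_card_prime (ha ▸ hp) b1
  rcases cyc_or_quat (isPGroup_top_iff.2 hG) h1 with h | ⟨h, a, b, m, h2, h3, h4⟩
  · exact Or.inl (isCyclic_top_iff.1 h)
  · exact Or.inr ⟨h, m, ⟨topEquiv.symm.trans (h2.toCy2.quaternion h3 h4).some⟩⟩

end Cfsg.Agent.S0016
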