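import Cfsg.Statements.S0018
import Cfsg.Agent.H1.Carter

set_option autoImplicit false
open Cfsg

namespace Cfsg.Agent.S0018

/-- A finite solvable group whose Sylow p-subgroups are abelian has p-length one: a Sylow p-subgroup together with the largest normal subgroup of order prime to p generates a normal subgroup. -/
theorem result {G : Type*} [Group G] [Finite G] [Group.IsSolvable G]
    (p : ℕ) [Fact p.Prime] (P : Sylow p G) (hP : IsMulCommutative P) :
    ((P : Subgroup G) ⊔ Cfsg.pPrimeCore p G).Normal := by
  have hQ := CfsgH1.centralizer_pCore_le (CfsgH1.isPSolvable_of_isSolvable (Fact.out : p.Prime))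
    (CfsgH1.pPrimeCore_quotient_pPrimeCore (G := G) p)
  refine CfsgH1.normal_sup_of_map_mk' ?_
  have hP' := (CfsgH1.isSylowIn_top P).map (QuotientGroup.mk' (Cfsg.pPrimeCore p G))
  have h1 := hP'.ge_of_le_normalizer (CfsgH1.isPGroup_pCore p) (by
    rw [Subgroup.map_top_of_surjective _ (QuotientGroup.mk'_surjective _)]; exact le_top)
    Subgroup.le_normalizer_of_normal
  rw [le_antisymm (((Subgroup.le_centralizer _).trans (Subgroup.centralizer_le h1)).trans hQ) h1]
  infer_instance

end Cfsg.Agent.S0018
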