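import Cfsg.Statements.S0019
import Cfsg.Agent.H1.Schmidt

set_option autoImplicit false
open Cfsg

namespace Cfsg.Agent.S0019

/-- A finite group that factorises as H₁H₂ and as H₁H₃ with all three subgroups solvable and the indices of H₂ and H₃ coprime is solvable. -/
theorem result {G : Type*} [Group G] [Finite G] (H₁ H₂ H₃ : Subgroup G)
    (h₁ : Group.IsSolvable H₁) (h₂ : Group.IsSolvable H₂) (h₃ : Group.IsSolvable H₃)
    (h12 : ∀ g : G, ∃ x ∈ H₁, ∃ y ∈ H₂, g = x * y) (h13 : ∀ g : G, ∃ x ∈ H₁, ∃ y ∈ H₃, g = x * y)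
    (hcop : H₂.index.Coprime H₃.index) : Group.IsSolvable G := by
  open Pointwise Subgroup CfsgH1 in
  open CfsgH2 hiding card_inf_mul_relIndex card_lt_of_lt card_lt_of_ne_top card_map_mul_card_inf_ker card_mul_relIndex card_subgroupOf card_sup_dvd card_sup_mul_card_inf exists_card_prime_le isNilpotent_map isNilpotent_of_le isPGroup_pCore isSolvable_map isSolvable_of_le le_pCore le_pPrimeCore relIndex_map_dvd in
  open scoped CfsgH2 in
  open scoped commutatorElement in
  · exact wielandt_aux _ G rfl _ _ _ h₁ h₂ h₃ (fac_top_iff.2 h12) (fac_top_iff.2 h13) hcop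

end Cfsg.Agent.S0019
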