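import Cfsg.Statements.S0020
import Cfsg.Agent.H1.Carter

set_option autoImplicit false
open Pointwise
open Cfsg

namespace Cfsg.Agent.S0020

/-- A finite solvable group admits a Sylow system: Sylow subgroups, one for each prime, that pairwise permute as sets. -/
theorem result {G : Type*} [Group G] [Finite G] [Group.IsSolvable G] :
    ∃ S : (p : Nat.Primes) → Sylow (p : ℕ) G,
      ∀ p q : Nat.Primes, (S p : Set G) * (S q : Set G) = (S q : Set G) * (S p : Set G) := by
  obtain ⟨K, hK⟩ := CfsgH1.exists_sysIn (⊤ : Subgroup G)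
  have key : ∀ p : Nat.Primes, ∃ S : Sylow (p : ℕ) G,
      (S : Subgroup G) = CfsgH1.sysHall K ⊤ {(p : ℕ)} := fun p =>
    have := Fact.mk p.2
    (hK.isSylowIn_sysHall p).exists_sylow_top
  choose S hS using key
  refine ⟨S, fun p q => ?_⟩
  by_cases h : p = q
  · rw [h]
  have := (hK.fac_sysHall (π := {(p : ℕ)}) (ρ := {(q : ℕ)})
    (Set.disjoint_singleton.mpr fun he => h (Subtype.ext he))).coe_comm
  rwa [← hS, ← hS] at this

end Cfsg.Agent.S0020
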