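import Cfsg.Statements.S0021
import Cfsg.Agent.H1.Schmidt

set_option autoImplicit false
open Pointwise
open Cfsg

namespace Cfsg.Agent.S0021

/-- A finite group with a family of pairwise permuting Sylow subgroups, one for each prime, is solvable (this direction rests on Burnside's two-prime Theorem). -/
theorem result {G : Type*} [Group G] [Finite G]
    (S : (p : Nat.Primes) → Sylow (p : ℕ) G)
    (hS : ∀ p q : Nat.Primes, (S p : Set G) * (S q : Set G) = (S q : Set G) * (S p : Set G)) :
    Group.IsSolvable G := by
  open Pointwise Subgroup CfsgH1 in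
  open CfsgH2 hiding card_inf_mul_relIndex card_lt_of_lt card_lt_of_ne_top card_map_mul_card_inf_ker card_mul_relIndex card_subgroupOf card_sup_dvd card_sup_mul_card_inf exists_card_prime_le isNilpotent_map isNilpotent_of_le isPGroup_pCore isSolvable_map isSolvable_of_le le_pCore le_pPrimeCore relIndex_map_dvd in
  open scoped CfsgH2 in
  open scoped commutatorElement in
  · rw [← isSolvable_top_iff]
    refine isSolvable_of_hall_compl _ fun p hp _ => ?_
    classical
    let T : Finset Nat.Primes := ((Nat.card G).primeFactors.erase p).subtype _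
    refine ⟨⨆ i ∈ T, (S i : Subgroup G), le_top,
      piNum_biSup_of_fac (fun i j => fac_of_coe_comm (hS i j)) T fun i hi q hq hd e => ?_,
      fun q hq hd hne => ?_⟩
    · haveI := Fact.mk i.2
      have := eq_of_prime_dvd_of_isPGroup (S i).2 hq hd
      exact (Finset.mem_erase.1 (Finset.mem_subtype.1 hi)).1 (this.symm.trans e)
    · haveI := Fact.mk hq
      refine (isSylowIn_top (S ⟨q, hq⟩)).not_dvd (hd.trans (relIndex_dvd_of_le_left _ ?_))
      refine le_iSup₂ (f := fun i (_ : i ∈ T) => (S i : Subgroup G)) ⟨q, hq⟩ (Finset.mem_subtype.2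
        (Finset.mem_erase.2 ⟨fun e => hne e, Nat.mem_primeFactors.2 ⟨hq, ?_, Nat.card_pos.ne'⟩⟩))
      exact hd.trans (by rw [relIndex_top_right]; exact index_dvd_card _)

end Cfsg.Agent.S0021
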