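import Cfsg.Statements.S0031
import Cfsg.Agent.H1.Frob2

set_option autoImplicit false
open Cfsg

namespace Cfsg.Agent.S0031

/-- A fixed-point-free automorphism of a finite group maps some Sylow p-subgroup to itself. -/
theorem result {G : Type*} [Group G] [Finite G] (φ : G ≃* G)
    (hφ : MonoidHom.FixedPointFree (φ : G →* G)) (p : ℕ) [Fact p.Prime] :
    ∃ P : Sylow p G, (P : Subgroup G).map (φ : G →* G) = P := by
  open Pointwise Subgroup CfsgH1 in
  open CfsgH2 hiding card_inf_mul_relIndex card_lt_of_lt card_lt_of_ne_top card_map_mul_card_inf_ker card_mul_relIndex card_subgroupOf card_sup_dvd card_sup_mul_card_inf exists_card_prime_le isNilpotent_map isNilpotent_of_le isPGroup_pCore isSolvable_map isSolvable_of_le le_pCore le_pPrimeCore relIndex_map_dvd in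
  open scoped CfsgH2 in
  open scoped commutatorElement in
  · obtain ⟨P⟩ := (inferInstance : Nonempty (Sylow p G))
    have h1 := syl_top P
    have h2 := h1.map (φ : G →* G)
    rw [map_top_of_surjective _ φ.surjective] at h2
    obtain ⟨g, -, hg⟩ := h1.conj h2
    obtain ⟨y, hy⟩ := hφ.commutatorMap_surjective g⁻¹
    obtain ⟨Q, hQ⟩ := (h1.map_cj_mem (mem_top y⁻¹)).exists_top
    refine ⟨Q, ?_⟩
    rw [hQ, map_map_cj, ← hg, map_cj_cj]
    congr 2
    rw [MonoidHom.commutatorMap_apply, div_eq_mul_inv] at hy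
    rw [map_inv, ← inv_inv g, ← hy]; group

end Cfsg.Agent.S0031
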