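import Cfsg.Statements.S0032
import Cfsg.Agent.H1.Frob2

set_option autoImplicit false
open Cfsg

namespace Cfsg.Agent.S0032

/-- If an automorphism of a finite group fixes only the identity and maps a normal subgroup N into itself, then the only cosets of N it fixes are those in N: a fixed coset xN forces x ∈ N. -/
theorem result {G : Type*} [Group G] [Finite G] (φ : G ≃* G)
    (hφ : MonoidHom.FixedPointFree (φ : G →* G)) (N : Subgroup G) [N.Normal] (hN : ∀ n ∈ N, φ n ∈ N)
    (x : G) (hx : (φ x)⁻¹ * x ∈ N) : x ∈ N := by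
  open Pointwise Subgroup CfsgH1 in
  open CfsgH2 hiding card_inf_mul_relIndex card_lt_of_lt card_lt_of_ne_top card_map_mul_card_inf_ker card_mul_relIndex card_subgroupOf card_sup_dvd card_sup_mul_card_inf exists_card_prime_le isNilpotent_map isNilpotent_of_le isPGroup_pCore isSolvable_map isSolvable_of_le le_pCore le_pPrimeCore relIndex_map_dvd in
  open scoped CfsgH2 in
  open scoped commutatorElement in
  · let f : N → N := fun n => ⟨(φ n)⁻¹ * n, mul_mem (inv_mem (hN n n.2)) n.2⟩
    have key : ∀ a b : G, (φ a)⁻¹ * a = (φ b)⁻¹ * b → a = b := fun a b e => by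
      have := hφ (a * b⁻¹) (by
        show φ (a * b⁻¹) = _
        rw [map_mul, map_inv]
        calc φ a * (φ b)⁻¹ = φ a * ((φ b)⁻¹ * b) * b⁻¹ := by group
          _ = _ := by rw [← e]; group)
      exact mul_inv_eq_one.1 this
    have hf : Function.Injective f := fun a b e => Subtype.ext (key _ _ (congrArg Subtype.val e))
    obtain ⟨n, hn⟩ := Finite.injective_iff_surjective.1 hf ⟨_, hx⟩
    rw [← key _ _ (congrArg Subtype.val hn)]; exact n.2

end Cfsg.Agent.S0032
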