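import Cfsg.Statements.S0034
import Cfsg.Agent.H1.Frob2

set_option autoImplicit false
open Cfsg

namespace Cfsg.Agent.S0034

/-- For a Frobenius complement H, the set of elements lying in no conjugate of H, together with 1, has exactly as many elements as the index of H, and that index is congruent to 1 modulo the order of H. -/
theorem result {G : Type*} [Group G] [Finite G] (H : Subgroup G) (hH : Cfsg.IsFrobeniusComplement H) :
    Nat.card (Cfsg.frobeniusKernel H) = H.index ∧ H.index % Nat.card H = 1 % Nat.card H := by
  open Pointwise Subgroup CfsgH1 in
  open CfsgH2 hiding card_inf_mul_relIndex card_lt_of_lt card_lt_of_ne_top card_map_mul_card_inf_ker card_mul_relIndex card_subgroupOf card_sup_dvd card_sup_mul_card_inf exists_card_prime_le isNilpotent_map isNilpotent_of_le isPGroup_pCore isSolvable_map isSolvable_of_le le_pCore le_pPrimeCore relIndex_map_dvd in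
  open scoped CfsgH2 in
  open scoped commutatorElement in
  · obtain ⟨K, h⟩ := exists_frob hH
    have := h.relIndex_comp
    rw [relIndex_top_right] at this
    rw [h.kernel_eq, this]
    exact ⟨rfl, h.modEq⟩

end Cfsg.Agent.S0034
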