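import Cfsg.Statements.S0038
import Cfsg.Agent.H1.Frob2

set_option autoImplicit false
open Pointwise
open Cfsg

namespace Cfsg.Agent.S0038

/-- All Frobenius complements of a finite group are conjugate to one another. -/
theorem result {G : Type*} [Group G] [Finite G] (H H₀ : Subgroup G)
    (hH : Cfsg.IsFrobeniusComplement H) (hH₀ : Cfsg.IsFrobeniusComplement H₀) :
    ∃ g : G, MulAut.conj g • H₀ = H := by
  open Pointwise Subgroup CfsgH1 in
  open CfsgH2 hiding card_inf_mul_relIndex card_lt_of_lt card_lt_of_ne_top card_map_mul_card_inf_ker card_mul_relIndex card_subgroupOf card_sup_dvd card_sup_mul_card_inf exists_card_prime_le isNilpotent_map isNilpotent_of_le isPGroup_pCore isSolvable_map isSolvable_of_le le_pCore le_pPrimeCore relIndex_map_dvd in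
  open scoped CfsgH2 in
  open scoped commutatorElement in
  · obtain ⟨K, h⟩ := exists_frob hH
    obtain ⟨K₀, h₀⟩ := exists_frob hH₀
    obtain ⟨y, -, e⟩ := h₀.exists_conj_eq h
    exact ⟨y, e⟩

end Cfsg.Agent.S0038
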