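import Cfsg.Statements.S0039
import Cfsg.Agent.H1.Frob2

set_option autoImplicit false
open Cfsg

namespace Cfsg.Agent.S0039

/-- In a finite group that is a semidirect product of a normal subgroup K by a nontrivial subgroup H, H is a Frobenius complement exactly when each nonidentity element of H acts without nonidentity fixed points on K by conjugation. -/
theorem result {G : Type*} [Group G] [Finite G] (K H : Subgroup G) [K.Normal]
    (hc : Subgroup.IsComplement' K H) (hK : K ≠ ⊥) (hH : H ≠ ⊥) :
    Cfsg.IsFrobeniusComplement H ↔ ∀ h ∈ H, h ≠ 1 → K ⊓ Subgroup.centralizer {h} = ⊥ := by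
  open Pointwise Subgroup CfsgH1 in
  open CfsgH2 hiding card_inf_mul_relIndex card_lt_of_lt card_lt_of_ne_top card_map_mul_card_inf_ker card_mul_relIndex card_subgroupOf card_sup_dvd card_sup_mul_card_inf exists_card_prime_le isNilpotent_map isNilpotent_of_le isPGroup_pCore isSolvable_map isSolvable_of_le le_pCore le_pPrimeCore relIndex_map_dvd in
  open scoped CfsgH2 in
  open scoped commutatorElement in
  · refine ⟨fun h x hx h1 => ?_, fun h => (frob_of_isComplement' hc hK hH h).isFrobeniusComplement⟩
    obtain ⟨K', h'⟩ := exists_frob h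
    refine eq_bot_iff.2 fun y hy => ?_
    rw [← disjoint_iff.1 hc.disjoint]
    exact ⟨hy.1, h'.cent_le_comp hx h1 ⟨mem_top _, hy.2⟩⟩

end Cfsg.Agent.S0039
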