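import Cfsg.Statements.S0047
import Cfsg.Agent.H1.KW
import Cfsg.Agent.H1.Gasch
import Cfsg.Agent.H1.Frob2
import Cfsg.Agent.H2.MaxCl2
import Cfsg.Agent.H1.SS2

set_option autoImplicit false
open Cfsg

namespace Cfsg.Agent.S0047

/-- A finite group which is the product AB of two abelian subgroups A and B is solvable. -/
theorem result {G : Type*} [Group G] [Finite G] (A B : Subgroup G)
    [IsMulCommutative A] [IsMulCommutative B] (hAB : ∀ g : G, ∃ a ∈ A, ∃ b ∈ B, g = a * b) :
    Group.IsSolvable G := by
  open Pointwise Subgroup CfsgH1 in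
  open CfsgH2 hiding card_inf_mul_relIndex card_lt_of_lt card_lt_of_ne_top card_map_mul_card_inf_ker card_mul_relIndex card_subgroupOf card_sup_dvd card_sup_mul_card_inf exists_card_prime_le isNilpotent_map isNilpotent_of_le isPGroup_pCore isSolvable_map isSolvable_of_le le_pCore le_pPrimeCore relIndex_map_dvd in
  open scoped CfsgH2 in
  open scoped commutatorElement in
  · exact isSolvable_top_iff.1 ((fac_top_iff.2 hAB).isSolvable (isNilpotent_of_comm ‹_›) (isNilpotent_of_comm ‹_›))

end Cfsg.Agent.S0047
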