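import Cfsg.Statements.S0048
import Cfsg.Agent.H1.Carter

set_option autoImplicit false
open Cfsg

namespace Cfsg.Agent.S0048

/-- In a finite solvable group every maximal subgroup has index a prime power. -/
theorem result {G : Type*} [Group G] [Finite G] [Group.IsSolvable G]
    (M : Subgroup G) (hM : IsCoatom M) : IsPrimePow M.index := by
  have hne : M.normalCore ≠ ⊤ := fun h => hM.1 (top_le_iff.mp (h ▸ M.normalCore_le))
  obtain ⟨N, h1, h2, -, _, ⟨p, hp, rfl⟩, h3⟩ := (CfsgH1.sep_primeSingles_iff.mpr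
    (inferInstance : Group.IsSolvable (⊤ : Subgroup G))).exists_normal_between
    (lt_top_iff_ne_top.mpr hne)
  have h4 : N ⊔ M = ⊤ := CfsgH1.sup_eq_top_of_isCoatom hM fun h =>
    h2.not_ge (Subgroup.normal_le_normalCore.mpr h)
  have h5 : M.index ∣ M.normalCore.relIndex N := by
    rw [← Subgroup.relIndex_top_right, ← h4,
      CfsgH1.relIndex_sup_right_of_le_normalizer Subgroup.le_normalizer_of_normal]
    exact Subgroup.relIndex_dvd_of_le_left N M.normalCore_le
  obtain ⟨k, hk⟩ := (CfsgH1.PiNum.singleton_iff hp M.index_ne_zero_of_finite).mp (h3.of_dvd h5)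
  refine ⟨p, k, hp.prime, Nat.pos_of_ne_zero fun h => hM.1 ?_, hk.symm⟩
  rw [← Subgroup.index_eq_one, hk, h, pow_zero]

end Cfsg.Agent.S0048
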