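import Cfsg.Statements.S0054
import Cfsg.Agent.H1.KW
import Cfsg.Agent.H1.Gasch
import Cfsg.Agent.H1.Frob2
import Cfsg.Agent.H2.MaxCl2
import Cfsg.Agent.H1.HH

set_option autoImplicit false
open Cfsg

namespace Cfsg.Agent.S0054

/-- A regular normal subgroup of a finite 2-transitive group is elementary abelian: it is commutative and all its elements have order dividing one prime. -/
theorem result {G : Type*} [Group G] [Finite G]
    {X : Type*} [Nonempty X] [MulAction G X] (h2 : MulAction.IsMultiplyPretransitive G X 2)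
    (N : Subgroup G) [N.Normal] (htrans : MulAction.IsPretransitive N X) (hreg : ∀ x : X, MulAction.stabilizer N x = ⊥) :
    IsMulCommutative N ∧ ∃ p : ℕ, p.Prime ∧ ∀ n ∈ N, n ^ p = 1 := by
  open Pointwise Subgroup CfsgH1 in
  open CfsgH2 hiding card_inf_mul_relIndex card_lt_of_lt card_lt_of_ne_top card_map_mul_card_inf_ker card_mul_relIndex card_subgroupOf card_sup_dvd card_sup_mul_card_inf exists_card_prime_le isNilpotent_map isNilpotent_of_le isPGroup_pCore isSolvable_map isSolvable_of_le le_pCore le_pPrimeCore relIndex_map_dvd in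
  open scoped CfsgH2 in
  open scoped commutatorElement in
  · by_cases h0 : N = ⊥
    · subst h0
      exact ⟨inferInstance, 2, Nat.prime_two, fun n hn => by simp [mem_bot.1 hn]⟩
    obtain ⟨x⟩ := ‹Nonempty X›
    have hr : ∀ n ∈ N, n • x = x → n = 1 := fun n hn h =>
      congrArg Subtype.val (mem_bot.1 ((hreg x).le (show (⟨n, hn⟩ : N) ∈ MulAction.stabilizer N x from h)))
    have hc : ∀ n ∈ N, n ≠ 1 → ∀ m ∈ N, m ≠ 1 → ∃ g, g * n * g⁻¹ = m := fun n hn n1 m hm m1 => by
      obtain ⟨g, h1, h3⟩ := MulAction.is_two_pretransitive_iff.1 h2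
        (show x ≠ n • x from fun e => n1 (hr n hn e.symm)) (show x ≠ m • x from fun e => m1 (hr m hm e.symm))
      refine ⟨g, (inv_mul_eq_one.1 (hr _ (mul_mem (inv_mem hm) (‹N.Normal›.conj_mem n hn g)) ?_)).symm⟩
      rw [mul_smul, mul_smul, mul_smul, inv_smul_eq_iff.2 h1.symm, h3, inv_smul_smul]
    obtain ⟨p, hp, hd⟩ := exists_prime_dvd_card h0
    obtain ⟨y, hy, e⟩ := exists_prime_order_mem hp hd
    have y1 : y ≠ 1 := fun h => hp.ne_one (by simp [← e, h])
    have hpow : ∀ n ∈ N, n ^ p = 1 := fun n hn => by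
      by_cases h : n = 1
      · simp [h]
      obtain ⟨g, rfl⟩ := hc y hy y1 n hn h
      rw [conj_pow, ← e, pow_orderOf_eq_one]; simp
    haveI := Fact.mk hp
    obtain ⟨z, hz, z1⟩ := exists_ne_one (CfsgH2.center_ne_bot (isPGroup_of_exp hpow) h0)
    refine ⟨isMulComm_of_le_cent fun n hn => ?_, p, hp, hpow⟩
    by_cases h : n = 1
    · simp [h]
    obtain ⟨g, rfl⟩ := hc z hz.1 z1 n hn h
    exact (inferInstance : C[N].Normal).conj_mem z hz.2 g

end Cfsg.Agent.S0054
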