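import Cfsg.Statements.S0059
import Cfsg.Agent.H1.Coprime

set_option autoImplicit false
open Cfsg

namespace Cfsg.Agent.S0059

/-- Let a finite group act on a set on which a normal subgroup K of coprime order and index is transitive, with K or the quotient solvable. Then any complement H of K has a fixed point, and any two H-fixed points are interchanged by an element of K centralising H. -/
theorem result {G : Type*} [Group G] [Finite G] {X : Type*} [Nonempty X] [MulAction G X]
    (K H : Subgroup G) [K.Normal] (hc : Subgroup.IsComplement' K H) (hcop : (Nat.card K).Coprime K.index)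
    (hsolv : Group.IsSolvable K ∨ Group.IsSolvable (G ⧸ K)) (htrans : MulAction.IsPretransitive K X) :
    (∃ x : X, ∀ h ∈ H, h • x = x) ∧
    ∀ x y : X, (∀ h ∈ H, h • x = x) → (∀ h ∈ H, h • y = y) → ∃ k ∈ K ⊓ Subgroup.centralizer (H : Set G), k • x = y := by
  have hcH := CfsgH1.card_eq_index_of_isComplement' hc
  have hcop' : (Nat.card H).Coprime (Nat.card K) := by rw [hcH]; exact hcop.symm
  have hs : Group.IsSolvable H ∨ Group.IsSolvable K := by
    rcases hsolv with h | h
    · exact Or.inr h
    · exact Or.inl (CfsgH1.isSolvable_of_mulEquiv hc.symm.QuotientMulEquiv)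
  have hn : H ≤ Subgroup.normalizer (K : Set G) := Subgroup.le_normalizer_of_normal
  constructor
  · obtain ⟨x⟩ := ‹Nonempty X›
    obtain ⟨k, -, hk⟩ := CfsgH1.coprime_conj_le_of_supplement (T := MulAction.stabilizer G x) hn
      hcop' hs (fun a _ => by
        obtain ⟨k, hk⟩ := htrans.exists_smul_eq (a • x) x
        exact ⟨k, k.2, by rw [MulAction.mem_stabilizer_iff, mul_smul]; exact hk⟩)
    refine ⟨k⁻¹ • x, fun h hh => ?_⟩
    have := hk (CfsgH1.conj_mem_conj_smul k hh)
    rw [MulAction.mem_stabilizer_iff, mul_smul, mul_smul] at this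
    rw [eq_inv_smul_iff, this]
  · intro x y hx hy
    obtain ⟨k, hk⟩ := htrans.exists_smul_eq x y
    have hk' : (k : G) • x = y := hk
    obtain ⟨n, hn, h⟩ := CfsgH1.coprime_fixed_coset (N := K ⊓ MulAction.stabilizer G x) (k := k)
      (CfsgH1.le_normalizer_inf hn ((show H ≤ MulAction.stabilizer G x from hx).trans
        Subgroup.le_normalizer))
      (hcop'.coprime_dvd_right (Subgroup.card_dvd_of_le inf_le_left))
      (CfsgH1.isSolvable_or_of_le inf_le_left hs)
      (fun a ha => Subgroup.mem_inf.mpr ⟨mul_mem (inv_mem k.2)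
        (CfsgH1.conj_mem_of_mem_normalizer (hn ha) k.2), by
          rw [MulAction.mem_stabilizer_iff, mul_smul, mul_smul, mul_smul, hx _ (inv_mem ha), hk',
            hy a ha, ← hk', inv_smul_smul]⟩)
    refine ⟨k * n, ⟨mul_mem k.2 hn.1, h⟩, ?_⟩
    rw [mul_smul, show n • x = x from hn.2, hk']

end Cfsg.Agent.S0059
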