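import Cfsg.Statements.S0060
import Cfsg.Agent.H1.Schmidt

set_option autoImplicit false
open Pointwise
open Cfsg

namespace Cfsg.Agent.S0060

/-- Brodkey's Theorem: in a finite group with abelian Sylow p-subgroups and no nontrivial normal p-subgroup, some conjugate of a Sylow p-subgroup meets it trivially. -/
theorem result {G : Type*} [Group G] [Finite G] (p : ℕ) [Fact p.Prime]
    (S : Sylow p G) (hS : IsMulCommutative S) (hOp : Cfsg.pCore p G = ⊥) :
    ∃ g : G, (S : Subgroup G) ⊓ MulAut.conj g • (S : Subgroup G) = ⊥ := by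
  open Pointwise Subgroup CfsgH1 in
  open CfsgH2 hiding card_inf_mul_relIndex card_lt_of_lt card_lt_of_ne_top card_map_mul_card_inf_ker card_mul_relIndex card_subgroupOf card_sup_dvd card_sup_mul_card_inf exists_card_prime_le isNilpotent_map isNilpotent_of_le isPGroup_pCore isSolvable_map isSolvable_of_le le_pCore le_pPrimeCore relIndex_map_dvd in
  open scoped CfsgH2 in
  open scoped commutatorElement in
  · obtain ⟨D, -, ⟨P, Q, hP, hQ, rfl⟩, hmin⟩ := exists_minimal_le
      (fun D : Subgroup G => ∃ P Q, Syl p P ⊤ ∧ Syl p Q ⊤ ∧ D = P ⊓ Q) ⟨_, _, syl_top S, syl_top S, rfl⟩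
    have hab : ∀ R, Syl p R ⊤ → IsMulCommutative R := fun R hR => by
      obtain ⟨g, -, rfl⟩ := (syl_top S).conj hR
      exact isMulComm_map _ hS
    have h1 : P ≤ N[P ⊓ Q] := le_norm_of_le_cent (le_cent_of_comm (hab P hP) inf_le_left)
    have h2 : Q ≤ N[P ⊓ Q] := le_norm_of_le_cent (le_cent_of_comm (hab Q hQ) inf_le_right)
    have h3 : P ⊓ Q = ⊥ := by
      rw [eq_bot_iff, ← hOp, pCore_eq_iInf_sylow]
      refine le_iInf fun R => ?_
      obtain ⟨x, hx, h4⟩ := (hP.mono h1 le_top).exists_conj_le (R.2.to_inf_left) inf_le_right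
      have := hmin _ ⟨_, Q, (syl_top R).map_cj_mem (mem_top x), hQ, rfl⟩ (le_inf (le_trans (by
        rw [map_cj_inf, map_cj_eq (le_normalizer hx)]; exact inf_le_inf_left _ h2) h4) inf_le_right)
      rw [← map_cj_le_map_cj (g := x), map_cj_eq hx, ← this]
      exact inf_le_left
    obtain ⟨a, -, rfl⟩ := (syl_top S).conj hP
    obtain ⟨b, -, rfl⟩ := (syl_top S).conj hQ
    refine ⟨a⁻¹ * b, ?_⟩
    rw [smul_eq_map_cj, ← map_cj_eq_bot (g := a), map_cj_inf, map_cj_cj, mul_inv_cancel_left, h3]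

end Cfsg.Agent.S0060
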