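import Cfsg.Statements.S0063
import Cfsg.Agent.H1.Schmidt

set_option autoImplicit false
open Cfsg

namespace Cfsg.Agent.S0063

section
open Pointwise Subgroup CfsgH1
open CfsgH2 hiding card_inf_mul_relIndex card_lt_of_lt card_lt_of_ne_top card_map_mul_card_inf_ker card_mul_relIndex card_subgroupOf card_sup_dvd card_sup_mul_card_inf exists_card_prime_le isNilpotent_map isNilpotent_of_le isPGroup_pCore isSolvable_map isSolvable_of_le le_pCore le_pPrimeCore relIndex_map_dvd
open scoped CfsgH2
open scoped commutatorElement

theorem aux (p : ℕ) [Fact p.Prime] (k : ℕ) : ∀ (G : Type*) [Group G] [Finite G],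
    Nat.card G = p ^ (k + 2) → Group.nilpotencyClass G ≤ k + 1 := by
  induction k with
  | zero =>
    intro G _ _ h
    haveI := IsPGroup.isMulCommutative_of_card_eq_prime_sq h
    haveI := isNilpotent_of_isMulCommutative (G := G)
    exact Group.IsNilpotent.nilpotencyClass_le_one_iff.2 ‹_›
  | succ k ih =>
    intro G _ _ h
    have hG : IsPGroup p (⊤ : Subgroup G) := isPGroup_top_iff.2 (IsPGroup.of_card h)
    obtain ⟨X, -, h1, h2⟩ := exists_central_card_p hG le_normalizer
      (by rw [card_top, h]; exact dvd_pow_self _ (by omega))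
    rw [cent_top] at h1
    haveI := normal_of_le_center h1
    have h3 : Nat.card (G ⧸ X) = p ^ (k + 2) := by
      have := card_eq_card_quotient_mul_card_subgroup X
      rw [h, h2, pow_succ] at this
      exact (Nat.eq_of_mul_eq_mul_right (Fact.out : p.Prime).pos this).symm
    haveI := (IsPGroup.of_card h3).isNilpotent
    exact (nilpotencyClass_le_of_ker_le_center (QuotientGroup.mk' X)
      (by rwa [QuotientGroup.ker_mk'])).trans (Nat.succ_le_succ (ih _ h3))

end

/-- A finite group of prime-power order p ^ m with m > 1 is nilpotent of class at most m - 1. -/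
theorem result {G : Type*} [Group G] [Finite G] (p m : ℕ) [Fact p.Prime]
    (hG : Nat.card G = p ^ m) (hm : 1 < m) : Group.nilpotencyClass G ≤ m - 1 := by
  open Pointwise Subgroup CfsgH1 in
  open CfsgH2 hiding card_inf_mul_relIndex card_lt_of_lt card_lt_of_ne_top card_map_mul_card_inf_ker card_mul_relIndex card_subgroupOf card_sup_dvd card_sup_mul_card_inf exists_card_prime_le isNilpotent_map isNilpotent_of_le isPGroup_pCore isSolvable_map isSolvable_of_le le_pCore le_pPrimeCore relIndex_map_dvd in
  open scoped CfsgH2 in
  open scoped commutatorElement in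
  · obtain ⟨k, rfl⟩ := Nat.exists_eq_add_of_lt hm
    have := aux p k G (by rw [hG]; congr 1; omega)
    omega

end Cfsg.Agent.S0063
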