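import Cfsg.Statements.S0072
import Cfsg.Agent.H2.Frob

set_option autoImplicit false
open Cfsg

namespace Cfsg.Agent.S0072
open CfsgH2

/-- A finite group has a normal p-complement if and only if every p-local subgroup (normalizer of a nontrivial p-subgroup) has one. -/
theorem result {G : Type*} [Group G] [Finite G] (p : ℕ) [Fact p.Prime] : Cfsg.HasNormalPComplement p G ↔ ∀ Q : Subgroup G, IsPGroup p Q → Q ≠ ⊥ → Cfsg.HasNormalPComplement p (Subgroup.normalizer (Q : Set G)) := by
  open Subgroup Function in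
  rw [npc_top_iff]
  refine ⟨fun h Q _ _ => npc_iff.2 (h.mono le_top), fun h => ?_⟩
  obtain ⟨P, hP⟩ := exists_syl p (⊤ : Subgroup G)
  exact hP.frobenius_local fun Q hQ h1 => by
    rw [top_inf_eq]; exact npc_iff.1 (h Q (hP.pg.to_le hQ) h1)

end Cfsg.Agent.S0072
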