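import Cfsg.Statements.S0073
import Cfsg.Agent.H2.Misc

set_option autoImplicit false
open Cfsg

namespace Cfsg.Agent.S0073
open CfsgH2

/-- For a finite non-abelian simple group, either the cube of the least prime divisor of the order divides the order, or 12 does. -/
theorem result {G : Type*} [Group G] [Finite G] [IsSimpleGroup G] (hG : ∃ x y : G, x * y ≠ y * x) : (Nat.card G).minFac ^ 3 ∣ Nat.card G ∨ 12 ∣ Nat.card G := by
  open Subgroup Function in
  obtain ⟨x, y, hxy⟩ := hG
  have h1 : Nat.card G ≠ 1 := Finite.one_lt_card.ne'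
  have hp := Nat.minFac_prime h1
  have hd := Nat.minFac_dvd (Nat.card G)
  have hmin : ∀ q, q.Prime → q ∣ Nat.card G → (Nat.card G).minFac ≤ q :=
    fun q hq h => Nat.minFac_le_of_dvd hq.two_le h
  generalize (Nat.card G).minFac = p at *
  haveI := Fact.mk hp
  by_contra hc
  push Not at hc
  obtain ⟨P, hP⟩ := exists_syl p (⊤ : Subgroup G)
  obtain ⟨n, hn⟩ := IsPGroup.iff_card.1 hP.pg
  have hnd : p ^ n ∣ Nat.card G := hn ▸ card_subgroup_dvd_card P
  have hn2 : n ≤ 2 := by
    by_contra h; exact hc.1 ((pow_dvd_pow p (by omega)).trans hnd)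
  have hcomm : IsMulCommutative P := by
    interval_cases n
    · rw [card_eq_one.1 hn]; infer_instance
    · exact isMulComm_of_cyclic (isCyclic_of_card_prime hp (by simpa using hn))
    · exact IsPGroup.isMulCommutative_of_card_eq_prime_sq hn
  have h2 := hP.npc_of_abelian hcomm hn fun q k hq hqp hd h0 hk h => by
    rw [card_top] at hd
    have h3 := lt_of_le_of_ne (hmin q hq hd) hqp.symm
    have hp2 := hp.two_le
    have hk2 : k ≤ 2 := hk.trans hn2
    interval_cases k
    · have := Nat.le_of_dvd (by simp; omega) h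
      simp at this; omega
    · have e : p ^ 2 - 1 = (p + 1) * (p - 1) := by simpa using Nat.sq_sub_sq p 1
      rw [e] at h
      rcases (hq.dvd_mul).1 h with h | h
      · have h4 : q = p + 1 := le_antisymm (Nat.le_of_dvd (by omega) h) h3
        subst h4
        rcases hp.eq_two_or_odd' with rfl | ho
        · obtain rfl : n = 2 := le_antisymm hn2 hk
          exact hc.2 (Nat.Coprime.mul_dvd_of_dvd_of_dvd (m := 4) (n := 3) (by norm_num) hnd hd)
        · have := hq.eq_two_or_odd'.resolve_right (by simpa [Nat.odd_add_one] using ho)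
          omega
      · have := Nat.le_of_dvd (by omega) h; omega
  haveI := piCoreOf_normal (π := {p}ᶜ) (M := (⊤ : Subgroup G))
  have h3 := h2.sup_eq hP
  rcases this.eq_bot_or_eq_top with h | h
  · rw [h, bot_sup_eq] at h3
    exact hxy (comm_of_isMulComm hcomm (h3 ▸ mem_top x) (h3 ▸ mem_top y))
  · exact not_dvd_piCoreOf (p := p) (M := (⊤ : Subgroup G)) (by rwa [h, card_top])

end Cfsg.Agent.S0073
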