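import Cfsg.Statements.S0074
import Cfsg.Agent.H2.Frob

set_option autoImplicit false
open Cfsg

namespace Cfsg.Agent.S0074
open CfsgH2

/-- For an abelian Sylow p-subgroup P, the intersection of P with the derived subgroup of G equals its intersection with the derived subgroup of the normalizer of P. -/
theorem result {G : Type*} [Group G] [Finite G] {p : ℕ} [Fact p.Prime] (P : Sylow p G) (hP : IsMulCommutative P) : commutator G ⊓ (P : Subgroup G) = ⁅Subgroup.normalizer (P : Set G), Subgroup.normalizer (P : Set G)⁆ ⊓ (P : Subgroup G) := by
  open Subgroup Function in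
  have hc' := le_centralizer_iff_isMulCommutative.2 (show IsMulCommutative (P : Subgroup G) from hP)
  exact (syl_top P).focal_eq_of_fusion (L := N[(P : Subgroup G)]) le_top
    (fun x hx u hu hux => by simpa using (syl_top P).fusion_cent hu (hc' hx) (hc' hux)) le_normalizer

end Cfsg.Agent.S0074
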