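import Cfsg.Statements.S0076
import Cfsg.Agent.H2.Frob

set_option autoImplicit false
open Cfsg

namespace Cfsg.Agent.S0076
open CfsgH2

/-- Two P-invariant subsets of a Sylow p-subgroup P that are conjugate in G are conjugate under the normalizer of P. -/
theorem result {G : Type*} [Group G] [Finite G] {p : ℕ} [Fact p.Prime] (P : Sylow p G) (X Y : Set G) (hXP : X ⊆ P) (hYP : Y ⊆ P) (hX : ∀ x ∈ P, (fun y => x * y * x⁻¹) '' X = X) (hY : ∀ x ∈ P, (fun y => x * y * x⁻¹) '' Y = Y) (g : G) (hg : (fun y => g * y * g⁻¹) '' X = Y) : ∃ n ∈ Subgroup.normalizer (P : Set G), (fun y => n * y * n⁻¹) '' X = Y := by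
  open Subgroup Function in
  have h1 : (P : Subgroup G) ≤ normalizer Y := fun x hx =>
    mem_normalizer_iff_conj_image_eq.2 (hY x hx)
  have h2 : (P : Subgroup G).map (cj g) ≤ normalizer Y := by
    rintro _ ⟨x, hx, rfl⟩
    rw [mem_normalizer_iff_conj_image_eq, ← hg]
    conv_rhs => rw [← hX x hx]
    rw [Set.image_image, Set.image_image]
    congr 1; ext y; simp [mul_assoc]
  obtain ⟨l, hl, e⟩ := (syl_top P).exists_norm_of_le (mem_top g) le_top h1 h2
  refine ⟨l * g, e, ?_⟩
  rw [mem_normalizer_iff_conj_image_eq] at hl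
  rw [← hl, ← hg, Set.image_image]
  congr 1; ext y; simp [mul_assoc]

end Cfsg.Agent.S0076
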