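import Cfsg.Statements.S0078
import Cfsg.Agent.H2.Trans

set_option autoImplicit false
open Cfsg

namespace Cfsg.Agent.S0078
open CfsgH2

/-- In a p-normal group, a Sylow p-subgroup P meets O^p(G) exactly where it meets O^p(V), for any subgroup V containing the normalizer of the centre of P. -/
theorem result {G : Type*} [Group G] [Finite G] {p : ℕ} [Fact p.Prime] (P : Sylow p G) (hn : ∀ Q : Sylow p G, (P : Subgroup G) ⊓ Subgroup.centralizer (P : Set G) ≤ (Q : Subgroup G) → (Q : Subgroup G) ⊓ Subgroup.centralizer (Q : Set G) = (P : Subgroup G) ⊓ Subgroup.centralizer (P : Set G)) (V : Subgroup G) (hV : Subgroup.normalizer (((P : Subgroup G) ⊓ Subgroup.centralizer (P : Set G) : Subgroup G) : Set G) ≤ V) : (P : Subgroup G) ⊓ Cfsg.pResidual p G = (P : Subgroup G) ⊓ (Cfsg.pResidual p V).map V.subtype := by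
  open Subgroup Function in
  rw [pResidual_eq, map_pResidual, inf_comm, inf_comm _ (piRes _ _)]
  have hP := syl_top P
  set Z : Subgroup G := (P : Subgroup G) ⊓ C[(P : Subgroup G)] with hZ
  have hPZ : (P : Subgroup G) ≤ N[Z] := le_norm_inf le_normalizer (le_norm_cent le_normalizer)
  refine hP.piRes_inf_eq_of_fusion le_top (hPZ.trans hV) fun x hx u hu hux => ?_
  obtain ⟨v, hv, e⟩ := hP.fusion_weakly_closed (Z := Z) inf_le_left inf_le_right
    (fun g _ hg => by
      obtain ⟨Q, hQ⟩ := (hP.map_cj_mem (mem_top g⁻¹)).exists_top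
      have h1 := hn Q (by rw [hQ]; exact le_map_cj_iff.2 (by rw [inv_inv]; exact hg))
      change (Q : Subgroup G) ⊓ C[(Q : Subgroup G)] = Z at h1
      rw [hQ, centralizer_map_cj, ← map_cj_inf, ← hZ, map_cj_eq_iff] at h1
      exact map_cj_eq (by simpa using inv_mem h1)) hx hu hux
  exact ⟨v, hV hv.2, e⟩

end Cfsg.Agent.S0078
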