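import Cfsg.Statements.S0079
import Cfsg.Agent.H2.Trans

set_option autoImplicit false
open Cfsg

namespace Cfsg.Agent.S0079
open CfsgH2

/-- A nilpotent Hall subgroup has a normal complement exactly when elements of it that are conjugate in the whole group are already conjugate inside it. -/
theorem result {G : Type*} [Group G] [Finite G] (H : Subgroup G) (hH : Group.IsNilpotent H) (hHall : Nat.Coprime (Nat.card H) H.index) : (∃ N : Subgroup G, N.Normal ∧ N.IsComplement' H) ↔ ∀ x ∈ H, ∀ y ∈ H, (∃ g : G, g * x * g⁻¹ = y) → ∃ h ∈ H, h * x * h⁻¹ = y := by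
  open Subgroup Function in
  constructor
  · rintro ⟨N, hN, hc⟩ x hx y hy ⟨g, rfl⟩
    obtain ⟨⟨n, h⟩, rfl⟩ := hc.2 g
    refine ⟨h, h.2, ?_⟩
    have h1 : ((h : G) * x * (h : G)⁻¹)⁻¹ * (n * h * x * (n * h : G)⁻¹) ∈ N ⊓ H := by
      refine ⟨?_, H.mul_mem (H.inv_mem (H.mul_mem (H.mul_mem h.2 hx) (H.inv_mem h.2))) hy⟩
      have := mul_mem (hN.conj_mem' _ n.2 (h * x * (h : G)⁻¹)) (inv_mem n.2)
      simpa [mul_assoc] using this
    rw [hc.disjoint.eq_bot, mem_bot, inv_mul_eq_one] at h1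
    exact h1
  · intro hf
    have h1 := hall_of_coprime (le_top (a := H)) (by rwa [relIndex_top_right])
    have h2 := h1.hall_piRes_of_fusion hH (fun x hx u _ hux => hf x hx _ hux ⟨u, rfl⟩)
    haveI := normal_of_top_le_norm (le_norm_piRes (π := {p | p ∣ Nat.card H}) (M := (⊤ : Subgroup G)))
    refine ⟨_, this, isComplement'_of_disjoint_and_mul_eq_univ ?_ ?_⟩
    · rw [disjoint_iff, inf_comm]; exact inf_eq_bot_of_piN h1.pi h2.pi
    · rw [← normal_mul, h1.piRes_sup]; rfl

end Cfsg.Agent.S0079
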