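import Cfsg.Statements.S0080
import Cfsg.Agent.H2.Trans

set_option autoImplicit false
open Cfsg

namespace Cfsg.Agent.S0080
open CfsgH2

/-- When the index of H is prime to the order of H/H', the focal subgroup of H is G' ∩ H, and H/(G' ∩ H) has a normal complement. -/
theorem result {G : Type*} [Group G] [Finite G] (H : Subgroup G) (h : Nat.Coprime H.index (⁅H, H⁆.relIndex H)) : Subgroup.focalSubgroup H = commutator G ⊓ H ∧ ∃ N : Subgroup G, N.Normal ∧ N ⊓ H = commutator G ⊓ H ∧ N ⊔ H = ⊤ := by
  open Subgroup Function in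
  obtain ⟨N, h1, h2, h3, h4⟩ := transfer_top (H := H) (h.coprime_dvd_right
    (relIndex_dvd_of_le_left _ H.commutator_le_focalSubgroup))
  have : H.focalSubgroup = commutator G ⊓ H :=
    le_antisymm (le_inf H.focalSubgroup_le_commutator H.focalSubgroup_le)
      (h3 ▸ inf_le_inf_right _ h2)
  exact ⟨this, N, h1, h3.trans this, h4⟩

end Cfsg.Agent.S0080
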