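import Cfsg.Statements.S0082
import Cfsg.Agent.H2.Trans

set_option autoImplicit false
open Cfsg

namespace Cfsg.Agent.S0082
open CfsgH2

/-- With a cyclic Sylow p-subgroup, either there is a normal p-complement or the elements of order prime to p generate the whole group. -/
theorem result {G : Type*} [Group G] [Finite G] {p : ℕ} [Fact p.Prime] (P : Sylow p G) (hP : IsCyclic P) : Cfsg.HasNormalPComplement p G ∨ Cfsg.pResidual p G = ⊤ := by
  open Subgroup Function in
  haveI := hP
  rcases P.normalizer_le_centralizer_or_le_commutator with h | h
  · exact .inl (npc_top_iff.2 ((syl_top P).npc_of_norm_le_cent (inf_le_right.trans h)))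
  · right
    rw [pResidual_eq]
    exact (sup_eq_left.2 (h.trans ((syl_top P).commutator_le_piRes
      (isMulComm_of_cyclic hP)))).symm.trans (syl_top P).piRes_sup

end Cfsg.Agent.S0082
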