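import Cfsg.Statements.S0083
import Cfsg.Agent.H2.Trans

set_option autoImplicit false
open Cfsg

namespace Cfsg.Agent.S0083
open CfsgH2

/-- For an abelian Sylow p-subgroup P, a normal p-complement exists exactly when the normalizer of P is an internal direct product of P with some subgroup. -/
theorem result {G : Type*} [Group G] [Finite G] {p : ℕ} [Fact p.Prime] (P : Sylow p G) (hP : IsMulCommutative P) : Cfsg.HasNormalPComplement p G ↔ ∃ Q : Subgroup G, Q ≤ Subgroup.centralizer (P : Set G) ∧ Q ⊓ (P : Subgroup G) = ⊥ ∧ Q ⊔ (P : Subgroup G) = Subgroup.normalizer (P : Set G) := by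
  open Subgroup Function in
  rw [npc_top_iff]
  have h0 := syl_top P
  constructor
  · intro h
    have h1 := (h.mono (le_top (a := N[(P : Subgroup G)])))
    have h2 : piCoreOf {p}ᶜ N[(P : Subgroup G)] ⊓ P = ⊥ := by
      rw [inf_comm]; exact inf_eq_bot_of_piN (isPGroup_iff_piN.1 P.2) piN_piCoreOf
    exact ⟨_, le_cent_of_inf_eq_bot piCoreOf_le (le_normalizer.trans le_norm_piCoreOf) h2, h2,
      h1.sup_eq (h0.mono le_normalizer le_top)⟩
  · rintro ⟨Q, h1, -, h3⟩
    refine h0.npc_of_norm_le_cent (inf_le_right.trans (h3.ge.trans (sup_le h1 ?_)))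
    exact le_centralizer_iff_isMulCommutative.2 hP

end Cfsg.Agent.S0083
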