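import Cfsg.Statements.S0084
import Cfsg.Agent.H2.Trans

set_option autoImplicit false
open Cfsg

namespace Cfsg.Agent.S0084
open CfsgH2

/-- A group whose Sylow 2-subgroups are Klein four-groups and whose order is prime to 3 has a normal 2-complement. -/
theorem result {G : Type*} [Group G] [Finite G] (T : Sylow 2 G) (hT : IsKleinFour T) (h3 : ¬ 3 ∣ Nat.card G) : Cfsg.HasNormalPComplement 2 G := by
  open Subgroup Function in
  rw [npc_top_iff]
  refine (syl_top T).npc_of_abelian (n := 2) ⟨⟨fun a b => ?_⟩⟩ hT.card_four ?_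
  · exact (mul_comm_of_exponent_two hT.exponent_two a b)
  · intro q k hq h2 hd h0 hk h
    rw [card_top] at hd
    interval_cases k
    · exact hq.one_lt.ne' (Nat.dvd_one.1 h)
    · exact h3 ((Nat.prime_dvd_prime_iff_eq hq Nat.prime_three).1 h ▸ hd)

end Cfsg.Agent.S0084
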