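import Cfsg.Statements.S0085
import Cfsg.Agent.H2.Trans

set_option autoImplicit false
open Cfsg

namespace Cfsg.Agent.S0085
open CfsgH2

/-- A group whose Sylow 2-subgroups are elementary abelian of order 8 and whose order is prime to 3 and to 7 has a normal 2-complement. -/
theorem result {G : Type*} [Group G] [Finite G] (T : Sylow 2 G) (h8 : Nat.card T = 8) (he : ∀ x : T, x * x = 1) (h3 : ¬ 3 ∣ Nat.card G) (h7 : ¬ 7 ∣ Nat.card G) : Cfsg.HasNormalPComplement 2 G := by
  open Subgroup Function in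
  rw [npc_top_iff]
  refine (syl_top T).npc_of_abelian (n := 3) ⟨⟨fun a b => ?_⟩⟩ h8 ?_
  · exact (Commute.of_orderOf_dvd_two (fun x => orderOf_dvd_of_pow_eq_one (by rw [sq]; exact he x)) a b)
  · intro q k hq h2 hd h0 hk h
    rw [card_top] at hd
    interval_cases k
    · exact hq.one_lt.ne' (Nat.dvd_one.1 h)
    · exact h3 ((Nat.prime_dvd_prime_iff_eq hq Nat.prime_three).1 h ▸ hd)
    · exact h7 ((Nat.prime_dvd_prime_iff_eq hq (by norm_num : Nat.Prime 7)).1 h ▸ hd)

end Cfsg.Agent.S0085
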