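import Cfsg.Statements.S0086
import Cfsg.Agent.H2.Frob

set_option autoImplicit false
open Cfsg

namespace Cfsg.Agent.S0086
open CfsgH2

/-- A normal complement to a Sylow p-subgroup is exactly the set of elements of order prime to p. -/
theorem result {G : Type*} [Group G] [Finite G] {p : ℕ} [Fact p.Prime] (P : Sylow p G) (N : Subgroup G) [N.Normal] (hN : N.IsComplement' (P : Subgroup G)) (x : G) : x ∈ N ↔ Nat.Coprime (orderOf x) p := by
  open Subgroup Function in
  have h1 : ¬ p ∣ Nat.card N := by rw [← hN.index_eq_card]; exact P.not_dvd_index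
  have h2 : Hall {p}ᶜ N ⊤ := ⟨le_top, (piN_compl_singleton Fact.out).2 h1, by
    rw [compl_compl, relIndex_top_right, hN.symm.index_eq_card]; exact isPGroup_iff_piN.1 P.2⟩
  exact ⟨fun h => ((coprime_iff_not_dvd Fact.out).2 h1).coprime_dvd_left (orderOf_dvd_of_mem h),
    fun h => h2.mem_of_norm le_normalizer_of_normal trivial ((piN_compl_singleton' Fact.out).2 h)⟩

end Cfsg.Agent.S0086
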