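import Cfsg.Statements.S0087
import Cfsg.Agent.H2.Trans
import Cfsg.Agent.S0079

set_option autoImplicit false
open Cfsg

namespace Cfsg.Agent.S0087
open CfsgH2

/-- A Hall subgroup that is central in its normalizer has a normal complement. -/
theorem result {G : Type*} [Group G] [Finite G] (H : Subgroup G) (hHall : Nat.Coprime (Nat.card H) H.index) (h : Subgroup.normalizer (H : Set G) ≤ Subgroup.centralizer (H : Set G)) : ∃ N : Subgroup G, N.Normal ∧ N.IsComplement' H := by
  open Subgroup Function in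
  have hc : IsMulCommutative H := le_centralizer_iff_isMulCommutative.1 (le_normalizer.trans h)
  refine (S0079.result H (isNilpotent_of_comm hc) hHall).2 ?_
  rintro x hx y hy ⟨g, rfl⟩
  have h1 := hall_of_coprime (le_top (a := H)) (by rwa [relIndex_top_right])
  have h2 := h1.map_cj_mem (mem_top g)
  have c1 : H ≤ C1[g * x * g⁻¹] := le_cent1_iff.2 (le_centralizer_iff_isMulCommutative.2 hc hy)
  have c2 : H.map (cj g) ≤ C1[g * x * g⁻¹] := by
    rw [centralizer_conj, map_cj_le_map_cj]
    exact le_cent1_iff.2 (le_centralizer_iff_isMulCommutative.2 hc hx)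
  obtain ⟨c, hc', e⟩ := (h2.mono c2 le_top).conj_of_nilpotent (h1.mono c1 le_top)
    (isNilpotent_map _ (isNilpotent_of_comm hc)) (isNilpotent_of_comm hc)
  rw [map_cj_cj, map_cj_eq_iff] at e
  have h3 := mem_cent_iff.1 (h e) x hx
  have h4 := mem_centralizer_singleton_iff.1 hc'
  refine ⟨1, one_mem _, ?_⟩
  calc 1 * x * 1⁻¹ = (x * (c * g)) * g⁻¹ * c⁻¹ := by group
    _ = c * (g * x * g⁻¹) * c⁻¹ := by rw [h3]; group
    _ = _ := by rw [h4]; group

end Cfsg.Agent.S0087
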