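import Cfsg.Statements.S0088
import Cfsg.Agent.H2.Trans

set_option autoImplicit false
open Cfsg

namespace Cfsg.Agent.S0088
open CfsgH2

/-- An abelian Hall subgroup meets G' ∩ Z(G) trivially. -/
theorem result {G : Type*} [Group G] [Finite G] (H : Subgroup G) (hc : IsMulCommutative H) (hHall : Nat.Coprime (Nat.card H) H.index) : H ⊓ commutator G ⊓ Subgroup.center G = ⊥ := by
  open Subgroup Function in
  have h1 := hall_of_coprime (le_top (a := H)) (by rwa [relIndex_top_right])
  have := h1.central_mem
  rwa [cent_top, commutator_eq_bot_iff_le_centralizer.2 (le_centralizer_iff_isMulCommutative.2 hc),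
    le_bot_iff] at this

end Cfsg.Agent.S0088
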