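import Cfsg.Statements.S0089
import Cfsg.Agent.H2.Trans
import Cfsg.Agent.S0088

set_option autoImplicit false
open Cfsg

namespace Cfsg.Agent.S0089
open CfsgH2

/-- When all Sylow subgroups are abelian, the derived subgroup meets the centre trivially. -/
theorem result {G : Type*} [Group G] [Finite G] (h : ∀ p : ℕ, p.Prime → ∀ P : Sylow p G, IsMulCommutative P) : commutator G ⊓ Subgroup.center G = ⊥ := by
  open Subgroup Function in
  by_contra hne
  obtain ⟨p, hp, hd⟩ := Nat.exists_prime_and_dvd (mt card_eq_one.1 hne)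
  haveI := Fact.mk hp
  obtain ⟨x, hx, ho⟩ := exists_prime_order_mem hp hd
  obtain ⟨P, hP⟩ := (isPGroup_zpowers (p := p) (k := 1) (x := x) (by rw [pow_one, ← ho, pow_orderOf_eq_one])).exists_le_sylow
  have := S0088.result (P : Subgroup G) (h p hp P) P.card_coprime_index
  have h2 : x ∈ (P : Subgroup G) ⊓ commutator G ⊓ center G := ⟨⟨hP (mem_zpowers x), hx.1⟩, hx.2⟩
  rw [this, mem_bot] at h2
  rw [h2, orderOf_one] at ho
  exact hp.one_lt.ne ho

end Cfsg.Agent.S0089
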