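import Cfsg.Statements.S0090
import Cfsg.Agent.H2.Trans
import Cfsg.Agent.S0088

set_option autoImplicit false
open Cfsg

namespace Cfsg.Agent.S0090
open CfsgH2

/-- An abelian normal Hall subgroup A splits as the internal direct product of G' ∩ A and Z(G) ∩ A, and [A, G] = G' ∩ A. -/
theorem result {G : Type*} [Group G] [Finite G] (A : Subgroup G) [A.Normal] (hc : IsMulCommutative A) (hHall : Nat.Coprime (Nat.card A) A.index) : ⁅A, (⊤ : Subgroup G)⁆ = commutator G ⊓ A ∧ (commutator G ⊓ A) ⊓ (Subgroup.center G ⊓ A) = ⊥ ∧ (commutator G ⊓ A) ⊔ (Subgroup.center G ⊓ A) = A := by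
  open Subgroup Function in
  obtain ⟨K, hK⟩ := exists_right_complement'_of_coprime hHall
  have hs : A ⊔ K = ⊤ := hK.sup_eq_top
  have hn : K ≤ N[A] := le_normalizer_of_normal
  have h0 : ⁅A, A⁆ = ⊥ :=
    commutator_eq_bot_iff_le_centralizer.2 (le_centralizer_iff_isMulCommutative.2 hc)
  have hcop : (Nat.card K).Coprime (Nat.card A) := by rw [← hK.symm.index_eq_card]; exact hHall.symm
  have h1 := CfsgH1.coprime_commutator_sup_centralizer hn hcop (.inr (isSolvable_of_comm hc))
  have h2 : A ⊓ C[K] ≤ center G ⊓ A := by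
    rw [← cent_top, ← hs, cent_sup]
    exact le_inf (inf_le_inf_right _ (le_centralizer_iff_isMulCommutative.2 hc)) inf_le_left
  have h3 : ⁅A, ⊤⁆ ≤ commutator G ⊓ A :=
    le_inf (commutator_mono le_top le_rfl) (commutator_le_left _ _)
  have h4 : (commutator G ⊓ A) ⊓ (center G ⊓ A) = ⊥ := by
    rw [← le_bot_iff, ← S0088.result A hc hHall]
    exact le_inf (le_inf (inf_le_left.trans inf_le_right) (inf_le_left.trans inf_le_left))
      (inf_le_right.trans inf_le_left)
  have h5 : ⁅A, ⊤⁆ ⊔ (center G ⊓ A) = A :=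
    le_antisymm (sup_le (commutator_le_left _ _) inf_le_right)
      (h1.ge.trans (sup_le_sup (commutator_mono le_rfl le_top) h2))
  have h6 : ⁅A, ⊤⁆ = commutator G ⊓ A := by
    have := sup_inf_of_norm (H := ⁅A, ⊤⁆) (K := center G ⊓ A) (.inl le_normalizer_of_normal) h3
    rw [h5, inf_comm (center G ⊓ A), h4, sup_bot_eq, inf_eq_right.2 inf_le_right] at this
    exact this.symm
  exact ⟨h6, h4, h6 ▸ h5⟩

end Cfsg.Agent.S0090
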