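import Cfsg.Statements.S0093
import Cfsg.Agent.H2.PG3

set_option autoImplicit false
open Cfsg

namespace Cfsg.Agent.S0093
open CfsgH2

/-- Every finite p-group has a critical subgroup: a characteristic subgroup H whose Frattini subgroup and whose commutator with the whole group lie in the centre of H, and whose centralizer is contained in H. -/
theorem result {P : Type*} [Group P] [Finite P] {p : ℕ} [Fact p.Prime] (hP : IsPGroup p P) : ∃ H : Subgroup P, H.Characteristic ∧ (frattini H).map H.subtype ≤ Subgroup.centralizer (H : Set P) ∧ ⁅H, (⊤ : Subgroup P)⁆ ≤ H ⊓ Subgroup.centralizer (H : Set P) ∧ Subgroup.centralizer (H : Set P) ≤ H := by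
  open Subgroup Function in
  obtain ⟨H, _, _, i, j, hi, hj, h1, h2⟩ := exists_hol P
  obtain ⟨K, a, b, c, d, e⟩ := exists_critical ((isPGroup_top_iff.2 hP).map i)
  obtain ⟨K, rfl⟩ := exists_map_eq a
  rw [← map_phi i (hP.to_subgroup K)] at c
  simp only [inj_simps hi, top_inf_eq] at c d e
  exact ⟨K, (h2 K).2 b, c.trans inf_le_right, d, e.le.trans inf_le_left⟩

end Cfsg.Agent.S0093
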