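import Cfsg.Statements.S0094
import Cfsg.Agent.H2.PG3

set_option autoImplicit false
open Cfsg

namespace Cfsg.Agent.S0094
open CfsgH2

/-- In a special p-group every central element has order dividing p. -/
theorem result {P : Type*} [Group P] [Finite P] {p : ℕ} [Fact p.Prime] (h : Cfsg.IsSpecial p P) (z : P) (hz : z ∈ Subgroup.center P) : z ^ p = 1 := by
  open Subgroup Function in
  refine exp_commutator_self (H := ⊤) ?_ (fun a _ => ?_) z (h.2.2.ge hz) <;> rw [cent_top]
  · exact h.2.2.le
  · exact h.2.1.le (CfsgH1.pow_mem_frattini h.1 a)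

end Cfsg.Agent.S0094
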