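import Cfsg.Statements.S0097
import Cfsg.Agent.H2.PG4

set_option autoImplicit false
open Cfsg

namespace Cfsg.Agent.S0097
open CfsgH2

/-- For odd p and E extraspecial, the subgroup generated by the elements of order dividing p has exponent dividing p and index at most p. -/
theorem result {E : Type*} [Group E] [Finite E] {p : ℕ} [Fact p.Prime] (hp : p ≠ 2) (h : Cfsg.IsExtraspecial p E) : (Subgroup.closure {x : E | x ^ p = 1}).index ≤ p ∧ ∀ g ∈ Subgroup.closure {x : E | x ^ p = 1}, g ^ p = 1 := by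
  open Subgroup Function in
  obtain ⟨h1, h2⟩ := extraspecial_top_iff.1 h
  have h3 : SmallClass p (⊤ : Subgroup E) := .inl ⟨hp, h1.der.trans inf_le_right⟩
  rw [← omegaOne_top]
  refine ⟨?_, h3.exp_omegaOne⟩
  obtain ⟨K, hK, e⟩ := exists_pow_hom fun x hx y hy =>
    h3.mul_pow (h1.der.trans (le_omegaOne_of_card inf_le_left h1.cardZ)) hx hy
  have e2 : Nat.card K = (omegaOne p (⊤ : Subgroup E)).index :=
    Nat.eq_of_mul_eq_mul_right (card_pos' _) (by rw [e, card_top, index_mul_card])
  rw [← e2, ← h1.cardZ]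
  refine card_le_of_le fun y hy => ?_
  obtain ⟨x, hx, rfl⟩ := (hK y).1 hy
  exact h1.pow_mem hx

end Cfsg.Agent.S0097
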