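import Cfsg.Statements.S0098
import Cfsg.Agent.H2.XspIso

set_option autoImplicit false
open Cfsg

namespace Cfsg.Agent.S0098
open CfsgH2

/-- For odd p, extraspecial p-groups of exponent p are determined up to isomorphism by their order. -/
theorem result {E₁ : Type*} {E₂ : Type*} [Group E₁] [Group E₂] [Finite E₁] [Finite E₂] {p : ℕ} [Fact p.Prime] (hp : p ≠ 2) (h₁ : Cfsg.IsExtraspecial p E₁) (h₂ : Cfsg.IsExtraspecial p E₂) (he₁ : Monoid.exponent E₁ = p) (he₂ : Monoid.exponent E₂ = p) (hc : Nat.card E₁ = Nat.card E₂) : Nonempty (E₁ ≃* E₂) := by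
  open Subgroup Function in
  obtain ⟨a, -⟩ := extraspecial_top_iff.1 h₁
  obtain ⟨b, -⟩ := extraspecial_top_iff.1 h₂
  obtain ⟨n, hn⟩ := a.card_eq
  obtain ⟨z, hz, h1⟩ := a.exists_ne_one
  obtain ⟨z', hz', h1'⟩ := b.exists_ne_one
  exact (gr_of_exp n _ _ a b hn (by rwa [card_top, ← hc, ← card_top])
    (fun x _ => he₁ ▸ Monoid.pow_exponent_eq_one x) (fun x _ => he₂ ▸ Monoid.pow_exponent_eq_one x)
    z hz z' hz' h1 h1').equiv hc

end Cfsg.Agent.S0098
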