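import Cfsg.Statements.S0099
import Cfsg.Agent.H2.XspIso

set_option autoImplicit false
open Cfsg

namespace Cfsg.Agent.S0099
open CfsgH2

/-- Among three extraspecial 2-groups of equal order, some two are isomorphic. -/
theorem result {E₁ : Type*} {E₂ : Type*} {E₃ : Type*} [Group E₁] [Group E₂] [Group E₃] [Finite E₁] [Finite E₂] [Finite E₃] (h₁ : Cfsg.IsExtraspecial 2 E₁) (h₂ : Cfsg.IsExtraspecial 2 E₂) (h₃ : Cfsg.IsExtraspecial 2 E₃) (h12 : Nat.card E₁ = Nat.card E₂) (h23 : Nat.card E₂ = Nat.card E₃) : Nonempty (E₁ ≃* E₂) ∨ Nonempty (E₂ ≃* E₃) ∨ Nonempty (E₁ ≃* E₃) := by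
  open Subgroup Function in
  obtain ⟨a, -⟩ := extraspecial_top_iff.1 h₁
  obtain ⟨b, -⟩ := extraspecial_top_iff.1 h₂
  obtain ⟨c, -⟩ := extraspecial_top_iff.1 h₃
  obtain ⟨n, hn⟩ := a.card_eq
  obtain ⟨z, hz, h1⟩ := a.exists_ne_one
  obtain ⟨z', hz', h1'⟩ := b.exists_ne_one
  obtain ⟨z'', hz'', h1''⟩ := c.exists_ne_one
  rcases gr_two n _ _ _ a b c hn (by rwa [card_top, ← h12, ← card_top])
    (by rwa [card_top, ← h23, ← h12, ← card_top]) z hz z' hz' z'' hz'' h1 h1' h1'' with g | g | g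
  · exact .inl (g.equiv h12)
  · exact .inr (.inl (g.equiv h23))
  · exact .inr (.inr (g.equiv (h12.trans h23)))

end Cfsg.Agent.S0099
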