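import Cfsg.Statements.S0101
import Cfsg.Agent.H2.Misc

set_option autoImplicit false
open Cfsg

namespace Cfsg.Agent.S0101
open CfsgH2

/-- In a perfect central extension, the kernel meets each Sylow p-subgroup P inside the Frattini subgroup of P. -/
theorem result {H : Type*} {G : Type*} [Group H] [Group G] [Finite H] (σ : H →* G) (hσ : Function.Surjective σ) (hc : σ.ker ≤ Subgroup.center H) (hH : commutator H = ⊤) {p : ℕ} [Fact p.Prime] (P : Sylow p H) : σ.ker ⊓ (P : Subgroup H) ≤ (frattini P).map (P : Subgroup H).subtype := by
  open Subgroup Function in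
  haveI := P.2.isNilpotent
  refine le_trans ?_ (CfsgH1.commutator_le_frattiniOf (P : Subgroup H))
  refine le_trans ?_ (hall_singleton.2 (syl_top P)).central_mem
  rw [cent_top]
  exact le_inf (le_inf inf_le_right (le_top.trans hH.ge)) (inf_le_left.trans hc)

end Cfsg.Agent.S0101
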