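import Cfsg.Statements.S0102
import Cfsg.Agent.H2.Misc

set_option autoImplicit false
open Cfsg

namespace Cfsg.Agent.S0102
open CfsgH2

/-- A finite perfect group with cyclic Sylow p-subgroups has no perfect central extension whose kernel has order divisible by p. -/
theorem result {G : Type*} {H : Type*} [Group G] [Group H] [Finite G] [Finite H] (hG : commutator G = ⊤) {p : ℕ} [Fact p.Prime] (hcyc : ∀ P : Sylow p G, IsCyclic P) (σ : H →* G) (hσ : Function.Surjective σ) (hz : σ.ker ≤ Subgroup.center H) (hH : commutator H = ⊤) : ¬ p ∣ Nat.card σ.ker := by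
  open Subgroup Function in
  obtain ⟨P, hP⟩ := exists_syl p (⊤ : Subgroup H)
  have h1 := hP.map σ
  rw [map_top_of_surjective _ hσ] at h1
  obtain ⟨Q, hQ⟩ := h1.exists_top
  have h2 := isMulComm_of_cyclic_map σ (hQ ▸ hcyc Q)
    (inf_le_right.trans (hz.trans (center_le_centralizer _)))
  have h3 := (hall_singleton.2 hP).comm_inf_cent h2
  have h4 := hP.inf_norm (le_top (a := σ.ker)) le_normalizer_of_normal
  have h5 : P ⊓ σ.ker = ⊥ := by
    rw [← le_bot_iff, ← h3, cent_top]
    exact le_inf (le_inf inf_le_left (le_top.trans hH.ge)) (inf_le_right.trans hz)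
  rw [h5] at h4
  simpa using h4.nd

end Cfsg.Agent.S0102
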