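import Cfsg.Statements.S0104
import Cfsg.Agent.H2.Frob

set_option autoImplicit false
open Cfsg

namespace Cfsg.Agent.S0104
open CfsgH2

/-- A subgroup Z of a Sylow p-subgroup P that is normalized by N_G(P) is weakly closed in P exactly when it is normal in every Sylow p-subgroup containing it. -/
theorem result {G : Type*} [Group G] [Finite G] {p : ℕ} [Fact p.Prime] (P : Sylow p G) (Z : Subgroup G) (hZP : Z ≤ (P : Subgroup G)) (hZN : Subgroup.normalizer (P : Set G) ≤ Subgroup.normalizer (Z : Set G)) : Cfsg.IsWeaklyClosed Z P ↔ ∀ R : Sylow p G, Z ≤ (R : Subgroup G) → (R : Subgroup G) ≤ Subgroup.normalizer (Z : Set G) := by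
  open Subgroup Function in
  constructor
  · intro hW R hR
    obtain ⟨g, -, e⟩ := (syl_top R).conj (syl_top P)
    have h1 : Z.map (cj g) = Z := hW.2 g (e ▸ map_mono hR)
    rw [← map_cj_le_map_cj (g := g), e, ← normalizer_map_cj, h1]
    exact le_normalizer.trans hZN
  · intro h
    refine ⟨hZP, fun g hg => ?_⟩
    obtain ⟨R, hR⟩ := ((syl_top P).map_cj_mem (mem_top g⁻¹)).exists_top
    have h1 := h R (hR ▸ map_cj_le_iff.1 hg)
    rw [hR] at h1
    obtain ⟨l, hl, e⟩ := (syl_top P).exists_norm_of_le (mem_top g⁻¹) le_top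
      (le_normalizer.trans hZN) h1
    have := mul_mem (inv_mem (hZN e)) hl
    exact map_cj_eq (by simpa using this)

end Cfsg.Agent.S0104
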