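import Cfsg.Statements.S0105
import Cfsg.Agent.H2.Misc

set_option autoImplicit false
open Cfsg

namespace Cfsg.Agent.S0105
open CfsgH2

/-- With an abelian Sylow p-subgroup P, some quotient of G is isomorphic to the part of P central in N_G(P). -/
theorem result {G : Type*} [Group G] [Finite G] {p : ℕ} [Fact p.Prime] (P : Sylow p G) (hP : IsMulCommutative P) : ∃ (N : Subgroup G) (hN : N.Normal), Nonempty (G ⧸ N ≃* ((P : Subgroup G) ⊓ Subgroup.centralizer (Subgroup.normalizer (P : Set G) : Set G) : Subgroup G)) := by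
  open Subgroup Function in
  have h0 := syl_top P
  obtain ⟨N, -, h2, -, h4, h5⟩ := h0.exists_transfer
  haveI := top_le_norm_iff.1 h2
  rw [h0.focal_abelian hP, top_inf_eq] at h4
  have h6 := hall_singleton.2 (h0.mono le_normalizer le_top)
  have h7 := h6.comm_sup_cent le_rfl hP
  have h8 := h6.comm_inf_cent hP
  refine ⟨N, this, ⟨(CfsgH1.isComplement'_of_inf_of_sup (N := N) ?_ ?_).symm.QuotientMulEquiv⟩⟩
  · rw [← inf_assoc, h4, ← le_bot_iff, ← h8]
    exact inf_le_inf_right _ (le_inf (comm_le_left le_rfl) (commutator_mono le_normalizer le_rfl))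
  · rw [eq_top_iff, ← h5]
    exact sup_le le_sup_left (h7.ge.trans (sup_le_sup (h4.ge.trans inf_le_left) le_rfl))

end Cfsg.Agent.S0105
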