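import Cfsg.Statements.S0106
import Cfsg.Agent.H2.Pq4
import Cfsg.Agent.H2.Sec
import Cfsg.Agent.H3.Hv2
import Cfsg.Agent.H8.SL23
import Cfsg.Agent.H9.Loc

set_option autoImplicit false
open Cfsg

namespace Cfsg.Agent.S0106
open CfsgH2
section
open Subgroup Function
open scoped commutatorElement

variable {G : Type*} [Group G] [Finite G] {Q : Subgroup G} {a b x : G}

theorem exists_three (h : MC Q a b 1) (hg : Odd (orderOf x)) (hn : x ∈ N[Q]) (hc : x ∉ C[Q]) :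
    ∃ y ∈ zpowers x, y ∉ C[Q] ∧ y ^ 3 ∈ C[Q] := by
  obtain ⟨r, hr, y, hy, py, yc⟩ : ∃ r : ℕ, r.Prime ∧ ∃ y ∈ zpowers x, IsPGroup r (zpowers y) ∧ y ∉ C[Q] := by
    by_contra! e; exact hc (zpowers_le.1 (le_of_forall_pelem e))
  haveI := Fact.mk hr
  have yo : Odd o[zpowers y] := odd_of_le (by rwa [Nat.card_zpowers]) (zpowers_le.2 hy)
  have yN : zpowers y ≤ N[Q] := zpowers_le.2 (zpowers_le.2 hn hy)
  have y0 : zpowers y ≠ ⊥ := fun e => yc (mem_bot.1 (e.le (mem_zpowers y)) ▸ one_mem _)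
  have nZ := yN.trans norm_le_norm_center
  obtain ⟨k, k0, k2, hk⟩ := exists_dvd_pow_sub_one (p := 2) (n := 2) (odd_ne_two yo (dvd_card_of_pgroup py y0))
    (isPGroup_qt (K := Z[Q]) py) (qt_le_norm yN) (by
      have := card_qt_mul' (le_norm_center (H := Q)) inf_le_left
      rw [h.card_center, h.toCy2.card] at this; omega) fun e => yc (zpowers_le.1 (coprime_le_cent_of_stable yN
        (coprime_of_pgroup h.toCy2.pg yo.not_two_dvd_nat).symm (.inr (isSolvable_of_pgroup h.toCy2.pg))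
        ((commutator_comm _ _).le.trans ((qt_le_cent_iff nZ le_norm_center).1 e))
        (cent_of_cyc (isPGroup_of_card' h.card_center) yo nZ (isCyclic_of_card_prime Nat.prime_two h.card_center))))
  obtain rfl : r = 3 := by
    interval_cases k
    · exact absurd (Nat.dvd_one.1 hk) hr.ne_one
    · exact (Nat.prime_dvd_prime_iff_eq hr Nat.prime_three).1 hk
  obtain ⟨j, hj⟩ := pgroup_pow_eq_one py (mem_zpowers y)
  classical
  have ex : ∃ j, y ^ 3 ^ j ∈ C[Q] := ⟨j, hj ▸ one_mem _⟩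
  have := Nat.find_spec ex
  obtain ⟨i, hi⟩ := Nat.exists_eq_succ_of_ne_zero (n := Nat.find ex) fun e => yc (by simpa [e] using this)
  exact ⟨y ^ 3 ^ i, pow_mem hy _, Nat.find_min ex (by omega), by rwa [← pow_mul, ← pow_succ, ← Nat.succ_eq_add_one, ← hi]⟩

theorem sec (h : MC Q a b 1) (h1 : ∀ q ∈ Q, q ∉ Z[Q] → q ^ 2 = a ^ 2) (hg : Odd (orderOf x)) (hn : x ∈ N[Q]) (hc : x ∉ C[Q])
    (h3 : x ^ 3 ∈ C[Q]) : Sec G (⊤ : Subgroup CfsgH8.SL23) := by
  classical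
  have w := h.wx
  have eZ : Z[Q] = zpowers (a ^ 2) := h.center_eq
  have o2 : orderOf (a ^ 2) = 2 := h.ord_sq
  have z2 : (a ^ 2) ^ 2 = 1 := orderOf_dvd_iff_pow_eq_one.1 o2.dvd
  have zm : a ^ 2 ∈ Z[Q] := eZ ▸ mem_zpowers _
  have z0 : a ^ 2 ≠ 1 := fun e => by simp [e] at o2
  have xz : x ∈ C[Z[Q]] := zpowers_le.1 (cent_of_cyc (isPGroup_of_card' w.cardZ) (by rwa [Nat.card_zpowers])
    (zpowers_le.2 (norm_le_norm_center hn)) (isCyclic_of_card_prime Nat.prime_two w.cardZ))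
  have cz : ∀ c ∈ Z[Q], c = 1 ∨ c = a ^ 2 := fun c hc => by
    rw [eZ, mem_zpowers_iff_mem_range_orderOf, o2] at hc
    simp only [Finset.mem_image, Finset.mem_range] at hc
    obtain ⟨i, hi, rfl⟩ := hc
    interval_cases i <;> simp
  have aQ := h.toCy2.amem
  have aZ : a ∉ Z[Q] := fun e => by
    have := orderOf_dvd_of_mem e
    rw [w.cardZ, h.ord] at this; omega
  have m1 := conj_mem_of_norm hn aQ
  have m2 := conj_mem_of_norm hn m1
  have e3 : x * (x * (x * a * x⁻¹) * x⁻¹) * x⁻¹ = a := by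
    rw [show x * (x * (x * a * x⁻¹) * x⁻¹) * x⁻¹ = x ^ 3 * a * (x ^ 3)⁻¹ by simp [pow_succ, mul_assoc],
      ← mem_cent_iff.1 h3 a aQ, mul_inv_cancel_right]
  set s := x * (x * a * x⁻¹) * x⁻¹ * (x * a * x⁻¹) * a with hs
  have sQ : s ∈ Q := mul_mem (mul_mem m2 m1) aQ
  have sZ : s ∈ Z[Q] := by_contra fun sZ => by
    have es : x * s * x⁻¹ = a * s * a⁻¹ := by
      nth_rw 1 [← e3]; rw [hs]; group
    have zs : a ^ 2 ∈ zpowers s := h1 s sQ sZ ▸ pow_mem (mem_zpowers s) 2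
    have os : orderOf s = 4 := orderOf_eq_prime_pow (p := 2) (n := 1) (by rw [pow_one, h1 s sQ sZ]; exact z0)
      (by rw [show 2 ^ (1 + 1) = 2 * 2 by rfl, pow_mul, h1 s sQ sZ, z2])
    have i : (zpowers s).relIndex Q = 2 := by
      have := card_mul_relIndex (zpowers_le.2 sQ)
      rw [Nat.card_zpowers, os, h.toCy2.card] at this; omega
    have xs : x ∈ N[zpowers s] := mem_norm_zpowers (es ▸ conj_mem_of_norm
      (le_norm_of_relIndex_prime w.pg (zpowers_le.2 sQ) (i ▸ Nat.prime_two) aQ) (mem_zpowers s))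
    exact hc (CfsgHv.cent_of_relIndex w.pg (zpowers_le.2 sQ) i.dvd hg hn (zpowers_le.1 (cent_of_cyc
      (w.pg.to_le (zpowers_le.2 sQ)) (by rwa [Nat.card_zpowers]) (zpowers_le.2 xs) inferInstance)))
  obtain ⟨q, qQ, q2, hq⟩ : ∃ q ∈ Q, q ^ 2 = a ^ 2 ∧ (x⁻¹ * q) ^ 3 = (x ^ 3)⁻¹ := by
    have e : (x⁻¹ * a) ^ 3 = (x ^ 3)⁻¹ * s := by simp [hs, pow_succ, mul_assoc]
    rcases cz s sZ with e1 | e1
    · exact ⟨a, aQ, rfl, by rw [e, e1, mul_one]⟩
    · have c : Commute (x⁻¹ * a) (a ^ 2) := (commute_of_mem_cent xz zm).inv_left.mul_left (.self_pow _ _)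
      have a4 : a ^ 4 = 1 := by rw [show 4 = orderOf a from h.ord.symm, pow_orderOf_eq_one]
      refine ⟨a * a ^ 2, mul_mem aQ zm.1, ?_, ?_⟩
      · rw [show (a * a ^ 2) ^ 2 = a ^ 4 * a ^ 2 by group, a4, one_mul]
      · rw [← mul_assoc, c.mul_pow, e, e1, show (x ^ 3)⁻¹ * a ^ 2 * (a ^ 2) ^ 3 = (x ^ 3)⁻¹ * (a ^ 4) ^ 2 by group, a4]
        simp
  have xY : x ∈ N[zpowers (x ^ 3)] := mem_norm_zpowers (by simp [pow_succ, mul_assoc])
  have QY : Q ≤ N[zpowers (x ^ 3)] := le_norm_of_le_cent (le_centralizer_iff.1 (zpowers_le.2 h3))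
  have exy : qmk _ ⟨x, xY⟩ * qmk _ (⟨x, xY⟩⁻¹ * ⟨q, QY qQ⟩) = qmk _ ⟨q, QY qQ⟩ := by rw [← map_mul, mul_inv_cancel_left]
  obtain ⟨φ, p1, p2⟩ := CfsgH8.exists_hom_SL23 (x := qmk _ ⟨x, xY⟩) (y := qmk _ (⟨x, xY⟩⁻¹ * ⟨q, QY qQ⟩))
    (by rw [← map_pow, qmk_eq_one]; exact mem_zpowers _)
    (by rw [← map_pow, qmk_eq_one]; change (x⁻¹ * q) ^ 3 ∈ _; rw [hq]; exact inv_mem (mem_zpowers _))
    (by
      rw [exy, ← map_pow, qmk_eq_one]
      change q ^ (2 * 2) ∈ _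
      rw [pow_mul, q2, z2]; exact one_mem _)
    (by
      rw [exy, ← map_pow, ← map_mul, ← map_mul]; congr 1
      exact Subtype.ext (by change q ^ 2 * x = x * q ^ 2; rw [q2]; exact mem_cent_iff.1 xz _ zm))
  refine Sec.of_inj (CfsgH8.inj_SL23 φ ?_) (((Sec.self N[zpowers (x ^ 3)]).qt le_rfl).mono (le_top.trans qt_norm_self.ge))
  rw [map_pow, map_mul, p1, p2, exy, ← map_pow, Ne, qmk_eq_one]
  intro e
  have := (orderOf_dvd_of_mem_zpowers e).trans (orderOf_pow_dvd 3)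
  rw [show ((_ : N[zpowers (x ^ 3)]) : G) = q ^ 2 from rfl, q2, o2] at this
  exact hg.not_two_dvd_nat this

end

/-- A finite group with generalized quaternion Sylow 2-subgroups either has a normal 2-complement or has a section isomorphic to SL(2,3). -/
theorem result {G : Type*} [Group G] [Finite G] (T : Sylow 2 G) (n : ℕ) (hn : 1 ≤ n) (hT : Nonempty ((T : Subgroup G) ≃* QuaternionGroup (2 ^ n))) : Cfsg.HasNormalPComplement 2 G ∨ ∃ (H K : Subgroup G) (hK : (K.subgroupOf H).Normal), Nonempty ((H ⧸ K.subgroupOf H) ≃* Matrix.SpecialLinearGroup (Fin 2) (ZMod 3)) := by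
  open Subgroup Function in open scoped commutatorElement in
  · refine or_iff_not_imp_left.2 fun n => involves_iff.2 (by_contra fun ns => n (npc_top_iff.2
      ((syl_top T).frobenius_npc fun Q hQ _ g _ gN cop => by_contra fun gC => ?_)))
    have pQ := T.2.to_le hQ
    have og : Odd (orderOf g) := Nat.coprime_two_right.1 cop
    rcases cyc_or_quat pQ ((prk_mono hQ).trans (prankLE_iff.1 (CfsgH9.pRankLE_one_of_quaternion hT.some))) with
      c | ⟨-, a, b, m, h, h1, h2⟩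
    · exact gC (zpowers_le.1 (cent_of_cyc pQ (by rwa [Nat.card_zpowers]) (zpowers_le.2 gN) c))
    have sq : ∀ y ∈ Q, y ∉ zpowers a → y ^ 2 = a ^ 2 ^ m := fun y hy hy' => by
      obtain ⟨k, hk⟩ := (h.toCy2.mem_iff.1 hy).resolve_left hy'
      obtain rfl : y = a ^ k * b := by rw [show a ^ k = y * b⁻¹ from hk]; group
      rw [← h1, show (a ^ k * b) ^ 2 = a ^ k * (b * a * b⁻¹) ^ k * b ^ 2 by rw [conj_zpow]; simp [sq, mul_assoc], h2]
      group
    obtain rfl | hm := h.pos.eq_or_lt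
    · obtain ⟨y, hy, y1, y3⟩ := exists_three h og gN gC
      refine ns (sec h (fun q hq hZ => by_cases (fun e => ?_) (sq q hq)) (og.of_dvd_nat (orderOf_dvd_of_mem_zpowers hy))
        (zpowers_le.2 gN hy) y1 y3)
      refine (eq_half_of_sq h.ord (pow_mem e 2) ?_).resolve_left fun e1 => hZ ?_
      · rw [← pow_add, ← orderOf_dvd_iff_pow_eq_one]; exact (orderOf_dvd_of_mem_zpowers e).trans h.ord.dvd
      · rw [h.center_eq]
        rcases eq_half_of_sq h.ord e (pow_two q ▸ e1) with rfl | rfl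
        exacts [one_mem _, mem_zpowers _]
    · refine gC (CfsgHv.cent_of_cyc pQ inferInstance h.toCy2.le_norm h.toCy2.relIndex.dvd (n := 2 * 2) (fun y hy hy' => ?_)
        le_rfl ⟨h.toCy2.amem, mem_zpowers a⟩ (fun e => ?_) og gN)
      · rw [pow_mul, sq y hy hy', pow_two, half_sq h.ord]
      · rw [← orderOf_dvd_iff_pow_eq_one, h.ord] at e
        have := (Nat.pow_dvd_pow_iff_le_right one_lt_two).1 (e.trans (show 2 * 2 ∣ 2 ^ 2 by rfl))
        omega

end Cfsg.Agent.S0106
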