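import Cfsg.Statements.S0107
import Cfsg.Agent.H2.PG1

set_option autoImplicit false
open Cfsg

namespace Cfsg.Agent.S0107
open CfsgH2

/-- A finite group with no nontrivial 2-group quotient and dihedral Sylow 2-subgroups of order at least 8 has a single class of involutions. -/
theorem result {G : Type*} [Group G] [Finite G] (T : Sylow 2 G) (n : ℕ) (hn : 2 ≤ n) (hT : Nonempty ((T : Subgroup G) ≃* DihedralGroup (2 ^ n))) (hO : Cfsg.pResidual 2 G = ⊤) (x y : G) (hx : orderOf x = 2) (hy : orderOf y = 2) : ∃ g : G, g * x * g⁻¹ = y := by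
  open Subgroup Function in
  obtain ⟨e⟩ := hT
  let f : DihedralGroup (2 ^ n) →* G := (T : Subgroup G).subtype.comp e.symm.toMonoidHom
  have hf : Injective f := (subtype_injective _).comp e.symm.injective
  have hr : (⊤ : Subgroup _).map f = T := by
    rw [← map_map, map_top_of_surjective _ e.symm.surjective, map_subtype_top]
  have ho : orderOf (f (DihedralGroup.r 1)) = 2 ^ n := by
    rw [orderOf_injective f hf, DihedralGroup.orderOf_r_one]
  have hc : Nat.card (T : Subgroup G) = 2 * 2 ^ n := by
    rw [Nat.card_congr e.toEquiv, DihedralGroup.nat_card]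
  set Q := zpowers (f (DihedralGroup.r 1)) with hQ
  have hQT : Q ≤ T := zpowers_le.2 (hr ▸ mem_map_of_mem f (mem_top _))
  have hi : Q.relIndex T = 2 := by
    have := card_mul_relIndex hQT
    rw [Nat.card_zpowers, ho, hc, mul_comm] at this
    exact Nat.eq_of_mul_eq_mul_right (by positivity) this
  have key : ∀ u : G, orderOf u = 2 → ∃ g : G, g * u * g⁻¹ ∈ Q := by
    intro u hu
    obtain ⟨a, -, ha⟩ := (syl_top T).exists_conj_le
      (isPGroup_zpowers (p := 2) (k := 1) (x := u) (by rw [pow_one, ← hu, pow_orderOf_eq_one])) le_top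
    have h1 : a * u * a⁻¹ ∈ T := ha (conj_mem_map_cj (mem_zpowers u))
    by_contra hc
    push Not at hc
    obtain ⟨M, hM, h2, -⟩ := thompson_transfer
      (Nat.odd_iff.2 (Nat.two_dvd_ne_zero.1 T.not_dvd_index)) hi (u := a * u * a⁻¹)
      (by rw [← sq, ← hu, ← orderOf_conj' a u, pow_orderOf_eq_one]) h1
      (fun g => by simpa [mul_assoc] using hc (g * a))
    have : piRes {2} ⊤ ≤ M := piRes_le_of le_normalizer_of_normal
      (by rw [relIndex_top_right, h2]; exact PiN.of_prime Nat.prime_two rfl)
    rw [← pResidual_eq, hO, top_le_iff] at this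
    simp [this] at h2
  obtain ⟨a, ha⟩ := key x hx
  obtain ⟨b, hb⟩ := key y hy
  have h3 := eq_of_orderOf_two inferInstance ha hb (by rw [orderOf_conj', hx])
    (by rw [orderOf_conj', hy])
  exact ⟨b⁻¹ * a, by rw [mul_inv_rev, inv_inv, ← mul_assoc, mul_assoc b⁻¹, mul_assoc b⁻¹, h3]; group⟩

end Cfsg.Agent.S0107
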