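import Cfsg.Statements.S0109
import Mathlib
import Cfsg.Agent.L0.Quad4

set_option autoImplicit false
open Cfsg

namespace Cfsg.Agent.S0109

open Cfsg Subgroup CfsgH2 CfsgL0

/-- The Thompson factorization Theorem for solvable groups states that, with p odd (and abelian Sylow 2-subgroups when p = 3) and no nontrivial normal subgroup of order prime to p, every element of G is a product of an element normalizing J(P) and an element centralizing the elements of order dividing p in the centre of P. -/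
theorem result {G : Type*} [Group G] [Finite G] {p : ℕ} [Fact p.Prime] (hp : p ≠ 2) (hs : Group.IsSolvable G) (h3 : p = 3 → ∀ T : Sylow 2 G, IsMulCommutative T) (hF : ∀ N : Subgroup G, N.Normal → Nat.Coprime (Nat.card N) p → N = ⊥) (P : Sylow p G) (g : G) : ∃ a ∈ Subgroup.normalizer (Cfsg.thompsonSubgroupOf p (P : Subgroup G) : Set G), ∃ c ∈ Subgroup.centralizer {x : G | x ∈ (P : Subgroup G) ∧ (∀ y ∈ (P : Subgroup G), x * y = y * x) ∧ x ^ p = 1}, g = a * c := by
  have h0 : pPrimeCore p G = ⊥ := hF _ inferInstance ((coprime_iff_not_dvd Fact.out).2 (by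
    simpa using nd_ker_mk (p := p) (G := G)))
  have ps := CfsgH1.isPSolvable_of_isSolvable (G := G) (p := p) Fact.out
  have hc := con_top_iff.1 (CfsgH1.centralizer_pCore_le ps h0)
  have h : ¬ Sec G (⊤ : Subgroup (Matrix.SpecialLinearGroup (Fin 2) (ZMod p))) := fun c =>
    not_sec_sl_of_ab hp (h3 (eq_three_of_sec hp ps c)) c
  obtain ⟨x, hx, c, hc, n, hn, e⟩ := tf_iff.1 ((tf_iff_cent h0).2 (J_le_cent_VZ hc
    (nst1_of_sl hp (elem_pgroup (VZ_elem hc)) (Sec.self ⊤) h))) P (syl_top P) g⁻¹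
  rw [h0, mem_bot] at hx
  refine ⟨n⁻¹, inv_mem hn, c⁻¹, inv_mem (centralizer_le ?_ hc), by
    rw [← mul_inv_rev, ← one_mul c, ← hx, ← e, inv_inv]⟩
  exact fun y hy => subset_closure ⟨⟨hy.1, mem_cent_iff.2 fun z hz => (hy.2.1 z hz).symm⟩, hy.2.2⟩

end Cfsg.Agent.S0109
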