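import Cfsg.Statements.S0112
import Cfsg.Agent.H2.MaxCl3

set_option autoImplicit false
open Cfsg

namespace Cfsg.Agent.S0112
open CfsgH2

/-- A p-group with a self-centralizing subgroup of order p^2 is of maximal class. -/
theorem result {X : Type*} [Group X] [Finite X] {p : ℕ} [Fact p.Prime] (n : ℕ) (hX : Nat.card X = p ^ n) (A : Subgroup X) (hA : Nat.card A = p ^ 2) (hC : Subgroup.centralizer (A : Set X) = A) : Group.nilpotencyClass X = n - 1 := by
  open Subgroup Function in
  have hp : p.Prime := Fact.out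
  have h2 : 2 ≤ n := by
    have := card_subgroup_dvd_card A
    rwa [hA, hX, Nat.pow_dvd_pow_iff_le_right hp.one_lt] at this
  obtain ⟨k, rfl⟩ : ∃ k, n = k + 2 := ⟨n - 2, by omega⟩
  have hX' : Nat.card (⊤ : Subgroup X) = p ^ (k + 2) := by rwa [card_top]
  have hP := isPGroup_of_card hX'
  haveI : Group.IsNilpotent X := (isPGroup_top_iff.1 hP).isNilpotent
  have h1 := lcs_ne_bot_of_cent k X ⊤ A hX' le_top hA (by rw [hC]; exact inf_le_right)
  have h3 : (⊤ : Subgroup X).lowerCentralSeries (k + 1) = ⊥ := by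
    by_contra e
    have := le_of_lcs_ne_bot hP hX' e
    omega
  rw [Subgroup.lowerCentralSeries_eq_bot_iff_nilpotencyClass_le] at h3
  rw [Ne, Subgroup.lowerCentralSeries_eq_bot_iff_nilpotencyClass_le] at h1
  omega

end Cfsg.Agent.S0112
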