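import Cfsg.Statements.S0113
import Cfsg.Agent.H2.MaxCl3

set_option autoImplicit false
open Cfsg

namespace Cfsg.Agent.S0113
open CfsgH2
section
open Subgroup Function
open scoped commutatorElement

theorem aux {X : Type*} [Group X] [Finite X] (k : ℕ) (hX : Nat.card X = 2 ^ (k + 3))
    (hc : Group.nilpotencyClass X = k + 3 - 1) : ∃ a b, MC (⊤ : Subgroup X) a b (k + 1) := by
  haveI : Fact (Nat.Prime 2) := ⟨Nat.prime_two⟩
  have hX' : Nat.card (⊤ : Subgroup X) = 2 ^ (k + 3) := by rwa [card_top]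
  have hP := isPGroup_of_card hX'
  haveI : Group.IsNilpotent X := (isPGroup_top_iff.1 hP).isNilpotent
  refine mc_of_lcs hP hX' ?_
  rw [Ne, Subgroup.lowerCentralSeries_eq_bot_iff_nilpotencyClass_le]
  omega

end

/-- A 2-group of maximal class contains a cyclic subgroup of index 2. -/
theorem result {X : Type*} [Group X] [Finite X] (n : ℕ) (hn : 3 ≤ n) (hX : Nat.card X = 2 ^ n) (hc : Group.nilpotencyClass X = n - 1) : ∃ C : Subgroup X, IsCyclic C ∧ C.index = 2 := by
  open Subgroup Function in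
  obtain ⟨k, rfl⟩ : ∃ k, n = k + 3 := ⟨n - 3, by omega⟩
  obtain ⟨a, b, h⟩ := aux k hX hc
  exact ⟨zpowers a, inferInstance, by rw [← relIndex_top_right, h.relIndex]⟩

end Cfsg.Agent.S0113
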