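import Cfsg.Statements.S0114
import Cfsg.Agent.H2.MaxCl3
import Cfsg.Agent.S0113

set_option autoImplicit false
open Cfsg

namespace Cfsg.Agent.S0114
open CfsgH2

/-- The central quotient of a 2-group of maximal class is dihedral. -/
theorem result {X : Type*} [Group X] [Finite X] (n : ℕ) (hn : 3 ≤ n) (hX : Nat.card X = 2 ^ n) (hc : Group.nilpotencyClass X = n - 1) : Nonempty (X ⧸ Subgroup.center X ≃* DihedralGroup (2 ^ (n - 2))) := by
  open Subgroup Function in
  obtain ⟨k, rfl⟩ : ∃ k, n = k + 3 := ⟨n - 3, by omega⟩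
  obtain ⟨a, b, h⟩ := Cfsg.Agent.S0113.aux k hX hc
  have hz : center X = zpowers (a ^ 2 ^ (k + 1)) := by rw [← center_top, h.center_eq]
  let f := QuotientGroup.mk' (center X)
  have hf : ∀ x, f x = 1 ↔ x ∈ zpowers (a ^ 2 ^ (k + 1)) := fun x => by
    rw [← hz]; exact QuotientGroup.eq_one_iff x
  have hle : zpowers (a ^ 2 ^ (k + 1)) ≤ zpowers a := zpowers_le.2 (pow_mem (mem_zpowers a) _)
  have hcy : Cy2 (⊤ : Subgroup (X ⧸ center X)) (f a) (f b) k := by
    refine ⟨?_, ?_, ?_, ?_, ?_⟩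
    · refine orderOf_eq_prime_pow ?_ (by rw [← map_pow, hf]; exact mem_zpowers _)
      rw [← map_pow, hf]
      intro e
      have h3 := card_dvd_of_le (zpowers_le.2 e)
      rw [← h.center_eq, h.card_center, Nat.card_zpowers] at h3
      have h4 := pow_eq_one_of_dvd (pow_orderOf_eq_one _) h3
      rw [← pow_mul, ← pow_succ] at h4
      exact half_ne_one h.ord h4
    · rw [← MonoidHom.map_zpowers]
      rintro ⟨x, hx, e⟩
      have : x⁻¹ * b ∈ zpowers a := hle ((hf _).1 (by rw [map_mul, map_inv, e]; simp))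
      exact h.nmem (by simpa using mul_mem hx this)
    · rw [← MonoidHom.map_zpowers, ← MonoidHom.map_zpowers, ← Subgroup.map_sup, h.sup,
        map_top_of_surjective _ (QuotientGroup.mk'_surjective _)]
    · rw [← MonoidHom.map_zpowers, ← map_pow]; exact mem_map_of_mem f h.sq
    · rw [← MonoidHom.map_zpowers]; exact mem_norm_map f h.norm
  have h1 : f (a ^ 2 ^ (k + 1)) = 1 := (hf _).2 (mem_zpowers _)
  refine ⟨topEquiv.symm.trans (hcy.dihedral ?_ ?_).some⟩
  · rw [← map_pow]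
    rcases h.rel with ⟨e, -⟩ | ⟨e, -⟩ | ⟨-, e, -⟩
    · rw [e, map_one]
    · rw [e, h1]
    · rw [e, map_one]
  · rw [← map_inv, ← map_mul, ← map_mul]
    rcases h.rel with ⟨-, e⟩ | ⟨-, e⟩ | ⟨-, -, e⟩
    · rw [e, map_inv]
    · rw [e, map_inv]
    · rw [e, map_mul, h1, mul_one, map_inv]

end Cfsg.Agent.S0114
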