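import Cfsg.Statements.S0115
import Cfsg.Agent.H2.MaxCl3
import Cfsg.Agent.S0113

set_option autoImplicit false
open Cfsg

namespace Cfsg.Agent.S0115
open CfsgH2

/-- A 2-group of order 2^n, n ≥ 3, is of maximal class exactly when its commutator quotient is a Klein four-group. -/
theorem result {X : Type*} [Group X] [Finite X] (n : ℕ) (hn : 3 ≤ n) (hX : Nat.card X = 2 ^ n) : Group.nilpotencyClass X = n - 1 ↔ IsKleinFour (X ⧸ commutator X) := by
  open Subgroup Function in
  haveI : Fact (Nat.Prime 2) := ⟨Nat.prime_two⟩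
  obtain ⟨k, rfl⟩ : ∃ k, n = k + 3 := ⟨n - 3, by omega⟩
  have hX' : Nat.card (⊤ : Subgroup X) = 2 ^ (k + 3) := by rwa [card_top]
  have hP := isPGroup_of_card hX'
  constructor
  · intro hc
    obtain ⟨a, b, h⟩ := Cfsg.Agent.S0113.aux k hX hc
    have h1 := h.relIndex_commutator
    rw [relIndex_top_right] at h1
    have h2 : Nat.card (X ⧸ commutator X) = 4 := h1
    refine ⟨h2, ?_⟩
    rcases elem_or_cyclic_of_card_sq (p := 2) (H := (⊤ : Subgroup (X ⧸ commutator X)))
      (by rw [card_top, h2]; norm_num) with e | e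
    · exfalso
      obtain ⟨x, hx⟩ := isCyclic_iff_zpowers.1 e
      obtain ⟨x, rfl⟩ := QuotientGroup.mk'_surjective _ x
      have h3 : zpowers x = ⊤ := by
        refine eq_of_le_phi_sup le_top (le_trans ?_ (sup_le_sup_right (comm_le_phi hP.isNilpotent) _))
        rw [← MonoidHom.map_zpowers] at hx
        have := congrArg (comap (QuotientGroup.mk' (commutator X))) hx
        rw [comap_map_eq, QuotientGroup.ker_mk', comap_top, sup_comm] at this
        exact this.ge
      exact h.not_comm (h3 ▸ inferInstance)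
    · haveI : Nontrivial (X ⧸ commutator X) := by
        rw [← Finite.one_lt_card_iff_nontrivial, h2]; norm_num
      exact (Monoid.exponent_eq_prime_iff Nat.prime_two).2 fun g hg =>
        orderOf_eq_prime (e.2 g (mem_top g)) hg
  · intro hK
    have h1 : (⁅(⊤ : Subgroup X), ⊤⁆ : Subgroup X).relIndex ⊤ = 4 := by
      rw [relIndex_top_right]; exact hK.card_four
    obtain ⟨a, b, m, h⟩ := taussky hP h1 (fun e => by
      rw [comm_self_eq_bot_iff.2 e, relIndex_bot_left, hX'] at h1
      have : 2 ^ 3 ≤ 2 ^ (k + 3) := Nat.pow_le_pow_right (by norm_num) (by omega)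
      omega)
    have := h.card
    rw [hX', Nat.pow_right_inj (by norm_num)] at this
    rw [h.nilpotencyClass_eq]; omega

end Cfsg.Agent.S0115
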