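import Cfsg.Statements.S0116
import Cfsg.Agent.H2.Misc

set_option autoImplicit false
open Cfsg

namespace Cfsg.Agent.S0116
open CfsgH2
section
open Subgroup Function
open scoped commutatorElement

theorem conv {G : Type*} [Group G] [Finite G] {p : ℕ} [Fact p.Prime] {P U : Subgroup G} {g : G}
    (h : AlpChain P p U g) : ∃ (n : ℕ) (Q : Fin n → Sylow p G) (x : Fin n → G),
    (List.ofFn x).prod = g ∧ (∀ i, x i ∈ N[P ⊓ Q i] ∧
      ¬ p ∣ (P ⊓ N[P ⊓ Q i]).relIndex N[P ⊓ Q i] ∧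
      ¬ p ∣ ((Q i : Subgroup G) ⊓ N[P ⊓ Q i]).relIndex N[P ⊓ Q i]) ∧
      ∀ i : Fin n, U.map (cj ((List.ofFn x).take i).prod⁻¹) ≤ P ⊓ Q i := by
  induction h with
  | nil U => exact ⟨0, Fin.elim0, Fin.elim0, by simp, fun i => i.elim0, fun i => i.elim0⟩
  | cons U Q x g h1 h2 h3 h4 h5 _ ih =>
    obtain ⟨n, R, y, e, a, b⟩ := ih
    obtain ⟨Q, rfl⟩ := h1.exists_top
    refine ⟨n + 1, Fin.cons Q R, Fin.cons x y, by simp [List.ofFn_succ, e], fun i => ?_, fun i => ?_⟩
    · refine Fin.cases ?_ (fun j => ?_) i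
      · exact ⟨h4, h2.nd, h3.nd⟩
      · exact a j
    · refine Fin.cases ?_ (fun j => ?_) i
      · simpa [map_cj_one] using h5
      · have := b j
        rw [map_cj_cj] at this
        simpa [List.ofFn_succ] using this

end

/-- The Alperin fusion Theorem states that conjugation between subsets of a Sylow p-subgroup P factors through normalizers of tame intersections P ∩ Q_i with other Sylow p-subgroups, carrying the subset along step by step. -/
theorem result {G : Type*} [Group G] [Finite G] {p : ℕ} [Fact p.Prime] (P : Sylow p G) (A : Set G) (g : G) (hA : A ⊆ (P : Set G)) (hAg : (fun a => g⁻¹ * a * g) '' A ⊆ (P : Set G)) : ∃ (n : ℕ) (Q : Fin n → Sylow p G) (x : Fin n → G), (List.ofFn x).prod = g ∧ (∀ i : Fin n, x i ∈ Subgroup.normalizer ((((P : Subgroup G) ⊓ (Q i : Subgroup G)) : Subgroup G) : Set G) ∧ ¬ p ∣ ((P : Subgroup G) ⊓ Subgroup.normalizer ((((P : Subgroup G) ⊓ (Q i : Subgroup G)) : Subgroup G) : Set G)).relIndex (Subgroup.normalizer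 ((((P : Subgroup G) ⊓ (Q i : Subgroup G)) : Subgroup G) : Set G)) ∧ ¬ p ∣ ((Q i : Subgroup G) ⊓ Subgroup.normalizer ((((P : Subgroup G) ⊓ (Q i : Subgroup G)) : Subgroup G) : Set G)).relIndex (Subgroup.normalizer ((((P : Subgroup G) ⊓ (Q i : Subgroup G)) : Subgroup G) : Set G))) ∧ (∀ h : 0 < n, A ⊆ (((P : Subgroup G) ⊓ (Q ⟨0, h⟩ : Subgroup G) : Subgroup G) : Set G)) ∧ ∀ i : Fin n, ∀ h : i.val + 1 < n, (fun a => (((List.ofFn x).take (i.val + 1)).prod)⁻¹ * a * ((List.ofFn x).take (i.val + 1)).prod) '' A ⊆ (((P : Subgroup G) ⊓ (Q ⟨i.val + 1, h⟩ : Subgroup G) : Subgroup G) : Set G) := by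
  open Subgroup Function in
  have h1 : closure A ≤ (P : Subgroup G) := (closure_le _).2 hA
  have h2 : (closure A).map (cj g⁻¹) ≤ (P : Subgroup G) := by
    rw [MonoidHom.map_closure, closure_le]
    rintro _ ⟨a, ha, rfl⟩
    exact hAg ⟨a, ha, by simp⟩
  obtain ⟨n, Q, x, e, a, b⟩ := conv (alperin (syl_top P) _ _ rfl g h1 h2)
  refine ⟨n, Q, x, e, a, fun h y hy => ?_, fun i h => ?_⟩
  · have := b ⟨0, h⟩
    simp only [List.take_zero, List.prod_nil, inv_one, map_cj_one] at this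
    exact this (subset_closure hy)
  · rintro _ ⟨y, hy, rfl⟩
    exact b ⟨i + 1, h⟩ (mem_map_cj.2 (by simpa [mul_assoc] using subset_closure hy))

end Cfsg.Agent.S0116
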