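import Cfsg.Statements.S0117
import Mathlib
import Cfsg.Agent.L0.ZJ2

set_option autoImplicit false
open Cfsg

namespace Cfsg.Agent.S0117

open Cfsg Subgroup CfsgH2 CfsgL0

/-- The Glauberman–Thompson Theorem states that for odd p, a single p-local subgroup, the normalizer of the centre of the Thompson subgroup of a Sylow p-subgroup, decides whether G has a normal p-complement. -/
theorem result {G : Type*} [Group G] [Finite G] {p : ℕ} [Fact p.Prime] (hp : p ≠ 2) (P : Sylow p G) : Cfsg.HasNormalPComplement p G ↔ Cfsg.HasNormalPComplement p (Subgroup.normalizer (Cfsg.centerThompsonOf p (P : Subgroup G) : Set G)) := by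
  rw [npc_iff, npc_top_iff]
  exact ⟨fun h => h.mono le_top, fun hN => npc_ZJe hp (syl_top P) SCl.refl (hN.mono inf_le_right)⟩

end Cfsg.Agent.S0117
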