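import Cfsg.Statements.S0118
import Mathlib
import Cfsg.Agent.L0.Quad3

set_option autoImplicit false
open Cfsg

namespace Cfsg.Agent.S0118

open Cfsg Subgroup CfsgH2 CfsgL0

/-- Glauberman's ZJ-Theorem, in the case of groups with no section isomorphic to SL(2,p), p odd: conjugation of subsets of a Sylow p-subgroup P inside P is always induced from the normalizer of Z(J(P)). -/
theorem result {G : Type*} [Group G] [Finite G] {p : ℕ} [Fact p.Prime] (hp : p ≠ 2) (hfree : ¬ ∃ (H K : Subgroup G) (hK : (K.subgroupOf H).Normal), Nonempty ((H ⧸ K.subgroupOf H) ≃* Matrix.SpecialLinearGroup (Fin 2) (ZMod p))) (P : Sylow p G) (A : Set G) (hA : A ⊆ (P : Set G)) (g : G) (hAg : (fun a => g⁻¹ * a * g) '' A ⊆ (P : Set G)) : ∃ n ∈ Subgroup.normalizer (Cfsg.centerThompsonOf p (P : Subgroup G) : Set G), ∀ a ∈ A, n⁻¹ * a * n = g⁻¹ * a * g := by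
  have h := fsf_ZJe hp (fun _ _ _ _ h => pst_of_sl hp h (mt involves_iff.2 hfree)) G ⊤ (Sec.self ⊤)
  rw [if_single, fsf_single (iw_cf (wZJ_char dvd_rfl)) (syl_top P)] at h
  obtain ⟨n, hn, h1⟩ := h _ ((closure_le _).2 hA) g⁻¹ trivial (closure_map_cj_le.2 (by simpa using hAg))
  rw [iw_ZJ, ← ZJ_eq] at hn
  exact ⟨n⁻¹, inv_mem hn.2, by simpa using mem_cent_closure.1 h1⟩

end Cfsg.Agent.S0118
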