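import Cfsg.Statements.S0119
import Cfsg.Agent.H2.PG3

set_option autoImplicit false
open Cfsg

namespace Cfsg.Agent.S0119
open CfsgH2

/-- If a p'-group A of automorphisms of a p-group G satisfies G = [G, A] and acts trivially on every characteristic abelian subgroup, then G is special with centre equal to the fixed points of A. -/
theorem result {G : Type*} [Group G] [Finite G] {p : ℕ} [Fact p.Prime] (hG : IsPGroup p G) (A : Subgroup (MulAut G)) (hA : Nat.Coprime (Nat.card A) p) (hGA : Subgroup.closure {x : G | ∃ g : G, ∃ a ∈ A, x = g⁻¹ * a g} = ⊤) (hchar : ∀ H : Subgroup G, H.Characteristic → IsMulCommutative H → ∀ a ∈ A, ∀ h ∈ H, a h = h) : Cfsg.IsSpecial p G ∧ (∀ g : G, (g ∈ Subgroup.center G ↔ ∀ a ∈ A, a g = g)) := by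
  open Subgroup Function in
  obtain ⟨H, _, _, i, j, hi, hj, h1, h2⟩ := exists_hol G
  have hP := isPGroup_top_iff.2 hG
  have hn := hol_norm h1 A
  obtain ⟨a, b, c⟩ := special_of_char_abelian (A := A.map j) (hP.map i)
    (by rw [card_map_of_injective hj]; exact (coprime_iff_not_dvd Fact.out).1 hA)
    (by
      refine le_antisymm (comm_le_left hn) ?_
      conv_lhs => rw [← hGA, MonoidHom.map_closure]
      rw [closure_le]
      rintro _ ⟨_, ⟨g, a, ha, rfl⟩, rfl⟩
      have := commutator_mem_commutator (mem_map_of_mem i (mem_top g⁻¹)) (mem_map_of_mem j ha)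
      rw [map_mul, ← h1]
      simpa [commutatorElement_def, mul_assoc] using this)
    (by
      intro B hB h3 h4
      obtain ⟨B, rfl⟩ := exists_map_eq hB
      rintro _ ⟨a, ha, rfl⟩
      exact (hol_cent hi h1).2 (hchar B ((h2 B).2 h3) ((inj_isMulComm hi).1 h4) a ha))
  rw [← map_phi i hP] at a
  simp only [inj_simps hi, center_top, CfsgH1.frattiniOf_top] at a b
  refine ⟨⟨hG, a, b⟩, fun g => ?_⟩
  rw [← center_top, ← mem_map_iff_mem hi, ← inj_inf_cent hi, ← c, mem_inf, mem_cent_iff]
  constructor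
  · rintro ⟨-, h⟩ a ha
    apply hi; rw [← h1, h _ (mem_map_of_mem _ ha)]; simp
  · intro h
    refine ⟨mem_map_of_mem _ (mem_top _), ?_⟩
    rintro _ ⟨a, ha, rfl⟩
    rw [mul_inv_eq_iff_eq_mul.1 (h1 a g), h a ha]

end Cfsg.Agent.S0119
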