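import Cfsg.Statements.S0120
import Cfsg.Agent.H2.PG3

set_option autoImplicit false
open Cfsg

namespace Cfsg.Agent.S0120
open CfsgH2

/-- For odd p, a p'-automorphism of a p-group acting trivially on the elements of order dividing p is trivial. -/
theorem result {G : Type*} [Group G] [Finite G] {p : ℕ} [Fact p.Prime] (hp : p ≠ 2) (hG : IsPGroup p G) (a : MulAut G) (ha : Nat.Coprime (orderOf a) p) (h : ∀ x : G, x ^ p = 1 → a x = x) : a = 1 := by
  open Subgroup Function in
  obtain ⟨H, _, _, i, j, hi, hj, h1, h2⟩ := exists_hol G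
  have := coprime_odd_faithful_omega (A := (zpowers a).map j) hp
    (by rw [card_map_of_injective hj, Nat.card_zpowers]; exact (coprime_iff_not_dvd Fact.out).1 ha)
    _ ((isPGroup_top_iff.2 hG).map i) (hol_norm h1 _) (by
      rw [MonoidHom.map_zpowers, zpowers_le, inj_omegaOne hi, hol_cent hi h1]
      exact omegaOne_le_of (K := a.toMonoidHom.eqLocus (MonoidHom.id _)) fun x _ hx => h x hx)
  ext x
  exact (hol_cent hi h1).1 (this (mem_map_of_mem _ (mem_zpowers a))) x (mem_top x)

end Cfsg.Agent.S0120
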