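import Cfsg.Statements.S0121
import Cfsg.Agent.H2.PG3

set_option autoImplicit false
open Cfsg

namespace Cfsg.Agent.S0121
open CfsgH2

/-- A p'-automorphism of a p-group acting trivially on a critical subgroup is trivial. -/
theorem result {G : Type*} [Group G] [Finite G] {p : ℕ} [Fact p.Prime] (hG : IsPGroup p G) (H : Subgroup G) (hH : H.Characteristic) (h1 : (frattini H).map H.subtype ≤ Subgroup.centralizer (H : Set G)) (h2 : ⁅H, (⊤ : Subgroup G)⁆ ≤ H ⊓ Subgroup.centralizer (H : Set G)) (h3 : Subgroup.centralizer (H : Set G) ≤ H) (a : MulAut G) (ha : Nat.Coprime (orderOf a) p) (h : ∀ x ∈ H, a x = x) : a = 1 := by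
  open Subgroup Function in
  obtain ⟨K, _, _, i, j, hi, hj, h4, h5⟩ := exists_hol G
  have hP := (isPGroup_top_iff.2 hG).map i
  have h6 : (zpowers a).map j ≤ C[H.map i] := by
    rw [MonoidHom.map_zpowers, zpowers_le, hol_cent hi h4]; exact h
  have := coprime_le_cent_of_self_cent (hol_norm h4 (zpowers a)) (coprime_of_not_dvd
    (by rw [card_map_of_injective hj, Nat.card_zpowers]; exact (coprime_iff_not_dvd Fact.out).1 ha)
    hP) (.inr (isSolvable_of_pgroup hP)) (map_le_norm_map i le_normalizer_of_normal)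
    (by rw [inj_inf_cent hi, top_inf_eq]; exact (map_mono h3).trans (le_centralizer_iff.1 h6)) h6
  ext x
  exact (hol_cent hi h4).1 (this (mem_map_of_mem _ (mem_zpowers a))) x (mem_top x)

end Cfsg.Agent.S0121
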