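import Cfsg.Statements.S0125
import Cfsg.Agent.H2.Misc

set_option autoImplicit false
open Cfsg

namespace Cfsg.Agent.S0125
open CfsgH2

/-- The centralizer of a self-centralizing normal subgroup A of a Sylow p-subgroup is the direct product of A with a normal p'-subgroup. -/
theorem result {G : Type*} [Group G] [Finite G] {p : ℕ} [Fact p.Prime] (R : Sylow p G) (A : Subgroup G) (hAR : A ≤ (R : Subgroup G)) (hAn : (R : Subgroup G) ≤ Subgroup.normalizer (A : Set G)) (hC : (R : Subgroup G) ⊓ Subgroup.centralizer (A : Set G) = A) : ∃ H : Subgroup G, H ≤ Subgroup.centralizer (A : Set G) ∧ Nat.Coprime (Nat.card H) p ∧ Subgroup.centralizer (A : Set G) ≤ Subgroup.normalizer (H : Set G) ∧ H ⊓ A = ⊥ ∧ H ⊔ A = Subgroup.centralizer (A : Set G) := by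
  open Subgroup Function in
  have h1 := (syl_top R).mono hAn le_top
  have h2 := h1.inf_norm (cent_le_norm A) (le_norm_cent hAn)
  rw [hC] at h2
  have h3 := h2.npc_of_norm_le_cent inf_le_left
  exact ⟨_, piCoreOf_le, (coprime_iff_not_dvd Fact.out).2 not_dvd_piCoreOf, le_norm_piCoreOf,
    by rw [inf_comm]; exact inf_eq_bot_of_piN (isPGroup_iff_piN.1 h2.pg) piN_piCoreOf,
    h3.sup_eq h2⟩

end Cfsg.Agent.S0125
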