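import Cfsg.Statements.S0129
import Cfsg.Agent.H2.PG3

set_option autoImplicit false
open Cfsg

namespace Cfsg.Agent.S0129
open CfsgH2

/-- The order of a p-group is bounded by p^(a(a+1)/2) when it has a maximal normal abelian subgroup of order p^a. -/
theorem result {G : Type*} [Group G] [Finite G] {p : ℕ} [Fact p.Prime] (hG : IsPGroup p G) (A : Subgroup G) [A.Normal] (hA : IsMulCommutative A) (hmax : ∀ B : Subgroup G, B.Normal → IsMulCommutative B → A ≤ B → B = A) (a : ℕ) (ha : Nat.card A = p ^ a) : Nat.card G ≤ p ^ (a * (a + 1) / 2) := by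
  open Subgroup Function in
  have hP := isPGroup_top_iff.2 hG
  obtain ⟨B, h1, h2⟩ := exists_scn_ge hP le_top le_normalizer_of_normal hA
  obtain rfl := hmax B (top_le_norm_iff.1 h2.2.1) (scn_comm h2) h1
  have h3 := relIndex_cent_le_pow hP a B h2.2.1 ha
  have h4 := h2.2.2
  rw [top_inf_eq] at h4
  rw [h4, relIndex_top_right] at h3
  have e : a * (a + 1) / 2 = a + a.choose 2 := by
    have := Nat.choose_two_right (a + 1)
    rw [Nat.choose_succ_succ' a 1, Nat.choose_one_right, Nat.add_sub_cancel, mul_comm] at this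
    exact this.symm
  rw [← B.card_mul_index, ha, e, pow_add]
  exact Nat.mul_le_mul_left _ h3

end Cfsg.Agent.S0129
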