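import Cfsg.Statements.S0131
import Cfsg.Agent.H2.Trans

set_option autoImplicit false
open Cfsg

namespace Cfsg.Agent.S0131
open CfsgH2

/-- P/P' has a normal complement in G exactly when the focal subgroup G' ∩ P is as small as possible, namely P'. -/
theorem result {G : Type*} [Group G] [Finite G] {p : ℕ} [Fact p.Prime] (P : Sylow p G) : (∃ N : Subgroup G, N.Normal ∧ N ⊓ (P : Subgroup G) = ⁅(P : Subgroup G), (P : Subgroup G)⁆ ∧ N ⊔ (P : Subgroup G) = ⊤) ↔ commutator G ⊓ (P : Subgroup G) = ⁅(P : Subgroup G), (P : Subgroup G)⁆ := by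
  open Subgroup Function in
  constructor
  · rintro ⟨N, hN, h1, h2⟩
    have := commutator_le_of_sup (M := ⊤) le_normalizer_of_normal h2
    rw [sup_eq_left.2 (h1.ge.trans inf_le_left)] at this
    exact le_antisymm (h1 ▸ inf_le_inf_right _ this)
      (le_inf (commutator_mono le_top le_top) (h1.ge.trans inf_le_right))
  · intro h
    obtain ⟨N, -, h2, -, h4, h5⟩ := (syl_top P).exists_transfer
    exact ⟨N, top_le_norm_iff.1 h2, h4.trans h, h5⟩

end Cfsg.Agent.S0131
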