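import Cfsg.Statements.S0132
import Cfsg.Agent.H2.Misc
import Cfsg.Agent.H1.Fitting

set_option autoImplicit false
open Cfsg

namespace Cfsg.Agent.S0132
open CfsgH2

/-- A minimal non-p-nilpotent finite group is a minimal non-nilpotent group with a normal Sylow p-subgroup. -/
theorem result {G : Type*} [Group G] [Finite G] {p : ℕ} [Fact p.Prime] (h1 : ¬ Cfsg.HasNormalPComplement p G) (h2 : ∀ H : Subgroup G, H ≠ ⊤ → Cfsg.HasNormalPComplement p H) : (∀ H : Subgroup G, H ≠ ⊤ → Group.IsNilpotent H) ∧ ¬ Group.IsNilpotent G ∧ ∀ P : Sylow p G, (P : Subgroup G).Normal := by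
  open Subgroup Function in
  rw [npc_top_iff] at h1
  have h3 : ∃ (Q : Subgroup G) (q : ℕ) (x : G), IsPGroup p Q ∧ q.Prime ∧ q ≠ p ∧
      IsPGroup q (zpowers x) ∧ x ∈ N[Q] ∧ x ∉ C[Q] := by
    by_contra hc
    push Not at hc
    refine h1 (frobenius_npc fun Q _ hQ _ g _ hg hco => le_of_forall_pelem (M := zpowers g)
      (fun q hq x hx hz => ?_) (mem_zpowers g))
    by_cases e : q = p
    · subst e
      rw [eq_one_of_coprime_order hz (mem_zpowers x)
        (hco.coprime_dvd_left (orderOf_dvd_of_mem_zpowers hx))]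
      exact one_mem _
    · exact hc Q q x hQ hq e hz (zpowers_le.2 hg hx)
  obtain ⟨Q, q, x, hQ, hq, hqp, hx, hn, hc⟩ := h3
  haveI := Fact.mk hq
  have hnd : ∀ K : Subgroup G, IsPGroup q K → ¬ p ∣ Nat.card K := fun K hK =>
    (piN_compl_singleton Fact.out).1 (hK.piN (by simpa using hqp))
  have htop : Q ⊔ zpowers x = ⊤ := by
    by_contra hne
    exact hc ((npc_iff.1 (h2 _ hne)).mem_cent hQ le_sup_left (mem_sup_right (mem_zpowers x)) hn
      ((coprime_iff_not_dvd Fact.out).2 (Nat.card_zpowers x ▸ hnd _ hx)))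
  have hQn : ⊤ ≤ N[Q] := htop.ge.trans (sup_le le_normalizer (zpowers_le.2 hn))
  have hS : Syl p Q ⊤ := htop ▸ (Syl.self hQ).sup_coprime (.inr (zpowers_le.2 hn)) (hnd _ hx)
  refine ⟨fun H hH => ?_, fun h => h1 (NPC.of_nilpotent inferInstance), fun P => ?_⟩
  · have h4 := npc_iff.1 (h2 _ hH)
    have h5 : Syl p (Q ⊓ H) H := hall_singleton.1 ((hall_singleton.2 hS).inf_norm le_top
      (.inr (le_top.trans hQn)))
    rw [← h4.sup_eq h5]
    have h6 : IsPGroup q (piCoreOf {p}ᶜ H) := by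
      have h7 : piCoreOf {p}ᶜ H ⊓ Q = ⊥ := by
        rw [inf_comm]; exact inf_eq_bot_of_piN (isPGroup_iff_piN.1 hQ) piN_piCoreOf
      refine isPGroup_of_qt (le_top.trans hQn) ((isPGroup_qt (K := Q) hx).to_le ?_)
        (h7 ▸ IsPGroup.of_bot)
      rw [← qt_self_sup (zpowers_le.2 hn), htop]; exact qt_mono le_top
    haveI := h6.isNilpotent
    haveI := h5.pg.isNilpotent
    exact CfsgH1.isNilpotent_sup_of_normalizes
      (le_norm_inf (le_top.trans hQn) (le_norm_of_le piCoreOf_le)) (h5.le.trans le_norm_piCoreOf)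
  · rw [hS.eq_of_norm (syl_top P) hQn]; exact top_le_norm_iff.1 hQn

end Cfsg.Agent.S0132
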