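import Cfsg.Statements.S0158
import Cfsg.Agent.H3.More

set_option autoImplicit false
open Cfsg

namespace Cfsg.Agent.S0158
open CfsgH3

/-- The Frobenius–Schur indicator of an irreducible complex representation of a finite group — the average over s of the character at s * s — is 0, 1 or −1, and it vanishes exactly when some character value is not real. -/
theorem result {G : Type*} [Group G] [Fintype G] {V : Type*} [AddCommGroup V] [Module ℂ V] [FiniteDimensional ℂ V] (ρ : Representation ℂ G V) [ρ.IsIrreducible] : ((Nat.card G : ℂ)⁻¹ * ∑ s : G, ρ.character (s * s) = 0 ∨ (Nat.card G : ℂ)⁻¹ * ∑ s : G, ρ.character (s * s) = 1 ∨ (Nat.card G : ℂ)⁻¹ * ∑ s : G, ρ.character (s * s) = -1) ∧ ((Nat.card G : ℂ)⁻¹ * ∑ s : G, ρ.character (s * s) = 0 ↔ ∃ s : G, (ρ.character s).im ≠ 0) := by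
  obtain ⟨a, b, -, -, h, h1, h2⟩ := (isIrr_of_rep ρ).exists_fs
  by_cases hr : ∀ g, (ρ.character g).im = 0
  · have := h1 hr
    have hab : (a = 1 ∧ b = 0) ∨ (a = 0 ∧ b = 1) := by omega
    rw [h]
    refine ⟨?_, ?_⟩
    · rcases hab with ⟨rfl, rfl⟩ | ⟨rfl, rfl⟩ <;> simp
    · rcases hab with ⟨rfl, rfl⟩ | ⟨rfl, rfl⟩ <;> simp [hr]
  · have := h2 hr
    obtain ⟨rfl, rfl⟩ : a = 0 ∧ b = 0 := by omega
    rw [h]
    push Not at hr
    simp [hr]


end Cfsg.Agent.S0158
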