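import Cfsg.Statements.S0160
import Cfsg.Agent.H3.More

set_option autoImplicit false
open Cfsg

namespace Cfsg.Agent.S0160
open CfsgH3

/-- A finite group has as many real-valued irreducible complex characters as conjugacy classes closed under taking inverses. -/
theorem result {G : Type*} [Group G] [Finite G] : Nat.card {χ : Cfsg.IrrCharacter G // ∀ g : G, ((χ : G → ℂ) g).im = 0} = Nat.card {C : ConjClasses G // ∀ g : G, ConjClasses.mk g = C → IsConj g g⁻¹} := by
  have := brauer_perm (G := G) (fun g => g⁻¹) (fun χ hχ => by
    simp_rw [hχ.isCharacter.apply_inv]; exact hχ.conj)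
  convert this using 3 with χ C
  · ext χ
    simp_rw [χ.2.isCharacter.apply_inv]
    exact conj_eq_self_iff.symm
  · ext C
    exact forall_congr' fun g => imp_congr_right fun _ => ⟨IsConj.symm, IsConj.symm⟩


end Cfsg.Agent.S0160
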