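import Cfsg.Statements.S0162
import Cfsg.Agent.H3.More

set_option autoImplicit false
open Cfsg

namespace Cfsg.Agent.S0162
open CfsgH3

/-- If a finite group has odd order, its order is congruent to its number of conjugacy classes modulo 16. -/
theorem result {G : Type*} [Group G] [Finite G] (hodd : Odd (Nat.card G)) : Nat.card G ≡ Nat.card (ConjClasses G) [MOD 16] := by
  classical
  choose d hd hd' using fun χ : Cfsg.IrrCharacter G => χ.2.exists_pos_apply_one
  have h1 : Nat.card G = ∑ χ, d χ ^ 2 := by
    have := sum_irr_deg_sq (G := G)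
    simp_rw [hd'] at this
    exact_mod_cast this.symm
  rw [← card_irr_eq_card_conjClasses, h1, ← ZMod.natCast_eq_natCast_iff,
    Nat.card_eq_fintype_card, ← sub_eq_zero, Fintype.card_eq_sum_ones]
  push_cast
  rw [← Finset.sum_sub_distrib]
  have hodd' : ∀ χ, Odd (d χ) := fun χ => hodd.of_dvd_nat (χ.2.degree_dvd_card (hd' χ))
  refine Finset.sum_involution (fun χ _ => ⟨_, χ.2.conj⟩) (fun χ _ => ?_) (fun χ _ h h' => ?_)
    (fun _ _ => Finset.mem_univ _) (fun χ _ => Subtype.ext (by simp))
  · have e : d ⟨_, χ.2.conj⟩ = d χ := by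
      have := hd' ⟨_, χ.2.conj⟩
      simp only [hd' χ, map_natCast] at this
      exact_mod_cast this.symm
    rw [e]
    obtain ⟨k, hk⟩ := hodd' χ
    rw [hk]
    push_cast
    generalize (k : ZMod 16) = x
    revert x
    decide
  · apply h
    have : (χ : G → ℂ) = fun _ => 1 := by
      by_contra h1
      exact χ.2.conj_ne_of_odd hodd h1 (congrArg Subtype.val h')
    have e := hd' χ
    rw [this] at e
    have : d χ = 1 := by simpa using e.symm
    simp [this]


end Cfsg.Agent.S0162
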