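import Cfsg.Statements.S0166
import Cfsg.Agent.H3.Brauer
import Cfsg.Agent.H3.More

set_option autoImplicit false
open Cfsg

open Cfsg CfsgH3 Function Module
open scoped ComplexConjugate

namespace Cfsg.Agent.S0166
theorem trace_exact {K U V W : Type*} [Field K] [AddCommGroup U] [Module K U] [AddCommGroup V]
    [Module K V] [AddCommGroup W] [Module K W] [FiniteDimensional K U] [FiniteDimensional K V]
    [FiniteDimensional K W] (i : U →ₗ[K] V) (q : V →ₗ[K] W) (hi : LinearMap.ker i = ⊥)
    (hq : LinearMap.range q = ⊤) (he : ∀ x, q x = 0 ↔ ∃ u, i u = x) (a : U →ₗ[K] U) (φ : V →ₗ[K] V)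
    (b : W →ₗ[K] W) (h1 : φ ∘ₗ i = i ∘ₗ a) (h2 : q ∘ₗ φ = b ∘ₗ q) :
    LinearMap.trace K V φ = LinearMap.trace K U a + LinearMap.trace K W b := by
  obtain ⟨s, hs⟩ := q.exists_rightInverse_of_surjective hq
  obtain ⟨r0, hr⟩ := i.exists_leftInverse_of_injective hi
  have hs' : ∀ w, q (s w) = w := fun w => LinearMap.congr_fun hs w
  have hr' : ∀ w, r0 (i w) = w := fun w => LinearMap.congr_fun hr w
  let r : V →ₗ[K] U := r0 ∘ₗ (LinearMap.id - s ∘ₗ q)
  have e1 : r ∘ₗ i = LinearMap.id := by
    ext u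
    have : q (i u) = 0 := (he _).2 ⟨u, rfl⟩
    simp [r, this, hr']
  have e2 : φ = (φ ∘ₗ i) ∘ₗ r + (φ ∘ₗ s) ∘ₗ q := by
    ext x
    obtain ⟨u, hu⟩ := (he (x - s (q x))).1 (by simp [hs'])
    have : r x = u := by simp [r, ← hu, hr']
    simp only [LinearMap.add_apply, LinearMap.comp_apply, this, hu, ← map_add, sub_add_cancel]
  conv_lhs => rw [e2]
  rw [map_add, LinearMap.trace_comp_comm' r, LinearMap.trace_comp_comm' q, h1,
    ← LinearMap.comp_assoc, e1, ← LinearMap.comp_assoc, h2, LinearMap.comp_assoc, hs]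
  simp

/-- `χ` is the character of a representation over `K`. -/
def Rl (K : IntermediateField ℚ ℂ) {G : Type*} [Group G] (χ : G → ℂ) : Prop :=
  ∃ (n : ℕ) (σ : Representation K G (Fin n → K)), ∀ g, χ g = (σ.character g : K)

section
variable {K : IntermediateField ℚ ℂ} {G : Type*} [Group G]

theorem rl_of {V : Type*} [AddCommGroup V] [Module K V] [FiniteDimensional K V]
    (ρ : Representation K G V) : Rl K (fun g => ((ρ.character g : K) : ℂ)) := by
  let e := (Module.finBasis K V).equivFun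
  refine ⟨_, e.conjRingEquiv.toMonoidHom.comp ρ, fun g => ?_⟩
  exact congrArg _ (LinearMap.trace_conj' (ρ g) e).symm

/-- Extension of scalars of a matrix representation. -/
noncomputable def up {n : ℕ} (σ : Representation K G (Fin n → K)) :
    Representation ℂ G (Fin n → ℂ) where
  toFun g := Matrix.toLin' ((LinearMap.toMatrix' (σ g)).map (algebraMap K ℂ))
  map_one' := by
    rw [map_one, LinearMap.toMatrix'_one, Matrix.map_one _ (map_zero _) (map_one _),
      Matrix.toLin'_one]; rfl
  map_mul' a b := by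
    rw [map_mul, LinearMap.toMatrix'_mul, Matrix.map_mul, Matrix.toLin'_mul]; rfl

theorem up_char {n : ℕ} (σ : Representation K G (Fin n → K)) (g : G) :
    (up σ).character g = (σ.character g : K) := by
  show LinearMap.trace ℂ _ (Matrix.toLin' _) = algebraMap K ℂ (LinearMap.trace K _ (σ g))
  rw [Matrix.trace_toLin'_eq, ← Matrix.toLin'_toMatrix' (σ g), Matrix.trace_toLin'_eq,
    LinearMap.toMatrix'_toLin']
  exact (AddMonoidHom.map_trace (algebraMap K ℂ) _).symm

theorem Rl.isChar {χ : G → ℂ} (h : Rl K χ) : IsCharacter G χ := by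
  obtain ⟨n, σ, h⟩ := h
  exact ⟨n, up σ, funext fun g => (up_char σ g).trans (h g).symm⟩

theorem Rl.add {χ ψ : G → ℂ} (h : Rl K χ) (h' : Rl K ψ) : Rl K (χ + ψ) := by
  obtain ⟨n, σ, h⟩ := h
  obtain ⟨m, τ, h'⟩ := h'
  convert rl_of (σ.prod τ) using 1
  ext g
  rw [Pi.add_apply, h, h', ← IntermediateField.coe_add]
  exact congrArg _ (LinearMap.trace_prodMap' _ _).symm

theorem rl_zero : Rl K (0 : G → ℂ) :=
  ⟨0, 1, fun g => by simp [Representation.character, Subsingleton.elim (1 : Module.End K (Fin 0 → K)) 0]⟩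

theorem Rl.nsmul {χ : G → ℂ} (h : Rl K χ) (n : ℕ) : Rl K (n • χ) := by
  induction n with
  | zero => simpa using rl_zero
  | succ n ih => rw [succ_nsmul]; exact ih.add h

theorem cancel [Fintype G] {χ : G → ℂ} (hχ : IsCharacter G χ) (m : ℕ) :
    ∀ A B : G → ℂ, Rl K A → Rl K B → A 1 = m → χ + A = B → Rl K χ := by
  induction m using Nat.strong_induction_on with | _ m ih => ?_
  intro A B hA hB h1 h
  by_cases h0 : A = 0
  · rw [h0, add_zero] at h; exact h ▸ hB
  have hA' := hA.isChar
  have hB' := hB.isChar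
  obtain ⟨a, σ, hσ⟩ := hA
  obtain ⟨b, τ, hτ⟩ := hB
  let _ : Invertible (Nat.card G : K) := invertibleOfNonzero (Nat.cast_ne_zero.2 Nat.card_pos.ne')
  have e1 : classInner B A = finrank K (σ.IntertwiningMap τ) := by
    have := congrArg (algebraMap K ℂ) (Representation.card_inv_mul_sum_char_mul_char_eq_finrank σ τ)
    rw [map_natCast, map_mul, map_inv₀, map_natCast, map_sum] at this
    rw [← this, classInner]
    congr 1
    refine Finset.sum_congr rfl fun g _ => ?_
    rw [← hA'.apply_inv, hσ, hτ, map_mul]; rfl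
  have e2 : finrank K (σ.IntertwiningMap τ) ≠ 0 := by
    intro e
    rw [e, ← h, classInner_add_left] at e1
    obtain ⟨k, hk⟩ := hχ.exists_nat_classInner hA'
    obtain ⟨l, hl⟩ := hA'.exists_nat_classInner hA'
    rw [hk, hl] at e1
    have : k + l = 0 := by exact_mod_cast e1
    exact h0 (classInner_self_eq_zero.1 (by rw [hl, show l = 0 by omega, Nat.cast_zero]))
  obtain ⟨f, hf⟩ : ∃ f : σ.IntertwiningMap τ, f.toLinearMap ≠ 0 := by
    by_contra hc
    push Not at hc
    haveI : Subsingleton (σ.IntertwiningMap τ) := ⟨fun x y => by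
      ext1; rw [hc x, hc y]⟩
    exact e2 finrank_zero_of_subsingleton
  have hi : ∀ g v, f.toLinearMap (σ g v) = τ g (f.toLinearMap v) := fun g v =>
    LinearMap.congr_fun (f.isIntertwining' g) v
  generalize f.toLinearMap = F at hf hi
  have k1 : ∀ g, LinearMap.ker F ≤ (LinearMap.ker F).comap (σ g) := fun g v hv => by
    rw [Submodule.mem_comap, LinearMap.mem_ker, hi, LinearMap.mem_ker.1 hv, map_zero]
  have k2 : ∀ g, LinearMap.range F ≤ (LinearMap.range F).comap (τ g) := by
    rintro g _ ⟨v, rfl⟩; exact ⟨_, hi g v⟩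
  have t1 : ∀ g, σ.character g = (σ.subrepresentation _ k1).character g +
      (τ.subrepresentation _ k2).character g := fun g =>
    trace_exact (LinearMap.ker F).subtype F.rangeRestrict (Submodule.ker_subtype _)
      F.range_rangeRestrict (fun x => by
        rw [← LinearMap.mem_ker, LinearMap.ker_rangeRestrict]
        exact ⟨fun hx => ⟨⟨x, hx⟩, rfl⟩, fun ⟨u, hu⟩ => hu ▸ u.2⟩) _ _ _
      (LinearMap.ext fun _ => rfl) (LinearMap.ext fun v => Subtype.ext (hi g v))
  have t2 : ∀ g, τ.character g = (τ.subrepresentation _ k2).character g +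
      (τ.quotient _ k2).character g := fun g =>
    trace_exact (LinearMap.range F).subtype (LinearMap.range F).mkQ (Submodule.ker_subtype _)
      (Submodule.range_mkQ _) (fun x => by
        rw [← LinearMap.mem_ker, Submodule.ker_mkQ]
        exact ⟨fun hx => ⟨⟨x, hx⟩, rfl⟩, fun ⟨u, hu⟩ => hu ▸ u.2⟩) _ _ _
      (LinearMap.ext fun _ => rfl) (LinearMap.ext fun v => rfl)
  refine ih (finrank K (LinearMap.ker F)) ?_ _ _ (rl_of (σ.subrepresentation _ k1))
    (rl_of (τ.quotient _ k2)) (by simp) ?_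
  · rw [hσ, Representation.char_one] at h1
    have : finrank K (Fin a → K) = m := by exact_mod_cast h1
    exact this ▸ Submodule.finrank_lt (fun e => hf (LinearMap.ker_eq_top.1 e))
  · ext g
    have := congrFun h g
    rw [Pi.add_apply, hσ, hτ, t1, t2, IntermediateField.coe_add, IntermediateField.coe_add] at this
    rw [Pi.add_apply]
    linear_combination this

theorem rl_ind [Fintype G] (E : Subgroup G) (lam : E →* ℂˣ) (hl : ∀ e, (lam e : ℂ) ∈ K) :
    Rl K (indFun E fun e => (lam e : ℂ)) := by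
  classical
  haveI := Fintype.ofFinite E
  let μ : E → K := fun e => ⟨_, hl e⟩
  have hm : ∀ a b, μ (a * b) = μ a * μ b := fun a b => Subtype.ext (by simp [μ])
  have h1 : μ 1 = 1 := Subtype.ext (by simp [μ])
  have hE : (Nat.card E : K) ≠ 0 := Nat.cast_ne_zero.2 Nat.card_pos.ne'
  let L : Representation K G (G → K) :=
    { toFun := fun g => LinearMap.funLeft K K fun x => g⁻¹ * x
      map_one' := by ext; simp
      map_mul' := fun a b => by ext; simp [LinearMap.funLeft, mul_assoc] }
  let W : Submodule K (G → K) :=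
    { carrier := {f | ∀ x (e : E), μ e * f (x * e) = f x}
      add_mem' := fun ha hb x e => by rw [Pi.add_apply, mul_add, ha, hb, Pi.add_apply]
      zero_mem' := fun x e => by simp
      smul_mem' := fun c f hf x e => by
        rw [Pi.smul_apply, Pi.smul_apply, smul_eq_mul, smul_eq_mul, mul_left_comm, hf] }
  have hW : ∀ g, W ≤ W.comap (L g) := fun g f hf x e => by
    show μ e * f (g⁻¹ * (x * e)) = f (g⁻¹ * x)
    rw [← mul_assoc, hf]
  let P : (G → K) →ₗ[K] (G → K) :=
    (Nat.card E : K)⁻¹ • ∑ e : E, μ e • LinearMap.funLeft K K fun x => x * (e : G)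
  have hP : ∀ f x, P f x = (Nat.card E : K)⁻¹ * ∑ e : E, μ e * f (x * e) := fun f x => by
    simp [P, LinearMap.funLeft]
  have p1 : ∀ f, P f ∈ W := fun f x e => by
    rw [hP, hP, mul_left_comm, Finset.mul_sum, ← Equiv.sum_comp (Equiv.mulLeft e)
      fun e' : E => μ e' * f (x * e')]
    simp [hm, mul_assoc]
  have p2 : ∀ f ∈ W, P f = f := fun f hf => funext fun x => by
    rw [hP, Finset.sum_congr rfl fun e _ => hf x e, Finset.sum_const, Finset.card_univ,
      Fintype.card_eq_nat_card, nsmul_eq_mul, inv_mul_cancel_left₀ hE]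
  convert rl_of (L.subrepresentation W hW) using 1
  ext g
  have e1 : (L.subrepresentation W hW).character g = LinearMap.trace K _ (L g ∘ₗ P) := by
    rw [← LinearMap.trace_restrict_eq_of_forall_mem W (L g ∘ₗ P) fun f => hW g (p1 f)]
    refine congrArg (LinearMap.trace K W) (LinearMap.ext fun f => Subtype.ext ?_)
    show L g f = L g (P f)
    rw [p2 f f.2]
  rw [e1, LinearMap.trace_eq_matrix_trace K (Pi.basisFun K G), Matrix.trace, indFun_apply,
    Finset.mul_sum]
  show _ = algebraMap K ℂ _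
  rw [map_sum]
  refine Finset.sum_congr rfl fun x _ => ?_
  rw [Matrix.diag_apply, LinearMap.toMatrix_apply, Pi.basisFun_repr, Pi.basisFun_apply]
  show _ = algebraMap K ℂ (P (Pi.single x 1) (g⁻¹ * x))
  rw [hP, map_mul, map_inv₀, map_natCast, map_sum]
  congr 1
  have e2 : ∀ e : E, g⁻¹ * x * e = x ↔ (e : G) = x⁻¹ * g * x := fun e =>
    ⟨fun h => by rw [← h]; nth_rewrite 1 [h]; group, fun h => by rw [h]; group⟩
  by_cases hx : x⁻¹ * g * x ∈ E
  · rw [extendByZero_of_mem _ hx, Finset.sum_eq_single ⟨_, hx⟩]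
    · rw [(e2 ⟨_, hx⟩).2 rfl, Pi.single_eq_same, mul_one]; rfl
    · intro e _ he
      rw [Pi.single_eq_of_ne fun h => he (Subtype.ext ((e2 e).1 h)), mul_zero, map_zero]
    · simp
  · rw [extendByZero_of_not_mem _ hx]
    refine (Finset.sum_eq_zero fun e _ => ?_).symm
    rw [Pi.single_eq_of_ne fun h => hx ((e2 e).1 h ▸ e.2), mul_zero, map_zero]

theorem rl_all [Fintype G] (hK : ∀ (E : Subgroup G) (lam : E →* ℂˣ) (e : E), (lam e : ℂ) ∈ K)
    {χ : G → ℂ} (hχ : IsCharacter G χ) : Rl K χ := by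
  have : ∀ φ ∈ brauerSpan G, ∃ A B, Rl K A ∧ Rl K B ∧ φ + A = B := by
    intro φ hφ
    induction hφ using Submodule.span_induction with
    | mem x hx =>
      obtain ⟨E, -, lam, rfl⟩ := hx
      exact ⟨0, _, rl_zero, rl_ind E lam (hK E lam), add_zero _⟩
    | zero => exact ⟨0, 0, rl_zero, rl_zero, add_zero _⟩
    | add x y _ _ hx hy =>
      obtain ⟨A, B, a, b, h⟩ := hx
      obtain ⟨A', B', a', b', h'⟩ := hy
      exact ⟨_, _, a.add a', b.add b', by rw [← h, ← h']; abel⟩
    | smul z x _ hx =>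
      obtain ⟨A, B, a, b, h⟩ := hx
      obtain ⟨n, rfl | rfl⟩ := z.eq_nat_or_neg
      · exact ⟨_, _, a.nsmul n, b.nsmul n, by rw [← h, natCast_zsmul, nsmul_add]⟩
      · exact ⟨_, _, b.nsmul n, a.nsmul n, by rw [← h, neg_smul, natCast_zsmul, nsmul_add]; abel⟩
  obtain ⟨A, B, a, b, h⟩ := this χ hχ.isGen.mem_brauerSpan
  obtain ⟨m, hm⟩ := a.isChar.exists_nat_apply_one
  exact cancel hχ m A B a b hm h

end

/-- Brauer's splitting field Theorem: a complex representation of a finite group of exponent m is equivalent to a representation by matrices with entries in ℚ adjoined exp(2πi/m). -/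
theorem result {G : Type*} [Group G] [Finite G] (n : ℕ) (ρ : Representation ℂ G (Fin n → ℂ)) : ∃ σ : Representation ℂ G (Fin n → ℂ), Nonempty (ρ.Equiv σ) ∧ ∀ g : G, ∀ i j : Fin n, LinearMap.toMatrix' (σ g) i j ∈ Algebra.adjoin ℚ ({Complex.exp (2 * Real.pi * Complex.I / (Monoid.exponent G : ℂ))} : Set ℂ) := by
  haveI := Fintype.ofFinite G
  have h0 : Monoid.exponent G ≠ 0 := Monoid.exponent_ne_zero_of_finite
  have hζ := Complex.isPrimitiveRoot_exp _ h0
  generalize Complex.exp (2 * Real.pi * Complex.I / (Monoid.exponent G : ℂ)) = ζ at hζ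
  haveI : NeZero (Monoid.exponent G) := ⟨h0⟩
  obtain ⟨m, σ, h⟩ := rl_all (K := IntermediateField.adjoin ℚ {ζ}) (G := G) (fun E lam e => by
    obtain ⟨i, -, hi⟩ := hζ.eq_pow_of_pow_eq_one (ξ := (lam e : ℂ)) (by
      rw [← Units.val_pow_eq_pow_val, ← map_pow, show e ^ Monoid.exponent G = 1 from
        Subtype.ext (Monoid.pow_exponent_eq_one (e : G)), map_one, Units.val_one])
    exact hi ▸ pow_mem (IntermediateField.mem_adjoin_simple_self ℚ ζ) i) ⟨n, ρ, rfl⟩
  have h1 := h 1
  simp only [Representation.char_one, finrank_fintype_fun_eq_card, Fintype.card_fin] at h1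
  obtain rfl : n = m := by exact_mod_cast h1
  refine ⟨up σ, nonempty_equiv_of_character_eq _ _ (funext fun g => by rw [up_char, h]),
    fun g i j => ?_⟩
  rw [← IntermediateField.adjoin_simple_toSubalgebra_of_isAlgebraic
    ((hζ.isIntegral (Nat.pos_of_ne_zero h0)).tower_top (A := ℚ)).isAlgebraic]
  show LinearMap.toMatrix' (Matrix.toLin' _) i j ∈ _
  rw [LinearMap.toMatrix'_toLin']
  exact (LinearMap.toMatrix' (σ g) i j).2


end Cfsg.Agent.S0166
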