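import Cfsg.Statements.S0167
import Cfsg.Agent.H3.More

set_option autoImplicit false
open Cfsg

namespace Cfsg.Agent.S0167
open CfsgH3

/-- An element g of a finite group is a commutator if and only if the sum over the irreducible characters χ of χ g / χ 1 is nonzero. -/
theorem result {G : Type*} [Group G] [Finite G] (g : G) : (∃ a b : G, g = a * b * a⁻¹ * b⁻¹) ↔ ∑ᶠ χ : Cfsg.IrrCharacter G, (χ : G → ℂ) g / (χ : G → ℂ) 1 ≠ 0 := by
  classical
  have := Fintype.ofFinite G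
  have h1 : ∀ x : G, regChar G x = if x = 1 then (Nat.card G : ℂ) else 0 := by
    intro s
    split_ifs with h
    · rw [h, regChar_one]
    · exact regChar_of_ne h
  have h0 := natCard_ne_zero G
  have key : ∑ p : G × G, regChar G (p.1 * p.2 * p.1⁻¹ * (p.2⁻¹ * g⁻¹)⁻¹⁻¹) =
      (Nat.card G : ℂ) ^ 2 * starRingEnd ℂ (∑ χ : Cfsg.IrrCharacter G, (χ : G → ℂ) g / (χ : G → ℂ) 1) := by
    simp_rw [inv_inv, ← sum_irr_deg_mul]
    rw [Finset.sum_comm, map_sum, Finset.mul_sum]
    refine Finset.sum_congr rfl fun χ _ => ?_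
    rw [← Finset.mul_sum, Fintype.sum_prod_type_right]
    simp_rw [χ.2.sum_conj_mul]
    have h2 := χ.2.sum_mul_apply_mul χ.2.isClassFunction.inv g⁻¹
    have h3 : ∑ y : G, (χ : G → ℂ) y⁻¹ * (χ : G → ℂ) y = Nat.card G := by
      have := χ.2.classInner_self
      unfold Cfsg.classInner at this
      simp_rw [χ.2.isCharacter.apply_inv, mul_comm (starRingEnd ℂ _)]
      field_simp at this
      exact this
    rw [h3] at h2
    have h4 : ∑ y : G, (χ : G → ℂ) y * (χ : G → ℂ) (y⁻¹ * g⁻¹) =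
        ∑ y : G, (χ : G → ℂ) y⁻¹ * (χ : G → ℂ) (y * g⁻¹) :=
      Fintype.sum_equiv (Equiv.inv G) _ _ (by simp)
    simp_rw [mul_assoc, mul_div_assoc, ← Finset.mul_sum, ← mul_div_assoc, ← Finset.sum_div]
    rw [h4, h2, map_div₀, ← χ.2.isCharacter.apply_inv, ← χ.2.isCharacter.apply_inv, inv_one]
    have := χ.2.apply_one_ne_zero
    field_simp
  rw [finsum_eq_sum_of_fintype, ← (map_ne_zero (starRingEnd ℂ)), ← mul_ne_zero_iff_left (pow_ne_zero 2 h0),
    ← key]
  simp_rw [h1, inv_inv]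
  rw [← Finset.sum_filter, Finset.sum_const, nsmul_eq_mul, mul_ne_zero_iff_right h0,
    Nat.cast_ne_zero, Finset.card_ne_zero]
  constructor
  · rintro ⟨a, b, rfl⟩
    exact ⟨(a, b), by simp [mul_assoc]⟩
  · rintro ⟨⟨a, b⟩, h⟩
    refine ⟨a, b, ?_⟩
    have := (Finset.mem_filter.1 h).2
    rw [← mul_assoc, mul_inv_eq_one] at this
    exact this.symm


end Cfsg.Agent.S0167
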