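import Cfsg.Statements.S0168
import Cfsg.Agent.H3.Kernel

set_option autoImplicit false
open Cfsg

namespace Cfsg.Agent.S0168
open CfsgH3

/-- The Burnside–Brauer Theorem. Let χ be the character of a faithful complex representation of a finite group, taking m distinct values. Then every irreducible character has nonzero inner product with χ ^ i for some i < m. -/
theorem result {G : Type*} [Group G] [Fintype G] {V : Type*} [AddCommGroup V] [Module ℂ V] [FiniteDimensional ℂ V] (ρ : Representation ℂ G V) (hfaithful : Function.Injective ρ) (ψ : G → ℂ) (hψ : Cfsg.IsIrrCharacter G ψ) : ∃ i : ℕ, i < Nat.card (Set.range ρ.character) ∧ Cfsg.classInner (fun g => ρ.character g ^ i) ψ ≠ 0 := by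
  classical
  by_contra hcon
  push Not at hcon
  set χ := ρ.character with hχ
  set T : Finset ℂ := (Finset.univ.image χ).erase (χ 1) with hT
  set P : Polynomial ℂ := ∏ a ∈ T, (Polynomial.X - Polynomial.C a) with hP
  have hdeg : P.natDegree < Nat.card (Set.range χ) := by
    rw [hP, Polynomial.natDegree_finsetProd_X_sub_C_eq_card, hT,
      Finset.card_erase_of_mem (Finset.mem_image_of_mem _ (Finset.mem_univ 1))]
    have : Nat.card (Set.range χ) = (Finset.univ.image χ).card := by
      rw [← Set.ncard_coe_finset, Finset.coe_image, Finset.coe_univ, Set.image_univ]; rfl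
    have h2 : 0 < (Finset.univ.image χ).card := Finset.card_pos.2 ⟨χ 1, by simp⟩
    omega
  have h1 : Cfsg.classInner (fun g => P.eval (χ g)) ψ = 0 := by
    have : (fun g => P.eval (χ g)) = ∑ i ∈ Finset.range (P.natDegree + 1),
        P.coeff i • (fun g => χ g ^ i) := by
      ext g
      rw [Polynomial.eval_eq_sum_range, Finset.sum_apply]
      rfl
    rw [this, classInner_sum_left]
    refine Finset.sum_eq_zero fun i hi => ?_
    rw [classInner_smul_left, hcon i (by have := Finset.mem_range.1 hi; omega), mul_zero]
  unfold Cfsg.classInner at h1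
  rw [Finset.sum_eq_single 1] at h1
  · have h2 : P.eval (χ 1) ≠ 0 := by
      rw [hP, Polynomial.eval_prod, Finset.prod_ne_zero_iff]
      intro a ha
      simpa [sub_eq_zero] using (Finset.ne_of_mem_erase ha).symm
    have h3 := hψ.apply_one_ne_zero
    have h4 := natCard_ne_zero G
    simp_all
  · intro g _ hg
    have : P.eval (χ g) = 0 := by
      rw [hP, Polynomial.eval_prod]
      refine Finset.prod_eq_zero (i := χ g) ?_ (by simp)
      refine Finset.mem_erase.2 ⟨fun h => hg (hfaithful ?_), by simp⟩
      rw [(character_eq_one_iff ρ g).1 h, map_one]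
    simp [this]
  · simp


end Cfsg.Agent.S0168
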