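import Cfsg.Statements.S0172
import Cfsg.Agent.H3.Apps2

set_option autoImplicit false
open Cfsg

namespace Cfsg.Agent.S0172
open CfsgH3

/-- Class number of a Frobenius group: if G = K H with K normal, K ⊓ H trivial and no non-identity element of H commuting with a non-identity element of K, then |H| * k(G) + 1 = |H| * k(H) + k(K), where k denotes the number of conjugacy classes. -/
theorem result {G : Type*} [Group G] [Finite G] (K H : Subgroup G) [K.Normal] (hKH : K ⊓ H = ⊥) (hKH' : K ⊔ H = ⊤) (hfpf : ∀ h ∈ H, h ≠ 1 → ∀ k ∈ K, h * k = k * h → k = 1) : Nat.card H * Nat.card (ConjClasses G) + 1 = Nat.card H * Nat.card (ConjClasses H) + Nat.card (ConjClasses K) := by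
  have hC := fun n hn h1 => centralizer_le_of_fpf (k := n) hKH' hfpf hn h1
  have hc : Subgroup.IsComplement' K H :=
    Subgroup.isComplement'_of_disjoint_and_mul_eq_univ (disjoint_iff.2 hKH)
      (by rw [← Subgroup.normal_mul, hKH']; rfl)
  have h1 := card_irr_not_le_ker hC
  have h2 := card_irr_le_ker K
  rw [card_irr_congr hc.symm.QuotientMulEquiv] at h2
  have h3 := CfsgL0.card_subtype_or
    (p := fun χ : Cfsg.IrrCharacter G => ∀ n ∈ K, (χ : G → ℂ) n = (χ : G → ℂ) 1)
    (q := fun χ : Cfsg.IrrCharacter G => ∃ n ∈ K, (χ : G → ℂ) n ≠ (χ : G → ℂ) 1)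
    (fun a h ⟨n, hn, h'⟩ => h' (h n hn))
  rw [Nat.card_congr (Equiv.subtypeUnivEquiv fun θ => by
    by_contra h; push Not at h; obtain ⟨⟨n, hn, h1⟩, h2⟩ := h; exact h1 (h2 n hn))] at h3
  rw [← card_irr_eq_card_conjClasses, ← card_irr_eq_card_conjClasses,
    ← card_irr_eq_card_conjClasses, h3, h2, ← h1, hc.symm.index_eq_card]
  ring


end Cfsg.Agent.S0172
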