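import Cfsg.Statements.S0173
import Cfsg.Agent.H3.More

set_option autoImplicit false
open Cfsg

namespace Cfsg.Agent.S0173
open CfsgH3

/-- Brauer's permutation lemma for a single automorphism: the number of conjugacy classes mapped to themselves equals the number of irreducible complex characters χ with χ ∘ α = χ. -/
theorem result {G : Type*} [Group G] [Finite G] (α : G ≃* G) : Nat.card {C : ConjClasses G // ConjClasses.map α.toMonoidHom C = C} = Nat.card {χ : Cfsg.IrrCharacter G // (χ : G → ℂ) ∘ α = (χ : G → ℂ)} := by
  have := brauer_perm (G := G) α (fun χ hχ => hχ.comp_equiv α)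
  refine Eq.trans ?_ this.symm
  refine Nat.card_congr (Equiv.subtypeEquivRight fun C => ?_)
  obtain ⟨x, rfl⟩ := ConjClasses.mk_surjective C
  constructor
  · intro h g hg
    have h1 : ConjClasses.map α.toMonoidHom (ConjClasses.mk g) = ConjClasses.mk g := by
      rw [hg, h]
    exact ConjClasses.mk_eq_mk_iff_isConj.1 h1
  · intro h
    exact ConjClasses.mk_eq_mk_iff_isConj.2 (h x rfl)


end Cfsg.Agent.S0173
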