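import Cfsg.Statements.S0175
import Cfsg.Agent.H3.Monomial

set_option autoImplicit false
open Cfsg

namespace Cfsg.Agent.S0175
open CfsgH3

/-- Taketa's Theorem on M-groups: if every irreducible complex character of a finite group is induced from a linear character (a homomorphism to ℂˣ) of some subgroup, the group is solvable. -/
theorem result {G : Type*} [Group G] [Fintype G] (hM : ∀ χ : G → ℂ, Cfsg.IsIrrCharacter G χ → ∃ (H : Subgroup G) (lam : H →* ℂˣ), χ = Cfsg.indFun H (fun h => (lam h : ℂ))) : Group.IsSolvable G := by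
  classical
  have key : ∀ n d : ℕ, d ≤ n → ∀ χ, Cfsg.IsIrrCharacter G χ → χ 1 = d →
      ∀ g ∈ derivedSeries G n, χ g = χ 1 := by
    intro n
    induction n with
    | zero =>
      intro d hd χ hχ h1
      exact (hχ.apply_one_ne_zero (by simpa [Nat.le_zero.1 hd] using h1)).elim
    | succ n ih =>
      intro d hd χ hχ h1
      obtain ⟨H, lam, rfl⟩ := hM χ hχ
      have hidx : H.index = d := by
        rw [indFun_apply_one] at h1
        simpa using h1
      have hπ : Cfsg.IsCharacter G (Cfsg.indFun H (fun _ => 1)) := isCharacter_one.ind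
      have h2 := hπ.sub_of_constituent isIrr_one (by
        rw [classInner_indFun_left _ (isClassFunction_const 1), isIrr_one.classInner_self]
        exact one_ne_zero)
      have hd0 : 1 ≤ d := hidx ▸ Nat.pos_of_ne_zero H.index_ne_zero_of_finite
      have h3 : (Cfsg.indFun H (fun _ => 1) - fun _ => 1 : G → ℂ) 1 = (d - 1 : ℕ) := by
        simp [indFun_apply_one, hidx, Nat.cast_sub hd0]
      have h4 : derivedSeries G n ≤ H := by
        intro g hg
        have h5 : (Cfsg.indFun H (fun _ => 1) - fun _ => 1 : G → ℂ) g =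
            (Cfsg.indFun H (fun _ => 1) - fun _ => 1 : G → ℂ) 1 := by
          rw [h2.isClassFunction.apply_eq_sum_irr, h2.isClassFunction.apply_eq_sum_irr 1]
          refine Finset.sum_congr rfl fun φ _ => ?_
          by_cases h : Cfsg.classInner (Cfsg.indFun H (fun _ => 1) - fun _ => 1 : G → ℂ) φ = 0
          · simp only [h, zero_mul]
          · obtain ⟨e, -, he⟩ := φ.2.exists_pos_apply_one
            have := h2.degree_le_of_constituent φ.2 h he h3
            rw [ih e (by omega) φ φ.2 he g hg]
        simp only [Pi.sub_apply, sub_left_inj] at h5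
        exact (mem_of_indFun_apply_eq isCharacter_one one_ne_zero h5).1
      have h6 : derivedSeries G (n + 1) ≤ lam.ker.map H.subtype := by
        rw [derivedSeries_succ, Subgroup.commutator_le]
        intro a ha b hb
        refine ⟨(⟨a, h4 ha⟩ : H) * ⟨b, h4 hb⟩ * (⟨a, h4 ha⟩ : H)⁻¹ * (⟨b, h4 hb⟩ : H)⁻¹, ?_, rfl⟩
        rw [SetLike.mem_coe, MonoidHom.mem_ker]
        simp only [map_mul, map_inv]
        rw [mul_comm (lam ⟨a, _⟩)]
        simp
      intro g hg
      refine indFun_apply_of_normal_le_ker (h6.trans (Subgroup.map_subtype_le _))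
        (fun a ha => ?_) hg
      obtain ⟨b, hb, hab⟩ := h6 ha
      have : b = a := Subtype.ext hab
      subst this
      rw [MonoidHom.mem_ker.1 hb, map_one]
  refine ⟨⟨Nat.card G, eq_bot_iff.2 fun g hg => ?_⟩⟩
  refine eq_one_of_forall_irr fun χ hχ => ?_
  obtain ⟨d, -, hd⟩ := hχ.exists_pos_apply_one
  exact key _ d (Nat.le_of_dvd Nat.card_pos (hχ.degree_dvd_card hd)) χ hχ hd g hg


end Cfsg.Agent.S0175
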