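import Cfsg.Statements.S0177
import Cfsg.Agent.H3.Brauer

set_option autoImplicit false
open Cfsg

namespace Cfsg.Agent.S0177
open CfsgH3

/-- The Artin induction Theorem: for a character χ of a finite group, |G| • χ is a ℤ-linear combination of functions induced from homomorphisms of cyclic subgroups into ℂˣ. -/
theorem result {G : Type*} [Group G] [Fintype G] (χ : G → ℂ) (hχ : Cfsg.IsCharacter G χ) : ∃ l : List ((A : Subgroup G) × ((A →* ℂˣ) × ℤ)), (∀ t ∈ l, IsCyclic t.1) ∧ (Nat.card G : ℂ) • χ = (l.map fun t => (t.2.2 : ℂ) • Cfsg.indFun t.1 (fun a => (t.2.1 a : ℂ))).sum := by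
  classical
  refine exists_list_of_mem_span (fun A => IsCyclic A) ?_
  have := Fintype.ofFinite (Subgroup G)
  let θ : ∀ A : Subgroup G, A → ℂ := fun A a => if orderOf a = Nat.card A then Nat.card A else 0
  have hgen : ∀ A : Subgroup G, Cfsg.IsGeneralizedCharacter A (θ A) := by
    intro A
    refine isGen_of_inner_int (fun g h => by
      simp only [θ, show orderOf (h * g * h⁻¹) = orderOf g from (MulAut.conj h).orderOf_eq g])
      fun φ hφ => ?_
    have e : Cfsg.classInner (θ A) φ = ∑ a : A, if orderOf a = Nat.card A then φ a⁻¹ else 0 := by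
      unfold Cfsg.classInner
      rw [Finset.mul_sum]
      refine Finset.sum_congr rfl fun a _ => ?_
      have := natCard_ne_zero A
      simp only [θ, hφ.isCharacter.apply_inv]
      split_ifs
      · field_simp
      · simp
    rw [e]
    refine exists_int_of_fixed (IsIntegral.sum _ fun a _ => ?_) fun σ => ?_
    · split_ifs
      exacts [hφ.isCharacter.isIntegral _, isIntegral_zero]
    · obtain ⟨k, hk, hσ⟩ := exists_pow_of_ringHom_char A (σ : ℂ →+* ℂ)
      rw [map_sum]
      refine Fintype.sum_equiv (powCoprime hk.symm) _ _ fun a => ?_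
      have h1 : orderOf (a ^ k) = orderOf a :=
        (hk.symm.coprime_dvd_left (orderOf_dvd_natCard a)).orderOf_pow
      simp only [powCoprime_apply, h1]
      split_ifs
      · rw [← inv_pow]; exact hσ φ hφ.isGen _
      · simp
  have hsum : ∑ A : Subgroup G, Cfsg.indFun A (θ A) = fun _ => (Nat.card G : ℂ) := by
    ext g
    rw [Finset.sum_apply]
    simp_rw [indFun_apply, Finset.mul_sum]
    rw [Finset.sum_comm]
    have : ∀ y : G, ∑ A : Subgroup G, (Nat.card A : ℂ)⁻¹ * Cfsg.extendByZero A (θ A) y = 1 := by
      intro y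
      rw [Finset.sum_eq_single (Subgroup.zpowers y)]
      · rw [extendByZero_of_mem _ (Subgroup.mem_zpowers y)]
        have := natCard_ne_zero (Subgroup.zpowers y)
        simp only [θ]
        rw [if_pos (by rw [← Subgroup.orderOf_coe, Nat.card_zpowers]), inv_mul_cancel₀ this]
      · intro A _ hA
        by_cases hy : y ∈ A
        · rw [extendByZero_of_mem _ hy]
          simp only [θ]
          rw [if_neg, mul_zero]
          intro h
          apply hA
          rw [← Subgroup.orderOf_coe, ← Nat.card_zpowers] at h
          exact (Subgroup.eq_of_le_of_card_ge (Subgroup.zpowers_le.2 hy) h.ge).symm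
        · rw [extendByZero_of_not_mem _ hy, mul_zero]
      · simp
    simp_rw [this]
    simp
  have e : (Nat.card G : ℂ) • χ = ∑ A : Subgroup G, Cfsg.indFun A (θ A * fun a : A => χ a) := by
    simp_rw [indFun_mul_restrict _ hχ.isClassFunction]
    rw [← Finset.sum_mul, hsum]
    rfl
  rw [e]
  refine Submodule.sum_mem _ fun A _ => ?_
  by_cases hA : IsCyclic A
  · refine indFun_mem_of_gen (fun φ hφ => ?_) ((hgen A).mul (hχ.isGen.restrict A))
    obtain ⟨f, rfl⟩ := hφ.isCharacter.exists_monoidHom (hφ.apply_one_of_comm fun a b => by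
      letI := IsCyclic.commGroup (α := A); exact mul_comm a b)
    exact Submodule.subset_span ⟨A, hA, f, rfl⟩
  · have : θ A = 0 := by
      ext a
      simp only [θ]
      rw [if_neg fun h => hA (isCyclic_of_orderOf_eq_card a h)]
      rfl
    rw [this, zero_mul, indFun_zero]
    exact Submodule.zero_mem _


end Cfsg.Agent.S0177
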