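import Cfsg.Statements.S0178
import Cfsg.Agent.H3.Clifford

set_option autoImplicit false
open Cfsg

namespace Cfsg.Agent.S0178
open CfsgH3

/-- The degree of an irreducible complex representation of a finite group is at most the index of any abelian subgroup. -/
theorem result {G : Type*} [Group G] [Finite G] {V : Type*} [AddCommGroup V] [Module ℂ V] [FiniteDimensional ℂ V] (ρ : Representation ℂ G V) [ρ.IsIrreducible] (A : Subgroup G) (hA : ∀ a ∈ A, ∀ b ∈ A, a * b = b * a) : Module.finrank ℂ V ≤ A.index := by
  classical
  have := Fintype.ofFinite G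
  have hχ := isIrr_of_rep ρ
  obtain ⟨θ, hθ, h⟩ := hχ.exists_irr_under (H := A)
  have h1 : θ 1 = 1 := hθ.apply_one_of_comm fun a b => Subtype.ext (hA a a.2 b b.2)
  refine hθ.isCharacter.ind.degree_le_of_constituent hχ ?_ (Representation.char_one ρ) ?_
  · rw [classInner_indFun_left _ hχ.isClassFunction]
    exact fun h' => h (classInner_eq_zero_comm.1 h')
  · rw [indFun_apply_one, h1, mul_one]


end Cfsg.Agent.S0178
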