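import Cfsg.Statements.S0180
import Cfsg.Agent.H3.Galois

set_option autoImplicit false
open Cfsg

namespace Cfsg.Agent.S0180
open CfsgH3

/-- Every irreducible complex character of a finite group takes only rational values if and only if g is conjugate to g ^ m for every element g and every m coprime to the group order. -/
theorem result {G : Type*} [Group G] [Finite G] : (∀ χ : Cfsg.IrrCharacter G, ∀ g : G, ∃ q : ℚ, (χ : G → ℂ) g = (q : ℂ)) ↔ ∀ m : ℕ, m.Coprime (Nat.card G) → ∀ g : G, IsConj g (g ^ m) := by
  constructor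
  · intro h m hm g
    obtain ⟨σ, hσ⟩ := exists_ringEquiv_pow_char G hm
    refine isConj_of_irr_eq fun χ hχ => ?_
    rw [← hσ χ hχ.isGen g]
    obtain ⟨q, hq⟩ := h ⟨χ, hχ⟩ g
    change χ g = q at hq
    rw [hq, map_ratCast]
  · intro h χ g
    refine exists_rat_of_fixed ((χ.2.isCharacter.isIntegral g).tower_top) fun σ => ?_
    obtain ⟨k, hk, hσ⟩ := exists_pow_of_ringHom_char G (σ : ℂ →+* ℂ)
    have := hσ χ χ.2.isGen g
    rw [← χ.2.isClassFunction.eq_of_isConj (h k hk g)] at this
    exact this


end Cfsg.Agent.S0180
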