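import Cfsg.Statements.S0181
import Cfsg.Agent.H3.Monomial

set_option autoImplicit false
open Cfsg

namespace Cfsg.Agent.S0181
open CfsgH3

/-- Let H be a normal subgroup of a finite group G and ρ an irreducible complex representation whose kernel does not contain H. If g commutes with no non-identity element of H, then the character of ρ vanishes at g. -/
theorem result {G : Type*} [Group G] [Finite G] {V : Type*} [AddCommGroup V] [Module ℂ V] [FiniteDimensional ℂ V] (ρ : Representation ℂ G V) [ρ.IsIrreducible] (H : Subgroup G) [H.Normal] (hker : ∃ h ∈ H, ρ h ≠ LinearMap.id) (g : G) (hg : ∀ h ∈ H, h * g = g * h → h = 1) : ρ.character g = 0 := by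
  classical
  have := Fintype.ofFinite G
  have hχ := isIrr_of_rep ρ
  have h := sum_eq_zero_of_not_le_ker (N := H) hχ (by
    obtain ⟨h, hh, hne⟩ := hker
    exact ⟨h, hh, fun h' => hne ((character_eq_one_iff ρ h).1 h')⟩) g
  have h2 : ∀ n : H, ρ.character (n * g) = ρ.character g := by
    intro n
    obtain ⟨x, -, hx⟩ := exists_conj_of_fpf (K := H) (g := g)
      (fun k hk => Subgroup.Normal.conj_mem inferInstance k hk g)
      (fun k hk h => hg k hk h.symm) n.2
    rw [← hx]
    exact hχ.isClassFunction.eq_of_isConj (isConj_iff.2 ⟨x, rfl⟩) |>.symm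
  simp_rw [h2] at h
  rw [Finset.sum_const, nsmul_eq_mul, Finset.card_univ, ← Nat.card_eq_fintype_card] at h
  exact (mul_eq_zero.1 h).resolve_left (natCard_ne_zero H)


end Cfsg.Agent.S0181
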