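import Cfsg.Statements.S0184
import Cfsg.Agent.H3.Kernel
import Cfsg.Agent.H1.Fitting

set_option autoImplicit false
open Cfsg

namespace Cfsg.Agent.S0184
open CfsgH3

/-- A finite p-group admits a faithful irreducible complex representation if and only if its centre is cyclic. -/
theorem result {G : Type*} [Group G] [Finite G] (p : ℕ) [Fact p.Prime] (hG : IsPGroup p G) : (∃ (n : ℕ) (ρ : Representation ℂ G (Fin n → ℂ)), ρ.IsIrreducible ∧ Function.Injective ρ) ↔ IsCyclic (Subgroup.center G) := by
  constructor
  · rintro ⟨n, ρ, hρ, hinj⟩
    have hχ := isIrr_of_rep ρ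
    have h0 := hχ.apply_one_ne_zero
    let f : Subgroup.center G →* ℂ :=
      { toFun := fun z => ρ.character z / ρ.character 1
        map_one' := div_self h0
        map_mul' := fun a b => by
          have := hχ.isCharacter.apply_mul_of_norm_eq (hχ.norm_apply_of_mem_center b.2) a
          simp only [Subgroup.coe_mul]
          field_simp
          linear_combination this }
    refine isCyclic_of_injective_ringHom f ((injective_iff_map_eq_one f).2 fun z hz => ?_)
    have h1 : ρ.character z = ρ.character 1 := (div_eq_one_iff_eq h0).1 hz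
    exact Subtype.ext (hinj (by rw [(character_eq_one_iff ρ _).1 h1]; simp))
  · intro hc
    have hp : p.Prime := Fact.out
    by_contra hcon
    push Not at hcon
    have hnil := hG.isNilpotent
    have key : ∀ χ, Cfsg.IsIrrCharacter G χ → ∃ u : Subgroup.center G, orderOf u = p ∧ χ u = χ 1 := by
      rintro χ ⟨n, ρ, hρ, rfl⟩
      have hχ := isIrr_of_rep ρ
      have h1 : charKer ρ.character ≠ ⊥ := by
        rw [charKer_rep]
        exact fun h => hcon n ρ hρ ((MonoidHom.ker_eq_bot_iff _).1 h)
      have := hχ.isCharacter.charKer_normal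
      have : Group.IsNilpotent (⊤ : Subgroup G) := inferInstance
      have h2 := CfsgH1.inf_centralizer_ne_bot_of_isNilpotent (L := ⊤) le_top
        (by rw [Subgroup.normalizer_eq_top]) h1
      rw [Subgroup.coe_top, Subgroup.centralizer_univ] at h2
      have h3 : IsPGroup p ↥(charKer ρ.character ⊓ Subgroup.center G) := hG.to_subgroup _
      have h4 : p ∣ Nat.card ↥(charKer ρ.character ⊓ Subgroup.center G) := by
        obtain ⟨k, hk⟩ := IsPGroup.iff_card.1 h3
        rw [hk]
        refine dvd_pow_self p ?_
        rintro rfl
        exact h2 (Subgroup.eq_bot_of_card_eq _ (by simpa using hk))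
      obtain ⟨u, hu⟩ := exists_prime_orderOf_dvd_card' p h4
      refine ⟨⟨u, u.2.2⟩, ?_, hχ.isCharacter.mem_charKer.1 u.2.1⟩
      rw [← Subgroup.orderOf_coe, ← hu, ← Subgroup.orderOf_coe]
    obtain ⟨u, hu, -⟩ := key _ isIrr_one
    have h5 : (u : G) = 1 := by
      refine eq_one_of_forall_irr fun χ hχ => ?_
      obtain ⟨v, hv, h6⟩ := key χ hχ
      have h7 : u ∈ Subgroup.zpowers v := by
        classical
        have := Fintype.ofFinite (Subgroup.center G)
        have h8 := IsCyclic.card_pow_eq_one_le (α := Subgroup.center G) hp.pos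
        have h9 : (Finset.univ.filter fun a => a ∈ Subgroup.zpowers v) =
            Finset.univ.filter fun a : Subgroup.center G => a ^ p = 1 := by
          refine Finset.eq_of_subset_of_card_le (fun a ha => ?_) ?_
          · simp only [Finset.mem_filter, Finset.mem_univ, true_and] at ha ⊢
            rw [← hv]
            exact orderOf_dvd_iff_pow_eq_one.1 (orderOf_dvd_of_mem_zpowers ha)
          · refine h8.trans (le_of_eq ?_)
            rw [← hv, ← Nat.card_zpowers, Nat.card_eq_fintype_card, Fintype.card_subtype]
        have : u ∈ Finset.univ.filter fun a : Subgroup.center G => a ^ p = 1 := by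
          simp [← hu]
        rw [← h9] at this
        simpa using this
      obtain ⟨k, rfl⟩ := h7
      exact hχ.isCharacter.mem_charKer.1 ((charKer χ).zpow_mem (hχ.isCharacter.mem_charKer.2 h6) k)
    have : u = 1 := Subtype.ext h5
    rw [this, orderOf_one] at hu
    exact hp.one_lt.ne hu


end Cfsg.Agent.S0184
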