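import Cfsg.Statements.S0185
import Cfsg.Agent.H3.Burnside
import Cfsg.Agent.H3.CliffordCorr

set_option autoImplicit false
open Cfsg

namespace Cfsg.Agent.S0185
open CfsgH3

/-- If a finite group has a faithful complex representation of degree less than the smallest prime dividing its order, the group is abelian. -/
theorem result {G : Type*} [Group G] [Finite G] {V : Type*} [AddCommGroup V] [Module ℂ V] [FiniteDimensional ℂ V] (ρ : Representation ℂ G V) (hfaithful : Function.Injective ρ) (hdeg : ∀ p : ℕ, p.Prime → p ∣ Nat.card G → Module.finrank ℂ V < p) (a b : G) : a * b = b * a := by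
  classical
  have := Fintype.ofFinite G
  have hχ := isCharacter_of_rep ρ
  have key : ∀ φ, Cfsg.IsIrrCharacter G φ → Cfsg.classInner ρ.character φ ≠ 0 → φ 1 = 1 := by
    intro φ hφ h
    obtain ⟨d, hd, hd'⟩ := hφ.exists_pos_apply_one
    have h1 := hχ.degree_le_of_constituent hφ h hd' (Representation.char_one ρ)
    have h2 := hφ.degree_dvd_card hd'
    by_contra hne
    have hd1 : d ≠ 1 := by rintro rfl; exact hne (by simpa using hd')
    obtain ⟨p, hp, hpd⟩ := Nat.exists_prime_and_dvd hd1
    have := hdeg p hp (hpd.trans h2)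
    have := Nat.le_of_dvd hd hpd
    omega
  have h3 : ρ.character (a * b * a⁻¹ * b⁻¹) = ρ.character 1 := by
    rw [hχ.isClassFunction.apply_eq_sum_irr, hχ.isClassFunction.apply_eq_sum_irr 1]
    refine Finset.sum_congr rfl fun φ _ => ?_
    by_cases h : Cfsg.classInner ρ.character φ = 0
    · simp [h]
    · obtain ⟨f, hf⟩ := φ.2.isCharacter.exists_monoidHom (key φ φ.2 h)
      rw [hf]
      simp [mul_comm (f a) (f b)]
  have h4 := (character_eq_one_iff ρ _).1 h3
  have h5 : a * b * a⁻¹ * b⁻¹ = 1 := hfaithful (by rw [h4, map_one])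
  calc a * b = a * b * a⁻¹ * b⁻¹ * (b * a) := by group
    _ = b * a := by rw [h5, one_mul]


end Cfsg.Agent.S0185
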