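import Cfsg.Statements.S0186
import Cfsg.Agent.H3.Burnside
import Cfsg.Agent.S0185

set_option autoImplicit false
open Cfsg

namespace Cfsg.Agent.S0186
open CfsgH3

/-- Let G be a finite simple group of order n and p a prime dividing n. If G has more than n / p^2 conjugacy classes, then every Sylow p-subgroup of G is abelian. -/
theorem result {G : Type*} [Group G] [Finite G] [IsSimpleGroup G] (p : ℕ) [Fact p.Prime] (hp : p ∣ Nat.card G) (hmany : Nat.card G < p ^ 2 * Nat.card (ConjClasses G)) (P : Sylow p G) (a b : G) (ha : a ∈ P) (hb : b ∈ P) : a * b = b * a := by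
  classical
  have hp' : p.Prime := Fact.out
  by_cases h2 : p ^ 2 ∣ Nat.card G
  swap
  · obtain ⟨k, hk⟩ := IsPGroup.iff_card.1 P.isPGroup'
    have h3 : k ≤ 1 := by
      by_contra h
      exact h2 ((pow_dvd_pow p (by omega)).trans (hk ▸ Subgroup.card_subgroup_dvd_card _))
    have : IsCyclic (P : Subgroup G) := isCyclic_of_card_dvd_prime (p := p) (by
      rw [hk]; simpa using pow_dvd_pow p h3)
    letI := IsCyclic.commGroup (α := (P : Subgroup G))
    exact congrArg Subtype.val (mul_comm (⟨a, ha⟩ : (P : Subgroup G)) ⟨b, hb⟩)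
  choose d hd hd' using fun χ : Cfsg.IrrCharacter G => χ.2.exists_pos_apply_one
  have h1 : Nat.card G = ∑ χ, d χ ^ 2 := by
    have := sum_irr_deg_sq (G := G)
    simp_rw [hd'] at this
    exact_mod_cast this.symm
  obtain ⟨χ, hχ1, hχ⟩ : ∃ χ : Cfsg.IrrCharacter G, χ ≠ ⟨_, isIrr_one⟩ ∧ d χ < p := by
    by_contra h
    push Not at h
    rw [← Finset.add_sum_erase _ _ (Finset.mem_univ ⟨_, isIrr_one⟩)] at h1
    have h3 := Finset.card_nsmul_le_sum (Finset.univ.erase ⟨_, isIrr_one⟩) (fun χ => d χ ^ 2) (p ^ 2)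
      fun χ hχ => Nat.pow_le_pow_left (h χ (Finset.ne_of_mem_erase hχ)) 2
    rw [Finset.card_erase_of_mem (Finset.mem_univ _), Finset.card_univ, ← Nat.card_eq_fintype_card,
      card_irr_eq_card_conjClasses, smul_eq_mul] at h3
    have h4 := hd ⟨_, isIrr_one⟩
    obtain ⟨m, hm⟩ := h2
    have h5 : (Nat.card (ConjClasses G) - 1) * p ^ 2 < p ^ 2 * m := by
      rw [← hm, h1]
      have := pow_pos h4 2
      omega
    rw [hm] at hmany
    have h6 := Nat.lt_of_mul_lt_mul_left hmany
    rw [mul_comm] at h5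
    have h7 := Nat.lt_of_mul_lt_mul_left h5
    omega
  obtain ⟨χ, n, ρ, hρ, rfl⟩ := χ
  have hirr := isIrr_of_rep ρ
  have hker : charKer ρ.character = ⊥ :=
    (hirr.isCharacter.charKer_normal.eq_bot_or_eq_top).resolve_right
      (hirr.charKer_ne_top fun h => hχ1 (Subtype.ext h))
  rw [charKer_rep, MonoidHom.ker_eq_bot_iff] at hker
  have := Cfsg.Agent.S0185.result (G := (P : Subgroup G)) (ρ.comp (P : Subgroup G).subtype)
    (hker.comp Subtype.val_injective) (fun q hq hqd => by
      obtain ⟨k, hk⟩ := IsPGroup.iff_card.1 P.isPGroup'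
      rw [hk] at hqd
      rw [(Nat.prime_dvd_prime_iff_eq hq hp').1 (hq.dvd_of_dvd_pow hqd)]
      have e := hd' ⟨_, hirr⟩
      simp only [Representation.char_one, Nat.cast_inj] at e
      rwa [e]) ⟨a, ha⟩ ⟨b, hb⟩
  exact congrArg Subtype.val this


end Cfsg.Agent.S0186
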