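import Cfsg.Statements.S0187
import Cfsg.Agent.H3.Kernel

set_option autoImplicit false
open Cfsg

namespace Cfsg.Agent.S0187
open CfsgH3

/-- A finite group is commutative if and only if every irreducible complex character has degree 1. -/
theorem result {G : Type*} [Group G] [Finite G] : (∀ a b : G, a * b = b * a) ↔ ∀ χ : Cfsg.IrrCharacter G, (χ : G → ℂ) 1 = 1 := by
  constructor
  · intro h χ
    exact χ.2.apply_one_of_comm h
  · intro h a b
    have h5 : a * b * a⁻¹ * b⁻¹ = 1 := by
      refine eq_one_of_forall_irr fun χ hχ => ?_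
      obtain ⟨f, hf⟩ := hχ.isCharacter.exists_monoidHom (h ⟨χ, hχ⟩)
      rw [hf]
      simp [mul_comm (f a) (f b)]
    calc a * b = a * b * a⁻¹ * b⁻¹ * (b * a) := by group
      _ = b * a := by rw [h5, one_mul]


end Cfsg.Agent.S0187
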