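import Cfsg.Statements.S0194
import Cfsg.Agent.H3.More

set_option autoImplicit false
open scoped ComplexConjugate
open Cfsg

namespace Cfsg.Agent.S0194
open CfsgH3

/-- Let G have odd order, H be a normal subgroup and θ a non-principal irreducible character of H. Then the function induced from θ is orthogonal to its complex conjugate. -/
theorem result {G : Type*} [Group G] [Fintype G] (hodd : Odd (Nat.card G)) (H : Subgroup G) [H.Normal] (θ : H → ℂ) (hθ : Cfsg.IsIrrCharacter H θ) (hθ1 : θ ≠ fun _ => 1) : Cfsg.classInner (fun g => conj (Cfsg.indFun H θ g)) (Cfsg.indFun H θ) = 0 := by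
  classical
  rw [← indFun_conj]
  refine classInner_indFun_indFun_of_not_mem hθ.conj hθ fun h => ?_
  obtain ⟨g, hg⟩ := mem_cjOrbit.1 h
  have hodd' : Odd (Nat.card H) := hodd.of_dvd_nat (Subgroup.card_subgroup_dvd_card H)
  apply hθ.conj_ne_of_odd hodd' hθ1
  have h1 : cj g θ = fun x => (starRingEnd ℂ) (θ x) := by
    ext x
    have := congrFun hg x
    rw [this]
    simp [cj_apply]
  have h2 : g * g ∈ inertia θ := by
    rw [mem_inertia, ← cj_cj, h1, ← hg]
  have h3 : g ∈ inertia θ := by
    obtain ⟨k, hk⟩ := hodd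
    have : g = ((g * g) ^ k)⁻¹⁻¹⁻¹ := by
      have e : g ^ (2 * k + 1) = 1 := by rw [← hk]; exact pow_card_eq_one'
      rw [inv_inv, eq_inv_iff_mul_eq_one, ← pow_two, ← pow_mul, ← pow_succ', e]
    rw [this, inv_inv]
    exact (inertia θ).inv_mem ((inertia θ).pow_mem h2 k)
  rw [← h1]
  exact mem_inertia.1 h3


end Cfsg.Agent.S0194
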