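import Cfsg.Statements.S0201
import Mathlib
import Cfsg.Agent.H4.ZS

set_option autoImplicit false
open Cfsg

open Cfsg CfsgH3 CfsgH4 CfsgH1 CfsgL0 MonoidAlgebra

namespace Cfsg.Agent.S0201

/-- Brauer–Suzuki Theorem: if a Sylow 2-subgroup of a finite group is generalized quaternion (of order at least 8) and the group has no nontrivial normal subgroup of odd order, then its centre has order 2. -/
theorem result {G : Type*} [Group G] [Finite G] (S : Sylow 2 G) (n : ℕ) (e : (S : Subgroup G) ≃* QuaternionGroup (2 ^ (n + 1))) (hO : ∀ N : Subgroup G, N.Normal → Odd (Nat.card N) → N = ⊥) : Nat.card (Subgroup.center G) = 2 := by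
  obtain ⟨a, b, h⟩ := gq_of_equiv (by omega) e
  have hS := CfsgH2.syl_top S
  have hO' : pPrimeCore 2 G = ⊥ :=
    hO _ inferInstance (Nat.coprime_two_right.1 (coprime_pPrimeCore 2))
  have h1 := brauer_suzuki (fun x y hx hy => h.uniq hS hx hy) hO' h.ord_t
  rw [← h.ord_t, ← Nat.card_zpowers]
  congr 2
  refine le_antisymm (fun z hz => ?_) (Subgroup.zpowers_le.2 h1)
  have h2 : rpart 2 z = 1 := by
    haveI := CfsgH3.normal_of_le_center (Subgroup.zpowers_le.2 (rpart_mem 2 hz))
    have : Subgroup.zpowers (rpart 2 z) ≤ ⊥ := hO' ▸ CfsgH2.le_pPrimeCore (by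
      rw [Nat.card_zpowers]; exact reg_rpart 2 z)
    exact Subgroup.mem_bot.1 (this (Subgroup.mem_zpowers _))
  obtain ⟨g, hg⟩ := GQ.exists_conj_mem hS ((rpart_eq_one_iff 2).1 h2)
  rw [Subgroup.mem_center_iff.1 hz g, mul_inv_cancel_right] at hg
  rcases h.eq_of_sq hg (h.sq_of_cent hg (Subgroup.center_le_centralizer _ hz)) with h3 | h3
  · rw [h3]; exact one_mem _
  · rw [h3]; exact Subgroup.mem_zpowers _

end Cfsg.Agent.S0201
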