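import Cfsg.Statements.S0203
import Cfsg.Agent.H3.Hv3

set_option autoImplicit false
open Cfsg

namespace Cfsg.Agent.S0203
open Subgroup CfsgH2 CfsgHv MulAction

/-- If a Sylow 2-subgroup P of a finite group G is a Klein four-group, then G has three classes of involutions if and only if P has a normal complement in G. -/
theorem result {G : Type*} [Group G] [Finite G] (P : Sylow 2 G) (hP : IsKleinFour (P : Subgroup G)) : Nat.card {C : ConjClasses G // ∃ t : G, orderOf t = 2 ∧ ConjClasses.mk t = C} = 3 ↔ ∃ N : Subgroup G, N.Normal ∧ Subgroup.IsComplement' N (P : Subgroup G) := by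
  rw [exists_compl_iff_npc]
  rcases klein_classes (syl_top P) hP with h | h
  · simp [h.1, h.2]
  · simp only [h.1, h.2]; decide


end Cfsg.Agent.S0203
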