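import Cfsg.Statements.S0204
import Mathlib
import Cfsg.Agent.S0225
import Cfsg.Agent.S0205
import Cfsg.Agent.H2.BG0

set_option autoImplicit false
open Cfsg

namespace Cfsg.Agent.S0204

open Cfsg Subgroup CfsgH2

/-- A non-cyclic finite simple group contains a subgroup which is a Klein four-group; this combines the Odd Order Theorem, Burnside's transfer argument for cyclic Sylow 2-subgroups and the Brauer–Suzuki Theorem. -/
theorem result {G : Type*} [Group G] [Finite G] [IsSimpleGroup G] (hG : ¬ IsCyclic G) : ∃ E : Subgroup G, IsKleinFour E := by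
  have hc : ¬ ∀ a b : G, a * b = b * a := fun h => by
    letI : CommGroup G := { ‹Group G› with mul_comm := h }
    exact hG IsSimpleGroup.isCyclic
  have ho : ¬ Odd (Nat.card G) := fun h => hc (IsSimpleGroup.comm_iff_isSolvable.2 (S0205.result h))
  by_contra h
  obtain ⟨z, hz, N, hN, h1, h2⟩ := S0225.result (Nat.not_odd_iff_even.1 ho) fun E hE => h ⟨E, hE⟩
  rcases hN.eq_bot_or_eq_top with rfl | rfl
  · rcases (inferInstance : (center G).Normal).eq_bot_or_eq_top with e | e
    · have : z ∈ center G := mem_center_iff.2 fun g => by
        have := mem_bot.1 (h2 g)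
        rw [mul_inv_eq_one, mul_inv_eq_iff_eq_mul] at this
        exact this.symm
      rw [e, mem_bot] at this
      simp [this] at hz
    · exact hc fun a b => mem_center_iff.1 (e.ge (mem_top b)) a
  · exact ho (by simpa using h1)

end Cfsg.Agent.S0204
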