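import Cfsg.Statements.S0210
import Mathlib
import Cfsg.Agent.L0.Invol

set_option autoImplicit false
open Cfsg

namespace Cfsg.Agent.S0210

theorem conj_form {G : Type*} [Group G] (x y : G) (hx1 : x * x = 1) (hy1 : y * y = 1) (d : G)
    (hd : d ∈ Subgroup.closure ({x, y} : Set G)) : ∃ k : ℤ, d * x * d⁻¹ = x * (x * y) ^ (2 * k) := by
  have hi := CfsgL0.left_inverts_mul hx1 hy1
  have hxi : x⁻¹ = x := inv_eq_of_mul_eq_one_right hx1
  obtain ⟨k, rfl | rfl⟩ := (CfsgL0.mem_closure_invol_pair hx1 hy1).1 hd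
  · refine ⟨-k, ?_⟩
    rw [CfsgL0.zpow_mul_of_inverts hi, mul_assoc, ← zpow_neg, ← zpow_add]; congr 2; ring
  · refine ⟨k, ?_⟩
    rw [mul_assoc x, CfsgL0.zpow_mul_of_inverts hi, ← mul_assoc x, hx1, one_mul, mul_inv_rev, hxi,
      ← zpow_neg, ← mul_assoc, ← zpow_add, CfsgL0.zpow_mul_of_inverts hi]; congr 2; ring

/-- If x, y are involutions whose product has even order, no element of the subgroup generated by x and y conjugates x to y. -/
theorem result {G : Type*} [Group G] [Finite G] (x y : G) (hx : orderOf x = 2) (hy : orderOf y = 2) (heven : Even (orderOf (x * y))) (d : G) (hd : d ∈ Subgroup.closure ({x, y} : Set G)) : d * x * d⁻¹ ≠ y := by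
  have hx1 := CfsgL0.inv_mul_self hx
  have hy1 := CfsgL0.inv_mul_self hy
  obtain ⟨k, hk⟩ := conj_form x y hx1 hy1 d hd
  rw [hk]
  intro h
  have h2 : (x * y) ^ (2 * k - 1) = 1 := by
    rw [zpow_sub, zpow_one, mul_inv_eq_one]
    have : x * (x * (x * y) ^ (2 * k)) = x * y := by rw [h]
    rwa [← mul_assoc, hx1, one_mul] at this
  rw [← orderOf_dvd_iff_zpow_eq_one] at h2
  obtain ⟨m, hm⟩ := heven
  rw [hm] at h2
  obtain ⟨c, hc⟩ := h2
  push_cast at hc
  have : 2 * k - 1 = 2 * (m * c) := by rw [hc]; ring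
  omega

end Cfsg.Agent.S0210
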