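import Cfsg.Statements.S0211
import Mathlib
import Cfsg.Agent.L0.Invol
import Cfsg.Agent.S0210

set_option autoImplicit false
open Cfsg

namespace Cfsg.Agent.S0211

/-- Let x, y be involutions with xy of even order n and z = (xy)^(n/2). Then xz is conjugate to x by an element of the subgroup generated by x, y if and only if 4 divides n. -/
theorem result {G : Type*} [Group G] [Finite G] (x y : G) (hx : orderOf x = 2) (hy : orderOf y = 2) (heven : Even (orderOf (x * y))) : (∃ d ∈ Subgroup.closure ({x, y} : Set G), d * x * d⁻¹ = x * (x * y) ^ (orderOf (x * y) / 2)) ↔ 4 ∣ orderOf (x * y) := by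
  have hx1 := CfsgL0.inv_mul_self hx
  have hy1 := CfsgL0.inv_mul_self hy
  have hi := CfsgL0.left_inverts_mul hx1 hy1
  obtain ⟨m, hm⟩ := heven
  have h2 : orderOf (x * y) / 2 = m := by omega
  rw [h2]
  constructor
  · rintro ⟨d, hd, h⟩
    obtain ⟨k, hk⟩ := Cfsg.Agent.S0210.conj_form x y hx1 hy1 d hd
    rw [hk, mul_left_cancel_iff, ← zpow_natCast, zpow_eq_zpow_iff_modEq, hm] at h
    obtain ⟨c, hc⟩ := h.dvd
    push_cast at hc
    have : (m : ℤ) = 2 * (k + m * c) := by linear_combination hc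
    rw [hm]
    have h3 : (2 : ℤ) ∣ m := ⟨_, this⟩
    omega
  · intro h4
    obtain ⟨j, hj⟩ : ∃ j, m = 2 * j := ⟨m / 2, by omega⟩
    refine ⟨(x * y) ^ (-(j : ℤ)), (CfsgL0.mem_closure_invol_pair hx1 hy1).2 ⟨_, Or.inl rfl⟩, ?_⟩
    rw [CfsgL0.zpow_mul_of_inverts hi, mul_assoc, ← zpow_neg, ← zpow_add, ← zpow_natCast, hj]
    congr 2; push_cast; ring

end Cfsg.Agent.S0211
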