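import Cfsg.Statements.S0233
import Mathlib
import Cfsg.Agent.L0.Count
import Cfsg.Agent.S0238

set_option autoImplicit false
open Cfsg

namespace Cfsg.Agent.S0233

/-- Let G be a finite group of even order with exactly n involutions whose centre has odd order, and put a = |G|/n. Then G has a proper subgroup H with |G : H| = 2 or |G : H| < a(a+1)/2; over ℕ the latter reads 2·|G:H|·n² < |G|·(|G| + n). -/
theorem result {G : Type*} [Group G] [Finite G] (heven : Even (Nat.card G)) (hZ : Odd (Nat.card (Subgroup.center G))) : ∃ H : Subgroup G, H ≠ ⊤ ∧ (H.index = 2 ∨ 2 * H.index * (Nat.card {t : G // orderOf t = 2}) ^ 2 < Nat.card G * (Nat.card G + Nat.card {t : G // orderOf t = 2})) := by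
  classical
  have := Fintype.ofFinite G
  by_contra hcon
  push Not at hcon
  have hnt : (⊥ : Subgroup G) ≠ ⊤ := by
    intro h
    have := Subgroup.card_top (G := G)
    rw [← h, Subgroup.card_bot] at this
    rw [← this] at heven; simp at heven
  obtain ⟨H, hH, hmin⟩ := Set.exists_min_image {H : Subgroup G | H ≠ ⊤} (fun H => H.index)
    (Set.toFinite _) ⟨⊥, hnt⟩
  obtain ⟨-, hle⟩ := hcon H hH
  set j := H.index
  set g := Nat.card G with hg
  set n := Nat.card {t : G // orderOf t = 2} with hn
  let c : G → ℕ := fun x => Nat.card {p : G × G // orderOf p.1 = 2 ∧ orderOf p.2 = 2 ∧ p.1 * p.2 = x}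
  have hsum : n ^ 2 = ∑ x, c x := by
    have e : Nat.card {p : G × G // orderOf p.1 = 2 ∧ orderOf p.2 = 2} = n ^ 2 := by
      rw [pow_two, hn, ← Nat.card_prod]
      exact Nat.card_congr (Equiv.subtypeProdEquivProd (p := fun t : G => orderOf t = 2) (q := fun t : G => orderOf t = 2))
    rw [← e, CfsgL0.card_eq_sum_fibers (fun p : {p : G × G // orderOf p.1 = 2 ∧ orderOf p.2 = 2} => p.1.1 * p.1.2)]
    refine Finset.sum_congr rfl fun x _ => Nat.card_congr ?_
    exact (Equiv.subtypeSubtypeEquivSubtypeInter _ (fun p : G × G => p.1 * p.2 = x)).trans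
      (Equiv.subtypeEquivRight fun p => and_assoc)
  have hj : ∀ K : Subgroup G, K ≠ ⊤ → j * Nat.card K ≤ g := fun K hK => by
    rw [hg, ← K.card_mul_index, mul_comm]; exact Nat.mul_le_mul_left _ (hmin K hK)
  have hc1 : c 1 ≤ n := by
    refine Nat.card_le_card_of_injective (fun p => ⟨p.1.1, p.2.1⟩) ?_
    rintro ⟨⟨u, v⟩, hu, hv, h⟩ ⟨⟨u', v'⟩, hu', hv', h'⟩ e
    simp only [Subtype.mk.injEq, Prod.mk.injEq] at e h h' ⊢
    subst e
    exact ⟨rfl, mul_left_cancel (h.trans h'.symm)⟩
  have hb : ∀ x : G, 2 * j * c x + (if orderOf x = 2 then 4 * j else 0) + (if x = 1 then g else 0) ≤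
      g + (if orderOf x = 2 then g else 0) + (if x = 1 then 2 * j * n else 0) := by
    intro x
    obtain ⟨h1, h2, h3⟩ := Cfsg.Agent.S0238.result x
    by_cases hx1 : x = 1
    · subst hx1
      have := Nat.mul_le_mul_left (2 * j) hc1
      simp; omega
    by_cases hx2 : orderOf x = 2
    · have hp := hj (Subgroup.centralizer {x}) (fun h => CfsgL0.odd_card_iff.1 hZ x
        (Subgroup.mem_center_iff.2 fun y => Subgroup.mem_centralizer_singleton_iff.1 (h ▸ Subgroup.mem_top y)) hx2)
      have := Nat.mul_le_mul_left j (h3 hx2)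
      simp only [hx1, hx2, if_true, if_false]
      show 2 * j * c x + 4 * j + 0 ≤ g + g + 0
      change j * (c x + 2) ≤ _ at this
      nlinarith
    simp only [hx1, hx2, if_false, add_zero]
    by_cases hr : IsConj x x⁻¹
    swap
    · show 2 * j * c x ≤ g
      rw [show c x = 0 from h2 hr]; simp
    obtain ⟨a, ha⟩ := isConj_iff.1 hr
    have hxx : x ≠ x⁻¹ := fun h => hx2 (CfsgL0.orderOf_two_iff.2 ⟨by nth_rewrite 2 [h]; simp, hx1⟩)
    let E : Subgroup G :=
      { carrier := {y | y * x * y⁻¹ = x ∨ y * x * y⁻¹ = x⁻¹}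
        one_mem' := Or.inl (by simp)
        mul_mem' := by
          rintro y z (hy | hy) (hz | hz)
          · left
            calc y * z * x * (y * z)⁻¹ = y * (z * x * z⁻¹) * y⁻¹ := by group
              _ = x := by rw [hz, hy]
          · right
            calc y * z * x * (y * z)⁻¹ = y * (z * x * z⁻¹) * y⁻¹ := by group
              _ = (y * x * y⁻¹)⁻¹ := by rw [hz]; group
              _ = x⁻¹ := by rw [hy]
          · right
            calc y * z * x * (y * z)⁻¹ = y * (z * x * z⁻¹) * y⁻¹ := by group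
              _ = x⁻¹ := by rw [hz, hy]
          · left
            calc y * z * x * (y * z)⁻¹ = y * (z * x * z⁻¹) * y⁻¹ := by group
              _ = (y * x * y⁻¹)⁻¹ := by rw [hz]; group
              _ = x := by rw [hy, inv_inv]
        inv_mem' := by
          rintro y (hy | hy)
          · left; nth_rewrite 1 [← hy]; group
          · right
            calc y⁻¹ * x * y⁻¹⁻¹ = (y⁻¹ * x⁻¹ * y)⁻¹ := by group
              _ = x⁻¹ := by nth_rewrite 1 [← hy]; group }
    have hCE : Subgroup.centralizer {x} ≤ E := fun y hy =>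
      Or.inl (by rw [Subgroup.mem_centralizer_singleton_iff.1 hy]; simp)
    have hmem : ∀ y, y ∈ Subgroup.centralizer {x} ↔ y * x * y⁻¹ = x := fun y => by
      rw [Subgroup.mem_centralizer_singleton_iff, mul_inv_eq_iff_eq_mul]
    have hE : E ≠ ⊤ := by
      intro h
      refine (hcon (Subgroup.centralizer {x}) (fun h2 => hxx ?_)).1 ?_
      · rw [← ha]; exact ((hmem a).1 (h2 ▸ Subgroup.mem_top a)).symm
      · rw [Subgroup.index_eq_two_iff]
        refine ⟨a, fun b => ?_⟩
        rw [hmem, hmem]
        have e : b * a * x * (b * a)⁻¹ = (b * x * b⁻¹)⁻¹ := by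
          calc b * a * x * (b * a)⁻¹ = b * (a * x * a⁻¹) * b⁻¹ := by group
            _ = _ := by rw [ha]; group
        rw [e]
        rcases (h ▸ Subgroup.mem_top b : b ∈ E) with hb | hb <;> rw [hb]
        · exact Or.inr ⟨rfl, fun h => hxx h.symm⟩
        · exact Or.inl ⟨inv_inv x, fun h => hxx h.symm⟩
    have h4 := hj E hE
    obtain ⟨k, hk⟩ := Subgroup.card_dvd_of_le hCE
    have hk2 : 2 ≤ k := by
      by_contra hlt
      have : E ≤ Subgroup.centralizer {x} := by
        refine (Subgroup.eq_of_le_of_card_ge hCE ?_).ge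
        rw [hk]; exact mul_le_of_le_one_right' (by omega)
      exact hxx (by rw [← ha]; exact ((hmem a).1 (this (Or.inr ha))).symm)
    show 2 * j * c x ≤ g
    calc 2 * j * c x ≤ j * (Nat.card (Subgroup.centralizer {x}) * 2) := by
          have : 2 * j * c x ≤ _ := Nat.mul_le_mul_left (2 * j) h1
          linarith
      _ ≤ j * Nat.card E := by rw [hk]; gcongr
      _ ≤ g := h4
  have hs := Finset.sum_le_sum (s := Finset.univ) fun x _ => hb x
  have hn' : (Finset.univ.filter fun x : G => orderOf x = 2).card = n := by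
    rw [hn, Nat.card_eq_fintype_card, Fintype.card_subtype]
  simp only [Finset.sum_add_distrib, ← Finset.mul_sum, ← hsum, Finset.sum_ite_eq', Finset.mem_univ,
    if_true, Finset.sum_const, Finset.card_univ, ← Finset.sum_filter, hn', smul_eq_mul,
    ← Nat.card_eq_fintype_card, ← hg] at hs
  have hg0 : 0 < g := Nat.card_pos
  nlinarith

end Cfsg.Agent.S0233
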