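import Cfsg.Statements.S0212
import Mathlib
import Cfsg.Agent.L0.Count
import Cfsg.Agent.S0233

set_option autoImplicit false
open Cfsg

namespace Cfsg.Agent.S0212

/-- The Brauer–Fowler bound: if G is a finite simple group and t an involution of G whose centralizer has order n, then |G| ≤ (2n^2)!. -/
theorem result {G : Type*} [Group G] [Finite G] [IsSimpleGroup G] (t : G) (ht : orderOf t = 2) : Nat.card G ≤ Nat.factorial (2 * (Nat.card (Subgroup.centralizer ({t} : Set G))) ^ 2) := by
  have heven : Even (Nat.card G) := even_iff_two_dvd.2 (ht ▸ orderOf_dvd_natCard t)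
  set n := Nat.card (Subgroup.centralizer ({t} : Set G))
  have hn : 0 < n := Nat.card_pos
  by_cases hgt : 2 < Nat.card G
  swap
  · calc Nat.card G ≤ Nat.factorial 2 := by simp; omega
      _ ≤ _ := Nat.factorial_le (by nlinarith)
  obtain ⟨hZ, hi, -⟩ := CfsgL0.simple_even_facts heven hgt
  obtain ⟨H, hH, h2 | h2⟩ := Cfsg.Agent.S0233.result heven (by simp [hZ])
  · exact absurd h2 (hi H)
  have e2 := CfsgL0.card_isConj_mul t
  have e3 : Nat.card {s : G // IsConj t s} ≤ Nat.card {s : G // orderOf s = 2} :=
    CfsgL0.card_subtype_le fun s h => (CfsgL0.orderOf_isConj h).trans ht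
  set m := Nat.card {s : G // orderOf s = 2}
  have e4 : Nat.card G ≤ m * n := by rw [← e2]; gcongr
  have h3 : 2 * H.index * (m * m) < (n * n + n) * (m * m) := by
    calc 2 * H.index * (m * m) < Nat.card G * (Nat.card G + m) := by rw [← pow_two]; exact h2
      _ ≤ (m * n) * (m * n + m) := by gcongr
      _ = _ := by ring
  have h4 := Nat.lt_of_mul_lt_mul_right h3
  refine (Nat.le_of_dvd (Nat.factorial_pos _) (CfsgL0.card_dvd_factorial_of_simple H hH)).trans
    (Nat.factorial_le (by nlinarith))

end Cfsg.Agent.S0212
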