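import Cfsg.Statements.S0216
import Mathlib
import Cfsg.Agent.L0.Isolated

set_option autoImplicit false
open Cfsg

namespace Cfsg.Agent.S0216

/-- For an involution u in a Sylow 2-subgroup P of a finite group G, the following are equivalent: no G-conjugate of u other than u lies in P; every commutator of u with an element of G has odd order. -/
theorem result {G : Type*} [Group G] [Finite G] (P : Sylow 2 G) (u : G) (hu : orderOf u = 2) (huP : u ∈ P) : (∀ g : G, g * u * g⁻¹ ∈ P → g * u * g⁻¹ = u) ↔ (∀ g : G, Odd (orderOf (u * g * u⁻¹ * g⁻¹))) := by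
  constructor
  · intro h g
    have := CfsgL0.isolated_odd (CfsgL0.isolated_of_sylow P hu h) (IsConj.refl u)
      (isConj_iff.2 ⟨g, rfl⟩)
    rw [CfsgL0.inv_inv_eq hu]
    simpa only [mul_assoc] using this
  · intro h g hg
    have h1 := h g
    rw [CfsgL0.inv_inv_eq hu] at h1
    obtain ⟨k, hk⟩ := CfsgL0.pow_eq_one_of_mem P.isPGroup' (Subgroup.mul_mem _ huP hg)
    have h2 := CfsgL0.eq_one_of_odd_of_pow_two_pow (by simpa only [mul_assoc] using h1) hk
    rw [eq_inv_of_mul_eq_one_right h2, CfsgL0.inv_inv_eq hu]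

end Cfsg.Agent.S0216
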