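import Cfsg.Statements.S0217
import Mathlib
import Cfsg.Agent.H9.SSF9

set_option autoImplicit false
open Cfsg

namespace Cfsg.Agent.S0217

/-- The solvable signalizer functor Theorem. Let A be an elementary abelian p-subgroup of rank at least 3 of a finite group G, and for each nontrivial a in A let θ a be an A-invariant solvable subgroup of C(a) of order prime to p, such that θ a ∩ C(b) ≤ θ b for all nontrivial a, b in A (balance). Then the subgroup generated by all the θ a has order prime to p and meets C(a) in exactly θ a for each nontrivial a in A. -/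
theorem result {G : Type*} [Group G] [Finite G] {p : ℕ} [Fact p.Prime] (A : Subgroup G) (hAcomm : ∀ a ∈ A, ∀ b ∈ A, a * b = b * a) (hAexp : ∀ a ∈ A, a ^ p = 1) (hArank : p ^ 3 ≤ Nat.card A) (θ : G → Subgroup G) (hθC : ∀ a ∈ A, a ≠ 1 → θ a ≤ Subgroup.centralizer {a}) (hθp : ∀ a ∈ A, a ≠ 1 → ¬ p ∣ Nat.card (θ a)) (hθinv : ∀ a ∈ A, a ≠ 1 → ∀ b ∈ A, ∀ x ∈ θ a, b * x * b⁻¹ ∈ θ a) (hθsolv : ∀ a ∈ A, a ≠ 1 → Group.IsSolvable (θ a)) (hbal : ∀ a ∈ A, a ≠ 1 → ∀ b ∈ A, b ≠ 1 → θ a ⊓ Subgroup.centralizer {b} ≤ θ b) : ¬ p ∣ Nat.card ↥(⨆ a : {a : G // a ∈ A ∧ a ≠ 1}, θ a) ∧ ∀ a ∈ A, a ≠ 1 → (⨆ b : {a : G // a ∈ A ∧ a ≠ 1}, θ b) ⊓ Subgroup.centralizer {a} = θ a := by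
  open Subgroup CfsgH9 in
  have h : SF p A θ := ⟨ea_iff.2 ⟨comm_bot_iff.2 fun a ha b hb => hAcomm b hb a ha, hAexp⟩, hθC,
    fun a h1 h2 => coprime_iff_not_dvd.2 (hθp a h1 h2), fun a h1 h2 => le_normalizer_iff_cj.2
      fun b hb => map_le_iff_le_comap.2 fun x hx => hθinv a h1 h2 b hb x hx, hbal, hθsolv⟩
  obtain ⟨W, h1, h2⟩ := h.cpl hArank
  have l : (⨆ a : {a : G // a ∈ A ∧ a ≠ 1}, θ a) ≤ W := iSup_le fun a => h2 a a.2.1 a.2.2
  exact ⟨coprime_iff_not_dvd.1 (coprime_of_le l h1.cop), fun a a1 a2 => le_antisymm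
    ((inf_le_inf_right _ l).trans (h1.le a a1 a2)) (le_inf (le_iSup
      (fun b : {a : G // a ∈ A ∧ a ≠ 1} => θ b) ⟨a, a1, a2⟩) (hθC a a1 a2))⟩

end Cfsg.Agent.S0217
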