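import Cfsg.Statements.S0218
import Mathlib
import Cfsg.Agent.L0.Count

set_option autoImplicit false
open Cfsg

namespace Cfsg.Agent.S0218

/-- The generalized quaternion group of order 2^(n+3) contains exactly one element of order 2. -/
theorem result (n : ℕ) : Nat.card {x : QuaternionGroup (2 ^ (n + 1)) // orderOf x = 2} = 1 := by
  have : NeZero (2 ^ (n + 1)) := ⟨by positivity⟩
  rw [Nat.card_eq_one_iff_exists]
  have h0 : orderOf (QuaternionGroup.a ((2 ^ (n + 1) : ℕ) : ZMod (2 * 2 ^ (n + 1))) : QuaternionGroup (2 ^ (n + 1))) = 2 := by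
    rw [← QuaternionGroup.xa_sq 0, orderOf_pow' _ two_ne_zero, QuaternionGroup.orderOf_xa]; rfl
  refine ⟨⟨_, h0⟩, ?_⟩
  rintro ⟨i | i, h⟩
  · obtain ⟨h1, h2⟩ := CfsgL0.orderOf_two_iff.1 h
    apply Subtype.ext
    show QuaternionGroup.a i = QuaternionGroup.a _
    congr 1
    rw [QuaternionGroup.a_mul_a, QuaternionGroup.one_def, QuaternionGroup.a.injEq] at h1
    have h3 : i ≠ 0 := fun h => h2 (by rw [h]; rfl)
    have h4 := (ZMod.neg_eq_self_iff i).1 (neg_eq_of_add_eq_zero_left h1)
    rcases h4 with h4 | h4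
    · exact absurd h4 h3
    · rw [← ZMod.natCast_zmod_val i]; congr 1; omega
  · rw [QuaternionGroup.orderOf_xa] at h; omega

end Cfsg.Agent.S0218
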