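import Cfsg.Statements.S0221
import Cfsg.Agent.H2.MaxCl2
import Cfsg.Agent.H2.PG4

set_option autoImplicit false
open Cfsg

open Cfsg CfsgH2 Function Subgroup

namespace Cfsg.Agent.S0221

/-- Let G be a finite group with no subgroup of index 2 whose 2-rank is at least 3 (it contains an elementary abelian subgroup of order 8). Then the centralizer of every involution of G also contains an elementary abelian subgroup of order 8. -/
theorem result {G : Type*} [Group G] [Finite G] (hno : ∀ H : Subgroup G, H.index ≠ 2) (hrank : ∃ E : Subgroup G, Nat.card E = 8 ∧ ∀ e ∈ E, e ^ 2 = 1) (x : G) (hx : orderOf x = 2) : ∃ E : Subgroup G, E ≤ Subgroup.centralizer ({x} : Set G) ∧ Nat.card E = 8 ∧ ∀ e ∈ E, e ^ 2 = 1 := by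
  haveI : Fact (Nat.Prime 2) := ⟨Nat.prime_two⟩
  obtain ⟨E, h8, hE⟩ := hrank
  have hE' : El 2 3 E := ⟨⟨isMulComm_iff.2 fun a ha b hb => by
    have i : ∀ e ∈ E, e⁻¹ = e := fun e he => inv_eq_of_mul_eq_one_right (pow_two e ▸ hE e he)
    rw [← i _ (mul_mem ha hb), mul_inv_rev, i a ha, i b hb], hE⟩, h8⟩
  have hx2 : x ^ 2 = 1 := hx ▸ pow_orderOf_eq_one x
  obtain ⟨P, hP, hxP⟩ := exists_syl_ge (elem_pgroup (elem_zpowers hx2)) le_top
  have h3 : 3 ≤ prk 2 P := hP.prk_eq ▸ hE'.le_prk le_top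
  obtain ⟨U, hU, hn, hU2⟩ : ∃ U ≤ P, P ≤ N[U] ∧ El 2 2 U := by
    by_contra h
    push Not at h
    rcases cyc_or_mc' hP.pg h with c | ⟨-, a, b, m, c⟩
    · have := prk_le_one_of_cyclic (p := 2) c
      omega
    · have := prk_le_of_relIndex (p := 2) (n := 1) (c.toCy2.relIndex.trans (pow_one 2).symm).dvd
      have := prk_le_one_of_cyclic (p := 2) (isCyclic_of_le (isCyclic_iff_zpowers.2 ⟨a, rfl⟩) (inf_le_right (a := P)))
      omega
  have hi := relIndex_cent_dvd_of_card_sq hP.pg hn hU2.card.dvd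
  have big : ∀ W, IsElementaryAbelian 2 W → U < W → 3 ≤ prk 2 W := fun W hW hl => by
    obtain ⟨n, hn⟩ := exists_el_of_elem hW
    have := card_lt_of_lt hl
    rw [hU2.card, hn.card, Nat.pow_lt_pow_iff_right one_lt_two] at this
    exact hn.prk_eq.symm ▸ this
  have hQ : 3 ≤ prk 2 C[U] := by
    obtain ⟨F, hF, hF3⟩ := exists_el_of_le h3
    refine (big (F ⊓ C[U] ⊔ U) (elem_sup (elem_of_le hF3.el inf_le_left) hU2.el inf_le_right)
      (right_lt_sup.2 fun h => ?_)).trans (prk_mono (sup_le inf_le_right (le_cent_self hU2.comm)))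
    have a := card_inf_mul_relIndex C[U] F
    have b := (relIndex_le_of_le_right hF (relIndex_pos C[U] P).ne').trans (Nat.le_of_dvd two_pos hi)
    rw [inf_comm, hF3.card] at a
    have c := eq_of_le_of_card_le h (by rw [hU2.card]; nlinarith)
    have d : F ≤ C[U] := le_cent_of_comm hF3.comm (c.ge.trans inf_le_left)
    have := card_le_of_le h
    rw [inf_eq_left.2 d, hF3.card, hU2.card] at this
    omega
  have key : ∀ y ∈ C[U], y ^ 2 = 1 → 3 ≤ prk 2 C1[y] := fun y hy h2 => by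
    by_cases h : y ∈ U
    · exact hQ.trans (prk_mono (cent_le_cent1 h))
    · exact (big (U ⊔ zpowers y) (elem_sup hU2.el (elem_zpowers h2) (cent_zpowers y ▸ le_cent1_iff.2 hy))
        (left_lt_sup.2 fun a => h (a (mem_zpowers y)))).trans
        (prk_mono (sup_le (le_cent1_iff.2 hy) (zpowers_le_of_mem (self_mem_cent1 y))))
  obtain ⟨g, hg⟩ : ∃ g : G, g * x * g⁻¹ ∈ C[U] := by
    rcases (Nat.dvd_prime Nat.prime_two).1 hi with h | h
    · exact ⟨1, by simpa using relIndex_eq_one.1 h (hxP (mem_zpowers x))⟩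
    · by_contra h'
      push Not at h'
      obtain ⟨M, -, hM, -⟩ := thompson_transfer (Nat.odd_iff.2 (Nat.two_dvd_ne_zero.1 (by simpa using hP.nd))) h
        (pow_two x ▸ hx2) (hxP (mem_zpowers x)) h'
      exact hno M hM
  have := key _ hg (by rw [conj_pow, hx2]; simp)
  rw [centralizer_conj, prk_map_cj] at this
  obtain ⟨F, hF, hF3⟩ := exists_el_of_le this
  exact ⟨F, hF, hF3.card, hF3.exp⟩


end Cfsg.Agent.S0221
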