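import Cfsg.Statements.S0226
import Mathlib
import Cfsg.Agent.L0.Count

set_option autoImplicit false
open Cfsg

namespace Cfsg.Agent.S0226

/-- A finite group of even order has an odd number of involutions. -/
theorem result {G : Type*} [Group G] [Finite G] (heven : Even (Nat.card G)) : Odd (Nat.card {t : G // orderOf t = 2}) := by
  classical
  have := Fintype.ofFinite G
  have key := Equiv.Perm.card_fixedPoints_modEq (f := (fun g : G => g⁻¹ : Function.End G)) (p := 2) (n := 1)
    (by funext x; simp [pow_two]; exact inv_inv x)
  rw [← Nat.card_eq_fintype_card, ← Nat.card_eq_fintype_card] at key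
  have e : Nat.card (Function.fixedPoints (fun g : G => g⁻¹ : Function.End G)) =
      Nat.card {t : G // orderOf t = 2} + Nat.card {t : G // t = 1} := by
    rw [← CfsgL0.card_subtype_or (fun a h => CfsgL0.inv_ne_one h)]
    refine Nat.card_congr (Equiv.subtypeEquivRight fun g => ?_)
    show g⁻¹ = g ↔ _
    rw [CfsgL0.orderOf_two_iff, inv_eq_iff_mul_eq_one]
    constructor
    · intro h; by_cases h1 : g = 1 <;> simp [h, h1]
    · rintro (h | rfl); exacts [h.1, one_mul 1]
  rw [e, Nat.card_unique (α := {t : G // t = 1})] at key
  obtain ⟨k, hk⟩ := heven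
  unfold Nat.ModEq at key
  rw [Nat.odd_iff]; omega

end Cfsg.Agent.S0226
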