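import Cfsg.Statements.S0227
import Mathlib
import Cfsg.Agent.H9.Gl2

set_option autoImplicit false
open Cfsg

namespace Cfsg.Agent.S0227

/-- Let G be a finite group with no nontrivial normal subgroup of odd order, S a Sylow 2-subgroup, and C the group of automorphisms of G that fix every element of S. Then every Sylow 2-subgroup of C is abelian and has a normal complement in C; in particular C is solvable. -/
theorem result {G : Type*} [Group G] [Finite G] (hO : ∀ N : Subgroup G, N.Normal → Odd (Nat.card N) → N = ⊥) (S : Sylow 2 G) (C : Subgroup (MulAut G)) (hC : ∀ φ : MulAut G, φ ∈ C ↔ ∀ s : G, s ∈ S → φ s = s) : (∀ T : Sylow 2 ↥C, (∀ a b : ↥T, a * b = b * a) ∧ ∃ N : Subgroup ↥C, N.Normal ∧ Subgroup.IsComplement' N (T : Subgroup ↥C)) ∧ Group.IsSolvable ↥C := by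
  open Subgroup CfsgH9 in
  have h0 : Cfsg.pPrimeCore 2 G = ⊥ := hO _ inferInstance
    (Nat.coprime_two_right.1 (pPrimeCore_coprime 2))
  have h1 : ∀ φ ∈ C, ∀ s ∈ (S : Subgroup G), φ s = s := fun φ h => (hC φ).1 h
  have h2 := glaub_aut h0 (syl_sylow S) h1
  refine ⟨fun T => ?_, glaub_aut_solvable h0 (syl_sylow S) h1⟩
  have h3 : Oup 2 C ⊔ ⁅C, C⁆ ≤ C := sup_le (Oup_le C) (commutator_le_left_of le_normalizer)
  have h4 := inf_eq_bot_of_p_pp (syl_of_sylow T).pg h2
  have h5 : (T : Subgroup C) ⊓ (Oup 2 C ⊔ ⁅C, C⁆).subgroupOf C = ⊥ := by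
    rw [eq_bot_iff]
    intro x hx
    have : (x : MulAut G) ∈ (⊥ : Subgroup (MulAut G)) := h4 ▸ ⟨⟨x, hx.1, rfl⟩, hx.2⟩
    exact Subtype.ext this
  refine ⟨fun a b => ?_, (Oup 2 C ⊔ ⁅C, C⁆).subgroupOf C, ?_, ?_⟩
  · have : (a : C) * b * (a : C)⁻¹ * (b : C)⁻¹ ∈ (⊥ : Subgroup C) := h5 ▸
      ⟨(a * b * a⁻¹ * b⁻¹).2,
        mem_sup_right (commutator_mem_commutator a.1.2 b.1.2)⟩
    rw [mem_bot, mul_inv_eq_one, mul_inv_eq_iff_eq_mul] at this
    exact Subtype.ext this
  · exact (normal_subgroupOf_iff_le_normalizer h3).2 (le_normalizer_sup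
      (le_normalizer_Oup le_normalizer) (le_normalizer_commutator le_normalizer le_normalizer))
  · haveI : ((Oup 2 C ⊔ ⁅C, C⁆).subgroupOf C).Normal :=
      (normal_subgroupOf_iff_le_normalizer h3).2 (le_normalizer_sup
        (le_normalizer_Oup le_normalizer) (le_normalizer_commutator le_normalizer le_normalizer))
    refine isComplement'_of_disjoint_and_mul_eq_univ (disjoint_iff.2 (by rw [inf_comm, h5])) ?_
    rw [← normal_mul, coe_eq_univ, eq_top_iff, ← (syl_sylow T).sup_Oup, sup_comm]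
    refine sup_le_sup_right (map_le_iff_le_comap.1 ?_) _
    rw [map_Oup, map_subtype_top]
    exact le_sup_left

end Cfsg.Agent.S0227
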