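import Cfsg.Statements.S0230
import Mathlib
import Cfsg.Agent.L0.Count

set_option autoImplicit false
open Cfsg

namespace Cfsg.Agent.S0230

/-- Let G be a finite group with two non-conjugate involutions, and let t be an involution whose centralizer has maximal order among centralizers of involutions. Then |G| < |C_G(t)|^3. -/
theorem result {G : Type*} [Group G] [Finite G] (s t : G) (hs : orderOf s = 2) (ht : orderOf t = 2) (hnc : ¬ IsConj s t) (hmax : ∀ u : G, orderOf u = 2 → Nat.card (Subgroup.centralizer ({u} : Set G)) ≤ Nat.card (Subgroup.centralizer ({t} : Set G))) : Nat.card G < Nat.card (Subgroup.centralizer ({t} : Set G)) ^ 3 := by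
  set h := Nat.card (Subgroup.centralizer ({t} : Set G)) with hh
  have ex : ∀ v : {v : G // IsConj s v}, ∃ w : {w : G // orderOf w = 2 ∧ Commute w t}, Commute w.1 v.1 := by
    rintro ⟨v, hv⟩
    have hv2 : orderOf v = 2 := (CfsgL0.orderOf_isConj hv).trans hs
    rcases CfsgL0.conj_or_common (CfsgL0.inv_mul_self hv2) (CfsgL0.inv_mul_self ht) with ⟨k, hk⟩ | ⟨m, -, h1, h2, h3⟩
    · exact absurd (hv.trans (isConj_iff.2 ⟨_, hk⟩)) hnc
    · exact ⟨⟨_, h1, h3⟩, h2⟩
  choose f hf using ex
  have h1 := CfsgL0.card_le_of_fibers f h (fun w => by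
    refine le_trans ?_ (hmax w.1 w.2.1)
    refine Nat.card_le_card_of_injective (fun v => ⟨v.1.1, ?_⟩) ?_
    · rw [Subgroup.mem_centralizer_singleton_iff]
      have := (hf v.1).symm.eq
      rwa [v.2] at this
    · intro a b hab
      exact Subtype.ext (Subtype.ext (Subtype.mk.inj hab)))
  have h2 : Nat.card {w : G // orderOf w = 2 ∧ Commute w t} < h :=
    CfsgL0.card_subtype_lt' (q := fun w => w ∈ Subgroup.centralizer ({t} : Set G))
      (fun a ha => Subgroup.mem_centralizer_singleton_iff.2 ha.2) 1 (Subgroup.one_mem _) (by simp)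
  have h3 := CfsgL0.card_isConj_mul s
  have h4 := hmax s hs
  have h5 : 0 < h := Nat.card_pos
  calc Nat.card G ≤ Nat.card {w : G // orderOf w = 2 ∧ Commute w t} * h * h := by
        rw [← h3]; exact Nat.mul_le_mul h1 h4
    _ < h * h * h := by gcongr
    _ = h ^ 3 := by ring

end Cfsg.Agent.S0230
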