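import Cfsg.Statements.S0231
import Mathlib
import Cfsg.Agent.L0.StrEmb

set_option autoImplicit false
open scoped Pointwise
open Cfsg

namespace Cfsg.Agent.S0231

theorem se {G : Type*} [Group G] [Finite G] (T : Sylow 2 G) (hnn : ¬ (T : Subgroup G).Normal)
    (hTI : ∀ g : G, CfsgL0.cj g T ≠ T → CfsgL0.cj g T ⊓ T = ⊥) :
    Cfsg.IsStronglyEmbedded (Subgroup.normalizer ((T : Subgroup G) : Set G)) := by
  have hb : (T : Subgroup G) ≠ ⊥ := fun h => hnn (h ▸ inferInstance)
  obtain ⟨t, ht, ho⟩ := CfsgL0.exists_orderOf_prime_of_ne_bot T.isPGroup' hb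
  have hin : ∀ s : G, orderOf s = 2 → s ∈ Subgroup.normalizer ((T : Subgroup G) : Set G) →
      s ∈ (T : Subgroup G) := fun s hs h =>
    CfsgL0.le_sylow_of_le_normalizer T (CfsgL0.isPGroup_zpowers_of_orderOf hs)
      (Subgroup.zpowers_le_of_mem h) (Subgroup.mem_zpowers s)
  refine CfsgL0.se_iff.2 ⟨fun h => hnn (Subgroup.normalizer_eq_top_iff.1 h),
    ⟨t, Subgroup.le_normalizer ht, ho⟩, fun s hs hso g hg => ?_⟩
  rw [CfsgL0.mem_normalizer_iff_cj]
  by_contra hne
  have ho' : orderOf (g * s * g⁻¹) = 2 := by rw [CfsgL0.orderOf_conj, hso]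
  have : g * s * g⁻¹ ∈ CfsgL0.cj g T ⊓ T := ⟨CfsgL0.conj_mem_cj.2 (hin s hso hs), hin _ ho' hg⟩
  rw [hTI g hne] at this
  exact CfsgL0.inv_ne_one ho' this

/-- Let T be a Sylow 2-subgroup of the finite group G which is not normal and which intersects every other Sylow 2-subgroup trivially. Then G has a single conjugacy class of involutions. -/
theorem result {G : Type*} [Group G] [Finite G] (T : Sylow 2 G) (hnn : ¬ (T : Subgroup G).Normal) (hTI : ∀ g : G, MulAut.conj g • (T : Subgroup G) ≠ T → MulAut.conj g • (T : Subgroup G) ⊓ T = ⊥) (s t : G) (hs : orderOf s = 2) (ht : orderOf t = 2) : IsConj s t := by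
  exact CfsgL0.se_isConj (se T hnn hTI) hs ht

end Cfsg.Agent.S0231
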