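import Cfsg.Statements.S0232
import Mathlib
import Cfsg.Agent.L0.Count
import Cfsg.Agent.S0233
import Cfsg.Agent.S0230
import Cfsg.Agent.S0219

set_option autoImplicit false
open Cfsg

namespace Cfsg.Agent.S0232

universe u
theorem aux (n : ℕ) : ∀ {G : Type u} [Group G] [Finite G], Nat.card G = n → Even (Nat.card G) → 2 < Nat.card G → ∃ H : Subgroup G, H ≠ ⊤ ∧ Nat.card G < (Nat.card H) ^ 3 := by
  induction n using Nat.strong_induction_on with
  | _ n ih =>
  intro G _ _ hn heven hgt
  have idx2 : ∀ H : Subgroup G, H.index = 2 → ∃ H : Subgroup G, H ≠ ⊤ ∧ Nat.card G < (Nat.card H) ^ 3 := by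
    intro H hH
    refine ⟨H, fun h => by simp [h] at hH, ?_⟩
    have := H.card_mul_index
    rw [hH] at this
    have h2 : 2 ≤ Nat.card H := by omega
    nlinarith [Nat.mul_le_mul h2 h2]
  rcases Nat.even_or_odd (Nat.card (Subgroup.center G)) with hZ | hZ
  · obtain ⟨z, hz, ho⟩ := CfsgL0.even_card_iff.1 hZ
    have hN : (Subgroup.zpowers z).Normal := CfsgL0.normal_of_cj fun g => by
      rw [CfsgL0.cj_zpowers, Subgroup.mem_center_iff.1 hz g]; simp
    have hc : Nat.card (Subgroup.zpowers z) = 2 := by rw [Nat.card_zpowers, ho]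
    have hq := Subgroup.card_eq_card_quotient_mul_card_subgroup (Subgroup.zpowers z)
    rw [hc] at hq
    rcases Nat.even_or_odd (Nat.card (G ⧸ Subgroup.zpowers z)) with he | he
    · by_cases h2 : 2 < Nat.card (G ⧸ Subgroup.zpowers z)
      · obtain ⟨K, hK, hlt⟩ := ih _ (by omega) rfl he h2
        refine ⟨K.comap (QuotientGroup.mk' _), fun h => hK ?_, ?_⟩
        · rw [← Subgroup.map_comap_eq_self_of_surjective (QuotientGroup.mk'_surjective _) K, h,
            Subgroup.map_top_of_surjective _ (QuotientGroup.mk'_surjective _)]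
        · have a1 := (K.comap (QuotientGroup.mk' (Subgroup.zpowers z))).card_mul_index
          rw [Subgroup.index_comap_of_surjective _ (QuotientGroup.mk'_surjective _)] at a1
          have a2 := K.card_mul_index
          have a3 : Nat.card (K.comap (QuotientGroup.mk' (Subgroup.zpowers z))) = 2 * Nat.card K := by
            apply Nat.eq_of_mul_eq_mul_right (Nat.pos_of_ne_zero K.index_ne_zero_of_finite)
            rw [a1, hq, ← a2]; ring
          rw [a3, hq, mul_pow]; omega
      · apply idx2 (Subgroup.zpowers z)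
        obtain ⟨k, hk⟩ := he
        show Nat.card (G ⧸ Subgroup.zpowers z) = 2
        omega
    · obtain ⟨T, hT⟩ := (CfsgL0.isPGroup_zpowers_of_orderOf ho).exists_le_sylow
      have := CfsgL0.max_of_not_dvd_relIndex (p := 2) (H := ⊤) (P := Subgroup.zpowers z)
        (by rw [Subgroup.relIndex_top_right]; exact he.not_two_dvd_nat) T le_top T.isPGroup' hT
      obtain ⟨H, hH⟩ := Cfsg.Agent.S0219.result heven T (this ▸ inferInstance)
      exact idx2 H hH
  · obtain ⟨t₀, -, ht₀⟩ := (CfsgL0.even_card_iff (H := (⊤ : Subgroup G))).1 (by rwa [Subgroup.card_top])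
    obtain ⟨t, ht, hmax⟩ := Set.exists_max_image {t : G | orderOf t = 2}
      (fun t => Nat.card (Subgroup.centralizer ({t} : Set G))) (Set.toFinite _) ⟨t₀, ht₀⟩
    have hp : Subgroup.centralizer ({t} : Set G) ≠ ⊤ := fun h => CfsgL0.odd_card_iff.1 hZ t
        (Subgroup.mem_center_iff.2 fun y => Subgroup.mem_centralizer_singleton_iff.1 (h ▸ Subgroup.mem_top y)) ht
    by_cases hc : ∃ s, orderOf s = 2 ∧ ¬ IsConj s t
    · obtain ⟨s, hs, hs'⟩ := hc
      exact ⟨_, hp, Cfsg.Agent.S0230.result s t hs ht hs' hmax⟩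
    push Not at hc
    have e : Nat.card {s : G // orderOf s = 2} = Nat.card {s : G // IsConj t s} :=
      Nat.card_congr (Equiv.subtypeEquivRight fun s => ⟨fun h => (hc s h).symm,
        fun h => (CfsgL0.orderOf_isConj h).trans ht⟩)
    have e2 := CfsgL0.card_isConj_mul t
    obtain ⟨H, hH, h2 | h2⟩ := Cfsg.Agent.S0233.result heven hZ
    · exact idx2 H h2
    rw [e] at h2
    set m := Nat.card {s : G // IsConj t s}
    set a := Nat.card (Subgroup.centralizer ({t} : Set G))
    have ha : 0 < a := Nat.card_pos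
    have hm : 0 < m := Nat.pos_of_ne_zero (by rintro h; rw [h] at e2; omega)
    have h3 : H.index < a * a := by
      rw [← e2] at h2
      have : 2 * H.index * (m * m) < (a * a + a) * (m * m) := by nlinarith
      have := Nat.lt_of_mul_lt_mul_right this
      nlinarith
    have h4 := H.card_mul_index
    have hh : 0 < Nat.card H := Nat.card_pos
    rcases le_total a (Nat.card H) with h5 | h5
    · refine ⟨H, hH, ?_⟩
      calc Nat.card G < Nat.card H * (a * a) := by rw [← h4]; gcongr
        _ ≤ Nat.card H * (Nat.card H * Nat.card H) := by gcongr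
        _ = _ := by ring
    · refine ⟨_, hp, ?_⟩
      calc Nat.card G < Nat.card H * (a * a) := by rw [← h4]; gcongr
        _ ≤ a * (a * a) := by gcongr
        _ = _ := by ring

/-- A finite group G of even order greater than 2 has a proper subgroup H with |G| < |H|^3. -/
theorem result {G : Type*} [Group G] [Finite G] (heven : Even (Nat.card G)) (hgt : 2 < Nat.card G) : ∃ H : Subgroup G, H ≠ ⊤ ∧ Nat.card G < (Nat.card H) ^ 3 := by
  exact aux _ rfl heven hgt

end Cfsg.Agent.S0232
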