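import Cfsg.Statements.S0234
import Mathlib
import Cfsg.Agent.L0.Count
import Cfsg.Agent.S0233
import Cfsg.Agent.S0219
import Cfsg.Agent.S0228

set_option autoImplicit false
open Cfsg

namespace Cfsg.Agent.S0234

theorem cnt : (Finset.univ.filter fun g : Equiv.Perm (Fin 5) => g * g = 1 ∧ g ≠ 1 ∧ Equiv.Perm.sign g = 1).card = 15 := by
  decide +kernel

/-- In a finite simple group G of even order greater than 2, the number n of involutions satisfies 3n < |G|. -/
theorem result {G : Type*} [Group G] [Finite G] [IsSimpleGroup G] (heven : Even (Nat.card G)) (hgt : 2 < Nat.card G) : 3 * Nat.card {t : G // orderOf t = 2} < Nat.card G := by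
  obtain ⟨hZ, hi, hns⟩ := CfsgL0.simple_even_facts heven hgt
  obtain ⟨H, hH, h2 | h2⟩ := Cfsg.Agent.S0233.result heven (by simp [hZ])
  · exact absurd h2 (hi H)
  by_contra hcon
  set n := Nat.card {s : G // orderOf s = 2} with hn
  have h3 : 2 * H.index * (n * n) < 12 * (n * n) := by
    calc 2 * H.index * (n * n) < Nat.card G * (Nat.card G + n) := by rw [← pow_two]; exact h2
      _ ≤ (3 * n) * (3 * n + n) := by gcongr <;> omega
      _ = _ := by ring
  have h4 := Nat.lt_of_mul_lt_mul_right h3
  have hinj := CfsgL0.toPerm_injective_of_simple H hH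
  have := Fintype.ofFinite (G ⧸ H)
  obtain ⟨e⟩ : Nonempty (G ⧸ H ↪ Fin 5) := Function.Embedding.nonempty_of_card_le (by
    rw [← Nat.card_eq_fintype_card, Fintype.card_fin]; show H.index ≤ 5; omega)
  let f : G →* Equiv.Perm (Fin 5) := (Equiv.Perm.viaEmbeddingHom e).comp (MulAction.toPermHom G (G ⧸ H))
  have hf : Function.Injective f := (Equiv.Perm.viaEmbeddingHom_injective e).comp hinj
  have hs : ∀ g, Equiv.Perm.sign (f g) = 1 := by
    have hk : (Equiv.Perm.sign.comp f).ker = ⊤ := by
      refine (Subgroup.Normal.eq_bot_or_eq_top inferInstance).resolve_left fun h => ?_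
      have := Nat.card_le_card_of_injective _ ((MonoidHom.ker_eq_bot_iff _).1 h)
      simp at this; omega
    intro g
    exact (hk ▸ Subgroup.mem_top g : g ∈ (Equiv.Perm.sign.comp f).ker)
  have hn15 : n ≤ 15 := by
    rw [← cnt, ← Fintype.card_subtype, ← Nat.card_eq_fintype_card]
    refine Nat.card_le_card_of_injective (fun s => ⟨f s.1, ?_, ?_, hs _⟩) ?_
    · rw [← map_mul, CfsgL0.inv_mul_self s.2, map_one]
    · exact fun h => CfsgL0.inv_ne_one s.2 (hf (h.trans (map_one f).symm))
    · intro a b h; exact Subtype.ext (hf (Subtype.mk.inj h))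
  have hd : Nat.card G ∣ 60 := by
    have := Subgroup.card_dvd_of_injective (f.codRestrict (alternatingGroup (Fin 5)) hs)
      (fun a b h => hf (Subtype.mk.inj h))
    rwa [nat_card_alternatingGroup, Nat.card_fin] at this
  have hd4 : 4 ∣ Nat.card G := by
    by_contra h
    obtain ⟨T⟩ : Nonempty (Sylow 2 G) := inferInstance
    obtain ⟨k, hk⟩ := T.isPGroup'.exists_card_eq
    have hk1 : k ≤ 1 := by
      by_contra hk2
      exact h (((pow_dvd_pow 2 (by omega : 2 ≤ k)).trans (hk ▸ Subgroup.card_subgroup_dvd_card _)))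
    have : IsCyclic (T : Subgroup G) := by
      interval_cases k
      · have := (Nat.card_eq_one_iff_unique.1 hk).1
        infer_instance
      · exact isCyclic_of_prime_card (p := 2) hk
    obtain ⟨K, hK⟩ := Cfsg.Agent.S0219.result heven T this
    exact hi K hK
  have h4' : Nat.card G ≠ 2 ^ 2 := fun h => hns (Group.isSolvable_of_comm
    (IsPGroup.commutative_of_card_eq_prime_sq h))
  have h12 : Nat.card G ≠ 12 := fun h => by
    obtain ⟨e⟩ := Cfsg.Agent.S0228.result h (fun z hz h1 => CfsgL0.inv_ne_one hz (by rwa [hZ] at h1))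
    have := e.symm.isSimpleGroup
    have h1 := alternatingGroup.kleinFour_card_of_card_eq_four (α := Fin 4) (by simp)
    rcases (alternatingGroup.normal_kleinFour (α := Fin 4) (by simp)).eq_bot_or_eq_top with h2 | h2
    · rw [h2] at h1; simp at h1
    · rw [h2, Subgroup.card_top, ← Nat.card_congr e.toEquiv, h] at h1; simp at h1
  have h20 : Nat.card G = 20 := by
    have := Nat.le_of_dvd (by norm_num) hd
    have h6 : Nat.card G ≤ 45 := by omega
    generalize Nat.card G = g at *
    interval_cases g <;> simp_all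
  have hd5 : 5 ∣ Nat.card G := by rw [h20]; norm_num
  haveI : Fact (Nat.Prime 5) := ⟨by norm_num⟩
  obtain ⟨P⟩ : Nonempty (Sylow 5 G) := inferInstance
  have hP5 := P.dvd_card_of_dvd_card hd5
  have a1 := card_sylow_modEq_one 5 G
  have a2 := P.card_dvd_index
  have a3 := (P : Subgroup G).card_mul_index
  have a4 : (P : Subgroup G).index ≤ 4 := by
    obtain ⟨c, hc⟩ := hP5
    change Nat.card P * _ = _ at a3
    have : 0 < c := Nat.pos_of_ne_zero (by rintro rfl; have := Nat.card_pos (α := P); omega)
    rw [hc, h20] at a3; nlinarith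
  have a5 := Nat.le_of_dvd (Nat.pos_of_ne_zero Subgroup.index_ne_zero_of_finite) a2
  have a6 : Nat.card (Sylow 5 G) = 1 := by unfold Nat.ModEq at a1; omega
  have := (Nat.card_eq_one_iff_unique.1 a6).1
  rcases P.normal_of_subsingleton.eq_bot_or_eq_top with h | h
  · exact P.ne_bot_of_dvd_card hd5 h
  · exact P.not_dvd_index (by
      exfalso
      obtain ⟨k, hk⟩ := P.isPGroup'.exists_card_eq
      rw [h, Subgroup.card_top, h20] at hk
      have : 2 ∣ 5 ^ k := hk ▸ by norm_num
      exact absurd (Nat.prime_two.dvd_of_dvd_pow this) (by norm_num))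

end Cfsg.Agent.S0234
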