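import Cfsg.Statements.S0235
import Mathlib
import Cfsg.Agent.L0.Invol

set_option autoImplicit false
open Cfsg

namespace Cfsg.Agent.S0235

/-- If x² ≠ 1, the ordered pairs (u, v) of involutions with uv = x correspond bijectively to the involutions t with t x t⁻¹ = x⁻¹ (via (u, v) ↦ u), so the two counts agree. -/
theorem result {G : Type*} [Group G] [Finite G] (x : G) (hx : x ^ 2 ≠ 1) : Nat.card {p : G × G // orderOf p.1 = 2 ∧ orderOf p.2 = 2 ∧ p.1 * p.2 = x} = Nat.card {t : G // orderOf t = 2 ∧ t * x * t⁻¹ = x⁻¹} := by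
  refine Nat.card_congr ⟨fun p => ⟨p.1.1, p.2.1, ?_⟩, fun t => ⟨(t.1, t.1 * x), t.2.1, ?_, ?_⟩, ?_, ?_⟩
  · obtain ⟨⟨u, v⟩, hu, hv, rfl⟩ := p
    exact CfsgL0.left_inverts_mul (CfsgL0.inv_mul_self hu) (CfsgL0.inv_mul_self hv)
  · obtain ⟨t, ht, h⟩ := t
    have := CfsgL0.refl_sq (CfsgL0.inv_mul_self ht) h 1
    rw [zpow_one] at this
    refine CfsgL0.orderOf_two_iff.2 ⟨this, ?_⟩
    intro h1
    apply hx
    have h2 : x = t := by
      have := eq_inv_of_mul_eq_one_right h1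
      rwa [CfsgL0.inv_inv_eq ht] at this
    rw [h2, pow_two, CfsgL0.inv_mul_self ht]
  · show t.1 * (t.1 * x) = x
    rw [← mul_assoc, CfsgL0.inv_mul_self t.2.1, one_mul]
  · rintro ⟨⟨u, v⟩, hu, hv, rfl⟩
    simp only [Subtype.mk.injEq, Prod.mk.injEq, true_and]
    rw [← mul_assoc, CfsgL0.inv_mul_self hu, one_mul]
  · rintro ⟨t, ht⟩; rfl

end Cfsg.Agent.S0235
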