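import Cfsg.Statements.S0239
import Mathlib

set_option autoImplicit false
open Cfsg

namespace Cfsg.Agent.S0239

/-- If some nontrivial element x of a finite group G is conjugate to x⁻¹, then |G| is even. -/
theorem result {G : Type*} [Group G] [Finite G] (x : G) (hx : x ≠ 1) (hreal : IsConj x x⁻¹) : Even (Nat.card G) := by
  by_contra hodd
  rw [Nat.not_even_iff_odd] at hodd
  obtain ⟨c, hc⟩ := isConj_iff.mp hreal
  have h2 : c ^ 2 * x * (c ^ 2)⁻¹ = x := by
    have : c ^ 2 * x * (c ^ 2)⁻¹ = c * (c * x * c⁻¹) * c⁻¹ := by simp only [pow_two]; group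
    rw [this, hc]
    have : c * x⁻¹ * c⁻¹ = (c * x * c⁻¹)⁻¹ := by group
    rw [this, hc, inv_inv]
  obtain ⟨k, hk⟩ := hodd
  have hc1 : c ^ (2 * k + 1) = 1 := by rw [← hk]; exact pow_card_eq_one'
  have hcomm : Commute (c ^ 2) x := by
    rw [Commute, SemiconjBy]; calc c ^ 2 * x = (c ^ 2 * x * (c ^ 2)⁻¹) * c ^ 2 := by group
      _ = x * c ^ 2 := by rw [h2]
  have hcomm2 : Commute c⁻¹ x := by
    have : c⁻¹ = (c ^ 2) ^ k := by
      rw [← pow_mul]; rw [pow_succ] at hc1; exact (eq_inv_of_mul_eq_one_left hc1).symm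
    rw [this]; exact hcomm.pow_left k
  have hcomm3 : Commute c x := by simpa using hcomm2.inv_left
  have hx2 : x = x⁻¹ := by rw [← hc, hcomm3.eq]; group
  have hx3 : x ^ 2 = 1 := by rw [pow_two]; nth_rewrite 2 [hx2]; simp
  have ho : orderOf x = 2 := orderOf_eq_prime hx3 hx
  have hd : orderOf x ∣ Nat.card G := orderOf_dvd_natCard x
  rw [ho, hk] at hd
  omega

end Cfsg.Agent.S0239
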