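import Cfsg.Statements.S0240
import Mathlib
import Cfsg.Agent.L0.Count

set_option autoImplicit false
open Cfsg

namespace Cfsg.Agent.S0240

/-- Let G be a finite group with n involutions and H a subgroup with |H|·(n+1) > |G|. Then some nontrivial h ∈ H is strongly real in G: an involution t of G satisfies t h t⁻¹ = h⁻¹. -/
theorem result {G : Type*} [Group G] [Finite G] (H : Subgroup G) (hH : Nat.card G < Nat.card H * (Nat.card {t : G // orderOf t = 2} + 1)) : ∃ h : G, h ∈ H ∧ h ≠ 1 ∧ ∃ t : G, orderOf t = 2 ∧ t * h * t⁻¹ = h⁻¹ := by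
  by_contra hcon
  push Not at hcon
  have e : Nat.card {t : G // orderOf t = 2 ∨ t = 1} = Nat.card {t : G // orderOf t = 2} + 1 := by
    rw [CfsgL0.card_subtype_or (fun a h => CfsgL0.inv_ne_one h), Nat.card_unique (α := {t : G // t = 1})]
  have := Nat.card_le_card_of_injective
    (fun t : {t : G // orderOf t = 2 ∨ t = 1} => (QuotientGroup.mk t.1 : G ⧸ H)) (by
      rintro ⟨u, hu⟩ ⟨v, hv⟩ huv
      have h1 : u⁻¹ * v ∈ H := QuotientGroup.eq.1 huv
      apply Subtype.ext
      by_contra hne
      have h2 := hcon _ h1 (fun h => hne (inv_mul_eq_one.1 h))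
      rcases hu with hu | rfl
      · rw [CfsgL0.inv_inv_eq hu] at h2
        refine h2 u hu (CfsgL0.left_inverts_mul (CfsgL0.inv_mul_self hu) ?_)
        rcases hv with hv | rfl
        exacts [CfsgL0.inv_mul_self hv, one_mul 1]
      · rcases hv with hv | rfl
        · exact h2 v hv (by simp [CfsgL0.inv_inv_eq hv, CfsgL0.inv_mul_self hv])
        · exact hne rfl)
  rw [e, ← Subgroup.index] at this
  rw [← H.card_mul_index] at hH
  exact absurd (Nat.mul_le_mul_left _ this) (not_le.2 hH)

end Cfsg.Agent.S0240
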