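import Cfsg.Statements.S0241
import Mathlib

set_option autoImplicit false
open Cfsg

namespace Cfsg.Agent.S0241

/-- If x ≠ 1 is conjugate to x⁻¹ in a finite group G and |C_G(x)| is odd, then some involution t satisfies t x t⁻¹ = x⁻¹. -/
theorem result {G : Type*} [Group G] [Finite G] (x : G) (hx : x ≠ 1) (hreal : IsConj x x⁻¹) (hodd : Odd (Nat.card (Subgroup.centralizer ({x} : Set G)))) : ∃ t : G, orderOf t = 2 ∧ t * x * t⁻¹ = x⁻¹ := by
  obtain ⟨c, hc⟩ := isConj_iff.mp hreal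
  have h2 : c ^ 2 * x * (c ^ 2)⁻¹ = x := by
    have : c ^ 2 * x * (c ^ 2)⁻¹ = c * (c * x * c⁻¹) * c⁻¹ := by simp only [pow_two]; group
    rw [this, hc]
    have : c * x⁻¹ * c⁻¹ = (c * x * c⁻¹)⁻¹ := by group
    rw [this, hc, inv_inv]
  have hcomm : Commute (c ^ 2) x := by
    rw [Commute, SemiconjBy]; calc c ^ 2 * x = (c ^ 2 * x * (c ^ 2)⁻¹) * c ^ 2 := by group
      _ = x * c ^ 2 := by rw [h2]
  have hmem : c ^ 2 ∈ Subgroup.centralizer ({x} : Set G) := by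
    rw [Subgroup.mem_centralizer_singleton_iff]; exact hcomm.eq
  obtain ⟨k, hk⟩ := hodd
  have hp : (c ^ 2) ^ (2 * k + 1) = 1 := by
    rw [← hk]
    have := pow_card_eq_one' (G := Subgroup.centralizer ({x} : Set G)) (x := ⟨c ^ 2, hmem⟩)
    exact congrArg Subtype.val this
  have hinv : c ^ (2 * k + 1) * x * (c ^ (2 * k + 1))⁻¹ = x⁻¹ := by
    have h3 : Commute ((c ^ 2) ^ k) x := hcomm.pow_left k
    have : c ^ (2 * k + 1) = c * (c ^ 2) ^ k := by rw [← pow_mul, pow_succ']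
    rw [this]
    calc c * (c ^ 2) ^ k * x * (c * (c ^ 2) ^ k)⁻¹ = c * ((c ^ 2) ^ k * x) * (c * (c ^ 2) ^ k)⁻¹ := by group
      _ = c * (x * (c ^ 2) ^ k) * (c * (c ^ 2) ^ k)⁻¹ := by rw [h3.eq]
      _ = c * x * c⁻¹ := by group
      _ = x⁻¹ := hc
  refine ⟨c ^ (2 * k + 1), ?_, hinv⟩
  apply orderOf_eq_prime
  · rw [← pow_mul, mul_comm, pow_mul]; exact hp
  · intro h1
    rw [h1] at hinv
    have hx2 : x = x⁻¹ := by simpa using hinv
    have hx3 : x ^ 2 = 1 := by rw [pow_two]; nth_rewrite 2 [hx2]; simp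
    have ho : orderOf x = 2 := orderOf_eq_prime hx3 hx
    have hm : x ∈ Subgroup.centralizer ({x} : Set G) := by
      rw [Subgroup.mem_centralizer_singleton_iff]
    have hd := Subgroup.orderOf_dvd_natCard _ hm
    rw [ho, hk] at hd
    omega

end Cfsg.Agent.S0241
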