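import Cfsg.Statements.S0247
import Cfsg.Agent.H5.Ht1

set_option autoImplicit false
open Cfsg

namespace Cfsg.Agent.S0247

open CfsgH5 CfsgH5.Ht

/-- Sp_4(2) is isomorphic to the symmetric group S_6. -/
theorem result {F : Type*} [Field F] [Fintype F] (hF : Fintype.card F = 2) : Nonempty (Matrix.symplecticGroup (Fin 2) F ≃* Equiv.Perm (Fin 6)) := by
  obtain ⟨φ, h⟩ := heart_sp (F := F) (by simpa [hF] using FiniteField.cast_card_eq_zero F) le_rfl
  refine ⟨(MulEquiv.ofBijective φ ((Nat.bijective_iff_injective_and_card _).2 ⟨h, ?_⟩)).symm⟩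
  rw [card_symplecticGroup, Nat.card_perm, Nat.card_eq_fintype_card (α := F), hF]
  simp [Finset.prod_range_succ, Nat.factorial]

end Cfsg.Agent.S0247
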