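import Mathlib
import Cfsg.Statements.S0250
import Cfsg.Agent.H8.SmallId
import Cfsg.Agent.H8.SL2n

set_option autoImplicit false
open Cfsg

namespace Cfsg.Agent.S0250

open CfsgH8

/-- SL_2(2) is isomorphic to S_3. -/
theorem result {F : Type*} [Field F] [Fintype F] (hF : Fintype.card F = 2) : Nonempty (Matrix.SpecialLinearGroup (Fin 2) F ≃* Equiv.Perm (Fin 3)) := by
  refine nonempty_equiv_perm_of_injective
    (MulAction.toPermHom _ (Projectivization F (Fin 2 → F))) ?_ ?_ (by rw [CfsgH5.card_SL2, hF]; rfl)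
  · rw [← MonoidHom.ker_eq_bot_iff, Projectivization.SL_mulAction_ker]
    exact Subgroup.eq_bot_of_card_eq _ (by rw [card_center_SL2, hF]; rfl)
  · rw [Projectivization.card_of_finrank_two F _ (by simp), Nat.card_eq_fintype_card, hF]

end Cfsg.Agent.S0250
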