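import Mathlib
import Cfsg.Statements.S0253
import Cfsg.Agent.H8.SmallId
import Cfsg.Agent.H8.SL2n

set_option autoImplicit false
open Cfsg

namespace Cfsg.Agent.S0253

open CfsgH8

/-- PSL_2(5) is isomorphic to A_5. -/
theorem result {F : Type*} [Field F] [Fintype F] (hF : Fintype.card F = 5) : Nonempty (Matrix.ProjectiveSpecialLinearGroup (Fin 2) F ≃* alternatingGroup (Fin 5)) := by
  classical
  have := Fact.mk Nat.prime_five
  have := charP_of_card_eq_prime hF
  refine equiv_A5_of_orders ?_ fun g => ?_
  · have := card_PSL2 (F := F)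
    rw [hF, show Nat.gcd 2 (5 - 1) = 2 from rfl] at this
    omega
  · have := orderOf_πS_cases 5 g
    rw [hF] at this
    refine ⟨fun e => ?_, fun e => ?_, fun e => ?_⟩ <;> rw [e] at this <;> revert this <;> decide

end Cfsg.Agent.S0253
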