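import Mathlib
import Cfsg.Statements.S0254
import Cfsg.Agent.H8.Dick2

set_option autoImplicit false
open Cfsg

namespace Cfsg.Agent.S0254


open CfsgH8

/-- PSL_2(9) is isomorphic to A_6. -/
theorem result {F : Type*} [Field F] [Fintype F] (hF : Fintype.card F = 9) : Nonempty (Matrix.ProjectiveSpecialLinearGroup (Fin 2) F ≃* alternatingGroup (Fin 6)) := by
  have := Matrix.ProjectiveSpecialLinearGroup.rank_two_simple (F := F)
    (by rw [Nat.card_eq_fintype_card, hF]; norm_num)
  have hc := card_PSL2 (F := F)
  rw [hF] at hc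
  obtain ⟨H, h⟩ := has_top_iff.1 (has_A5 (F := F) (by rw [hF]; norm_num))
  have h1 := H.index_mul_card
  rw [card_of_equiv h, card_A5] at h1
  norm_num at hc
  exact nonempty_equiv_alt_of_simple H (by omega) (by norm_num) (by simp [Nat.factorial]; omega)

end Cfsg.Agent.S0254
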