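import Cfsg.Statements.S0302
import Cfsg.Agent.H5.Lx4

set_option autoImplicit false
open Cfsg

namespace Cfsg.Agent.S0302

open CfsgH5 CfsgH5.Lx CfsgH5.CForm Matrix

/-- PΩ^+_6(q) is isomorphic to PSL_4(q). -/
theorem result {F : Type*} [Field F] [Fintype F] : Nonempty (Cfsg.POmega F (Cfsg.quadFormPlus 3 F) ≃* Matrix.ProjectiveSpecialLinearGroup (Fin 4) F) := by
  have hf := plusQ_nondeg F 3
  have hs := split_of_finrank hf (by simp)
  have := PSL_isSimpleGroup (ι := Fin 4) (F := F) (by simp)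
  have h : ∀ g v, plusQ F 3 (y6.comp (Cfsg.slToMat 4 F) g *ᵥ v) = plusQ F 3 v := fun g v => (y6_Q g.1 v).trans (by simp)
  refine plain hf (by simp) hs (QuotientGroup.mk'_surjective _) h
    (mem_of_perfect (commutator_SL_eq_top (by simp)) _) (fun g => (sc_iff (QuotientGroup.mk'_surjective _)
      (φ := (Subgroup.subtype _).comp (isoH _ h)) (fun g k => (isSc_isoH h g).2 (y6_sc (mk_eq_one.1 k)))
      ⟨SpecialLinearGroup.transvection (show (1 : Fin 4) ≠ 2 by decide) 1, fun k => ?_⟩ g).trans (isSc_isoH h g)) ?_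
  · obtain ⟨l, k⟩ := (isSc_isoH h _).1 k
    change y6 (transvection 1 2 1) = _ at k
    simpa [y6, px, transvection, single, one_apply] using congrFun₂ k (.inl 0) (.inl 1)
  have a := card_POmega_even hf hs (m := 2) (by simp) (by omega)
  rw [sgn_eq_one.2 (plusQ_isPlus _), (gcds _).2.2.1, ← card_PSL4] at a
  exact Nat.cast_injective (R := ℤ) (mul_left_cancel₀ (by simp) a)

end Cfsg.Agent.S0302
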