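import Cfsg.Statements.S0825
import Cfsg.Agent.H5.Ht1

set_option autoImplicit false
open Cfsg

namespace Cfsg.Agent.S0825

open CfsgH5 CfsgH5.Ht

/-- O⁺_6(2) ≅ S_8: the isometry group of the hyperbolic form x_1y_1 + x_2y_2 + x_3y_3 over the field with 2 elements is isomorphic to the symmetric group on 8 letters. -/
theorem result {F : Type*} [Field F] [Fintype F] (hF : Fintype.card F = 2) : Nonempty (↥(Cfsg.isometryGroup F (Cfsg.quadFormPlus 3 F)) ≃* Equiv.Perm (Fin 8)) := by
  rw [← Nat.card_eq_fintype_card] at hF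
  obtain ⟨φ, h⟩ := heart_orth hF le_rfl (plusQ_nondeg F 3) (by simp) (iff_of_true (plusQ_isPlus _) odd_one)
  refine ⟨(MulEquiv.ofBijective φ ((Nat.bijective_iff_injective_and_card _).2 ⟨h, ?_⟩)).symm⟩
  have := CForm.orth_card_even 2 (plusQ_nondeg F 3) (by simp)
  rw [(plusQ_isPlus _).sgn, hF, ← Nat.card_congr (orthEquiv _).toEquiv] at this
  rw [Nat.card_perm]
  zify
  rw [this]
  simp [oOrd, Finset.prod_range_succ, Nat.factorial]

end Cfsg.Agent.S0825
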