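import Cfsg.Statements.S0256
import Cfsg.Agent.S0302
import Cfsg.Agent.S0825

set_option autoImplicit false
open Cfsg

namespace Cfsg.Agent.S0256

/-- PSL_4(2) is isomorphic to A_8. -/
theorem result {F : Type*} [Field F] [Fintype F] (hF : Fintype.card F = 2) : Nonempty (Matrix.ProjectiveSpecialLinearGroup (Fin 4) F ≃* alternatingGroup (Fin 8)) := by
  obtain ⟨e⟩ := Cfsg.Agent.S0825.result hF
  obtain ⟨a⟩ := Cfsg.Agent.S0302.result (F := F)
  have h : (Cfsg.Omega F (Cfsg.quadFormPlus 3 F)).map e.toMonoidHom = alternatingGroup (Fin 8) := by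
    rw [← alternatingGroup.commutator_perm_eq (by simp)]
    exact (Subgroup.map_commutator _ _ _).trans (by rw [Subgroup.map_top_of_surjective _ e.surjective]; rfl)
  exact ⟨a.symm.trans ((CfsgH5.quotCenterEquiv ((e.subgroupMap _).trans (MulEquiv.subgroupCongr h))).trans
    ((QuotientGroup.quotientMulEquivOfEq (alternatingGroup.center_eq_bot (by simp))).trans QuotientGroup.quotientBot))⟩

end Cfsg.Agent.S0256
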