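import Mathlib
import Cfsg.Statements.S0257
import Cfsg.Agent.S2427
import Cfsg.Agent.H8.PslC

set_option autoImplicit false
open Cfsg

namespace Cfsg.Agent.S0257

open CfsgH8

/-- SL_2(3) has a normal subgroup of index 3 isomorphic to the quaternion group of order 8, and its centre has order 2. -/
theorem result {F : Type*} [Field F] [Fintype F] (hF : Fintype.card F = 3) : (∃ Q : Subgroup (Matrix.SpecialLinearGroup (Fin 2) F), Q.Normal ∧ Q.index = 3 ∧ Nonempty (Q ≃* QuaternionGroup 2)) ∧ Nat.card (Subgroup.center (Matrix.SpecialLinearGroup (Fin 2) F)) = 2 := by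
  obtain ⟨c, z, c8, ⟨e⟩, -⟩ := S2427.result
  haveI : Fact (Nat.Prime 3) := ⟨by norm_num⟩
  obtain ⟨f⟩ := sl_congr (ι := Fin 2) (F := F) (F' := ZMod 3) (by rw [hF, ZMod.card])
  refine ⟨⟨(commutator _).map f.symm.toMonoidHom, Subgroup.Normal.map inferInstance _ f.symm.surjective, ?_,
    ⟨(f.symm.subgroupMap _).symm.trans e⟩⟩, ?_⟩
  · have := (commutator SL23).index_mul_card
    rw [c, c8] at this
    rw [Subgroup.index_map_of_bijective f.symm.bijective]
    exact Nat.eq_of_mul_eq_mul_right (by norm_num) this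
  · rw [card_center_SL2, hF]; rfl

end Cfsg.Agent.S0257
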