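import Mathlib
import Cfsg.Statements.S0258
import Cfsg.Agent.H8.GL2s

set_option autoImplicit false
open Cfsg

namespace Cfsg.Agent.S0258

open CfsgH8

/-- GL_2(q), q a power of the prime p, has exactly q + 1 Sylow p-subgroups. -/
theorem result {F : Type*} [Field F] [Fintype F] {q : ℕ} (hF : Fintype.card F = q) (p : ℕ) [Fact p.Prime] [CharP F p] : Nat.card (Sylow p (Matrix.GeneralLinearGroup (Fin 2) F)) = q + 1 := by
  classical
  obtain ⟨P⟩ : Nonempty (Sylow p (Matrix.GeneralLinearGroup (Fin 2) F)) := inferInstance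
  have h := Subgroup.index_mul_card (Subgroup.normalizer
    ((P : Subgroup (GL (Fin 2) F)) : Set (GL (Fin 2) F)))
  rw [card_normalizer_sylow_GL2, card_GL2, hF] at h
  have h1 : 1 < q := hF ▸ Fintype.one_lt_card
  rw [P.card_eq_index_normalizer]
  obtain ⟨k, rfl⟩ : ∃ k, q = k + 1 := ⟨_, (Nat.sub_add_cancel h1.le).symm⟩
  have e1 : (k + 1) ^ 2 - 1 = k * (k + 2) := Nat.sub_eq_of_eq_add (by ring)
  have e2 : (k + 1) ^ 2 - (k + 1) = k * (k + 1) := Nat.sub_eq_of_eq_add (by ring)
  rw [e1, e2, Nat.add_sub_cancel] at h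
  exact Nat.eq_of_mul_eq_mul_right (Nat.mul_pos (show 0 < k by omega)
    (Nat.mul_pos (show 0 < k + 1 by omega) (show 0 < k by omega))) (h.trans (by ring))

end Cfsg.Agent.S0258
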