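import Mathlib
import Cfsg.Statements.S0259
import Cfsg.Agent.H8.GL2s

set_option autoImplicit false
open Cfsg

namespace Cfsg.Agent.S0259

open CfsgH8

/-- Distinct Sylow p-subgroups of GL_2(q), p the characteristic, intersect trivially. -/
theorem result {F : Type*} [Field F] [Fintype F] (p : ℕ) [Fact p.Prime] [CharP F p] (P Q : Sylow p (Matrix.GeneralLinearGroup (Fin 2) F)) (h : P ≠ Q) : (P : Subgroup (Matrix.GeneralLinearGroup (Fin 2) F)) ⊓ (Q : Subgroup (Matrix.GeneralLinearGroup (Fin 2) F)) = ⊥ := by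
  by_contra hne
  obtain ⟨⟨x, hP, hQ⟩, h1⟩ := Subgroup.ne_bot_iff_exists_ne_one.1 hne
  obtain ⟨s, hs⟩ := sylow_eq_UG p P
  obtain ⟨t, ht⟩ := sylow_eq_UG p Q
  rw [hs] at hP
  rw [ht] at hQ
  obtain ⟨u, hu, rfl⟩ := hP
  obtain ⟨v, hv, e⟩ := hQ
  have h2 : t⁻¹ * s ∈ Cfsg.upperTriangularGL 2 F := mem_B2_of_conj_UG hu (by simpa using h1) (by
    rw [show t⁻¹ * s * u * (t⁻¹ * s)⁻¹ = v by
      simp only [MulEquiv.coe_toMonoidHom, MulAut.conj_apply] at e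
      calc _ = t⁻¹ * (s * u * s⁻¹) * t := by group
        _ = v := by rw [← e]; group]
    exact hv)
  refine h (Sylow.ext (P.is_maximal' Q.isPGroup' ?_).symm)
  rw [hs, ht]
  rintro _ ⟨w, hw, rfl⟩
  exact ⟨_, conj_mem_UG h2 hw, by simp [mul_assoc]⟩

end Cfsg.Agent.S0259
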