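import Mathlib
import Cfsg.Statements.S0260
import Cfsg.Agent.H8.SL2g

set_option autoImplicit false
open Cfsg

namespace Cfsg.Agent.S0260

open CfsgH8

/-- Any two distinct Sylow p-subgroups of SL_2(q), p the characteristic, generate SL_2(q). -/
theorem result {F : Type*} [Field F] [Fintype F] (p : ℕ) [Fact p.Prime] [CharP F p] (P Q : Sylow p (Matrix.SpecialLinearGroup (Fin 2) F)) (h : P ≠ Q) : (P : Subgroup (Matrix.SpecialLinearGroup (Fin 2) F)) ⊔ (Q : Subgroup (Matrix.SpecialLinearGroup (Fin 2) F)) = ⊤ := by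
  obtain ⟨s, hs⟩ := sylow_eq_US p P
  obtain ⟨t, ht⟩ := sylow_eq_US p Q
  have h1 : s⁻¹ * t ∉ BS F := fun h2 => by
    refine h (Sylow.ext (Q.is_maximal' P.isPGroup' ?_))
    rw [hs, ht]
    rintro _ ⟨w, hw, rfl⟩
    exact ⟨_, conj_mem_US h2 hw, by simp [mul_assoc]⟩
  have := congrArg (Subgroup.map (MulAut.conj s).toMonoidHom) (US_sup_eq_top h1)
  rw [Subgroup.map_sup, Subgroup.map_top_of_surjective _ (MulAut.conj s).surjective,
    Subgroup.map_map] at this
  rw [hs, ht, ← this]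
  congr 2
  ext x : 1; simp [mul_assoc]

end Cfsg.Agent.S0260
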