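import Cfsg.Statements.S0263
import Mathlib
import Cfsg.Agent.H9.SLT

set_option autoImplicit false
open Cfsg

namespace Cfsg.Agent.S0263

section
open Subgroup CfsgH9
open scoped commutatorElement

theorem ne_zero_of_not_dvd' {a b : ℕ} (h : ¬ a ∣ b) : b ≠ 0 := fun f => h (f ▸ dvd_zero _)

end

/-- A Sylow p-subgroup of GL_n(q), p the characteristic, has order q^(n(n-1)/2). -/
theorem result {F : Type*} [Field F] [Fintype F] {q : ℕ} (hF : Fintype.card F = q) (p : ℕ) [Fact p.Prime] [CharP F p] (n : ℕ) (P : Sylow p (Matrix.GeneralLinearGroup (Fin n) F)) : Nat.card P = q ^ (n * (n - 1) / 2) := by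
  open Subgroup CfsgH9 in
  open Finset in
  classical
  obtain ⟨k, -, hk⟩ := FiniteField.card F p
  have hp : p.Prime := Fact.out
  have e : ∏ i : Fin n, (q ^ n - q ^ (i : ℕ)) = q ^ (n * (n - 1) / 2) * ∏ i : Fin n, (q ^ (n - i) - 1) := by
    rw [← sum_range_id, ← prod_pow_eq_pow_sum, ← Fin.prod_univ_eq_prod_range (fun i => q ^ i) n,
      ← prod_mul_distrib]
    refine prod_congr rfl fun i _ => ?_
    rw [Nat.mul_sub, ← pow_add, mul_one, Nat.add_sub_cancel' i.2.le]
  have q1 : q = p ^ (k : ℕ) := hF ▸ hk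
  have nd : ¬ p ∣ ∏ i : Fin n, (q ^ (n - i) - 1) := fun f => by
    obtain ⟨i, -, hi⟩ := (Prime.dvd_finset_prod_iff hp.prime _).1 f
    have d : p ∣ q ^ (n - i) := (q1 ▸ dvd_pow_self p k.ne_zero : p ∣ q).trans
      (dvd_pow_self q (by omega))
    have : 1 ≤ q ^ (n - i) := Nat.one_le_pow _ _ (q1 ▸ pow_pos hp.pos _)
    exact hp.one_lt.ne' (Nat.dvd_one.1 ((Nat.dvd_sub_iff_right this d).1 hi))
  rw [Sylow.card_eq_multiplicity, Matrix.card_GL_field, hF, e, Nat.factorization_mul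
    (pow_ne_zero _ (q1 ▸ pow_ne_zero _ hp.ne_zero)) (ne_zero_of_not_dvd' nd), Finsupp.add_apply,
    Nat.factorization_eq_zero_of_not_dvd nd, add_zero, q1, ← pow_mul, hp.factorization_pow]
  simp

end Cfsg.Agent.S0263
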