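import Cfsg.Statements.S0264
import Cfsg.Agent.H5.SLBasic

set_option autoImplicit false
open Cfsg
open scoped commutatorElement

namespace Cfsg.Agent.S0264

/-- GL_n(F)' = SL_n(F) (as the kernel of det), for every field F and every n, except n = 2 over the field of two elements. -/
theorem result {F : Type*} [Field F] (n : ℕ) (h : n = 2 → ∃ a : F, a ≠ 0 ∧ a ≠ 1) : commutator (Matrix.GeneralLinearGroup (Fin n) F) = (Matrix.GeneralLinearGroup.det : Matrix.GeneralLinearGroup (Fin n) F →* Fˣ).ker := by
  apply le_antisymm
  · rw [commutator_def, Subgroup.commutator_le]
    intro a _ b _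
    simp [MonoidHom.mem_ker, commutatorElement_def, mul_comm (Matrix.GeneralLinearGroup.det a)]
  · rw [← CfsgH5.range_toGL]
    have key : (commutator (Matrix.GeneralLinearGroup (Fin n) F)).comap
        Matrix.SpecialLinearGroup.toGL = ⊤ := by
      refine CfsgH5.SL_eq_top_of_transvections _ fun i j hij c => ?_
      rw [Subgroup.mem_comap]
      by_cases h3 : 3 ≤ n
      · obtain ⟨a, b, hab⟩ := CfsgH5.transvection_mem_commutatorSet (F := F)
          (by simpa using h3) hij c
        rw [← hab, map_commutatorElement]
        exact Subgroup.commutator_mem_commutator (Subgroup.mem_top _) (Subgroup.mem_top _)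
      · have hn2 : n = 2 := by
          have := i.2
          have := j.2
          have : (i : ℕ) ≠ j := fun e => hij (Fin.ext e)
          omega
        obtain ⟨a, ha0, ha1⟩ := h hn2
        let d : Matrix.GeneralLinearGroup (Fin n) F :=
          ⟨Matrix.diagonal (fun k => if k = i then a else 1),
           Matrix.diagonal (fun k => if k = i then a⁻¹ else 1), by
            rw [Matrix.diagonal_mul_diagonal, ← Matrix.diagonal_one]; congr 1; funext k
            split_ifs <;> simp [ha0], by
            rw [Matrix.diagonal_mul_diagonal, ← Matrix.diagonal_one]; congr 1; funext k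
            split_ifs <;> simp [ha0]⟩
        have e : Matrix.SpecialLinearGroup.toGL (Matrix.SpecialLinearGroup.transvection hij c) =
            ⁅d, Matrix.SpecialLinearGroup.toGL
              (Matrix.SpecialLinearGroup.transvection hij (c / (a - 1)))⁆ := by
          rw [commutatorElement_def, ← map_inv, Matrix.SpecialLinearGroup.transvection_inv]
          have e1 : d * Matrix.SpecialLinearGroup.toGL
              (Matrix.SpecialLinearGroup.transvection hij (c / (a - 1))) * d⁻¹ =
              Matrix.SpecialLinearGroup.toGL
              (Matrix.SpecialLinearGroup.transvection hij (a * (c / (a - 1)))) := by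
            rw [mul_inv_eq_iff_eq_mul]
            apply Units.ext
            simp only [Units.val_mul, Matrix.SpecialLinearGroup.coe_GL_coe_matrix,
              Matrix.SpecialLinearGroup.transvection_coe, d]
            ext k l
            simp only [Matrix.diagonal_mul, Matrix.mul_diagonal, Matrix.add_apply,
              Matrix.one_apply, Matrix.single_apply]
            grind
          rw [e1, ← map_mul, ← Matrix.SpecialLinearGroup.transvection_add]
          congr 2
          have : a - 1 ≠ 0 := sub_ne_zero.2 ha1
          field_simp
          ring
        rw [e]
        exact Subgroup.commutator_mem_commutator (Subgroup.mem_top _) (Subgroup.mem_top _)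
    rintro _ ⟨g, rfl⟩
    have : g ∈ (commutator (Matrix.GeneralLinearGroup (Fin n) F)).comap
        Matrix.SpecialLinearGroup.toGL := key ▸ Subgroup.mem_top g
    exact this

end Cfsg.Agent.S0264
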