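import Mathlib
import Cfsg.Statements.S0266
import Cfsg.Agent.H8.Za3

set_option autoImplicit false
open scoped MatrixGroups
open Cfsg

namespace Cfsg.Agent.S0266

open CfsgH8 CfsgH8.Za OnePoint

theorem norm3 {F : Type*} [Field F] [DecidableEq F] (x y z : OnePoint F) (h1 : x ≠ y) (h2 : x ≠ z)
    (h3 : y ≠ z) : ∃ g : GL (Fin 2) F, g • x = ∞ ∧ g • y = (0 : F) ∧ g • z = (1 : F) := by
  obtain ⟨g, hg⟩ : ∃ g : GL (Fin 2) F, g • x = ∞ := by
    cases x with
    | infty => exact ⟨1, one_smul _ _⟩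
    | coe c => exact ⟨mk2 0 1 1 (-c) (by simp), by simp [smul_some_eq_ite, mk2_val]⟩
  obtain ⟨u, hu⟩ := ne_infty_iff_exists.1 (fun e => h1 (smul_left_cancel g (hg.trans e.symm)) : g • y ≠ ∞)
  obtain ⟨v, hv⟩ := ne_infty_iff_exists.1 (fun e => h2 (smul_left_cancel g (hg.trans e.symm)) : g • z ≠ ∞)
  have : v - u ≠ 0 := fun e => h3 (smul_left_cancel g (by rw [← hu, ← hv, sub_eq_zero.1 e]))
  refine ⟨tri 1 (-u) (Units.mk0 _ this) * g, ?_, ?_, ?_⟩ <;> rw [mul_smul]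
  · rw [hg]; simp [smul_infty_eq_ite, tri_val]
  · rw [← hu]; simp [smul_some_eq_ite, tri_val, this]
  · rw [← hv]; simp [smul_some_eq_ite, tri_val, this, ← sub_eq_add_neg]

/-- PGL_2(F) is sharply 3-transitive on the projective line: it is 3-transitive and the stabiliser of three distinct points is trivial. -/
theorem result {F : Type*} [Field F] : MulAction.IsMultiplyPretransitive (Matrix.ProjGenLinGroup (Fin 2) F) (Projectivization F (Fin 2 → F)) 3 ∧ ∀ (g : Matrix.ProjGenLinGroup (Fin 2) F) (a b c : Projectivization F (Fin 2 → F)), a ≠ b → a ≠ c → b ≠ c → g • a = a → g • b = b → g • c = c → g = 1 := by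
  classical
  let e := equivProjectivization F
  have key : ∀ (g : GL (Fin 2) F) (x : OnePoint F),
      Matrix.ProjGenLinGroup.mk g • e x = e (g • x) := fun g x => (equivProjectivization_smul x).symm
  have n3 : ∀ a b c : Projectivization F (Fin 2 → F), a ≠ b → a ≠ c → b ≠ c →
      ∃ g : Matrix.ProjGenLinGroup (Fin 2) F, g • a = e ∞ ∧ g • b = e (0 : F) ∧ g • c = e (1 : F) := by
    intro a b c h1 h2 h3
    obtain ⟨a, rfl⟩ := e.surjective a
    obtain ⟨b, rfl⟩ := e.surjective b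
    obtain ⟨c, rfl⟩ := e.surjective c
    obtain ⟨g, e1, e2, e3⟩ := norm3 a b c (fun h => h1 (h ▸ rfl)) (fun h => h2 (h ▸ rfl))
      (fun h => h3 (h ▸ rfl))
    exact ⟨.mk g, by rw [key, e1], by rw [key, e2], by rw [key, e3]⟩
  refine ⟨is_three_pretransitive_iff.2 fun a b c a' b' c' h1 h2 h3 h4 h5 h6 => ?_,
    fun g a b c h1 h2 h3 e1 e2 e3 => ?_⟩
  · obtain ⟨g, e1, e2, e3⟩ := n3 a b c h1 h2 h3
    obtain ⟨k, f1, f2, f3⟩ := n3 a' b' c' h4 h5 h6
    refine ⟨k⁻¹ * g, ?_, ?_, ?_⟩ <;> rw [mul_smul, inv_smul_eq_iff]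
    exacts [e1.trans f1.symm, e2.trans f2.symm, e3.trans f3.symm]
  · obtain ⟨k, f1, f2, f3⟩ := n3 a b c h1 h2 h3
    obtain ⟨s, hs⟩ := Matrix.ProjGenLinGroup.mk_surjective (k * g * k⁻¹)
    have fx : ∀ x y, k • x = e y → g • x = x → s • y = y := fun x y h1 h2 => e.injective (by
      rw [← key, hs, ← h1, mul_smul, mul_smul, inv_smul_smul, h2])
    obtain ⟨u, rfl⟩ := (isSc_of_fix (fx _ _ f1 e1) (fx _ _ f2 e2) (fx _ _ f3 e3)).exists_sc
    rw [Matrix.ProjGenLinGroup.mk_eq_one.2 (Subgroup.mem_center_iff.2 fun k => (sc_comm u k).symm),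
      eq_comm, mul_inv_eq_one, mul_eq_left] at hs
    exact hs

end Cfsg.Agent.S0266
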