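import Mathlib
import Cfsg.Statements.S0267
import Cfsg.Agent.H8.Multi
import Cfsg.Agent.H8.SL2n

set_option autoImplicit false
open Cfsg

namespace Cfsg.Agent.S0267

open CfsgH8 Projectivization

theorem mk_one_inj {F : Type*} [Field F] {a b : F} :
    mk F ![a, 1] (by simp) = mk F ![b, 1] (by simp) ↔ a = b := by
  rw [mk_eq_mk_iff']
  refine ⟨fun ⟨c, h⟩ => ?_, fun h => ⟨1, by simp [h]⟩⟩
  have h0 := congrFun h 0
  have h1 := congrFun h 1
  simp at h0 h1
  rw [← h0, h1, one_mul]

theorem mk_inf_ne {F : Type*} [Field F] {a : F} :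
    mk F ![1, 0] (by simp) ≠ mk F ![a, 1] (by simp) := by
  rw [ne_eq, mk_eq_mk_iff']
  rintro ⟨c, h⟩
  have h0 := congrFun h 0
  have h1 := congrFun h 1
  simp at h0 h1
  simp [h1] at h0

theorem exists_mk {F : Type*} [Field F] (x : Projectivization F (Fin 2 → F)) :
    x = mk F ![1, 0] (by simp) ∨ ∃ a, x = mk F ![a, 1] (by simp) := by
  induction x using Projectivization.ind with | _ v hv =>
  by_cases h : v 1 = 0
  · exact Or.inl ((mk_eq_mk_iff' _ _ _ _ _).2 ⟨v 0, by ext i; fin_cases i <;> simp [h]⟩)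
  · exact Or.inr ⟨v 0 / v 1, (mk_eq_mk_iff' _ _ _ _ _).2 ⟨v 1, by
      ext i; fin_cases i <;> simp [mul_div_cancel₀, h]⟩⟩

/-- SL_2(q) is 3-transitive on the q+1 points of the projective line if and only if q is even. -/
theorem result {F : Type*} [Field F] [Fintype F] : MulAction.IsMultiplyPretransitive (Matrix.SpecialLinearGroup (Fin 2) F) (Projectivization F (Fin 2 → F)) 3 ↔ ringChar F = 2 := by
  classical
  have hc : Nat.card (Projectivization F (Fin 2 → F)) = Fintype.card F + 1 := by
    rw [Projectivization.card_of_finrank_two F _ (by simp), Nat.card_eq_fintype_card]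
  have hq : 1 < Fintype.card F := Fintype.one_lt_card
  have hS : ({mk F ![1, 0] (by simp), mk F ![0, 1] (by simp)} :
    Finset (Projectivization F (Fin 2 → F))).card = 2 := Finset.card_pair mk_inf_ne
  constructor
  · intro h
    by_contra hF
    obtain ⟨ν, hν⟩ := FiniteField.exists_nonsquare hF
    have hν0 : ν ≠ 0 := by rintro rfl; exact hν IsSquare.zero
    obtain ⟨g, h1, h2⟩ := exists_fix_smul_eq h (by omega) {mk F ![1, 0] (by simp), mk F ![0, 1] (by simp)} (by rw [hS])
      (a := mk F ![1, 1] (by simp)) (b := mk F ![ν, 1] (by simp))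
      (by simp [mk_one_inj, mk_inf_ne.symm]) (by simp [mk_one_inj, mk_inf_ne.symm, hν0])
    have h3 := h1 _ (Finset.mem_insert_self _ _)
    have h4 := h1 (mk F ![0, 1] (by simp)) (by simp)
    simp only [smul_mk, mk_eq_mk_iff', Matrix.SpecialLinearGroup.smul_def] at h2 h3 h4
    obtain ⟨a, h2⟩ := h2
    obtain ⟨b, h3⟩ := h3
    obtain ⟨c, h4⟩ := h4
    have e1 := congrFun h2 0
    have e2 := congrFun h2 1
    have e3 := congrFun h3 1
    have e4 := congrFun h4 0
    have e5 := g.2
    rw [Matrix.det_fin_two] at e5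
    simp [Matrix.mulVec, dotProduct] at e1 e2 e3 e4
    refine hν ⟨g.1 0 0, ?_⟩
    grind
  · intro hF
    refine isMultiplyPretransitive_succ_of inferInstance (by omega) _ hS fun a b ha hb => ?_
    obtain ⟨a, rfl⟩ := (exists_mk a).resolve_left fun e => ha (by simp [e])
    obtain ⟨b, rfl⟩ := (exists_mk b).resolve_left fun e => hb (by simp [e])
    have ha0 : a ≠ 0 := by rintro rfl; simp at ha
    have hb0 : b ≠ 0 := by rintro rfl; simp at hb
    obtain ⟨s, hs⟩ := FiniteField.isSquare_of_char_two hF (b / a)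
    have hs0 : s ≠ 0 := by rintro rfl; simp [ha0, hb0] at hs
    refine ⟨triS (Units.mk0 s hs0) 0, ?_, ?_⟩
    · simp only [Finset.mem_insert, Finset.mem_singleton]
      rintro _ (rfl | rfl) <;> simp only [smul_mk, mk_eq_mk_iff', Matrix.SpecialLinearGroup.smul_def]
      · exact ⟨s, by ext i; fin_cases i <;> simp⟩
      · exact ⟨s⁻¹, by ext i; fin_cases i <;> simp⟩
    · simp only [smul_mk, mk_eq_mk_iff', Matrix.SpecialLinearGroup.smul_def]
      refine ⟨s⁻¹, ?_⟩
      ext i; fin_cases i <;> simp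
      field_simp at hs ⊢
      linear_combination hs

end Cfsg.Agent.S0267
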