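import Mathlib
import Cfsg.Statements.S0273
import Cfsg.Agent.H8.GL2s

set_option autoImplicit false
open Cfsg

namespace Cfsg.Agent.S0273

open CfsgH8

/-- In GL_2(q) the centraliser of a non-trivial element of a Sylow p-subgroup (p the characteristic) has order q (q-1): the Sylow subgroup times the scalars. -/
theorem result {F : Type*} [Field F] [Fintype F] {q : ℕ} (hF : Fintype.card F = q) (p : ℕ) [Fact p.Prime] [CharP F p] (P : Sylow p (Matrix.GeneralLinearGroup (Fin 2) F)) (a : Matrix.GeneralLinearGroup (Fin 2) F) (ha : a ∈ P) (ha1 : a ≠ 1) : Nat.card (Subgroup.centralizer ({a} : Set (Matrix.GeneralLinearGroup (Fin 2) F))) = q * (q - 1) := by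
  classical
  obtain ⟨k, hk⟩ := P.isPGroup' ⟨a, ha⟩
  rw [CfsgH3.card_centralizer_eq_of_isConj (isConj_tri_of_pow p (congrArg Subtype.val hk) ha1),
    centralizer_unip one_ne_zero, card_ZU, hF, mul_comm]

end Cfsg.Agent.S0273
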