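import Mathlib
import Cfsg.Statements.S0275
import Cfsg.Agent.H8.Dick5

set_option autoImplicit false
open Cfsg

namespace Cfsg.Agent.S0275


open CfsgH8

/-- If p is odd and H is a subgroup of SL_2(q), q a power of p, with more than one Sylow p-subgroup, then the Sylow 2-subgroups of H are generalised quaternion. -/
theorem result {F : Type*} [Field F] [Fintype F] (p : ℕ) [Fact p.Prime] [CharP F p] (hp : p ≠ 2) (H : Subgroup (Matrix.SpecialLinearGroup (Fin 2) F)) (hH : 1 < Nat.card (Sylow p H)) (S : Sylow 2 H) : ∃ k : ℕ, 1 ≤ k ∧ Nonempty ((S : Subgroup H) ≃* QuaternionGroup (2 ^ k)) := by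
  have hq := odd_of_char (F := F) p hp
  have h2 := two_ne_zero_of_odd hq
  obtain ⟨x, hx⟩ := exists_SLs_bot_le p hp hH.ne'
  obtain ⟨i', hi', j', hj', h'⟩ := exists_Q8P (⊥ : Subfield F)
  obtain ⟨i, hi, rfl⟩ := hx hi'
  obtain ⟨j, hj, rfl⟩ := hx hj'
  have h : Q8P i j := by simpa [cjE_apply, cjS_cjS, cjS_one] using h'.cj x⁻¹
  have hV : IsPGroup 2 ((h.V.comap πS).subgroupOf H) := (IsPGroup.of_card (n := 3) (by
    rw [card_comap_πS, gcd_two_odd hq, (h.isKleinFour h2).card_four]; rfl)).comap_of_injective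
      H.subtype H.subtype_injective
  obtain ⟨T, hT⟩ := hV.exists_le_sylow
  obtain ⟨e⟩ : Nonempty (S ≃* (T : Subgroup H).map H.subtype) :=
    ⟨(S.equiv T).trans (Subgroup.equivMapOfInjective _ _ H.subtype_injective)⟩
  set P := (T : Subgroup H).map H.subtype
  have a : i ∈ P := ⟨⟨i, hi⟩, hT (show πS i ∈ h.V by simp [Q8P.mem_V]), rfl⟩
  have b : j ∈ P := ⟨⟨j, hj⟩, hT (show πS j ∈ h.V by simp [Q8P.mem_V]), rfl⟩
  have hP : IsPGroup 2 P := T.isPGroup'.map _
  obtain ⟨C, N, c1, c2, z, c3, c4⟩ := exists_torN_of_two_group hq hP ⟨i, a, h.not_isSc h2⟩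
  have c5 : ¬ P ≤ C := fun e => neg_one_ne_one_SL hq (mul_right_cancel (b := i * j) (by
    simpa [h.ji] using c1.tor.comm (e b) (e a)))
  obtain ⟨n, hn⟩ := IsPGroup.iff_card.1 (hP.to_inf_left (K := C))
  have c6 := (P ⊓ C).orderOf_dvd_natCard c3
  rw [orderOf_of_trace_zero hq c4, hn] at c6
  obtain ⟨k, rfl⟩ := Nat.exists_eq_add_of_le' ((Nat.pow_dvd_pow_iff_le_right (x := 2) (k := 2)
    one_lt_two).1 c6)
  obtain ⟨f⟩ := c1.quaternion hq c2 c5 (k := k + 1) hn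
  exact ⟨k + 1, by omega, ⟨e.trans f⟩⟩

end Cfsg.Agent.S0275
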