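import Mathlib
import Cfsg.Statements.S0276
import Cfsg.Agent.H8.SL2n

set_option autoImplicit false
open Cfsg

namespace Cfsg.Agent.S0276

open CfsgH8

/-- For q = 3 or 5 mod 8 the Sylow 2-subgroups of PSL_2(q) are elementary abelian of order 4. -/
theorem result {F : Type*} [Field F] [Fintype F] {q : ℕ} (hF : Fintype.card F = q) (hq : q % 8 = 3 ∨ q % 8 = 5) (P : Sylow 2 (Matrix.ProjectiveSpecialLinearGroup (Fin 2) F)) : IsKleinFour (P : Subgroup (Matrix.ProjectiveSpecialLinearGroup (Fin 2) F)) := by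
  classical
  subst hF
  have hq' : Fintype.card F % 2 = 1 := by omega
  obtain ⟨Q, rfl⟩ := Sylow.mapSurjective_surjective πS_surj 2 P
  obtain ⟨C, N, h, h1, h2, -, z, hz, h3⟩ := sylow_two_SL2 hq' Q
  obtain ⟨k, hk⟩ := IsPGroup.iff_card.1 (Q.isPGroup'.to_inf_left (K := C))
  have h4 := Subgroup.orderOf_dvd_natCard _ hz
  rw [orderOf_of_trace_zero hq' h3] at h4
  have h5 : ¬ 8 ∣ Nat.card C := by rcases h.tor.card with e | e <;> rw [e] <;> omega
  have h6 : Nat.card ((Q : Subgroup _) ⊓ C : Subgroup _) = 4 := by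
    rw [hk] at h4 ⊢
    have := (Nat.pow_dvd_pow_iff_le_right one_lt_two (k := 2)).1 h4
    have : ¬ 3 ≤ k := fun e => h5 (((Nat.pow_dvd_pow_iff_le_right one_lt_two).2 e).trans
      (hk ▸ Subgroup.card_dvd_of_le inf_le_right))
    rw [show k = 2 by omega]; rfl
  have h7 : -1 ∈ (Q : Subgroup (Matrix.SpecialLinearGroup (Fin 2) F)) :=
    sq_eq_neg_one_of_trace h3 ▸ Subgroup.mul_mem _ hz.1 hz.1
  refine ⟨?_, ?_⟩
  · rw [Sylow.coe_mapSurjective, card_map_πS' h7, h.relIndex_inf h1 h2, h6, gcd_two_odd hq']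
  · have : Nontrivial (Q.mapSurjective πS_surj) := (Subgroup.nontrivial_iff_exists_ne_one _).2
      ⟨_, Subgroup.mem_map_of_mem _ hz.1, πS_eq_one.not.2 (reg_of_trace_zero hq' h3).not_isSc⟩
    refine (Monoid.exponent_eq_prime_iff Nat.prime_two).2 ?_
    rintro ⟨_, x, hx, rfl⟩ h1'
    refine orderOf_eq_prime (Subtype.ext ?_) h1'
    change πS x ^ 2 = 1
    rw [← map_pow, πS_eq_one]
    by_cases hC : x ∈ C
    · refine isSc_of_sq_eq_one (two_ne_zero_of_odd hq') ?_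
      rw [← pow_mul, ← orderOf_dvd_iff_pow_eq_one]
      have := Subgroup.orderOf_dvd_natCard _ (Subgroup.mem_inf.2 ⟨hx, hC⟩)
      rwa [h6] at this
    · rw [sq, h.sq x (h1 hx) hC]; exact isSc_SL2.2 (Or.inr rfl)

end Cfsg.Agent.S0276
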