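import Cfsg.Statements.S0281
import Cfsg.Agent.H5.TSub

set_option autoImplicit false
open Cfsg

namespace Cfsg.Agent.S0281

/-- SU_2(q) is isomorphic to SL_2(q). -/
theorem result {F K : Type*} [Field F] [Fintype F] [Field K] [Fintype K] {q : ℕ} (hF : Fintype.card F = q ^ 2) (hK : Fintype.card K = q) : Nonempty (Cfsg.SU 2 F q ≃* Matrix.SpecialLinearGroup (Fin 2) K) := by
  have H := CfsgH5.frobq_UF hF
  set σ := CfsgH5.frobq hF
  let F0 : Subfield F := RingHom.eqLocusField σ (RingHom.id F)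
  have : Fintype F0 := Fintype.ofFinite _
  let e : K ≃+* F0 := FiniteField.ringEquivOfCardEq (by
    rw [hK, ← Nat.card_eq_fintype_card, ← H.card_fix]; rfl)
  let ι : K →+* F := F0.subtype.comp e.toRingHom
  have hι : ∀ k, σ (ι k) = ι k := fun k => (e k).2
  obtain ⟨c, hc, hc'⟩ := CfsgH5.exists_trace_zero H.ne_id H.invol
  have hσc : σ c = -c := by linear_combination hc'
  let f : CfsgH5.CForm (CfsgH5.FP.unit σ H.invol) (Fin 2 → F) := CfsgH5.CForm.ofHerm H.ne_id
    H.invol (fun u v => c * (u 0 * σ (v 1) - u 1 * σ (v 0))) (fun u v w => by simp; ring)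
    (fun a u w => by simp; ring) (fun u v => by simp [H.invol, hσc]; ring)
  have hB : ∀ u v, f.B u v = c * (u 0 * σ (v 1) - u 1 * σ (v 0)) := fun _ _ => rfl
  have hf : f.Nondeg := fun v hv => by
    have h1 := hv ![1, 0]
    have h2 := hv ![0, 1]
    simp [hB, hc] at h1 h2
    ext i; fin_cases i <;> simp [h1, h2]
  let m : Matrix.SpecialLinearGroup (Fin 2) K →* Matrix (Fin 2) (Fin 2) F :=
    (Cfsg.slToMat 2 F).comp (Matrix.SpecialLinearGroup.map ι)
  have hm : ∀ A i j, m A i j = ι (A.1 i j) := fun _ _ _ => rfl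
  let φ : Matrix.SpecialLinearGroup (Fin 2) K →* f.SIsom := (CfsgH5.toLinHom m).codRestrict _
    fun A => by
      rw [CfsgH5.CForm.mem_SIsom, CfsgH5.CForm.mem_Isom_unit, CfsgH5.toLinHom_det]
      have h1 := congrArg ι A.2
      rw [Matrix.det_fin_two, map_sub, map_mul, map_mul, map_one] at h1
      refine ⟨fun u v => ?_, by rw [Matrix.det_fin_two]; exact h1⟩
      simp only [hB, CfsgH5.toLinHom_apply, Matrix.mulVec, dotProduct, Fin.sum_univ_two, hm,
        map_add, map_mul, hι]
      linear_combination (c * (u 0 * σ (v 1) - u 1 * σ (v 0))) * h1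
  have hφ : Function.Injective φ := fun A B h => by
    have := CfsgH5.toLinHom_injective (toMat := m) (fun A B h => by
      ext i j; exact ι.injective (congrFun (congrFun h i) j)) (congrArg Subtype.val h)
    exact this
  have : Finite f.SIsom := by have := CfsgH5.finite_linearEquiv (F := F) (V := Fin 2 → F); infer_instance
  obtain ⟨a⟩ := CfsgH5.nonempty_equiv_of_injective_card φ hφ (by
    have h1 := CfsgH5.CForm.unit_card_SIsom H hf (by simp)
    rw [CfsgH5.CForm.unit_card_Isom H 2 hf (by simp)] at h1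
    rw [CfsgH5.card_SL2, hK]
    apply Nat.eq_of_mul_eq_mul_left (Nat.succ_pos q)
    rw [h1]
    simp [CfsgH5.uOrd, Finset.prod_range_succ]
    ring)
  obtain ⟨b, hb⟩ := CfsgH5.CForm.unit_exists_isIso H 2 (CfsgH5.hermC_nondeg H 2) hf (by simp)
    (by simp)
  refine ⟨(CfsgH5.suEquiv H 2).trans ((((CfsgH5.CForm.conjEquiv b).subgroupMap _).trans
    (MulEquiv.subgroupCongr ?_)).trans a.symm)⟩
  ext g
  obtain ⟨g, rfl⟩ := (CfsgH5.CForm.conjEquiv b).surjective g
  rw [CfsgH5.CForm.mem_SIsom, hb.conj_mem, CfsgH5.CForm.conjEquiv_det, ← CfsgH5.CForm.mem_SIsom]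
  exact Subgroup.mem_map_iff_mem (f := (CfsgH5.CForm.conjEquiv b).toMonoidHom)
    (CfsgH5.CForm.conjEquiv b).injective

end Cfsg.Agent.S0281
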