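import Cfsg.Statements.S0284
import Cfsg.Agent.H5.Unit2

set_option autoImplicit false
open Cfsg

namespace Cfsg.Agent.S0284

/-- The standard Hermitian form on F^n, |F| = q^2, has exactly q^(n-1) (q^n - (-1)^n) vectors of norm 1. -/
theorem result {F : Type*} [Field F] [Fintype F] {q : ℕ} (hF : Fintype.card F = q ^ 2) (n : ℕ) : Nat.card {v : Fin n → F // Cfsg.hermForm n F q v v = 1} = (if Even n then q ^ (n - 1) * (q ^ n - 1) else q ^ (n - 1) * (q ^ n + 1)) := by
  have H := CfsgH5.frobq_UF hF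
  have h1 := (CfsgH5.CForm.unit_nQ H n (CfsgH5.hermC_nondeg H n) (by simp)).2 1 (map_one _)
    one_ne_zero
  have h2 := H.two_le
  change (CfsgH5.hermC H n).nQ 1 = _
  have h3 : 1 ≤ q ^ n := Nat.one_le_pow _ _ (by omega)
  have h4 : (q : ℤ) ≠ 0 := by omega
  zify
  apply mul_left_cancel₀ h4
  rw [h1]
  rcases n with _ | n
  · simp
  split_ifs with h
  · rw [h.neg_pow]; push_cast [h3]; ring
  · rw [(Nat.not_even_iff_odd.1 h).neg_pow]; push_cast; ring

end Cfsg.Agent.S0284
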