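import Cfsg.Statements.S0287
import Cfsg.Agent.H5.Orth6

set_option autoImplicit false
open Cfsg

namespace Cfsg.Agent.S0287

/-- |GO^+_{2m}(q)| = 2 q^(m(m-1)) (q^m - 1) prod_{i=1}^{m-1} (q^(2i) - 1), m at least 1, all q. -/
theorem result {F : Type*} [Field F] [Fintype F] {q : ℕ} (hF : Fintype.card F = q) (m : ℕ) (hm : 1 ≤ m) : Nat.card (Cfsg.isometryGroup F (Cfsg.quadFormPlus m F)) = 2 * q ^ (m * (m - 1)) * (q ^ m - 1) * ∏ i ∈ Finset.range (m - 1), (q ^ (2 * (i + 1)) - 1) := by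
  subst hF
  obtain ⟨m, rfl⟩ : ∃ k, m = k + 1 := ⟨m - 1, by omega⟩
  have := CfsgH5.CForm.orth_card_even m (CfsgH5.plusQ_nondeg F (m + 1)) (by simp; omega)
  rw [← Nat.card_congr (CfsgH5.orthEquiv (CfsgH5.plusQ F (m + 1))).toEquiv,
    Nat.card_eq_fintype_card (α := F), (CfsgH5.plusQ_isPlus _).sgn] at this
  have h1 : ∀ k, 1 ≤ Fintype.card F ^ k := fun k => Nat.one_le_pow _ _ Fintype.card_pos
  zify [h1]
  rw [CfsgH5.oOrd] at this
  refine this.trans ?_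
  ring

end Cfsg.Agent.S0287
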