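import Cfsg.Statements.S0289
import Cfsg.Agent.H5.Orth6

set_option autoImplicit false
open Cfsg

namespace Cfsg.Agent.S0289

/-- The hyperbolic quadratic form on F^(2m), m at least 1, has q^(2m-1) + q^m - q^(m-1) zeros (that is, (q^m - 1)(q^(m-1) + 1) non-zero isotropic vectors). -/
theorem result {F : Type*} [Field F] [Fintype F] {q : ℕ} (hF : Fintype.card F = q) (m : ℕ) (hm : 1 ≤ m) : Nat.card {v : Fin m ⊕ Fin m → F // Cfsg.quadFormPlus m F v = 0} = q ^ (2 * m - 1) + q ^ m - q ^ (m - 1) := by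
  subst hF
  obtain ⟨m, rfl⟩ : ∃ k, m = k + 1 := ⟨m - 1, by omega⟩
  have := (CfsgH5.CForm.orth_nQ_even (m + 1) (CfsgH5.plusQ_nondeg F (m + 1)) (by simp; omega)).1
  rw [Nat.card_eq_fintype_card (α := F), (CfsgH5.plusQ_isPlus _).sgn] at this
  have hq : (Fintype.card F : ℤ) ≠ 0 := Nat.cast_ne_zero.2 Fintype.card_ne_zero
  refine Nat.eq_sub_of_add_eq ?_
  zify
  refine mul_left_cancel₀ hq ?_
  rw [mul_add]
  erw [this]
  rw [show 2 * (m + 1) - 1 = 2 * m + 1 by omega, Nat.add_sub_cancel]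
  ring

end Cfsg.Agent.S0289
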