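import Cfsg.Statements.S0292
import Cfsg.Agent.H5.Orth6

set_option autoImplicit false
open Cfsg

namespace Cfsg.Agent.S0292

/-- 2 |PΩ_{2m+1}(q)| = q^(m^2) prod_{i=1}^{m} (q^(2i) - 1), for q odd and m at least 3 (type B_m). -/
theorem result {F : Type*} [Field F] [Fintype F] {q : ℕ} (hF : Fintype.card F = q) (hodd : Odd q) (m : ℕ) (hm : 3 ≤ m) : 2 * Nat.card (Cfsg.POmega F (Cfsg.quadFormOdd m F)) = q ^ (m ^ 2) * ∏ i ∈ Finset.range m, (q ^ (2 * (i + 1)) - 1) := by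
  subst hF
  have := CfsgH5.CForm.card_POmega_odd (CfsgH5.oddQ_nondeg (CfsgH5.two_ne_of_odd hodd) m) (m := m)
    (by simp; omega) (by omega)
  rw [← Nat.card_congr (CfsgH5.pomegaEquiv (CfsgH5.oddQ F m)).toEquiv,
    Nat.card_eq_fintype_card (α := F)] at this
  exact this

end Cfsg.Agent.S0292
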