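import Cfsg.Statements.S0295
import Cfsg.Agent.H5.Orth6

set_option autoImplicit false
open Cfsg

namespace Cfsg.Agent.S0295

/-- PΩ_{2m+1}(q) is simple for q odd and m at least 3. -/
theorem result {F : Type*} [Field F] [Fintype F] (hodd : Odd (Fintype.card F)) (m : ℕ) (hm : 3 ≤ m) : IsSimpleGroup (Cfsg.POmega F (Cfsg.quadFormOdd m F)) := by
  have := CfsgH5.CForm.POmega_isSimple (CfsgH5.oddQ_nondeg (CfsgH5.two_ne_of_odd hodd) m)
    (by simp; omega)
  exact (CfsgH5.pomegaEquiv (CfsgH5.oddQ F m)).isSimpleGroup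

end Cfsg.Agent.S0295
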