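import Cfsg.Statements.S0298
import Cfsg.Agent.H5.Lx4

set_option autoImplicit false
open Cfsg

namespace Cfsg.Agent.S0298

open CfsgH5 CfsgH5.Lx CfsgH5.CForm Matrix

/-- PΩ_3(q) is isomorphic to PSL_2(q) for q odd. -/
theorem result {F : Type*} [Field F] [Fintype F] (hodd : Odd (Fintype.card F)) : Nonempty (Cfsg.POmega F (Cfsg.quadFormOdd 1 F) ≃* Matrix.ProjectiveSpecialLinearGroup (Fin 2) F) := by
  have h2 := two_ne_of_odd hodd
  have hf := oddQ_nondeg h2 1
  have h3 : 3 ≤ Fintype.card F := by have := Fintype.one_lt_card (α := F); obtain ⟨k, h⟩ := hodd; omega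
  refine plain hf (by simp) (split_of_two_ne h2) (QuotientGroup.mk'_surjective _) (y := y3.comp (Cfsg.slToMat 2 F))
    (fun g v => (y3_Q g.1 v).trans (by simp)) (mem_SL2 hf (split_of_two_ne h2) h3 _)
    (fun g => mk_eq_one.trans (y3_sc g.2)) ?_
  have a := congrArg (Nat.cast : ℕ → ℤ) (card_POmega_odd hf (m := 1) (by simp) le_rfl)
  have b := card_PSL2 (F := F)
  obtain ⟨k, h⟩ := hodd
  rw [gcd_mod (y := 0) (Int.modEq_zero_iff_dvd.2 ⟨k, by omega⟩)] at b
  have : 1 ≤ Fintype.card F ^ 2 := Nat.one_le_pow _ _ (by omega)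
  simp [this] at a b
  exact Nat.cast_injective (R := ℤ) (by simp; linarith)

end Cfsg.Agent.S0298
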