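import Cfsg.Statements.S0299
import Cfsg.Agent.H5.Lx4

set_option autoImplicit false
open Cfsg

namespace Cfsg.Agent.S0299

open CfsgH5 CfsgH5.Lx CfsgH5.CForm Matrix

/-- PΩ^+_4(q) is isomorphic to PSL_2(q) x PSL_2(q) for q at least 3. -/
theorem result {F : Type*} [Field F] [Fintype F] (hF : 3 ≤ Fintype.card F) : Nonempty (Cfsg.POmega F (Cfsg.quadFormPlus 2 F) ≃* Matrix.ProjectiveSpecialLinearGroup (Fin 2) F × Matrix.ProjectiveSpecialLinearGroup (Fin 2) F) := by
  have hf := plusQ_nondeg F 2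
  have hs := split_of_card hf (.inl (by omega))
  have h : ∀ g v, plusQ F 2 (y4.comp ((Cfsg.slToMat 2 F).prodMap (Cfsg.slToMat 2 F)) g *ᵥ v) = plusQ F 2 v :=
    fun g v => (y4_Q (g.1.1, g.2.1) v).trans (by simp)
  refine plain hf (by simp) hs (π := (QuotientGroup.mk' _).prodMap (QuotientGroup.mk' _))
    ((QuotientGroup.mk'_surjective _).prodMap (QuotientGroup.mk'_surjective _)) h (fun g => ?_)
    (fun g => (Prod.ext_iff.trans (and_congr mk_eq_one mk_eq_one)).trans (y4_sc g.1.2 g.2.2)) ?_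
  · rw [← Prod.fst_mul_snd g, _root_.map_mul]
    exact mul_mem (mem_SL2 hf hs hF ((isoH _ h).comp (.inl _ _)) g.1) (mem_SL2 hf hs hF ((isoH _ h).comp (.inr _ _)) g.2)
  have a := card_POmega_even hf hs (m := 1) (by simp) (by omega)
  have b := card_PSL2 (F := F)
  rw [sgn_eq_one.2 (plusQ_isPlus _), (gcds _).1] at a
  refine Nat.cast_injective (R := ℤ) (mul_left_cancel₀ (by simp) (a.trans ?_))
  simp only [oOrd, Finset.prod_range_succ, Nat.card_prod] at b ⊢
  push_cast
  rw [mul_mul_mul_comm (Int.gcd _ _ : ℤ), b, Finset.prod_range_zero]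
  ring

end Cfsg.Agent.S0299
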