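import Cfsg.Statements.S0300
import Cfsg.Agent.H5.Lx4

set_option autoImplicit false
open Cfsg

namespace Cfsg.Agent.S0300

open CfsgH5 CfsgH5.Lx CfsgH5.CForm Matrix

theorem aux {K : Type*} [Field K] (σ : K →+* K) (h : ∀ a, σ (σ a) = a) (A : Matrix (Fin 2) (Fin 2) K) :
    fromBlocks !![1, 0; 0, 0] !![0, 0; 0, -1] !![0, 0; 0, -1] !![1, 0; 0, 0] * (y4 (A, A.map σ)).map σ =
      y4 (A, A.map σ) * fromBlocks !![1, 0; 0, 0] !![0, 0; 0, -1] !![0, 0; 0, -1] !![1, 0; 0, 0] := by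
  ext (i | i) (j | j) <;> fin_cases i <;> fin_cases j <;> simp [mul_apply, y4, h] <;> ring

/-- PΩ^-_4(q) is isomorphic to PSL_2(q^2). -/
theorem result {F K : Type*} [Field F] [Fintype F] [Field K] [Fintype K] {q : ℕ} (hF : Fintype.card F = q) (hK : Fintype.card K = q ^ 2) (a b : F) (hab : ∀ z₁ z₂ : F, z₁ ^ 2 + a * z₁ * z₂ + b * z₂ ^ 2 = 0 → z₁ = 0 ∧ z₂ = 0) : Nonempty (Cfsg.POmega F (Cfsg.quadFormMinus 1 F a b) ≃* Matrix.ProjectiveSpecialLinearGroup (Fin 2) K) := by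
  obtain ⟨σ, H⟩ := exists_UF hK
  have h2 := H.two_le
  have b := card_PSL2 (F := K)
  rw [hK] at b
  push_cast at b
  have hG : commutator (SpecialLinearGroup (Fin 2) K) = ⊤ :=
    let ⟨_, a, b⟩ := exists_sq_ne_one (F := K) (by nlinarith); SL2.commutator_eq_top a b
  refine twisted H hF le_rfl hab hG (QuotientGroup.mk'_surjective _)
    (y := y4.comp ((Cfsg.slToMat 2 K).prod ((Cfsg.slToMat 2 K).comp (SpecialLinearGroup.map σ))))
    (fun g v => (y4_Q (g.1, (SpecialLinearGroup.map σ g).1) v).trans (by rw [g.2, (SpecialLinearGroup.map σ g).2]; simp)) (fun g => mk_eq_one.trans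
      (Iff.trans ⟨fun k => ⟨k, ?_⟩, And.left⟩ (y4_sc g.2 (SpecialLinearGroup.map σ g).2)))
    (T := fromBlocks !![1, 0; 0, 0] !![0, 0; 0, -1] !![0, 0; 0, -1] !![1, 0; 0, 0]) ?_ ?_ (fun v => ?_) (fun g => ?_)
    (fun k => ?_) ?_
  · obtain ⟨l, k⟩ := k
    exact ⟨σ l, by ext i j; simp [k, one_apply, apply_ite σ]⟩
  · ext (i | i) (j | j) <;> fin_cases i <;> fin_cases j <;> simp [mul_apply]
  · ext (i | i) (j | j) <;> fin_cases i <;> fin_cases j <;> simp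
  · simp [plusQ_coe, Cfsg.quadFormPlus, mulVec, dotProduct, mul_comm]
  · exact aux σ H.invol g.1
  · have := mul_dvd_mul (Int.gcd_dvd_left 2 ((q : ℤ) ^ 2 - 1)) k
    have p : (q : ℤ) ^ 2 * (q ^ 2 - 1) ≠ 0 := mul_ne_zero (by positivity) (by nlinarith : (0 : ℤ) < _).ne'
    rw [b, show (2 : ℤ) * (2 * oOrd q 1 (1 + 1)) = q ^ 2 * (q ^ 2 - 1) * (4 * (q ^ 2 + 1) - 8) by simp [oOrd]; ring,
      show (q : ℤ) ^ 2 * ((q ^ 2) ^ 2 - 1) = q ^ 2 * (q ^ 2 - 1) * (q ^ 2 + 1) by ring, mul_dvd_mul_iff_left p,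
      dvd_sub_right (dvd_mul_left _ _)] at this
    have l := Int.le_of_dvd (by decide) this
    obtain rfl : q = 2 := by nlinarith
    simp at this
  · rw [(gcds _).2.1, b]; simp [oOrd]; ring

end Cfsg.Agent.S0300
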