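import Cfsg.Statements.S0303
import Cfsg.Agent.H5.Lx4
import Cfsg.Agent.S0283

set_option autoImplicit false
open Cfsg

namespace Cfsg.Agent.S0303

open CfsgH5 CfsgH5.Lx CfsgH5.CForm Matrix

theorem aux {K : Type*} [Field K] {A B : Matrix (Fin 4) (Fin 4) K} (h : Aᵀ * B = 1) (d : A.det = 1) :
    fromBlocks 0 1 1 0 * y6 B = y6 A * fromBlocks 0 1 1 0 := by
  have k : ∀ u v : Fin 3 ⊕ Fin 3 → K, u ⬝ᵥ fromBlocks 0 1 1 0 *ᵥ v = plusQ K 3 (u + v) - plusQ K 3 u - plusQ K 3 v :=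
    fun u v => by simp [plusQ_coe, Cfsg.quadFormPlus, fromBlocks_mulVec, dotProduct, Fin.sum_univ_succ]; ring
  have : y6 A * fromBlocks 0 1 1 0 * y6 Aᵀ = fromBlocks 0 1 1 0 := (toBilin'.injective (LinearMap.ext₂ fun u v => by
    rw [toBilin'_apply', toBilin'_apply', ← mulVec_mulVec, ← mulVec_mulVec, dotProduct_mulVec, ← mulVec_transpose,
      ← y6_transpose, k, k, ← mulVec_add, y6_Q, y6_Q, y6_Q, det_transpose, d, one_mul, one_mul, one_mul]))
  rw [← congrArg (· * y6 B) this, mul_assoc, ← _root_.map_mul, h, _root_.map_one, mul_one]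

/-- PΩ^-_6(q) is isomorphic to PSU_4(q). -/
theorem result {F K : Type*} [Field F] [Fintype F] [Field K] [Fintype K] {q : ℕ} (hF : Fintype.card F = q) (hK : Fintype.card K = q ^ 2) (a b : F) (hab : ∀ z₁ z₂ : F, z₁ ^ 2 + a * z₁ * z₂ + b * z₂ ^ 2 = 0 → z₁ = 0 ∧ z₂ = 0) : Nonempty (Cfsg.POmega F (Cfsg.quadFormMinus 2 F a b) ≃* Cfsg.PSU 4 K q) := by
  obtain ⟨σ, H⟩ := exists_UF hK
  have h2 := H.two_le
  have b := card_PSU4 H
  have := S0283.result hK 4 (by omega) (by omega)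
  have hG := commutator_eq_top_equiv (suEquiv H 4) (unit_isSimple H (hermC_nondeg H 4) (by simp) (by simp)).1
  have h : ∀ g v, plusQ K 3 (y6.comp ((Cfsg.slToMat 4 K).comp (Cfsg.SU 4 K q).subtype) g *ᵥ v) = plusQ K 3 v :=
    fun g v => (y6_Q g.1.1 v).trans (by simp)
  refine twisted H hF (by omega) hab hG (QuotientGroup.mk'_surjective _) h (fun g => (sc_iff (QuotientGroup.mk'_surjective _)
      (φ := (Subgroup.subtype _).comp (isoH _ h)) (fun g k => (isSc_isoH h g).2 (y6_sc ?_))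
      ⟨⟨⟨!![0, 1, 0, 0; 0, 0, 1, 0; 1, 0, 0, 0; 0, 0, 0, 1], ?_⟩, fun u v => ?_⟩, fun k => ?_⟩ g).trans (isSc_isoH h g))
    (T := fromBlocks 0 1 1 0) ?_ ?_ (fun v => ?_) (fun g => ?_) (fun k => ?_) ?_
  · obtain ⟨x, y, hxy⟩ := unit_exists_hyp H (hermC_nondeg H 4) (by simp)
    obtain ⟨l, k⟩ := (mem_center_iff_scalar (hermC_nondeg H 4) (rich_of_ker (unit_ker H.ne_id)) hxy
      (hxy.SIsom_eq_E (hermC_nondeg H 4) (unit_ker H.ne_id)).ge inf_le_left).1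
      ((mem_center_equiv (suEquiv H 4)).2 ((QuotientGroup.eq_one_iff _).1 k))
    exact ⟨l, Matrix.ext_of_mulVec_single fun i => (k _).trans (by rw [smul_mulVec, one_mulVec])⟩
  · simp [det_succ_row_zero, Fin.sum_univ_succ, Fin.succAbove]
  · change hermForm 4 K q (!![0, 1, 0, 0; 0, 0, 1, 0; 1, 0, 0, 0; 0, 0, 0, 1] *ᵥ u)
      (!![0, 1, 0, 0; 0, 0, 1, 0; 1, 0, 0, 0; 0, 0, 0, 1] *ᵥ v) = _
    simp [hermForm, Fin.sum_univ_succ, dotProduct]; ring
  · obtain ⟨l, k⟩ := (isSc_isoH h _).1 k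
    change y6 !![0, 1, 0, 0; 0, 0, 1, 0; 1, 0, 0, 0; 0, 0, 0, 1] = _ at k
    simpa [y6, px, one_apply] using congrFun₂ k (.inl 0) (.inr 2)
  · simp [fromBlocks_multiply]
  · simp [fromBlocks_map]
  · simp [plusQ_coe, Cfsg.quadFormPlus, fromBlocks_mulVec, mul_comm]
  · refine (congrArg _ (y6_map g.1.1 σ).symm).trans (aux ?_ g.1.2)
    ext i j
    have := g.2 (Pi.single i 1) (Pi.single j 1)
    simpa [hermForm, ← H.pow, mul_apply, one_apply, Pi.single_apply, apply_ite σ, eq_comm] using this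
  · have := mul_dvd_mul (Int.gcd_dvd_left 4 ((q : ℤ) + 1)) k
    have p : (q : ℤ) ^ 6 * (q ^ 2 - 1) * (q ^ 4 - 1) ≠ 0 := mul_ne_zero (mul_ne_zero (by positivity)
      (sub_pos.2 (one_lt_pow₀ (by omega) (by omega))).ne') (sub_pos.2 (one_lt_pow₀ (by omega) (by omega))).ne'
    rw [b, show (4 : ℤ) * (2 * oOrd q 1 (2 + 1)) = q ^ 6 * (q ^ 2 - 1) * (q ^ 4 - 1) * (8 * (q ^ 3 + 1) - 16) by
      simp [oOrd, Finset.prod_range_succ]; ring, show oOrd q (-1) 3 = q ^ 6 * (q ^ 2 - 1) * (q ^ 4 - 1) * (q ^ 3 + 1) by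
      simp [oOrd, Finset.prod_range_succ]; ring, mul_dvd_mul_iff_left p, dvd_sub_right (dvd_mul_left _ _)] at this
    have l := Int.le_of_dvd (by decide) this
    obtain rfl : q = 2 := by
      by_contra k
      have := pow_le_pow_left₀ (by decide) (show (3 : ℤ) ≤ q by omega) 3
      omega
    simp at this
  · rw [(gcds _).2.2.2, b]

end Cfsg.Agent.S0303
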