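import Cfsg.Statements.S0305
import Cfsg.Agent.H5.Orth6

set_option autoImplicit false
open Cfsg

namespace Cfsg.Agent.S0305

/-- GO^+_2(q) is dihedral of order 2(q-1). -/
theorem result {F : Type*} [Field F] [Fintype F] {q : ℕ} (hF : Fintype.card F = q) : Nonempty (Cfsg.isometryGroup F (Cfsg.quadFormPlus 1 F) ≃* DihedralGroup (q - 1)) := by
  subst hF
  let f := CfsgH5.CForm.ofQuad (CfsgH5.plusQ F 1)
  have hQ : ∀ v, f.Q v = v (.inl 0) * v (.inr 0) := fun v => by
    simp [f, CfsgH5.CForm.ofQuad_Q, CfsgH5.plusQ_coe, Cfsg.quadFormPlus]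
  have ext : ∀ u v : Fin 1 ⊕ Fin 1 → F, u (.inl 0) = v (.inl 0) → u (.inr 0) = v (.inr 0) → u = v :=
    fun u v h1 h2 => funext fun j => by
      rcases j with j | j <;> obtain rfl : j = 0 := Subsingleton.elim _ _ <;> assumption
  let d : Fˣ → ((Fin 1 ⊕ Fin 1 → F) ≃ₗ[F] (Fin 1 ⊕ Fin 1 → F)) := fun c =>
    LinearEquiv.piCongrRight fun j => LinearEquiv.smulOfUnit (Sum.elim (fun _ => c) (fun _ => c⁻¹) j)
  have d1 : ∀ c v, d c v (.inl 0) = c * v (.inl 0) := fun c v => rfl
  have d2 : ∀ c v, d c v (.inr 0) = (c⁻¹ : Fˣ) * v (.inr 0) := fun c v => rfl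
  let ψ : Fˣ →* f.Isom := MonoidHom.mk' (fun c => ⟨d c, CfsgH5.CForm.mem_Isom_orth.2 fun v => by
    rw [hQ, hQ, d1, d2, mul_mul_mul_comm]; simp⟩) fun a b => Subtype.ext (LinearEquiv.ext fun v =>
      ext _ _ (by simp [d1, mul_assoc]) (by simp [d2, mul_assoc, mul_left_comm]))
  let s : f.Isom := ⟨LinearEquiv.funCongrLeft F F (Equiv.sumComm _ _),
    CfsgH5.CForm.mem_Isom_orth.2 fun v => by rw [hQ, hQ, mul_comm]; rfl⟩
  have s1 : ∀ v, s.1 v (.inl 0) = v (.inr 0) := fun v => rfl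
  have s2 : ∀ v, s.1 v (.inr 0) = v (.inl 0) := fun v => rfl
  have ψ1 : ∀ c, (ψ c).1 = d c := fun _ => rfl
  obtain ⟨e⟩ := CfsgH5.nonempty_dihedral_of_cyclic ψ (fun a b h => by
      have := congrArg (fun g : f.Isom => g.1 (fun _ => 1) (.inl 0)) h
      exact Units.ext (by simpa [ψ1, d1] using this)) (s := s)
    (Subtype.ext (LinearEquiv.ext fun v => ext _ _ rfl rfl))
    (fun c => by
      rw [← map_inv]
      exact Subtype.ext (LinearEquiv.ext fun v => ext _ _ rfl (by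
        change s.1 (d c (s.1 v)) _ = d c⁻¹ v _
        rw [s2, d1, s1, d2, inv_inv])))
    (fun c h => by
      have := congrArg (fun g : f.Isom => g.1 (Pi.single (.inr 0) 1) (.inl 0)) h
      simp [ψ1, d1, s1] at this)
    (fun g => by
      set x : Fin 1 ⊕ Fin 1 → F := Pi.single (.inl 0) 1
      set y : Fin 1 ⊕ Fin 1 → F := Pi.single (.inr 0) 1
      have hv : ∀ v : Fin 1 ⊕ Fin 1 → F, v = v (.inl 0) • x + v (.inr 0) • y := fun v =>
        ext _ _ (by simp [x, y]) (by simp [x, y])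
      have h1 := f.Isom_Q g.2 x
      have h2 := f.Isom_Q g.2 y
      have h3 := f.Isom_Q g.2 (x + y)
      rw [map_add] at h3
      simp only [hQ, Pi.add_apply] at h1 h2 h3
      simp only [x, y, Pi.single_eq_same, ne_eq, reduceCtorEq, not_false_eq_true,
        Pi.single_eq_of_ne, mul_zero, zero_mul, add_zero, zero_add, mul_one] at h1 h2 h3
      change g.1 x _ * g.1 x _ = 0 at h1
      change g.1 y _ * g.1 y _ = 0 at h2
      change (g.1 x _ + g.1 y _) * (g.1 x _ + g.1 y _) = 1 at h3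
      have hg : ∀ v j, g.1 v j = v (.inl 0) * g.1 x j + v (.inr 0) * g.1 y j := fun v j => by
        conv_lhs => rw [hv v]
        simp
      rcases mul_eq_zero.1 h1 with a | a <;> rcases mul_eq_zero.1 h2 with b | b <;>
        rw [a, b] at h3
      · simp at h3
      · rw [zero_add, add_zero, mul_comm] at h3
        refine ⟨Units.mkOfMulEqOne _ _ h3, .inr (Subtype.ext (LinearEquiv.ext fun v => ext _ _ ?_ ?_))⟩
        · change _ = s.1 (d _ v) _
          rw [s1, d2, hg, a]; simp [mul_comm, eq_inv_of_mul_eq_one_right h3]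
        · change _ = s.1 (d _ v) _
          rw [s2, d1, hg, b]; simp [mul_comm]
      · rw [zero_add, add_zero] at h3
        refine ⟨Units.mkOfMulEqOne _ _ h3, .inl (Subtype.ext (LinearEquiv.ext fun v => ext _ _ ?_ ?_))⟩
        · rw [ψ1, d1, hg, b]; simp [mul_comm]
        · rw [ψ1, d2, hg, a]; simp [mul_comm, eq_inv_of_mul_eq_one_right h3]
      · simp at h3)
  rw [Nat.card_units, Nat.card_eq_fintype_card] at e
  exact ⟨(CfsgH5.orthEquiv (CfsgH5.plusQ F 1)).trans e⟩

end Cfsg.Agent.S0305
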