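import Cfsg.Statements.S0306
import Cfsg.Agent.H5.Orth6

set_option autoImplicit false
open Cfsg

namespace Cfsg.Agent.S0306

/-- GO^-_2(q) is dihedral of order 2(q+1). -/
theorem result {F : Type*} [Field F] [Fintype F] {q : ℕ} (hF : Fintype.card F = q) (a b : F) (hab : ∀ z₁ z₂ : F, z₁ ^ 2 + a * z₁ * z₂ + b * z₂ ^ 2 = 0 → z₁ = 0 ∧ z₂ = 0) : Nonempty (Cfsg.isometryGroup F (Cfsg.quadFormMinus 0 F a b) ≃* DihedralGroup (q + 1)) := by
  subst hF
  have h : (CfsgH5.CForm.ofQuad (CfsgH5.minusQ 0 a b)).Aniso := fun v hv => by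
    have := hab (v (.inr 0)) (v (.inr 1)) (by
      simpa [CfsgH5.CForm.ofQuad_Q, CfsgH5.minusQ_coe, Cfsg.quadFormMinus] using hv)
    funext j
    rcases j with (j | j) | j
    · exact j.elim0
    · exact j.elim0
    · fin_cases j; exacts [this.1, this.2]
  obtain ⟨e⟩ := h.dihedral (by simp)
  rw [Nat.card_eq_fintype_card] at e
  exact ⟨(CfsgH5.orthEquiv (CfsgH5.minusQ 0 a b)).trans e⟩

end Cfsg.Agent.S0306
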