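import Cfsg.Statements.S0307
import Cfsg.Agent.H5.SLBasic

set_option autoImplicit false
open Cfsg

namespace Cfsg.Agent.S0307

open Matrix

/-- PSL_n(q) is normal in PGL_n(q) with cyclic quotient of order gcd(n, q-1): the image of the natural map PSL_n → PGL_n is the kernel of a surjective homomorphism onto the cyclic group of that order. -/
theorem result {F : Type*} [Field F] [Fintype F] {q : ℕ} (hF : Fintype.card F = q) (n : ℕ) (hn : 1 ≤ n) : ∃ g : Matrix.ProjGenLinGroup (Fin n) F →* Multiplicative (ZMod (Nat.gcd n (q - 1))), Function.Surjective g ∧ g.ker = (Matrix.ProjectiveSpecialLinearGroup.toPGL : Matrix.ProjectiveSpecialLinearGroup (Fin n) F →* Matrix.ProjGenLinGroup (Fin n) F).range := by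
  have : Nonempty (Fin n) := ⟨⟨0, hn⟩⟩
  let R := (powMonoidHom n : Fˣ →* Fˣ).range
  let d : ProjGenLinGroup (Fin n) F →* Fˣ ⧸ R := QuotientGroup.lift _ ((QuotientGroup.mk' R).comp GeneralLinearGroup.det)
    fun g h => by
      obtain ⟨u, rfl⟩ := GeneralLinearGroup.center_eq_range_scalar.le h
      exact (QuotientGroup.eq_one_iff _).2 ⟨u, by simp⟩
  have s : Function.Surjective d := QuotientGroup.lift_surjective_of_surjective _ _
    ((QuotientGroup.mk'_surjective R).comp (GeneralLinearGroup.det_surjective (n := Fin n)) :) _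
  have c : Nat.card (Fˣ ⧸ R) = Nat.gcd n (q - 1) := by
    have := IsCyclic.index_powMonoidHom_range Fˣ n
    rwa [Nat.card_units, Nat.card_eq_fintype_card (α := F), hF, Nat.gcd_comm] at this
  have := isCyclic_of_surjective _ (QuotientGroup.mk'_surjective R)
  let e := (c ▸ zmodCyclicMulEquiv this).symm
  refine ⟨e.toMonoidHom.comp d, e.surjective.comp s, Subgroup.ext fun g => ?_⟩
  obtain ⟨g, rfl⟩ := ProjGenLinGroup.mk_surjective g
  refine (e.map_eq_one_iff.trans (QuotientGroup.eq_one_iff _)).trans ⟨fun ⟨u, h⟩ => ⟨QuotientGroup.mk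
    ⟨(u⁻¹ : Fˣ).1 • g.1, ?_⟩, ProjGenLinGroup.mk_eq_mk_iff.2 ⟨u, Units.ext ?_⟩⟩, fun ⟨x, h⟩ => ?_⟩
  · simpa [Units.ext_iff, inv_mul_eq_one₀] using h
  · simp [← smul_one_eq_diagonal]
    exact smul_inv_smul₀ u.ne_zero _
  · induction x using QuotientGroup.induction_on with | H x =>
    obtain ⟨u, rfl⟩ := ProjGenLinGroup.mk_eq_mk_iff.1 h
    exact ⟨u, by simp⟩

end Cfsg.Agent.S0307
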