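import Cfsg.Statements.S0310
import Cfsg.Agent.H6.BN

set_option autoImplicit false
open Cfsg

namespace Cfsg.Agent.S0310

/-- For a set `J` of distinguished generators, the subgroup generated by `B` and `J` is exactly the union of
the double cosets `B n B` with `n` in the subgroup generated by `J` (so `B W_J B` is a subgroup). -/
theorem result {G : Type*} [Group G] (P : Cfsg.BNPair G) {J : Set G}
    (hJ : J ⊆ P.S) (g : G) :
    g ∈ P.parabolic J ↔ ∃ n ∈ Subgroup.closure J, g ∈ DoubleCoset.doubleCoset n (P.B : Set G) P.B := by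
  rw [← CfsgH6.BN.image_preimage_S hJ, CfsgH6.BN.parabolic_eq_cellSub]
  constructor
  · rintro ⟨w, hw, hg⟩
    obtain ⟨n, hn, h1, rfl⟩ := CfsgH6.BN.exists_rep_of_mem_closure _ hw
    exact ⟨n, h1, CfsgH6.BN.cell_mk P hn ▸ hg⟩
  · rintro ⟨n, h1, hg⟩
    obtain ⟨hn, h2⟩ := CfsgH6.BN.mk_mem_closure _ h1
    exact ⟨_, h2, (CfsgH6.BN.cell_mk P hn).symm ▸ hg⟩

end Cfsg.Agent.S0310
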