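import Cfsg.Statements.S0316
import Cfsg.Agent.H6.BN

set_option autoImplicit false
open Cfsg

namespace Cfsg.Agent.S0316

/-- The map `J ↦ P_J` is a lattice isomorphism from the power set of the set of distinguished generators onto the
subgroups containing `B`. -/
theorem result {G : Type*} [Group G] (P : Cfsg.BNPair G) :
    ∃ e : Set P.S ≃o {M : Subgroup G // P.B ≤ M},
      ∀ J : Set P.S, ((e J : {M : Subgroup G // P.B ≤ M}) : Subgroup G) = P.parabolic (Subtype.val '' J) := by
  refine ⟨{ toFun := fun J => ⟨CfsgH6.BN.cellSub P J, CfsgH6.BN.B_le_cellSub J⟩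
            invFun := fun M => {s : P.S | (s : G) ∈ M.1}
            left_inv := fun J => ?_
            right_inv := fun M => ?_
            map_rel_iff' := ?_ }, fun J => (CfsgH6.BN.parabolic_eq_cellSub J).symm⟩
  · ext s; exact CfsgH6.BN.s_mem_cellSub_iff
  · exact Subtype.ext (CfsgH6.BN.eq_cellSub_of_B_le M.2).symm
  · intro J K
    constructor
    · intro h s hs
      exact CfsgH6.BN.s_mem_cellSub_iff.1 (h (CfsgH6.BN.s_mem_cellSub_iff.2 hs))
    · rintro h g ⟨w, hw, hg⟩
      exact ⟨w, Subgroup.closure_mono (Set.image_mono h) hw, hg⟩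

end Cfsg.Agent.S0316
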