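import Cfsg.Statements.S0320
import Cfsg.Agent.H6.BN

set_option autoImplicit false
open Cfsg

namespace Cfsg.Agent.S0320

/-- The Weyl group `W = N / (B ⊓ N)` of a (B,N)-pair, with its distinguished involutions, is a Coxeter system. -/
theorem result {G : Type*} [Group G] (P : Cfsg.BNPair G)
    [hN : ((P.B ⊓ P.N).subgroupOf P.N).Normal] :
    ∃ (M : CoxeterMatrix P.S) (cs : CoxeterSystem M (P.N ⧸ (P.B ⊓ P.N).subgroupOf P.N)),
      ∀ s : P.S, cs.simple s = QuotientGroup.mk (⟨(s : G), P.subset s.2⟩ : P.N) := by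
  let M : CoxeterMatrix P.S :=
    { M := Matrix.of fun i j => orderOf (CfsgH6.BN.σ P i * CfsgH6.BN.σ P j)
      isSymm := by
        ext i j
        simp only [Matrix.transpose_apply, Matrix.of_apply]
        rw [← orderOf_inv]
        simp [CfsgH6.BN.σ_inv]
      diagonal := fun i => by simp [CfsgH6.BN.σ_sq]
      off_diagonal := fun i j hij h => by
        apply hij
        apply CfsgH6.BN.σ_inj P
        have h1 : CfsgH6.BN.σ P i * CfsgH6.BN.σ P j = 1 := orderOf_eq_one_iff.1 h
        rw [← CfsgH6.BN.σ_inv P i]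
        exact inv_eq_of_mul_eq_one_right h1 }
  obtain ⟨cs, hcs⟩ := CfsgH6.exists_coxeterSystem_of_deletion (CfsgH6.BN.σ P) M (fun _ _ => rfl)
    (CfsgH6.BN.deletion P) (CfsgH6.BN.closure_σ P)
  exact ⟨M, cs, hcs⟩

end Cfsg.Agent.S0320
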