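import Cfsg.Statements.S0321
import Cfsg.Agent.H6.BN

set_option autoImplicit false
open Cfsg

namespace Cfsg.Agent.S0321

/-- For `n ∈ N` not in `B`, the union `B ∪ B n B` is (the underlying set of) a subgroup exactly when `n` agrees
modulo `B ⊓ N` with one of the distinguished representatives; thus the distinguished involutions are
determined by `B` and `N`. -/
theorem result {G : Type*} [Group G] (P : Cfsg.BNPair G) {n : G}
    (hn : n ∈ P.N) (hnB : n ∉ P.B) :
    (∃ H : Subgroup G, (H : Set G) = (P.B : Set G) ∪ DoubleCoset.doubleCoset n (P.B : Set G) P.B) ↔ ∃ s ∈ P.S, s⁻¹ * n ∈ P.B := by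
  rw [← CfsgH6.BN.cell_mk P hn]
  constructor
  · rintro ⟨H, hH⟩
    have hB : P.B ≤ H := fun b hb => by
      rw [← SetLike.mem_coe, hH]; exact Or.inl hb
    have hnH : n ∈ H := by
      rw [← SetLike.mem_coe, hH]; exact Or.inr (CfsgH6.BN.self_mem_cell P hn)
    obtain ⟨l, hl, he⟩ := CfsgH6.BN.exists_reduced (CfsgH6.BN.mk P n hn)
    have h1 := CfsgH6.BN.letters_mem hB l hn he hl fun b hb =>
      H.mul_mem (H.mul_mem hnH (hB hb)) (H.inv_mem hnH)
    cases l with
    | nil => exact absurd ((CfsgH6.BN.mk_eq_one_iff P hn).1 he.symm) hnB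
    | cons s l =>
      have h2 := h1 s (by simp)
      rw [← SetLike.mem_coe, hH] at h2
      rcases h2 with h2 | h2
      · exact absurd h2 (CfsgH6.BN.not_mem_B P s)
      · exact ⟨s, s.2, (CfsgH6.BN.mk_eq_iff P _ _).1
          (CfsgH6.BN.eq_of_mem_cell (CfsgH6.BN.s_mem_cell s) h2)⟩
  · rintro ⟨s, hs, h⟩
    have e : CfsgH6.BN.mk P n hn = CfsgH6.BN.σ P ⟨s, hs⟩ := ((CfsgH6.BN.mk_eq_iff P _ _).2 h).symm
    rw [e]
    refine ⟨{ carrier := (P.B : Set G) ∪ CfsgH6.BN.cell P (CfsgH6.BN.σ P ⟨s, hs⟩)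
              one_mem' := Or.inl P.B.one_mem
              mul_mem' := ?_
              inv_mem' := ?_ }, rfl⟩
    · rintro a b (ha | ha) (hb | hb)
      · exact Or.inl (P.B.mul_mem ha hb)
      · exact Or.inr (CfsgH6.BN.B_mul_mem_cell ha hb)
      · exact Or.inr (CfsgH6.BN.mul_B_mem_cell ha hb)
      · rcases CfsgH6.BN.σ_mul_mem ha hb with h | h
        · rw [CfsgH6.BN.σ_sq, CfsgH6.BN.mem_cell_one] at h
          exact Or.inl h
        · exact Or.inr h
    · rintro a (ha | ha)
      · exact Or.inl (P.B.inv_mem ha)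
      · have := CfsgH6.BN.inv_mem_cell ha
        rw [CfsgH6.BN.σ_inv] at this
        exact Or.inr this

end Cfsg.Agent.S0321
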