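import Cfsg.Statements.S0322
import Cfsg.Agent.H6.BNSimple

set_option autoImplicit false
open Cfsg

namespace Cfsg.Agent.S0322

/-- A group with a (B,N)-pair of rank one acts doubly transitively on the left cosets of `B`. -/
theorem result {G : Type*} [Group G] (P : Cfsg.BNPair G) (h : P.rank = 1) : MulAction.IsMultiplyPretransitive G (G ⧸ P.B) 2 := by
  exact CfsgH6.BN.rank_one_two_transitive h

end Cfsg.Agent.S0322
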