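import Cfsg.Statements.S0323

set_option autoImplicit false
open scoped Pointwise
open Cfsg

namespace Cfsg.Agent.S0323

/-- A doubly transitive action on a set with at least three points yields a (B,N)-pair of rank one:
`B` is the stabiliser of a point `x`, `N` the setwise stabiliser of a pair `{x, y}`. -/
theorem result {G Ω : Type*} [Group G] [MulAction G Ω]
    (h2 : MulAction.IsMultiplyPretransitive G Ω 2) {x y z : Ω} (hxy : x ≠ y) (hyz : y ≠ z) (hxz : x ≠ z) :
    ∃ P : Cfsg.BNPair G, P.B = MulAction.stabilizer G x ∧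
      P.N = MulAction.stabilizer G ({x, y} : Set Ω) ∧ P.rank = 1 := by
  rw [MulAction.is_two_pretransitive_iff] at h2
  obtain ⟨s, hsx, hsy⟩ := h2 hxy hxy.symm
  have hN : ∀ g : G, g ∈ MulAction.stabilizer G ({x, y} : Set Ω) ↔
      (g • x = x ∧ g • y = y) ∨ (g • x = y ∧ g • y = x) := by
    intro g
    rw [MulAction.mem_stabilizer_iff, Set.smul_set_insert, Set.smul_set_singleton, Set.pair_eq_pair_iff]
  have hsN : s ∈ MulAction.stabilizer G ({x, y} : Set Ω) := (hN s).2 (Or.inr ⟨hsx, hsy⟩)
  have hcell : ∀ n g : G, n • x ≠ x → g • x ≠ x → g ∈ DoubleCoset.doubleCoset n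
      (MulAction.stabilizer G x : Set G) (MulAction.stabilizer G x) := by
    intro n g hn hg
    obtain ⟨b, hb1, hb2⟩ := h2 hn.symm hg.symm
    rw [DoubleCoset.mem_doubleCoset]
    refine ⟨b, hb1, n⁻¹ * b⁻¹ * g, ?_, by group⟩
    change (n⁻¹ * b⁻¹ * g) • x = x
    rw [mul_smul, mul_smul, ← hb2, inv_smul_smul, inv_smul_smul]
  have hcell1 : ∀ n g : G, n • x = x → g • x = x → g ∈ DoubleCoset.doubleCoset n
      (MulAction.stabilizer G x : Set G) (MulAction.stabilizer G x) := by
    intro n g hn hg
    rw [DoubleCoset.mem_doubleCoset]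
    refine ⟨1, Subgroup.one_mem _, n⁻¹ * g, ?_, by group⟩
    change (n⁻¹ * g) • x = x
    rw [mul_smul, hg, inv_smul_eq_iff, hn]
  refine ⟨{ B := MulAction.stabilizer G x
            N := MulAction.stabilizer G ({x, y} : Set Ω)
            S := {s}
            sup_eq_top := ?_
            conj_mem := ?_
            subset := by simpa using hsN
            sq_mem := ?_
            inj := by simp
            closure_sup := ?_
            mul_mem_union := ?_
            conj_ne := ?_ }, rfl, rfl, by simp [BNPair.rank]⟩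
  · rw [eq_top_iff]
    intro g _
    by_cases hg : g • x = x
    · exact Subgroup.mem_sup_left hg
    · obtain ⟨a, ha, b, hb, rfl⟩ := DoubleCoset.mem_doubleCoset.1 (hcell s g (by rw [hsx]; exact hxy.symm) hg)
      exact Subgroup.mul_mem _ (Subgroup.mul_mem _ (Subgroup.mem_sup_left ha) (Subgroup.mem_sup_right hsN))
        (Subgroup.mem_sup_left hb)
  · rintro n hn t ⟨ht1, ht2⟩
    have ht1' : t • x = x := ht1
    have hty : t • y = y := by
      rcases (hN t).1 ht2 with h | h
      · exact h.2
      · exact absurd (ht1'.symm.trans h.1) hxy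
    change (n * t * n⁻¹) • x = x
    rcases (hN n).1 hn with h | h
    · rw [mul_smul, mul_smul, inv_smul_eq_iff.2 h.1.symm, ht1', h.1]
    · rw [mul_smul, mul_smul, inv_smul_eq_iff.2 h.2.symm, hty, h.2]
  · rintro _ rfl
    change (_ * _) • x = x
    rw [mul_smul, hsx, hsy]
  · apply le_antisymm
    · exact sup_le (by simpa using hsN) inf_le_right
    · intro n hn
      rcases (hN n).1 hn with h | h
      · exact Subgroup.mem_sup_right ⟨h.1, hn⟩
      · have : n = s * (s⁻¹ * n) := by group
        rw [this]
        refine Subgroup.mul_mem _ (Subgroup.mem_sup_left (Subgroup.subset_closure rfl))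
          (Subgroup.mem_sup_right ⟨?_, Subgroup.mul_mem _ (Subgroup.inv_mem _ hsN) hn⟩)
        change (s⁻¹ * n) • x = x
        rw [mul_smul, h.1, inv_smul_eq_iff, hsx]
  · intro s' hs' n hn b hb
    rw [Set.mem_singleton_iff.1 hs']
    have hb' : b • x = x := hb
    rcases (hN n).1 hn with h | h
    · left
      apply hcell
      · rw [mul_smul, h.1, hsx]; exact hxy.symm
      · rw [mul_smul, mul_smul, h.1, hb', hsx]; exact hxy.symm
    · by_cases h3 : (s * b * n) • x = x
      · left
        exact hcell1 _ _ (by rw [mul_smul, h.1, hsy]) h3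
      · right
        exact hcell _ _ (by rw [h.1]; exact hxy.symm) h3
  · intro s' hs' h
    rw [Set.mem_singleton_iff.1 hs'] at h
    obtain ⟨b, hb1, hb2⟩ := h2 hxy hxz
    have : s * b * s ∈ (MulAction.stabilizer G x : Set G) := h ▸ ⟨b, hb1, rfl⟩
    have h3 : (s * b * s) • x = x := this
    rw [mul_smul, mul_smul, hsx, hb2, ← hsy] at h3
    exact hyz (MulAction.injective s h3).symm

end Cfsg.Agent.S0323
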