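import Cfsg.Statements.S0326
import Mathlib
import Cfsg.Agent.H9.Card

set_option autoImplicit false
open Cfsg

namespace Cfsg.Agent.S0326

/-- The Suzuki–Tits ovoid over a finite field with `q` elements has `q² + 1` points. -/
theorem result {F : Type*} [Field F] [Fintype F] (m : ℕ) :
    Nat.card (Cfsg.suzukiOvoid F m) = Fintype.card F ^ 2 + 1 := by
  open Subgroup CfsgH9 in
  classical
  let f : F × F → Projectivization F (Fin 4 → F) := fun a => Projectivization.mk F
    ![a.1 * a.2 + a.1 ^ (2 ^ (m + 1) + 2) + a.2 ^ (2 ^ (m + 1)), a.2, a.1, 1] fun h => by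
      simpa using congrFun h 3
  let p : Projectivization F (Fin 4 → F) := Projectivization.mk F ![1, 0, 0, 0] fun h => by
    simpa using congrFun h 0
  have e : Cfsg.suzukiOvoid F m = insert p (Set.range f) := by
    ext q
    constructor
    · rintro ⟨v, hv, rfl, rfl | ⟨x, y, rfl⟩⟩
      exacts [.inl rfl, .inr ⟨(x, y), rfl⟩]
    · rintro (rfl | ⟨a, rfl⟩)
      exacts [⟨_, _, rfl, .inl rfl⟩, ⟨_, _, rfl, .inr ⟨a.1, a.2, rfl⟩⟩]
  have hi : Function.Injective f := fun a b h => by
    obtain ⟨c, hc⟩ := (Projectivization.mk_eq_mk_iff' F _ _ _ _).1 h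
    have h3 := congrFun hc 3
    have h2 := congrFun hc 2
    have h1 := congrFun hc 1
    simp at h1 h2 h3
    rw [h3, one_mul] at h1 h2
    exact Prod.ext h2.symm h1.symm
  have hp : p ∉ Set.range f := by
    rintro ⟨a, h⟩
    obtain ⟨c, hc⟩ := (Projectivization.mk_eq_mk_iff' F _ _ _ _).1 h
    simpa using congrFun hc 3
  rw [e, Nat.card_coe_set_eq, Set.ncard_insert_of_notMem hp (Set.finite_range f),
    ← Set.image_univ, Set.ncard_image_of_injective _ hi, Set.ncard_univ, Nat.card_prod,
    Nat.card_eq_fintype_card, sq]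

end Cfsg.Agent.S0326
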