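import Mathlib
import Cfsg.Statements.S0330
import Cfsg.Agent.H8.Sz3

set_option autoImplicit false
open Cfsg

namespace Cfsg.Agent.S0330


/-- A Sylow 2-subgroup `P` of the Suzuki group (field with `q = 2^(2m+1)` elements, `m ≥ 1`) has order `q²` and
exponent `4`; its centre coincides with its commutator subgroup and has order `q`. -/
theorem result {F : Type*} [Field F] [Fintype F] {m : ℕ} (hm : 1 ≤ m)
    (hF : Fintype.card F = 2 ^ (2 * m + 1)) (P : Sylow 2 (Cfsg.Sz F m)) :
    Nat.card P = (2 ^ (2 * m + 1)) ^ 2 ∧ Monoid.exponent P = 4 ∧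
      Subgroup.center P = commutator P ∧ Nat.card (Subgroup.center P) = 2 ^ (2 * m + 1) := by
  haveI : CfsgH8.SzG.SzF F m := ⟨hm, hF⟩
  let e : P ≃* CfsgH8.SzG.U F m := Sylow.equiv P (CfsgH8.SzG.sylU F m)
  have hc : Subgroup.center P = (Subgroup.center (CfsgH8.SzG.U F m)).map e.symm.toMonoidHom := by
    ext x
    rw [Subgroup.mem_map_equiv]
    exact (MulEquivClass.apply_mem_center_iff e).symm
  refine ⟨?_, ?_, ?_, ?_⟩
  · rw [← hF, ← CfsgH8.SzG.card_U (m := m)]; exact Nat.card_congr e.toEquiv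
  · exact (Monoid.exponent_eq_of_mulEquiv e).trans CfsgH8.SzG.exponent_U
  · rw [hc, CfsgH8.SzG.center_U_eq, map_commutator_eq,
      MonoidHom.range_eq_top.2 e.symm.surjective, commutator_def]
  · rw [hc, Subgroup.card_map_of_injective e.symm.injective, CfsgH8.SzG.card_center_U, hF]

end Cfsg.Agent.S0330
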