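import Mathlib
import Cfsg.Statements.S0332
import Cfsg.Agent.H8.Sz7

set_option autoImplicit false
open Cfsg

namespace Cfsg.Agent.S0332

open CfsgH8.SzG

/-- The Suzuki group is a CN-group: every non-identity element has nilpotent centraliser. -/
theorem result {F : Type*} [Field F] [Fintype F] {m : ℕ} (hm : 1 ≤ m)
    (hF : Fintype.card F = 2 ^ (2 * m + 1)) : Cfsg.IsCNGroup (Cfsg.Sz F m) := by
  haveI : CfsgH8.SzG.SzF F m := ⟨hm, hF⟩
  intro g hg
  rcases cent_cases hg with ⟨k, hk⟩ | h1
  · exact ((U_pgroup.map _).to_le hk).isNilpotent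
  · haveI := h1.isCyclic
    letI := IsCyclic.commGroup (α := Subgroup.centralizer ({g} : Set (Cfsg.Sz F m)))
    exact CommGroup.isNilpotent

end Cfsg.Agent.S0332
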