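import Mathlib
import Cfsg.Statements.S0335
import Cfsg.Agent.H8.Sz3

set_option autoImplicit false
open Cfsg

namespace Cfsg.Agent.S0335

open CfsgH8.SzG Matrix

/-- The Suzuki–Tits point set is an ovoid: any three distinct points of it are projectively independent
(no line of projective 3-space meets it in more than two points). -/
theorem result {F : Type*} [Field F] [Fintype F] {m : ℕ} (hm : 1 ≤ m)
    (hF : Fintype.card F = 2 ^ (2 * m + 1)) (p : Fin 3 ↪ Cfsg.suzukiOvoid F m) :
    Projectivization.Independent (fun i => (p i : Projectivization F (Fin 4 → F))) := by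
  haveI : CfsgH8.SzG.SzF F m := ⟨hm, hF⟩
  obtain ⟨g, h0, h1⟩ := exists_smul_pair (p := p 0) (r := p 1) (p.injective.ne (by decide))
  obtain ⟨o, ho⟩ := op_surj (g⁻¹ • p 2)
  have h2 : g • op m o = p 2 := by rw [ho, smul_inv_smul]
  rcases o with _ | ⟨x, y⟩
  · exact absurd (p.injective (h0.symm.trans h2)) (by decide)
  have hxy : ¬ (x = 0 ∧ y = 0) := by
    rintro ⟨rfl, rfl⟩
    exact absurd (p.injective (h1.symm.trans h2)) (by decide)
  let o : Fin 3 → Option (F × F) := ![none, some (0, 0), some (x, y)]
  have hli : LinearIndependent F fun i => CfsgH8.SzG.vec m (o i) := by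
    rw [Fintype.linearIndependent_iff]
    intro c hc
    have e0 := congrFun hc 0
    have e1 := congrFun hc 1
    have e2 := congrFun hc 2
    have e3 := congrFun hc 3
    simp [o, CfsgH8.SzG.vec, Fin.sum_univ_three] at e0 e1 e2 e3
    have c2 : c 2 = 0 := by tauto
    simp [c2] at e0 e3
    intro i
    fin_cases i <;> simp [*]
  have hli2 : LinearIndependent F fun i => g.1.1 *ᵥ CfsgH8.SzG.vec m (o i) :=
    hli.map' (Matrix.SpecialLinearGroup.toLin' g.1).toLinearMap (LinearEquiv.ker _)
  have := Projectivization.Independent.mk _ (fun i => mulVec_ne g (o i)) hli2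
  convert this using 2 with i
  have : p i = g • op m (o i) := by
    fin_cases i
    · exact h0.symm
    · exact h1.symm
    · exact h2.symm
  rw [this]
  rfl

end Cfsg.Agent.S0335
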