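import Mathlib
import Cfsg.Statements.S0338
import Cfsg.Agent.H8.Za2

set_option autoImplicit false
open Cfsg

namespace Cfsg.Agent.S0338

open CfsgH8.Za

/-- A Zassenhaus group of odd degree is a simple group. -/
theorem result {G Ω : Type*} [Group G] [MulAction G Ω] [Fintype Ω]
    (hZ : Cfsg.IsZassenhausGroup G Ω) (hodd : Odd (Fintype.card Ω)) : IsSimpleGroup G := by
  haveI := (ZT.of hZ).finite
  obtain ⟨a, b, hab⟩ := exists_pair hZ
  obtain ⟨K, h⟩ := (ZT.of hZ).exists_K hab
  refine simple_of_odd hZ h ?_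
  rw [← Nat.card_eq_fintype_card, h.card_Ω', Nat.odd_add_one] at hodd
  exact Nat.not_odd_iff_even.1 hodd

end Cfsg.Agent.S0338
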