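import Mathlib
import Cfsg.Statements.S0340
import Cfsg.Agent.H8.Za13

set_option autoImplicit false
open Cfsg

namespace Cfsg.Agent.S0340

open CfsgH8 CfsgH8.Za CfsgH2 CfsgH1 Subgroup MulAction

/-- Classification of Zassenhaus groups, simple case, order-level form: a finite simple Zassenhaus group is
isomorphic to `PSL₂(F)` for some finite field `F` or is simple of Suzuki order. -/
theorem result {G Ω : Type*} [Group G] [Finite G] [MulAction G Ω]
    [Finite Ω] (hZ : Cfsg.IsZassenhausGroup G Ω) [IsSimpleGroup G] :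
    (∃ (F : Type) (_ : Field F) (_ : Fintype F), Nonempty (G ≃* Matrix.ProjectiveSpecialLinearGroup (Fin 2) F)) ∨ Cfsg.IsSuzuki G := by
  obtain ⟨a, b, hab⟩ := exists_pair hZ
  obtain ⟨K, h⟩ := (ZT.of hZ).exists_K hab
  rcases feit hZ h with hd | ⟨h1, h2, -⟩
  swap
  · exact Or.inr (isSuzuki hZ h h1 h2)
  obtain ⟨F, _, _, hF⟩ := exists_field_card (isPrimePow_K hZ h)
  refine Or.inl ⟨F, inferInstance, inferInstance, ?_⟩
  rcases h.card_cases (HH_ne hZ hab) hd with e | e
  · rcases Nat.even_or_odd (Nat.card K) with he | ho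
    · obtain ⟨e1⟩ := h.iso_even e he F hF
      obtain ⟨e2⟩ := psl_pgl (hF ▸ he)
      exact ⟨e1.trans e2⟩
    · obtain ⟨z, hz⟩ := h.e3 e (e ▸ Nat.Odd.sub_odd ho odd_one)
      exact (hz.not_simple inferInstance).elim
  · exact psl_of_half hZ h e F hF

end Cfsg.Agent.S0340
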