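import Mathlib
import Cfsg.Statements.S0341
import Cfsg.Agent.H8.Za2
import Cfsg.Agent.H3.Wiel

set_option autoImplicit false
open Cfsg

namespace Cfsg.Agent.S0341

open CfsgH8 CfsgH8.Za CfsgH2 CfsgH1 Subgroup MulAction

/-- If a finite group acts faithfully and doubly transitively, no non-identity element fixes three points, some
non-identity element fixes two points, and some normal subgroup acts regularly, then the number of points
is `2^p` with `p` prime. -/
theorem result {G Ω : Type*} [Group G]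
    [MulAction G Ω] [Fintype Ω] [FaithfulSMul G Ω] (h2 : MulAction.IsMultiplyPretransitive G Ω 2)
    (h3 : ∀ g : G, ∀ a b c : Ω, a ≠ b → b ≠ c → a ≠ c → g • a = a → g • b = b → g • c = c → g = 1)
    (hfix : ∃ g : G, g ≠ 1 ∧ ∃ a b : Ω, a ≠ b ∧ g • a = a ∧ g • b = b)
    (N : Subgroup G) [N.Normal] (hNt : MulAction.IsPretransitive N Ω)
    (hNr : ∀ a : Ω, MulAction.stabilizer N a = ⊥) :
    ∃ p : ℕ, p.Prime ∧ Fintype.card Ω = 2 ^ p := by
  have hZ : ZT G Ω := ⟨fun g hg => eq_of_smul_eq_smul (α := Ω) fun x => by rw [hg x, one_smul],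
    fun _ _ _ _ h1 h3 => is_two_pretransitive_iff.1 h2 h1 h3, h3⟩
  haveI := hZ.finite
  obtain ⟨g, g1, a, b, hab, ga, gb⟩ := hfix
  obtain ⟨K, h⟩ := hZ.exists_K hab
  have h0 : HH G a b ≠ ⊥ := fun e => g1 (by rw [← mem_bot, ← e]; exact ⟨ga, gb⟩)
  have R : RN Ω N := ⟨inferInstance, fun x y => by
    obtain ⟨m, hm⟩ := hNt.exists_smul_eq x y
    exact ⟨m, m.2, hm⟩, fun m hm x e => by
      have : (⟨m, hm⟩ : N) ∈ stabilizer N x := e
      rw [hNr, mem_bot] at this
      exact congrArg Subtype.val this⟩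
  have inj : ∀ m ∈ N, ∀ n ∈ N, m • a = n • a → m = n := fun m hm n hn e =>
    (inv_mul_eq_one.1 (R.fr _ (mul_mem (inv_mem hn) hm) a (by rw [mul_smul, e, inv_smul_smul]))).symm
  obtain ⟨m, hm, mb⟩ := R.tr a b
  have m1 : m ≠ 1 := by rintro rfl; exact hab (by rwa [one_smul] at mb)
  have cent : ∀ x ∈ HH G a b, x ≠ 1 → ∀ n, n ∈ N ⊓ C1[x] ↔ n = 1 ∨ n = m := fun x hx x1 n => by
    constructor
    · intro hn
      have e : n * x = x * n := mem_centralizer_singleton_iff.1 hn.2
      rcases hZ.fix_H hab hx x1 (c := n • a) (by rw [← mul_smul, ← e, mul_smul, hx.1]) with e | e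
      · exact Or.inl (R.fr n hn.1 a e)
      · exact Or.inr (inj n hn.1 m hm (e.trans mb.symm))
    · rintro (rfl | rfl)
      · exact one_mem _
      · refine ⟨hm, mem_centralizer_singleton_iff.2 (eq_mul_inv_iff_mul_eq.1 (inj _ hm _
          (R.normal.conj_mem n hm x) ?_))⟩
        rw [mul_smul, mul_smul, show x⁻¹ • a = a from (inv_mem hx).1, mb, hx.2]
  have c2 : ∀ x ∈ HH G a b, x ≠ 1 → o[N ⊓ C1[x]] = 2 := fun x hx x1 => by
    rw [← SetLike.coe_sort_coe, Nat.card_coe_set_eq, show ((N ⊓ C1[x] : Subgroup G) : Set G) = {1, m} from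
      Set.ext (cent x hx x1), Set.ncard_pair m1.symm]
  have mm : m ^ 2 = 1 := by
    rw [← c2 g ⟨ga, gb⟩ g1]
    exact orderOf_dvd_iff_pow_eq_one.1 (orderOf_dvd_of_mem ((cent g ⟨ga, gb⟩ g1 m).2 (Or.inr rfl)))
  have ex : ∀ n ∈ N, n ^ 2 = 1 := fun n hn => by
    by_cases e : n • a = a
    · rw [R.fr n hn a e, one_pow]
    obtain ⟨k, hk, e⟩ := h.tr _ e
    rw [inj n hn _ (R.normal.conj_mem m hm k) (by
      rw [mul_smul, mul_smul, h.le _ (inv_mem hk), mb, e]), conj_pow, mm, mul_one, mul_inv_cancel]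
  have inv : ∀ n ∈ N, n⁻¹ = n := fun n hn => inv_eq_of_mul_eq_one_left (by rw [← pow_two, ex n hn])
  have cm : ∀ x ∈ N, ∀ y ∈ N, x * y = y * x := fun x hx y hy => by
    rw [← inv _ (mul_mem hx hy), mul_inv_rev, inv x hx, inv y hy]
  have cN : o[N] = o[K] + 1 := by rw [R.card a, h.card_Ω']
  rw [← Nat.card_eq_fintype_card, ← R.card a]
  obtain ⟨p, hp, hd⟩ := Nat.exists_prime_and_dvd (fun e => h0 (card_eq_one.1 e))
  obtain ⟨x, hx, ox⟩ := exists_prime_order_mem hp hd
  have x1 : x ≠ 1 := by rintro rfl; rw [orderOf_one] at ox; exact hp.one_lt.ne ox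
  haveI := Fact.mk Nat.prime_two
  obtain ⟨j, hj⟩ := exists_card_eq_pow (isPGroup_of_exp ex)
  have lt := (h.frob h0).card_lt
  have l2 := Nat.le_of_dvd (card_pos' _) hd
  have l3 := hp.two_le
  by_cases p2 : p = 2
  · subst p2
    have xx : x * x = 1 := by rw [← pow_two, ← ox, pow_orderOf_eq_one]
    have := relIndex_cent1_le (H := N) (K := N ⊓ C1[x]) (a := x) fun n hn => by
      have h1 := R.normal.conj_mem _ (inv_mem hn) x
      refine ⟨by rw [commutatorElement_def, mul_assoc, mul_assoc, ← mul_assoc x]; exact mul_mem hn h1,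
        mem_centralizer_singleton_iff.2 ?_⟩
      have h2 := cm _ hn _ h1
      rw [inv n hn] at h2
      rw [commutatorElement_def, inv n hn]
      calc n * x * n * x⁻¹ * x = n * (x * n * x⁻¹) * x := by group
        _ = x * n * (x * x)⁻¹ * x * n * (x * x) * x⁻¹ := by rw [h2]; group
        _ = _ := by rw [xx]; group
    have e := CfsgH2.card_inf_mul_relIndex C1[x] N
    rw [inf_comm, c2 x hx x1] at e
    rw [c2 x hx x1] at this
    exact ⟨2, hp, by omega⟩
  · have j0 : j ≠ 0 := by rintro rfl; omega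
    have oK : Odd o[K] := by
      have : Even (o[K] + 1) := by rw [← cN, hj]; exact Nat.even_pow.2 ⟨even_two, j0⟩
      exact Nat.not_even_iff_odd.1 (Nat.even_add_one.1 this)
    have F := (h.frob h0).mono le_rfl (zpowers_le.2 hx)
      ((zpowers_le.2 hx).trans (h.frob h0).norm) (h.ker_ne h0) (zpowers_ne_bot.2 x1)
    have := CfsgH3.wielandt_of_cent_eq_bot F (H := N) (le_top.trans (top_le_norm_iff.2 R.normal))
      (Group.isSolvable_of_comm fun x y => Subtype.ext (cm _ x.2 _ y.2)) (by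
        rw [F.card, hj, Nat.card_zpowers, ox]
        exact (Nat.coprime_two_right.2 (oK.mul (hp.odd_of_ne_two p2))).pow_right _)
      (eq_bot_iff.2 fun n hn => by
        obtain ⟨⟨k, hk⟩, k1⟩ := ne_bot_iff_exists_ne_one.1 (h.ker_ne h0)
        exact R.fr n hn.1 a (h.le n (h.cent_le hk (fun e => k1 (Subtype.ext e)) (cent_le_cent1 hk hn.2))))
    rw [cent_zpowers, c2 x hx x1, Nat.card_zpowers, ox] at this
    exact ⟨p, hp, this⟩

end Cfsg.Agent.S0341
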