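import Mathlib
import Cfsg.Statements.S0345
import Cfsg.Agent.H8.Za13

set_option autoImplicit false
open Cfsg

namespace Cfsg.Agent.S0345

open CfsgH8 CfsgH8.Za CfsgH2 CfsgH1 Subgroup MulAction

/-- In a finite simple Zassenhaus group the stabiliser `H` of two points `a ≠ b` is cyclic, and some involution
interchanging `a` and `b` inverts every element of `H`. -/
theorem result {G Ω : Type*} [Group G] [Finite G] [MulAction G Ω] [Finite Ω]
    (hZ : Cfsg.IsZassenhausGroup G Ω) [IsSimpleGroup G]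
    {a b : Ω} (hab : a ≠ b) :
    IsCyclic ↥(MulAction.stabilizer G a ⊓ MulAction.stabilizer G b) ∧
      ∃ v : G, orderOf v = 2 ∧ v • a = b ∧ v • b = a ∧ ∀ h ∈ MulAction.stabilizer G a ⊓ MulAction.stabilizer G b, v * h * v⁻¹ = h⁻¹ := by
  obtain ⟨K, h⟩ := (ZT.of hZ).exists_K hab
  obtain ⟨w, ww, w1, w2, hi⟩ : ∃ w : G, w * w = 1 ∧ w • a = b ∧ w • b = a ∧
      ∀ x ∈ HH G a b, w * x * w⁻¹ = x⁻¹ := by
    rcases Nat.even_or_odd (Nat.card (HH G a b)) with he | ho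
    · obtain ⟨w, ww, w1, w2⟩ := h.toZT.exists_swap hab
      exact ⟨w, ww, w1, w2, inv_of_sq_all w1 w2 fun v => h.sq_swap he (h.half_of_simple he).le⟩
    · obtain ⟨w, hw⟩ := h.exists_ZI (HH_ne hZ hab) ho
      exact ⟨w, hw.ww, hw.wa, hw.wb, hw.inv⟩
  refine ⟨h.cyc_of_comm ⟨⟨fun x y => Subtype.ext ?_⟩⟩, w,
    orderOf_eq_prime (by rw [sq, ww]) (by rintro rfl; exact hab (by simpa using w1)), w1, w2, hi⟩
  change x.1 * y = y * x
  rw [← inv_inj, ← hi _ (mul_mem x.2 y.2), ← conj_mul, hi x x.2, hi y y.2, mul_inv_rev]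

end Cfsg.Agent.S0345
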