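import Cfsg.Statements.S0358
import Mathlib
import Cfsg.Agent.H7.Gol.Tr

set_option autoImplicit false
open Cfsg

namespace Cfsg.Agent.S0358

open CfsgH7 CfsgH7.Gol

/-- The length-24 code built from the squares modulo 23 has dimension 12 over the field with two elements. -/
theorem result : Module.finrank (ZMod 2) Cfsg.golayCode = 12 := by
  have h1 : Nat.card Cfsg.golayCode = 4096 := by
    rw [← FC.ncard_univ, U, Cfsg.supports, Set.ncard_image_of_injective _ supp_inj]; rfl
  have h2 := Module.natCard_eq_pow_finrank (K := ZMod 2) (V := Cfsg.golayCode)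
  rw [h1, Nat.card_zmod] at h2
  exact (Nat.pow_right_injective (le_refl 2) (h2.symm.trans (by norm_num : 4096 = 2 ^ 12)))

end Cfsg.Agent.S0358
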