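import Cfsg.Statements.S0362
import Mathlib
import Cfsg.Agent.H7.Gol.Tr

set_option autoImplicit false
open Cfsg

namespace Cfsg.Agent.S0362

open CfsgH7 CfsgH7.Gol

/-- The length-24 code is self-orthogonal: the dot product over ZMod 2 of any two of its words vanishes (with dimension 12 this makes it self-dual). -/
theorem result (v w : Cfsg.GolayPt → ZMod 2) (hv : v ∈ Cfsg.golayCode) (hw : w ∈ Cfsg.golayCode) : ∑ i, v i * w i = 0 := by
  have h1 := card_symmDiff (Cfsg.support₂ v) (Cfsg.support₂ w)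
  have h2 := wt (supp_mem.2 hv)
  have h3 := wt (supp_mem.2 hw)
  have h4 := wt (U_xor (supp_mem.2 hv) (supp_mem.2 hw))
  have h5 : ∑ i, v i * w i = ((Cfsg.support₂ v ∩ Cfsg.support₂ w).card : ZMod 2) := by
    conv_lhs => rw [← ind_supp v, ← ind_supp w]
    simp [ind, Finset.sum_ite_mem, Finset.inter_comm]
  rw [h5, ZMod.natCast_eq_zero_iff]
  omega

end Cfsg.Agent.S0362
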