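import Cfsg.Statements.S0369
import Mathlib
import Cfsg.Agent.H7.Gol.Tr

set_option autoImplicit false
open Cfsg

namespace Cfsg.Agent.S0369

open CfsgH7 CfsgH7.Gol
open scoped Pointwise

/-- The group of the length-24 code coincides with the automorphism group of its octad system. -/
theorem result : Cfsg.M24 = Cfsg.setSystemAut Cfsg.octads := by
  ext x
  constructor
  · intro hx
    exact smul_set_eq_of fun y => smul_oct hx
  · intro hx
    have h : x • Cfsg.octads = Cfsg.octads := hx
    refine mem_M24_of (L := BS) (E := [1, 2, 4, 8, 16, 32, 64, 128, 256, 512, 1024, 2048])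
      (by decide +kernel) fun a ha => ?_
    have h1 : S a ∈ Cfsg.octads := oct_of (lall_iff.1 (by decide +kernel : lall isOct BS = true) a ha)
    have h2 : x • S a ∈ Cfsg.octads := by rw [← h]; exact Set.smul_mem_smul_set h1
    exact h2.1

end Cfsg.Agent.S0369
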