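import Cfsg.Statements.S0371
import Mathlib
import Cfsg.Agent.H7.Gol.Tr

set_option autoImplicit false
open Cfsg

namespace Cfsg.Agent.S0371

open CfsgH7 CfsgH7.Gol

/-- Multiplication by a nonzero square residue modulo 23, fixing the extra point, lies in the group of the length-24 code. -/
theorem result (u : (ZMod 23)ˣ) (hu : IsSquare u) : Equiv.optionCongr (Units.mulLeft u) ∈ Cfsg.M24 := by
  rw [mem_M24]
  intro s hs
  rw [mem_supports] at hs ⊢
  rw [ind_smul]
  generalize ind s = w at hs
  induction hs using Submodule.span_induction with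
  | mem w hw =>
    apply Submodule.subset_span
    rcases hw with ⟨t, rfl⟩ | rfl
    · refine Or.inl ⟨u * t, ?_⟩
      obtain ⟨r, rfl⟩ := hu
      funext p
      cases p with
      | none => rfl
      | some x =>
        show (if _ then _ else _) = (if ∃ s : ZMod 23, ((r * r)⁻¹ : (ZMod 23)ˣ) * x = s ^ 2 + t then _ else _)
        congr 1
        apply propext
        constructor
        · rintro ⟨s, rfl⟩
          refine ⟨(r⁻¹ : (ZMod 23)ˣ) * s, ?_⟩
          rw [mul_add, Units.inv_mul_cancel_left, mul_inv, Units.val_mul]; ring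
        · rintro ⟨s, h⟩
          refine ⟨r * s, ?_⟩
          rw [← Units.mul_inv_cancel_left (r * r) x, h, Units.val_mul]; ring
    · exact Or.inr rfl
  | zero => exact Cfsg.golayCode.zero_mem
  | add v w _ _ h1 h2 => exact Cfsg.golayCode.add_mem h1 h2
  | smul a w _ h1 => exact Cfsg.golayCode.smul_mem a h1

end Cfsg.Agent.S0371
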