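import Cfsg.Statements.S0374
import Mathlib
import Cfsg.Agent.H7.Gol.Tr

set_option autoImplicit false
open Cfsg

namespace Cfsg.Agent.S0374

open CfsgH7 CfsgH7.Gol

/-- The group of the length-24 code is generated by x ↦ x+1, x ↦ -1/x and the cube-twist permutation. -/
theorem result : Subgroup.closure {Equiv.optionCongr (Equiv.addRight (1 : ZMod 23)), Cfsg.projInv, Cfsg.cubeTwist} = Cfsg.M24 := by
  rw [← genP, genW]
  congr 1
  ext x
  simp [W24, wprod, letter, gp, eq_comm]

end Cfsg.Agent.S0374
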