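import Cfsg.Statements.S0380
import Cfsg.Agent.H1.L34b

set_option autoImplicit false
open Cfsg

namespace Cfsg.Agent.S0380

/-- A three-point stabiliser in the group of the length-24 code is isomorphic to PSL(3, F) for the field F with 4 elements. -/
theorem result (p q r : Cfsg.GolayPt) (hpq : p ≠ q) (hpr : p ≠ r) (hqr : q ≠ r) (F : Type) [Field F] [Fintype F] (hF : Fintype.card F = 4) : Nonempty (↥(MulAction.stabilizer Cfsg.M24 p ⊓ MulAction.stabilizer Cfsg.M24 q ⊓ MulAction.stabilizer Cfsg.M24 r) ≃* Matrix.ProjectiveSpecialLinearGroup (Fin 3) F) := by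
  open CfsgH1.Mg CfsgH1.Mc CfsgH1.Mh CfsgH1.Mi CfsgH1.L34 CfsgH7 CfsgH7.Gol MulAction in
  open scoped commutatorElement in
  · obtain ⟨c, rfl, rfl, rfl⟩ := pts3 hpq hpr hqr
    obtain ⟨e⟩ := iso hF
    exact ⟨(((Cj.stab c _).inf (Cj.stab c _)).inf (Cj.stab c _)).equiv.symm.trans e⟩

end Cfsg.Agent.S0380
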