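import Cfsg.Statements.S0381
import Mathlib
import Cfsg.Agent.H7.Gol.Tr

set_option autoImplicit false
open Cfsg

namespace Cfsg.Agent.S0381

open CfsgH7 CfsgH7.Gol
open scoped Pointwise

/-- The pointwise stabiliser of an octad in the group of the length-24 code has order 16 and every element of it squares to the identity. -/
theorem result (o : Finset Cfsg.GolayPt) (ho : o ∈ Cfsg.octads) : Nat.card ↥(Cfsg.M24 ⊓ fixingSubgroup (Equiv.Perm Cfsg.GolayPt) (o : Set Cfsg.GolayPt)) = 16 ∧ ∀ g ∈ Cfsg.M24 ⊓ fixingSubgroup (Equiv.Perm Cfsg.GolayPt) (o : Set Cfsg.GolayPt), g * g = 1 := by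
  obtain ⟨c, rfl⟩ := oct_tr ho
  have h : Cj c K18 (fixingSubgroup Cfsg.M24 ((c • S 0x82402f : Finset Cfsg.GolayPt) : Set Cfsg.GolayPt)) := by
    intro x
    rw [mem_K18, mem_fixingSubgroup_iff]
    constructor
    · intro h y hy
      obtain ⟨p, hp, rfl⟩ := Finset.mem_smul_finset.1 hy
      simp [mul_smul, h p hp]
    · intro h p hp
      simpa [mul_smul] using h (c • p) (Finset.smul_mem_smul_finset hp)
  constructor
  · rw [← card18, ← h.card]
    exact Nat.card_congr (downEquiv (L := Cfsg.M24 ⊓ fixingSubgroup (Equiv.Perm Cfsg.GolayPt) _) fun x => ⟨fun h => ⟨h.1, h.2⟩, fun ⟨h1, h2⟩ => ⟨h1, h2⟩⟩).symm.toEquiv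
  · intro g hg
    have := sq18 _ ((h.symm ⟨g, hg.1⟩).1 hg.2)
    have h2 : (⟨g, hg.1⟩ : Cfsg.M24) * ⟨g, hg.1⟩ = 1 := by
      calc _ = c * ((c⁻¹ * ⟨g, hg.1⟩ * c⁻¹⁻¹) * (c⁻¹ * ⟨g, hg.1⟩ * c⁻¹⁻¹)) * c⁻¹ := by group
        _ = 1 := by rw [this]; group
    exact congrArg Subtype.val h2

end Cfsg.Agent.S0381
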