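import Cfsg.Statements.S0384
import Mathlib
import Cfsg.Agent.H7.Gol.Tr

set_option autoImplicit false
open scoped Pointwise
open Cfsg

namespace Cfsg.Agent.S0384

open CfsgH7 CfsgH7.Gol
open scoped Pointwise

/-- A dodecad stabiliser is sharply 5-transitive on the dodecad. -/
theorem result (d : Finset Cfsg.GolayPt) (hd : d ∈ Cfsg.dodecads) (x y : Fin 5 ↪ Cfsg.GolayPt) (hx : ∀ i, x i ∈ d) (hy : ∀ i, y i ∈ d) : ∃! g : MulAction.stabilizer Cfsg.M24 d, ∀ i, ((g : Cfsg.M24) : Equiv.Perm Cfsg.GolayPt) (x i) = y i := by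
  obtain ⟨a, ha, e1⟩ := dpts td5 hd (List.ofFn x) (by simp) (List.nodup_ofFn.2 x.injective) (List.forall_mem_ofFn_iff.2 hx)
  obtain ⟨b, hb, e2⟩ := dpts td5 hd (List.ofFn y) (by simp) (List.nodup_ofFn.2 y.injective) (List.forall_mem_ofFn_iff.2 hy)
  simp only [List.map_cons, List.map_nil, List.ofFn_succ, List.ofFn_zero, List.cons.injEq, and_true] at e1 e2
  have h1 : ∀ i, (b * a⁻¹) • x i = y i := by
    intro i
    fin_cases i
    · exact e1.1 ▸ e2.1 ▸ by simp [mul_smul]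
    · exact e1.2.1 ▸ e2.2.1 ▸ by simp [mul_smul]
    · exact e1.2.2.1 ▸ e2.2.2.1 ▸ by simp [mul_smul]
    · exact e1.2.2.2.1 ▸ e2.2.2.2.1 ▸ by simp [mul_smul]
    · exact e1.2.2.2.2 ▸ e2.2.2.2.2 ▸ by simp [mul_smul]
  refine ⟨⟨b * a⁻¹, ?_⟩, h1, fun g hg => ?_⟩
  · show (b * a⁻¹) • d = d
    conv_lhs => rw [← ha]
    rw [mul_smul, inv_smul_smul, hb]
  · have hg' : ∀ i, g.1 • x i = y i := hg
    have h0 : g.1 • d = d := g.2
    have := base12 (b⁻¹ * g * a) (by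
      show (b⁻¹ * g * a) • S 0x5335f = S 0x5335f
      rw [mul_smul, mul_smul, ha, h0, ← hb, inv_smul_smul]) (by
      simp only [List.mem_cons, List.not_mem_nil, or_false, forall_eq_or_imp, forall_eq, mul_smul,
        inv_smul_eq_iff, e1, e2, hg', and_self])
    apply Subtype.ext
    rw [eq_mul_inv_iff_mul_eq, eq_comm, ← inv_mul_eq_one, ← mul_assoc, this]

end Cfsg.Agent.S0384
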