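import Cfsg.Statements.S0385
import Mathlib
import Cfsg.Agent.H7.Gol.Tr

set_option autoImplicit false
open Cfsg

namespace Cfsg.Agent.S0385

open CfsgH7 CfsgH7.Gol

/-- The 6-point intersections of octads with a fixed dodecad form a Steiner system S(5, 6, 12) on the dodecad. -/
theorem result (d : Finset Cfsg.GolayPt) (hd : d ∈ Cfsg.dodecads) : Cfsg.IsSteinerSystem 5 6 {h : Finset {p : Cfsg.GolayPt // p ∈ d} | ∃ o ∈ Cfsg.octads, (o ∩ d).card = 6 ∧ h = Finset.subtype (fun p => p ∈ d) o} := by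
  refine ⟨?_, fun s hs => ?_⟩
  · rintro _ ⟨o, _, h, rfl⟩
    rw [Finset.card_subtype, Finset.filter_mem_eq_inter, h]
  · have h1 : (s.map (Function.Embedding.subtype _)).card = 5 := by simpa using hs
    have h2 : ∀ o : Finset Cfsg.GolayPt, s ⊆ Finset.subtype (fun p => p ∈ d) o ↔
        s.map (Function.Embedding.subtype _) ⊆ o := by
      intro o; simp [Finset.subset_iff]
    obtain ⟨o, ⟨ho, h⟩, hu⟩ := steiner.2 _ h1
    have h3 : 5 ≤ (o ∩ d).card := by
      rw [← h1]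
      refine Finset.card_le_card (Finset.subset_inter h ?_)
      intro p hp
      obtain ⟨q, _, rfl⟩ := Finset.mem_map.1 hp
      exact q.2
    have h4 := oct_dod ho hd
    refine ⟨_, ⟨⟨o, ho, by omega, rfl⟩, (h2 o).2 h⟩, ?_⟩
    rintro _ ⟨⟨o', ho', _, rfl⟩, h'⟩
    rw [hu o' ⟨ho', (h2 o').1 h'⟩]

end Cfsg.Agent.S0385
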