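import Cfsg.Statements.S0388
import Mathlib
import Cfsg.Agent.H7.Gol.Tr

set_option autoImplicit false
open scoped Pointwise
open Cfsg

namespace Cfsg.Agent.S0388

open CfsgH7 CfsgH7.Gol

/-- The stabiliser of a dodecad and a point on it is simple. -/
theorem result (d : Finset Cfsg.GolayPt) (hd : d ∈ Cfsg.dodecads) (p : Cfsg.GolayPt) (hp : p ∈ d) : IsSimpleGroup ↥(MulAction.stabilizer Cfsg.M24 d ⊓ MulAction.stabilizer Cfsg.M24 p) := by
  obtain ⟨c, rfl, rfl⟩ := dpts1 hd hp
  exact ((Cj.stab c _).inf (Cj.stab c _)).simple simple11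

end Cfsg.Agent.S0388
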