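import Cfsg.Statements.S0389
import Mathlib
import Cfsg.Agent.H7.Gol.Tr

set_option autoImplicit false
open scoped Pointwise
open Cfsg

namespace Cfsg.Agent.S0389

open CfsgH7 CfsgH7.Gol
open scoped Pointwise

/-- The stabiliser of a dodecad and a point on it is 3-transitive on the complementary dodecad. -/
theorem result (d : Finset Cfsg.GolayPt) (hd : d ∈ Cfsg.dodecads) (p : Cfsg.GolayPt) (hp : p ∈ d) (x y : Fin 3 ↪ Cfsg.GolayPt) (hx : ∀ i, x i ∉ d) (hy : ∀ i, y i ∉ d) : ∃ g ∈ MulAction.stabilizer Cfsg.M24 d ⊓ MulAction.stabilizer Cfsg.M24 p, ∀ i, (g : Equiv.Perm Cfsg.GolayPt) (x i) = y i := by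
  obtain ⟨a, ha, ha', e1⟩ := epts te3 hd hp (List.ofFn x) (by simp) (List.nodup_ofFn.2 x.injective) (List.forall_mem_ofFn_iff.2 hx)
  obtain ⟨b, hb, hb', e2⟩ := epts te3 hd hp (List.ofFn y) (by simp) (List.nodup_ofFn.2 y.injective) (List.forall_mem_ofFn_iff.2 hy)
  simp only [List.map_cons, List.map_nil, List.ofFn_succ, List.ofFn_zero, List.cons.injEq, and_true] at e1 e2
  refine ⟨b * a⁻¹, ⟨?_, ?_⟩, fun i => ?_⟩
  · show (b * a⁻¹) • d = d
    conv_lhs => rw [← ha]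
    rw [mul_smul, inv_smul_smul, hb]
  · show (b * a⁻¹) • p = p
    conv_lhs => rw [← ha']
    rw [mul_smul, inv_smul_smul, hb']
  · show (b * a⁻¹) • x i = y i
    fin_cases i
    · exact e1.1 ▸ e2.1 ▸ by simp [mul_smul]
    · exact e1.2.1 ▸ e2.2.1 ▸ by simp [mul_smul]
    · exact e1.2.2 ▸ e2.2.2 ▸ by simp [mul_smul]

end Cfsg.Agent.S0389
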