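import Cfsg.Statements.S0401
import Mathlib
import Cfsg.Agent.H7.Lee.Cfg

set_option autoImplicit false
open Cfsg

namespace Cfsg.Agent.S0401

open CfsgH7 CfsgH7.Lee

/-- Automorphisms of the lattice act transitively on vectors of sum of squares 48. -/
theorem result (v w : Cfsg.leechLattice) (hv : Cfsg.sqNorm (v : Cfsg.GolayPt → ℤ) = 48) (hw : Cfsg.sqNorm (w : Cfsg.GolayPt → ℤ) = 48) : ∃ g : Cfsg.Co0, g • v = w := by
  obtain ⟨a, h1⟩ := tr48 hv
  obtain ⟨b, h2⟩ := tr48 hw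
  exact ⟨_, div_smul' h1 h2⟩

end Cfsg.Agent.S0401
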