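import Cfsg.Statements.S0402
import Mathlib
import Cfsg.Agent.H7.Lee.Cfg

set_option autoImplicit false
open Cfsg

namespace Cfsg.Agent.S0402

open CfsgH7 CfsgH7.Lee

/-- Stabiliser of a minimal vector is simple of order 42305421312000. -/
theorem result (v : Cfsg.leechLattice) (hv : Cfsg.sqNorm (v : Cfsg.GolayPt → ℤ) = 32) : Cfsg.IsCo2 (MulAction.stabilizer Cfsg.Co0 v) := by
  obtain ⟨c, rfl⟩ := tr32 nU hv
  exact ⟨(Cj.stab c uU).simple sim2, (Cj.stab c uU).card.trans card2⟩

end Cfsg.Agent.S0402
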