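import Cfsg.Statements.S0403
import Mathlib
import Cfsg.Agent.H7.Lee.Cfg

set_option autoImplicit false
open Cfsg

namespace Cfsg.Agent.S0403

open CfsgH7 CfsgH7.Lee

/-- Stabiliser of a vector of sum of squares 48 is simple of order 495766656000. -/
theorem result (v : Cfsg.leechLattice) (hv : Cfsg.sqNorm (v : Cfsg.GolayPt → ℤ) = 48) : Cfsg.IsCo3 (MulAction.stabilizer Cfsg.Co0 v) := by
  obtain ⟨c, rfl⟩ := tr48 hv
  exact ⟨(Cj.stab c uV).simple sim3, (Cj.stab c uV).card.trans card3⟩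

end Cfsg.Agent.S0403
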