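import Cfsg.Statements.S0412
import Cfsg.Agent.H1.St4

set_option autoImplicit false
open Cfsg

namespace Cfsg.Agent.S0412

/-- Aut of an S(5, 8, 24) is simple of order 244823040 and 5-transitive on points. -/
theorem result {α : Type*} [Fintype α] [DecidableEq α] (hα : Fintype.card α = 24) {B : Set (Finset α)} (hB : Cfsg.IsSteinerSystem 5 8 B) : Cfsg.IsM24 (Cfsg.setSystemAut B) ∧ MulAction.IsMultiplyPretransitive (Cfsg.setSystemAut B) α 5 := by
  open CfsgH1.St CfsgH1.Un CfsgH7 CfsgH7.Gol Finset in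
  open scoped commutatorElement in
  · obtain ⟨ι, h⟩ := n24 hα hB
    obtain ⟨φ, hφ⟩ := a24 h
    refine ⟨⟨haveI := simple24t; φ.symm.isSimpleGroup, (Nat.card_congr φ.toEquiv).symm.trans card24t⟩,
      mpt_of φ hφ 5 fun x y => ?_⟩
    exact tr24 _ _ (ι.injective.comp x.injective) (ι.injective.comp y.injective) (fun _ => trivial) fun _ => trivial

end Cfsg.Agent.S0412
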