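import Cfsg.Statements.S0413
import Cfsg.Agent.H1.St4

set_option autoImplicit false
open Cfsg

namespace Cfsg.Agent.S0413

/-- Aut of an S(4, 7, 23) is simple of order 10200960 and 4-transitive. -/
theorem result {α : Type*} [Fintype α] [DecidableEq α] (hα : Fintype.card α = 23) {B : Set (Finset α)} (hB : Cfsg.IsSteinerSystem 4 7 B) : Cfsg.IsM23 (Cfsg.setSystemAut B) ∧ MulAction.IsMultiplyPretransitive (Cfsg.setSystemAut B) α 4 := by
  open CfsgH1.St CfsgH1.Un CfsgH7 CfsgH7.Gol Finset in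
  open scoped commutatorElement in
  · obtain ⟨ι, h⟩ := n23 hα hB
    obtain ⟨φ, hφ⟩ := a23 h
    refine ⟨⟨haveI := simple23; φ.symm.isSimpleGroup, (Nat.card_congr φ.toEquiv).symm.trans card23⟩,
      mpt_of φ hφ 4 fun x y => ?_⟩
    have m : ∀ a, ι a ∈ Set.univ \ {px 23} := fun a => ⟨trivial, by simpa [Z1_eq] using mem_of h.rng a⟩
    obtain ⟨z, hz, e⟩ := cons_tr (px 23) (Set.mem_univ _) tr24 _ _ (ι.injective.comp x.injective)
      (ι.injective.comp y.injective) (fun _ => m _) fun _ => m _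
    exact ⟨z, hz.2, e⟩

end Cfsg.Agent.S0413
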