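import Cfsg.Statements.S0417
import Mathlib
import Cfsg.Agent.L0.Sh5

set_option autoImplicit false
open Cfsg

namespace Cfsg.Agent.S0417

open CfsgL0

/-- For k ≥ 6, sharply k-transitive groups have degree k, k+1 or k+2. -/
theorem result {α : Type*} [Fintype α] [DecidableEq α] (G : Subgroup (Equiv.Perm α)) (k : ℕ) (hk : 6 ≤ k) (hn : k ≤ Fintype.card α) [MulAction.IsMultiplyPretransitive G α k] (hsharp : ∀ x : Fin k ↪ α, MulAction.stabilizer G x = ⊥) : Fintype.card α = k ∨ Fintype.card α = k + 1 ∨ Fintype.card α = k + 2 := by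
  obtain ⟨j, rfl⟩ : ∃ j, k = j + 4 := ⟨k - 4, by omega⟩
  have := sht_bound j _ _ (ShT.of inferInstance hsharp)
  rw [Nat.card_eq_fintype_card] at this
  omega

end Cfsg.Agent.S0417
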