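import Cfsg.Statements.S0423
import Mathlib
import Cfsg.Agent.H7.Li.G24x

set_option autoImplicit false
open Cfsg

namespace Cfsg.Agent.S0423

/-- Existence of a simple group of order 604800. -/
theorem result : ∃ G : Subgroup (Equiv.Perm (Fin 100)), Cfsg.IsJ2 G := by
  exact ⟨_, CfsgH7.J2m.simple, CfsgH7.J2m.M0.card⟩

end Cfsg.Agent.S0423
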