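import Cfsg.Statements.S0425
import Cfsg.Agent.H1.St4

set_option autoImplicit false
open Cfsg

namespace Cfsg.Agent.S0425

/-- Aut of an S(5, 6, 12) is simple of order 95040 and sharply 5-transitive on points. -/
theorem result {α : Type*} [Fintype α] [DecidableEq α] (hα : Fintype.card α = 12) {B : Set (Finset α)} (hB : Cfsg.IsSteinerSystem 5 6 B) : Cfsg.IsM12 (Cfsg.setSystemAut B) ∧ MulAction.IsMultiplyPretransitive (Cfsg.setSystemAut B) α 5 ∧ ∀ x : Fin 5 ↪ α, MulAction.stabilizer (Cfsg.setSystemAut B) x = ⊥ := by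
  open CfsgH1.St CfsgH1.Un CfsgH7 CfsgH7.Gol Finset in
  open scoped commutatorElement in
  · obtain ⟨ι, h⟩ := n12 hα hB
    obtain ⟨φ, hφ⟩ := a12 h
    refine ⟨⟨haveI := simple12; φ.symm.isSimpleGroup, (Nat.card_congr φ.toEquiv).symm.trans card12⟩,
      mpt_of φ hφ 5 fun x y => tr12 _ _ (ι.injective.comp x.injective) (ι.injective.comp y.injective)
        (fun _ => mem_of h.rng _) fun _ => mem_of h.rng _, fun x => eq_bot_iff.2 fun σ hσ => ?_⟩
    obtain ⟨g, rfl⟩ := φ.surjective σ
    have : g = 1 := Subtype.ext (sharp12 g.2 (ι.injective.comp x.injective) (fun _ => mem_of h.rng _) fun i => by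
      rw [Function.comp_apply, ← hφ]
      exact congrArg ι (DFunLike.congr_fun hσ i))
    simp [this]

end Cfsg.Agent.S0425
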