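import Cfsg.Statements.S0427
import Cfsg.Agent.H1.St2

set_option autoImplicit false
open Cfsg

namespace Cfsg.Agent.S0427

/-- The block graph (adjacent = disjoint) of an S(3, 6, 22) is strongly regular with parameters (77, 16, 0, 4). -/
theorem result {α : Type*} [Fintype α] (hα : Fintype.card α = 22) {B : Set (Finset α)} (hB : Cfsg.IsSteinerSystem 3 6 B) [Fintype B] [DecidableRel (Cfsg.blockGraph B).Adj] : (Cfsg.blockGraph B).IsSRGWith 77 16 0 4 := by
  open CfsgH1.St Finset in
  open scoped commutatorElement in
  · classical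
    have ne : ∀ {b c : B}, Disjoint (b : Finset α) c → b ≠ c := by
      rintro b _ h rfl
      have := hB.1 b b.2
      rw [disjoint_self.1 h] at this; simp at this
    have adj : ∀ b c : B, (Cfsg.blockGraph B).Adj b c ↔ Disjoint (b : Finset α) c := fun b c => by
      rw [Cfsg.blockGraph, SimpleGraph.fromRel_adj]
      exact ⟨fun h => h.2.elim id fun h => h.symm, fun h => ⟨ne h, Or.inl h⟩⟩
    have cnt : ∀ (p : Finset α → Prop) [DecidablePred p], (univ.filter fun b : B => p b).card = ((bl B).filter p).card := by
      intro p _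
      exact card_bij (fun b _ => b.1) (fun b hb => by simpa using hb) (fun _ _ _ _ h => Subtype.ext h)
        (fun b hb => ⟨⟨b, by simp at hb; exact hb.1⟩, by simp at hb ⊢; exact hb.2, rfl⟩)
    have com : ∀ b c : B, b ≠ c → Fintype.card ((Cfsg.blockGraph B).commonNeighbors b c) = 2 * ((b : Finset α) ∩ c).card := by
      intro b c h
      rw [← com22 hα hB b.2 c.2 (fun e => h (Subtype.ext e)), ← cnt, ← Set.toFinset_card]
      congr 1; ext d; simp [SimpleGraph.mem_commonNeighbors, adj]
    refine ⟨?_, fun b => ?_, fun b c h => ?_, fun b c h h' => ?_⟩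
    · have := cnt (fun _ => True)
      rw [filter_true, filter_true, card_bl hB (by norm_num) hα] at this
      exact this
    · rw [← deg22 hα hB b.2, ← cnt, ← SimpleGraph.card_neighborFinset_eq_degree]
      congr 1; ext d; simp [adj]
    · rw [com b c h.ne, disjoint_iff_inter_eq_empty.1 ((adj b c).1 h)]; rfl
    · rw [com b c h]
      rcases i22 hα hB b.2 c.2 (fun e => h (Subtype.ext e)) with e | e
      · exact absurd ((adj b c).2 (disjoint_iff_inter_eq_empty.2 (card_eq_zero.1 e))) h'
      · rw [e]

end Cfsg.Agent.S0427
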