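import Mathlib
import Cfsg.Statements.S0431
import Cfsg.Agent.H8.HsL

set_option autoImplicit false
open Cfsg

namespace Cfsg.Agent.S0431


/-- Aut of the point-block graph of an S(3, 6, 22) contains a simple subgroup of order 44352000. -/
theorem result {α : Type*} [Fintype α] (hα : Fintype.card α = 22) {B : Set (Finset α)} (hB : Cfsg.IsSteinerSystem 3 6 B) : ∃ H : Subgroup (Cfsg.pointBlockGraph B ≃g Cfsg.pointBlockGraph B), Cfsg.IsHS H := by
  classical
  haveI : Fintype B := Fintype.ofFinite B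
  obtain ⟨e⟩ := CfsgH8.HsG.iso_gr (Cfsg.Agent.S0428.result hα hB)
  have φ := MonoidHom.ofInjective (f := (CfsgH8.HsG.tr e).comp CfsgH8.HsG.act) ((CfsgH8.HsG.tr_inj e).comp CfsgH8.HsG.act_inj)
  haveI := CfsgH7.Lee.simH
  exact ⟨_, φ.symm.isSimpleGroup, (Nat.card_congr φ.symm.toEquiv).trans CfsgH7.Lee.cardH⟩

end Cfsg.Agent.S0431
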