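import Cfsg.Statements.S0439
import Cfsg.Agent.H1.TT3

set_option autoImplicit false
open Cfsg

namespace Cfsg.Agent.S0439

/-- In the symmetric group of degree n ≥ 2, the set of transpositions is a conjugacy class of 3-transpositions which generates the group. -/
theorem result (n : ℕ) (hn : 2 ≤ n) : Cfsg.IsThreeTranspositionClass {σ : Equiv.Perm (Fin n) | σ.IsSwap} := by
  open Subgroup CfsgH1 in
  open CfsgH9 hiding card_inf_mul_relIndex card_lt_of_lt card_lt_of_ne_top card_map_mul_card_inf_ker card_mul_relIndex card_quotient_lt card_subgroupOf card_subgroupOf_of_le card_sup_dvd card_sup_mul_card_inf commutator_sup_le commutator_sup_le' isNilpotent_map isNilpotent_of_le isSolvable_map isSolvable_of_le le_normalizer_commutator le_normalizer_inf le_normalizer_map_subtype le_normalizer_sup le_pCore le_pPrimeCore mem_sup_of_le_normalizer mem_sup_of_le_normalizer' normalizer_le_normalizer_centralizer pCore_quotient_pCore pPrimeCore_quotient_pPrimeCore relIndex_map_subtype relIndex_sup_of_le_normalizer in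
  open scoped CfsgH9 in
  open scoped commutatorElement in
  · have h01 : (⟨0, by omega⟩ : Fin n) ≠ ⟨1, by omega⟩ := by simp
    refine ⟨⟨fun d hd => hd.isCycle.orderOf.trans (Equiv.Perm.card_support_eq_two.2 hd), ?_⟩,
      ⟨_, ⟨_, _, h01, rfl⟩, Set.ext fun σ => ⟨?_, fun h => ?_⟩⟩, Equiv.Perm.closure_isSwap⟩
    · rintro _ ⟨a, b, hab, rfl⟩ _ ⟨c, d, hcd, rfl⟩
      by_cases h : [a, b, c, d].Nodup
      · left
        rw [(Equiv.Perm.disjoint_swap_swap h).commute.mul_pow]
        simp [sq]
      have k : ∀ x y z : Fin n, x ≠ y → x ≠ z →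
          (Equiv.swap x y * Equiv.swap x z) ^ 2 = 1 ∨ (Equiv.swap x y * Equiv.swap x z) ^ 3 = 1 := by
        intro x y z h1 h2
        by_cases h3 : y = z
        · subst h3; simp
        · right
          rw [← (Equiv.Perm.isThreeCycle_swap_mul_swap_same h1 h2 h3).orderOf, pow_orderOf_eq_one]
      simp only [List.nodup_cons, List.mem_cons, List.not_mem_nil, or_false, not_or, List.nodup_nil,
        and_true, not_false_eq_true, hab, hcd, true_and, not_and_or, not_not] at h
      rcases h with (rfl | rfl) | rfl | rfl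
      · exact k _ _ _ hab hcd
      · rw [Equiv.swap_comm c]; exact k _ _ _ hab hcd.symm
      · rw [Equiv.swap_comm a]; exact k _ _ _ hab.symm hcd
      · rw [Equiv.swap_comm a, Equiv.swap_comm c]; exact k _ _ _ hab.symm hcd.symm
    · rintro ⟨a, b, hab, rfl⟩
      exact Equiv.Perm.isConj_swap h01 hab
    · obtain ⟨g, rfl⟩ := isConj_iff.1 h
      rw [← Equiv.swap_apply_apply]
      exact ⟨_, _, g.injective.ne h01, rfl⟩

end Cfsg.Agent.S0439
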