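import Mathlib
import Cfsg.Statements.S0440
import Cfsg.Agent.H8.TV2

set_option autoImplicit false
open Cfsg

namespace Cfsg.Agent.S0440

open CfsgH8.TV CfsgH5 CfsgH5.CForm

/-- In the symplectic group in dimension 2n ≥ 2 over the field with two elements, the elements g for which g - 1 has rank one (the symplectic transvections) form a conjugacy class of 3-transpositions generating the group. -/
theorem result (n : ℕ) (hn : 1 ≤ n) : Cfsg.IsThreeTranspositionClass {g : Matrix.symplecticGroup (Fin n) (ZMod 2) | ((g : Matrix (Fin n ⊕ Fin n) (Fin n ⊕ Fin n) (ZMod 2)) - 1).rank = 1} := by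
  have hf := spForm_nondeg (F := ZMod 2) n
  have hD : ∀ g : Matrix.symplecticGroup (Fin n) (ZMod 2),
      ((g : Matrix (Fin n ⊕ Fin n) (Fin n ⊕ Fin n) (ZMod 2)) - 1).rank = 1 ↔
      ∃ d ≠ 0, (spForm (ZMod 2) n).IsRefl (spEquiv n g) d 1 := fun g => by
    rw [rank_iff hf (spEquiv n g).2 (spEquiv_apply n g)]
    exact exists_congr fun d => and_congr_right fun _ =>
      ⟨fun ⟨k, h⟩ => (z2 k).resolve_left h.hk ▸ h, fun h => ⟨1, h⟩⟩
  refine tv_class hf ((spForm (ZMod 2) n).Isom.subtype.comp (spEquiv n).toMonoidHom)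
    (Subtype.val_injective.comp (spEquiv n).injective) (fun s => (spEquiv n s).2) (k := 1) (by simp)
    (fun β => (z2 β).imp id fun e => by simp [e]) hD ?_ (fun d e hd he h1 h2 => ?_) fun g => ?_
  · haveI : Nonempty (Fin n) := ⟨⟨0, hn⟩⟩
    obtain ⟨d, hd⟩ := exists_ne (0 : Fin n ⊕ Fin n → ZMod 2)
    obtain ⟨g, hg⟩ := (spForm (ZMod 2) n).exists_refl (d := d) one_ne_zero (by simp [symp_Q])
    exact ⟨(spEquiv n).symm ⟨g, hg.mem_Isom⟩, (hD _).2 ⟨d, hd, by simpa using hg⟩⟩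
  · obtain ⟨s, hs, h⟩ := witt_one hf hd he (h2.symm.trans h1)
    exact ⟨(spEquiv n).symm ⟨s, hs⟩, 1, by simp, by simpa using h⟩
  · refine ((symp_Isom_eq_Tr hf).le.trans (Tr_le fun g x c h => ?_)) (spEquiv n g).2
    rcases eich_refl h with rfl | ⟨hx, k, hk⟩
    · exact one_mem _
    · refine ⟨(spEquiv n).symm ⟨g, hk.mem_Isom⟩, Subgroup.subset_closure ((hD _).2 ⟨x, hx, ?_⟩), by simp⟩
      simpa [(z2 k).resolve_left hk.hk] using hk

end Cfsg.Agent.S0440
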