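import Cfsg.Statements.S0442
import Cfsg.Agent.H1.TT3

set_option autoImplicit false
open Cfsg

namespace Cfsg.Agent.S0442

/-- A standard trick for producing elements of an involution centraliser: for an involution a and an element g, let b be the conjugate g⁻¹ * a * g. If a * b has odd order 2m + 1 then g * (a * b) ^ m commutes with a; if a * b has even order 2m then (a * b) ^ m and (a * (g * a * g⁻¹)) ^ m commute with a. -/
theorem result {G : Type*} [Group G] (a g : G) (ha : orderOf a = 2) : (∀ m : ℕ, orderOf (a * (g⁻¹ * a * g)) = 2 * m + 1 → Commute (g * (a * (g⁻¹ * a * g)) ^ m) a) ∧ (∀ m : ℕ, orderOf (a * (g⁻¹ * a * g)) = 2 * m → Commute ((a * (g⁻¹ * a * g)) ^ m) a ∧ Commute ((a * (g * a * g⁻¹)) ^ m) a) := by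
  open Subgroup CfsgH1 in
  open CfsgH9 hiding card_inf_mul_relIndex card_lt_of_lt card_lt_of_ne_top card_map_mul_card_inf_ker card_mul_relIndex card_quotient_lt card_subgroupOf card_subgroupOf_of_le card_sup_dvd card_sup_mul_card_inf commutator_sup_le commutator_sup_le' isNilpotent_map isNilpotent_of_le isSolvable_map isSolvable_of_le le_normalizer_commutator le_normalizer_inf le_normalizer_map_subtype le_normalizer_sup le_pCore le_pPrimeCore mem_sup_of_le_normalizer mem_sup_of_le_normalizer' normalizer_le_normalizer_centralizer pCore_quotient_pCore pPrimeCore_quotient_pPrimeCore relIndex_map_subtype relIndex_sup_of_le_normalizer in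
  open scoped CfsgH9 in
  open scoped commutatorElement in
  · have h1 := CfsgL0.inv_mul_self ha
    have hi := CfsgL0.inv_inv_eq ha
    have h2 : g⁻¹ * a * g * (g⁻¹ * a * g) = 1 := by simpa using CfsgL0.conj_mul_self h1 g⁻¹
    refine ⟨fun m hm => ?_, fun m hm => ?_⟩
    · have e := CfsgL0.conj_right_of_odd h1 h2 m
      rw [← hm, pow_orderOf_eq_one, mul_one] at e
      have e' := CfsgL0.conj_left_of_even h1 h2 (m + 1)
      rw [show 2 * (m + 1) = 2 * m + 1 + 1 by ring, pow_succ _ (2 * m + 1), ← hm, pow_orderOf_eq_one,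
        one_mul, ← mul_assoc a a, h1, one_mul] at e'
      have e3 : (a * (g⁻¹ * a * g)) ^ (m + 1) = ((a * (g⁻¹ * a * g)) ^ m)⁻¹ := by
        rw [eq_inv_iff_mul_eq_one, ← pow_add, show m + 1 + m = 2 * m + 1 by ring, ← hm,
          pow_orderOf_eq_one]
      rw [e3, inv_inv] at e'
      rw [← cn_eq_self, ← cn_cn, cn_def _ a, e']
      simp [cn, mul_assoc]
    · have k : ∀ b : G, b * b = 1 → (a * b) ^ (2 * m) = 1 → Commute ((a * b) ^ m) a := fun b hb h => by
        have := CfsgL0.conj_pow_of_inverts (CfsgL0.left_inverts_mul h1 hb) m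
        rw [two_mul, pow_add] at h
        rw [inv_eq_of_mul_eq_one_right h] at this
        exact (cn_eq_self.1 this).symm
      refine ⟨k _ h2 (by rw [← hm, pow_orderOf_eq_one]), k _ (CfsgL0.conj_mul_self h1 g) ?_⟩
      have : a * (g * a * g⁻¹) = cn g (a * (g⁻¹ * a * g))⁻¹ := by simp [cn, hi, mul_assoc]
      rw [this, ← cn_pow, inv_pow, ← hm, pow_orderOf_eq_one, inv_one, cn_one_right]

end Cfsg.Agent.S0442
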