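import Cfsg.Statements.S0443
import Cfsg.Agent.H1.TT3

set_option autoImplicit false
open Cfsg

namespace Cfsg.Agent.S0443

/-- Two definitions of a 2-central involution agree: an element t of order 2 of a finite group lies in the centre of some Sylow 2-subgroup if and only if its centraliser contains some Sylow 2-subgroup. -/
theorem result {G : Type*} [Group G] [Finite G] (t : G) (ht : orderOf t = 2) : Cfsg.IsTwoCentralInvolution t ↔ ∃ P : Sylow 2 G, (P : Subgroup G) ≤ Subgroup.centralizer ({t} : Set G) := by
  open Subgroup CfsgH1 in
  open CfsgH9 hiding card_inf_mul_relIndex card_lt_of_lt card_lt_of_ne_top card_map_mul_card_inf_ker card_mul_relIndex card_quotient_lt card_subgroupOf card_subgroupOf_of_le card_sup_dvd card_sup_mul_card_inf commutator_sup_le commutator_sup_le' isNilpotent_map isNilpotent_of_le isSolvable_map isSolvable_of_le le_normalizer_commutator le_normalizer_inf le_normalizer_map_subtype le_normalizer_sup le_pCore le_pPrimeCore mem_sup_of_le_normalizer mem_sup_of_le_normalizer' normalizer_le_normalizer_centralizer pCore_quotient_pCore pPrimeCore_quotient_pPrimeCore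 relIndex_map_subtype relIndex_sup_of_le_normalizer in
  open scoped CfsgH9 in
  open scoped commutatorElement in
  · refine ⟨fun ⟨_, P, _, h⟩ => ⟨P, fun x hx => mem_centralizer_singleton_iff.2 (h x hx)⟩,
      fun ⟨P, h⟩ => ⟨ht, P, ?_, fun x hx => mem_centralizer_singleton_iff.1 (h hx)⟩⟩
    have h1 : IsPGroup 2 (zpowers t ⊔ P : Subgroup G) := by
      rw [sup_comm]
      refine CfsgH9.isPGroup_sup (h.trans ?_) P.isPGroup' (IsPGroup.of_card (n := 1) (by simp [ht]))
      rw [← centralizer_zpowers]; exact centralizer_le_normalizer _
    have := P.is_maximal' h1 le_sup_right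
    change t ∈ (P : Subgroup G)
    rw [← this]; exact mem_sup_left (mem_zpowers t)

end Cfsg.Agent.S0443
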