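import Cfsg.Statements.S0444
import Cfsg.Agent.H1.TT3

set_option autoImplicit false
open Cfsg

namespace Cfsg.Agent.S0444

/-- Two members of a set of 3-transpositions which do not commute generate a subgroup isomorphic to the symmetric group on three letters. -/
theorem result {G : Type*} [Group G] {E : Set G} (hE : Cfsg.IsThreeTranspositionSet E) {d e : G} (hd : d ∈ E) (he : e ∈ E) (h : ¬ Commute d e) : Nonempty (Subgroup.closure ({d, e} : Set G) ≃* Equiv.Perm (Fin 3)) := by
  open Subgroup CfsgH1 in
  open CfsgH9 hiding card_inf_mul_relIndex card_lt_of_lt card_lt_of_ne_top card_map_mul_card_inf_ker card_mul_relIndex card_quotient_lt card_subgroupOf card_subgroupOf_of_le card_sup_dvd card_sup_mul_card_inf commutator_sup_le commutator_sup_le' isNilpotent_map isNilpotent_of_le isSolvable_map isSolvable_of_le le_normalizer_commutator le_normalizer_inf le_normalizer_map_subtype le_normalizer_sup le_pCore le_pPrimeCore mem_sup_of_le_normalizer mem_sup_of_le_normalizer' normalizer_le_normalizer_centralizer pCore_quotient_pCore pPrimeCore_quotient_pPrimeCore relIndex_map_subtype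 relIndex_sup_of_le_normalizer in
  open scoped CfsgH9 in
  open scoped commutatorElement in
  · have hc : CoxA (fun i => [d, e].getD i 1) 2 :=
      ⟨fun i hi => by interval_cases i <;> simp [TS.sq hE, hd, he], fun i hi => by
        obtain rfl : i = 0 := by omega
        exact TS.braid' hE hd he h, fun i j h1 h2 => by omega⟩
    obtain ⟨φ, hφ⟩ := hc.exists_hom
    have h0 : φ (adjSwap 2 0) = d := hφ 0 (by norm_num)
    have h1 : φ (adjSwap 2 1) = e := hφ 1 (by norm_num)
    have hr : φ.range = Subgroup.closure {d, e} := by
      rw [CoxA.range_hom hφ]; congr 1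
      ext x; simp only [Set.mem_image, Set.mem_Iio, Set.mem_insert_iff, Set.mem_singleton_iff]
      exact ⟨by rintro ⟨i, hi, rfl⟩; interval_cases i <;> simp,
        by rintro (rfl | rfl); exacts [⟨0, by simp⟩, ⟨1, by simp⟩]⟩
    have hi : Function.Injective φ := (injective_iff_map_eq_one φ).2 fun x hx => by
      by_contra hn
      have : ∀ x : Equiv.Perm (Fin 3), x ≠ 1 → ∃ g k : Equiv.Perm (Fin 3),
          g * x * g⁻¹ * (k * x * k⁻¹) = (adjSwap 2 0 * adjSwap 2 1) := by decide +kernel
      obtain ⟨g, k, e⟩ := this x hn
      have := congrArg φ e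
      simp only [map_mul, hx, map_inv, h0, h1, mul_one, mul_inv_cancel] at this
      exact TS.mul_ne_one hE hd (by rintro rfl; exact h (Commute.refl _)) this.symm
    exact ⟨(MulEquiv.subgroupCongr hr.symm).trans (MonoidHom.ofInjective hi).symm⟩

end Cfsg.Agent.S0444
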