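import Cfsg.Statements.S0446
import Cfsg.Agent.H1.TT3

set_option autoImplicit false
open Cfsg

namespace Cfsg.Agent.S0446

/-- Every finite group of even order contains a 2-central involution, i.e. an element of order 2 in the centre of some Sylow 2-subgroup. -/
theorem result {G : Type*} [Group G] [Finite G] (h : Even (Nat.card G)) : ∃ t : G, Cfsg.IsTwoCentralInvolution t := by
  open Subgroup CfsgH1 in
  open CfsgH9 hiding card_inf_mul_relIndex card_lt_of_lt card_lt_of_ne_top card_map_mul_card_inf_ker card_mul_relIndex card_quotient_lt card_subgroupOf card_subgroupOf_of_le card_sup_dvd card_sup_mul_card_inf commutator_sup_le commutator_sup_le' isNilpotent_map isNilpotent_of_le isSolvable_map isSolvable_of_le le_normalizer_commutator le_normalizer_inf le_normalizer_map_subtype le_normalizer_sup le_pCore le_pPrimeCore mem_sup_of_le_normalizer mem_sup_of_le_normalizer' normalizer_le_normalizer_centralizer pCore_quotient_pCore pPrimeCore_quotient_pPrimeCore relIndex_map_subtype relIndex_sup_of_le_normalizer in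
  open scoped CfsgH9 in
  open scoped commutatorElement in
  · obtain ⟨P⟩ : Nonempty (Sylow 2 G) := inferInstance
    haveI : Nontrivial P := (nontrivial_iff_ne_bot _).2 (P.ne_bot_of_dvd_card (even_iff_two_dvd.1 h))
    haveI := P.isPGroup'.center_nontrivial
    have h2 : 2 ∣ Nat.card (center P) := by
      obtain ⟨k, hk⟩ := (P.isPGroup'.to_subgroup (center P)).exists_card_eq
      rcases k with _ | k
      · exact absurd hk (Finite.one_lt_card (α := center P)).ne'
      · rw [hk]; exact dvd_pow_self 2 (by omega)
    obtain ⟨x, hx⟩ := exists_prime_orderOf_dvd_card' 2 h2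
    refine ⟨x.1.1, by rw [Subgroup.orderOf_coe, Subgroup.orderOf_coe, hx], P, x.1.2, fun y hy => ?_⟩
    exact congrArg Subtype.val (mem_center_iff.1 x.2 ⟨y, hy⟩)

end Cfsg.Agent.S0446
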