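import Cfsg.Statements.S0460
import Mathlib
import Cfsg.Agent.H7.Is.ON2

set_option autoImplicit false
open Cfsg

namespace Cfsg.Agent.S0460

open CfsgH7 CfsgH7.ON

/-- The O'Nan group exists as a transitive permutation group of degree 122760: simple of order 460815505920, point stabiliser of order 3753792, and containing simple subgroups of orders 175560 and 7920. -/
theorem result : ∃ H : Subgroup (Equiv.Perm (Fin 122760)), Cfsg.IsON H ∧ MulAction.IsPretransitive H (Fin 122760) ∧ Nat.card (MulAction.stabilizer H (0 : Fin 122760)) = 3753792 ∧ (∃ K : Subgroup H, Cfsg.IsJ1 K) ∧ (∃ K : Subgroup H, Cfsg.IsM11 K) := by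
  obtain ⟨e⟩ := Ou.M0.toPG.2
  have := simple
  have ht := Is.MP.trans [0,2,3,4,5,0,2,4,3,6,1,2,4,5,0,3,4,0,2,5,3,0,4,2,1,0,5,3,2,4] 0 (by decide +kernel)
  exact ⟨_, ⟨e.symm.isSimpleGroup, Is.MP.card⟩, ht, card_stab_tr ht Is.MP.card _ (by norm_num),
    ⟨_, Mdl.simple' J1m.pr J1m.mdl0 J1m.simple Is.A_m⟩, _, Mdl.simple' M11.pr M11.mdl0 M11.simple Is.B_m⟩

end Cfsg.Agent.S0460
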