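import Cfsg.Statements.S0462
import Mathlib
import Cfsg.Agent.H7.Is.He

set_option autoImplicit false
open Cfsg

namespace Cfsg.Agent.S0462

open CfsgH7 CfsgH7.He

/-- The Held group exists as a transitive permutation group of degree 2058: simple of order 4030387200, with point stabiliser containing, with index 2, a copy of the 4-dimensional symplectic group over the field with four elements. -/
theorem result : ∃ H : Subgroup (Equiv.Perm (Fin 2058)), Cfsg.IsHe H ∧ MulAction.IsPretransitive H (Fin 2058) ∧ ∃ (F : Type) (_ : Field F) (_ : Fintype F), Fintype.card F = 4 ∧ ∃ N : Subgroup (MulAction.stabilizer H (0 : Fin 2058)), N.index = 2 ∧ Nonempty (N ≃* Matrix.symplecticGroup (Fin 2) F) := by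
  obtain ⟨K, i1, i2, hK⟩ := CfsgH7.gf4
  obtain ⟨M, ⟨e⟩⟩ := CfsgH7.He.Ou.M0.toPG
  have := CfsgH7.He.simple
  have := M.fin
  have ht := M.trans [1,6,2,3,2,4,5,3,1,2,6,5,3,6,4,2,3,5,1,2,3,6,1,5] 0 (by decide +kernel)
  have hV := M.genMdl (V := CfsgH7.He.Is.V) CfsgH7.S44.pr CfsgH7.S44.mdl0 CfsgH7.S44.simple CfsgH7.He.Is.Vs 1 (by decide +kernel)
  obtain ⟨N, -, h2, h3⟩ := CfsgH7.idx2 (M.le_stab (W := CfsgH7.He.Is.V) (a := 0) (by decide +kernel)) hV.2.1
    (CfsgH7.card_stab_tr ht M.card _ (by norm_num))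
    (CfsgH7.Mdl.iso2 CfsgH7.S44.pr CfsgH7.S44.pr CfsgH7.S44.mdl0 hV (CfsgH7.S44.mdlF hK))
  exact ⟨_, ⟨e.symm.isSimpleGroup, M.card⟩, ht, K, i1, i2, hK, N, h2, h3⟩

end Cfsg.Agent.S0462
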