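import Cfsg.Statements.S0471
import Mathlib
import Cfsg.Agent.H7.Is.Fi22
import Cfsg.Agent.H7.Big2

set_option autoImplicit false
open Cfsg

namespace Cfsg.Agent.S0471

open CfsgH7 CfsgH7.Fi22 MulAction
noncomputable def z : Cfsg.Spor.Fi22 := wprod g [0]
theorem z_order : orderOf z = 2 := Ou.M0.ord (by norm_num) 1 (by decide +kernel)
theorem z_nc (N : Subgroup Cfsg.Spor.Fi22) (hN : N.Normal) (h : z ∈ N) : N = ⊤ :=
  have := simple
  hN.eq_bot_or_eq_top.resolve_left fun e => by
    have h1 := z_order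
    rw [e, Subgroup.mem_bot] at h
    rw [h, orderOf_one] at h1
    omega
theorem z_comm : ∀ x ∈ stabilizer Cfsg.Spor.Fi22 (finPt 3510 0), x * z = z * x := by
  rw [← K_eq]
  refine comm_of_gens fun w hw => ?_
  have := Ou.M0.eq (lall_iff.1 (show lall (fun w => fixesP l (rinv (app w [0]) (app [0] w)) bs) W1 = true by decide +kernel) w hw)
  rwa [wprod_app, wprod_app] at this
theorem t (w : List Nat) (e : Nat) (h : fixesP l (powA (app [0] (app w (app [0] (rinv w [])))) e []) bs = true) :
    (z * (wprod g w * z * (wprod g w)⁻¹)) ^ e = 1 := by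
  simpa only [wprod_app, wprod_rinv, z, wprod_nil, mul_one, mul_assoc] using Ou.M0.pow h
theorem three : Cfsg.IsThreeTranspositionClass (conjugatesOf z) :=
  R.threeTransp gen (by norm_num) (C := P) W1_fix (by decide +kernel)
    (lall_iff.1 (show lall (subOk l 3510 W1 0) P = true by decide +kernel)) z_order z_comm z_nc
    (List.forall_mem_cons.2 ⟨Or.inr (t _ _ (by decide +kernel)), List.forall_mem_cons.2 ⟨Or.inl (t _ _ (by decide +kernel)), List.forall_mem_nil _⟩⟩)
theorem cent : Subgroup.centralizer ({z} : Set Cfsg.Spor.Fi22) = stabilizer Cfsg.Spor.Fi22 (finPt 3510 0) :=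
  centralizer_eq_of_coatom coatom z_comm (y := wprod g [2]) (Ou.M0.noncomm _ _ 0 (by decide +kernel))

/-- The Fischer group of order 64561751654400 exists as a 3-transposition group: a simple group of that order generated by a conjugacy class of 3510 3-transpositions, the centraliser of each being a non-split double cover of PSU(6, 2). -/
theorem result : ∃ (G : Type) (_ : Group G) (_ : Finite G), Cfsg.IsFi22 G ∧ ∃ D : Set G, Cfsg.IsThreeTranspositionClass D ∧ Nat.card D = 3510 ∧ ∀ d ∈ D, ∃ (F : Type) (_ : Field F) (_ : Fintype F), Fintype.card F = 4 ∧ Cfsg.IsNonsplitDoubleCover (Subgroup.centralizer ({d} : Set G)) (Cfsg.PSU 6 F 2) := by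
  obtain ⟨K, i1, i2, hK⟩ := CfsgH7.gf4
  refine ⟨Spor.Fi22, inferInstance, Ou.M0.fin, ⟨simple, card⟩, conjugatesOf z, three, ?_, ?_⟩
  · rw [card_conjugatesOf, cent, index_stab]
  · intro d hd
    obtain ⟨c, rfl⟩ := isConj_iff.1 hd
    refine ⟨K, i1, i2, hK, nonsplit_congr (centralizerConj c z) ?_⟩
    rw [cent, ← K_eq]
    exact Is.dc (U62.iso (U62.mdlF hK)) (by rw [K_eq]; exact card_stab)

end Cfsg.Agent.S0471
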