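import Cfsg.Statements.S0481
import Cfsg.Agent.H1.LX

set_option autoImplicit false
open Cfsg

namespace Cfsg.Agent.S0481

/-- Large extraspecial subgroups: let z be an involution of a finite group G whose centraliser C contains a normal 2-subgroup Q with centre of order 2 and all squares central, such that every element of G centralising Q lies in Q. Then C contains a Sylow 2-subgroup of G, and any involution of G whose centraliser contains a Sylow 2-subgroup of G is conjugate to z. -/
theorem result {G : Type*} [Group G] [Finite G] (z : G) (hz : orderOf z = 2) (Q : Subgroup G) (hQC : Q ≤ Subgroup.centralizer ({z} : Set G)) (hQn : ∀ g ∈ Subgroup.centralizer ({z} : Set G), ∀ q ∈ Q, g * q * g⁻¹ ∈ Q) (hQ2 : IsPGroup 2 Q) (hZ : Nat.card (Subgroup.center Q) = 2) (hsq : ∀ x : Q, x ^ 2 ∈ Subgroup.center Q) (hlarge : Subgroup.centralizer (Q : Set G) ≤ Q) : (∃ P : Sylow 2 G, (P : Subgroup G) ≤ Subgroup.centralizer ({z} : Set G)) ∧ ∀ u : G, orderOf u = 2 → (∃ P : Sylow 2 G, (P : Subgroup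 G) ≤ Subgroup.centralizer ({u} : Set G)) → IsConj z u := by
  open Subgroup CfsgH2 in
  open CfsgH1 hiding card_inf_mul_relIndex card_lt_of_lt card_lt_of_ne_top card_map_mul_card_inf_ker card_mul_relIndex card_subgroupOf card_sup_dvd card_sup_mul_card_inf coprime_le_sup_cent exists_card_prime_le isNilpotent_map isNilpotent_of_le isPGroup_pCore isSolvable_map isSolvable_of_le le_pCore le_pPrimeCore relIndex_map_dvd in
  open scoped CfsgH1 in
  open CfsgL0 hiding cj cj_injective comm_zpowers_le conj_mem_of_mem_normalizer conj_mem_of_mem_normalizer' isPGroup_of_forall isPGroup_zpowers isPGroup_zpowers_of_orderOf mem_normalizer_of_conj_mem sec_sub in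
  open scoped CfsgL0 in
  open scoped commutatorElement in
  · have h1 : z ∈ Q := hlarge (le_cent1_iff.1 hQC)
    have h2 : Z[Q] = zpowers z := (eq_of_le_of_card_ge (zpowers_le.2 (mem_inf.2 ⟨h1, le_cent1_iff.1 hQC⟩)) (by
      rw [← map_center_subtype, card_map_of_injective Q.subtype_injective, hZ, Nat.card_zpowers, hz])).symm
    obtain ⟨P, hP, l⟩ := exists_syl_ge hQ2 le_top
    have h3 : ∀ u ∈ Z[P], u ≠ 1 → u = z := fun u hu u1 => ((mem_zp2 hz).1 (h2.le ⟨hlarge (cent_anti l hu.2), cent_anti l hu.2⟩)).resolve_left u1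
    obtain ⟨⟨w, hw⟩, w1⟩ := ne_bot_iff_exists_ne_one.1 (nil_center_ne_bot (nil_of_pg hP.pg) fun e => ne_one_of_two hz (mem_bot.1 (e ▸ l h1)))
    obtain rfl := h3 w hw fun e => w1 (Subtype.ext e)
    obtain ⟨S, rfl⟩ := hP.exists_top
    refine ⟨⟨S, le_cent1_iff.2 hw.2⟩, fun u hu ⟨T, hT⟩ => ?_⟩
    obtain ⟨g, -, e⟩ := (syl_top T).conj hP
    have k : u ∈ T.1 := zpowers_le.1 ((syl_top T).le_of_norm (IsPGroup.of_card (n := 1) (by simp [hu])) le_top (hT.trans (norm_zp2 hu).ge))
    have := h3 (g * u * g⁻¹) ⟨e ▸ conj_mem_map_cj k, by rw [← e, centralizer_map_cj]; exact conj_mem_map_cj (le_cent1_iff.1 hT)⟩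
      (by simpa using ne_one_of_two hu)
    exact (isConj_iff.2 ⟨g, this⟩).symm

end Cfsg.Agent.S0481
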