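import Cfsg.Statements.S0493
import Cfsg.Agent.H1.Misc1
import Cfsg.Agent.H2.BG0
import Cfsg.Agent.H1.Sm3

set_option autoImplicit false
open Cfsg

namespace Cfsg.Agent.S0493

/-- A finite simple group of order at most 100 that is not cyclic has order 60. -/
theorem result {G : Type*} [Group G] [Finite G] [IsSimpleGroup G]
    (hG : ¬ IsCyclic G) (h : Nat.card G ≤ 100) : Nat.card G = 60 := by
  open Subgroup CfsgH2 in
  open CfsgH1 hiding card_inf_mul_relIndex card_lt_of_lt card_lt_of_ne_top card_map_mul_card_inf_ker card_mul_relIndex card_subgroupOf card_sup_dvd card_sup_mul_card_inf coprime_le_sup_cent exists_card_prime_le isNilpotent_map isNilpotent_of_le isPGroup_pCore isSolvable_map isSolvable_of_le le_pCore le_pPrimeCore relIndex_map_dvd in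
  open scoped CfsgH1 in
  open scoped commutatorElement in
  · have := Sm.small (G := G) (fun k => hG (by
      letI : CommGroup G := { (inferInstance : Group G) with mul_comm := k }
      exact IsSimpleGroup.isCyclic)) (by omega)
    omega

end Cfsg.Agent.S0493
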