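import Cfsg.Statements.S0499
import Cfsg.Agent.H2.Frob
import Cfsg.Agent.H2.Trans
import Cfsg.Agent.H2.PG1
import Cfsg.Agent.H2.Stab

set_option autoImplicit false
open Cfsg

open Cfsg CfsgH2 Function Subgroup

namespace Cfsg.Agent.S0499
theorem arith {n q c r : ℕ} (hr : r.Prime) (h2 : r ≠ 2) (a : q ≡ c [MOD r]) (b : c * 2 ∣ q) (d : q ∣ 2 ^ 3) (e : q ∣ n)
    (f : r ∣ n) : 12 ∣ n ∨ 56 ∣ n := by
  have hq : q ≤ 8 := Nat.le_of_dvd (by norm_num) d
  have h0 : 0 < q := Nat.pos_of_dvd_of_pos d (by norm_num)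
  have hc : c * 2 ≤ q := Nat.le_of_dvd h0 b
  have hc0 : 0 < c := Nat.pos_of_mul_pos_right (Nat.pos_of_dvd_of_pos b h0)
  have g := (Nat.modEq_iff_dvd' (by omega)).1 a.symm
  have hr' : r ≤ 7 := (Nat.le_of_dvd (by omega) g).trans (by omega)
  have := hr.two_le
  have hc' : c ≤ 4 := by omega
  interval_cases r <;> first | exact absurd hr (by decide) | (interval_cases q <;> interval_cases c <;> omega)

/-- A non-abelian finite simple group of even order has order divisible by 12, 16 or 56. -/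
theorem result {G : Type*} [Group G] [Finite G] [IsSimpleGroup G]
    (hG : ¬ IsMulCommutative G) (h2 : Even (Nat.card G)) :
    12 ∣ Nat.card G ∨ 16 ∣ Nat.card G ∨ 56 ∣ Nat.card G := by
  haveI : Fact (Nat.Prime 2) := ⟨Nat.prime_two⟩
  obtain ⟨P, hP⟩ := exists_syl 2 (⊤ : Subgroup G)
  by_contra hn
  simp only [not_or] at hn
  have h8 : Nat.card P ∣ 2 ^ 3 := by
    obtain ⟨k, hk⟩ := exists_card_eq_pow hP.pg
    rw [hk]
    exact pow_dvd_pow 2 (Nat.lt_succ_iff.1 (not_le.1 fun h => hn.2.1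
      ((pow_dvd_pow 2 h).trans (hk ▸ card_subgroup_dvd_card P))))
  have hN : NPC 2 (⊤ : Subgroup G) := by
    refine hP.frobenius_npc fun Q hQ _ g _ hg ho => by_contra fun hc => ?_
    obtain ⟨r, hr, hd⟩ := Nat.exists_prime_and_dvd (n := C[Q].relIndex (zpowers g))
      fun e => hc (relIndex_eq_one.1 e (mem_zpowers g))
    haveI := Fact.mk hr
    obtain ⟨x, hx, h1, h2⟩ := exists_pelem_not_mem hr hd
    have hd' : r ∣ orderOf g := hd.trans (Nat.card_zpowers g ▸ relIndex_dvd_card _ _)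
    have a := card_modEq_inf_cent (isPGroup_iff_piN.2 (by rwa [Nat.card_zpowers]) : IsPGroup r (zpowers x))
      (zpowers_le_of_mem (zpowers_le_of_mem hg hx) : _ ≤ N[Q])
    have b : Q ⊓ C[zpowers x] < Q := inf_lt_left.2 fun h => h2 (le_centralizer_iff.1 h (mem_zpowers x))
    exact (arith hr (fun e => (coprime_iff_not_dvd Nat.prime_two).1 ho (e ▸ hd')) a (mul_card_dvd_of_lt (hP.pg.to_le hQ) b)
      ((card_dvd_of_le hQ).trans h8) (card_subgroup_dvd_card Q) (hd'.trans (orderOf_dvd_natCard g))).elim hn.1 hn.2.2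
  refine hN.not_le_comm hP (hP.ne_bot (by simpa using h2.two_dvd)) (le_top.trans (Eq.ge ?_))
  exact (inferInstance : (commutator G).Normal).eq_bot_or_eq_top.resolve_left fun e =>
    hG (isMulComm_top_iff.1 (comm_self_eq_bot_iff.1 e))


end Cfsg.Agent.S0499
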