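import Cfsg.Statements.S0505
import Cfsg.Agent.H3.Hv1
import Cfsg.Agent.H9.Loc

set_option autoImplicit false
open Cfsg

namespace Cfsg.Agent.S0505
open Subgroup

/-- Let G be a finite group of even order in which the centralizer of every involution is solvable and has trivial
core (no nontrivial normal subgroup of odd order). Then G is of characteristic 2 type. -/
theorem result {G : Type*} [Group G] [Finite G]
    (h2 : Even (Nat.card G))
    (hs : ∀ t : G, orderOf t = 2 → Group.IsSolvable (Subgroup.centralizer ({t} : Set G)))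
    (hc : ∀ t : G, orderOf t = 2 → Cfsg.oddCore (Subgroup.centralizer ({t} : Set G)) = ⊥) :
    Cfsg.IsCharacteristicTwoType G := by
  refine ⟨h2, fun T hT h0 => ?_⟩
  obtain ⟨S, hS⟩ := CfsgH9.exists_syl' 2 (⊤ : Subgroup G)
  have := CfsgH9.locP_of_syl hS (fun x _ hx => by
    rw [top_inf_eq]
    exact CfsgH9.chP_of_solvable (hs x hx) (by rw [CfsgH9.Opp, show pPrimeCore 2 _ = ⊥ from hc x hx, Subgroup.map_bot]))
    T le_top hT h0
  rw [top_inf_eq] at this
  exact CfsgH9.chP_iff_sub.1 this


end Cfsg.Agent.S0505
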