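import Cfsg.Statements.S0515
import Mathlib
import Cfsg.Agent.H9.SSF9

set_option autoImplicit false
open Cfsg

namespace Cfsg.Agent.S0515

/-- Inside a finite group, let A be an elementary abelian p-subgroup of order at least p^3 normalizing a subgroup K of
order prime to p. If the centralizer in K of every non-identity element of A is solvable, then K is solvable. -/
theorem result {X : Type*} [Group X] [Finite X]
    (p : ℕ) [Fact p.Prime] (A K : Subgroup X) (hA : IsMulCommutative A) (hAp : ∀ a ∈ A, a ^ p = 1)
    (hA3 : p ^ 3 ≤ Nat.card A) (hK : (Nat.card K).Coprime p) (hAK : A ≤ Subgroup.normalizer (K : Set X))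
    (hC : ∀ a ∈ A, a ≠ 1 → Group.IsSolvable ((K ⊓ Subgroup.centralizer ({a} : Set X) : Subgroup X))) :
    Group.IsSolvable K := by
  open Subgroup CfsgH9 in
  have hA' : Cfsg.IsElementaryAbelian p A := ⟨hA, hAp⟩
  have h : SF p A fun a => K ⊓ centralizer ({a} : Set X) := ⟨hA', fun _ _ _ => inf_le_right,
    fun _ _ _ => coprime_of_le inf_le_left hK, fun a h1 _ => le_normalizer_inf hAK
      ((comm_bot_iff.1 (ea_comm hA')).trans (centralizer_anti (zpowers_le.2 h1)) |>.trans
        ((centralizer_zpowers a).le.trans le_normalizer)),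
    fun _ _ _ _ _ _ => inf_le_inf_right _ inf_le_left, hC⟩
  obtain ⟨W, h1, h2⟩ := h.cpl hA3
  exact isSolvable_of_le (ea_le_of_centralizers hA' (h.rk2 hA3) hAK hK h2) h1.sol

end Cfsg.Agent.S0515
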