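import Cfsg.Statements.S0519
import Cfsg.Agent.H2.MaxCl3

set_option autoImplicit false
open Cfsg

namespace Cfsg.Agent.S0519
open CfsgH2

/-- Let P be a finite p-group in which every abelian normal subgroup is cyclic, but which has a non-cyclic abelian
subgroup. Then p = 2 and P is generalized quaternion, dihedral of order at least 16, or quasi-dihedral. -/
theorem result {P : Type*} [Group P] [Finite P] (p : ℕ) [Fact p.Prime]
    (hP : IsPGroup p P) (hn : ∀ A : Subgroup P, A.Normal → IsMulCommutative A → IsCyclic A)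
    (hm : ∃ B : Subgroup P, IsMulCommutative B ∧ ¬ IsCyclic B) :
    p = 2 ∧ ((∃ n : ℕ, Nonempty (P ≃* QuaternionGroup n)) ∨ (∃ n : ℕ, 8 ≤ n ∧ Nonempty (P ≃* DihedralGroup n)) ∨
      Cfsg.IsQuasiDihedral P) := by
  open Subgroup Function in
  obtain ⟨B, hB1, hB2⟩ := hm
  have key := fun (A : Subgroup P) (h2 : (⊤ : Subgroup P) ≤ N[A]) (h3 : IsMulCommutative A) =>
    hn A (normal_of_top_le_norm h2) h3
  rcases cyc_or_mc (isPGroup_top_iff.2 hP) (fun A _ h2 h3 => key A h2 h3) with h | ⟨rfl, a, b, m, h⟩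
  · exact absurd (isCyclic_of_le h le_top) hB2
  refine ⟨rfl, ?_⟩
  rcases h.rel with ⟨h1, h2⟩ | ⟨h1, h2⟩ | ⟨h0, h1, h2⟩
  · refine Or.inr (Or.inl ⟨_, ?_, ⟨topEquiv.symm.trans (h.toCy2.dihedral h1 h2).some⟩⟩)
    by_contra h3
    have hm : m = 1 := by
      by_contra h4
      have := h.pos
      have : 2 ^ 3 ≤ 2 ^ (m + 1) := Nat.pow_le_pow_right (by norm_num) (by omega)
      omega
    subst hm
    have h4 := h.toCy2.el_of_invol h1
    refine h4.not_cyclic Nat.prime_two le_rfl (key _ ?_ h4.comm)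
    refine le_norm_of_commutator_le ?_ le_top
    rw [h.commutator_eq]; exact le_sup_of_le_left (by simp)
  · exact Or.inl ⟨_, ⟨topEquiv.symm.trans (h.toCy2.quaternion h1 h2).some⟩⟩
  · exact Or.inr (Or.inr (h.toCy2.quasi h0 h1 h2))

end Cfsg.Agent.S0519
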