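import Cfsg.Statements.S0520
import Mathlib
import Cfsg.Agent.H9.Kill

set_option autoImplicit false
open Cfsg

namespace Cfsg.Agent.S0520

/-- Let G be a finite group of 2-rank at least 2 and S a Sylow 2-subgroup whose commuting graph of Klein four-subgroups is
connected. Then the commuting graph of Klein four-subgroups of G is disconnected if and only if the 2-generated core — the
subgroup generated by the normalizers N_G(Q) of the subgroups Q of S that contain a Klein four-group — is a proper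
subgroup of G. -/
theorem result {G : Type*} [Group G] [Finite G] (h2 : ¬ Cfsg.PRankLE 2 1 G)
    (S : Sylow 2 G) (hS : Cfsg.IsFourConnected (S : Subgroup G)) :
    ¬ Cfsg.IsFourConnected G ↔
      (⨆ Q : {Q : Subgroup G // Q ≤ (S : Subgroup G) ∧ ¬ Cfsg.PRankLE 2 1 Q},
          Subgroup.normalizer ((Q : Subgroup G) : Set G)) ≠ ⊤ := by
  open Subgroup CfsgH9 in
  have hT := syl_sylow S
  have fc := fc_of (fourConnected_iff.1 hS)
  obtain ⟨E, e1, e2⟩ := not_pRankLE_top_iff.1 h2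
  obtain ⟨g, -, e3⟩ := hT.exists_cj_le (ea_isPGroup e1) le_top
  have vE : V2 2 S (cj g E) := ⟨e3, EAk.cj g E ⟨e1, e2⟩⟩
  generalize cj g E = E at vE
  rw [fourConnected_iff, isKConnected_iff, not_iff_not]
  set M := (⨆ Q : {Q : Subgroup G // Q ≤ (S : Subgroup G) ∧ ¬ Cfsg.PRankLE 2 1 Q},
          Subgroup.normalizer ((Q : Subgroup G) : Set G)) with hM
  have nM : ∀ Q : Subgroup G, Q ≤ S → ¬ PRankLE 2 1 Q → normalizer (Q : Set G) ≤ M := fun Q a b =>
    le_iSup (fun Q : {Q : Subgroup G // Q ≤ (S : Subgroup G) ∧ ¬ Cfsg.PRankLE 2 1 Q} =>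
      normalizer ((Q : Subgroup G) : Set G)) ⟨Q, a, b⟩
  have sM : (S : Subgroup G) ≤ M :=
    le_normalizer.trans (nM S le_rfl (not_pRankLE_iff.2 ⟨E, vE.1, vE.2⟩))
  constructor
  · intro h
    rw [eq_top_iff]
    intro x _
    have hS' := hT.of_le sM le_top
    have key : ∀ X, EAk 2 2 X → X ≤ M → normalizer (X : Set G) ≤ M := fun X a b => by
      obtain ⟨m, m1, m2⟩ := hS'.exists_cj_le (ea_isPGroup a.1) b
      have := cj_mono m⁻¹ (nM _ m2 (not_pRankLE_iff.2 ⟨_, le_rfl, EAk.cj m X a⟩))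
      rwa [← cj_normalizer, cj_inv_cj, cj_eq_of_mem (inv_mem m1)] at this
    have h1 : cj x E ≤ M := (h E _ vE.2 (EAk.cj x E vE.2)).induct (P := fun X => X ≤ M)
      (vE.1.trans sM) fun X Y a _ c ih =>
        (le_normalizer_of_commutator_eq_bot (comm_bot_symm c)).trans (key X a ih)
    have h3 := (hT.cj x⁻¹)
    obtain ⟨T, t1, t2⟩ := exists_syl_ge (ea_isPGroup vE.2.1)
      (le_inf (vE.1.trans sM) (by simpa only [cj_inv_cj] using cj_mono x⁻¹ h1) : E ≤ M ⊓ cj x⁻¹ M)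
    have k2 : ∀ T : Subgroup G, IsPGroup 2 T → T ≤ M → (∃ E ≤ T, EAk 2 2 E) →
        normalizer (T : Set G) ≤ M := fun T a b ⟨E, c, d⟩ => by
      obtain ⟨m, m1, m2⟩ := hS'.exists_cj_le a b
      have := cj_mono m⁻¹ (nM _ m2 (not_pRankLE_iff.2 ⟨_, cj_mono m c, EAk.cj m E d⟩))
      rwa [← cj_normalizer, cj_inv_cj, cj_eq_of_mem (inv_mem m1)] at this
    have k3 : normalizer (T : Set G) ≤ cj x⁻¹ M := by
      have := cj_mono x⁻¹ (k2 (cj x T) (t1.pg.map _) (by
        simpa only [cj_cj_inv] using cj_mono x (t1.le.trans inf_le_right))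
        ⟨_, cj_mono x t2, EAk.cj x E vE.2⟩)
      rwa [← cj_normalizer, cj_inv_cj] at this
    have k4 : Syl 2 T ⊤ := syl_of_syl_normalizer (t1.of_le (le_inf le_normalizer le_top)
      (inf_le_left.trans (le_inf (k2 T t1.pg (t1.le.trans inf_le_left) ⟨E, t2, vE.2⟩) k3)))
    obtain ⟨a, a1, a2⟩ := (k4.of_le (t1.le.trans inf_le_left) le_top).conj hS'
    obtain ⟨b, b1, b2⟩ := ((k4.cj_of_mem (g := x) (le_normalizer (mem_top x))).of_le (by
      simpa only [cj_cj_inv] using cj_mono x (t1.le.trans inf_le_right)) le_top).conj hS'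
    have : b * x * a⁻¹ ∈ M := nM S le_rfl (not_pRankLE_iff.2 ⟨E, vE.1, vE.2⟩) (cj_eq_iff.1 (by
      rw [← cj_cj, ← cj_cj, ← a2, cj_inv_cj, a2, b2]))
    exact (mul_mem_cancel_left b1).1 ((mul_mem_cancel_right (inv_mem a1)).1 this)
  · intro h
    have c : ∀ V, V2 2 S V → Conn (EAk 2 2) E V := fun V hV => (fc E V vE hV).mono fun _ h => h.2
    have k : M ≤ connStab (EAk 2 2) (fun g A => EAk.cj g A) E := iSup_le fun Q x hx => by
      obtain ⟨V, a, b⟩ := not_pRankLE_iff.1 Q.2.2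
      exact (c _ ⟨(cj_le_of_mem_normalizer hx a).trans Q.2.1, EAk.cj x V b⟩).trans
        ((c V ⟨a.trans Q.2.1, b⟩).cj (fun g A => EAk.cj g A) x).symm
    have k2 : ∀ V, EAk 2 2 V → Conn (EAk 2 2) E V := fun V hV => by
      obtain ⟨x, -, x1⟩ := hT.exists_cj_le (ea_isPGroup hV.1) le_top
      have := (c _ ⟨x1, EAk.cj x V hV⟩).cj (fun g A => EAk.cj g A) x⁻¹
      rw [cj_inv_cj] at this
      exact Conn.trans (k (h.ge (mem_top x⁻¹))) this
    exact fun U V hU hV => (k2 U hU).symm.trans (k2 V hV)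

end Cfsg.Agent.S0520
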