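import Cfsg.Statements.S0521
import Mathlib
import Cfsg.Agent.H9.Tb6

set_option autoImplicit false
open Cfsg

namespace Cfsg.Agent.S0521

/-- Let X be a finite solvable group of odd order, p a prime and S a Sylow p-subgroup of X whose commutator subgroup is
cyclic. Then the product of the largest normal subgroup of X of order prime to p with S is a normal subgroup of X. -/
theorem result {X : Type*} [Group X] [Finite X] [Group.IsSolvable X]
    (hX : Odd (Nat.card X)) (p : ℕ) [Fact p.Prime] (S : Sylow p X) (hS : IsCyclic (commutator (S : Subgroup X))) :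
    (Cfsg.pPrimeCore p X ⊔ (S : Subgroup X)).Normal := by
  open Subgroup Cfsg CfsgH2 Function CfsgCP CfsgTB in
  obtain ⟨G', _, _, f, V, _, a, b, c⟩ := exists_BC (CfsgH1.isPSolvable_of_isSolvable (G := X) (p := p) Fact.out)
  have s := map_top_of_surjective f a ▸ (syl_top S).map f
  obtain ⟨D, -, d1, d2, d3⟩ := exists_quad_core (M := ⊤) (map_top_of_surjective f a ▸ isSolvable_map f
    (isSolvable_top_iff.2 ‹_›)) (by
      rw [card_top]; exact hX.of_dvd_nat (card_dvd_of_surjective f a)) le_top le_normalizer_of_normal
    (elem_pgroup b.el)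
  have cy : Cyc[⁅(S : Subgroup X).map f, (S : Subgroup X).map f⁆] := by
    rw [← map_commutator, ← map_subtype_top (S : Subgroup X), ← map_commutator]
    exact isCyclic_map _ (isCyclic_map _ hS)
  have l := comm_le_left (le_normalizer_of_normal (H := V) (K := (S : Subgroup X).map f))
  haveI := top_le_norm_iff.1 d1
  have := (d3 _ le_top (comm_eq_bot_iff.2 (le_cent_of_card (card_dvd_of_cyc (isCyclic_of_le cy
    (commutator_mono (b.le s) le_rfl)) fun z hz => b.el.2 z (l hz)) s.pg le_norm_comm_right))).trans
    (b.le_of_normal (isPGroup_of_piRes ((elem_pgroup b.el).to_le (d2.trans b.cent))))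
  rw [map_le_iff_le_comap, c, ← Opp_top] at this
  rw [pPrimeCore_eq']
  exact top_le_norm_iff.1 ((pl1_of_syl (syl_top S) this).le_norm (syl_top S))

end Cfsg.Agent.S0521
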