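import Cfsg.Statements.S1302
import Cfsg.Agent.H3.Hv3
import Cfsg.Agent.H9.Tech
import Cfsg.Agent.L0.PCon
import Cfsg.Agent.L0.ZJ2

set_option autoImplicit false
open Cfsg

namespace Cfsg.Agent.S1302
open Subgroup CfsgH2 CfsgHv MulAction

/-- Let X be a finite p-constrained group, p an odd prime, and A an abelian p-subgroup of X containing every element of order p of C_X(A). Then every subgroup of X of order prime to p that is normalized by A lies in O_{p'}(X). -/
theorem result {X : Type*} [Group X] [Finite X] (p : ℕ) [Fact p.Prime] (hp : p ≠ 2) (hX : Cfsg.IsPConstrained p X) (A : Subgroup X) (hA : IsMulCommutative ↥A) (hAp : IsPGroup p ↥A) (hΩ : ∀ x ∈ Subgroup.centralizer (A : Set X), orderOf x = p → x ∈ A) (Q : Subgroup X) (hQ : ¬ p ∣ Nat.card ↥Q) (hAQ : A ≤ Subgroup.normalizer (Q : Set X)) : Q ≤ Cfsg.pPrimeCore p X := by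
  set f := QuotientGroup.mk' (pPrimeCore p X)
  have hf : Function.Surjective f := QuotientGroup.mk'_surjective _
  have c := CfsgH9.chP_top_iff'.2 (con_top_iff.2 (CfsgL0.pcon_iff.1 hX))
  have := c.eq_bot_of_invariant hp (A := A.map f) (Q := Q.map f) (hAp.map f) (by rw [norm_top]; exact le_top)
    (fun x _ hc hx => ?_) (((coprime_iff_not_dvd Fact.out).2 hQ).coprime_dvd_left (card_map_dvd _ _)) le_top
    ((map_mono hAQ).trans (le_normalizer_map f))
  · rw [Subgroup.map_eq_bot_iff, QuotientGroup.ker_mk'] at this; exact this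
  · rw [← CfsgL0.map_cent_of_coprime hf CfsgL0.nd_ker_mk hAp] at hc
    obtain ⟨y, hy, rfl⟩ := hc
    obtain ⟨a, ha, h1, h2⟩ := CfsgH1.exists_pi_lift f (π := {p})
      ((PiN.of_prime Fact.out (Set.mem_singleton p)).of_dvd (orderOf_dvd_of_pow_eq_one hx))
    rw [← h2] at hx ⊢
    have m : a ^ p ∈ f.ker := by rw [MonoidHom.mem_ker, map_pow, hx]
    have e : a ^ p = 1 := orderOf_eq_one_iff.1 ((h1.of_dvd (orderOf_pow_dvd p)).eq_one
      (((piN_compl_singleton Fact.out).2 CfsgL0.nd_ker_mk).of_dvd (orderOf_dvd_of_mem m)))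
    by_cases a1 : a = 1
    · simp [a1]
    exact (map_mono hAQ).trans (le_normalizer_map f)
      ⟨a, hΩ a (zpowers_le.2 hy ha) (orderOf_eq_prime e a1), rfl⟩


end Cfsg.Agent.S1302
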