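import Cfsg.Statements.S0522
import Cfsg.Agent.H3.Hv3
import Cfsg.Agent.S1302
import Cfsg.Agent.H2.FT
import Cfsg.Agent.H2.OddStab

set_option autoImplicit false
open Cfsg

namespace Cfsg.Agent.S0522
open Subgroup CfsgH2 CfsgHv MulAction

/-- Transitivity Theorem (odd-order setting). Let X be a finite group of odd order in which the normalizer of every
nontrivial p-subgroup is solvable, P a Sylow p-subgroup, and B an abelian subgroup of P, normalized by P, with
C_P(B) = B and containing an elementary abelian subgroup of order p^3. Then for every prime q ≠ p, any two q-subgroups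
that are maximal among the q-subgroups normalized by B are conjugate by an element of the centralizer of B. -/
theorem result {X : Type*} [Group X] [Finite X] (hX : Odd (Nat.card X)) (p : ℕ)
    [Fact p.Prime] (hloc : ∀ T : Subgroup X, IsPGroup p T → T ≠ ⊥ → Group.IsSolvable (Subgroup.normalizer (T : Set X)))
    (P : Sylow p X) (B : Subgroup X) (hBP : B ≤ (P : Subgroup X))
    (hBn : ∀ x ∈ (P : Subgroup X), ∀ b ∈ B, x * b * x⁻¹ ∈ B) (hBa : IsMulCommutative B)
    (hBc : (P : Subgroup X) ⊓ Subgroup.centralizer (B : Set X) = B)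
    (hB3 : ∃ E : Subgroup X, E ≤ B ∧ (∀ e ∈ E, e ^ p = 1) ∧ p ^ 3 ≤ Nat.card E)
    (q : ℕ) [Fact q.Prime] (hqp : q ≠ p) (Q₁ Q₂ : Subgroup X)
    (h₁ : IsPGroup q Q₁ ∧ B ≤ Subgroup.normalizer (Q₁ : Set X) ∧
      ∀ R : Subgroup X, IsPGroup q R → B ≤ Subgroup.normalizer (R : Set X) → Q₁ ≤ R → R = Q₁)
    (h₂ : IsPGroup q Q₂ ∧ B ≤ Subgroup.normalizer (Q₂ : Set X) ∧
      ∀ R : Subgroup X, IsPGroup q R → B ≤ Subgroup.normalizer (R : Set X) → Q₂ ≤ R → R = Q₂) :
    ∃ c ∈ Subgroup.centralizer (B : Set X), Q₂ = Q₁.map (MulAut.conj c).toMonoidHom := by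
  haveI := ft hX
  have pB := P.isPGroup'.to_le hBP
  obtain ⟨E, hE, -, cE⟩ := hB3
  have p2 : p ≠ 2 := by
    refine odd_ne_two (H := B) (hX.of_dvd_nat (card_subgroup_dvd_card B)) (dvd_card_of_pgroup pB ?_)
    rintro rfl
    rw [le_bot_iff.1 hE, card_bot] at cE
    exact absurd cE (not_le.2 (Nat.one_lt_pow (by norm_num) (Fact.out : p.Prime).one_lt))
  have s1 : Syl p B C[B] := by
    have := (syl_top P).inf_norm (K := C[B]) le_top (le_norm_cent fun x hx => mem_norm_of_conj (hBn x hx))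
    rwa [hBc] at this
  have key : ∀ Q : Subgroup X, IsPGroup q Q → B ≤ N[Q] → Q ≤ pPrimeCore p X := fun Q h1 h2 =>
    Cfsg.Agent.S1302.result p p2 (CfsgL0.pcon_iff.2 (con_of_core' inferInstance CfsgL0.core'_quot)) B hBa pB
      (fun x hx ho => s1.mem_of_norm (cent_le_norm _) hx (k := 1) (by rw [pow_one, ← ho, pow_orderOf_eq_one]))
      Q ((coprime_iff_not_dvd Fact.out).1 (coprime_of_pgroup h1 fun h =>
        hqp ((Nat.prime_dvd_prime_iff_eq Fact.out Fact.out).1 h))) h2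
  have hn : B ≤ N[pPrimeCore p X] := le_top.trans (top_le_norm_iff.2 inferInstance)
  have hc := coprime_of_pgroup pB (not_dvd_pPrimeCore (G := X))
  have sy : ∀ Q : Subgroup X, IsPGroup q Q ∧ B ≤ N[Q] ∧ (∀ R : Subgroup X, IsPGroup q R → B ≤ N[R] → Q ≤ R → R = Q) →
      Syl q Q (pPrimeCore p X) := fun Q h => by
    obtain ⟨R, h1, h2, h3⟩ := exists_inv_syl_ge hn hc (Or.inr inferInstance) (key Q h.1 h.2.1) h.1 h.2.1
    exact h.2.2 R h1.pg h2 h3 ▸ h1
  obtain ⟨c, hc, e⟩ := inv_syl_conj hn hc (Or.inr inferInstance) (sy _ h₁) (sy _ h₂) h₁.2.1 h₂.2.1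
  exact ⟨c, hc.2, e.symm⟩


end Cfsg.Agent.S0522
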