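import Cfsg.Statements.S0525
import Cfsg.Agent.H1.SS2

set_option autoImplicit false
open Cfsg

namespace Cfsg.Agent.S0525

/-- A direct product of two finite supersolvable groups is supersolvable. -/
theorem result {G H : Type*} [Group G] [Group H] [Finite G] [Finite H] (hG : Cfsg.IsSupersolvable G) (hH : Cfsg.IsSupersolvable H) : Cfsg.IsSupersolvable (G × H) := by
  open Pointwise CfsgH1 Subgroup in open scoped commutatorElement in
  · rw [isSupersolvable_iff] at hG hH ⊢
    refine SS.of_ker_inf_ker (MonoidHom.fst G H) (MonoidHom.snd G H) ?_ hG hH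
    rw [eq_bot_iff]
    rintro ⟨a, b⟩ ⟨h1, h2⟩
    exact Prod.ext h1 h2

end Cfsg.Agent.S0525
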