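import Cfsg.Statements.S0529
import Cfsg.Agent.H1.SS2

set_option autoImplicit false
open Cfsg

namespace Cfsg.Agent.S0529

section
open Pointwise CfsgH1 Subgroup
open scoped commutatorElement

theorem aux (n : ℕ) : ∀ (G : Type*) [Group G] [Finite G], Nat.card G = n → SS G →
    ∃ (n : ℕ) (H : Fin (n + 1) → Subgroup G), H 0 = ⊥ ∧ H (Fin.last n) = ⊤ ∧ (∀ i, (H i).Normal) ∧
    (∀ i : Fin n, H i.castSucc ≤ H i.succ ∧ ((H i.castSucc).relIndex (H i.succ)).Prime) ∧
    ∀ i j : Fin n, i ≤ j →
      (H j.castSucc).relIndex (H j.succ) ≤ (H i.castSucc).relIndex (H i.succ) := by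
  induction n using Nat.strong_induction_on with
  | _ n ih =>
    intro G _ _ hn h
    rcases subsingleton_or_nontrivial G with _ | _
    · exact ⟨0, fun _ => ⊥, rfl, Subsingleton.elim _ _, fun _ => inferInstance, fun i => i.elim0,
        fun i => i.elim0⟩
    obtain ⟨p, hp, hd, hmax⟩ := exists_max_prime_dvd (n := Nat.card G) Nat.card_pos.ne'
      Finite.one_lt_card.ne'
    obtain ⟨N, _, hN⟩ := h.exists_normal_card_eq_max hp hd hmax
    obtain ⟨m, H, h0, h1, h2, h3, h4⟩ := ih _ (hn ▸ card_quotient_lt fun h =>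
      hp.ne_one (hN ▸ card_eq_one.mpr h)) (G ⧸ N) rfl (h.quotient N)
    have e : ∀ A B : Subgroup (G ⧸ N), (A.comap (QuotientGroup.mk' N)).relIndex
        (B.comap (QuotientGroup.mk' N)) = A.relIndex B := fun A B => by
      rw [relIndex_comap, map_comap_mk']
    have e0 : (⊥ : Subgroup G).relIndex ((H 0).comap (QuotientGroup.mk' N)) = p := by
      rw [h0, MonoidHom.comap_bot, QuotientGroup.ker_mk', relIndex_bot_left, hN]
    refine ⟨m + 1, Fin.cons ⊥ fun i => (H i).comap (QuotientGroup.mk' N), rfl, ?_, ?_, ?_, ?_⟩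
    · rw [← Fin.succ_last, Fin.cons_succ, h1, comap_top]
    · intro i
      refine Fin.cases ?_ (fun i => ?_) i
      · rw [Fin.cons_zero]; infer_instance
      · rw [Fin.cons_succ]; have := h2 i; infer_instance
    · intro i
      refine Fin.cases ?_ (fun i => ?_) i
      · rw [Fin.castSucc_zero, Fin.cons_zero, Fin.cons_succ, e0]; exact ⟨bot_le, hp⟩
      · rw [← Fin.succ_castSucc, Fin.cons_succ, Fin.cons_succ, e]
        exact ⟨comap_mono (h3 i).1, (h3 i).2⟩
    · intro i j
      refine Fin.cases ?_ (fun j => ?_) j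
      · intro h; rw [Fin.le_zero_iff.mp h]
      · refine Fin.cases ?_ (fun i => ?_) i
        · intro _
          rw [Fin.castSucc_zero, Fin.cons_zero, Fin.cons_succ, Fin.cons_succ, e0,
            ← Fin.succ_castSucc, Fin.cons_succ, e]
          exact hmax _ (h3 j).2 (((relIndex_dvd_card _ _).trans (card_subgroup_dvd_card _)).trans
            N.index_dvd_card)
        · intro h
          simp only [← Fin.succ_castSucc, Fin.cons_succ, e]
          exact h4 i j (Fin.succ_le_succ_iff.mp h)

end

/-- A finite supersolvable group has a chain of normal subgroups, from the trivial subgroup to the whole group, in which every step has prime index and the primes occurring are non-increasing as one goes up the chain. -/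
theorem result {G : Type*} [Group G] [Finite G] (hG : Cfsg.IsSupersolvable G) : ∃ (n : ℕ) (H : Fin (n + 1) → Subgroup G), H 0 = ⊥ ∧ H (Fin.last n) = ⊤ ∧ (∀ i, (H i).Normal) ∧ (∀ i : Fin n, H i.castSucc ≤ H i.succ ∧ ((H i.castSucc).relIndex (H i.succ)).Prime) ∧ ∀ i j : Fin n, i ≤ j → (H j.castSucc).relIndex (H j.succ) ≤ (H i.castSucc).relIndex (H i.succ) := by
  open Pointwise CfsgH1 Subgroup in open scoped commutatorElement in
  · exact aux _ G rfl (isSupersolvable_iff.mp hG)

end Cfsg.Agent.S0529
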