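import Cfsg.Statements.S0530
import Cfsg.Agent.H1.SS2

set_option autoImplicit false
open Cfsg

namespace Cfsg.Agent.S0530

section
open Pointwise CfsgH1 Subgroup
open scoped commutatorElement

theorem inv_conj_pow' {G : Type*} [Group G] (t v : G) (n : ℕ) :
    (t⁻¹ * v * t) ^ n = t⁻¹ * v ^ n * t := by simpa using conj_pow (a := t⁻¹) (b := v) (i := n)

end

/-- A finite group whose order is twice a prime power is supersolvable. -/
theorem result {G : Type*} [Group G] [Finite G] (p n : ℕ) (hp : p.Prime) (hG : Nat.card G = 2 * p ^ n) : Cfsg.IsSupersolvable G := by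
  open Pointwise CfsgH1 Subgroup in open scoped commutatorElement in
  · rw [isSupersolvable_iff]
    have := Fact.mk hp
    by_cases h2 : p = 2
    · have := (IsPGroup.of_card (p := p) (n := n + 1) (by rw [hG, pow_succ', h2])).isNilpotent
      exact SS.of_isNilpotent
    obtain ⟨P, hP⟩ := exists_isSylowIn p (⊤ : Subgroup G)
    have h1 : P.index = 2 := by
      have h3 := P.card_mul_index
      rw [hP.card_eq, card_top, hG, Nat.factorization_mul two_ne_zero (pow_ne_zero _ hp.ne_zero),
        Finsupp.add_apply, hp.factorization_pow, Finsupp.single_eq_same,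
        Nat.factorization_eq_zero_of_not_dvd (fun h => h2 ((Nat.prime_dvd_prime_iff_eq hp
          Nat.prime_two).mp h)), zero_add, mul_comm, Nat.mul_left_inj (pow_ne_zero _ hp.ne_zero)] at h3
      exact h3
    have := normal_of_index_eq_two h1
    refine SSTo.step P ⊤ 2 (SSTo.of_forall_quotient fun N _ hlt => ?_) le_top inferInstance
      Nat.prime_two (by rw [relIndex_top_right, h1])
    have hP' := hP.isPGroup.map (QuotientGroup.mk' N)
    have h0 := mt (map_mk'_eq_bot_iff N).mp hlt.not_ge
    have h3 : (P.map (QuotientGroup.mk' N)).index = 2 := by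
      rw [index_map_mk', sup_eq_left.mpr hlt.le, h1]
    have := normal_map_mk' N P
    generalize P.map (QuotientGroup.mk' N) = Q at *
    have := hP'.isNilpotent
    obtain ⟨M, hM, hMp⟩ := exists_card_prime_le' (inf_centralizer_ne_bot_of_isNilpotent (le_refl Q)
      le_normalizer h0)
    have := Fact.mk hMp
    obtain ⟨v, rfl⟩ := (Subgroup.isCyclic_iff_exists_zpowers_eq_top M).mp (isCyclic_of_prime_card rfl)
    obtain ⟨hv1, hv2⟩ := mem_inf.mp (hM (mem_zpowers v))
    obtain ⟨t, ht, ht'⟩ := index_eq_two_iff_exists_notMem_and.mp h3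
    have key : ∀ w, w ∈ centralizer (Q : Set (G ⧸ N)) → t⁻¹ * w * t ∈ zpowers w →
        (zpowers w).Normal := fun w hw h => normal_of_top_le_normalizer fun g _ => by
      have hQ : Q ≤ normalizer (zpowers w : Set (G ⧸ N)) := (le_centralizer_iff.mp
        (zpowers_le.mpr hw)).trans (centralizer_le_normalizer _)
      refine (ht' g).elim (fun hg => ?_) fun hg => hQ hg
      have h1 : t⁻¹ ∈ normalizer (zpowers w : Set (G ⧸ N)) := mem_normalizer_of_conj_mem (by
        rintro _ ⟨k, rfl⟩
        have := zpow_mem h k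
        rw [← conj_zpow, inv_inv]
        exact this)
      simpa using mul_mem (hQ hg) h1
    have hc : t⁻¹ * v * t ∈ centralizer (Q : Set (G ⧸ N)) := Normal.conj_mem' inferInstance v hv2 t
    have hq : t⁻¹ * v * t ∈ Q := Normal.conj_mem' inferInstance v hv1 t
    by_cases hw : v * (t⁻¹ * v * t) = 1
    · exact ⟨_, key v hv2 (by rw [eq_inv_of_mul_eq_one_right hw]; exact inv_mem (mem_zpowers v)),
        hM.trans inf_le_left, hMp⟩
    · refine ⟨zpowers (v * (t⁻¹ * v * t)), key _ (mul_mem hv2 hc) ?_, zpowers_le.mpr (mul_mem hv1 hq), ?_⟩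
      · have h4 := hv2 _ (mul_self_mem_of_index_two h3 t)
        have : t⁻¹ * (v * (t⁻¹ * v * t)) * t = v * (t⁻¹ * v * t) := by
          calc _ = t⁻¹ * v * t * (t⁻¹ * t⁻¹ * (v * (t * t))) := by group
            _ = t⁻¹ * v * t * v := by rw [← h4]; group
            _ = _ := (hc v hv1).symm
        rw [this]; exact mem_zpowers _
      · rw [Nat.card_zpowers] at hMp ⊢
        have := Fact.mk hMp
        rwa [orderOf_eq_prime (p := orderOf v) ?_ hw]
        have hcomm : Commute v (t⁻¹ * v * t) := hc v hv1
        rw [hcomm.mul_pow, pow_orderOf_eq_one, one_mul, inv_conj_pow' , pow_orderOf_eq_one]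
        group

end Cfsg.Agent.S0530
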