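import Cfsg.Statements.S0532
import Cfsg.Agent.H1.KW
import Cfsg.Agent.H1.Gasch
import Cfsg.Agent.H1.Frob2
import Cfsg.Agent.H2.MaxCl2
import Cfsg.Agent.H1.HH

set_option autoImplicit false
open Cfsg

namespace Cfsg.Agent.S0532

/-- If each subgroup of a finite group satisfies the converse of Lagrange's theorem, then a Sylow subgroup for the largest prime dividing the group order is normal. -/
theorem result {G : Type*} [Group G] [Finite G] (h : ∀ H : Subgroup G, Cfsg.HasSubgroupOfEveryOrder H) (p : ℕ) [Fact p.Prime] (hdvd : p ∣ Nat.card G) (hmax : ∀ q : ℕ, q.Prime → q ∣ Nat.card G → q ≤ p) (P : Sylow p G) : (P : Subgroup G).Normal := by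
  open Pointwise Subgroup CfsgH1 in
  open CfsgH2 hiding card_inf_mul_relIndex card_lt_of_lt card_lt_of_ne_top card_map_mul_card_inf_ker card_mul_relIndex card_subgroupOf card_sup_dvd card_sup_mul_card_inf exists_card_prime_le isNilpotent_map isNilpotent_of_le isPGroup_pCore isSolvable_map isSolvable_of_le le_pCore le_pPrimeCore relIndex_map_dvd in
  open scoped CfsgH2 in
  open scoped commutatorElement in
  · exact normal_of_top_le_norm (le_norm_of_clt ⊤ (fun H _ => clt_iff.2 (h H))
      (fun q hq hd => hmax q hq (by rwa [card_top] at hd)) (syl_top P))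

end Cfsg.Agent.S0532
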