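import Cfsg.Statements.S0534
import Cfsg.Agent.H1.KW
import Cfsg.Agent.H1.Gasch
import Cfsg.Agent.H1.Frob2
import Cfsg.Agent.H2.MaxCl2
import Cfsg.Agent.H1.HH

set_option autoImplicit false
open Cfsg

namespace Cfsg.Agent.S0534

/-- Let G be a finite solvable group and A a finite abelian group such that every prime dividing the order of A divides the order of G and, for each prime p dividing the order of G, the exponent of p in the order of A is one less than its exponent in the order of G. Then G × A has a subgroup of every order dividing its order. -/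
theorem result {G A : Type*} [Group G] [CommGroup A] [Finite G] [Finite A] [Group.IsSolvable G] (hA : ∀ p : ℕ, p.Prime → p ∣ Nat.card A → p ∣ Nat.card G) (hexp : ∀ p : ℕ, p.Prime → p ∣ Nat.card G → (Nat.card A).factorization p + 1 = (Nat.card G).factorization p) : Cfsg.HasSubgroupOfEveryOrder (G × A) := by
  open Pointwise Subgroup CfsgH1 in
  open CfsgH2 hiding card_inf_mul_relIndex card_lt_of_lt card_lt_of_ne_top card_map_mul_card_inf_ker card_mul_relIndex card_subgroupOf card_sup_dvd card_sup_mul_card_inf exists_card_prime_le isNilpotent_map isNilpotent_of_le isPGroup_pCore isSolvable_map isSolvable_of_le le_pCore le_pPrimeCore relIndex_map_dvd in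
  open scoped CfsgH2 in
  open scoped commutatorElement in
  · intro d hd
    have g0 : Nat.card G ≠ 0 := Nat.card_pos.ne'
    have a0 : Nat.card A ≠ 0 := Nat.card_pos.ne'
    rw [Nat.card_prod] at hd
    have d0 : d ≠ 0 := fun e => mul_ne_zero g0 a0 (by simpa [e] using hd)
    obtain ⟨H, hH⟩ := exists_hallIn {p | (Nat.card G).factorization p ≤ d.factorization p} (⊤ : Subgroup G)
    obtain ⟨h1, h2⟩ := hallIn_top_iff'.1 hH
    have h0 := (card_pos' H).ne'
    have e := fun p => congrArg (fun n => n.factorization p) H.card_mul_index
    simp only [Nat.factorization_mul h0 (CfsgH2.index_pos H).ne', Finsupp.add_apply] at e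
    have k1 : ∀ p : ℕ, p.Prime → ¬ (Nat.card G).factorization p ≤ d.factorization p →
        (Nat.card H).factorization p = 0 := fun p hp h =>
      Nat.factorization_eq_zero_of_not_dvd fun hd => h (h1 p hp hd)
    have k2 : ∀ p : ℕ, p.Prime → (Nat.card G).factorization p ≤ d.factorization p →
        H.index.factorization p = 0 := fun p hp h =>
      Nat.factorization_eq_zero_of_not_dvd fun hd => h2 p hp hd h
    obtain ⟨m, rfl⟩ : Nat.card H ∣ d := (Nat.factorization_prime_le_iff_dvd h0 d0).1 fun p hp => by
      by_cases h : (Nat.card G).factorization p ≤ d.factorization p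
      · have := e p; omega
      · rw [k1 p hp h]; exact Nat.zero_le _
    have m0 : m ≠ 0 := right_ne_zero_of_mul d0
    have hm : m ∣ Nat.card A := (Nat.factorization_prime_le_iff_dvd m0 a0).1 fun p hp => by
      have h3 := (Nat.factorization_prime_le_iff_dvd d0 (mul_ne_zero g0 a0)).2 hd p hp
      have h4 := k1 p hp
      have h5 := k2 p hp
      have h6 := e p
      rw [Nat.factorization_mul g0 a0] at h3
      simp only [Nat.factorization_mul h0 m0, Finsupp.add_apply] at h3 h4 h5
      by_cases h : p ∣ Nat.card G
      · have := hexp p hp h; omega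
      · have := Nat.factorization_eq_zero_of_not_dvd h; omega
    obtain ⟨B, hB⟩ := (SS.of_isNilpotent (G := A)).exists_card_eq hm
    exact ⟨H.prod B, by rw [Nat.card_congr (H.prodEquiv B).toEquiv, Nat.card_prod, hB]⟩

end Cfsg.Agent.S0534
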