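import Cfsg.Statements.S0535
import Cfsg.Agent.H1.Schmidt

set_option autoImplicit false
open Cfsg

namespace Cfsg.Agent.S0535

/-- Suppose that for every nontrivial subgroup H of a finite group and every prime p dividing the order of H there is a proper subgroup of H whose index in H is a power of p. Then the group is solvable. -/
theorem result {G : Type*} [Group G] [Finite G] (h : ∀ H : Subgroup G, H ≠ ⊥ → ∀ p : ℕ, p.Prime → p ∣ Nat.card H → ∃ K : Subgroup H, K ≠ ⊤ ∧ ∃ k : ℕ, K.index = p ^ k) : Group.IsSolvable G := by
  open Pointwise Subgroup CfsgH1 in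
  open CfsgH2 hiding card_inf_mul_relIndex card_lt_of_lt card_lt_of_ne_top card_map_mul_card_inf_ker card_mul_relIndex card_subgroupOf card_sup_dvd card_sup_mul_card_inf exists_card_prime_le isNilpotent_map isNilpotent_of_le isPGroup_pCore isSolvable_map isSolvable_of_le le_pCore le_pPrimeCore relIndex_map_dvd in
  open scoped CfsgH2 in
  open scoped commutatorElement in
  · rw [← isSolvable_top_iff]
    refine isSolvable_of_hall_compl _ fun p hp _ => ?_
    obtain ⟨H, -, h1, h2⟩ := exists_minimal_le (fun H : Subgroup G => PiNum {p} H.index) (H := ⊤)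
      (by simpa using PiNum.one)
    refine ⟨H, le_top, (piN_compl_singleton hp).2 fun hd => ?_, by rwa [compl_compl, relIndex_top_right]⟩
    obtain ⟨K, h3, k, hk⟩ := h H (by rintro rfl; exact hp.ne_one (by simpa using hd)) p hp hd
    refine h3 (map_injective H.subtype_injective ((h2 _ ?_ (map_subtype_le K)).trans
      (map_subtype_top H).symm))
    rw [← relIndex_mul_index (map_subtype_le K), relIndex_map_subtype, hk]
    exact (PiNum.pow (π := {p}) hp rfl k).mul h1

end Cfsg.Agent.S0535
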