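import Cfsg.Statements.S0536
import Cfsg.Agent.H1.Schmidt

set_option autoImplicit false
open Cfsg

namespace Cfsg.Agent.S0536

/-- Structure of minimal non-nilpotent groups: if a finite group is not nilpotent but all its proper subgroups are, then there are distinct primes p and q, a cyclic Sylow p-subgroup P and a normal Sylow q-subgroup Q with G generated by P and Q. -/
theorem result {G : Type*} [Group G] [Finite G] (hG : Cfsg.IsMinimalNonNilpotent G) : ∃ p q : ℕ, p.Prime ∧ q.Prime ∧ p ≠ q ∧ ∃ (P : Sylow p G) (Q : Sylow q G), IsCyclic P ∧ (Q : Subgroup G).Normal ∧ (P : Subgroup G) ⊔ Q = ⊤ := by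
  open Pointwise Subgroup CfsgH1 in
  open CfsgH2 hiding card_inf_mul_relIndex card_lt_of_lt card_lt_of_ne_top card_map_mul_card_inf_ker card_mul_relIndex card_subgroupOf card_sup_dvd card_sup_mul_card_inf exists_card_prime_le isNilpotent_map isNilpotent_of_le isPGroup_pCore isSolvable_map isSolvable_of_le le_pCore le_pPrimeCore relIndex_map_dvd in
  open scoped CfsgH2 in
  open scoped commutatorElement in
  · obtain ⟨p, q, x, Q, hp, hq, hne, h1, h2, h3, h4, -⟩ := schmidt_structure (L := (⊤ : Subgroup G))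
      (fun h => hG.1 (Group.isNilpotent_top.1 h)) fun H hH => hG.2 H hH.ne
    haveI := Fact.mk hp
    haveI := Fact.mk hq
    obtain ⟨P, hP⟩ := h1.exists_top
    obtain ⟨Q, rfl⟩ := h2.exists_top
    exact ⟨p, q, hp, hq, hne, P, Q, isCyclic_iff_zpowers.2 ⟨x, hP.symm⟩, normal_of_top_le_norm h3,
      by rwa [hP, sup_comm]⟩

end Cfsg.Agent.S0536
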