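import Cfsg.Statements.S0537
import Cfsg.Agent.H1.Schmidt

set_option autoImplicit false
open Cfsg

namespace Cfsg.Agent.S0537

/-- A finite non-abelian group in which every proper subgroup is abelian is either of prime-power order, or is generated by a cyclic Sylow p-subgroup and a normal Sylow q-subgroup that is elementary abelian, for distinct primes p and q. -/
theorem result {G : Type*} [Group G] [Finite G] (hna : ¬ IsMulCommutative G) (h : ∀ H : Subgroup G, H ≠ ⊤ → IsMulCommutative H) : (∃ p : ℕ, p.Prime ∧ IsPGroup p G) ∨ ∃ p q : ℕ, p.Prime ∧ q.Prime ∧ p ≠ q ∧ ∃ (P : Sylow p G) (Q : Sylow q G), IsCyclic P ∧ (Q : Subgroup G).Normal ∧ Cfsg.IsElementaryAbelian q (Q : Subgroup G) ∧ (P : Subgroup G) ⊔ Q = ⊤ := by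
  open Pointwise Subgroup CfsgH1 in
  open CfsgH2 hiding card_inf_mul_relIndex card_lt_of_lt card_lt_of_ne_top card_map_mul_card_inf_ker card_mul_relIndex card_subgroupOf card_sup_dvd card_sup_mul_card_inf exists_card_prime_le isNilpotent_map isNilpotent_of_le isPGroup_pCore isSolvable_map isSolvable_of_le le_pCore le_pPrimeCore relIndex_map_dvd in
  open scoped CfsgH2 in
  open scoped commutatorElement in
  · by_cases hn : Group.IsNilpotent (⊤ : Subgroup G)
    · left
      by_contra hc
      exact hna (isMulComm_top_iff.1 (isMulComm_of_nilpotent_of_sylow hn fun p hp P hP =>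
        h P fun e => hc ⟨p, hp, isPGroup_top_iff.1 (e ▸ hP.pg)⟩))
    right
    obtain ⟨p, q, x, Q, hp, hq, hne, h1, h2, h3, h4, h5⟩ := schmidt_structure hn
      fun H hH => isNilpotent_of_comm (h H hH.ne)
    haveI := Fact.mk hp
    haveI := Fact.mk hq
    obtain ⟨P, hP⟩ := h1.exists_top
    obtain ⟨Q, rfl⟩ := h2.exists_top
    have hQ : IsMulCommutative (Q : Subgroup G) := h _ fun e => hn (e ▸ Q.2.isNilpotent)
    have hc := coprime_card_of_pgroup_ne hp hq hne h1.pg h2.pg
    refine ⟨p, q, hp, hq, hne, P, Q, isCyclic_iff_zpowers.2 ⟨x, hP.symm⟩, normal_of_top_le_norm h3,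
      ?_, by rwa [hP, sup_comm]⟩
    have h6 : omegaOne q (Q : Subgroup G) ⊔ zpowers x = ⊤ := by
      by_contra h6
      refine h5 (coprime_le_cent_of_prime_order (le_top.trans h3) hc (fun v hv ho => ?_)
        (mem_zpowers x))
      refine le_cent_of_comm (h _ h6) le_sup_right (mem_sup_left (mem_omegaOne hv ?_))
      rw [← eq_of_prime_dvd_of_isPGroup Q.2 ho (orderOf_dvd_of_mem hv), pow_orderOf_eq_one]
    have := sup_inf_of_le_normalizer (H := zpowers x) (le_norm_omegaOne' (p := q) (le_top.trans h3))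
      omegaOne_le
    rw [h6, top_inf_eq, inf_eq_bot_of_coprime' hc, sup_bot_eq] at this
    exact this ▸ elem_omegaOne hQ

end Cfsg.Agent.S0537
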