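import Cfsg.Statements.S0540
import Cfsg.Agent.H1.Pron

set_option autoImplicit false
open Pointwise
open Cfsg

namespace Cfsg.Agent.S0540

/-- A uniqueness lemma of zipper type. Let A be a subgroup of a finite group G and U a nonempty family of subgroups. For V in U write S(V) for the set of conjugates of A that lie in V and are subnormal in V. Assume: A belongs to S(V) for every V in U; a member of some S(W) that lies in V belongs to S(V); and for all V, W in U the normalizer of the join of S(V) ∩ S(W) lies in some member of U. Then U has a greatest element. -/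
theorem result {G : Type*} [Group G] [Finite G] (A : Subgroup G) (U : Set (Subgroup G)) (hU : U.Nonempty) (S : Subgroup G → Set (Subgroup G)) (hS : ∀ V B : Subgroup G, B ∈ S V ↔ (∃ g : G, B = MulAut.conj g • A) ∧ B ≤ V ∧ (B.subgroupOf V).IsSubnormal) (h1 : ∀ V ∈ U, A ∈ S V) (h2 : ∀ V ∈ U, ∀ W ∈ U, ∀ B ∈ S W, B ≤ V → B ∈ S V) (h3 : ∀ V ∈ U, ∀ W ∈ U, ∃ X ∈ U, Subgroup.normalizer ((sSup (S V ∩ S W) : Subgroup G) : Set G) ≤ X) : ∃ M ∈ U, ∀ V ∈ U, V ≤ M := by
  open Pointwise Subgroup CfsgH1 in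
  open CfsgH2 hiding card_inf_mul_relIndex card_lt_of_lt card_lt_of_ne_top card_map_mul_card_inf_ker card_mul_relIndex card_subgroupOf card_sup_dvd card_sup_mul_card_inf exists_card_prime_le isNilpotent_map isNilpotent_of_le isPGroup_pCore isSolvable_map isSolvable_of_le le_pCore le_pPrimeCore relIndex_map_dvd in
  open scoped CfsgH2 in
  open scoped commutatorElement in
  · classical
    have hc : ∀ V X, X ∈ S V → ∀ g ∈ V, X.map (cj g) ∈ S V := fun V X hX g hg => by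
      obtain ⟨⟨k, rfl⟩, b, c⟩ := (hS _ _).1 hX
      have b' := map_cj_le_of_mem b hg
      exact (hS _ _).2 ⟨⟨g * k, map_cj_cj _ _ _⟩, b', (CfsgH9.sn_iff_subgroupOf b').1
        (sn_cj ((CfsgH9.sn_iff_subgroupOf b).2 c) (le_normalizer hg))⟩
    have hn : ∀ V, V ≤ N[sSup (S V)] := fun V => le_norm_of_forall_cj fun g hg =>
      map_le_iff_le_comap.2 (sSup_le fun X hX => map_le_iff_le_comap.1 (le_sSup (hc V X hX g hg)))
    have hsn : ∀ V, ∀ X ∈ S V, CfsgH9.Sn X V := fun V X hX =>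
      (CfsgH9.sn_iff_subgroupOf ((hS _ _).1 hX).2.1).2 ((hS _ _).1 hX).2.2
    let Mx : Subgroup G → Prop := fun V => V ∈ U ∧ ∀ K, K ∈ U → V ≤ K → K = V
    have hM : ∀ V ∈ U, ∃ M, V ≤ M ∧ Mx M := fun V hV => exists_maximal_ge (· ∈ U) hV
    have hsub : ∀ V W, Mx V → W ∈ U → S V ⊆ S W → S V = S W := fun V W hV hW h => by
      by_contra hne
      obtain ⟨X, x1, x2, x3⟩ := exists_norm_sSup (hsn W) (hc W) (h.ssubset_of_ne hne)
      obtain ⟨Y, y1, y2⟩ := h3 V hV.1 V hV.1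
      rw [Set.inter_self] at y2
      exact x2 (h2 V hV.1 W hW X x1 (x3.trans (y2.trans (hV.2 Y y1 ((hn V).trans y2)).le)))
    have heq : ∀ V W, Mx V → Mx W → S V = S W → V = W := fun V W hV hW h => by
      obtain ⟨Y, y1, y2⟩ := h3 V hV.1 V hV.1
      rw [Set.inter_self] at y2
      rw [← hV.2 Y y1 ((hn V).trans y2), hW.2 Y y1 ((hn W).trans (h ▸ y2))]
    have key : ∀ V W, Mx V → Mx W → V = W := by
      by_contra hne
      push Not at hne
      obtain ⟨V₀, W₀, hne⟩ := hne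
      obtain ⟨⟨V, W⟩, ⟨hV, hW, hVW⟩, hmax⟩ := Set.exists_max_image
        {x : Subgroup G × Subgroup G | Mx x.1 ∧ Mx x.2 ∧ x.1 ≠ x.2}
        (fun x => (S x.1 ∩ S x.2).ncard) (Set.toFinite _) ⟨(V₀, W₀), hne⟩
      obtain ⟨Y, y1, y2⟩ := h3 V hV.1 W hW.1
      obtain ⟨X, x1, x2⟩ := hM Y y1
      have aux : ∀ V', Mx V' → S V ∩ S W ⊂ S V' → V' = X := fun V' hV' h => by
        by_contra hne
        obtain ⟨B, b1, b2, b3⟩ := exists_norm_sSup (hsn V') (hc V') h
        refine (hmax (V', X) ⟨hV', x2, hne⟩).not_gt (Set.ncard_lt_ncard ⟨fun Z hZ => ⟨h.1 hZ, ?_⟩,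
          fun e => b2 (e ⟨b1, h2 X x2.1 V' hV'.1 B b1 (b3.trans (y2.trans x1))⟩)⟩ (Set.toFinite _))
        exact h2 X x2.1 V hV.1 Z hZ.1 (((le_sSup hZ).trans le_normalizer).trans (y2.trans x1))
      refine hVW ((aux V hV ⟨Set.inter_subset_left, fun e => hVW (heq _ _ hV hW
        (hsub _ _ hV hW.1 fun Z hZ => (e hZ).2))⟩).trans (aux W hW ⟨Set.inter_subset_right,
        fun e => hVW (heq _ _ hW hV (hsub _ _ hW hV.1 fun Z hZ => (e hZ).1)).symm⟩).symm)
    obtain ⟨V, hV⟩ := hU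
    obtain ⟨M, -, m⟩ := hM V hV
    refine ⟨M, m.1, fun W hW => ?_⟩
    obtain ⟨M', m1, m'⟩ := hM W hW
    rwa [key M M' m m']

end Cfsg.Agent.S0540
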