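import Cfsg.Statements.S0541
import Cfsg.Agent.H1.Pron

set_option autoImplicit false
open Pointwise
open Cfsg

namespace Cfsg.Agent.S0541

/-- Let Z and Y be subgroups of a finite group G and p a prime. Suppose that for every g in G the subgroup generated by the conjugates of g Z g⁻¹ under Y is a p-group. Then there is a Sylow p-subgroup P of G such that Y normalizes the subgroup generated by all conjugates of Z contained in P. -/
theorem result {G : Type*} [Group G] [Finite G] (p : ℕ) [Fact p.Prime] (Z Y : Subgroup G) (h : ∀ g : G, IsPGroup p ↥(⨆ y ∈ Y, MulAut.conj (y * g) • Z)) : ∃ P : Sylow p G, Y ≤ Subgroup.normalizer ((⨆ g ∈ {g : G | MulAut.conj g • Z ≤ (P : Subgroup G)}, MulAut.conj g • Z : Subgroup G) : Set G) := by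
  open Pointwise Subgroup CfsgH1 in
  open CfsgH2 hiding card_inf_mul_relIndex card_lt_of_lt card_lt_of_ne_top card_map_mul_card_inf_ker card_mul_relIndex card_subgroupOf card_sup_dvd card_sup_mul_card_inf exists_card_prime_le isNilpotent_map isNilpotent_of_le isPGroup_pCore isSolvable_map isSolvable_of_le le_pCore le_pPrimeCore relIndex_map_dvd in
  open scoped CfsgH2 in
  open scoped commutatorElement in
  · let C : Subgroup G → Set (Subgroup G) := fun U => {X | (∃ g, X = Z.map (cj g)) ∧ X ≤ U}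
    obtain ⟨U, -, ⟨u1, u2, u3⟩, hmax⟩ := exists_maximal_ge
      (fun U : Subgroup G => IsPGroup p U ∧ Y ≤ N[U] ∧ U ≤ sSup (C U)) (H := ⊥)
      ⟨IsPGroup.of_bot, le_normalizer_of_normal, bot_le⟩
    obtain ⟨P, hP, hUP⟩ := exists_syl_ge u1 le_top
    obtain ⟨P, rfl⟩ := hP.exists_top
    refine ⟨P, ?_⟩
    have e0 : sSup (C U) = U := le_antisymm (sSup_le fun X hX => hX.2) u3
    have : C P ⊆ C U := by
      by_contra hne
      obtain ⟨X, ⟨⟨g, rfl⟩, x1⟩, x2, x3⟩ := exists_norm_sSup (L := P) (S := C P) (S₀ := C U)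
        (fun X hX => CfsgH9.sn_of_isPGroup P.2 hX.2)
        (by
          rintro _ ⟨⟨g, rfl⟩, x1⟩ k hk
          exact ⟨⟨k * g, map_cj_cj _ _ _⟩, map_cj_le_of_mem x1 hk⟩)
        ⟨fun X hX => ⟨hX.1, hX.2.trans hUP⟩, hne⟩
      rw [e0] at x3
      have hp : IsPGroup p (nc Y (Z.map (cj g))) := by
        rw [show nc Y (Z.map (cj g)) = ⨆ y ∈ Y, MulAut.conj (y * g) • Z by
          simp only [nc, map_cj_cj]; rfl]
        exact h g
      have hn : nc Y (Z.map (cj g)) ≤ N[U] := nc_le x3 (le_norm_norm u2)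
      have := hmax (U ⊔ nc Y (Z.map (cj g))) ⟨isPGroup_sup u1 hp (Or.inr hn), le_norm_sup u2 le_norm_nc,
        sup_le (u3.trans (sSup_le_sSup fun X hX => ⟨hX.1, hX.2.trans le_sup_left⟩))
          (nc_le_iff.2 fun y hy => le_sSup ⟨⟨y * g, map_cj_cj _ _ _⟩, (cj_le_nc hy).trans le_sup_right⟩)⟩
        le_sup_left
      exact x2 ⟨⟨g, rfl⟩, le_nc.trans (le_sup_right.trans this.le)⟩
    convert u2
    refine le_antisymm (iSup₂_le fun g hg => (this ⟨⟨g, rfl⟩, hg⟩).2) (u3.trans (sSup_le ?_))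
    rintro _ ⟨⟨g, rfl⟩, hg⟩
    exact le_iSup₂ (f := fun g (_ : g ∈ {g : G | MulAut.conj g • Z ≤ (P : Subgroup G)}) =>
      MulAut.conj g • Z) g (hg.trans hUP)

end Cfsg.Agent.S0541
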