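import Cfsg.Statements.S0546
import Cfsg.Agent.H1.Carter

set_option autoImplicit false
open Cfsg

namespace Cfsg.Agent.S0546

/-- The normal closure of a system normalizer of a finite solvable group is the whole group. -/
theorem result {G : Type*} [Group G] [Finite G] [Group.IsSolvable G] (K : Nat.Primes → Subgroup G) (hK : Cfsg.IsComplementSystem K) : Subgroup.normalClosure ((Cfsg.systemNormalizer K : Subgroup G) : Set G) = ⊤ := by
  by_contra h
  set M := Subgroup.normalClosure ((Cfsg.systemNormalizer K : Subgroup G) : Set G)
  have h1 := CfsgH1.sup_commutator_ne_top h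
  have : IsMulCommutative (G ⧸ (M ⊔ commutator G)) :=
    Subgroup.Normal.quotient_commutative_iff_commutator_le.mpr le_sup_right
  have : Group.IsNilpotent (G ⧸ (M ⊔ commutator G)) := CfsgH1.isNilpotent_of_isMulCommutative
  have h2 := (CfsgH1.sysIn_top_iff.mpr hK).systemNormalizer_sup_eq_top (M ⊔ commutator G)
  rw [sup_eq_right.mpr (Subgroup.le_normalClosure.trans le_sup_left)] at h2
  exact h1 h2

end Cfsg.Agent.S0546
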