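import Cfsg.Statements.S0550
import Cfsg.Agent.H1.KW
import Cfsg.Agent.H1.Gasch
import Cfsg.Agent.H1.Frob2
import Cfsg.Agent.H2.MaxCl2
import Cfsg.Agent.H1.SS2

set_option autoImplicit false
open Cfsg

namespace Cfsg.Agent.S0550

/-- Let U be a maximal subgroup with trivial normal core in a finite group G, and A ≠ B two minimal normal subgroups. Then A is the centralizer of B and B that of A, U complements each of them, A and B are non-abelian, and A, B and (A ⊔ B) ∩ U are pairwise isomorphic. -/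
theorem result {G : Type*} [Group G] [Finite G] (U : Subgroup G) (hU : IsCoatom U) (hcore : U.normalCore = ⊥) (A B : Subgroup G) [A.Normal] [B.Normal] (hA : A ≠ ⊥) (hB : B ≠ ⊥) (hAmin : ∀ K : Subgroup G, K.Normal → K ≤ A → K = ⊥ ∨ K = A) (hBmin : ∀ K : Subgroup G, K.Normal → K ≤ B → K = ⊥ ∨ K = B) (hAB : A ≠ B) : Subgroup.centralizer (B : Set G) = A ∧ Subgroup.centralizer (A : Set G) = B ∧ Subgroup.IsComplement' A U ∧ Subgroup.IsComplement' B U ∧ ¬ IsMulCommutative A ∧ Nonempty (A ≃* B) ∧ Nonempty (A ≃* ↥((A ⊔ B) ⊓ U)) := by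
  open Pointwise Subgroup CfsgH1 in
  open CfsgH2 hiding card_inf_mul_relIndex card_lt_of_lt card_lt_of_ne_top card_map_mul_card_inf_ker card_mul_relIndex card_subgroupOf card_sup_dvd card_sup_mul_card_inf exists_card_prime_le isNilpotent_map isNilpotent_of_le isPGroup_pCore isSolvable_map isSolvable_of_le le_pCore le_pPrimeCore relIndex_map_dvd in
  open scoped CfsgH2 in
  open scoped commutatorElement in
  · have hd : A ⊓ B = ⊥ := (hAmin _ inferInstance inf_le_left).resolve_right fun e =>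
      (hBmin A inferInstance (inf_eq_left.1 e)).elim hA hAB
    have e1 := cf_eq_cent hU hcore hB hA (le_centralizer_of_normal_of_inf_eq_bot hd)
    have e2 := cf_eq_cent hU hcore hA hB (le_centralizer_of_normal_of_inf_eq_bot (inf_comm A B ▸ hd))
    have d1 : A ⊓ U = ⊥ := e1 ▸ cf_cent_inf hU hcore hB
    have d2 : B ⊓ U = ⊥ := e2 ▸ cf_cent_inf hU hcore hA
    have s1 := cf_sup hU hcore hA
    have s2 := cf_sup hU hcore hB
    obtain ⟨f1⟩ := equiv_of_sup_eq (A := B) (H := A) (K := (A ⊔ B) ⊓ U) hd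
      (by rw [inf_assoc, inf_comm U, d2, inf_bot_eq]) (by
        rw [inf_comm, ← sup_inf_of_norm' (.inl le_normalizer_of_normal) le_sup_right, sup_comm U, s2, top_inf_eq])
    obtain ⟨f2⟩ := equiv_of_sup_eq (A := A) (H := B) (K := (A ⊔ B) ⊓ U) (inf_comm A B ▸ hd)
      (by rw [inf_assoc, inf_comm U, d1, inf_bot_eq]) (by
        rw [inf_comm, ← sup_inf_of_norm' (.inl le_normalizer_of_normal) le_sup_left, sup_comm U, s1, top_inf_eq,
          sup_comm])
    exact ⟨e1.symm, e2.symm, isComplement'_of_inf_of_sup d1 s1, isComplement'_of_inf_of_sup d2 s2,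
      fun h => hA (by rw [← hd, inf_eq_left.2 ((le_cent_self h).trans e2.ge)]), ⟨f1.trans f2.symm⟩, ⟨f1⟩⟩

end Cfsg.Agent.S0550
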