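import Cfsg.Statements.S0552
import Cfsg.Agent.H1.KW
import Cfsg.Agent.H1.Gasch
import Cfsg.Agent.H1.Frob2
import Cfsg.Agent.H2.MaxCl2
import Cfsg.Agent.H1.SS2

set_option autoImplicit false
open Cfsg

namespace Cfsg.Agent.S0552

/-- Let σ be an automorphism of a finite solvable group G fixing every element of the Fitting subgroup. If σ is not the identity then the order of σ and the order of G have a common prime factor. -/
theorem result {G : Type*} [Group G] [Finite G] [Group.IsSolvable G] (σ : G ≃* G) (hσ : ∀ x ∈ Cfsg.fittingSubgroup G, σ x = x) (hne : σ ≠ MulEquiv.refl G) : ¬ (orderOf σ).Coprime (Nat.card G) := by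
  open Pointwise Subgroup CfsgH1 in
  open CfsgH2 hiding card_inf_mul_relIndex card_lt_of_lt card_lt_of_ne_top card_map_mul_card_inf_ker card_mul_relIndex card_subgroupOf card_sup_dvd card_sup_mul_card_inf exists_card_prime_le isNilpotent_map isNilpotent_of_le isPGroup_pCore isSolvable_map isSolvable_of_le le_pCore le_pPrimeCore relIndex_map_dvd in
  open scoped CfsgH2 in
  open scoped commutatorElement in
  · intro hc
    obtain ⟨H, _, _, i, j, hi, hj, h, -⟩ := exists_hol G
    have := coprime_le_cent_of_self_cent (A := (zpowers σ).map j) (K := map i ⊤)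
      (H := (Cfsg.fittingSubgroup G).map i) (hol_norm h _)
      (by rwa [card_map_of_injective hj, card_map_of_injective hi, Nat.card_zpowers, card_top])
      (.inr ((inj_isSolvable hi).2 inferInstance)) (map_le_norm_map _ le_normalizer_of_normal) ?_ ?_
    · exact hne (MulEquiv.ext fun x => (hol_cent hi h).1 (this (mem_map_of_mem _ (mem_zpowers σ))) x trivial)
    all_goals
      have h1 : (zpowers σ).map j ≤ C[(Cfsg.fittingSubgroup G).map i] := by
        rw [MonoidHom.map_zpowers, zpowers_le]; exact (hol_cent hi h).2 hσ
    · rw [inj_inf_cent hi, top_inf_eq]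
      exact (map_mono centralizer_fitting_le).trans (le_centralizer_iff.1 h1)
    · exact h1

end Cfsg.Agent.S0552
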