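import Cfsg.Statements.S0553
import Cfsg.Agent.H1.KW
import Cfsg.Agent.H1.Gasch
import Cfsg.Agent.H1.Frob2
import Cfsg.Agent.H2.MaxCl2
import Cfsg.Agent.H1.HH

set_option autoImplicit false
open Cfsg

namespace Cfsg.Agent.S0553

/-- Let G be a nontrivial finite solvable group in which every maximal subgroup has order coprime to its index. Then for some prime p dividing the order of G the Sylow p-subgroups of G are normal. -/
theorem result {G : Type*} [Group G] [Finite G] [Group.IsSolvable G] [Nontrivial G] (h : ∀ M : Subgroup G, IsCoatom M → (Nat.card M).Coprime M.index) : ∃ p : ℕ, p.Prime ∧ p ∣ Nat.card G ∧ ∀ P : Sylow p G, (P : Subgroup G).Normal := by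
  open Pointwise Subgroup CfsgH1 in
  open CfsgH2 hiding card_inf_mul_relIndex card_lt_of_lt card_lt_of_ne_top card_map_mul_card_inf_ker card_mul_relIndex card_subgroupOf card_sup_dvd card_sup_mul_card_inf exists_card_prime_le isNilpotent_map isNilpotent_of_le isPGroup_pCore isSolvable_map isSolvable_of_le le_pCore le_pPrimeCore relIndex_map_dvd in
  open scoped CfsgH2 in
  open scoped commutatorElement in
  · haveI : Nontrivial (G ⧸ frattini G) := QuotientGroup.nontrivial_iff.2 fun e =>
      top_ne_bot (frattini_nongenerating (G := G) (K := ⊥) (by simp [e])).symm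
    obtain ⟨N, p, _, n0, -, hp, ncomm, npg, -, nmin⟩ :=
      exists_elementary_normal_le (⊤ : Subgroup (G ⧸ frattini G)) top_ne_bot
    haveI := Fact.mk hp
    obtain ⟨M, hM, h1⟩ : ∃ M, IsCoatom M ∧ ¬ N ≤ M := by
      by_contra hc
      push Not at hc
      exact n0 (le_bot_iff.1 (frattini_quotient_frattini (G := G) ▸ le_iInf₂ hc))
    have s : N ⊔ M = ⊤ := hM.2 _ (right_lt_sup.2 h1)
    have c := isComplement'_of_inf_of_sup ((nmin _ (inf_normal_of_sup_eq_top s) inf_le_left).resolve_right
      fun e => h1 (inf_eq_left.1 e)) s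
    have h2 := h _ (isCoatom_comap_mk' hM)
    rw [index_comap_mk', card_comap_mk', ← card_eq_index_of_isComplement' c.symm,
      card_eq_index_of_isComplement' c] at h2
    have hd := dvd_card_of_pgroup npg n0
    have h3 : ¬ p ∣ N.index := fun d => hp.one_lt.ne' (Nat.eq_one_of_dvd_coprimes h2 (d.mul_left _) hd)
    set K := N.comap (QuotientGroup.mk' (frattini G))
    haveI : Group.IsNilpotent (K.map (QuotientGroup.mk' (frattini G))) := by
      rw [map_comap_mk]; exact npg.isNilpotent
    have hK := isNilpotent_of_map_mk' _ le_rfl K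
    obtain ⟨P, hP⟩ := CfsgH2.exists_syl (p := p) K
    have hP' := hP.trans le_top (by rwa [relIndex_top_right, index_comap_mk'])
    have hn : ⊤ ≤ N[P] := le_normalizer_of_normal.trans (hP.norm_le_of_norm (hP.le_norm_of_nilpotent hK))
    refine ⟨p, hp, hd.trans ((card_subgroup_dvd_card N).trans (card_quotient_dvd_card _)), fun Q => ?_⟩
    rw [hP'.eq_of_norm (syl_top Q) hn]
    exact normal_of_top_le_norm hn

end Cfsg.Agent.S0553
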