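import Cfsg.Statements.S0554
import Cfsg.Agent.H1.KW
import Cfsg.Agent.H1.Gasch
import Cfsg.Agent.H1.Frob2
import Cfsg.Agent.H2.MaxCl2
import Cfsg.Agent.H1.SS2

set_option autoImplicit false
open Cfsg

namespace Cfsg.Agent.S0554

section
open Pointwise Subgroup CfsgH1
open CfsgH2 hiding card_inf_mul_relIndex card_lt_of_lt card_lt_of_ne_top card_map_mul_card_inf_ker card_mul_relIndex card_subgroupOf card_sup_dvd card_sup_mul_card_inf exists_card_prime_le isNilpotent_map isNilpotent_of_le isPGroup_pCore isSolvable_map isSolvable_of_le le_pCore le_pPrimeCore relIndex_map_dvd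
open scoped CfsgH2
open scoped commutatorElement

theorem aux1 {G : Type*} [Group G] (N : Subgroup G) [hN : N.Normal] (t : ℕ) : ∀ (S : Fin t → Subgroup G)
    (j : Fin t), N ≤ S j → ∀ n ∈ N, ∀ s : Fin t → G, (∀ i, s i ∈ S i) →
      ∃ s' : Fin t → G, (∀ i, s' i ∈ S i) ∧ n * (List.ofFn s).prod = (List.ofFn s').prod := by
  induction t with
  | zero => exact fun _ j => j.elim0
  | succ t ih =>
    intro S j hj n hn s hs
    cases j using Fin.cases with
    | zero =>
      refine ⟨Fin.cons (n * s 0) (Fin.tail s), fun i => ?_, by simp [List.ofFn_succ, Fin.tail, mul_assoc]⟩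
      cases i using Fin.cases with
      | zero => exact mul_mem (hj hn) (hs 0)
      | succ i => exact hs _
    | succ j =>
      obtain ⟨s', h1, h2⟩ := ih (Fin.tail S) j hj _ (hN.conj_mem n hn (s 0)⁻¹) (Fin.tail s) fun i => hs _
      refine ⟨Fin.cons (s 0) s', fun i => ?_, ?_⟩
      · cases i using Fin.cases with
        | zero => exact hs 0
        | succ i => exact h1 _
      · simp only [List.ofFn_succ, List.prod_cons, Fin.cons_zero, Fin.cons_succ, ← h2]
        simp [Fin.tail, mul_assoc]
        rfl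

universe u in
theorem aux2 (t : ℕ) (p : Fin t → ℕ) (hp : ∀ i, (p i).Prime) (n : ℕ) : ∀ (G : Type u) [Group G] [Finite G]
    [Group.IsSolvable G], Nat.card G = n → (∀ q : ℕ, q.Prime → q ∣ Nat.card G → ∃ i, p i = q) →
    ∀ S : Fin t → Subgroup G, (∀ i, Syl (p i) (S i) ⊤) →
      ∀ g : G, ∃ s : Fin t → G, (∀ i, s i ∈ S i) ∧ g = (List.ofFn s).prod := by
  induction n using Nat.strong_induction_on with | _ n ih => ?_
  intro G _ _ _ hn hall S hS g
  rcases subsingleton_or_nontrivial G with h | h
  · exact ⟨fun _ => 1, fun _ => one_mem _, Subsingleton.elim _ _⟩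
  obtain ⟨N, q, _, n0, -, hq, -, npg, -⟩ := exists_elementary_normal_le (⊤ : Subgroup G) top_ne_bot
  haveI := Fact.mk hq
  obtain ⟨j, rfl⟩ := hall q hq ((dvd_card_of_pgroup npg n0).trans (card_subgroup_dvd_card N))
  obtain ⟨s, h1, h2⟩ := ih _ (hn ▸ card_quot_lt n0) (G ⧸ N) rfl
    (fun q hq hd => hall q hq (hd.trans (card_quotient_dvd_card N))) (fun i => (S i).map (QuotientGroup.mk' N))
    (fun i => by haveI := Fact.mk (hp i); simpa [map_mk_top] using (hS i).map (QuotientGroup.mk' N))
    (QuotientGroup.mk' N g)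
  choose s' h3 h4 using h1
  obtain ⟨s'', h5, h6⟩ := aux1 N t S j ((hS j).le_of_norm npg le_top le_normalizer_of_normal)
    (g * (List.ofFn s').prod⁻¹) (by
      rw [← QuotientGroup.ker_mk' N, MonoidHom.mem_ker, map_mul, map_inv, h2, map_list_prod, List.map_ofFn,
        show (QuotientGroup.mk' N) ∘ s' = s from funext h4, mul_inv_cancel]) s' h3
  exact ⟨s'', h5, by rw [← h6]; group⟩

end

/-- Let G be a finite solvable group and let S assign to each of t distinct primes, including every prime divisor of the order of G, a Sylow subgroup of G. Then every element of G is a product s_0 s_1 ⋯ s_(t-1) with s_i in S i, the factors taken in the given order. -/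
theorem result {G : Type*} [Group G] [Finite G] [Group.IsSolvable G] (t : ℕ) (p : Fin t → ℕ) (hp : ∀ i, (p i).Prime) (hinj : Function.Injective p) (hall : ∀ q : ℕ, q.Prime → q ∣ Nat.card G → ∃ i, p i = q) (S : (i : Fin t) → Sylow (p i) G) : ∀ g : G, ∃ s : (i : Fin t) → G, (∀ i, s i ∈ (S i : Subgroup G)) ∧ g = (List.ofFn s).prod := by
  open Pointwise Subgroup CfsgH1 in
  open CfsgH2 hiding card_inf_mul_relIndex card_lt_of_lt card_lt_of_ne_top card_map_mul_card_inf_ker card_mul_relIndex card_subgroupOf card_sup_dvd card_sup_mul_card_inf exists_card_prime_le isNilpotent_map isNilpotent_of_le isPGroup_pCore isSolvable_map isSolvable_of_le le_pCore le_pPrimeCore relIndex_map_dvd in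
  open scoped CfsgH2 in
  open scoped commutatorElement in
  · exact aux2 t p hp _ G rfl hall _ fun i => haveI := Fact.mk (hp i); syl_top (S i)

end Cfsg.Agent.S0554
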