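import Cfsg.Statements.S0555
import Cfsg.Agent.H1.KW
import Cfsg.Agent.H1.Gasch
import Cfsg.Agent.H1.Frob2
import Cfsg.Agent.H2.MaxCl2
import Cfsg.Agent.H1.SS2

set_option autoImplicit false
open Cfsg

namespace Cfsg.Agent.S0555

/-- Let i ≥ 1. If in the derived series of a group the quotient of the i-th term by the (i+1)-st and the quotient of the (i+1)-st by the (i+2)-nd are both cyclic, then the (i+1)-st and (i+2)-nd terms coincide. -/
theorem result {G : Type*} [Group G] (i : ℕ) (hi : 1 ≤ i) (h₁ : IsCyclic (↥(derivedSeries G i) ⧸ (derivedSeries G (i + 1)).subgroupOf (derivedSeries G i))) (h₂ : IsCyclic (↥(derivedSeries G (i + 1)) ⧸ (derivedSeries G (i + 2)).subgroupOf (derivedSeries G (i + 1)))) : derivedSeries G (i + 1) = derivedSeries G (i + 2) := by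
  open Pointwise Subgroup CfsgH1 in
  open CfsgH2 hiding card_inf_mul_relIndex card_lt_of_lt card_lt_of_ne_top card_map_mul_card_inf_ker card_mul_relIndex card_subgroupOf card_sup_dvd card_sup_mul_card_inf exists_card_prime_le isNilpotent_map isNilpotent_of_le isPGroup_pCore isSolvable_map isSolvable_of_le le_pCore le_pPrimeCore relIndex_map_dvd in
  open scoped CfsgH2 in
  open scoped commutatorElement in
  · refine le_antisymm ?_ (commutator_le_left _ _)
    obtain ⟨e⟩ := exists_equiv_quot (K := derivedSeries G (i + 1)) (A := derivedSeries G i) le_normalizer_of_normal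
    obtain ⟨x, hx, e1⟩ := exists_sup_zpowers_of_cyclic_qt le_normalizer_of_normal (commutator_le_left _ _)
      (isCyclic_of_surjective _ e.surjective)
    have hc : IsCyclic ((derivedSeries G (i + 1)).map (QuotientGroup.mk' (derivedSeries G (i + 2)))) :=
      isCyclic_of_surjective _ (quotientSubgroupOfEquivMap _ _).surjective
    haveI := normal_map_mk' (derivedSeries G (i + 2)) (derivedSeries G (i + 1))
    have hx' : x ∈ ⁅(⊤ : Subgroup G), ⊤⁆ := derivedSeries_antitone G hi hx
    have h3 := isMulComm_sup_zpowers (isMulComm_of_cyclic hc) (commutator_le_cent_of_cyclic (H := ⊤) hc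
      le_normalizer_of_normal (x := QuotientGroup.mk' _ x) (by
        have := mem_map_of_mem (QuotientGroup.mk' (derivedSeries G (i + 2))) hx'
        rwa [map_commutator, map_mk_top] at this))
    rw [← MonoidHom.map_zpowers, ← Subgroup.map_sup, ← comm_self_eq_bot_iff, ← map_commutator, map_mk_eq_bot] at h3
    change _ ⊔ _ = _ at e1
    rw [derivedSeries_succ G i, ← e1]
    exact h3

end Cfsg.Agent.S0555
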