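import Cfsg.Statements.S0556
import Cfsg.Agent.H1.KW
import Cfsg.Agent.H1.Gasch
import Cfsg.Agent.H1.Frob2
import Cfsg.Agent.H2.MaxCl2
import Cfsg.Agent.H1.SS2

set_option autoImplicit false
open Cfsg

namespace Cfsg.Agent.S0556

/-- If a finite group has a maximal subgroup that is abelian, then the third term of its derived series is trivial (so the group is solvable of derived length at most three). -/
theorem result {G : Type*} [Group G] [Finite G] (A : Subgroup G) (hA : IsCoatom A) [IsMulCommutative A] : derivedSeries G 3 = ⊥ := by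
  open Pointwise Subgroup CfsgH1 in
  open CfsgH2 hiding card_inf_mul_relIndex card_lt_of_lt card_lt_of_ne_top card_map_mul_card_inf_ker card_mul_relIndex card_subgroupOf card_sup_dvd card_sup_mul_card_inf exists_card_prime_le isNilpotent_map isNilpotent_of_le isPGroup_pCore isSolvable_map isSolvable_of_le le_pCore le_pPrimeCore relIndex_map_dvd in
  open scoped CfsgH2 in
  open scoped commutatorElement in
  · have hc : IsMulCommutative A := ‹_›
    have fin : ∀ K : Subgroup G, ⁅K, K⁆ ≤ center G → ⁅(⊤ : Subgroup G), ⊤⁆ ≤ K → derivedSeries G 3 = ⊥ :=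
      fun K h1 h2 => comm_self_eq_bot_iff.2 (isMulComm_of_le inferInstance
        ((commutator_mono h2 h2).trans h1))
    by_cases hn : A.Normal
    · exact fin A (by rw [comm_self_eq_bot_iff.2 hc]; exact bot_le)
        (commutator_le_of_index_prime (index_prime_of_isCoatom hA))
    have e : N[A] = A := (hA.le_iff.1 le_normalizer).resolve_left fun e => hn (normal_of_top_le_norm e.ge)
    have hZ : center G ≤ A := (center_le_normalizer A).trans e.le
    have hA' := isCoatom_map_of_ker_le (QuotientGroup.mk'_surjective (center G)) hA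
      (by rwa [QuotientGroup.ker_mk'])
    obtain ⟨K, hK⟩ := exists_frob_of_ti (L := ⊤) hA'.lt_top
      (fun h => hn (normal_of_le_center ((map_mk_eq_bot _).1 h))) fun g _ hg => by
        obtain ⟨g, rfl⟩ := QuotientGroup.mk'_surjective _ g
        rw [← map_map_cj, ← map_inf_of_ker_le _ (by
          rw [QuotientGroup.ker_mk', ← map_cj_normal g (center G)]; exact map_mono hZ), map_mk_eq_bot, ← cent_top,
          ← hA.2 (A ⊔ A.map (cj g)) (left_lt_sup.2 fun h => hg (mem_map_of_mem _ (e.le (mem_norm_of_map_le h)))),
          cent_sup]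
        exact inf_le_inf (le_cent_self hc) (le_cent_self (isMulComm_map _ hc))
    obtain ⟨V, h1, h2, h3, h4⟩ := hK.exists_invariant_abelian le_rfl (isSolvable_of_comm (isMulComm_map _ hc))
    have h5 : V ⊔ A.map (QuotientGroup.mk' (center G)) = ⊤ := hA'.2 _ (right_lt_sup.2 fun h =>
      h2 (le_bot_iff.1 ((le_inf h1 h).trans hK.disj.le)))
    have h6 : K = V := by
      have := sup_inf_of_norm (.inr h4) h1
      rwa [h5, top_inf_eq, inf_comm, hK.disj, sup_bot_eq] at this
    refine fin (K.comap (QuotientGroup.mk' _)) ?_ ?_
    · rw [← map_mk_eq_bot, map_commutator, map_comap_mk, h6]; exact comm_self_eq_bot_iff.2 h3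
    · rw [← map_le_iff_le_comap, map_commutator, map_mk_top]
      simpa [comm_self_eq_bot_iff.2 (isMulComm_map (QuotientGroup.mk' (center G)) hc)] using
        commutator_le_of_sup hK.le_norm hK.sup

end Cfsg.Agent.S0556
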