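import Cfsg.Statements.S0557
import Cfsg.Agent.H1.KW
import Cfsg.Agent.H1.Gasch
import Cfsg.Agent.H1.Frob2
import Cfsg.Agent.H2.MaxCl2
import Cfsg.Agent.H1.HH

set_option autoImplicit false
open Cfsg

namespace Cfsg.Agent.S0557

/-- Let H be a subgroup of a finite group G with order coprime to its index. If iterating the focal-subgroup construction starting from H reaches the trivial subgroup after finitely many steps, then H has a normal complement in G. -/
theorem result {G : Type*} [Group G] [Finite G] (H : Subgroup G) (hHall : (Nat.card H).Coprime H.index) (n : ℕ) (hfoc : (fun K : Subgroup G => Subgroup.focalSubgroup K)^[n] H = ⊥) : ∃ N : Subgroup G, N.Normal ∧ Subgroup.IsComplement' N H := by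
  open Pointwise Subgroup CfsgH1 in
  open CfsgH2 hiding card_inf_mul_relIndex card_lt_of_lt card_lt_of_ne_top card_map_mul_card_inf_ker card_mul_relIndex card_subgroupOf card_sup_dvd card_sup_mul_card_inf exists_card_prime_le isNilpotent_map isNilpotent_of_le isPGroup_pCore isSolvable_map isSolvable_of_le le_pCore le_pPrimeCore relIndex_map_dvd in
  open scoped CfsgH2 in
  open scoped commutatorElement in
  · have hH := hall_of_coprime (H := H) (M := ⊤) le_top (by rwa [relIndex_top_right])
    set R := piRes {p | p ∣ Nat.card H} (⊤ : Subgroup G)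
    haveI : R.Normal := normal_of_top_le_norm le_norm_piRes
    have h1 := hH.inf_norm (K := R) le_top (.inl le_normalizer_of_normal)
    obtain ⟨N, _, -, h2, h3⟩ := transfer_top (H := H.subgroupOf R) (by
      refine h1.pi'.coprime' (h1.pi.of_dvd ((relIndex_dvd_card _ _).trans ?_)) |>.coprime_dvd_left ?_
      · rw [CfsgH1.card_subgroupOf]
      · rw [inf_relIndex_right]; rfl)
    have h4 : N = ⊤ := by
      have : R ≤ N.map R.subtype := piRes_piRes.ge.trans (piRes_le_of (le_norm_map_subtype N) (by
        rw [relIndex_map_subtype, ← relIndex_top_right, ← h3, relIndex_sup_left]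
        exact h1.pi.of_dvd ((relIndex_dvd_card _ _).trans (by rw [CfsgH1.card_subgroupOf]))))
      exact top_le_iff.1 fun x _ => by simpa using this x.2
    rw [h4, top_inf_eq] at h2
    have mono : ∀ K L : Subgroup G, K ≤ L → K.focalSubgroup ≤ L.focalSubgroup := fun K L h =>
      closure_mono fun g ⟨a, x, b, c⟩ => ⟨h a, x, h b, c⟩
    have h5 : H ⊓ R ≤ (H ⊓ R).focalSubgroup := by
      conv_lhs => rw [← subgroupOf_map_subtype, h2, focalSubgroup_def, MonoidHom.map_closure]
      refine closure_mono ?_
      rintro _ ⟨g, ⟨a, x, b, u, rfl⟩, rfl⟩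
      exact ⟨⟨a, ⁅x, u⁆.2⟩, x, ⟨b, x.2⟩, u, rfl⟩
    have h6 : ∀ k, H ⊓ R ≤ (fun K : Subgroup G => Subgroup.focalSubgroup K)^[k] H := fun k => by
      induction k with
      | zero => exact inf_le_left
      | succ k ih => rw [Function.iterate_succ_apply']; exact h5.trans (mono _ _ ih)
    exact ⟨R, this, isComplement'_of_inf_of_sup (by rw [inf_comm]; exact le_bot_iff.1 (hfoc ▸ h6 n)) hH.piRes_sup⟩

end Cfsg.Agent.S0557
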