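import Cfsg.Statements.S0558
import Cfsg.Agent.H1.KW
import Cfsg.Agent.H1.Gasch
import Cfsg.Agent.H1.Frob2
import Cfsg.Agent.H2.MaxCl2
import Cfsg.Agent.H1.SS2

set_option autoImplicit false
open Cfsg

namespace Cfsg.Agent.S0558

/-- Let H be a subgroup of a finite group G that is not a Sylow subgroup of G for any prime, and suppose that for every prime p dividing the order of H and every Sylow p-subgroup P of H the normalizer of P in G is exactly H. Then some normal subgroup of G is a complement to H. -/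
theorem result {G : Type*} [Group G] [Finite G] (H : Subgroup G) (hnot : ∀ p : ℕ, p.Prime → ∀ P : Sylow p G, (P : Subgroup G) ≠ H) (hnorm : ∀ p : ℕ, p.Prime → p ∣ Nat.card H → ∀ P : Sylow p H, Subgroup.normalizer (((P : Subgroup H).map H.subtype : Subgroup G) : Set G) = H) : ∃ N : Subgroup G, N.Normal ∧ Subgroup.IsComplement' N H := by
  open Pointwise Subgroup CfsgH1 in
  open CfsgH2 hiding card_inf_mul_relIndex card_lt_of_lt card_lt_of_ne_top card_map_mul_card_inf_ker card_mul_relIndex card_subgroupOf card_sup_dvd card_sup_mul_card_inf exists_card_prime_le isNilpotent_map isNilpotent_of_le isPGroup_pCore isSolvable_map isSolvable_of_le le_pCore le_pPrimeCore relIndex_map_dvd in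
  open scoped CfsgH2 in
  open scoped commutatorElement in
  · have h1 : ∀ p : ℕ, ∀ _ : Fact p.Prime, p ∣ Nat.card H → ∀ P, Syl p P H → N[P] = H ∧ Syl p P ⊤ :=
      fun p hp hd P hP => by
        obtain ⟨Q, rfl⟩ := hP.exists_sub
        have e := hnorm p hp.out hd Q
        exact ⟨e, .of_norm le_top (by rwa [e, top_inf_eq])⟩
    have hnil : Group.IsNilpotent H := isNilpotent_of_forall_isSylowIn fun p hp hd => by
      haveI := Fact.mk hp
      obtain ⟨P, hP⟩ := CfsgH2.exists_syl (p := p) H
      exact ⟨P, syl_iff.2 hP, (h1 p this hd P hP).1.ge⟩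
    have hH : Hall {p | p ∣ Nat.card H} H ⊤ := ⟨le_top, PiN.self, fun p hp hd hd' => by
      haveI := Fact.mk hp
      obtain ⟨P, hP⟩ := CfsgH2.exists_syl (p := p) H
      exact (h1 p this hd' P hP).2.not_dvd_of_le hP.le hd⟩
    have h2 := hall_piRes_of_npc (π := {p | p ∣ Nat.card H}) (M := (⊤ : Subgroup G)) fun p hp hd _ => by
      obtain ⟨P, hP⟩ := CfsgH2.exists_syl (p := p) H
      have hP' := (h1 p hp hd P hP).2
      obtain ⟨r, hr, hd', hne⟩ : ∃ r : ℕ, r.Prime ∧ r ∣ Nat.card H ∧ r ≠ p := by
        by_contra hc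
        push Not at hc
        obtain ⟨S, e⟩ := hP'.exists_top
        exact hnot p hp.out S (e.trans (hP.eq_of_pgroup (isPGroup_iff_piN.2 hc)))
      haveI := Fact.mk hr
      obtain ⟨R, hR⟩ := CfsgH2.exists_syl (p := r) H
      refine hP'.frobenius_npc fun Q hQ _ g _ hg ho => ?_
      have hpQ := hP.pg.to_le hQ
      obtain ⟨c, hc, n, hn, rfl⟩ := ((h1 r this hd' R hR).2.mono (le_cent_of_coprime_of_nilpotent hnil hR.le
        (hQ.trans hP.le) (coprime_card_of_pgroup_ne hr hp.out hne hR.pg hpQ)) le_top).frattini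
        (norm_le_norm_cent _ hg)
      exact mem_cent_of_nilpotent_factor hnil hpQ (hQ.trans hP.le) hc ((h1 r this hd' R hR).1.le hn)
        ((N[Q].mul_mem_cancel_left (cent_le_norm _ hc)).1 hg) ho
    haveI : (piRes {p | p ∣ Nat.card H} (⊤ : Subgroup G)).Normal := normal_of_top_le_norm le_norm_piRes
    exact ⟨_, this, isComplement'_of_inf_of_sup (by rw [inf_comm]; exact inf_eq_bot_of_piN hH.pi h2.pi)
      hH.piRes_sup⟩

end Cfsg.Agent.S0558
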