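import Cfsg.Statements.S0562
import Cfsg.Agent.H1.Carter

set_option autoImplicit false
open Cfsg

namespace Cfsg.Agent.S0562

/-- Let the finite group G be the product HK of subgroups, A normal in H, B normal in K, and L the normalizer of the subgroup generated by A and B. Then every element of L is a product of an element of L ∩ H and an element of L ∩ K. -/
theorem result {G : Type*} [Group G] [Finite G] (H K A B : Subgroup G) (hHK : ∀ g : G, ∃ h ∈ H, ∃ k ∈ K, g = h * k) (hA : A ≤ H) (hAn : (A.subgroupOf H).Normal) (hB : B ≤ K) (hBn : (B.subgroupOf K).Normal) : ∀ g ∈ Subgroup.normalizer ((A ⊔ B : Subgroup G) : Set G), ∃ h ∈ Subgroup.normalizer ((A ⊔ B : Subgroup G) : Set G) ⊓ H, ∃ k ∈ Subgroup.normalizer ((A ⊔ B : Subgroup G) : Set G) ⊓ K, g = h * k := by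
  open Pointwise CfsgH1 Subgroup in open scoped commutatorElement in
  · intro g hg
    obtain ⟨h, hh, k, hk, rfl⟩ := hHK g
    have hH := (Subgroup.normal_subgroupOf_iff_le_normalizer hA).mp hAn
    have hK := (Subgroup.normal_subgroupOf_iff_le_normalizer hB).mp hBn
    have e := CfsgH1.conj_smul_eq_of_mem_normalizer hg
    have e' : MulAut.conj h⁻¹ • (A ⊔ B) = MulAut.conj k • (A ⊔ B) := by
      conv_lhs => rw [← e, CfsgH1.conj_smul_conj_smul, inv_mul_cancel_left]
    have h1 : h ∈ Subgroup.normalizer ((A ⊔ B : Subgroup G) : Set G) := by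
      rw [← inv_mem_iff]
      refine CfsgH1.conj_smul_eq_iff_mem_normalizer.mp (Subgroup.eq_of_le_of_card_ge (sup_le ?_ ?_)
        (CfsgH1.card_conj_smul _ _).le).symm
      · exact (CfsgH1.conj_smul_eq_of_mem_normalizer (hH (inv_mem hh))).ge.trans
          (CfsgH1.conj_smul_mono _ le_sup_left)
      · rw [e']
        exact (CfsgH1.conj_smul_eq_of_mem_normalizer (hK hk)).ge.trans
          (CfsgH1.conj_smul_mono _ le_sup_right)
    exact ⟨h, ⟨h1, hh⟩, k, ⟨(Subgroup.mul_mem_cancel_left _ h1).mp hg, hk⟩, rfl⟩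

end Cfsg.Agent.S0562
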