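import Cfsg.Statements.S0563
import Cfsg.Agent.H1.KW
import Cfsg.Agent.H1.Gasch
import Cfsg.Agent.H1.Frob2
import Cfsg.Agent.H2.MaxCl2
import Cfsg.Agent.H1.SS2

set_option autoImplicit false
open Pointwise
open Cfsg

namespace Cfsg.Agent.S0563

/-- If a finite group G is the product AB of two nilpotent subgroups of coprime orders, then G is solvable, and for every Sylow p-subgroup P of A and Sylow q-subgroup Q of B the product set PQ is a subgroup. -/
theorem result {G : Type*} [Group G] [Finite G] (A B : Subgroup G) (hA : Group.IsNilpotent A) (hB : Group.IsNilpotent B) (hcop : (Nat.card A).Coprime (Nat.card B)) (hAB : ∀ g : G, ∃ a ∈ A, ∃ b ∈ B, g = a * b) : Group.IsSolvable G ∧ ∀ (p q : ℕ) [Fact p.Prime] [Fact q.Prime] (P : Sylow p A) (Q : Sylow q B), ∃ S : Subgroup G, (S : Set G) = (((P : Subgroup A).map A.subtype : Subgroup G) : Set G) * (((Q : Subgroup B).map B.subtype : Subgroup G) : Set G) := by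
  open Pointwise Subgroup CfsgH1 in
  open CfsgH2 hiding card_inf_mul_relIndex card_lt_of_lt card_lt_of_ne_top card_map_mul_card_inf_ker card_mul_relIndex card_subgroupOf card_sup_dvd card_sup_mul_card_inf exists_card_prime_le isNilpotent_map isNilpotent_of_le isPGroup_pCore isSolvable_map isSolvable_of_le le_pCore le_pPrimeCore relIndex_map_dvd in
  open scoped CfsgH2 in
  open scoped commutatorElement in
  · have h := fac_top_iff.2 hAB
    have hs := h.isSolvable hA hB
    refine ⟨isSolvable_top_iff.1 hs, fun p q _ _ P Q => ?_⟩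
    have key : ∀ (A B P : Subgroup G) (p : ℕ) [Fact p.Prime], Fac A B ⊤ → (Nat.card A).Coprime (Nat.card B) →
        Syl p P A → (Nat.card P).Coprime (P.relIndex ⊤) := fun A B P p _ h hc hP => by
      rw [← relIndex_mul_relIndex P A ⊤ hP.le le_top, ← h.symm.relIndex_eq]
      exact hP.coprime.mul_right ((hc.coprime_dvd_left (card_dvd_of_le hP.le)).coprime_dvd_right
        (relIndex_dvd_card _ _))
    exact (h.fac_of_hall hs le_top le_top ((syl_sub P).le_norm_of_nilpotent hA)
      ((syl_sub Q).le_norm_of_nilpotent hB) (key A B _ p h hcop (syl_sub P))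
      (key B A _ q h.symm hcop.symm (syl_sub Q))).exists_subgroup

end Cfsg.Agent.S0563
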