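import Cfsg.Statements.S0565
import Cfsg.Agent.H1.KW
import Cfsg.Agent.H1.Gasch
import Cfsg.Agent.H1.Frob2
import Cfsg.Agent.H2.MaxCl2
import Cfsg.Agent.H1.SS2

set_option autoImplicit false
open Cfsg

namespace Cfsg.Agent.S0565

section
open Pointwise Subgroup CfsgH1
open CfsgH2 hiding card_inf_mul_relIndex card_lt_of_lt card_lt_of_ne_top card_map_mul_card_inf_ker card_mul_relIndex card_subgroupOf card_sup_dvd card_sup_mul_card_inf exists_card_prime_le isNilpotent_map isNilpotent_of_le isPGroup_pCore isSolvable_map isSolvable_of_le le_pCore le_pPrimeCore relIndex_map_dvd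
open scoped CfsgH2
open scoped commutatorElement

universe u in
theorem aux (n : ℕ) : ∀ (G : Type u) [Group G] [Finite G], Nat.card G = n → ∀ A B : Subgroup G,
    Group.IsNilpotent A → Group.IsNilpotent B → Fac A B ⊤ → (A ≠ ⊤ ∨ B ≠ ⊤) →
    ∃ N : Subgroup G, N.Normal ∧ N ≠ ⊤ ∧ (A ≤ N ∨ B ≤ N) := by
  induction n using Nat.strong_induction_on with | _ n ih => ?_
  intro G _ _ hn A B hA hB h hne
  haveI := h.isSolvable hA hB
  obtain ⟨N, q, _, n0, -, hq, ncomm, -⟩ := exists_elementary_normal_le (⊤ : Subgroup G) fun e =>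
    hne.elim (fun h => h (top_le_iff.1 (e.le.trans bot_le))) (fun h => h (top_le_iff.1 (e.le.trans bot_le)))
  by_cases hc : A.map (QuotientGroup.mk' N) ≠ ⊤ ∨ B.map (QuotientGroup.mk' N) ≠ ⊤
  · obtain ⟨M, _, h1, h2⟩ := ih _ (hn ▸ card_quot_lt n0) _ rfl _ _ (CfsgH2.isNilpotent_map _ hA)
      (CfsgH2.isNilpotent_map _ hB) (h.map_mk' N) hc
    exact ⟨M.comap (QuotientGroup.mk' N), inferInstance, fun e => h1 (by rw [← map_comap_mk N M, e, map_mk_top]),
      h2.imp map_le_iff_le_comap.1 map_le_iff_le_comap.1⟩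
  push Not at hc
  haveI := (Group.isNilpotent_top ..).1 (h.isNilpotent_of_triple hA hB (isNilpotent_of_comm ncomm)
    le_normalizer_of_normal ((map_mk'_eq_top_iff N).1 hc.1) ((map_mk'_eq_top_iff N).1 hc.2))
  rcases hne with h1 | h1 <;> obtain ⟨M, h2, h3⟩ := exists_coatom_ge h1
  · exact ⟨M, normal_of_isCoatom_of_isNilpotent h2, h2.1, .inl h3⟩
  · exact ⟨M, normal_of_isCoatom_of_isNilpotent h2, h2.1, .inr h3⟩

end

/-- Let the finite group G be the product AB of nilpotent subgroups A and B, not both equal to G. Then there is a proper normal subgroup of G containing A or containing B. -/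
theorem result {G : Type*} [Group G] [Finite G] (A B : Subgroup G) (hA : Group.IsNilpotent A) (hB : Group.IsNilpotent B) (hAB : ∀ g : G, ∃ a ∈ A, ∃ b ∈ B, g = a * b) (hproper : A ≠ ⊤ ∨ B ≠ ⊤) : ∃ N : Subgroup G, N.Normal ∧ N ≠ ⊤ ∧ (A ≤ N ∨ B ≤ N) := by
  open Pointwise Subgroup CfsgH1 in
  open CfsgH2 hiding card_inf_mul_relIndex card_lt_of_lt card_lt_of_ne_top card_map_mul_card_inf_ker card_mul_relIndex card_subgroupOf card_sup_dvd card_sup_mul_card_inf exists_card_prime_le isNilpotent_map isNilpotent_of_le isPGroup_pCore isSolvable_map isSolvable_of_le le_pCore le_pPrimeCore relIndex_map_dvd in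
  open scoped CfsgH2 in
  open scoped commutatorElement in
  · exact aux _ G rfl A B hA hB (fac_top_iff.2 hAB) hproper

end Cfsg.Agent.S0565
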