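import Cfsg.Statements.S0568
import Cfsg.Agent.H1.Carter

set_option autoImplicit false
open Cfsg

namespace Cfsg.Agent.S0568

/-- Let D be the system normalizer of a Hall complement system of a finite solvable group G, and let A < B be normal subgroups with no normal subgroup of G strictly between them (a chief factor). If G centralizes B modulo A then B ≤ A ⊔ D (D covers the factor); otherwise B ∩ D ≤ A (D avoids it). -/
theorem result {G : Type*} [Group G] [Finite G] [Group.IsSolvable G] (K : Nat.Primes → Subgroup G) (hK : Cfsg.IsComplementSystem K) (A B : Subgroup G) [A.Normal] [B.Normal] (hAB : A < B) (hchief : ∀ N : Subgroup G, N.Normal → A ≤ N → N ≤ B → N = A ∨ N = B) : (⁅B, (⊤ : Subgroup G)⁆ ≤ A → B ≤ A ⊔ Cfsg.systemNormalizer K) ∧ (¬ ⁅B, (⊤ : Subgroup G)⁆ ≤ A → B ⊓ Cfsg.systemNormalizer K ≤ A) := by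
  have hK' := (CfsgH1.sysIn_top_iff.mpr hK).map_mk' A
  have e := (CfsgH1.sysIn_top_iff.mpr hK).systemNormalizer_map_mk' A
  have := CfsgH1.normal_map_mk' A B
  have hc : ⁅B, (⊤ : Subgroup G)⁆ ≤ A ↔
      Subgroup.centralizer (B.map (QuotientGroup.mk' A) : Set (G ⧸ A)) = ⊤ := by
    rw [← CfsgH1.map_mk'_eq_bot_iff, Subgroup.map_commutator,
      Subgroup.map_top_of_surjective _ (QuotientGroup.mk'_surjective A), Subgroup.commutator_comm,
      Subgroup.commutator_eq_bot_iff_le_centralizer, top_le_iff]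
  rw [hc]
  refine ⟨fun h => ?_, fun h => ?_⟩
  · rw [sup_comm, ← CfsgH1.map_mk'_le_iff, ← e, CfsgH1.le_systemNormalizer_iff]
    exact fun p => (Subgroup.le_centralizer_iff.mp (le_top.trans h.ge)).trans
      (Subgroup.centralizer_le_normalizer _)
  · have h1 := hK'.inf_systemNormalizer_eq_bot (B := B.map (QuotientGroup.mk' A)) (fun N _ hN => by
      have h2 : N.comap (QuotientGroup.mk' A) ≤ B := by
        refine (Subgroup.comap_mono hN).trans ?_
        rw [CfsgH1.comap_map_mk', sup_eq_left.mpr hAB.le]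
      rcases hchief _ inferInstance (CfsgH1.le_comap_mk' A N) h2 with h3 | h3
      · left; rw [← CfsgH1.map_comap_mk' A N, h3, CfsgH1.map_mk'_eq_bot_iff]
      · right; rw [← h3, CfsgH1.map_comap_mk']) h
    rw [← CfsgH1.map_mk'_eq_bot_iff, eq_bot_iff, ← h1, e]
    exact Subgroup.map_inf_le _ _ _

end Cfsg.Agent.S0568
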