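import Cfsg.Statements.S0570
import Cfsg.Agent.H1.Carter

set_option autoImplicit false
open Cfsg

namespace Cfsg.Agent.S0570

/-- Let G be a finite group with a nilpotent normal subgroup F such that G modulo F is nilpotent (nilpotent length at most two). Then a subgroup of G is a Carter subgroup if and only if it is the system normalizer of some Hall complement system. -/
theorem result {G : Type*} [Group G] [Finite G] (F : Subgroup G) [F.Normal] (hF : Group.IsNilpotent F) (hGF : Group.IsNilpotent (G ⧸ F)) (C : Subgroup G) : Cfsg.IsCarterSubgroup C ↔ ∃ K : Nat.Primes → Subgroup G, Cfsg.IsComplementSystem K ∧ C = Cfsg.systemNormalizer K := by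
  simp only [← CfsgH1.carterIn_top_iff, ← CfsgH1.sysIn_top_iff]
  have := CfsgH1.isSolvable_of_ker_of_quotient F
  refine ⟨fun hC => ?_, fun ⟨K, hK, he⟩ => he ▸ hK.carterIn_of_metanilpotent (F := F)⟩
  obtain ⟨K, hK, hle⟩ := hC.exists_sysIn
  have := hC.2.1
  exact ⟨K, hK, (hK.carterIn_of_metanilpotent (F := F)).eq_of_le hle le_top⟩

end Cfsg.Agent.S0570
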