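import Cfsg.Statements.S0571
import Cfsg.Agent.H1.KW
import Cfsg.Agent.H1.Gasch
import Cfsg.Agent.H1.Frob2
import Cfsg.Agent.H2.MaxCl2
import Cfsg.Agent.H1.SS2

set_option autoImplicit false
open Cfsg

namespace Cfsg.Agent.S0571

section
open Pointwise Subgroup CfsgH1
open CfsgH2 hiding card_inf_mul_relIndex card_lt_of_lt card_lt_of_ne_top card_map_mul_card_inf_ker card_mul_relIndex card_subgroupOf card_sup_dvd card_sup_mul_card_inf exists_card_prime_le isNilpotent_map isNilpotent_of_le isPGroup_pCore isSolvable_map isSolvable_of_le le_pCore le_pPrimeCore relIndex_map_dvd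
open scoped CfsgH2
open scoped commutatorElement

universe u in
theorem aux (n : ℕ) : ∀ (G : Type u) [Group G] [Finite G], Nat.card G = n → ∀ A B : Subgroup G,
    IsCyclic A → IsCyclic B → Fac A B ⊤ → SS G := by
  induction n using Nat.strong_induction_on with | _ n ih => ?_
  intro G _ _ hn A B hA hB h
  rcases subsingleton_or_nontrivial G with h1 | h1
  · exact .of_subsingleton
  obtain ⟨M, h1, h2, h3⟩ := Fac.exists_normal_le_factor ⊤ A B h (isMulComm_of_cyclic hA)
    (isMulComm_of_cyclic hB) top_ne_bot
  haveI := normal_of_top_le_norm h2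
  haveI : IsCyclic M := h3.elim (CfsgH2.isCyclic_of_le hA) (CfsgH2.isCyclic_of_le hB)
  exact .of_quotient (.of_isCyclic M) (ih _ (hn ▸ card_quot_lt h1) _ rfl _ _ (isCyclic_map _ hA)
    (isCyclic_map _ hB) (h.map_mk' M))

end

/-- If a finite group G is the product AB of two cyclic subgroups (every element is a product ab), then G is supersolvable. -/
theorem result {G : Type*} [Group G] [Finite G] (A B : Subgroup G) [IsCyclic A] [IsCyclic B] (hAB : ∀ g : G, ∃ a ∈ A, ∃ b ∈ B, g = a * b) : Cfsg.IsSupersolvable G := by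
  open Pointwise Subgroup CfsgH1 in
  open CfsgH2 hiding card_inf_mul_relIndex card_lt_of_lt card_lt_of_ne_top card_map_mul_card_inf_ker card_mul_relIndex card_subgroupOf card_sup_dvd card_sup_mul_card_inf exists_card_prime_le isNilpotent_map isNilpotent_of_le isPGroup_pCore isSolvable_map isSolvable_of_le le_pCore le_pPrimeCore relIndex_map_dvd in
  open scoped CfsgH2 in
  open scoped commutatorElement in
  · exact isSupersolvable_iff.2 (aux _ G rfl A B ‹_› ‹_› (fac_top_iff.2 hAB))

end Cfsg.Agent.S0571
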