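import Cfsg.Statements.S0574
import Cfsg.Agent.H1.KW
import Cfsg.Agent.H1.Gasch
import Cfsg.Agent.H1.Frob2
import Cfsg.Agent.H2.MaxCl2
import Cfsg.Agent.H1.HH

set_option autoImplicit false
open Cfsg

namespace Cfsg.Agent.S0574

section
open Pointwise Subgroup CfsgH1
open CfsgH2 hiding card_inf_mul_relIndex card_lt_of_lt card_lt_of_ne_top card_map_mul_card_inf_ker card_mul_relIndex card_subgroupOf card_sup_dvd card_sup_mul_card_inf exists_card_prime_le isNilpotent_map isNilpotent_of_le isPGroup_pCore isSolvable_map isSolvable_of_le le_pCore le_pPrimeCore relIndex_map_dvd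
open scoped CfsgH2
open scoped commutatorElement

universe u in
theorem aux (n : ℕ) : ∀ (G : Type u) [Group G] [Finite G] (A B : Subgroup G), IsMulCommutative A →
    ⁅B, B⁆ ≤ C[B] → Fac A B ⊤ → (Nat.card (⁅B, B⁆ : Subgroup G)).primeFactorsList.length ≤ n →
    derivedSeries G (2 * (1 + n)) = ⊥ := by
  have base : ∀ (G : Type u) [Group G] (A B : Subgroup G) (m : ℕ), IsMulCommutative A → Fac A B ⊤ →
      ⁅B, B⁆ = ⊥ → derivedSeries G (2 * (1 + m)) = ⊥ := fun G _ A B m hA h e =>
    le_bot_iff.1 ((derivedSeries_antitone G (by omega : 2 ≤ _)).trans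
      (comm_self_eq_bot_iff.2 (h.ito hA (comm_self_eq_bot_iff.1 e))).le)
  induction n with
  | zero =>
    intro G _ _ A B hA hB h hn
    refine base G A B _ hA h (card_eq_one.1 ?_)
    rw [Nat.le_zero, List.length_eq_zero_iff, Nat.primeFactorsList_eq_nil] at hn
    exact hn.resolve_left (card_pos' _).ne'
  | succ n ih =>
    intro G _ _ A B hA hB h hn
    by_cases e : ⁅B, B⁆ = ⊥
    · exact base G A B _ hA h e
    have hs := h.isSolvable (isNilpotent_of_comm hA)
      (isNilpotent_of_commutator_commutator (comm_eq_bot_iff.2 hB))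
    obtain ⟨K, -, ⟨_, k1⟩, k2⟩ := exists_minimal_le (fun K : Subgroup G => K.Normal ∧ K ⊓ ⁅B, B⁆ ≠ ⊥)
      (H := ⊤) ⟨inferInstance, by simpa using e⟩
    set D := K ⊓ ⁅B, B⁆
    have d1 : D ≤ B := inf_le_right.trans commutator_self_le
    have d2 : D ≤ C[B] := inf_le_right.trans hB
    have hM : ⊤ ≤ N[⁅A, D⁆] := h.sup_eq.ge.trans (sup_le le_norm_comm_left fun b hb => mem_norm_of_conj (by
      intro x hx
      have : ⁅A, D⁆ ≤ (⁅A, D⁆ : Subgroup G).map (cj b⁻¹) := commutator_le.2 fun a ha z hz => by
        obtain ⟨a', h1, b', h2, e⟩ := h.exists (mem_top (b * a * b⁻¹))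
        rw [mem_map_cj, inv_inv, show b * ⁅a, z⁆ * b⁻¹ = ⁅b * a * b⁻¹, b * z * b⁻¹⁆ by group, e, d2 hz b hb,
          mul_inv_cancel_right, commutator_mul_left', commutatorElement_eq_one_iff_mul_comm.2 (d2 hz b' h2)]
        simpa using commutator_mem_commutator h1 hz
      simpa only [mem_map_cj, inv_inv] using this hx))
    haveI := normal_of_top_le_norm hM
    have m1 : ⁅A, D⁆ ≤ K := (commutator_mono le_rfl inf_le_left).trans (commutator_le_right _ _)
    have hK : D ⊔ ⁅A, D⁆ = K := k2 _ ⟨normal_of_top_le_norm (h.sup_eq.ge.trans (sup_le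
      (le_norm_of_comm_le (K := ⁅A, D⁆) (commutator_sup_le le_normalizer_of_normal le_normalizer_of_normal
        (commutator_comm_le _ _) (commutator_le_left _ _)) le_sup_right)
      (le_norm_sup (le_norm_of_le_cent (le_centralizer_iff.1 d2)) le_normalizer_of_normal))),
      fun e => k1 (le_bot_iff.1 ((le_inf le_sup_left inf_le_right).trans e.le))⟩ (sup_le inf_le_left m1)
    have hab : IsMulCommutative (⁅A, D⁆ : Subgroup G) := isMulComm_commutator_of fun a ha z hz a' ha' z' hz' => by
      obtain ⟨g, -, y, hy, e⟩ := h.commutator_commutator hA d1 d2 ha' ha hz' hz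
      by_contra hne
      have h1 : y ∈ ⁅K, K⁆ := by
        have := (inferInstance : (⁅K, K⁆ : Subgroup G).Normal).conj_mem _ (commutator_mem_commutator
          (m1 (commutator_mem_commutator ha hz)) (m1 (commutator_mem_commutator ha' hz'))) g⁻¹
        rwa [e, show g⁻¹ * (g * y * g⁻¹) * g⁻¹⁻¹ = y by group] at this
      haveI := CfsgH2.isSolvable_of_le hs (le_top : K ≤ ⊤)
      exact (commutator_self_lt fun e => k1 (by simp [D, e])).ne (k2 _ ⟨inferInstance, fun e' => hne (by
        rw [e, mem_bot.1 (e'.le ⟨h1, hy⟩)]; group)⟩ commutator_self_le)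
    have hK' : ⁅K, K⁆ ≤ ⁅A, D⁆ := by
      conv_lhs => rw [← hK]
      refine commutator_sup_le le_normalizer_of_normal le_normalizer_of_normal
        (commutator_sup_le' le_normalizer_of_normal le_normalizer_of_normal ?_ (commutator_le_right _ _))
        (commutator_le_left _ _)
      rw [comm_eq_bot_iff.2 (d2.trans (cent_anti d1))]; exact bot_le
    have h1 := ih (G ⧸ K) _ _ (isMulComm_map _ hA) (by
      rw [← map_commutator]; exact map_le_cent_map _ hB) (h.map_mk' K) (by
      have e1 := CfsgH2.card_map_mul_card_inf_ker (QuotientGroup.mk' K) ⁅B, B⁆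
      rw [QuotientGroup.ker_mk', inf_comm] at e1
      rw [← e1, (Nat.perm_primeFactorsList_mul (card_pos' _).ne' (card_pos' _).ne').length_eq,
        List.length_append] at hn
      have : (Nat.card D).primeFactorsList.length ≠ 0 := fun e => by
        rw [List.length_eq_zero_iff, Nat.primeFactorsList_eq_nil] at e
        exact k1 (card_eq_one.1 (e.resolve_left (card_pos' _).ne'))
      rw [← map_commutator]
      change _ + (Nat.card D).primeFactorsList.length ≤ _ at hn
      omega)
    rw [← map_derivedSeries_eq (QuotientGroup.mk'_surjective K), map_mk_eq_bot] at h1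
    have h2 := (commutator_mono h1 h1).trans hK'
    exact comm_self_eq_bot_iff.2 (isMulComm_of_le hab h2)

end

/-- Let the finite group G be the product AB of an abelian subgroup A and a subgroup B of nilpotency class at most two, and let Ω be the number of prime factors, with multiplicity, of the order of the commutator subgroup of B. Then the term of index 2(1 + Ω) of the derived series of G is trivial. -/
theorem result {G : Type*} [Group G] [Finite G] (A B : Subgroup G) [IsMulCommutative A] (hB : commutator ↥B ≤ Subgroup.center ↥B) (hAB : ∀ g : G, ∃ a ∈ A, ∃ b ∈ B, g = a * b) : derivedSeries G (2 * (1 + (Nat.card ↥(commutator ↥B)).primeFactorsList.length)) = ⊥ := by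
  open Pointwise Subgroup CfsgH1 in
  open CfsgH2 hiding card_inf_mul_relIndex card_lt_of_lt card_lt_of_ne_top card_map_mul_card_inf_ker card_mul_relIndex card_subgroupOf card_sup_dvd card_sup_mul_card_inf exists_card_prime_le isNilpotent_map isNilpotent_of_le isPGroup_pCore isSolvable_map isSolvable_of_le le_pCore le_pPrimeCore relIndex_map_dvd in
  open scoped CfsgH2 in
  open scoped commutatorElement in
  · refine aux _ G A B ‹_› ?_ (fac_top_iff.2 hAB) ?_
    · rw [← map_subtype_commutator]; exact (map_mono hB).trans (map_center_subtype.le.trans inf_le_right)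
    · rw [← map_subtype_commutator, card_map_of_injective B.subtype_injective]

end Cfsg.Agent.S0574
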