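import Cfsg.Statements.S0576
import Cfsg.Agent.H1.KW
import Cfsg.Agent.H1.Gasch
import Cfsg.Agent.H1.Frob2
import Cfsg.Agent.H2.MaxCl2
import Cfsg.Agent.H1.SS2

set_option autoImplicit false
open Cfsg

namespace Cfsg.Agent.S0576

/-- Let H be a normal subgroup of a finite group G with H contained in the Frattini subgroup of G. Then the group of inner automorphisms of H is contained in the Frattini subgroup of the automorphism group of H. -/
theorem result {G : Type*} [Group G] [Finite G] (H : Subgroup G) [H.Normal] (hH : H ≤ frattini G) : (MulAut.conj : ↥H →* MulAut ↥H).range ≤ frattini (MulAut ↥H) := by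
  open Pointwise Subgroup CfsgH1 in
  open CfsgH2 hiding card_inf_mul_relIndex card_lt_of_lt card_lt_of_ne_top card_map_mul_card_inf_ker card_mul_relIndex card_subgroupOf card_sup_dvd card_sup_mul_card_inf exists_card_prime_le isNilpotent_map isNilpotent_of_le isPGroup_pCore isSolvable_map isSolvable_of_le le_pCore le_pPrimeCore relIndex_map_dvd in
  open scoped CfsgH2 in
  open scoped commutatorElement in
  · let f : G →* MulAut H := MulAut.conjNormal
    have e : (MulAut.conj : H →* MulAut H).range = H.map f := by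
      ext σ
      exact ⟨fun ⟨h, e⟩ => ⟨h, h.2, by rw [← e]; ext; rfl⟩, fun ⟨h, hh, e⟩ => ⟨⟨h, hh⟩, by rw [← e]; ext; rfl⟩⟩
    haveI : (MulAut.conj : H →* MulAut H).range.Normal := ⟨by
      rintro _ ⟨h, rfl⟩ σ
      exact ⟨σ h, by ext; simp⟩⟩
    refine le_frattini_of_le_frattiniOf (H := f.range) ?_
    rw [e]
    rintro _ ⟨h, hh, rfl⟩
    exact ⟨_, map_frattini_le f.rangeRestrict_surjective (mem_map_of_mem _ (hH hh)), rfl⟩

end Cfsg.Agent.S0576
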