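import Cfsg.Statements.S0577
import Cfsg.Agent.H1.Schmidt

set_option autoImplicit false
open Cfsg

namespace Cfsg.Agent.S0577

/-- Let G be a finite minimal non-nilpotent group and Q a normal Sylow q-subgroup of G, and let D be the commutator subgroup of Q regarded in G (a normal subgroup). Then G modulo D is non-abelian and all its proper subgroups are abelian. -/
theorem result {G : Type*} [Group G] [Finite G] (hG : Cfsg.IsMinimalNonNilpotent G) (q : ℕ) [Fact q.Prime] (hq : q ∣ Nat.card G) (Q : Sylow q G) (hQ : (Q : Subgroup G).Normal) (D : Subgroup G) [D.Normal] (hD : D = (commutator ↥(Q : Subgroup G)).map (Q : Subgroup G).subtype) : ¬ IsMulCommutative (G ⧸ D) ∧ ∀ K : Subgroup (G ⧸ D), K ≠ ⊤ → IsMulCommutative K := by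
  open Pointwise Subgroup CfsgH1 in
  open CfsgH2 hiding card_inf_mul_relIndex card_lt_of_lt card_lt_of_ne_top card_map_mul_card_inf_ker card_mul_relIndex card_subgroupOf card_sup_dvd card_sup_mul_card_inf exists_card_prime_le isNilpotent_map isNilpotent_of_le isPGroup_pCore isSolvable_map isSolvable_of_le le_pCore le_pPrimeCore relIndex_map_dvd in
  open scoped CfsgH2 in
  open scoped commutatorElement in
  · obtain ⟨p, r, x, R, hp, hr, hne, h1, h2, h3, h4, h5⟩ := schmidt_structure (L := (⊤ : Subgroup G))
      (fun h => hG.1 (Group.isNilpotent_top.1 h)) fun H hH => hG.2 H hH.ne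
    haveI := Fact.mk hp
    haveI := Fact.mk hr
    have hc := coprime_card_of_pgroup_ne hp hr hne h1.pg h2.pg
    have hpr : ∀ s : ℕ, s.Prime → s ∣ Nat.card G → s = r ∨ s = p := fun s hs hd => by
      rw [← card_top, ← h4] at hd
      exact ((Nat.Prime.dvd_mul hs).1 (hd.trans (card_sup_dvd (le_top.trans h3)))).imp
        (eq_of_prime_dvd_of_isPGroup h2.pg hs) (eq_of_prime_dvd_of_isPGroup h1.pg hs)
    obtain rfl : q = r := (hpr q Fact.out hq).resolve_right (by
      rintro rfl
      have := (syl_top Q).eq_of_norm h1 le_normalizer_of_normal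
      exact h5 (le_cent_of_inf_eq_bot (le_top.trans h3) (this ▸ le_normalizer_of_normal)
        (inf_eq_bot_of_coprime' hc) (mem_zpowers x)))
    obtain rfl := (syl_top Q).eq_of_norm h2 le_normalizer_of_normal
    rw [map_subtype_commutator] at hD
    constructor
    · intro hc'
      haveI := Q.2.isNilpotent
      refine h5 (coprime_le_centralizer_of_frattini (le_top.trans h3) (hc.coprime_dvd_right
        (card_subgroup_dvd_card _)) (le_trans ?_ (commutator_le_frattiniOf _)) (mem_zpowers x))
      rw [← hD, ← map_mk'_eq_bot_iff, map_commutator, comm_eq_bot_iff]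
      exact le_cent_of_comm (isMulComm_top_iff.2 hc') le_top |> le_top.trans
    · intro K hK
      haveI := hG.2 (K.comap (QuotientGroup.mk' D)) fun e => hK (by
        rw [← map_comap_mk' D K, e, map_mk_top])
      refine isMulComm_of_nilpotent_of_sylow (map_comap_mk' D K ▸ isNilpotent_map _ _)
        fun s hs S hS => ?_
      haveI := Fact.mk hs
      by_cases h0 : S = ⊥
      · subst h0; infer_instance
      rcases hpr s hs ((dvd_card_of_pgroup hS.pg h0).trans ((card_subgroup_dvd_card _).trans
        (card_quotient_dvd_card _))) with rfl | rfl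
      · have := ((syl_iff.2 h2).map_mk' D).ge_of_normal (by
          haveI := normal_map_mk' D (Q : Subgroup G); exact le_normalizer_of_normal) hS.pg le_top
        refine isMulComm_of_le (comm_self_eq_bot_iff.1 ?_) this
        rw [← map_commutator, map_mk'_eq_bot_iff, hD]
      · obtain ⟨g, -, hg⟩ := (syl_iff.1 ((syl_iff.2 h1).map_mk' D)).exists_le_conj hS.pg le_top
        exact isMulComm_of_le (isMulComm_map _ (isMulComm_map _ inferInstance)) hg

end Cfsg.Agent.S0577
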