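import Cfsg.Statements.S0578
import Cfsg.Agent.H1.Schmidt

set_option autoImplicit false
open Cfsg

namespace Cfsg.Agent.S0578

/-- If in a finite group the normalizer of each abelian subgroup coincides with its centralizer, then the group is abelian. -/
theorem result {G : Type*} [Group G] [Finite G] (h : ∀ A : Subgroup G, IsMulCommutative A → Subgroup.normalizer (A : Set G) = Subgroup.centralizer (A : Set G)) : IsMulCommutative G := by
  open Pointwise Subgroup CfsgH1 in
  open CfsgH2 hiding card_inf_mul_relIndex card_lt_of_lt card_lt_of_ne_top card_map_mul_card_inf_ker card_mul_relIndex card_subgroupOf card_sup_dvd card_sup_mul_card_inf exists_card_prime_le isNilpotent_map isNilpotent_of_le isPGroup_pCore isSolvable_map isSolvable_of_le le_pCore le_pPrimeCore relIndex_map_dvd in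
  open scoped CfsgH2 in
  open scoped commutatorElement in
  · by_contra hc
    obtain ⟨L, -, h1, h2⟩ := exists_minimal_le (fun S : Subgroup G => ¬ IsMulCommutative S) (H := ⊤)
      (mt isMulComm_top_iff.1 hc)
    have h3 : ∀ H, H < L → IsMulCommutative H := fun H hH => by_contra fun hc => hH.ne (h2 H hc hH.le)
    obtain ⟨M, h4, h5, -, h6⟩ := exists_normal_prime_relIndex
      (isSolvable_of_proper_nilpotent fun H hH => isNilpotent_of_comm (h3 H hH))
      (by rintro rfl; exact h1 inferInstance)
    exact h1 (isMulComm_of_cyclic_qt h5 (isCyclic_qt_of_prime h5 h6)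
      (inf_le_right.trans (le_centralizer_iff.1 (h M (h3 M h4) ▸ h5))))

end Cfsg.Agent.S0578
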