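import Cfsg.Statements.S0581
import Cfsg.Agent.H1.Schmidt

set_option autoImplicit false
open Pointwise
open Cfsg

namespace Cfsg.Agent.S0581

section
open Pointwise Subgroup CfsgH1
open CfsgH2 hiding card_inf_mul_relIndex card_lt_of_lt card_lt_of_ne_top card_map_mul_card_inf_ker card_mul_relIndex card_subgroupOf card_sup_dvd card_sup_mul_card_inf exists_card_prime_le isNilpotent_map isNilpotent_of_le isPGroup_pCore isSolvable_map isSolvable_of_le le_pCore le_pPrimeCore relIndex_map_dvd
open scoped CfsgH2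
open scoped commutatorElement

theorem aux {G : Type*} [Group G] [Finite G] {π : Set ℕ} {H : Subgroup G} (hH : Group.IsNilpotent H)
    (h : Hall π H ⊤) (K : Subgroup G) (hK : PiN π (Nat.card K)) : ∃ x : G, K.map (cj x) ≤ H := by
  induction K using WellFoundedLT.induction with
  | _ K ih =>
  by_cases h0 : K = ⊥
  · exact ⟨1, by simp [h0]⟩
  obtain ⟨M, h1, h2, -, h3⟩ := exists_normal_prime_relIndex
    (isSolvable_of_proper_nilpotent fun M hM => by
      obtain ⟨x, hx⟩ := ih M hM (piN_of_le hK hM.le)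
      exact (inj_isNilpotent (cj_injective x)).1 (CfsgH2.isNilpotent_of_le hH hx)) h0
  obtain ⟨x, hx⟩ := ih M h1 (piN_of_le hK h1.le)
  suffices ∃ y, (K.map (cj x)).map (cj y) ≤ H by
    obtain ⟨y, hy⟩ := this
    exact ⟨y * x, by rwa [← map_cj_cj]⟩
  rw [← relIndex_map_cj x] at h3
  rw [← card_map_cj x] at hK
  replace h1 := map_mono (f := cj x) h1.le
  replace h2 := map_le_norm_map (cj x) h2
  generalize K.map (cj x) = K at *
  generalize M.map (cj x) = M at *
  set p := M.relIndex K with hp
  haveI := Fact.mk h3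
  have hM := CfsgH2.isNilpotent_of_le hH hx
  obtain ⟨P, hP⟩ := exists_syl p K
  obtain ⟨S, hS⟩ := exists_syl p H
  have h4 : S ≤ N[piCoreOf {p}ᶜ M] := le_norm_of_le_cent (le_cent_of_coprime_of_nilpotent hH hS.le
    (piCoreOf_le.trans hx) (coprime_of_pgroup hS.pg not_dvd_piCoreOf))
  have h5 : K ≤ N[piCoreOf {p}ᶜ M] := le_norm_piCoreOf' h2
  obtain ⟨y, hy, h6⟩ := ((h.syl (hK p h3 (relIndex_dvd_card _ _)) hS).mono h4 le_top).exists_conj_le
    hP.pg (hP.le.trans h5)
  refine ⟨y, ?_⟩
  have h7 := hP.sup_eq_of_index h1 (PiN.of_prime h3 rfl)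
  have h8 := (NPC.of_nilpotent hM).sup_eq (hP.inf_norm h1 (hP.le.trans h2))
  have h9 : K = piCoreOf {p}ᶜ M ⊔ P := by
    conv_lhs => rw [← h7, ← h8]
    rw [sup_assoc, sup_eq_right.2 (inf_le_left (b := M))]
  rw [h9, Subgroup.map_sup, map_cj_eq hy]
  exact sup_le (piCoreOf_le.trans hx) (h6.trans hS.le)

end

/-- Let H be a nilpotent subgroup of a finite group G whose order is coprime to its index, and K a subgroup every prime divisor of whose order divides the order of H. Then K lies in some conjugate of H. -/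
theorem result {G : Type*} [Group G] [Finite G] (H K : Subgroup G) (hH : Group.IsNilpotent H) (hHall : (Nat.card H).Coprime H.index) (hK : ∀ p : ℕ, p.Prime → p ∣ Nat.card K → p ∣ Nat.card H) : ∃ x : G, K ≤ MulAut.conj x • H := by
  open Pointwise Subgroup CfsgH1 in
  open CfsgH2 hiding card_inf_mul_relIndex card_lt_of_lt card_lt_of_ne_top card_map_mul_card_inf_ker card_mul_relIndex card_subgroupOf card_sup_dvd card_sup_mul_card_inf exists_card_prime_le isNilpotent_map isNilpotent_of_le isPGroup_pCore isSolvable_map isSolvable_of_le le_pCore le_pPrimeCore relIndex_map_dvd in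
  open scoped CfsgH2 in
  open scoped commutatorElement in
  · obtain ⟨x, hx⟩ := aux hH (hall_of_coprime le_top (by rwa [relIndex_top_right])) K hK
    exact ⟨x⁻¹, map_cj_le_iff.1 hx⟩

end Cfsg.Agent.S0581
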