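import Cfsg.Statements.S0582
import Cfsg.Agent.H1.Schmidt

set_option autoImplicit false
open Pointwise
open Cfsg

namespace Cfsg.Agent.S0582

section
open Pointwise Subgroup CfsgH1
open CfsgH2 hiding card_inf_mul_relIndex card_lt_of_lt card_lt_of_ne_top card_map_mul_card_inf_ker card_mul_relIndex card_subgroupOf card_sup_dvd card_sup_mul_card_inf exists_card_prime_le isNilpotent_map isNilpotent_of_le isPGroup_pCore isSolvable_map isSolvable_of_le le_pCore le_pPrimeCore relIndex_map_dvd
open scoped CfsgH2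
open scoped commutatorElement

universe u
theorem aux {π : Set ℕ} (n : ℕ) : ∀ (G : Type u) [Group G] [Finite G]
    (H K M : Subgroup G), Nat.card M = n → Hall π H M → Hall π K M → SS H →
    SS K → ∃ g ∈ M, H.map (cj g) = K := by
  induction n using Nat.strong_induction_on with
  | _ n ih =>
  intro G _ _ H K M hn hH hK h1 h2
  have h3 := hH.card_eq_card hK
  by_cases hb : Nat.card H = 1
  · rw [card_eq_one.1 hb, (card_eq_one (H := K)).1 (h3 ▸ hb)]
    exact ⟨1, one_mem _, map_bot _⟩
  obtain ⟨p, hp, hd, hmax⟩ := exists_max_prime_dvd Nat.card_pos.ne' hb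
  haveI := Fact.mk hp
  obtain ⟨P, hP⟩ := exists_syl p H
  obtain ⟨Q, hQ⟩ := exists_syl p K
  have hπ := hH.pi p hp hd
  obtain ⟨g, hg, rfl⟩ := (hH.syl hπ hP).conj (hK.syl hπ hQ)
  have hP' := hP.map_cj g
  have hH' := hH.map_cj_mem hg
  have h1' := h1.map (cj g)
  have hb' : P.map (cj g) ≠ ⊥ := by rw [Ne, map_cj_eq_bot]; exact hP.ne_bot hd
  suffices ∃ a ∈ M, (H.map (cj g)).map (cj a) = K by
    obtain ⟨a, ha, e⟩ := this
    exact ⟨a * g, mul_mem ha hg, by rw [← map_cj_cj, e]⟩
  have n2 := h2.le_normalizer_sylow (h3 ▸ hmax) (syl_iff.2 hQ)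
  rw [← card_map_cj g] at hmax
  generalize P.map (cj g) = R at *
  generalize H.map (cj g) = H' at *
  have n1 := h1'.le_normalizer_sylow hmax (syl_iff.2 hP')
  have hlt : Nat.card (qt R (M ⊓ N[R])) < n := by
    refine (card_qt_lt ?_).trans_le (hn ▸ card_le_of_le inf_le_left)
    rwa [inf_eq_right.2 (le_inf (hQ.le.trans hK.le) le_normalizer)]
  have hs : ∀ X, X ≤ N[R] → SS X → SS (qt R X) := fun X hX h =>
    (h.of_mulEquiv (subgroupOfEquivOfLe hX).symm).map _
  obtain ⟨y, hy, e⟩ := ih _ hlt _ (qt R H') (qt R K) _ rfl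
    ((hH'.mono (le_inf hH'.le n1) inf_le_left).qt inf_le_right)
    ((hK.mono (le_inf hK.le n2) inf_le_left).qt inf_le_right) (hs _ n1 h1') (hs _ n2 h2)
  obtain ⟨⟨a, ha'⟩, ha, rfl⟩ := mem_qt.1 hy
  rw [← qt_map_cj, qt_inj (map_cj_le_of_mem n1 ha') n2 ?_ hQ.le] at e
  · exact ⟨a, ha.1, e⟩
  · exact le_map_cj_iff.2 ((map_cj_eq (inv_mem ha')).le.trans hP'.le)

end

/-- Let H and K be supersolvable subgroups of a finite group G of the same order, that order being coprime to their index. Then H and K are conjugate in G. -/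
theorem result {G : Type*} [Group G] [Finite G] (H K : Subgroup G) (hH : Cfsg.IsSupersolvable H) (hK : Cfsg.IsSupersolvable K) (hcard : Nat.card H = Nat.card K) (hHall : (Nat.card H).Coprime H.index) : ∃ x : G, MulAut.conj x • H = K := by
  open Pointwise Subgroup CfsgH1 in
  open CfsgH2 hiding card_inf_mul_relIndex card_lt_of_lt card_lt_of_ne_top card_map_mul_card_inf_ker card_mul_relIndex card_subgroupOf card_sup_dvd card_sup_mul_card_inf exists_card_prime_le isNilpotent_map isNilpotent_of_le isPGroup_pCore isSolvable_map isSolvable_of_le le_pCore le_pPrimeCore relIndex_map_dvd in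
  open scoped CfsgH2 in
  open scoped commutatorElement in
  · have h1 := hall_of_coprime (H := H) (M := ⊤) le_top (by rwa [relIndex_top_right])
    obtain ⟨g, -, hg⟩ := aux _ G H K ⊤ rfl h1 (h1.of_card_eq le_top hcard.symm)
      (isSupersolvable_iff.1 hH) (isSupersolvable_iff.1 hK)
    exact ⟨g, hg⟩

end Cfsg.Agent.S0582
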