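import Cfsg.Statements.S0586
import Cfsg.Agent.H1.Frattini

set_option autoImplicit false
open Cfsg

namespace Cfsg.Agent.S0586

/-- If the Frattini subgroup of a finite group G is trivial, then the Fitting subgroup of G equals the join of all abelian minimal normal subgroups of G. -/
theorem result {G : Type*} [Group G] [Finite G] (hΦ : frattini G = ⊥) : Cfsg.fittingSubgroup G = sSup {N : Subgroup G | N.Normal ∧ N ≠ ⊥ ∧ IsMulCommutative N ∧ ∀ K : Subgroup G, K.Normal → K ≤ N → K = ⊥ ∨ K = N} := by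
  have hF := CfsgH1.isMulCommutative_fitting_of_frattini hΦ
  set S := sSup {N : Subgroup G | N.Normal ∧ N ≠ ⊥ ∧ IsMulCommutative N ∧
    ∀ K : Subgroup G, K.Normal → K ≤ N → K = ⊥ ∨ K = N} with hS
  have h1 : S ≤ Cfsg.fittingSubgroup G := sSup_le fun N hN => by
    have := hN.1; have := hN.2.2.1
    have : Group.IsNilpotent N := CfsgH1.isNilpotent_of_isMulCommutative
    exact CfsgH1.le_fitting N
  have : S.Normal := Subgroup.sSup_normal _ fun _ h => h.1
  have := CfsgH1.isMulCommutative_of_le h1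
  obtain ⟨H, hH⟩ := CfsgH1.exists_complement_of_inf_frattini S (by rw [hΦ, inf_bot_eq])
  have h2 : Cfsg.fittingSubgroup G ⊔ H = ⊤ :=
    top_le_iff.mp (hH.sup_eq_top.ge.trans (sup_le_sup_right h1 H))
  have := CfsgH1.inf_normal_of_sup_eq_top h2
  have h3 : Cfsg.fittingSubgroup G ⊓ H = ⊥ := by
    by_contra h0
    obtain ⟨M, hM1, hM2, hM3, hM4⟩ := CfsgH1.exists_minimal_normal_le _ h0
    have h4 : M ≤ S := le_sSup ⟨hM1, hM2, CfsgH1.isMulCommutative_of_le (hM3.trans inf_le_left), hM4⟩
    exact hM2 (le_bot_iff.mp (hH.disjoint h4 (hM3.trans inf_le_right)))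
  have h5 := CfsgH1.sup_inf_of_le_normalizer (H := H) Subgroup.le_normalizer_of_normal h1
  rw [hH.sup_eq_top, top_inf_eq, inf_comm, h3, sup_bot_eq] at h5
  exact h5

end Cfsg.Agent.S0586
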