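import Cfsg.Statements.S0587
import Cfsg.Agent.H1.KW
import Cfsg.Agent.H1.Gasch
import Cfsg.Agent.H1.Frob2
import Cfsg.Agent.H2.MaxCl2
import Cfsg.Agent.H1.SS2

set_option autoImplicit false
open Cfsg

namespace Cfsg.Agent.S0587

/-- Let G be a finite group whose largest normal p-subgroup L is nontrivial, and M a maximal subgroup of G with trivial normal core. Then L is elementary abelian, M is a complement to L, L is a minimal normal subgroup of G, the centralizer of L is L, and for every prime q such that the largest normal q-subgroup of M is nontrivial, the order of L is congruent to 1 modulo q and q ≠ p. -/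
theorem result {G : Type*} [Group G] [Finite G] (p : ℕ) [Fact p.Prime] (hL : Cfsg.pCore p G ≠ ⊥) (M : Subgroup G) (hM : IsCoatom M) (hcore : M.normalCore = ⊥) : Cfsg.IsElementaryAbelian p (Cfsg.pCore p G) ∧ Subgroup.IsComplement' (Cfsg.pCore p G) M ∧ (∀ K : Subgroup G, K.Normal → K ≤ Cfsg.pCore p G → K = ⊥ ∨ K = Cfsg.pCore p G) ∧ Subgroup.centralizer ((Cfsg.pCore p G : Subgroup G) : Set G) = Cfsg.pCore p G ∧ ∀ (q : ℕ) [Fact q.Prime], Cfsg.pCore q ↥M ≠ ⊥ → Nat.card (Cfsg.pCore p G) % q = 1 % q ∧ q ≠ p := by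
  open Pointwise Subgroup CfsgH1 in
  open CfsgH2 hiding card_inf_mul_relIndex card_lt_of_lt card_lt_of_ne_top card_map_mul_card_inf_ker card_mul_relIndex card_subgroupOf card_sup_dvd card_sup_mul_card_inf exists_card_prime_le isNilpotent_map isNilpotent_of_le isPGroup_pCore isSolvable_map isSolvable_of_le le_pCore le_pPrimeCore relIndex_map_dvd in
  open scoped CfsgH2 in
  open scoped commutatorElement in
  · have hp := CfsgH2.isPGroup_pCore (p := p) (G := G)
    haveI := hp.isNilpotent
    obtain ⟨N, r, _, n0, nle, hr, ncomm, npg, npow, nmin⟩ := exists_elementary_normal_le (Cfsg.pCore p G) hL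
    obtain ⟨e, c⟩ := cf_compl hM hcore n0 ncomm
    have e2 : Cfsg.pCore p G = N := le_antisymm (e ▸ minimal_normal_le_centralizer_of_isNilpotent nmin) nle
    haveI := Fact.mk hr
    obtain rfl : r = p := eq_of_prime_dvd_of_isPGroup hp hr (e2 ▸ dvd_card_of_pgroup npg n0)
    rw [e2]
    refine ⟨⟨ncomm, npow⟩, c, nmin, e, fun q _ hq => ?_⟩
    have h0 : Cfsg.piCoreOf {q} M ≠ ⊥ := by
      rwa [← map_pCore_subtype, Ne, map_eq_bot_iff_of_injective _ M.subtype_injective]
    have h1 := card_modEq_inf_cent (H := N) (isPGroup_piCoreOf (p := q) (M := M)) le_normalizer_of_normal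
    rw [eq_bot_iff.2 ((inf_le_inf_left N ((cent_le_norm _).trans (cf_norm_eq hM hcore piCoreOf_le h0
      le_norm_piCoreOf).le)).trans c.disjoint.eq_bot.le), card_bot] at h1
    refine ⟨h1, ?_⟩
    rintro rfl
    exact hr.one_lt.ne' (Nat.dvd_one.1 ((h1.dvd_iff dvd_rfl).1 (dvd_card_of_pgroup npg n0)))

end Cfsg.Agent.S0587
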