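import Cfsg.Statements.S0591
import Mathlib
import Cfsg.Agent.L0.Off

set_option autoImplicit false
open Cfsg

namespace Cfsg.Agent.S0591

open Cfsg Subgroup CfsgH2 CfsgL0

/-- For a quadratically acting element a on an elementary abelian p-group V, the fixed points C_V(a) have order at least the square root of the order of V. -/
theorem result {G : Type*} [Group G] [Finite G] {p : ℕ} [Fact p.Prime] (V : Subgroup G) (hV : Cfsg.IsElementaryAbelian p V) (a : G) (ha : a ∈ Subgroup.normalizer (V : Set G)) (hq : ⁅⁅V, Subgroup.zpowers a⁆, Subgroup.zpowers a⁆ = ⊥) : Nat.card V ≤ Nat.card ↥(V ⊓ Subgroup.centralizer (Subgroup.zpowers a : Set G)) ^ 2 := by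
  have h := relIndex_cent1_le (H := V) (K := V ⊓ C[zpowers a]) (a := a) fun x hx => by
    have := commutator_mem_commutator hx (mem_zpowers a)
    exact ⟨comm_le_left (zpowers_le.2 ha) this, comm_eq_bot_iff.1 hq this⟩
  rw [← card_inf_mul_relIndex C1[a] V, sq, inf_comm, ← cent_zpowers a]
  rw [← cent_zpowers a] at h
  exact Nat.mul_le_mul_left _ h

end Cfsg.Agent.S0591
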