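import Cfsg.Statements.S0592
import Mathlib
import Cfsg.Agent.L0.Quad2

set_option autoImplicit false
open Cfsg

namespace Cfsg.Agent.S0592

open Cfsg Subgroup CfsgH2 CfsgL0 Polynomial

/-- Two quadratically acting generators of a linear group that is not a p-group, with the p'-part of the order of their product dividing q - 1, give a homomorphism onto a subgroup of SL(2, q) that is not a p-group. -/
theorem result {K : Type*} [Field K] [Fintype K] {p : ℕ} [Fact p.Prime] [CharP K p] {W : Type*} [AddCommGroup W] [Module K W] [FiniteDimensional K W] [Finite W] [Nontrivial W] (H : Subgroup (W ≃ₗ[K] W)) (a b : W ≃ₗ[K] W) (hH : H = Subgroup.closure {a, b}) (ha : ∀ w : W, a (a w - w) = a w - w) (hb : ∀ w : W, b (b w - w) = b w - w) (hnp : ¬ IsPGroup p H) (hk : ∃ e k : ℕ, orderOf (a * b) = p ^ e * k ∧ k ∣ Fintype.card K - 1) : ∃ φ : H →* Matrix.SpecialLinearGroup (Fin 2) K, ¬ IsPGroup p φ.range := by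
  classical
  subst hH
  let ρ : (W ≃ₗ[K] W) → AddMonoid.End W := fun g => g.toLinearMap.toAddMonoidHom
  have hm : ∀ g h, ρ (g * h) = ρ g * ρ h := fun _ _ => rfl
  have h0 : ∀ w : W, p • w = 0 := fun w => by rw [← Nat.cast_smul_eq_nsmul K, CharP.cast_eq_zero, zero_smul]
  have qa : (ρ a - 1) * (ρ a - 1) = 0 := AddMonoidHom.ext fun w => sub_eq_zero.2 (ha w)
  have qb : (ρ b - 1) * (ρ b - 1) = 0 := AddMonoidHom.ext fun w => sub_eq_zero.2 (hb w)
  have ez : ∀ w, ((ρ a - 1) * (ρ b - 1) + (ρ b - 1) * (ρ a - 1)) ((a * b) w) =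
      (a * b) ((a * b) w - w) - ((a * b) w - w) := fun w => by
    have h1 := ha (b w)
    have h2 := hb w
    have h3 := ha (b (a (b w)))
    simp only [map_sub] at h1 h2
    change a (b (a (b w)) - a (b w)) - (b (a (b w)) - a (b w)) + (b (a (a (b w)) - a (b w)) -
      (a (a (b w)) - a (b w))) = a (b (a (b w) - w)) - (a (b w) - w)
    rw [h1]
    simp only [map_sub, sub_eq_iff_eq_add.1 h1, sub_eq_iff_eq_add.1 h2]
    abel
  obtain ⟨e, k, hk1, m, hk2⟩ := hk
  let g : Module.End K W := (a * b).toLinearMap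
  obtain ⟨l, l0, l1, u, u0, hu⟩ : ∃ l : K, l ≠ 0 ∧ l ≠ 1 ∧ ∃ u ≠ 0, g u = l • u := by
    by_contra c
    push Not at c
    have inj : ∀ s : Multiset K, (∀ l ∈ s, l ≠ 1) → Function.Injective
        (aeval g (s.map fun l => X - C l).prod) := fun s => by
      induction s using Multiset.induction_on with
      | empty => exact fun _ => by rw [Multiset.map_zero, Multiset.prod_zero, map_one]; exact Function.injective_id
      | cons l s ih =>
        intro h
        rw [Multiset.map_cons, Multiset.prod_cons, map_mul, Module.End.coe_mul]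
        refine Function.Injective.comp ((injective_iff_map_eq_zero _).2 fun u hu => ?_)
          (ih fun x hx => h x (Multiset.mem_cons_of_mem hx))
        have : g u = l • u := by simpa [sub_eq_zero] using hu
        by_cases c0 : l = 0
        · rw [c0, zero_smul] at this
          exact (a * b).map_eq_zero_iff.1 this
        · exact by_contra fun u0 => c l c0 (h l (Multiset.mem_cons_self _ _)) u u0 this
    have e1 := prod_multiset_X_sub_C_of_monic_of_roots_card_eq (p := (X ^ Fintype.card K - X : K[X]))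
      (monic_X_pow_sub (by rw [degree_X]; exact_mod_cast Fintype.one_lt_card)) (by
        rw [FiniteField.roots_X_pow_card_sub_X, FiniteField.X_pow_card_sub_X_natDegree_eq _
          Fintype.one_lt_card]; rfl)
    rw [FiniteField.roots_X_pow_card_sub_X, ← Multiset.cons_erase (Finset.mem_univ_val (1 : K)),
      Multiset.map_cons, Multiset.prod_cons, mul_comm] at e1
    have e2 := congrArg (fun f => aeval g (f ^ p ^ e)) e1
    have e3 : g ^ (Fintype.card K * p ^ e) = g ^ p ^ e := by
      have : (a * b) ^ (Fintype.card K * p ^ e) = (a * b) ^ p ^ e := by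
        rw [show Fintype.card K = orderOf (a * b) * 0 + (k * m + 1) by
          rw [← hk2]; have := Fintype.card_pos (α := K); omega, mul_zero, zero_add, add_mul,
          show k * m * p ^ e = orderOf (a * b) * m by rw [hk1]; ring, pow_add, pow_mul,
          pow_orderOf_eq_one, one_pow, one_mul, one_mul]
      exact (map_pow LinearEquiv.automorphismGroup.toLinearMapMonoidHom _ _).symm.trans
        ((congrArg _ this).trans (map_pow LinearEquiv.automorphismGroup.toLinearMapMonoidHom _ _))
    simp only [sub_pow_char_pow, map_sub, map_pow, aeval_X, ← pow_mul, e3, sub_self, mul_pow,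
      map_mul] at e2
    have e4 : (g - 1) ^ p ^ e = 0 := by
      have i := (inj _ fun l hl => (Finset.univ.nodup.mem_erase_iff.1 hl).1).iterate (p ^ e)
      rw [← Module.End.coe_pow] at i
      haveI : CharP (Module.End K W) p := charP_of_injective_algebraMap (R := K)
        (FaithfulSMul.algebraMap_injective _ _) p
      rw [sub_pow_char_pow_of_commute _ _ (Commute.one_right _)]
      rw [C_1, map_one] at e2
      exact LinearMap.ext fun w => i ((DFunLike.congr_fun e2 w).trans (map_zero _).symm)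
    have e5 : (ρ (a * b) - 1) ^ p ^ e = 0 := AddMonoidHom.ext fun w => by
      have : ∀ (n : ℕ) w, ((ρ (a * b) - 1) ^ n) w = ((g - 1) ^ n) w := fun n => by
        induction n with
        | zero => exact fun _ => rfl
        | succ n ih => intro w; rw [pow_succ, pow_succ, emul, ih]; rfl
      exact (this _ w).trans (DFunLike.congr_fun e4 w)
    have e6 : ρ (a * b) * ρ (a * b)⁻¹ = 1 := by rw [← hm, mul_inv_cancel]; rfl
    have e7 : ρ (a * b)⁻¹ * ρ (a * b) = 1 := by rw [← hm, inv_mul_cancel]; rfl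
    have e8 : (ρ a - 1) * (ρ b - 1) + (ρ b - 1) * (ρ a - 1) =
        (ρ (a * b) - 1) * ((ρ (a * b) - 1) * ρ (a * b)⁻¹) := by
      rw [← mul_assoc, ← (AddMonoidHom.ext ez : (_ + _) * ρ (a * b) = (ρ (a * b) - 1) * (ρ (a * b) - 1)),
        mul_assoc _ (ρ (a * b)), e6, mul_one]
    have c1 : Commute (ρ (a * b) - 1) (ρ (a * b)⁻¹) :=
      Commute.sub_left (e6.trans e7.symm) (Commute.one_left _)
    obtain ⟨n, hn⟩ := quad_nil_pow (x := a) (y := b) (R := AddMonoid.End W) Fact.out (AddMonoidHom.ext h0) ρ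
      (fun g _ h _ => hm g h) rfl (add_sub_cancel _ _).symm (add_sub_cancel _ _).symm qa qb
      (e8 ▸ ((Commute.refl _).mul_right c1).isNilpotent_mul_right ⟨_, e5⟩)
    exact hnp (CfsgH2.isPGroup_of_forall fun x hx => ⟨n, LinearEquiv.ext fun w => DFunLike.congr_fun (hn x hx) w⟩)
  have hz : ((ρ a - 1) * (ρ b - 1) + (ρ b - 1) * (ρ a - 1)) u = (l⁻¹ * (l - 1) ^ 2) • u := by
    have := ez (l⁻¹ • u)
    replace hu : (a * b) u = l • u := hu
    simp only [map_sub, map_smul, hu, smul_smul, inv_mul_cancel₀ l0, one_smul] at this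
    rw [this, ← sub_eq_zero]
    match_scalars; field_simp; ring
  obtain ⟨ι, i1, i2, i3⟩ := exists_plane (Module.toAddMonoidEnd K W) (RingHom.id K) Function.surjective_id
    qa qb (fun r => AddMonoidHom.ext fun w => by
      change r • (a w - w) = a (r • w) - r • w; rw [map_smul, smul_sub])
    (fun r => AddMonoidHom.ext fun w => by
      change r • (b w - w) = b (r • w) - r • w; rw [map_smul, smul_sub])
    (ζ := l⁻¹ * (l - 1) ^ 2) (mul_ne_zero (inv_ne_zero l0) (pow_ne_zero _ (sub_ne_zero.2 l1))) u0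
    (fun r hr => by rw [show r = 0 from hr, map_zero]; rfl) hz
  have f1 : ∀ v, ρ a (ι v) = ι ((uT (l⁻¹ * (l - 1) ^ 2)).1.mulVec v) := fun v => by
    rw [uT_mulVec, map_add]; exact sub_eq_iff_eq_add'.1 (i2 v)
  have f2 : ∀ v, ρ b (ι v) = ι ((lT 1).1.mulVec v) := fun v => by
    rw [lT_mulVec, map_add, one_mul]; exact sub_eq_iff_eq_add'.1 (i3 v)
  obtain ⟨φ, hφ⟩ := exists_hom_of_plane ρ (s := {a, b}) (fun g _ h _ => hm g h) rfl i1 (by
    rintro _ (rfl | rfl); exacts [⟨_, f1⟩, ⟨_, f2⟩])
  exact ⟨φ, not_pgroup_UL (mul_ne_zero (inv_ne_zero l0) (pow_ne_zero 2 (sub_ne_zero.2 l1))) one_ne_zero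
    ⟨⟨a, subset_closure (by simp)⟩, sl_ext i1 fun v => (hφ _ v).symm.trans (f1 v)⟩
    ⟨⟨b, subset_closure (by simp)⟩, sl_ext i1 fun v => (hφ _ v).symm.trans (f2 v)⟩⟩

end Cfsg.Agent.S0592
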