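import Cfsg.Statements.S0594
import Mathlib
import Cfsg.Agent.L0.Quad3

set_option autoImplicit false
open Cfsg

namespace Cfsg.Agent.S0594

open Cfsg Subgroup CfsgH2 CfsgL0

/-- For odd p, two quadratic generators of a faithful group that is not a p-group, one of which acts nontrivially on a normal subgroup of order prime to p, force p = 3 and a section isomorphic to SL(2,3). -/
theorem result {G : Type*} [Group G] [Finite G] {p : ℕ} [Fact p.Prime] (hp : p ≠ 2) (V H : Subgroup G) (hV : Cfsg.IsElementaryAbelian p V) (hHV : H ≤ Subgroup.normalizer (V : Set G)) (hf : H ⊓ Subgroup.centralizer (V : Set G) = ⊥) (a b : G) (hab : H = Subgroup.closure {a, b}) (ha : ⁅⁅V, Subgroup.zpowers a⁆, Subgroup.zpowers a⁆ = ⊥) (hb : ⁅⁅V, Subgroup.zpowers b⁆, Subgroup.zpowers b⁆ = ⊥) (hnp : ¬ IsPGroup p H) (Q : Subgroup G) (hQH : Q ≤ H) (hQn : H ≤ Subgroup.normalizer (Q : Set G)) (hQ : (Nat.card Q).Coprime p) (hQa : ⁅Q, Subgroup.zpowers a⁆ ≠ ⊥) : p = 3 ∧ ∃ (K L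 : Subgroup G) (hL : (L.subgroupOf K).Normal), K ≤ H ∧ Nonempty ((K ⧸ L.subgroupOf K) ≃* Matrix.SpecialLinearGroup (Fin 2) (ZMod 3)) := by
  have aH : a ∈ H := hab ▸ subset_closure (by simp)
  have l : zpowers a ⊔ Q ≤ H := sup_le (zpowers_le.2 aH) hQH
  have a1 : a ^ p ^ 1 = 1 := by
    rw [pow_one]
    exact mem_bot.1 (hf.le ⟨pow_mem aH p, quad_pow hV (zpowers_le.2 (hHV aH)) ha a (mem_zpowers a)⟩)
  have h := sec_sl_of_faithful hp hV (l.trans hHV) (eq_bot_iff.2 ((inf_le_inf_right _ l).trans hf.le))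
    (mem_sup_left (mem_zpowers a)) ha fun c => hQa (eq_bot_iff.2 (le_trans (le_inf
      (comm_le_left (zpowers_le.2 (hQn aH))) ((commutator_mono le_rfl (zpowers_le.2 c)).trans
      (comm_le_right (le_sup_right.trans le_norm_piCoreOf))))
      (inf_eq_bot_of_coprime' (coprime_of_pgroup isPGroup_piCoreOf
        ((coprime_iff_not_dvd Fact.out).1 hQ)).symm).le))
  haveI := normal_subgroupOf_of_le_normalizer (l.trans hQn)
  obtain rfl := eq_three_of_sec hp ((CfsgH1.isPSolvable_iff Fact.out).2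
    (CfsgH1.Sep.of_quotient_piNum (N := Q.subgroupOf _) (σ := {p}ᶜ) (by simp) (by
      rw [card_subgroupOf le_sup_right]; exact (piN_compl_singleton' Fact.out).2 hQ)
      (CfsgH1.Sep.of_piNum (σ := {p}) (by simp) (by
        change PiN {p} (Q.relIndex _)
        rw [relIndex_sup_of_norm (zpowers_le.2 (hQn aH))]
        exact (isPGroup_iff_piN.1 (CfsgH2.isPGroup_zpowers a1)).of_dvd (relIndex_dvd_card _ _))))) h
  obtain ⟨K, L, _, h1, h2⟩ := Sec.exists_le h
  exact ⟨rfl, K, L, _, h1.trans l, h2⟩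

end Cfsg.Agent.S0594
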