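import Cfsg.Statements.S0597
import Mathlib
import Cfsg.Agent.L0.Off
import Cfsg.Agent.H9.Join

set_option autoImplicit false
open Cfsg

namespace Cfsg.Agent.S0597

open Cfsg Subgroup CfsgH2 CfsgL0
open scoped commutatorElement

/-- If two subnormal subgroups of a faithful group on an elementary abelian p-group satisfy [V, E₁, E₂] = 1, then their commutator lies in the largest normal p-subgroup. -/
theorem result {G : Type*} [Group G] [Finite G] {p : ℕ} [Fact p.Prime] (V H : Subgroup G) (hV : Cfsg.IsElementaryAbelian p V) (hHV : H ≤ Subgroup.normalizer (V : Set G)) (hf : H ⊓ Subgroup.centralizer (V : Set G) = ⊥) (E₁ E₂ : Subgroup G) (h₁ : E₁ ≤ H) (h₂ : E₂ ≤ H) (hs₁ : (E₁.subgroupOf H).IsSubnormal) (hs₂ : (E₂.subgroupOf H).IsSubnormal) (hc : ⁅⁅V, E₁⁆, E₂⁆ = ⊥) : ⁅E₁, E₂⁆ ≤ (Cfsg.pCore p H).map H.subtype := by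
  have s := CfsgH9.Sn.sup ((CfsgH9.sn_iff_subgroupOf h₁).2 hs₁) ((CfsgH9.sn_iff_subgroupOf h₂).2 hs₂)
  have n : E₁ ⊔ E₂ ≤ N[⁅E₁, E₂⁆] := sup_le le_norm_comm_left le_norm_comm_right
  have l : ⁅E₁, E₂⁆ ≤ E₁ ⊔ E₂ := (commutator_mono le_sup_left le_sup_right).trans commutator_self_le
  refine CfsgH9.le_Op ((CfsgH9.Sn.of_normal l n).trans s) ?_
  have c := le_centralizer_iff.1 (comm_eq_bot_iff.1 hc)
  have n1 : E₁ ⊔ E₂ ≤ N[⁅V, E₁⁆] := sup_le le_norm_comm_right (le_norm_of_le_cent c)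
  have nV := (sup_le h₁ h₂).trans hHV
  have lV : ⁅V, E₁⁆ ≤ V := comm_le_left (h₁.trans hHV)
  have nV1 : V ≤ N[⁅V, E₁⁆] := le_norm_comm_left
  have a : ⁅E₁, E₂⁆ ≤ C[⁅V, E₁⁆] :=
    (commutator_mono le_rfl c).trans (comm_le_right (le_norm_cent le_norm_comm_right))
  have b : ⁅V, ⁅E₁, E₂⁆⁆ ≤ ⁅V, E₁⁆ := by
    rw [commutator_comm, ← qt_le_cent_iff (l.trans n1) nV1,
      qt_commutator (le_sup_left.trans n1) (le_sup_right.trans n1)]
    refine (commutator_mono ((qt_le_cent_iff (le_sup_left.trans n1) nV1).2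
      (commutator_comm V E₁).ge) le_rfl).trans (comm_le_left (le_norm_cent (qt_le_norm (h₂.trans hHV))))
  have q : ⁅⁅V, ⁅E₁, E₂⁆⁆, ⁅E₁, E₂⁆⁆ = ⊥ :=
    comm_eq_bot_iff.2 (b.trans (le_centralizer_iff.1 a))
  refine isPGroup_of_exp fun x hx => mem_bot.1 (hf ▸ ⟨(l.trans (sup_le h₁ h₂)) (pow_mem hx p),
    quad_pow hV (l.trans nV) q x hx⟩)

end Cfsg.Agent.S0597
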