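import Cfsg.Statements.S0598
import Mathlib
import Cfsg.Agent.L0.Off

set_option autoImplicit false
open Cfsg

namespace Cfsg.Agent.S0598

open Cfsg Subgroup CfsgH2 CfsgL0

/-- Thompson's replacement dichotomy: for A acting with abelian image on an elementary abelian p-group V and U ≤ V, either some subgroup of A increases the product of its order with the order of its fixed points, or C_A([U,A]) preserves that product and has fixed points exactly [U,A]C_V(A). -/
theorem result {G : Type*} [Group G] [Finite G] {p : ℕ} [Fact p.Prime] (V A : Subgroup G) (hV : Cfsg.IsElementaryAbelian p V) (hAV : A ≤ Subgroup.normalizer (V : Set G)) (hab : ⁅A, A⁆ ≤ Subgroup.centralizer (V : Set G)) (U : Subgroup G) (hU : U ≤ V) : ∃ B : Subgroup G, B ≤ A ∧ ((Nat.card A * Nat.card ↥(V ⊓ Subgroup.centralizer (A : Set G)) < Nat.card B * Nat.card ↥(V ⊓ Subgroup.centralizer (B : Set G))) ∨ (B = A ⊓ Subgroup.centralizer ((⁅U, A⁆ : Subgroup G) : Set G) ∧ (V ⊓ Subgroup.centralizer (B :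 Set G)) = ⁅U, A⁆ ⊔ (V ⊓ Subgroup.centralizer (A : Set G)) ∧ Nat.card A * Nat.card ↥(V ⊓ Subgroup.centralizer (A : Set G)) = Nat.card B * Nat.card ↥(V ⊓ Subgroup.centralizer (B : Set G)))) := by
  by_cases h : ∀ B ≤ A, o[B] * o[V ⊓ C[B]] ≤ o[A] * o[V ⊓ C[A]]
  · exact ⟨_, inf_le_left, .inr ⟨rfl, repl_eq hV.1 hAV hab h hU⟩⟩
  · push Not at h
    obtain ⟨B, h1, h2⟩ := h
    exact ⟨B, h1, .inl h2⟩

end Cfsg.Agent.S0598
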