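import Cfsg.Statements.S0602
import Mathlib
import Cfsg.Agent.L0.Thom

set_option autoImplicit false
open Cfsg

namespace Cfsg.Agent.S0602

open Cfsg Subgroup CfsgH2 CfsgL0

/-- The Thompson subgroup is characteristic, and nontrivial as soon as p divides the group order. -/
theorem result {G : Type*} [Group G] [Finite G] {p : ℕ} [Fact p.Prime] : (Cfsg.thompsonSubgroup p G).Characteristic ∧ (p ∣ Nat.card G → Cfsg.thompsonSubgroup p G ≠ ⊥) := by
  refine ⟨characteristic_iff_map_eq.2 fun φ => ?_, fun h => ?_⟩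
  · rw [← J_top, ← inj_J φ.injective, map_top_of_surjective _ φ.surjective]
  · obtain ⟨S, hS⟩ := exists_syl p (⊤ : Subgroup G)
    rw [← J_top]
    exact fun e => J_ne_bot dvd_rfl hS.pg (hS.ne_bot (by rwa [card_top]))
      (eq_bot_iff.2 ((J_syl_le hS).trans e.le))

end Cfsg.Agent.S0602
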