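import Cfsg.Statements.S0604
import Mathlib
import Cfsg.Agent.L0.Thom

set_option autoImplicit false
open Cfsg

namespace Cfsg.Agent.S0604

open Cfsg Subgroup CfsgH2 CfsgL0

/-- The Thompson subgroup of G is the join of the Thompson subgroups of its Sylow p-subgroups. -/
theorem result {G : Type*} [Group G] [Finite G] {p : ℕ} [Fact p.Prime] : Cfsg.thompsonSubgroup p G = ⨆ S : Sylow p G, Cfsg.thompsonSubgroupOf p (S : Subgroup G) := by
  rw [← J_top]
  refine le_antisymm (J_le_iff.2 fun A hA => ?_) (iSup_le fun S => J_syl_le (syl_top S))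
  obtain ⟨S, hS, h⟩ := exists_syl_ge (elem_pgroup hA.el) le_top
  obtain ⟨S, rfl⟩ := hS.exists_top
  exact (hA.mono h le_top).le_J.trans (le_iSup (fun S : Sylow p G => J[p, (S : Subgroup G)]) S)

end Cfsg.Agent.S0604
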