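import Cfsg.Statements.S0615
import Mathlib
import Cfsg.Agent.H9.Join
import Cfsg.Agent.H2.NP3

set_option autoImplicit false
open Cfsg

namespace Cfsg.Agent.S0615

section
open Subgroup CfsgH9
open scoped commutatorElement

section
open scoped commutatorElement
variable {G : Type*} [Group G] [Finite G] {p : ℕ} [Fact p.Prime] {V E A B : Subgroup G}
structure Hy (p : ℕ) (V E A : Subgroup G) : Prop where
  el : IsElementaryAbelian p V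
  n : E ≤ normalizer (V : Set G)
  fa : E ⊓ centralizer (V : Set G) = ⊥
  sn : Sn A E
  op : Op p E = ⊥
  irr : ∀ U : Subgroup G, U ≤ ⁅V, A⁆ → A ≤ normalizer (U : Set G) → U = ⊥ ∨ U = ⁅V, A⁆
  cd : 2 < Nat.card A
theorem Hy.le (h : Hy p V E A) : ⁅V, A⁆ ≤ V := commutator_le_left_of (h.sn.le.trans h.n)
theorem Hy.fa' (h : Hy p V E A) : A ⊓ centralizer ((⁅V, A⁆ : Subgroup G) : Set G) = ⊥ :=
  eq_bot_iff.2 (h.op ▸ le_Op ((sn_inf_centralizer (le_normalizer_comm_right V A)).trans h.sn)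
    (CfsgH2.pg_of_quad h.el (inf_le_left.trans (h.sn.le.trans h.n))
      (eq_bot_iff.2 (h.fa ▸ inf_le_inf_right _ (inf_le_left.trans h.sn.le)))
      ((commutator_mono le_rfl inf_le_left).trans (le_centralizer_iff.1 inf_le_right))))
theorem Hy.nc (h : Hy p V E A) : ⁅⁅V, A⁆, A⁆ ≠ ⊥ := fun e => by
  have := h.cd
  rw [← inf_eq_left.2 (comm_bot_iff'.1 e), h.fa', card_bot] at this
  omega
theorem Hy.cj (h : Hy p V E A) {g : G} (hg : g ∈ E) : Hy p V E (cj g A) ∧ ⁅V, cj g A⁆ = cj g ⁅V, A⁆ := by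
  have e : ⁅V, CfsgH9.cj g A⁆ = CfsgH9.cj g ⁅V, A⁆ := by
    rw [cj_commutator, cj_eq_of_mem_normalizer (h.n hg)]
  refine ⟨⟨h.el, h.n, h.fa, h.sn.cj_of_mem (le_normalizer hg), h.op, fun U h1 h2 => ?_,
    (card_cj g A).symm ▸ h.cd⟩, e⟩
  rw [e] at h1 ⊢
  refine (h.irr (CfsgH9.cj g⁻¹ U) (cj_inv_cj g ⁅V, A⁆ ▸ cj_mono _ h1) ?_).imp cj_eq_bot.1 fun k => ?_
  · rw [← cj_normalizer, ← cj_inv_cj g A]; exact cj_mono _ h2
  · rw [← k, cj_cj_inv]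
theorem Hy.mono (h : Hy p V E A) {L : Subgroup G} (h1 : A ≤ L) (h2 : Sn L E) : Hy p V L A :=
  ⟨h.el, h2.le.trans h.n, eq_bot_iff.2 (h.fa ▸ inf_le_inf_right _ h2.le), h.sn.mono h1 h2.le,
    eq_bot_iff.2 (h.op ▸ Op_mono h2), h.irr, h.cd⟩
theorem Hy.disj (h : Hy p V E A) {W : Subgroup G} (n : A ≤ normalizer (W : Set G))
    (l : ¬ ⁅V, A⁆ ≤ W) : ⁅V, A⁆ ⊓ W = ⊥ :=
  (h.irr _ inf_le_left (le_normalizer_inf (le_normalizer_comm_right V A) n)).resolve_right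
    fun e => l (e.ge.trans inf_le_right)
theorem stepB (hA : Hy p V E A) (hB : Hy p V E B) (l : ¬ ⁅V, A⁆ ≤ ⁅V, B⁆)
    (iA : ∀ x ∈ E, cj x ⁅V, A⁆ ≠ ⁅V, A⁆ → ⁅cj x ⁅V, A⁆, A⁆ = ⊥)
    (iB : ∀ x ∈ E, cj x ⁅V, B⁆ ≠ ⁅V, B⁆ → ⁅cj x ⁅V, B⁆, B⁆ = ⊥) :
    B ≤ normalizer ((⁅V, A⁆ : Subgroup G) : Set G) := fun g hg => by_contra fun n => by
  have gE := hB.sn.le hg
  have c1 := comm_bot_iff_forall.1 (iA g gE (mt cj_eq_iff.1 n))
  have d1 := hA.disj (le_normalizer_of_commutator_eq_bot (comm_bot_symm (iA g gE (mt cj_eq_iff.1 n))))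
    fun k => n (cj_eq_iff.1 (eq_of_le_of_card_ge k (card_cj _ _).le).symm)
  have ab : ∀ a ∈ V, ∀ b ∈ V, a * b = b * a := CfsgH2.isMulComm_iff.1 hA.el.1
  have nA := le_normalizer_comm_right V A
  have cv : ∀ {x v : G} {W : Subgroup G}, x ∈ normalizer (W : Set G) → v ∈ W → x * v * x⁻¹ ∈ W :=
    fun a b => (mem_normalizer_iff.1 a _).1 b
  have w : ∀ v ∈ ⁅V, A⁆, v⁻¹ * (g * v * g⁻¹) ∈ ⁅V, B⁆ := fun v hv => by
    simpa [commutatorElement_def, mul_assoc] using commutator_mem_commutator (inv_mem (hA.le hv)) hg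
  have hw : ∀ h ∈ A, ∀ v ∈ ⁅V, A⁆, h * (v⁻¹ * (g * v * g⁻¹)) * h⁻¹ = (h * v * h⁻¹)⁻¹ * (g * v * g⁻¹) :=
    fun h hh v hv => by
      calc _ = (h * v * h⁻¹)⁻¹ * (h * (g * v * g⁻¹)) * h⁻¹ := by group
        _ = _ := by rw [← c1 _ (conj_mem_cj g hv) h hh]; group
  have inv : ∀ h ∈ A, h ∉ normalizer ((⁅V, B⁆ : Subgroup G) : Set G) → ∀ v ∈ ⁅V, A⁆,
      h * v * h⁻¹ = v⁻¹ := fun h hh k => by
    have e : ∀ v ∈ ⁅V, A⁆, h * v * h⁻¹ * (g * g * v * (g * g)⁻¹) = g * (h * v * h⁻¹ * v) * g⁻¹ :=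
      fun v hv => by
        have := comm_bot_iff_forall.1 (iB h (hA.sn.le hh) (mt cj_eq_iff.1 k)) _
          (conj_mem_cj h (w v hv)) g hg
        rw [hw h hh v hv] at this
        have m := hA.le (cv (nA hh) hv)
        generalize h * v * h⁻¹ = u at this m
        have a := ab _ m _ (cv (hA.n gE) m)
        calc _ = u * (g * u * g⁻¹) * (g * (u⁻¹ * (g * v * g⁻¹))) * g⁻¹ := by group
          _ = _ := by rw [← this, a]; group
    intro v hv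
    by_cases k2 : cj (g * g) ⁅V, A⁆ = ⁅V, A⁆
    · have m : g * (h * v * h⁻¹ * v) * g⁻¹ ∈ ⁅V, A⁆ ⊓ cj g ⁅V, A⁆ :=
        ⟨e v hv ▸ mul_mem (cv (nA hh) hv) (cv (cj_eq_iff.1 k2) hv),
          conj_mem_cj g (mul_mem (cv (nA hh) hv) hv)⟩
      rw [d1, mem_bot, conj_eq_one_iff] at m
      exact eq_inv_of_mul_eq_one_left m
    · refine absurd (comm_bot_iff.2 fun u hu => ?_) hA.nc
      have hu' := cv (nA (inv_mem hh)) hu
      have := eq_mul_inv_of_mul_eq (e _ hu')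
      rw [show h * (h⁻¹ * u * h⁻¹⁻¹) * h⁻¹ = u by group] at this
      rw [this]
      exact mul_mem (comm_bot_iff.1 (iA g gE (mt cj_eq_iff.1 n)) (conj_mem_cj g (mul_mem hu hu')))
        (inv_mem (comm_bot_iff.1 (iA _ (mul_mem gE gE) k2) (conj_mem_cj _ hu')))
  obtain ⟨h, hh, k⟩ : ∃ h ∈ A, h ∉ normalizer ((⁅V, B⁆ : Subgroup G) : Set G) := by
    by_contra! k
    refine l (((hA.irr _ (commutator_le_left_of nA) (le_normalizer_comm_right _ A)).resolve_left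
      hA.nc).ge.trans (commutator_le.2 fun v hv a ha => ?_))
    have m := w _ (inv_mem hv)
    have := mul_mem m (inv_mem (cv (k a ha) m))
    rw [hw a ha _ (inv_mem hv)] at this
    simpa [commutatorElement_def, mul_assoc] using this
  have u : ∀ x ∈ A, x ∉ normalizer ((⁅V, B⁆ : Subgroup G) : Set G) → x = h := fun x hx k2 => by
    refine (inv_mul_eq_one.1 (mem_bot.1 (hA.fa'.le (mem_inf.2 ⟨mul_mem (inv_mem hh) hx, fun v hv => ?_⟩)))).symm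
    have := inv h hh k v hv
    rw [← inv x hx k2 v hv] at this
    calc v * (h⁻¹ * x) = h⁻¹ * (h * v * h⁻¹) * x := by group
      _ = _ := by rw [this]; group
  have s : (A : Set G) ⊆ {1, h} := fun x hx => by
    by_cases k2 : x ∈ normalizer ((⁅V, B⁆ : Subgroup G) : Set G)
    · exact .inl (mul_eq_left.1 (u _ (mul_mem hh hx) fun m => k ((mul_mem_cancel_right k2).1 m)))
    · exact .inr (u x hx k2)
  exact hA.cd.not_ge ((Set.ncard_le_ncard s).trans ((Set.ncard_insert_le _ _).trans (by simp)))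
theorem key (E : Subgroup G) : ∀ A B, Hy p V E A → Hy p V E B → E = A ⊔ B → ¬ ⁅V, A⁆ ≤ ⁅V, B⁆ →
    ¬ ⁅V, B⁆ ≤ ⁅V, A⁆ → ⁅⁅V, A⁆, B⁆ = ⊥ := by
  induction E using subgroup_induction with | _ E ih
  have i : ∀ A B, Hy p V E A → B ≤ E → ¬ ⁅V, B⁆ ≤ ⁅V, A⁆ → ∀ x ∈ E, cj x ⁅V, A⁆ ≠ ⁅V, A⁆ →
      ⁅cj x ⁅V, A⁆, A⁆ = ⊥ := fun A B hA l n x hx k => by
    obtain ⟨h1, h2⟩ := hA.cj hx
    have s := h1.sn.sup hA.sn
    rw [← h2] at k ⊢
    have c : Nat.card ↥⁅V, cj x A⁆ = Nat.card ↥⁅V, A⁆ := by rw [h2, card_cj]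
    exact ih _ ((sup_le (cj_le_ncl hx) (le_ncl _ _)).trans_lt (hA.sn.ncl_lt fun e =>
      n (commutator_mono le_rfl (e ▸ l)))) _ _ (h1.mono le_sup_left s) (hA.mono le_sup_right s) rfl
      (fun l => k (eq_of_le_of_card_ge l c.ge)) fun l => k (eq_of_le_of_card_ge l c.le).symm
  intro A B hA hB _ l1 l2
  have iA := i A B hA hB.sn.le l2
  have iB := i B A hB hA.sn.le l1
  exact eq_bot_iff.2 (hA.disj (stepB hB hA l2 iB iA) l1 ▸ le_inf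
    (commutator_le_left_of (stepB hA hB l1 iA iB)) (commutator_mono hA.le le_rfl))
end

end

/-- Two subnormal subgroups acting irreducibly on their incomparable commutator modules, in a faithful group with trivial largest normal p-subgroup, generate their direct product, and the commutator module splits accordingly. -/
theorem result {G : Type*} [Group G] [Finite G] {p : ℕ} [Fact p.Prime] (V E E₁ E₂ : Subgroup G) (hV : Cfsg.IsElementaryAbelian p V) (hEV : E ≤ Subgroup.normalizer (V : Set G)) (hf : E ⊓ Subgroup.centralizer (V : Set G) = ⊥) (hgen : E = E₁ ⊔ E₂) (hs₁ : (E₁.subgroupOf E).IsSubnormal) (hs₂ : (E₂.subgroupOf E).IsSubnormal) (hOp : Cfsg.pCore p ↥E = ⊥) (hirr₁ : (∀ U : Subgroup G, U ≤ ⁅V, E₁⁆ → E₁ ≤ Subgroup.normalizer (U : Set G) → U = ⊥ ∨ U = ⁅V, E₁⁆)) (hirr₂ : (∀ U : Subgroup G, U ≤ ⁅V, E₂⁆ → E₂ ≤ Subgroup.normalizer (U : Set G) → U = ⊥ ∨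 U = ⁅V, E₂⁆)) (h12 : ¬ ⁅V, E₁⁆ ≤ ⁅V, E₂⁆) (h21 : ¬ ⁅V, E₂⁆ ≤ ⁅V, E₁⁆) (hc₁ : 2 < Nat.card E₁) (hc₂ : 2 < Nat.card E₂) : ⁅E₁, E₂⁆ = ⊥ ∧ E₁ ⊓ E₂ = ⊥ ∧ ⁅V, E₁⁆ ⊓ ⁅V, E₂⁆ = ⊥ ∧ ⁅V, E⁆ = ⁅V, E₁⁆ ⊔ ⁅V, E₂⁆ := by
  open Subgroup CfsgH9 in
  have l1 : E₁ ≤ E := hgen ▸ le_sup_left
  have l2 : E₂ ≤ E := hgen ▸ le_sup_right
  have o : Op p E = ⊥ := by rw [Op, hOp, Subgroup.map_bot]
  have h1 : Hy p V E E₁ := ⟨hV, hEV, hf, (sn_iff_subgroupOf l1).2 hs₁, o, hirr₁, hc₁⟩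
  have h2 : Hy p V E E₂ := ⟨hV, hEV, hf, (sn_iff_subgroupOf l2).2 hs₂, o, hirr₂, hc₂⟩
  have k1 := key E _ _ h1 h2 hgen h12 h21
  have k2 := key E _ _ h2 h1 (hgen.trans (sup_comm _ _)) h21 h12
  refine ⟨eq_bot_iff.2 (hf ▸ le_inf ((commutator_le_sup _ _).trans hgen.ge) (comm_bot_iff.1
    (commutator_commutator_eq_bot_of_rotate (commutator_comm V E₂ ▸ k2) k1))),
    eq_bot_iff.2 (h1.fa' ▸ inf_le_inf_left _ (comm_bot_iff'.1 k1)),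
    h1.disj (le_normalizer_of_commutator_eq_bot (comm_bot_symm k2)) h12,
    hgen ▸ CfsgH2.comm_sup_right_ab hV.1 (l1.trans hEV) (l2.trans hEV)⟩

end Cfsg.Agent.S0615
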