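import Cfsg.Statements.S0617
import Cfsg.Agent.H2.FF2

set_option autoImplicit false
open Cfsg

namespace Cfsg.Agent.S0617
open CfsgH2
section
open Subgroup Function
open scoped commutatorElement

open Subgroup in open scoped commutatorElement in
theorem aux {G : Type*} [Group G] [Finite G] {p : ℕ} [Fact p.Prime] {V H : Subgroup G}
    {𝓟 : Subgroup G → Prop} (h : FA p V H) (g : ∀ K, (∀ A, Tr p V H A → A ≤ K) → H ≤ K)
    (e : ∀ E, 𝓟 E ↔ Cm p V H E) (h0 : H ≠ ⊥) : (p = 2 ∨ p = 3) ∧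
    (∀ E : {E // 𝓟 E}, H ≤ N[E.1] ∧ Nonempty (E.1 ≃* Matrix.SpecialLinearGroup (Fin 2) (ZMod p)) ∧
      o[⁅V, E.1⁆] = p ^ 2) ∧ iSupIndep (fun E : {E // 𝓟 E} => E.1) ∧ (⨆ E : {E // 𝓟 E}, E.1) = H ∧
    iSupIndep (fun o : Option {E // 𝓟 E} => o.elim (V ⊓ C[H]) fun E => ⁅V, E.1⁆) ∧
    (V ⊓ C[H]) ⊔ (⨆ E : {E // 𝓟 E}, ⁅V, E.1⁆) = V := by
  obtain rfl : 𝓟 = Cm p V H := funext fun E => propext (e E)
  have e1 : sSup {E | Cm p V H E} = H :=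
    le_antisymm (sSup_le fun E c => Cm.le c) (Cm.gen g fun E c => le_sSup c)
  obtain ⟨e2, e3, e4⟩ := h.cent_sup (𝓔 := {E | Cm p V H E}) fun _ c => c
  rw [e1] at e2 e3 e4
  replace e2 : ⨆ E : {E // Cm p V H E}, ⁅V, E.1⁆ = ⁅V, H⁆ := by rw [e2, iSup_subtype]; rfl
  refine ⟨by_contra fun c => h0 (le_bot_iff.1 (Cm.gen g fun E d => (c (d.two_or_three h)).elim)),
    fun E => ⟨E.2.norm h g, E.2.iso h, E.2.cW h⟩, fun E => disjoint_iff.2 (le_bot_iff.1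
      (E.2.faW h ▸ inf_le_inf_left _ (iSup₂_le fun D d => ((E.2.dich h D.2).resolve_left
        fun f => d (Subtype.ext f.symm)).1))), (sSup_eq_iSup' _).symm.trans e1,
    fun o => disjoint_iff.2 (le_bot_iff.1 ?_), by rw [e2, sup_comm, e4]⟩
  rcases o with _ | E
  · refine e3 ▸ le_inf (inf_le_right.trans (iSup₂_le ?_)) (inf_le_left.trans inf_le_right)
    rintro (_ | D) d
    exacts [(d rfl).elim, commutator_mono le_rfl D.2.le]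
  · refine E.2.W_inf h ▸ inf_le_inf_left _ (iSup₂_le ?_)
    rintro (_ | D) d
    · exact inf_le_right.trans (cent_anti E.2.le)
    · exact le_centralizer_iff.1 ((D.2.dich h E.2).resolve_left fun f =>
        d (congrArg some (Subtype.ext f))).1

end

/-- Structure Theorem for failure of factorization: a faithful group generated by best offenders, with self-centralizing p'-core, is a direct product of copies of SL(2, p) (p = 2 or 3), each acting on its own plane in V, which is the direct product of these planes and C_V(H). -/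
theorem result {G : Type*} [Group G] [Finite G] {p : ℕ} [Fact p.Prime] (V H : Subgroup G) (hV : Cfsg.IsElementaryAbelian p V) (hHV : H ≤ Subgroup.normalizer (V : Set G)) (hf : H ⊓ Subgroup.centralizer (V : Set G) = ⊥) (hS1 : Subgroup.centralizer (Cfsg.pPrimeCore p ↥H : Set ↥H) ≤ Cfsg.pPrimeCore p ↥H) (hS3 : H = ⨆ A : {A : Subgroup G // A ≤ H ∧ Cfsg.IsBestOffenderOn p V A}, (A : Subgroup G)) (hH1 : H ≠ ⊥) : (p = 2 ∨ p = 3) ∧ (∀ E : {E : Subgroup G // ∃ A : Subgroup G, A ≤ H ∧ Cfsg.IsBestOffenderOn p V A ∧ ⁅V, A⁆ ≠ ⊥ ∧ (∀ B : Subgroup G, B ≤ A → Cfsg.IsBestOffenderOn p V B → ⁅V, B⁆ ≠ ⊥ → B = A) ∧ E = ⁅((Cfsg.pPrimeCore p ↥H).map H.subtype), A⁆ ⊔ A}, H ≤ Subgroup.normalizer ((E : Subgroup G) : Set G) ∧ Nonempty (↥(E : Subgroup G) ≃* Matrix.SpecialLinearGroup (Fin 2) (ZMod p)) ∧ Nat.card ↥(⁅V, (E : Subgroup G)⁆) = p ^ 2) ∧ iSupIndep (fun E : {E : Subgroup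 G // ∃ A : Subgroup G, A ≤ H ∧ Cfsg.IsBestOffenderOn p V A ∧ ⁅V, A⁆ ≠ ⊥ ∧ (∀ B : Subgroup G, B ≤ A → Cfsg.IsBestOffenderOn p V B → ⁅V, B⁆ ≠ ⊥ → B = A) ∧ E = ⁅((Cfsg.pPrimeCore p ↥H).map H.subtype), A⁆ ⊔ A} => (E : Subgroup G)) ∧ (⨆ E : {E : Subgroup G // ∃ A : Subgroup G, A ≤ H ∧ Cfsg.IsBestOffenderOn p V A ∧ ⁅V, A⁆ ≠ ⊥ ∧ (∀ B : Subgroup G, B ≤ A → Cfsg.IsBestOffenderOn p V B → ⁅V, B⁆ ≠ ⊥ → B = A) ∧ E = ⁅((Cfsg.pPrimeCore p ↥H).map H.subtype), A⁆ ⊔ A}, (E : Subgroup G)) = H ∧ iSupIndep (fun o : Option {E : Subgroup G // ∃ A : Subgroup G, A ≤ H ∧ Cfsg.IsBestOffenderOn p V A ∧ ⁅V, A⁆ ≠ ⊥ ∧ (∀ B : Subgroup G, B ≤ A → Cfsg.IsBestOffenderOn p V B → ⁅V, B⁆ ≠ ⊥ → B = A) ∧ E = ⁅((Cfsg.pPrimeCore p ↥H).map H.subtype), A⁆ ⊔ A} => o.elim (V ⊓ Subgroup.centralizer (H : Set G)) (fun E => ⁅V, (E : Subgroup G)⁆)) ∧ (V ⊓ Subgroup.centralizer (H : Set G)) ⊔ (⨆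 E : {E : Subgroup G // ∃ A : Subgroup G, A ≤ H ∧ Cfsg.IsBestOffenderOn p V A ∧ ⁅V, A⁆ ≠ ⊥ ∧ (∀ B : Subgroup G, B ≤ A → Cfsg.IsBestOffenderOn p V B → ⁅V, B⁆ ≠ ⊥ → B = A) ∧ E = ⁅((Cfsg.pPrimeCore p ↥H).map H.subtype), A⁆ ⊔ A}, ⁅V, (E : Subgroup G)⁆) = V := by
  open Subgroup Function in open scoped commutatorElement in
  have h := fa_of hV hHV hf hS1
  rw [map_pPrimeCore_subtype]
  exact aux h (h.gen_of hS3) (fun E => exists_congr fun A => by rw [h.tr_iff]; tauto) hH1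

end Cfsg.Agent.S0617
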