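import Cfsg.Statements.S0618
import Cfsg.Agent.H2.FF3

set_option autoImplicit false
open Cfsg

namespace Cfsg.Agent.S0618
open CfsgH2

/-- A p-separable group with trivial p'-core in which the Thompson factorization fails has p = 2 or 3, and J(G) induces on the normal closure of Ω₁(Z(S)) a group containing a normal SL(2, p). -/
theorem result {G : Type*} [Group G] [Finite G] {p : ℕ} [Fact p.Prime] (hsep : Cfsg.IsPSolvable p G) (hO : Cfsg.pPrimeCore p G = ⊥) (hnf : ¬ Cfsg.IsThompsonFactorizable p G) : (p = 2 ∨ p = 3) ∧ ∃ E : Subgroup G, Subgroup.centralizer ((⨆ S : Sylow p G, Cfsg.omegaOne p ((S : Subgroup G) ⊓ Subgroup.centralizer ((S : Subgroup G) : Set G))) : Set G) ≤ E ∧ E ≤ Cfsg.thompsonSubgroup p G ⊔ Subgroup.centralizer ((⨆ S : Sylow p G, Cfsg.omegaOne p ((S : Subgroup G) ⊓ Subgroup.centralizer ((S : Subgroup G) : Set G))) : Set G) ∧ Cfsg.thompsonSubgroup p G ⊔ Subgroup.centralizer ((⨆ S : Sylow p G, Cfsg.omegaOne p ((S : Subgroup G) ⊓ Subgroup.centralizer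 ((S : Subgroup G) : Set G))) : Set G) ≤ Subgroup.normalizer (E : Set G) ∧ ∃ hn : ((Subgroup.centralizer ((⨆ S : Sylow p G, Cfsg.omegaOne p ((S : Subgroup G) ⊓ Subgroup.centralizer ((S : Subgroup G) : Set G))) : Set G)).subgroupOf E).Normal, Nonempty ((↥E ⧸ (Subgroup.centralizer ((⨆ S : Sylow p G, Cfsg.omegaOne p ((S : Subgroup G) ⊓ Subgroup.centralizer ((S : Subgroup G) : Set G))) : Set G)).subgroupOf E) ≃* Matrix.SpecialLinearGroup (Fin 2) (ZMod p)) := by
  open Subgroup Function in open scoped commutatorElement in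
  open Subgroup CfsgL0 in open scoped commutatorElement in
  have h : AF p (VZ p G) ⊤ := ⟨VZ_elem (con_top_iff.1 (CfsgH1.centralizer_pCore_le hsep hO)),
    le_top, top_le_norm_iff.2 inferInstance,
    ((CfsgH1.isPSolvable_iff Fact.out).1 hsep).subgroup _, fun D _ n l =>
      haveI := normal_of_top_le_norm n; le_cent_VZ_of_piRes l⟩
  obtain ⟨E, c⟩ := h.exists_ac (mt (tf_iff_cent hO).2 hnf)
  have h1 := c.leJ h
  have h2 := c.norm h
  have h3 := c.ge
  have h4 := c.iso h
  rw [top_inf_eq, J_top] at h1 h2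
  rw [top_inf_eq] at h3
  rw [VZ, iSup_eq_closure, centralizer_closure] at h1 h2 h3 h4
  exact ⟨c.two_or_three h, E, h3, h1, h2, h4⟩

end Cfsg.Agent.S0618
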