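import Cfsg.Statements.S0619
import Cfsg.Agent.H2.FF3

set_option autoImplicit false
open Cfsg

namespace Cfsg.Agent.S0619
open CfsgH2

/-- For a p-separable group and a normal elementary abelian p-subgroup V with no nontrivial normal p-subgroup modulo its centralizer C, the Thompson subgroup J(G) moves Ω₁(Z(J(C))) only inside V. -/
theorem result {G : Type*} [Group G] [Finite G] {p : ℕ} [Fact p.Prime] (hsep : Cfsg.IsPSolvable p G) (V : Subgroup G) [V.Normal] (hV : Cfsg.IsElementaryAbelian p V) (hO : Cfsg.pCore p (G ⧸ Subgroup.centralizer (V : Set G)) = ⊥) : ⁅Cfsg.omegaOne p (Cfsg.centerThompsonOf p (Subgroup.centralizer (V : Set G))), Cfsg.thompsonSubgroup p G⁆ ≤ V := by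
  open Subgroup Function in open scoped commutatorElement in
  open Subgroup CfsgL0 in open scoped commutatorElement in
  have h : AF p V ⊤ := ⟨hV, le_top, top_le_norm_iff.2 inferInstance,
    ((CfsgH1.isPSolvable_iff Fact.out).1 hsep).subgroup _, fun D _ n l =>
      haveI := normal_of_top_le_norm n; pCore_quot_eq_bot.1 hO D this l⟩
  rw [ZJ_eq, ← J_top]
  refine comm_le_of_le_stab (J_le_iff.2 fun A a => le_stab (le_top.trans h.nm) ?_)
  have b := (h.me a).mono (sup_le (le_cent_self hV.1) inf_le_right) le_top
  refine (commutator_mono (omega_ZJ_le b) le_rfl).trans (comm_sup_le (le_top.trans h.nm)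
    (le_top.trans h.nm) (comm_le_left (le_top.trans h.nm)) ?_)
  exact (comm_eq_bot_iff.2 (inf_le_left.trans (le_cent_self a.ab))).le.trans bot_le

end Cfsg.Agent.S0619
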