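import Cfsg.Statements.S0620
import Mathlib
import Cfsg.Agent.H9.FFX

set_option autoImplicit false
open Cfsg

namespace Cfsg.Agent.S0620

/-- Under coprime action of an elementary abelian q-group X on a p-separable group K with trivial p'-core, K is generated by the normalizer of J(S), the centralizer of Ω₁(Z(S)) and the fixed points of X. -/
theorem result {G : Type*} [Group G] [Finite G] {p : ℕ} [Fact p.Prime] {q : ℕ} [Fact q.Prime] (K X : Subgroup G) (hXK : X ≤ Subgroup.normalizer (K : Set G)) (hX : Cfsg.IsElementaryAbelian q X) (hq : ¬ q ∣ Nat.card K) (hsep : Cfsg.IsPSolvable p ↥K) (hO : Cfsg.pPrimeCore p ↥K = ⊥) (S : Sylow p ↥K) : (Subgroup.normalizer (Cfsg.thompsonSubgroupOf p (S : Subgroup ↥K) : Set ↥K) ⊔ Subgroup.centralizer (Cfsg.omegaOne p ((S : Subgroup ↥K) ⊓ Subgroup.centralizer ((S : Subgroup ↥K) : Set ↥K)) : Set ↥K) ⊔ (Subgroup.centralizer (X : Set G)).subgroupOf K) = ⊤ := by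
  open Subgroup Cfsg CfsgH2 Function in
  open scoped commutatorElement in
  open CfsgL0 CfsgFX in
  obtain ⟨h, n⟩ := af_scc hsep hO
  have i := K.subtype_injective
  have t := syl_sub S
  rw [eq_top_iff, ← map_le_map_iff_of_injective i, map_subtype_top, Subgroup.map_sup, Subgroup.map_sup,
    CfsgH9.map_subtype_normalizer, CfsgH9.map_subtype_centralizer, subgroupOf_map_subtype, ← inj_J i,
    CfsgH9.map_OZ i]
  have h0 := map_mono (f := K.subtype) (le_VZ (syl_top S))
  rw [CfsgH9.map_OZ i] at h0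
  generalize (S : Subgroup K).map K.subtype = T at *
  generalize hY : _ ⊔ _ ⊔ C[X] ⊓ K = Y
  have h1 : N[thompsonSubgroupOf p T] ⊓ K ≤ Y := (le_sup_left.trans le_sup_left).trans hY.le
  have h2 : K ⊓ C[(VZ p K).map K.subtype] ≤ Y := ((le_inf (inf_le_right.trans (cent_anti h0))
    inf_le_left).trans (le_sup_right.trans le_sup_left)).trans hY.le
  have h3 : K ⊓ C[X] ≤ Y := ((inf_comm _ _).le.trans le_sup_right).trans hY.le
  have h4 : thompsonSubgroupOf p K ≤ Y := (h.gen (le_inf h2 inf_le_left) inf_le_right fun E c => le_inf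
    (E_le_of h c (elem_pgroup hX) hXK (hXK.trans n) hq t ((le_inf le_norm_J t.le).trans h1) h2 h3)
      c.le).trans inf_le_left
  intro g hg
  obtain ⟨c, hc, m, hm, e⟩ := frattini_J t J_le le_norm_J (J_syl_le t) hg
  exact e ▸ mul_mem (h4 hc) (h1 ⟨hm, (K.mul_mem_cancel_left (J_le hc)).1 (e ▸ hg)⟩)

end Cfsg.Agent.S0620
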