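import Cfsg.Statements.S0624
import Mathlib
import Cfsg.Agent.L0.WS
import Cfsg.Agent.H2.WC

set_option autoImplicit false
open Cfsg

namespace Cfsg.Agent.S0624

open Cfsg Subgroup CfsgH2 CfsgL0

/-- The analogue of the ZJ-Theorem: in an action-p-stable group whose largest normal p-subgroup contains its centralizer, the characteristic subgroup W(S) of a Sylow p-subgroup S is normal. -/
theorem result {G : Type*} [Group G] [Finite G] {p : ℕ} [Fact p.Prime] (hst : Cfsg.IsActionPStable p G) (hc : Subgroup.centralizer (Cfsg.pCore p G : Set G) ≤ Cfsg.pCore p G) (S : Sylow p G) : (((Cfsg.stableNormalClosure p ↥(S : Subgroup G)).map (S : Subgroup G).subtype)).Normal := by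
  have hS := syl_top S
  have hc' := con_top_iff.1 hc
  have l : (S : Subgroup G) ≤ N[J[p, (S : Subgroup G)]] := le_norm_J
  refine normal_of_top_le_norm (norm_of_nonquad hS (fun a ha => ?_) wS_elem le_norm_wS (wS_quad hS.pg)
    (inf_le_right.trans (norm_wS_of_J (hS.mono l le_top) (con_of_core_le hc' (hS.pCoreOf_le.trans l) le_top)
      le_rfl fun V _ h => hst.2.2 S V (h.trans map_omegaCT.ge))) fun V _ b c => ?_)
  · have ha' := zpowers_le.2 ha
    obtain ⟨D, d1, d2, ⟨k, d3⟩, d4⟩ := hst.2.1 a (((commutator_mono (commutator_mono le_rfl ha')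
      ha').trans (quad_of_ab' wS_elem.1 (pCore_eq'.le.trans (hS.pCoreOf_le.trans le_norm_wS))).le).trans
      bot_le)
    have n : (sectionKernel (pCore p G) ((frattini (pCore p G)).map (pCore p G).subtype)).Normal := by
      unfold sectionKernel; infer_instance
    have h1 := piRes_le_of (π := {p}) (M := D) (le_normalizer_of_normal (H := sectionKernel (pCore p G) _))
      ((piN_singleton Fact.out (relIndex_pos _ _).ne').2 ⟨k, d3⟩)
    have h2 := piRes_le_cent_of_phi (V := pCore p G) (D := piRes {p} D) isPGroup_pCore
      le_normalizer_of_normal (by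
        rw [commutator_comm, ← QuotientGroup.ker_mk' (CfsgH1.frattiniOf _), ← map_le_cent_map_iff_comm,
          map_le_iff_le_comap]
        exact h1)
    rw [piRes_piRes] at h2
    rw [← pCore_eq']
    exact le_pCore (isPGroup_of_piRes (isPGroup_pCore.to_le (h2.trans hc))) d4
  · haveI := normal_of_top_le_norm c
    exact (isPStableOn_iff (elem_pgroup b)).1 (hst.1 V b)

end Cfsg.Agent.S0624
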