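import Cfsg.Statements.S0627
import Mathlib
import Cfsg.Agent.L0.Quad3

set_option autoImplicit false
open Cfsg

namespace Cfsg.Agent.S0627

open Cfsg Subgroup CfsgH2 CfsgL0

/-- In a p-separable group with p at least 5, the normalizer of W(S) supplements the largest normal subgroup of order prime to p. -/
theorem result {G : Type*} [Group G] [Finite G] {p : ℕ} [Fact p.Prime] (hp : 5 ≤ p) (hsep : Cfsg.IsPSolvable p G) (S : Sylow p G) : Cfsg.pPrimeCore p G ⊔ Subgroup.normalizer (((Cfsg.stableNormalClosure p ↥(S : Subgroup G)).map (S : Subgroup G).subtype) : Set G) = ⊤ := by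
  have h := not_sec_sl_of_sep hp ((CfsgH1.isPSolvable_iff Fact.out).1 hsep)
  refine core'_sup_norm_iw WS_charP (syl_top S) fun T hT => norm_wS hT (con_top_iff.1
    (CfsgH1.centralizer_pCore_le (CfsgH1.IsPSolvable.quotient' hsep _) core'_quot'))
    fun L hL => PSt.nst_le (pst_of_sl (by omega) ((Sec.self ⊤).quot _) h) hL

end Cfsg.Agent.S0627
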