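import Cfsg.Statements.S0629
import Mathlib
import Cfsg.Agent.L0.PCon
import Cfsg.Agent.H1.Sep

set_option autoImplicit false
open Cfsg

namespace Cfsg.Agent.S0629

open Cfsg Subgroup CfsgH2 CfsgL0
theorem aux {X : Type*} [Group X] [Finite X] {p : ℕ} [Fact p.Prime] (h0 : O[{p}ᶜ, (⊤ : Subgroup X)] = ⊥)
    (h1 : IsPSolvable p C[pCore p X]) : C[pCore p X] ≤ pCore p X := by
  have n : ⊤ ≤ N[C[pCore p X]] := le_norm_cent le_normalizer_of_normal
  have h2 : pPrimeCore p C[pCore p X] = ⊥ := by
    rw [← Subgroup.map_eq_bot_iff_of_injective _ (subtype_injective _), map_pPrimeCore_subtype,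
      eq_bot_iff, ← h0]
    exact piCoreOf_le_of_norm le_top n
  have h3 := con_sub.1 (con_top_iff.1 (CfsgH1.centralizer_pCore_le h1 h2))
  have h4 : O[{p}, C[pCore p X]] ≤ pCore p X := by
    conv_rhs => rw [pCore_eq']
    exact piCoreOf_le_of_norm le_top n
  exact (le_inf le_rfl (cent_anti h4)).trans (le_trans h3 h4)

/-- A group in which the centralizer of a Sylow p-subgroup of O_{p',p}(G) is p-solvable is p-constrained. -/
theorem result {G : Type*} [Group G] [Finite G] {p : ℕ} [Fact p.Prime] (P : Sylow p ↥(Cfsg.pPrimePCore p G)) (hsol : Cfsg.IsPSolvable p ↥(Subgroup.centralizer (((P : Subgroup ↥(Cfsg.pPrimePCore p G)).map (Cfsg.pPrimePCore p G).subtype : Subgroup G) : Set G))) : Cfsg.IsPConstrained p G := by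
  have hT := syl_sub P
  generalize (P : Subgroup (pPrimePCore p G)).map (pPrimePCore p G).subtype = T at hT hsol
  have h1 : IsPSolvable p (C[T].map (QuotientGroup.mk' (pPrimeCore p G))) := by
    rw [CfsgH1.isPSolvable_iff (Fact.out)] at hsol ⊢
    exact hsol.map _
  rw [map_cent_of_coprime (QuotientGroup.mk'_surjective _) nd_ker_mk hT.pg, map_syl_Opp hT] at h1
  rw [pcon_iff, ← con_top_iff]
  exact aux core'_quot h1

end Cfsg.Agent.S0629
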