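import Cfsg.Statements.S0631
import Mathlib
import Cfsg.Agent.H9.PLay

set_option autoImplicit false
open Cfsg

namespace Cfsg.Agent.S0631

open Cfsg Subgroup CfsgH9

/-- In a p-constrained group the normalizer and the centralizer of any p-subgroup are again p-constrained. -/
theorem result {G : Type*} [Group G] [Finite G] {p : ℕ} [Fact p.Prime] (hG : Cfsg.IsPConstrained p G) (P : Subgroup G) (hP : IsPGroup p P) : Cfsg.IsPConstrained p ↥(Subgroup.normalizer (P : Set G)) ∧ Cfsg.IsPConstrained p ↥(Subgroup.centralizer (P : Set G)) := by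
  rw [isPConstrained_iff, ← PLay_top] at hG
  have h1 := Lbar_le_Opp_of_PLay_eq_bot (K := normalizer (P : Set G)) (P := P) hG le_top
    (le_Op (.of_normal le_normalizer le_rfl) hP) (inf_le_right.trans (centralizer_le_normalizer _))
  have h2 : PLay p (normalizer (P : Set G)) = ⊥ := by
    rw [← Oupp_PLay, Oupp_eq_bot_iff]
    exact coprime_of_le ((PLay_le_Lbar _).trans h1) (Opp_coprime p _)
  refine ⟨isPConstrained_iff_PLay.2 h2, isPConstrained_iff_PLay.2 (le_bot_iff.1 (h2 ▸ PLay_mono ?_))⟩
  simpa using sn_centralizer_normalizer ⊤ P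

end Cfsg.Agent.S0631
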