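import Cfsg.Statements.S0633
import Mathlib
import Cfsg.Agent.H9.Tb3

set_option autoImplicit false
open Cfsg

namespace Cfsg.Agent.S0633

/-- Theorem B of Hall and Higman on the minimal polynomial of a p-element of order p^n in a p-solvable linear group on a nonzero vector space in characteristic p with no nontrivial normal p-subgroup: its degree is p^n, except when some p^n₀ - 1 (n₀ ≤ n) is a power of a prime q for which the Sylow q-subgroups are non-abelian, in which case the degree is at least p^(n-n₀)(p^n₀ - 1). -/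
theorem result {F : Type*} [Field F] {p : ℕ} [Fact p.Prime] [CharP F p] {V : Type*} [AddCommGroup V] [Module F V] [FiniteDimensional F V] [Nontrivial V] (H : Subgroup (V ≃ₗ[F] V)) [Finite H] (hsol : Cfsg.IsPSolvable p H) (hOp : Cfsg.pCore p H = ⊥) (x : V ≃ₗ[F] V) (hx : x ∈ H) (n : ℕ) (hn : orderOf x = p ^ n) (r : ℕ) (hr : minpoly F (x : Module.End F V) = (Polynomial.X - 1) ^ r) : r = p ^ n ∨ ∃ n₀ q m : ℕ, 1 ≤ n₀ ∧ n₀ ≤ n ∧ q.Prime ∧ 1 ≤ m ∧ p ^ n₀ - 1 = q ^ m ∧ (∀ Q : Sylow q H, ¬ IsMulCommutative Q) ∧ p ^ (n - n₀) * (p ^ n₀ - 1) ≤ r := by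
  open Subgroup Cfsg CfsgH2 Function CfsgCP CfsgTB in
  have hp : p.Prime := Fact.out
  have a := minpoly.aeval F (x : Module.End F V)
  rw [hr, map_pow, map_sub, Polynomial.aeval_X, map_one] at a
  have b : r ≤ p ^ n := by
    have := minpoly.dvd F (x : Module.End F V) (p := (Polynomial.X - 1) ^ p ^ n) (by
      rw [map_pow, map_sub, Polynomial.aeval_X, map_one, sub_one_pow (K := F), sub_eq_zero, ← hn]
      exact (map_pow LinearEquiv.automorphismGroup.toLinearMapMonoidHom x _).symm.trans (by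
        rw [pow_orderOf_eq_one, map_one]))
    rwa [hr, ← Polynomial.C_1, pow_dvd_pow_iff (Polynomial.X_sub_C_ne_zero (1 : F)) (Polynomial.not_isUnit_X_sub_C 1)] at this
  rcases n with _ | n
  · refine .inl (le_antisymm b (Nat.pos_of_ne_zero ?_))
    rintro rfl
    exact one_ne_zero a
  obtain ⟨q, hq, Q, -, -, s, c | ⟨j, j1, m, m1, e, c, d⟩⟩ := thmB (x := ⟨x, hx⟩) (n := n) (r := r)
    (ρ := LinearEquiv.automorphismGroup.toLinearMapMonoidHom.comp H.subtype)
    (fun _ _ e => Subtype.ext (LinearEquiv.toLinearMap_injective e)) hsol hOp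
    ((orderOf_coe _).symm.trans hn) a
  · exact .inl (le_antisymm b c)
  refine .inr ⟨n + 1 - j, q, m, by omega, by omega, hq.out, m1, e, fun S hS => c ?_,
    by rwa [Nat.sub_sub_self (by omega)]⟩
  obtain ⟨T, hT⟩ := s.pg.exists_le_sylow
  obtain ⟨g, rfl⟩ := MulAction.exists_smul_eq H S T
  exact (comm_self_eq_bot_iff.2 (isMulComm_of_le (isMulComm_map _ hS) hT)).le.trans bot_le

end Cfsg.Agent.S0633
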