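import Cfsg.Statements.S0634
import Mathlib
import Cfsg.Agent.H9.Tb5

set_option autoImplicit false
open Cfsg

namespace Cfsg.Agent.S0634

/-- In a p-soluble group each p-factor of the upper p-series contains its own centralizer in the corresponding quotient. -/
theorem result {G : Type*} [Group G] [Finite G] {p : ℕ} [Fact p.Prime] (hsol : Cfsg.IsPSolvable p G) (k : ℕ) : Subgroup.centralizer ((((Cfsg.upperPSeries p G (2 * k + 2)).1.map (QuotientGroup.mk' (Cfsg.upperPSeries p G (2 * k + 1)).1)) : Subgroup (G ⧸ (Cfsg.upperPSeries p G (2 * k + 1)).1)) : Set (G ⧸ (Cfsg.upperPSeries p G (2 * k + 1)).1)) ≤ (Cfsg.upperPSeries p G (2 * k + 2)).1.map (QuotientGroup.mk' (Cfsg.upperPSeries p G (2 * k + 1)).1) := by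
  open Subgroup Cfsg CfsgH2 Function CfsgCP CfsgTB in
  rw [ups_even, map_comap_eq_self_of_surjective (QuotientGroup.mk'_surjective _), ← pCore_eq]
  refine CfsgH1.centralizer_pCore_le (CfsgH1.IsPSolvable.quotient' hsol _) ?_
  have n : ⊤ ≤ N[(pPrimeCore p (G ⧸ (upperPSeries p G (2 * k + 1)).1)).comap (QuotientGroup.mk' _)] :=
    le_normalizer_of_normal
  rw [← map_comap_eq_self_of_surjective (QuotientGroup.mk'_surjective _) (pPrimeCore p _), mk_bot,
    le_ups k _ n]
  have a := (le_comap_core n).1 (comap_mono pPrimeCore_eq.le)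
  rw [← LP_piRes]
  exact le_bot_iff.1 ((LP_mono a k).trans ((le_ups k _ le_normalizer_of_normal).1 le_rfl).le)

end Cfsg.Agent.S0634
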