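import Cfsg.Statements.S0637
import Mathlib
import Cfsg.Agent.H9.BG43

set_option autoImplicit false
open Cfsg

namespace Cfsg.Agent.S0637

/-- For p greater than 3, the bound p² on the order of the subgroup generated by the elements of order dividing p passes from a p-group to all its quotients. -/
theorem result {R : Type*} [Group R] [Finite R] {p : ℕ} [Fact p.Prime] (hp : 3 < p) (hR : IsPGroup p R) (hO : Nat.card ↥(Cfsg.omegaOne p (⊤ : Subgroup R)) ≤ p ^ 2) (T : Subgroup R) [T.Normal] : Nat.card ↥(Cfsg.omegaOne p (⊤ : Subgroup (R ⧸ T))) ≤ p ^ 2 := by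
  open Subgroup Cfsg CfsgH2 CfsgBG in
  refine omega_le_of hp (isPGroup_top_iff.2 (hR.to_quotient T)) fun E _ e2 => ?_
  have h := relIndex_le_of_pow_mem hp (isPGroup_top_iff.2 hR) hO (T := T) le_top
    (top_le_norm_iff.2 inferInstance) (V := E.comap (QuotientGroup.mk' T))
    (QuotientGroup.le_comap_mk' T E) le_top fun v hv => by
      rw [← QuotientGroup.eq_one_iff, ← QuotientGroup.mk'_apply, map_pow]
      exact e2 _ hv
  have h1 := card_map_mul_card_inf_ker (QuotientGroup.mk' T) (E.comap (QuotientGroup.mk' T))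
  rw [map_comap_eq_self_of_surjective (QuotientGroup.mk'_surjective T), QuotientGroup.ker_mk',
    inf_eq_right.2 (QuotientGroup.le_comap_mk' T E),
    ← card_mul_relIndex (QuotientGroup.le_comap_mk' T E), mul_comm] at h1
  rwa [Nat.eq_of_mul_eq_mul_left (card_pos' T) h1]

end Cfsg.Agent.S0637
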