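import Cfsg.Statements.S0640
import Mathlib
import Cfsg.Agent.H9.BG43

set_option autoImplicit false
open Cfsg

namespace Cfsg.Agent.S0640

/-- For odd p, a prime q ≠ p dividing the order of the automorphism group of a p-group of rank at most 2 divides p² - 1 and is less than p. -/
theorem result {R : Type*} [Group R] [Finite R] {p : ℕ} [Fact p.Prime] (hp : p ≠ 2) (hR : IsPGroup p R) (hrk : Cfsg.PRankLE p 2 R) (q : ℕ) (hq : q.Prime) (hqp : q ≠ p) (hdvd : q ∣ Nat.card (MulAut R)) : q ∣ p ^ 2 - 1 ∧ q < p := by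
  open Subgroup Cfsg CfsgH2 CfsgBG in
  obtain ⟨H, _, _, i, j, hi, hj, h, -⟩ := exists_hol R
  have h1 := bg4_13 (A := (⊤ : Subgroup (MulAut R)).map j) hp
    ((inj_isPGroup hi).2 (isPGroup_top_iff.2 hR)) (by
      rw [inj_prk hi]; exact prankLE_top_iff.1 hrk) (hol_norm h ⊤) hq hqp (by
      have e : C[(⊤ : Subgroup R).map i] ⊓ (⊤ : Subgroup (MulAut R)).map j = ⊥ := by
        refine le_bot_iff.1 ?_
        rintro _ ⟨h1, a, -, rfl⟩
        rw [show a = 1 from MulEquiv.ext fun x => (hol_cent hi h).1 h1 x trivial, map_one]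
        exact one_mem _
      rwa [← inf_relIndex_right, e, relIndex_bot_left, card_map_of_injective hj, card_top])
  exact ⟨h1.1, h1.2.1⟩

end Cfsg.Agent.S0640
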