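import Cfsg.Statements.S0642
import Mathlib
import Cfsg.Agent.L0.Reg

set_option autoImplicit false
open Cfsg

namespace Cfsg.Agent.S0642

open Cfsg Subgroup CfsgH2 CfsgL0

/-- Among finite 2-groups the regular ones are exactly the abelian ones. -/
theorem result {G : Type*} [Group G] [Finite G] (hG : IsPGroup 2 G) : Cfsg.IsRegularPGroup 2 G ↔ ∀ a b : G, a * b = b * a := by
  constructor
  · intro h a b
    have := (rg_of_reg (P := ⊤) h).comm_two (hG.to_subgroup ⊤)
    exact comm_of_isMulComm (comm_self_eq_bot_iff.1 this) (mem_top a) (mem_top b)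
  · intro h
    exact ⟨hG, fun a b n => ⟨1, one_mem _, by rw [Commute.mul_pow (h a b), mul_one]⟩⟩

end Cfsg.Agent.S0642
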