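import Cfsg.Statements.S0645
import Cfsg.Agent.H1.Misc1
import Cfsg.Agent.H2.BG0

set_option autoImplicit false
open Cfsg

namespace Cfsg.Agent.S0645

/-- Classification of p-groups with a cyclic maximal subgroup, odd p: a non-abelian one of order p^n has generators a of order p^(n-1) and b of order p, b outside the cyclic subgroup generated by a, with b a b⁻¹ = a^(1 + p^(n-2)). -/
theorem result {G : Type*} [Group G] [Finite G] {p : ℕ} [Fact p.Prime] (hp : p ≠ 2) (n : ℕ) (hn : 3 ≤ n) (hG : Nat.card G = p ^ n) (C : Subgroup G) (hC : IsCyclic C) (hCi : C.index = p) (hna : ∃ x y : G, x * y ≠ y * x) : ∃ a b : G, orderOf a = p ^ (n - 1) ∧ orderOf b = p ∧ b ∉ Subgroup.zpowers a ∧ b * a * b⁻¹ = a ^ (1 + p ^ (n - 2)) := by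
  open Subgroup CfsgH2 in
  open CfsgH1 hiding card_inf_mul_relIndex card_lt_of_lt card_lt_of_ne_top card_map_mul_card_inf_ker card_mul_relIndex card_subgroupOf card_sup_dvd card_sup_mul_card_inf coprime_le_sup_cent exists_card_prime_le isNilpotent_map isNilpotent_of_le isPGroup_pCore isSolvable_map isSolvable_of_le le_pCore le_pPrimeCore relIndex_map_dvd in
  open scoped CfsgH1 in
  open scoped commutatorElement in
  · have hp' : p.Prime := Fact.out
    have hP : PG[p, (⊤ : Subgroup G)] := (IsPGroup.of_card hG).to_subgroup _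
    obtain ⟨a, rfl⟩ := (Subgroup.isCyclic_iff_exists_zpowers_eq_top C).1 hC
    obtain ⟨n, rfl⟩ := Nat.exists_eq_add_of_le' hn
    have na : ¬ Ab[(⊤ : Subgroup G)] := fun h => let ⟨x, y, e⟩ := hna; e (comm_of_isMulComm h trivial trivial)
    have ha : orderOf a = p ^ (n + 2) := Nat.eq_of_mul_eq_mul_right hp'.pos (by
      rw [← Nat.card_zpowers, ← pow_succ, ← hG, ← (zpowers a).card_mul_index, hCi])
    have hi := (relIndex_top_right _).trans hCi
    obtain ⟨h1, h2⟩ := comm_le_of_cyclic_index hp hP hC le_top hi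
    obtain ⟨h3, h4⟩ := omegaOne_of_cyclic_index hp hP (fun c => na inferInstance) hC le_top hi
    have h5 := card_omegaOne_of_cyclic hp' hC (by rw [Nat.card_zpowers, ha]; exact dvd_pow_self _ (by simp))
    obtain ⟨b, hb, h6⟩ := SetLike.not_le_iff_exists.1 fun c : omegaOne p ⊤ ≤ zpowers a => by
      have := card_le_of_le (le_omegaOne c h3.2)
      rw [h4, h5] at this
      nlinarith [hp'.two_le]
    have h7 : ⁅b, a⁆ ≠ 1 := fun c => na (by
      have := isMulComm_sup_zpowers (H := zpowers a) inferInstance (cent_zpowers a ▸ mem_centralizer_singleton_iff.2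
        (commutatorElement_eq_one_iff_mul_comm.1 c))
      rwa [(isCoatom_of_index_prime (hCi ▸ hp')).2 _ (left_lt_sup.2 (mt zpowers_le.1 h6))] at this)
    have h8 := h1 (commutator_mem_commutator (mem_top b) (mem_top a))
    have h9 : (a ^ p ^ (n + 1)) ^ p = 1 := by rw [← pow_mul, ← pow_succ, ← ha, pow_orderOf_eq_one]
    have e : zpowers ⁅b, a⁆ = omegaOne p (zpowers a) := eq_of_le_of_card_ge (zpowers_le.2 h8)
      (by rw [h5, card_zpowers_eq hp' ((elem_omegaOne inferInstance).2 _ h8) h7])
    obtain ⟨k, hk⟩ := (mem_powers_iff_mem_zpowers).2 (e.ge (mem_omegaOne (npow_mem_zpowers a _) h9))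
    replace hk := (commutator_pow_left (commute_of_mem_cent (h2 h8) trivial) k).trans hk
    have h0 : b ^ k ∉ zpowers a := fun c => by
      rw [commutatorElement_eq_one_iff_mul_comm.2 (comm_of_isMulComm inferInstance c (mem_zpowers a)), eq_comm, ← orderOf_dvd_iff_pow_eq_one,
        ha, Nat.pow_dvd_pow_iff_le_right hp'.one_lt] at hk
      omega
    refine ⟨a, b ^ k, ha, orderOf_eq_of_pow hp' (h3.2 _ (pow_mem hb k)) (fun c => h0 (c ▸ one_mem _)), h0, ?_⟩
    rw [add_comm, pow_succ, show n + 3 - 2 = n + 1 from rfl, ← hk, commutatorElement_def, inv_mul_cancel_right]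

end Cfsg.Agent.S0645
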