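import Cfsg.Statements.S0646
import Cfsg.Agent.H2.MaxCl3

set_option autoImplicit false
open Cfsg

namespace Cfsg.Agent.S0646
open CfsgH2

/-- Classification of non-abelian 2-groups with a cyclic maximal subgroup: dihedral, generalized quaternion, and for order at least 16 the modular group and the semidihedral group, each given by generators a (of index 2) and b with the stated relations. -/
theorem result {G : Type*} [Group G] [Finite G] (n : ℕ) (hn : 3 ≤ n) (hG : Nat.card G = 2 ^ n) (C : Subgroup G) (hC : IsCyclic C) (hCi : C.index = 2) (hna : ∃ x y : G, x * y ≠ y * x) : ∃ a b : G, orderOf a = 2 ^ (n - 1) ∧ b ∉ Subgroup.zpowers a ∧ ((b ^ 2 = 1 ∧ b * a * b⁻¹ = a⁻¹) ∨ (b ^ 2 = a ^ (2 ^ (n - 2)) ∧ b * a * b⁻¹ = a⁻¹) ∨ (4 ≤ n ∧ b ^ 2 = 1 ∧ b * a * b⁻¹ = a ^ (1 + 2 ^ (n - 2))) ∨ (4 ≤ n ∧ b ^ 2 = 1 ∧ b * a * b⁻¹ = a ^ (2 ^ (n - 2) - 1))) := by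
  open Subgroup Function in
  have hP : IsPGroup 2 (⊤ : Subgroup G) := isPGroup_of_card (n := n) (by rwa [card_top])
  have hc : ¬ IsMulCommutative (⊤ : Subgroup G) := fun e => by
    obtain ⟨x, y, h⟩ := hna
    exact h (comm_of_isMulComm e (mem_top x) (mem_top y))
  have hC0 : C ≠ ⊥ := by
    rintro rfl
    rw [index_bot, hG] at hCi
    have : 2 ^ 3 ≤ 2 ^ n := Nat.pow_le_pow_right (by norm_num) hn
    omega
  obtain ⟨a, b, m, rfl, h⟩ := exists_cy2 hP hC le_top (by rwa [relIndex_top_right]) hC0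
  have hm := h.card
  rw [card_top, hG, Nat.pow_right_inj (by norm_num)] at hm
  subst hm
  obtain ⟨c, h1 | ⟨h1, h2, h3, h4⟩⟩ := h.classify hc
  · refine ⟨a, c, h.ord, h1.nmem, ?_⟩
    rcases h1.rel with e | e | ⟨e1, e2, e3⟩
    · exact Or.inl e
    · exact Or.inr (Or.inl e)
    · exact Or.inr (Or.inr (Or.inr ⟨by omega, e2, by rw [e3, inv_mul_half]; rfl⟩))
  · exact ⟨a, c, h.ord, h1.nmem, Or.inr (Or.inr (Or.inl ⟨by omega, h3, by
      rw [h4, pow_add, pow_one]; rfl⟩))⟩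

end Cfsg.Agent.S0646
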