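import Cfsg.Statements.S0657
import Mathlib
import Cfsg.Agent.L0.Quad3

set_option autoImplicit false
open Cfsg

namespace Cfsg.Agent.S0657

open Cfsg Subgroup CfsgH2 CfsgL0

/-- For odd p, a group that fails to be p-stable modulo its largest normal subgroup of order prime to p, and whose upper p-series does not stop there, has a section isomorphic to SL(2, p). -/
theorem result {G : Type*} [Group G] [Finite G] {p : ℕ} [Fact p.Prime] (hp : p ≠ 2) (hO : Cfsg.pPrimeCore p G < Cfsg.pPrimePCore p G) (hns : ¬ Cfsg.IsPStable p (G ⧸ Cfsg.pPrimeCore p G)) : ∃ (K L : Subgroup G) (hL : (L.subgroupOf K).Normal), K ≤ ⊤ ∧ Nonempty ((K ⧸ L.subgroupOf K) ≃* Matrix.SpecialLinearGroup (Fin 2) (ZMod p)) := by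
  by_contra c
  have h : ¬ Sec G (⊤ : Subgroup (Matrix.SpecialLinearGroup (Fin 2) (ZMod p))) := fun h => by
    obtain ⟨K, L, _, e⟩ := involves_iff.2 h
    exact c ⟨K, L, _, le_top, e⟩
  have st := pst_of_sl hp ((Sec.self ⊤).quot (pPrimeCore p G)) h
  refine hns (isPStable_iff.2 ⟨(Fact.out : p.Prime).odd_of_ne_two hp, fun e => hO.not_ge ?_,
    fun A P pA pP nA _ q => ?_⟩)
  · rw [pPrimePCore, e, MonoidHom.comap_bot, QuotientGroup.ker_mk']
  · obtain ⟨D, d1, d2, d3, -, d4⟩ := (PSt.nst_le st (L := N[P]) le_top P le_normalizer pP le_rfl).exists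
      le_normalizer pP le_rfl
    exact ⟨D, d4 A nA pA q, d1, d2, d3⟩

end Cfsg.Agent.S0657
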