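import Cfsg.Statements.S0658
import Mathlib
import Cfsg.Agent.L0.PCon

set_option autoImplicit false
open Cfsg

namespace Cfsg.Agent.S0658

open Cfsg Subgroup CfsgH2 CfsgL0

/-- In a group of characteristic p type all of whose p-locals are p-stable (p odd), the normalizer of Z(J(P)) contains the normalizer of every nontrivial subgroup of the Sylow p-subgroup P. -/
theorem result {G : Type*} [Group G] [Finite G] {p : ℕ} [Fact p.Prime] (hp : p ≠ 2) (hloc : ∀ Q : Subgroup G, IsPGroup p Q → Q ≠ ⊥ → Cfsg.pPrimeCore p ↥(Subgroup.normalizer (Q : Set G)) = ⊥ ∧ Cfsg.IsPConstrained p ↥(Subgroup.normalizer (Q : Set G)) ∧ Cfsg.IsPStable p ↥(Subgroup.normalizer (Q : Set G))) (P : Sylow p G) (Q : Subgroup G) (hQP : Q ≤ (P : Subgroup G)) (hQ1 : Q ≠ ⊥) : Subgroup.normalizer (Q : Set G) ≤ Subgroup.normalizer (Cfsg.centerThompsonAOf ((P : Subgroup G)) : Set G) := by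
  rw [ZJA_eq]
  refine norm_le_of_locals (fun R => Z[J[0, R]]) (syl_top P) (fun R => inf_le_left.trans J_le)
    (fun R => ZJ_ne_bot (dvd_zero p)) (fun R g => ?_) (fun Q R a b c => ?_) Q
    (hQP.trans (le_norm_inf le_norm_J (le_norm_cent le_norm_J))) (P.isPGroup'.to_le hQP) Q le_rfl hQ1
    le_normalizer
  · simp only [J_map_cj, centralizer_map_cj, map_cj_inf]
  · obtain ⟨h1, h2, h3⟩ := hloc Q a b
    exact zj_a hp (nst_sub (nst_of_pstable h3 h1)) (con_sub.1 ((pcon_iff_of_bot h1).1 h2)) c SCl.refl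

end Cfsg.Agent.S0658
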