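import Cfsg.Statements.S0661
import Mathlib
import Cfsg.Agent.H9.PLay
import Cfsg.Agent.L0.PCon

set_option autoImplicit false
open Cfsg

namespace Cfsg.Agent.S0661

open Cfsg Subgroup CfsgH9

/-- If, modulo the largest normal subgroup of order prime to p, the largest normal p-subgroup contains its centralizer, then for every p-subgroup P the p'-core of N_G(P) is just O_p'(G) ∩ N_G(P). -/
theorem result {G : Type*} [Group G] [Finite G] {p : ℕ} [Fact p.Prime] (hc : Subgroup.centralizer (Cfsg.pCore p (G ⧸ Cfsg.pPrimeCore p G) : Set (G ⧸ Cfsg.pPrimeCore p G)) ≤ Cfsg.pCore p (G ⧸ Cfsg.pPrimeCore p G)) (P : Subgroup G) (hP : IsPGroup p P) : (Cfsg.pPrimeCore p ↥(Subgroup.normalizer (P : Set G))).map (Subgroup.normalizer (P : Set G)).subtype = Cfsg.pPrimeCore p G ⊓ Subgroup.normalizer (P : Set G) := by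
  have hG : IsPConstrained p G := CfsgL0.pcon_iff.2 (CfsgH2.con_top_iff.1 hc)
  rw [isPConstrained_iff, ← PLay_top] at hG
  have h1 := Lbar_le_Opp_of_PLay_eq_bot (K := normalizer (P : Set G)) (P := P) hG le_top
    (le_Op (.of_normal le_normalizer le_rfl) hP) (inf_le_right.trans (centralizer_le_normalizer _))
  have h2 := (Opp_le_Lbar _).trans h1
  rw [Opp_top] at h2
  refine le_antisymm (le_inf h2 (map_subtype_le _)) ?_
  rw [CfsgH2.map_pPrimeCore_subtype, CfsgH2.pPrimeCore_eq']
  exact CfsgH2.inf_piCoreOf_le le_top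

end Cfsg.Agent.S0661
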