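import Cfsg.Statements.S0662
import Cfsg.Agent.H1.Misc1
import Cfsg.Agent.H2.BG0
import Cfsg.Agent.H1.MxC
import Cfsg.Agent.L0.Cnt

set_option autoImplicit false
open Cfsg

namespace Cfsg.Agent.S0662

/-- In a p-group of maximal class of order at least p³ the normal subgroups of index at least p² are exactly the terms of the lower central series, and there are exactly p + 1 normal subgroups of index p. -/
theorem result {G : Type*} [Group G] [Finite G] {p : ℕ} [Fact p.Prime] (n : ℕ) (hG : Nat.card G = p ^ n) (hcl : Group.nilpotencyClass G = n - 1) (hn : 3 ≤ n) : (∀ (N : Subgroup G) [N.Normal] (r : ℕ), 2 ≤ r → N.index = p ^ r → N = (⊤ : Subgroup G).lowerCentralSeries (r - 1)) ∧ Nat.card {N : Subgroup G // N.Normal ∧ N.index = p} = p + 1 := by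
  open Subgroup CfsgH2 in
  open CfsgH1 hiding card_inf_mul_relIndex card_lt_of_lt card_lt_of_ne_top card_map_mul_card_inf_ker card_mul_relIndex card_subgroupOf card_sup_dvd card_sup_mul_card_inf coprime_le_sup_cent exists_card_prime_le isNilpotent_map isNilpotent_of_le isPGroup_pCore isSolvable_map isSolvable_of_le le_pCore le_pPrimeCore relIndex_map_dvd in
  open scoped CfsgH1 in
  open scoped commutatorElement in
  · have hp : p.Prime := Fact.out
    have pG := IsPGroup.of_card hG
    haveI := pG.isNilpotent
    have h : (⊤ : Subgroup G).lowerCentralSeries (n - 2) ≠ ⊥ := fun e => by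
      have := Subgroup.lowerCentralSeries_eq_bot_iff_nilpotencyClass_le.1 e
      omega
    refine ⟨fun N _ r => eq_lcs hG h N, ?_⟩
    obtain ⟨k, rfl⟩ : ∃ k, n = k + 3 := ⟨n - 3, by omega⟩
    have i := relIndex_commutator_of_maxclass (pG.to_subgroup ⊤) (card_top.trans hG) h
    rw [relIndex_top_right] at i
    have nc : ¬ IsCyclic (G ⧸ commutator G) := fun ⟨x, hx⟩ => by
      obtain ⟨x, rfl⟩ := QuotientGroup.mk'_surjective _ x
      have : zpowers x = ⊤ := eq_of_le_phi_sup le_top (le_trans (fun y _ => by
        obtain ⟨j, e⟩ := hx (QuotientGroup.mk' _ y)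
        obtain ⟨z, hz, e⟩ := (QuotientGroup.mk'_eq_mk' _).1 ((map_zpow _ x j).trans e)
        rw [← e, sup_comm]; exact mul_mem_sup (zpow_mem_zpowers x j) hz) (sup_le_sup_right (comm_le_phi (H := ⊤) inferInstance) _))
      exact h (le_bot_iff.1 ((Subgroup.lowerCentralSeries_antitone _ (show 1 ≤ k + 1 by omega)).trans (comm_self_eq_bot_iff.2 (show Ab[(⊤ : Subgroup G)] from this ▸ inferInstance)).le))
    have c : Nat.card (G ⧸ commutator G) = p ^ 2 := i
    have e1 : Nat.card {x : G ⧸ commutator G // orderOf x = p} = p ^ 2 - 1 := by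
      classical
      haveI := Fintype.ofFinite (G ⧸ commutator G)
      rw [← c, Nat.card_eq_fintype_card (α := G ⧸ commutator G), ← Fintype.card_subtype_eq (1 : G ⧸ commutator G), ← Fintype.card_subtype_compl, ← Nat.card_eq_fintype_card]
      refine Nat.card_congr (Equiv.subtypeEquivRight fun x => ⟨fun h e => hp.ne_one (by rw [← h, e, orderOf_one]), fun h => ?_⟩)
      obtain ⟨j, hj, e⟩ := (Nat.dvd_prime_pow hp).1 (c ▸ orderOf_dvd_natCard x)
      interval_cases j
      · exact (h (orderOf_eq_one_iff.1 e)).elim
      · simpa using e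
      · exact (nc (isCyclic_of_orderOf_eq_card x (e.trans c.symm))).elim
    rw [CfsgL0.card_sub_prime hp] at e1
    have e2 : Nat.card {N : Subgroup G // N.Normal ∧ N.index = p} = Nat.card {H : Subgroup (G ⧸ commutator G) // o[H] = p} := by
      have s := QuotientGroup.mk'_surjective (commutator G)
      have t : ∀ H : Subgroup (G ⧸ commutator G), o[H] = p ↔ H.index = p := fun H => by
        have := H.card_mul_index
        rw [c, sq] at this
        exact ⟨fun e => Nat.eq_of_mul_eq_mul_left hp.pos (e ▸ this), fun e => Nat.eq_of_mul_eq_mul_right hp.pos (e ▸ this)⟩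
      refine (Nat.card_eq_of_bijective (fun H : {H : Subgroup (G ⧸ commutator G) // o[H] = p} => (⟨H.1.comap (QuotientGroup.mk' _), Subgroup.Normal.of_commutator_le _ fun x hx => ?_,
        (index_comap_of_surjective _ s).trans ((t _).1 H.2)⟩ : {N : Subgroup G // N.Normal ∧ N.index = p})) ⟨fun a b e => Subtype.ext (comap_injective s (congrArg Subtype.val e)), fun ⟨N, n, i⟩ => ?_⟩).symm
      · rw [mem_comap, QuotientGroup.mk'_apply, (QuotientGroup.eq_one_iff x).2 hx]; exact one_mem _
      · have l : commutator G ≤ N := by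
          haveI := isCyclic_of_prime_card (α := G ⧸ N) i
          exact Subgroup.Normal.quotient_commutative_iff_commutator_le.1 inferInstance
        have := comap_map_eq_self (f := QuotientGroup.mk' (commutator G)) (H := N) (by rwa [QuotientGroup.ker_mk'])
        exact ⟨⟨N.map (QuotientGroup.mk' _), (t _).2 (by rw [← index_comap_of_surjective _ s, this, i])⟩, Subtype.ext this⟩
    rw [e2]
    refine Nat.eq_of_mul_eq_mul_right (Nat.sub_pos_of_lt hp.one_lt) (e1.trans ?_)
    simpa using Nat.sq_sub_sq p 1

end Cfsg.Agent.S0662
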