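import Cfsg.Statements.S0663
import Cfsg.Agent.H1.Misc1
import Cfsg.Agent.H2.BG0
import Cfsg.Agent.H2.Trace

set_option autoImplicit false
open Cfsg

namespace Cfsg.Agent.S0663

/-- A p-group acts uniserially on a p-group N of order p^n exactly when the iterated commutator chain from N has length n; in that case the chain terms are all the invariant subgroups of N and they are normal in N. -/
theorem result {L : Type*} [Group L] [Finite L] {p : ℕ} [Fact p.Prime] (N G : Subgroup L) (hN : IsPGroup p N) (hG : IsPGroup p G) (hGN : G ≤ Subgroup.normalizer (N : Set L)) (n : ℕ) (hn : Nat.card N = p ^ n) : ((∀ H : Subgroup L, H ≤ N → G ≤ Subgroup.normalizer (H : Set L) → H ≠ ⊥ → (⁅H, G⁆).relIndex H = p) ↔ Cfsg.iterCommutator N G (n - 1) ≠ ⊥ ∨ n = 0) ∧ ((∀ H : Subgroup L, H ≤ N → G ≤ Subgroup.normalizer (H : Set L) → H ≠ ⊥ → (⁅H, G⁆).relIndex H = p) → ∀ H : Subgroup L, H ≤ N → G ≤ Subgroup.normalizer (H : Set L) → (∃ i ≤ n, H = Cfsg.iterCommutator N G i) ∧ N ≤ Subgroup.normalizer (H : Set L)) := by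
  open Subgroup CfsgH2 in
  open CfsgH1 hiding card_inf_mul_relIndex card_lt_of_lt card_lt_of_ne_top card_map_mul_card_inf_ker card_mul_relIndex card_subgroupOf card_sup_dvd card_sup_mul_card_inf coprime_le_sup_cent exists_card_prime_le isNilpotent_map isNilpotent_of_le isPGroup_pCore isSolvable_map isSolvable_of_le le_pCore le_pPrimeCore relIndex_map_dvd in
  open scoped CfsgH1 in
  open scoped commutatorElement in
  · have hp : p.Prime := Fact.out
    have a1 := fun i => iterComm_le hGN i
    have a2 := fun i => le_norm_iterComm hGN (le_normalizer (H := G)) i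
    have a3 : ∀ i {K}, K < iterCommutator N G i → G ≤ N[K] → ∃ M, K ≤ M ∧ iterCommutator N G (i + 1) ≤ M ∧ o[M] * p = o[iterCommutator N G i] :=
      fun i K h1 h2 => by
        obtain ⟨M, b1, b2, -, b3, b4, -⟩ := exists_step_down hG (hN.to_le (a1 i)) h1 h2 (a2 i)
        exact ⟨M, b1, b4, b3 ▸ card_mul_relIndex b2⟩
    have A : (∀ H : Subgroup L, H ≤ N → G ≤ N[H] → H ≠ ⊥ → (⁅H, G⁆).relIndex H = p) → ∀ i ≤ n, o[iterCommutator N G i] = p ^ (n - i) := fun h i => by
      induction i with
      | zero => exact fun _ => hn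
      | succ i ih =>
        intro hi
        have e := ih (by omega)
        have := card_mul_relIndex (iterComm_succ_le (X := N) hGN i)
        rw [iterComm_succ, h _ (a1 i) (a2 i) fun c => by
          rw [c, card_bot, eq_comm, Nat.pow_eq_one] at e; have := hp.one_lt; omega, e, show n - i = n - (i + 1) + 1 by omega, pow_succ] at this
        exact Nat.eq_of_mul_eq_mul_right hp.pos this
    have B : iterCommutator N G (n - 1) ≠ ⊥ ∨ n = 0 → ∀ i ≤ n, o[iterCommutator N G i] = p ^ (n - i) := fun h => by
      choose e he using fun i => exists_card_eq_pow (hN.to_le (a1 i))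
      have e0 : e 0 = n := Nat.pow_right_injective hp.two_le ((he 0).symm.trans hn)
      have : ∀ k i, i + k ≤ n → e (i + k) + k ≤ e i := fun k i => by
        induction k with
        | zero => exact fun _ => le_rfl
        | succ k ih =>
          intro hk
          obtain ⟨M, -, b1, b2⟩ := a3 (i + k) (bot_lt_iff_ne_bot.2 fun c => (h.resolve_right (by omega))
            (eq_bot_iff.2 (c ▸ iterComm_anti hGN (by omega)))) (norm_bot (G := L) ▸ le_top)
          have := Nat.mul_dvd_mul_right (card_dvd_of_le b1) p
          rw [b2, he, he, ← pow_succ, Nat.pow_dvd_pow_iff_le_right hp.one_lt] at this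
          have := ih (by omega)
          change e (i + k + 1) + _ ≤ _; omega
      intro i hi
      have h1 := this i 0 (by omega)
      have h2 := this (n - i) i (by omega)
      rw [zero_add] at h1
      rw [he, show e i = n - i by omega]
    have C : (∀ i ≤ n, o[iterCommutator N G i] = p ^ (n - i)) → ∀ H : Subgroup L, H ≤ N → G ≤ N[H] → ∃ i ≤ n, H = iterCommutator N G i := fun h H h1 h2 => by
      by_contra! c
      have : ∀ i ≤ n, H < iterCommutator N G i := fun i => by
        induction i with
        | zero => exact fun hi => h1.lt_of_ne (c 0 hi)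
        | succ i ih =>
          intro hi
          obtain ⟨M, b1, b2, b3⟩ := a3 i (ih (by omega)) h2
          rw [h i (by omega), show n - i = n - (i + 1) + 1 by omega, pow_succ, ← h _ hi] at b3
          exact (b1.trans (eq_of_le_of_card_ge b2 (Nat.eq_of_mul_eq_mul_right hp.pos b3).le).ge).lt_of_ne (c _ hi)
      exact (this n le_rfl).ne_bot (card_eq_one.1 (by simpa using h n le_rfl))
    refine ⟨⟨fun h => or_iff_not_imp_right.2 fun h0 c => ?_, fun h H h1 h2 h3 => ?_⟩, fun h H h1 h2 => ⟨C (A h) H h1 h2, ?_⟩⟩
    · have := A h (n - 1) (by omega)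
      rw [c, card_bot, eq_comm, Nat.pow_eq_one] at this
      have := hp.one_lt; omega
    · obtain ⟨i, hi, rfl⟩ := C (B h) H h1 h2
      have hi' := hi.lt_of_ne fun c => h3 (card_eq_one.1 (by simpa [c] using B h n le_rfl))
      have := card_mul_relIndex (iterComm_succ_le (X := N) hGN i)
      rw [B h i hi, B h _ hi', show n - i = n - (i + 1) + 1 by omega, pow_succ] at this
      exact Nat.eq_of_mul_eq_mul_left (pow_pos hp.pos _) this
    obtain ⟨i, hi, rfl⟩ := C (A h) H h1 h2
    obtain ⟨M, b1, b2, b3⟩ := exists_normal_card_pow (isPGroup_sup hG hN (.inl hGN)) hN (sup_le hGN le_normalizer) (n - i) (hn ▸ pow_dvd_pow _ (by omega))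
    obtain ⟨j, hj, rfl⟩ := C (A h) M b1 (le_sup_left.trans b3)
    obtain rfl : i = j := by have := Nat.pow_right_injective hp.two_le ((A h j hj).symm.trans b2); omega
    exact le_sup_right.trans b3

end Cfsg.Agent.S0663
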