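import Cfsg.Statements.S0668
import Cfsg.Agent.H3.Pc1

set_option autoImplicit false
open Cfsg

namespace Cfsg.Agent.S0668
open CfsgH3
open CfsgPc MulAction

/-- The equivariant linear maps between the permutation modules of two finite `G`-sets form a space whose dimension is the number of `G`-orbits on the product of the two sets. -/
theorem result {G : Type*} [Group G] {K : Type*} [Field K] {Ω₁ Ω₂ : Type*} [Fintype Ω₁] [Fintype Ω₂] [MulAction G Ω₁] [MulAction G Ω₂] : Module.finrank K ((Cfsg.permRep K G Ω₁).linHom (Cfsg.permRep K G Ω₂)).invariants = Nat.card (MulAction.orbitRel.Quotient G (Ω₁ × Ω₂)) := by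
  classical
  let Φ : (orbitRel.Quotient G (Ω₁ × Ω₂) → K) →ₗ[K] ((Ω₁ → K) →ₗ[K] (Ω₂ → K)) :=
    Matrix.toLin'.toLinearMap ∘ₗ
      { toFun := fun c => Matrix.of fun y x => c (Quotient.mk _ (x, y))
        map_add' := fun _ _ => rfl
        map_smul' := fun _ _ => rfl }
  have e : ∀ c x y, LinearMap.toMatrix' (Φ c) y x = c (Quotient.mk _ (x, y)) := fun c x y => by
    simp only [Φ, LinearMap.comp_apply, LinearEquiv.coe_coe, LinearMap.toMatrix'_toLin']; rfl
  have inj : Function.Injective Φ := fun c d h => funext fun q => by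
    induction q using Quotient.inductionOn with
    | _ q => rw [← e c q.1 q.2, h, e]
  have q : ∀ (g : G) (x : Ω₁) (y : Ω₂), (Quotient.mk _ (g • x, g • y) : orbitRel.Quotient G (Ω₁ × Ω₂)) =
      Quotient.mk _ (x, y) := fun g x y => Quotient.sound ⟨g, rfl⟩
  have r : LinearMap.range Φ = ((Cfsg.permRep K G Ω₁).linHom (Cfsg.permRep K G Ω₂)).invariants := by
    ext S
    rw [mem_inv_iff]
    constructor
    · rintro ⟨c, rfl⟩ g x y; rw [e, e, q]
    · intro h
      refine ⟨Quotient.lift (fun p => LinearMap.toMatrix' S p.2 p.1) ?_,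
        LinearMap.toMatrix'.injective (Matrix.ext fun y x => e _ x y)⟩
      rintro _ b ⟨g, rfl⟩
      exact h g _ _
  have := Fintype.ofFinite (orbitRel.Quotient G (Ω₁ × Ω₂))
  rw [← r, LinearMap.finrank_range_of_inj inj, Module.finrank_fintype_fun_eq_card, Nat.card_eq_fintype_card]


end Cfsg.Agent.S0668
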