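import Mathlib
import Cfsg.Statements.S0669

set_option autoImplicit false
open Cfsg

namespace Cfsg.Agent.S0669


/-- The rank of a transitive action: orbits on ordered pairs correspond to orbits of a point stabiliser. -/
theorem result {G : Type*} [Group G] {Ω : Type*} [Finite Ω] [MulAction G Ω] [MulAction.IsPretransitive G Ω] (a : Ω) : Nat.card (MulAction.orbitRel.Quotient G (Ω × Ω)) = Nat.card (MulAction.orbitRel.Quotient (MulAction.stabilizer G a) Ω) := by
  classical
  symm
  refine Nat.card_congr (Equiv.ofBijective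
    (Quotient.map' (s₁ := MulAction.orbitRel (MulAction.stabilizer G a) Ω)
      (s₂ := MulAction.orbitRel G (Ω × Ω)) (fun b => (a, b)) ?_) ⟨?_, ?_⟩)
  · rintro x y ⟨g, hg⟩
    refine ⟨(g : G), ?_⟩
    have h1 : (g : G) • a = a := g.2
    have h2 : (g : G) • y = x := hg
    simp [h1, h2]
  · intro x y
    induction x using Quotient.inductionOn' with | _ x => ?_
    induction y using Quotient.inductionOn' with | _ y => ?_
    intro h
    obtain ⟨g, hg⟩ := Quotient.exact h
    simp only [Prod.smul_mk, Prod.mk.injEq] at hg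
    exact Quotient.sound ⟨⟨g, hg.1⟩, hg.2⟩
  · intro x
    induction x using Quotient.inductionOn' with | _ x => ?_
    obtain ⟨g, hg⟩ := MulAction.exists_smul_eq G x.1 a
    refine ⟨Quotient.mk'' (g • x.2), Quotient.sound ⟨g, ?_⟩⟩
    ext <;> simp [hg]

end Cfsg.Agent.S0669
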