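import Mathlib
import Cfsg.Statements.S0672
import Cfsg.Agent.H8.PermModule

set_option autoImplicit false
open Cfsg

namespace Cfsg.Agent.S0672

open MulAction
open scoped Pointwise

/-- Let a finite group act faithfully and doubly transitively with point stabilisers of even order, and let `K` have characteristic `p` dividing the degree. If the heart of the permutation module admits no non-zero equivariant map to the permutation module on unordered pairs (phrased: every intertwining map from the sum-zero functions vanishing on the constants is zero), the action is triply transitive. -/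
theorem result {G : Type*} [Group G] [Finite G] {K : Type*} [Field K] {p : ℕ} [Fact p.Prime] [CharP K p] {Ω : Type*} [Fintype Ω] [DecidableEq Ω] [MulAction G Ω] [FaithfulSMul G Ω] (h2 : MulAction.IsMultiplyPretransitive G Ω 2) (hp : p ∣ Fintype.card Ω) (heven : ∀ a : Ω, Even (Nat.card (MulAction.stabilizer G a))) (h : ∀ f : Representation.IntertwiningMap (Cfsg.permSumZero K G Ω).toRepresentation (Cfsg.permRep K G (Set.powersetCard Ω 2)), (∀ v : (Cfsg.permSumZero K G Ω).toSubmodule, (v : Ω → K) ∈ (Cfsg.permConstants K G Ω).toSubmodule → f v = 0) → f = 0) : MulAction.IsMultiplyPretransitive G Ω 3 := by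
  classical
  rw [is_two_pretransitive_iff] at h2
  rw [CfsgH8.is_three_pretransitive_iff]
  -- it suffices to show that two-point stabilisers are transitive on the rest
  suffices key : ∀ x y z w : Ω, x ≠ y → x ≠ z → y ≠ z → x ≠ w → y ≠ w →
      ∃ g : G, g • x = x ∧ g • y = y ∧ g • z = w by
    intro a b c a' b' c' h1 h3 h4 h5 h6 h7
    obtain ⟨g, hg1, hg2⟩ := h2 h1 h5
    obtain ⟨u, hu1, hu2, hu3⟩ := key a' b' (g • c) c' h5
      (hg1 ▸ (MulAction.injective g).ne h3) (hg2 ▸ (MulAction.injective g).ne h4) h6 h7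
    exact ⟨u * g, by rw [mul_smul, hg1, hu1], by rw [mul_smul, hg2, hu2], by rw [mul_smul, hu3]⟩
  intro x y
  suffices key : ∀ z w : Ω, x ≠ y → x ≠ z → y ≠ z → x ≠ w → y ≠ w →
      ∃ g : G, g • ({x, y} : Finset Ω) = {x, y} ∧ g • z = w by
    intro z w hxy h1 h3 h4 h5
    have := Fact.mk Nat.prime_two
    obtain ⟨t, ht⟩ := exists_prime_orderOf_dvd_card' 2 (heven x).two_dvd
    have ht' : orderOf (t : G) = 2 := by rw [Subgroup.orderOf_coe, ht]
    have ht1 : (t : G) ≠ 1 := by intro e; rw [e] at ht'; simp at ht'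
    obtain ⟨u, hu⟩ : ∃ u : Ω, (t : G) • u ≠ u := by
      by_contra h
      push Not at h
      exact ht1 (eq_of_smul_eq_smul (α := Ω) fun x => by rw [h x, one_smul])
    have htt : (t : G) • (t : G) • u = u := by
      rw [← mul_smul, ← pow_two, ← ht', pow_orderOf_eq_one, one_smul]
    obtain ⟨g, hg1, hg2⟩ := h2 hu.symm hxy
    set s : G := g * t * g⁻¹
    have hsx : s • x = y := by rw [mul_smul, mul_smul, inv_smul_eq_iff.mpr hg1.symm, hg2]
    have hsy : s • y = x := by rw [mul_smul, mul_smul, inv_smul_eq_iff.mpr hg2.symm, htt, hg1]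
    have hsz : s • g • x = g • x := by
      rw [mul_smul, mul_smul, inv_smul_smul]
      exact congrArg (g • ·) t.2
    have hz1 : x ≠ g • x := fun e => hxy (by rw [← hsx, e, hsz])
    have hz2 : y ≠ g • x := fun e => hxy (by rw [← hsy, e, hsz])
    have key2 : ∀ w : Ω, x ≠ w → y ≠ w → ∃ k : G, k • x = x ∧ k • y = y ∧ k • g • x = w := by
      intro w h4 h5
      obtain ⟨k, hk, hk'⟩ := key (g • x) w hxy hz1 hz2 h4 h5
      simp only [Finset.smul_finset_insert, Finset.smul_finset_singleton] at hk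
      have h' : ({k • x, k • y} : Set Ω) = {x, y} := by
        simpa using congrArg (fun s : Finset Ω => (s : Set Ω)) hk
      rcases Set.pair_eq_pair_iff.mp h' with h | h
      · exact ⟨k, h.1, h.2, hk'⟩
      · exact ⟨k * s, by rw [mul_smul, hsx, h.2], by rw [mul_smul, hsy, h.1],
          by rw [mul_smul, hsz, hk']⟩
    obtain ⟨k, h6, h7, h8⟩ := key2 z h1 h3
    obtain ⟨l, h9, h10, h11⟩ := key2 w h4 h5
    exact ⟨l * k⁻¹, by rw [mul_smul, inv_smul_eq_iff.mpr h6.symm, h9],
      by rw [mul_smul, inv_smul_eq_iff.mpr h7.symm, h10],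
      by rw [mul_smul, inv_smul_eq_iff.mpr h8.symm, h11]⟩
  intro z w hxy h1 h3 h4 h5
  by_contra hn
  let e₀ : Set.powersetCard Ω 2 := ⟨{x, y}, by simpa using Finset.card_pair hxy⟩
  let R : Ω → Set.powersetCard Ω 2 → Prop := fun u e => ∃ g : G, g • e₀ = e ∧ g • z = u
  have hR : ∀ g : G, ∀ u e, R (g • u) (g • e) ↔ R u e := by
    intro g u e
    constructor
    · rintro ⟨k, h1, h2⟩
      exact ⟨g⁻¹ * k, by rw [mul_smul, h1, inv_smul_smul], by rw [mul_smul, h2, inv_smul_smul]⟩
    · rintro ⟨k, h1, h2⟩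
      exact ⟨g * k, by rw [mul_smul, h1], by rw [mul_smul, h2]⟩
  have hmem : ∀ g : G, ∀ u, ∀ e : Set.powersetCard Ω 2,
      g • u ∈ ((g • e : Set.powersetCard Ω 2) : Finset Ω) ↔ u ∈ (e : Finset Ω) :=
    fun g u e => Finset.smul_mem_smul_finset_iff g
  have htr : ∀ e : Set.powersetCard Ω 2, ∃ g : G, g • e₀ = e := by
    rintro ⟨e, he⟩
    obtain ⟨c, d, hcd, rfl⟩ := Finset.card_eq_two.mp he
    obtain ⟨g, h1, h2⟩ := h2 hxy hcd
    refine ⟨g, Subtype.ext ?_⟩
    show g • ({x, y} : Finset Ω) = {c, d}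
    rw [Finset.smul_finset_insert, Finset.smul_finset_singleton, h1, h2]
  obtain ⟨s, t, hst, hst0⟩ : ∃ s t : K, 2 * s + (∑ u, if R u e₀ then (1 : K) else 0) * t = 0 ∧
      (s ≠ 0 ∨ t ≠ 0) := by
    by_cases h2 : (2 : K) = 0
    · exact ⟨1, 0, by simp [h2], Or.inl one_ne_zero⟩
    · exact ⟨-(∑ u, if R u e₀ then (1 : K) else 0), 2, by ring, Or.inr h2⟩
  let c : Ω → Set.powersetCard Ω 2 → K := fun u e =>
    (if u ∈ (e : Finset Ω) then s else 0) + (if R u e then t else 0)
  have hc : ∀ g : G, ∀ u e, c (g • u) (g • e) = c u e := fun g u e => by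
    simp only [c, hR, hmem]
  have hc0 : ∀ e, ∑ u, c u e = 0 := by
    intro e
    obtain ⟨g, rfl⟩ := htr e
    rw [← Fintype.sum_equiv (MulAction.toPerm g) (fun u => c u e₀) _ (fun u => (hc g u e₀).symm),
      ← hst]
    simp only [c, Finset.sum_add_distrib, Finset.sum_mul, ite_mul, one_mul, zero_mul]
    congr 1
    rw [Finset.sum_ite_mem, Finset.univ_inter, Finset.sum_pair hxy]
    ring
  let f₀ : (Ω → K) →ₗ[K] (Set.powersetCard Ω 2 → K) :=
    { toFun := fun v e => ∑ u, c u e * v u
      map_add' := fun v w => by ext e; simp [mul_add, Finset.sum_add_distrib]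
      map_smul' := fun r v => by ext e; simp [Finset.mul_sum, mul_left_comm] }
  let f : Representation.IntertwiningMap (Cfsg.permSumZero K G Ω).toRepresentation
      (Cfsg.permRep K G (Set.powersetCard Ω 2)) :=
    { toLinearMap := f₀ ∘ₗ (Cfsg.permSumZero K G Ω).toSubmodule.subtype
      isIntertwining' := fun g => by
        ext v e
        show ∑ u, c u e * (v : Ω → K) (g⁻¹ • u) = ∑ u, c u (g⁻¹ • e) * (v : Ω → K) u
        exact Fintype.sum_equiv (MulAction.toPerm g⁻¹) _ _ (fun u => by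
          simp only [MulAction.toPerm_apply, hc]) }
  have hf := h f (fun v hv => by
    obtain ⟨r, hr⟩ := Submodule.mem_span_singleton.mp hv
    ext e
    show ∑ u, c u e * (v : Ω → K) u = 0
    rw [← hr]
    simp [← Finset.sum_mul, hc0])
  have hcc : ∀ u, c u e₀ = c w e₀ := by
    intro u
    have : f ⟨Pi.single u 1 - Pi.single w 1, by
      show ∑ x, (Pi.single u 1 - Pi.single w 1 : Ω → K) x = 0
      simp [Finset.sum_sub_distrib]⟩ e₀ = 0 := by rw [hf]; rfl
    have h' : ∑ x, c x e₀ * (Pi.single u 1 - Pi.single w 1 : Ω → K) x = 0 := this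
    simpa [mul_sub, Finset.sum_sub_distrib, Pi.single_apply, sub_eq_zero] using h'
  have hRw : ¬ R w e₀ := fun ⟨g, h1, h2⟩ => hn ⟨g, congrArg Subtype.val h1, h2⟩
  have hRz : R z e₀ := ⟨1, by simp, by simp⟩
  have hRx : ¬ R x e₀ := by
    rintro ⟨g, h1', h2⟩
    have := hmem g z e₀
    rw [h1', h2] at this
    simp [e₀, h1.symm, h3.symm] at this
  have e1 := hcc x
  have e2 := hcc z
  simp [c, hRw, hRz, hRx, e₀, h1.symm, h3.symm, h4.symm, h5.symm] at e1 e2
  tauto

end Cfsg.Agent.S0672
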