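import Mathlib
import Cfsg.Statements.S0675
import Cfsg.Agent.H8.PrimeDegree2

set_option autoImplicit false
open Cfsg

namespace Cfsg.Agent.S0675


/-- Burnside's Theorem on permutation groups of prime degree: a transitive permutation group of prime degree that is not solvable is doubly transitive. -/
theorem result {α : Type*} [Fintype α] [DecidableEq α] (hα : (Fintype.card α).Prime) (G : Subgroup (Equiv.Perm α)) [MulAction.IsPretransitive G α] : Group.IsSolvable G ∨ MulAction.IsMultiplyPretransitive G α 2 := by
  have := Fact.mk hα
  obtain ⟨σ, hσ⟩ := CfsgH8.exists_orderOf_eq_of_prime_degree (G := G) (α := α) rfl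
  obtain ⟨e, he⟩ := CfsgH8.exists_coord_of_prime_degree (α := α) rfl hσ
  rcases CfsgH8.affine_or_two_transitive e he with h | h
  · have : Nontrivial α := e.nontrivial
    exact Or.inl (CfsgH8.isSolvable_of_affine e e.injective h)
  · exact Or.inr h

end Cfsg.Agent.S0675
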