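import Mathlib
import Cfsg.Statements.S0676
import Cfsg.Agent.H8.PrimeDegree3
import Cfsg.Agent.S0672

set_option autoImplicit false
open Cfsg

namespace Cfsg.Agent.S0676

open MulAction
open scoped Pointwise

/-- A non-solvable transitive permutation group of prime degree `p` whose Sylow `p`-normaliser has even order is triply transitive. -/
theorem result {α : Type*} [Fintype α] [DecidableEq α] {p : ℕ} [Fact p.Prime] (hα : Fintype.card α = p) (G : Subgroup (Equiv.Perm α)) [MulAction.IsPretransitive G α] (hG : ¬ Group.IsSolvable G) (P : Sylow p G) (heven : Even (Nat.card (Subgroup.normalizer ((P : Subgroup G) : Set G)))) : MulAction.IsMultiplyPretransitive G α 3 := by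
  have hp : p.Prime := Fact.out
  have hnt : Nontrivial α := Fintype.one_lt_card_iff_nontrivial.mp (hα ▸ hp.one_lt)
  have hp2 : p ≠ 2 := by
    rintro rfl
    obtain ⟨σ, hσ⟩ := CfsgH8.exists_orderOf_eq_of_prime_degree (G := G) hα
    obtain ⟨e, he⟩ := CfsgH8.exists_coord_of_prime_degree hα hσ
    refine hG (CfsgH8.isSolvable_of_affine e e.injective fun g => ?_)
    obtain ⟨a, b, h⟩ := CfsgH8.perm_zmod_two_affine (e.symm.trans ((MulAction.toPerm g).trans e))
    exact ⟨a, b, fun x => by simpa using h (e x)⟩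
  obtain ⟨e, σ, t, b, hσ, ht, he, het⟩ := CfsgH8.exists_coord_involution hα hp2 P heven
  have hna : ¬ ∀ g : G, ∃ a b : ZMod p, ∀ x, e (g • x) = a * e x + b := fun h =>
    hG (CfsgH8.isSolvable_of_affine e e.injective h)
  have h2 := (CfsgH8.affine_or_two_transitive e he).resolve_left hna
  have hirr := (CfsgH8.heart_irreducible_or_affine (K := ZMod p) e he).resolve_left
    (by simpa using hna)
  have h2' : (2 : ZMod p) ≠ 0 := by
    intro h
    exact hp2 ((Nat.prime_dvd_prime_iff_eq hp Nat.prime_two).mp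
      ((ZMod.natCast_eq_zero_iff 2 p).mp (by exact_mod_cast h)))
  refine Cfsg.Agent.S0672.result (K := ZMod p) (p := p) h2 hα.symm.dvd (fun a => ?_) fun f hf => ?_
  · have h1 := CfsgH8.card_eq_mul_stabilizer (G := G) a
    have h3 : 2 ∣ Nat.card G := ht ▸ orderOf_dvd_natCard t
    rw [h1, Nat.card_eq_fintype_card, hα] at h3
    refine even_iff_two_dvd.mpr ((Nat.prime_two.dvd_mul.mp h3).resolve_left fun h => hp2 ?_)
    exact ((Nat.prime_dvd_prime_iff_eq Nat.prime_two hp).mp h).symm
  let S := Cfsg.permSumZero (ZMod p) G α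
  have hfg : ∀ (g : G) (v : S.toSubmodule), f (S.toRepresentation g v) =
      fun x => f v (g⁻¹ • x) := fun g v => f.isIntertwining _ _ g v
  have hCS : (Cfsg.permConstants (ZMod p) G α).toSubmodule ≤ S.toSubmodule := by
    refine (Submodule.span_singleton_le_iff_mem _ _).mpr ?_
    show ∑ _x : α, (1 : ZMod p) = 0
    simp [hα]
  let W : Subrepresentation (Cfsg.permRep (ZMod p) G α) :=
    ⟨(LinearMap.ker f.toLinearMap).map S.toSubmodule.subtype, by
      rintro g _ ⟨v, hv, rfl⟩
      refine ⟨S.toRepresentation g v, ?_, rfl⟩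
      have hv' : f v = 0 := hv
      show f _ = 0
      rw [hfg, hv']; rfl⟩
  have hι : (fun x => e x) ∈ S.toSubmodule := by
    show ∑ x, e x = 0
    have h1 : ∑ x, e x = ∑ x, - e x :=
      Fintype.sum_equiv ((e.trans (Equiv.neg _)).trans e.symm) _ _ (fun x => by simp)
    rw [Finset.sum_neg_distrib] at h1
    exact (mul_eq_zero.mp (show 2 * ∑ x, e x = 0 by linear_combination h1)).resolve_left h2'
  have hconst : ∀ c : ZMod p, (fun _ : α => c) ∈ (Cfsg.permConstants (ZMod p) G α).toSubmodule :=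
    fun c => Submodule.mem_span_singleton.mpr ⟨c, by ext; simp⟩
  have hzero : f ⟨_, hι⟩ = 0 := by
    have h1 : ∀ k : ℤ, ∀ x, f ⟨_, hι⟩ (σ ^ k • x) = f ⟨_, hι⟩ x := by
      intro k x
      have := hf (S.toRepresentation (σ ^ k)⁻¹ ⟨_, hι⟩ - ⟨_, hι⟩) (by
        convert hconst k using 1
        ext y
        show e ((σ ^ k)⁻¹⁻¹ • y) - e y = k
        rw [inv_inv, CfsgH8.coord_zpow e he]; ring)
      rw [map_sub, hfg, inv_inv, sub_eq_zero] at this
      exact congrFun this x
    have h3 : ∀ x, f ⟨_, hι⟩ (t • x) = - f ⟨_, hι⟩ x := by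
      intro x
      have := hf (S.toRepresentation t⁻¹ ⟨_, hι⟩ + ⟨_, hι⟩) (by
        convert hconst b using 1
        ext y
        show e (t⁻¹⁻¹ • y) + e y = b
        rw [inv_inv, het]; ring)
      rw [map_add, hfg, inv_inv, add_eq_zero_iff_eq_neg] at this
      exact congrFun this x
    ext ⟨s, hs⟩
    obtain ⟨x, y, hxy, rfl⟩ := Finset.card_eq_two.mp hs
    have h4 : t • (⟨{x, y}, hs⟩ : Set.powersetCard α 2) =
        σ ^ ((b - e x - e y).val : ℤ) • (⟨{x, y}, hs⟩ : Set.powersetCard α 2) := by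
      apply Subtype.ext
      show t • ({x, y} : Finset α) = σ ^ ((b - e x - e y).val : ℤ) • ({x, y} : Finset α)
      simp only [Finset.smul_finset_insert, Finset.smul_finset_singleton]
      rw [Finset.pair_comm]
      congr 1
      · apply e.injective
        rw [het, CfsgH8.coord_zpow e he]; simp; ring
      · congr 1
        apply e.injective
        rw [het, CfsgH8.coord_zpow e he]; simp
    have h5 := h3 ⟨{x, y}, hs⟩
    rw [h4, h1] at h5
    exact (mul_eq_zero.mp (show 2 * f ⟨_, hι⟩ ⟨{x, y}, hs⟩ = 0 by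
      linear_combination h5)).resolve_left h2'
  rcases hirr W (fun v hv => ⟨⟨v, hCS hv⟩, hf _ hv, rfl⟩) (Submodule.map_subtype_le _ _) with h | h
  · exfalso
    have : (fun x => e x) ∈ W.toSubmodule := ⟨⟨_, hι⟩, hzero, rfl⟩
    rw [h] at this
    obtain ⟨c, hc⟩ := Submodule.mem_span_singleton.mp this
    have h0 := congrFun hc (e.symm 0)
    have h1 := congrFun hc (e.symm 1)
    simp at h0 h1
    rw [h0] at h1
    exact zero_ne_one h1
  · ext v x
    have : (v : α → ZMod p) ∈ W.toSubmodule := by rw [h]; exact v.2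
    obtain ⟨w, hw, hwv⟩ := this
    have hw' : f w = 0 := hw
    rw [Subtype.ext hwv] at hw'
    exact congrFun hw' x

end Cfsg.Agent.S0676
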