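import Mathlib
import Cfsg.Statements.S0677
import Cfsg.Agent.H8.PrimeDegree3
import Cfsg.Agent.H8.Gleason

set_option autoImplicit false
open Cfsg

namespace Cfsg.Agent.S0677

open MulAction
open scoped Pointwise

theorem diffset {p : ℕ} [Fact p.Prime] (hp2 : (2 : ZMod p) ≠ 0) (D : Finset (ZMod p))
    (hk : (D.card : ZMod p) ≠ 0) (hsym : ∀ x ∈ D, -x ∈ D) (l : ℕ)
    (hl : ∀ u : ZMod p, u ≠ 0 → (D.filter fun x => x - u ∈ D).card = l)
    (u v : ZMod p) (hu : u ≠ 0) (hv : v ≠ 0) (h : u ∈ D) : v ∈ D := by
  classical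
  have : CharP (AddMonoidAlgebra (ZMod p) (ZMod p)) p := charP_of_injective_algebraMap' (ZMod p) p
  let s : ZMod p → (AddMonoidAlgebra (ZMod p) (ZMod p)) := fun x => AddMonoidAlgebra.single x 1
  have hs : ∀ x y, s x * s y = s (x + y) := fun x y => by
    simp [s, AddMonoidAlgebra.single_mul_single]
  have hsp : ∀ x, s x ^ p = 1 := fun x => by
    simp only [s, AddMonoidAlgebra.single_pow, one_pow, nsmul_eq_mul, CharP.cast_eq_zero, zero_mul]
    rfl
  have hcp : ∀ n : ℕ, (n : (AddMonoidAlgebra (ZMod p) (ZMod p))) ^ p = n := fun n => by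
    rw [← map_natCast (algebraMap (ZMod p) (AddMonoidAlgebra (ZMod p) (ZMod p))), ← map_pow, ZMod.pow_card]
  let A : (AddMonoidAlgebra (ZMod p) (ZMod p)) := ∑ x ∈ D, s x
  let T : (AddMonoidAlgebra (ZMod p) (ZMod p)) := ∑ x, s x
  set k := D.card
  have hA : A ^ p = k := by simp [A, sum_pow_char, hsp, k]
  have hT : T ^ p = 0 := by simp [T, sum_pow_char, hsp]
  have hsT : ∀ x, s x * T = T := fun x => by
    simp only [T, Finset.mul_sum, hs]
    exact Fintype.sum_equiv (Equiv.addLeft x) _ _ (fun y => rfl)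
  have hA2 : A * A = (k : (AddMonoidAlgebra (ZMod p) (ZMod p))) - l + l * T := by
    have h1 : A * A = ∑ u, ((D.filter fun x => x - u ∈ D).card : (AddMonoidAlgebra (ZMod p) (ZMod p))) * s u := by
      have h2 : A = ∑ x ∈ D, s (-x) :=
        Finset.sum_nbij' (fun x => -x) (fun x => -x) hsym hsym (by simp) (by simp) (by simp)
      conv_lhs => rw [h2]; arg 1; rw [← h2]
      simp only [A, Finset.sum_mul_sum, hs, Finset.card_filter, Nat.cast_sum, Finset.sum_mul]
      rw [Finset.sum_comm (s := Finset.univ)]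
      refine Finset.sum_congr rfl fun x _ => ?_
      rw [← Fintype.sum_equiv (Equiv.subLeft x) (fun y => if y ∈ D then s (x + -y) else 0)]
      · rw [Finset.sum_ite_mem, Finset.univ_inter, Finset.mul_sum]
        simp only [hs]
      · intro y
        simp [sub_eq_add_neg]
    rw [h1, ← Finset.add_sum_erase _ _ (Finset.mem_univ 0), Finset.sum_congr rfl
      (fun u hu => by rw [hl u (Finset.ne_of_mem_erase hu)]), ← Finset.mul_sum]
    have h3 : T = s 0 + ∑ x ∈ Finset.univ.erase 0, s x :=
      (Finset.add_sum_erase _ _ (Finset.mem_univ 0)).symm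
    have h4 : s 0 = 1 := rfl
    rw [h3, h4]
    simp only [sub_zero, Finset.filter_mem_eq_inter, Finset.inter_self]
    ring
  have hk2 : (k : (AddMonoidAlgebra (ZMod p) (ZMod p))) * k = k - l := by
    have := congrArg (· ^ p) hA2
    simp only [mul_pow, hA, add_pow_char, sub_pow_char, hcp, hT, mul_zero, add_zero] at this
    exact this
  have hunit : IsUnit (A + k) := by
    have h1 : (A + k) ^ p = algebraMap (ZMod p) (AddMonoidAlgebra (ZMod p) (ZMod p)) (2 * k) := by
      rw [add_pow_char, hA, hcp, map_mul, map_natCast, map_ofNat]; ring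
    have h2 : IsUnit ((A + k) ^ p) := h1 ▸ (IsUnit.mk0 _ (mul_ne_zero hp2 hk)).map _
    exact (isUnit_pow_iff (Fact.out : p.Prime).ne_zero).mp h2
  have key : (s (-u) - s (-v)) * (A - k) = 0 := by
    apply hunit.mul_right_cancel
    have h1 := hsT (-u)
    have h2 := hsT (-v)
    linear_combination (s (-u) - s (-v)) * hA2 - (s (-u) - s (-v)) * hk2 + l * h1 - l * h2
  have hco : ∀ w : ZMod p, w ≠ 0 → (s (-w) * (A - k)).coeff 0 = if w ∈ D then 1 else 0 := by
    intro w hw
    rw [mul_sub, mul_comm _ (k : (AddMonoidAlgebra (ZMod p) (ZMod p))), ← nsmul_eq_mul]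
    simp only [A, Finset.mul_sum, hs]
    simp [s, Finsupp.single_apply, hw, neg_add_eq_zero]
  have := congrArg (fun x : (AddMonoidAlgebra (ZMod p) (ZMod p)) => x.coeff 0) key
  simp only [sub_mul, AddMonoidAlgebra.coeff_sub, Finsupp.sub_apply, hco u hu, hco v hv, if_pos h] at this
  by_contra hv'
  simp [hv'] at this

/-- In a transitive permutation group of prime degree `p` whose Sylow `p`-normaliser has even order, the point stabilisers are the only subgroups of index `p`. -/
theorem result {α : Type*} [Fintype α] [DecidableEq α] {p : ℕ} [Fact p.Prime] (hα : Fintype.card α = p) (G : Subgroup (Equiv.Perm α)) [MulAction.IsPretransitive G α] (P : Sylow p G) (heven : Even (Nat.card (Subgroup.normalizer ((P : Subgroup G) : Set G)))) (H : Subgroup G) (hH : H.index = p) : ∃ a : α, H = MulAction.stabilizer G a := by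
  classical
  have hp : p.Prime := Fact.out
  obtain ⟨a₀⟩ : Nonempty α := Fintype.card_pos_iff.mp (hα ▸ hp.pos)
  have hst : ∀ a : α, (stabilizer G a).index = p := fun a => by
    rw [index_stabilizer_of_transitive, Nat.card_eq_fintype_card, hα]
  suffices ∃ (g : G) (a : α), ∀ h ∈ H, (g⁻¹ * h * g) • a = a by
    obtain ⟨g, a, h⟩ := this
    refine ⟨g • a, Subgroup.eq_of_le_of_card_ge (fun x hx => ?_) ?_⟩
    · have := h x hx
      rwa [mul_smul, mul_smul, inv_smul_eq_iff] at this
    · have h1 := H.index_mul_card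
      have h2 := (stabilizer G (g • a)).index_mul_card
      rw [hH] at h1
      rw [hst] at h2
      exact (Nat.eq_of_mul_eq_mul_left hp.pos (h2.trans h1.symm)).le
  obtain ⟨σ₀, hσ₀, hP⟩ := CfsgH8.sylow_eq_zpowers_of_prime_degree hα P
  have hpH : ¬ p ∣ Nat.card H := by
    intro h
    have h1 := P.card_eq_multiplicity
    rw [hP, Nat.card_zpowers, hσ₀, ← H.index_mul_card, hH,
      Nat.factorization_mul hp.ne_zero Nat.card_pos.ne', Finsupp.add_apply,
      hp.factorization_self] at h1
    have h2 := (hp.dvd_iff_one_le_factorization Nat.card_pos.ne').mp h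
    conv_lhs at h1 => rw [← pow_one p]
    have := Nat.pow_right_injective hp.two_le h1
    omega
  by_cases hp2 : p = 2
  · subst hp2
    refine ⟨1, a₀, fun h hh => ?_⟩
    have h1 : Nat.card G ∣ 2 := by
      have := G.card_subgroup_dvd_card
      rwa [Nat.card_perm, Nat.card_eq_fintype_card (α := α), hα] at this
    have h2 := (Nat.dvd_prime Nat.prime_two).mp (H.card_subgroup_dvd_card.trans h1)
    have h3 : H = ⊥ := Subgroup.eq_bot_of_card_eq _ (h2.resolve_right fun h => hpH h.symm.dvd)
    rw [h3, Subgroup.mem_bot] at hh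
    simp [hh]
  obtain ⟨e, σ, t, b, hσ, ht, he, het⟩ := CfsgH8.exists_coord_involution hα hp2 P heven
  have h2' : (2 : ZMod p) ≠ 0 := by
    intro h
    exact hp2 ((Nat.prime_dvd_prime_iff_eq hp Nat.prime_two).mp
      ((ZMod.natCast_eq_zero_iff 2 p).mp (by exact_mod_cast h)))
  -- t fixes a coset of H
  obtain ⟨q, hq⟩ : (fixedBy (G ⧸ H) t).Nonempty := by
    have := CfsgH8.card_modEq_card_fixedBy (Ω := G ⧸ H) Nat.prime_two (g := t) (k := 1)
      (by rw [pow_one, ← ht, pow_orderOf_eq_one])
    rw [Set.nonempty_iff_ne_empty]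
    intro h0
    rw [h0, ← Subgroup.index_eq_card, hH] at this
    have h3 := hp.eq_two_or_odd.resolve_left hp2
    simp [Nat.ModEq, h3] at this
  set K := stabilizer G q with hK
  have htK : t ∈ K := hq
  have hKi : K.index = p := by
    rw [hK, index_stabilizer_of_transitive, ← Subgroup.index_eq_card, hH]
  have hKc : Nat.card K = Nat.card H := by
    have h1 := H.index_mul_card
    have h2 := K.index_mul_card
    rw [hH] at h1
    rw [hKi] at h2
    exact Nat.eq_of_mul_eq_mul_left hp.pos (h2.trans h1.symm)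
  suffices ∃ a : α, ∀ h ∈ K, h • a = a by
    obtain ⟨a, ha⟩ := this
    induction q using QuotientGroup.induction_on with | _ g => ?_
    refine ⟨g⁻¹, a, fun h hh => ha _ ?_⟩
    show (((g⁻¹⁻¹ * h * g⁻¹) * g : G) : G ⧸ H) = g
    rw [QuotientGroup.eq]
    simpa using hh
  set c : ZMod p := b / 2 with hc
  have hb : b = c + c := by rw [hc]; field_simp; ring
  refine ⟨e.symm c, ?_⟩
  rcases CfsgH8.affine_or_two_transitive e he with haff | h2
  · intro h hh
    obtain ⟨r, s, hrs⟩ := haff h
    -- the commutator of h and t is a translation lying in K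
    have hw : h * t * h⁻¹ * t ∈ K := K.mul_mem (K.mul_mem (K.mul_mem hh htK) (K.inv_mem hh)) htK
    have hw2 : ∀ x : α, e ((h * t * h⁻¹ * t) • x) = e x + (r * b + 2 * s - b) := by
      intro x
      have h1 := hrs (h⁻¹ • t • x)
      rw [smul_inv_smul, het] at h1
      rw [mul_smul, mul_smul, mul_smul, hrs, het]
      linear_combination h1
    have hw3 : h * t * h⁻¹ * t = σ ^ ((r * b + 2 * s - b).val : ℤ) :=
      eq_of_smul_eq_smul (α := α) fun x => e.injective (by
        rw [hw2, CfsgH8.coord_zpow e he]; simp)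
    have hw4 : r * b + 2 * s - b = 0 := by
      by_contra hne
      apply hpH
      rw [← hKc]
      refine dvd_trans ?_ (K.orderOf_dvd_natCard hw)
      have h5 : orderOf (h * t * h⁻¹ * t) ∣ p := by
        rw [hw3, zpow_natCast]
        exact (orderOf_pow_dvd _).trans hσ.dvd
      rcases (Nat.dvd_prime hp).mp h5 with h6 | h6
      · have := hw2 a₀
        rw [orderOf_eq_one_iff.mp h6] at this
        exact (hne (by simpa using this)).elim
      · rw [h6]
    apply e.injective
    rw [hrs, Equiv.apply_symm_apply]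
    apply mul_left_cancel₀ h2'
    rw [hb] at hw4
    linear_combination hw4
  · rw [is_two_pretransitive_iff] at h2
    let O : Set α := orbit K (e.symm c)
    have hO : ∀ k ∈ K, ∀ x, k • x ∈ O ↔ x ∈ O := fun k hk x =>
      ⟨fun h => by
        have h1 : k⁻¹ • k • x ∈ O := mapsTo_smul_orbit (⟨k, hk⟩ : K)⁻¹ _ h
        rwa [inv_smul_smul] at h1,
        fun h => mapsTo_smul_orbit (⟨k, hk⟩ : K) _ h⟩
    let D : Finset (ZMod p) := Finset.univ.filter fun x => e.symm (x + c) ∈ O
    have hD : ∀ x, x ∈ D ↔ e.symm (x + c) ∈ O := by simp [D]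
    have hD0 : (0 : ZMod p) ∈ D := by rw [hD, zero_add]; exact mem_orbit_self _
    have hDc : D.card = O.ncard := by
      rw [← Set.ncard_coe_finset]
      refine Set.ncard_congr (fun x _ => e.symm (x + c)) (fun x hx => (hD x).mp hx)
        (fun x y _ _ h => add_right_cancel (e.symm.injective h))
        fun y hy => ⟨e y - c, (hD _).mpr (by simpa using hy), by simp⟩
    have hk : (D.card : ZMod p) ≠ 0 := by
      rw [Ne, ZMod.natCast_eq_zero_iff, hDc, ← index_stabilizer]
      exact fun h => hpH (hKc ▸ h.trans (Subgroup.index_dvd_card _))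
    have hsym : ∀ x ∈ D, -x ∈ D := by
      intro x hx
      rw [hD] at hx ⊢
      convert (hO t htK _).mpr hx using 1
      apply e.injective
      rw [het, hb]; simp; ring
    have hcompl : K.IsComplement' (Subgroup.zpowers σ) := Subgroup.isComplement'_of_coprime
      (by rw [Nat.card_zpowers, hσ, ← hKi, K.card_mul_index])
      (by rw [Nat.card_zpowers, hσ, hKc]; exact ((Nat.Prime.coprime_iff_not_dvd hp).mpr hpH).symm)
    have hM : ∀ u : ZMod p, Nat.card {g : G // g • e.symm 0 ∈ O ∧ g • e.symm (-u) ∈ O} =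
        Nat.card K * (D.filter fun x => x - u ∈ D).card := by
      intro u
      rw [← Nat.card_eq_finsetCard, ← Nat.card_prod]
      symm
      refine Nat.card_congr (Equiv.ofBijective (fun x => ⟨x.1 * σ ^ ((x.2.1 + c).val : ℤ), ?_⟩)
        ⟨?_, ?_⟩)
      · have := x.2.2
        rw [Finset.mem_filter, hD, hD] at this
        rw [mul_smul, mul_smul, hO _ x.1.2, hO _ x.1.2]
        convert this using 2 <;> apply e.injective <;> rw [CfsgH8.coord_zpow e he] <;> simp
        ring
      · rintro ⟨k, x⟩ ⟨k', x'⟩ h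
        have := hcompl.injective (a₁ := (k, ⟨_, Subgroup.zpow_mem_zpowers σ _⟩))
          (a₂ := (k', ⟨_, Subgroup.zpow_mem_zpowers σ _⟩)) (congrArg Subtype.val h)
        rw [Prod.mk.injEq] at this
        have h4 := this.2
        rw [Subtype.mk.injEq, zpow_eq_zpow_iff_modEq, hσ,
          ← ZMod.intCast_eq_intCast_iff] at h4
        refine Prod.ext this.1 (Subtype.ext ?_)
        simpa using h4
      · rintro ⟨g, hg⟩
        obtain ⟨⟨k, _, i, rfl⟩, rfl⟩ := hcompl.surjective g
        simp only [mul_smul, hO _ k.2] at hg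
        refine ⟨⟨k, i - c, ?_⟩, Subtype.ext ?_⟩
        · rw [Finset.mem_filter, hD, hD]
          convert hg using 2 <;> apply e.injective <;> rw [CfsgH8.coord_zpow e he] <;> simp
          ring
        · simp only [sub_add_cancel, mul_right_inj]
          rw [zpow_eq_zpow_iff_modEq, hσ, ← ZMod.intCast_eq_intCast_iff]
          simp
    have hcount : ∀ u : ZMod p, u ≠ 0 → (D.filter fun x => x - u ∈ D).card =
        (D.filter fun x => x - 1 ∈ D).card := by
      intro u hu
      apply Nat.eq_of_mul_eq_mul_left (Nat.card_pos (α := K))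
      rw [← hM, ← hM]
      obtain ⟨g, h1, h3⟩ := h2 (a := e.symm 0) (b := e.symm (-u)) (c := e.symm 0)
        (d := e.symm (-1)) (by simpa using hu) (by simp)
      exact (Nat.card_congr ((Equiv.mulRight g).subtypeEquiv fun x => by
        simp [mul_smul, h1, h3])).symm
    intro h hh
    by_contra hne
    have h1 : e (h • e.symm c) - c ∈ D := by
      rw [hD]
      simpa using (hO h hh _).mpr (mem_orbit_self _)
    have h3 : D = Finset.univ := by
      rw [Finset.eq_univ_iff_forall]
      intro v
      by_cases hv : v = 0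
      · exact hv ▸ hD0
      · refine diffset h2' D hk hsym _ hcount _ v (fun h0 => hne ?_) hv h1
        rw [sub_eq_zero] at h0
        exact e.eq_symm_apply.mpr h0
    rw [h3] at hk
    simp at hk

end Cfsg.Agent.S0677
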