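import Cfsg.Statements.S1013
import Cfsg.Agent.H1.Misc1
import Cfsg.Agent.H2.BG0
import Cfsg.Agent.H2.NPC

set_option autoImplicit false
open Cfsg

namespace Cfsg.Agent.S1013

/-- Let G be a transitive permutation group of prime degree p having more than one Sylow p-subgroup, and suppose a Sylow p-subgroup P has prime index in its normalizer. Then G is simple. -/
theorem result {α : Type*} [Fintype α] [DecidableEq α] {p : ℕ} [Fact p.Prime] (hα : Fintype.card α = p) (G : Subgroup (Equiv.Perm α)) [MulAction.IsPretransitive ↥G α] (P : Sylow p ↥G) (hn : 1 < Nat.card (Sylow p ↥G)) (ht : (((P : Subgroup ↥G).subgroupOf (Subgroup.normalizer ((P : Subgroup ↥G) : Set ↥G))).index).Prime) : IsSimpleGroup ↥G := by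
  open Subgroup CfsgH2 in
  open CfsgH1 hiding card_inf_mul_relIndex card_lt_of_lt card_lt_of_ne_top card_map_mul_card_inf_ker card_mul_relIndex card_subgroupOf card_sup_dvd card_sup_mul_card_inf coprime_le_sup_cent exists_card_prime_le isNilpotent_map isNilpotent_of_le isPGroup_pCore isSolvable_map isSolvable_of_le le_pCore le_pPrimeCore relIndex_map_dvd in
  open scoped CfsgH1 in
  open scoped commutatorElement in
  · have pp : p.Prime := Fact.out
    have hS := syl_top P
    haveI : MulAction.IsPreprimitive G α := .of_prime_card (by rwa [Nat.card_eq_fintype_card, hα])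
    obtain ⟨a⟩ : Nonempty α := Fintype.card_pos_iff.1 (hα ▸ pp.pos)
    have k : ∀ K : Subgroup G, K.Normal → K ≠ ⊥ → p ∣ o[K] := fun K n h => by
      haveI := MulAction.IsQuasiPreprimitive.isPretransitive_of_normal (N := K) (X := α) fun e => h (eq_bot_iff.2 fun g hg =>
        Subtype.ext (Equiv.ext fun b => (e.ge (Set.mem_univ b) : ∀ m : K, m • b = b) ⟨g, hg⟩))
      have := MulAction.index_stabilizer_of_transitive K a
      rw [Nat.card_eq_fintype_card, hα] at this
      exact this ▸ index_dvd_card _
    have c : o[(P : Subgroup G)] ∣ p := by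
      obtain ⟨n, e⟩ := IsPGroup.iff_card.1 P.isPGroup'
      have d := (card_subgroup_dvd_card (P : Subgroup G)).trans (card_subgroup_dvd_card G)
      rw [Nat.card_perm, Nat.card_eq_fintype_card (α := α), hα, e] at d
      rw [e]
      rcases n with _ | _ | n
      · simp
      · simp
      · obtain ⟨q, rfl⟩ := Nat.exists_eq_succ_of_ne_zero pp.ne_zero
        rw [Nat.factorial_succ, pow_succ', Nat.mul_dvd_mul_iff_left pp.pos] at d
        exact absurd (pp.dvd_factorial.1 ((dvd_pow_self _ n.succ_ne_zero).trans d)) (by omega)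
    have nn : ¬ (P : Subgroup G).Normal := fun n => by
      exact hn.ne' (P.card_eq_index_normalizer.trans (index_eq_one.2 (normalizer_eq_top (P : Subgroup G))))
    have p0 : (P : Subgroup G) ≠ ⊥ := fun e => nn (e ▸ inferInstance)
    haveI := (nontrivial_iff_exists_ne_one _).1 ((nontrivial_iff_ne_bot _).2 p0)
    haveI : Nontrivial G := let ⟨x, _, h⟩ := this; ⟨⟨x, 1, h⟩⟩
    refine ⟨fun K n => or_iff_not_imp_left.2 fun h => ?_⟩
    have h1 := hS.inf_norm (K := K) le_top (le_top.trans (top_le_norm_iff.2 n))
    have l : (P : Subgroup G) ≤ K := inf_eq_left.1 (eq_of_le_of_card_ge inf_le_left ((Nat.le_of_dvd pp.pos c).trans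
      (Nat.le_of_dvd Nat.card_pos (h1.dvd_card (k K n h)))))
    rw [inf_eq_left.2 l] at h1
    have m := relIndex_mul_relIndex (P : Subgroup G) (K ⊓ N[(P : Subgroup G)]) _ (le_inf l le_normalizer) inf_le_right
    rcases (Nat.dvd_prime ht).1 (Dvd.intro_left _ m) with e | e
    · have := h1.frattini_sup le_top (top_le_norm_iff.2 n)
      rwa [top_inf_eq, sup_eq_left.2 ((relIndex_eq_one.1 e).trans inf_le_left)] at this
    · rw [e] at m
      have l2 := relIndex_eq_one.1 ((Nat.mul_eq_right ht.ne_zero).1 m)
      have np := h1.npc_of_norm_le_cent (l2.trans (le_cent_self (isMulComm_of_cyclic (isCyclic_of_card_dvd_prime c))))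
      have e2 := np.sup_eq h1
      rw [by_contra fun d : O[{p}ᶜ, K] ≠ ⊥ => (piN_compl_singleton pp).1 piN_piCoreOf (k _ (normal_of_top_le_norm
        ((top_le_norm_iff.2 n).trans norm_le_norm_piCoreOf)) d), bot_sup_eq] at e2
      exact (nn (e2 ▸ n)).elim

end Cfsg.Agent.S1013
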