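import Cfsg.Statements.S0678
import Cfsg.Agent.H1.Misc1
import Cfsg.Agent.H2.BG0
import Cfsg.Agent.H1.Sm3
import Cfsg.Agent.S0989
import Cfsg.Agent.S1013

set_option autoImplicit false
open Cfsg

namespace Cfsg.Agent.S0678

/-- A non-solvable transitive permutation group on 7 points that does not contain the alternating group is a simple group of order 168. -/
theorem result {α : Type*} [Fintype α] [DecidableEq α] (hα : Fintype.card α = 7) (G : Subgroup (Equiv.Perm α)) [MulAction.IsPretransitive G α] (hG : ¬ Group.IsSolvable G) (hA : ¬ alternatingGroup α ≤ G) : Nat.card G = 168 ∧ IsSimpleGroup G := by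
  open Subgroup CfsgH2 in
  open CfsgH1 hiding card_inf_mul_relIndex card_lt_of_lt card_lt_of_ne_top card_map_mul_card_inf_ker card_mul_relIndex card_subgroupOf card_sup_dvd card_sup_mul_card_inf coprime_le_sup_cent exists_card_prime_le isNilpotent_map isNilpotent_of_le isPGroup_pCore isSolvable_map isSolvable_of_le le_pCore le_pPrimeCore relIndex_map_dvd in
  open scoped CfsgH1 in
  open scoped commutatorElement in
  · haveI : Fact (Nat.Prime 7) := ⟨by norm_num⟩
    haveI : Fact (Nat.Prime 3) := ⟨by norm_num⟩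
    haveI pr : MulAction.IsPreprimitive G α := .of_prime_card (by rw [Nat.card_eq_fintype_card, hα]; norm_num)
    have i := G.card_mul_index
    rw [Nat.card_perm, Nat.card_eq_fintype_card (α := α), hα, show Nat.factorial 7 = 5040 from rfl] at i
    have k : ∀ (p : ℕ) [Fact p.Prime] (x : Equiv.Perm α), orderOf x = p → ¬ p ∣ G.index → ∃ g, g * x * g⁻¹ ∈ G := fun p _ x hx d => by
      obtain ⟨P, hP⟩ := exists_syl (p := p) G
      obtain ⟨g, -, l⟩ := (hP.trans le_top (by rwa [relIndex_top_right])).exists_conj_le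
        (CfsgH2.isPGroup_zpowers (k := 1) (x := x) (by rw [pow_one, ← hx, pow_orderOf_eq_one])) le_top
      exact ⟨g, hP.le (l (mem_map_of_mem _ (mem_zpowers x)))⟩
    have d2 : 2 ∣ G.index := by
      by_contra d
      obtain ⟨x, hx⟩ := (Equiv.Perm.exists_with_cycleType_iff α (m := {2})).2 (by simp [hα])
      have := Equiv.Perm.isSwap_iff_cycleType.2 hx
      obtain ⟨g, hg⟩ := k 2 x this.orderOf d
      exact hA (Equiv.Perm.subgroup_eq_top_of_isPreprimitive_of_isSwap_mem pr _ (Equiv.Perm.isSwap_iff_cycleType.2 ((Equiv.Perm.cycleType_conj).trans hx)) hg ▸ le_top)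
    have d3 : 3 ∣ G.index := by
      by_contra d
      obtain ⟨x, hx⟩ := (Equiv.Perm.exists_with_cycleType_iff α (m := {3})).2 (by simp [hα])
      obtain ⟨g, hg⟩ := k 3 x (Equiv.Perm.IsThreeCycle.orderOf hx) d
      exact hA (Equiv.Perm.alternatingGroup_le_of_isPreprimitive_of_isThreeCycle_mem pr ((Equiv.Perm.cycleType_conj).trans hx) hg)
    obtain ⟨a⟩ : Nonempty α := Fintype.card_pos_iff.1 (by omega)
    have d7 := (MulAction.stabilizer G a).index_dvd_card
    rw [MulAction.index_stabilizer_of_transitive, Nat.card_eq_fintype_card, hα] at d7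
    obtain ⟨P⟩ : Nonempty (Sylow 7 G) := inferInstance
    have hP := syl_sub P
    obtain ⟨m, hm⟩ := d7
    obtain ⟨j, hj⟩ : 6 ∣ G.index := by omega
    have e0 : m * j = 120 := by rw [hm, hj] at i; linarith
    obtain ⟨Q, hQ⟩ := (hP.trans le_top fun d => by
      rw [relIndex_top_right, hj] at d
      have : 7 ∣ m * j := Dvd.dvd.mul_left (by omega) m
      omega).exists_top
    have c : o[(P : Subgroup G)] = 7 := by
      rw [P.card_eq_multiplicity, CfsgSm.fact_eq (k := 1) (m := m) Fact.out hm fun d => by have : 7 ∣ m * j := d.mul_right j; omega]; rfl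
    have k1 := S0989.result 7 (Or.inl hα) Q
    have d1 : o[N[(P : Subgroup G)]] ∣ 42 := by
      rw [← card_map_of_injective G.subtype_injective, ← show 7 * (7 - 1) = 42 from rfl, ← k1, hQ]
      exact card_dvd_of_le (le_normalizer_map _)
    have i1 := card_mul_relIndex (le_normalizer : (P : Subgroup G) ≤ _)
    have i2 := N[(P : Subgroup G)].card_mul_index
    have md := card_sylow_modEq_one 7 G
    have s1 := S1013.result hα G P
    have nn : ∀ K : Subgroup G, K.Normal → K ≠ ⊥ → 7 ∣ o[K] := fun K n h => by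
      haveI := MulAction.IsQuasiPreprimitive.isPretransitive_of_normal (N := K) (X := α) fun e => h (eq_bot_iff.2 fun g hg =>
        Subtype.ext (Equiv.ext fun b => (e.ge (Set.mem_univ b) : ∀ m : K, m • b = b) ⟨g, hg⟩))
      have := MulAction.index_stabilizer_of_transitive K a
      rw [Nat.card_eq_fintype_card, hα] at this
      exact this ▸ index_dvd_card _
    have ns : ∀ a b p q, p.Prime → q.Prime → ¬ o[G] ∣ p ^ a * q ^ b := fun a b p q hp hq d => hG (CfsgH3.burnside_paqb p q a b hp hq d)
    have e1 : (P : Subgroup G).relIndex N[(P : Subgroup G)] ≠ 1 := fun e => by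
      have np := (syl_top P).npc_of_norm_le_cent (inf_le_right.trans ((relIndex_eq_one.1 e).trans (le_cent_self (isMulComm_of_cyclic (isCyclic_of_prime_card c)))))
      have e2 := np.sup_eq (syl_top P)
      rw [by_contra fun d : O[{7}ᶜ, (⊤ : Subgroup G)] ≠ ⊥ => (piN_compl_singleton Fact.out).1 piN_piCoreOf (nn _ (normal_of_top_le_norm le_norm_piCoreOf) d), bot_sup_eq] at e2
      exact ns 1 0 7 7 Fact.out Fact.out (by rw [← card_top (G := G), ← e2, c]; norm_num)
    have n1 : N[(P : Subgroup G)].index ≠ 1 := fun e => by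
      haveI := normalizer_eq_top_iff.1 (index_eq_one.1 e)
      haveI := CfsgH2.isSolvable_of_pgroup P.isPGroup'
      have := (P : Subgroup G).card_mul_index
      rw [c, ← i2, e, mul_one] at this
      haveI := CfsgH3.burnside_paqb (G := G ⧸ (P : Subgroup G)) 2 3 1 1 Nat.prime_two Nat.prime_three (Nat.dvd_of_mul_dvd_mul_left (by norm_num : 0 < 7) (this ▸ d1))
      exact hG (isSolvable_of_ker_of_quotient (P : Subgroup G))
    change _ → Nat.Prime (relIndex _ _) → _ at s1
    rw [P.card_eq_index_normalizer] at md s1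
    change N[(P : Subgroup G)].index % 7 = 1 at md
    change 1 < N[(P : Subgroup G)].index → _ at s1
    rw [← i1, c] at d1 i2
    generalize relIndex (P : Subgroup G) _ = e at *
    generalize N[(P : Subgroup G)].index = n at *
    have e2 : e * n * j = 120 := by rw [hm] at i2; rw [← e0]; congr 1; linarith
    have l1 : e ≤ 6 := by have := Nat.le_of_dvd (by norm_num) d1; omega
    have l2 := Nat.le_of_dvd (by norm_num) (Dvd.intro_left (j * e) (by rw [← e2]; ring) : n ∣ 120)
    have : n = 8 ∧ e = 3 ∨ n = 15 ∧ e = 2 := by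
      have : n ∣ 120 := Dvd.intro_left (j * e) (by rw [← e2]; ring)
      have : n = 8 ∨ n = 15 ∨ n = 120 := by clear e2 i2; interval_cases n <;> omega
      rcases this with rfl | rfl | rfl <;> interval_cases e <;> omega
    rcases this with ⟨rfl, rfl⟩ | ⟨rfl, rfl⟩
    · exact ⟨i2.symm, s1 (by norm_num) Nat.prime_three⟩
    · haveI := s1 (by norm_num) Nat.prime_two
      have := Sm.small (CfsgSm.nc (G := G) (by rw [← i2]; norm_num)) (by omega)
      omega

end Cfsg.Agent.S0678
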