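import Mathlib
import Cfsg.Statements.S0680
import Cfsg.Agent.H8.SharpTwo

set_option autoImplicit false
open Cfsg

namespace Cfsg.Agent.S0680


/-- A finite sharply doubly transitive permutation group has degree a prime power `p ^ j`; a Sylow `p`-subgroup is normal, elementary abelian and regular, and consists of the identity together with the elements without fixed points. (Frobenius' Theorem is not needed.) -/
theorem result {α : Type*} [Fintype α] [DecidableEq α] (G : Subgroup (Equiv.Perm α)) [MulAction.IsMultiplyPretransitive G α 2] (hsharp : ∀ x : Fin 2 ↪ α, MulAction.stabilizer G x = ⊥) (h2 : 2 ≤ Fintype.card α) : ∃ p j : ℕ, p.Prime ∧ 1 ≤ j ∧ Fintype.card α = p ^ j ∧ ∀ (hp : Fact p.Prime) (P : Sylow p G), (P : Subgroup G).Normal ∧ IsMulCommutative (P : Subgroup G) ∧ (∀ x ∈ (P : Subgroup G), x ^ p = 1) ∧ MulAction.IsPretransitive (P : Subgroup G) α ∧ (∀ a : α, MulAction.stabilizer (P : Subgroup G) a = ⊥) ∧ ∀ g : G, g ∈ (P : Subgroup G) ↔ g = 1 ∨ ∀ a : α, g • a ≠ a := by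
  obtain ⟨p, j, hp, hj, hc, h⟩ := CfsgH8.sharp_two_structure (G := G) (Ω := α)
    (fun a b c d => MulAction.is_two_pretransitive_iff.mp inferInstance)
    (CfsgH8.sharp_two_iff.mp hsharp) (by simpa using h2)
  refine ⟨p, j, hp, hj, by simpa using hc, fun hp P => ?_⟩
  obtain ⟨h1, h2, h3, h4, h5, h6, -⟩ := h hp P
  exact ⟨h1, h2, h3, h4, h5, h6⟩

end Cfsg.Agent.S0680
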