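import Mathlib
import Cfsg.Statements.S0681

set_option autoImplicit false
open Cfsg

namespace Cfsg.Agent.S0681

theorem zero_mul' {F : Type*} [Cfsg.NearField F] (a : F) : (0 : F) * a = 0 := by
  have := Cfsg.NearField.right_distrib (0 : F) 0 a
  simpa using this

theorem sub_mul' {F : Type*} [Cfsg.NearField F] (a b c : F) : (a - b) * c = a * c - b * c := by
  have := Cfsg.NearField.right_distrib (a - b) b c
  rw [sub_add_cancel] at this
  rw [this, add_sub_cancel_right]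

theorem mul_ne_zero' {F : Type*} [Cfsg.NearField F] {a b : F} (ha : a ≠ 0) (hb : b ≠ 0) :
    a * b ≠ 0 := by
  obtain ⟨c, hc, -⟩ := Cfsg.NearField.exists_inv b hb
  intro h
  apply ha
  have : a * b * c = 0 := by rw [h, zero_mul']
  rwa [mul_assoc, hc, mul_one] at this

/-- The affine maps `x ↦ x * a + b`, `a ≠ 0`, of a near-field form a sharply doubly transitive permutation group. -/
theorem result {F : Type*} [Cfsg.NearField F] : ∃ H : Subgroup (Equiv.Perm F), (∀ σ : Equiv.Perm F, σ ∈ H ↔ ∃ a b : F, a ≠ 0 ∧ ∀ x : F, σ x = x * a + b) ∧ MulAction.IsMultiplyPretransitive H F 2 ∧ ∀ x : Fin 2 ↪ F, MulAction.stabilizer H x = ⊥ := by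
  let H : Subgroup (Equiv.Perm F) :=
    { carrier := {σ | ∃ a b : F, a ≠ 0 ∧ ∀ x : F, σ x = x * a + b}
      one_mem' := ⟨1, 0, Cfsg.NearField.zero_ne_one.symm, fun x => by simp⟩
      mul_mem' := by
        rintro σ τ ⟨a, b, ha, hσ⟩ ⟨c, d, hc, hτ⟩
        refine ⟨c * a, d * a + b, mul_ne_zero' hc ha, fun x => ?_⟩
        simp only [Equiv.Perm.coe_mul, Function.comp_apply, hσ, hτ, Cfsg.NearField.right_distrib,
          mul_assoc, add_assoc]
      inv_mem' := by
        rintro σ ⟨a, b, ha, hσ⟩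
        obtain ⟨c, hc1, hc2⟩ := Cfsg.NearField.exists_inv a ha
        refine ⟨c, (-b) * c, ?_, fun x => ?_⟩
        · rintro rfl
          rw [zero_mul'] at hc2
          exact Cfsg.NearField.zero_ne_one hc2
        · rw [Equiv.Perm.inv_eq_iff_eq, hσ, ← Cfsg.NearField.right_distrib, mul_assoc, hc2]
          simp }
  have mkp : ∀ a b : F, a ≠ 0 → ∃ σ ∈ H, ∀ x, σ x = x * a + b := by
    intro a b ha
    obtain ⟨c, hc1, hc2⟩ := Cfsg.NearField.exists_inv a ha
    refine ⟨⟨fun x => x * a + b, fun y => (y - b) * c, fun x => ?_, fun y => ?_⟩,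
      ⟨a, b, ha, fun x => rfl⟩, fun x => rfl⟩
    · simp [mul_assoc, hc1]
    · simp [mul_assoc, hc2]
  refine ⟨H, fun σ => Iff.rfl, ?_, ?_⟩
  · rw [MulAction.is_two_pretransitive_iff]
    intro x y u v hxy huv
    obtain ⟨c, hc1, hc2⟩ := Cfsg.NearField.exists_inv (x - y) (sub_ne_zero.mpr hxy)
    have hc0 : c ≠ 0 := by
      rintro rfl
      rw [zero_mul'] at hc2
      exact Cfsg.NearField.zero_ne_one hc2
    obtain ⟨σ, hσ, h⟩ := mkp (c * (u - v)) (-(y * (c * (u - v))) + v) (mul_ne_zero' hc0 (sub_ne_zero.mpr huv))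
    obtain ⟨τ, hτ, h'⟩ := mkp 1 (-y) Cfsg.NearField.zero_ne_one.symm
    obtain ⟨ρ, hρ, h''⟩ := mkp (c * (u - v)) v (mul_ne_zero' hc0 (sub_ne_zero.mpr huv))
    refine ⟨⟨ρ * τ, H.mul_mem hρ hτ⟩, ?_, ?_⟩
    · show ρ (τ x) = u
      rw [h'', h', mul_one, ← sub_eq_add_neg, ← mul_assoc, hc1]
      simp
    · show ρ (τ y) = v
      rw [h'', h', mul_one, ← sub_eq_add_neg, sub_self, zero_mul', zero_add]
  · intro x
    rw [eq_bot_iff]
    rintro ⟨σ, a, b, ha, hσ⟩ hx
    have h0 : σ (x 0) = x 0 := congrArg (fun f : Fin 2 ↪ F => f 0) hx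
    have h1 : σ (x 1) = x 1 := congrArg (fun f : Fin 2 ↪ F => f 1) hx
    have hne : x 0 - x 1 ≠ 0 := sub_ne_zero.mpr (x.injective.ne (by decide))
    rw [hσ] at h0 h1
    have h2 : (x 0 - x 1) * a = x 0 - x 1 := by
      rw [sub_mul']
      conv_rhs => rw [← h0, ← h1]
      simp only [sub_eq_add_neg, neg_add_rev, add_assoc, add_neg_cancel_left]
    obtain ⟨c, hc1, hc2⟩ := Cfsg.NearField.exists_inv _ hne
    have ha1 : a = 1 := by
      have := congrArg (c * ·) h2
      simpa [← mul_assoc, hc2] using this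
    have hb : b = 0 := by simpa [ha1] using h0
    rw [Subgroup.mem_bot]
    ext y
    simp [hσ, ha1, hb]

end Cfsg.Agent.S0681
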