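import Mathlib
import Cfsg.Statements.S0682
import Cfsg.Agent.H8.SharpTwo
import Cfsg.Agent.S0681

set_option autoImplicit false
open Cfsg

namespace Cfsg.Agent.S0682


/-- A finite near-field has prime-power order; its additive group is commutative of prime exponent. -/
theorem result {F : Type*} [Cfsg.NearField F] [Finite F] : ∃ p j : ℕ, p.Prime ∧ 1 ≤ j ∧ Nat.card F = p ^ j ∧ (∀ x y : F, x + y = y + x) ∧ ∀ x : F, p • x = 0 := by
  obtain ⟨H, hH, h2, hs⟩ := Cfsg.Agent.S0681.result (F := F)
  have : Nontrivial F := ⟨⟨0, 1, Cfsg.NearField.zero_ne_one⟩⟩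
  obtain ⟨p, j, hp, hj, hc, h⟩ := CfsgH8.sharp_two_structure (G := H) (Ω := F)
    (fun a b c d => MulAction.is_two_pretransitive_iff.mp h2)
    (CfsgH8.sharp_two_iff.mp hs) (Finite.one_lt_card)
  have := Fact.mk hp
  obtain ⟨P⟩ : Nonempty (Sylow p H) := inferInstance
  obtain ⟨-, h2, h3, -, -, h6, -⟩ := h this P
  have hT : ∀ b : F, Equiv.addRight b ∈ H := fun b =>
    (hH _).mpr ⟨1, b, Cfsg.NearField.zero_ne_one.symm, fun x => by simp⟩
  have hP : ∀ b : F, (⟨_, hT b⟩ : H) ∈ (P : Subgroup H) := by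
    intro b
    rw [h6]
    by_cases hb : b = 0
    · left; subst hb; ext; simp
    · right
      intro a ha
      have : a + b = a := ha
      exact hb (by simpa using this)
  refine ⟨p, j, hp, hj, hc, fun x y => ?_, fun x => ?_⟩
  · have := h2.is_comm.comm ⟨_, hP x⟩ ⟨_, hP y⟩
    have := congrArg (fun g : (P : Subgroup H) => ((g : H) : Equiv.Perm F) 0) this
    simpa using this.symm
  · have := congrArg (fun g : H => (g : Equiv.Perm F) 0) (h3 _ (hP x))
    simpa using this

end Cfsg.Agent.S0682
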