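import Mathlib
import Cfsg.Statements.S0683
import Cfsg.Agent.H8.SharpTwo

set_option autoImplicit false
open Cfsg

namespace Cfsg.Agent.S0683


/-- A finite sharply doubly transitive permutation group is the affine group of a near-field: the permuted set carries a near-field structure for which the group consists exactly of the maps `x ↦ x * a + b` with `a ≠ 0`. -/
theorem result {α : Type*} [Fintype α] [DecidableEq α] (H : Subgroup (Equiv.Perm α)) [MulAction.IsMultiplyPretransitive H α 2] (hsharp : ∀ x : Fin 2 ↪ α, MulAction.stabilizer H x = ⊥) (h2 : 2 ≤ Fintype.card α) : ∃ _ : Cfsg.NearField α, ∀ σ : Equiv.Perm α, σ ∈ H ↔ ∃ a b : α, a ≠ 0 ∧ ∀ x : α, σ x = x * a + b := by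
  have ht : ∀ a b c d : α, a ≠ b → c ≠ d → ∃ g : H, g • a = c ∧ g • b = d :=
    fun a b c d => MulAction.is_two_pretransitive_iff.mp inferInstance
  have hs := CfsgH8.sharp_two_iff.mp hsharp
  obtain ⟨p, j, hp, hj, hc, h⟩ := CfsgH8.sharp_two_structure (G := H) (Ω := α) ht hs (by simpa using h2)
  have := Fact.mk hp
  obtain ⟨P⟩ : Nonempty (Sylow p H) := inferInstance
  obtain ⟨hN, -, -, hPt, hPs, -, -⟩ := h this P
  have : Nontrivial α := Fintype.one_lt_card_iff_nontrivial.mp h2
  obtain ⟨o, e, hoe⟩ := exists_pair_ne α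
  have hex : ∀ x : α, ∃ g : H, g ∈ (P : Subgroup H) ∧ g • o = x := fun x => by
    obtain ⟨g, hg⟩ := hPt.exists_smul_eq o x
    exact ⟨g, g.2, hg⟩
  choose t htP ht0 using hex
  have tuniq : ∀ g ∈ (P : Subgroup H), t (g • o) = g := by
    intro g hg
    have : (⟨g⁻¹ * t (g • o), (P : Subgroup H).mul_mem ((P : Subgroup H).inv_mem hg) (htP _)⟩ :
        (P : Subgroup H)) ∈ MulAction.stabilizer (P : Subgroup H) o := by
      show (g⁻¹ * t (g • o)) • o = o
      rw [mul_smul, ht0, inv_smul_smul]
    rw [hPs, Subgroup.mem_bot] at this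
    have := congrArg Subtype.val this
    simp only [OneMemClass.coe_one, inv_mul_eq_one] at this
    exact this.symm
  have tmul : ∀ y z, t (t z • y) = t z * t y := by
    intro y z
    rw [← tuniq (t z * t y) ((P : Subgroup H).mul_mem (htP _) (htP _)), mul_smul, ht0]
  have tzero : t o = 1 := by simpa using tuniq 1 (P : Subgroup H).one_mem
  have hex2 : ∀ x : α, ∃ g : H, g • o = o ∧ (x ≠ o → g • e = x) := fun x => by
    by_cases hx : x = o
    · exact ⟨1, by simp, fun h => (h hx).elim⟩
    · obtain ⟨g, h1, h2⟩ := ht o e o x hoe (Ne.symm hx)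
      exact ⟨g, h1, fun _ => h2⟩
  choose m hm0 hm1 using hex2
  have hne : ∀ g : H, g • o = o → ∀ x, x ≠ o → g • x ≠ o := fun g hg x hx h =>
    hx (MulAction.injective g (h.trans hg.symm))
  have muniq : ∀ g : H, g • o = o → m (g • e) = g := by
    intro g hg
    have := hs (g⁻¹ * m (g • e)) o e hoe (by rw [mul_smul, hm0, inv_smul_eq_iff, hg])
      (by rw [mul_smul, hm1 _ (hne g hg e hoe.symm), inv_smul_smul])
    rw [inv_mul_eq_one] at this
    exact this.symm
  have mmul : ∀ a b, a ≠ o → m (m b • a) = m b * m a := by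
    intro a b ha
    rw [← muniq (m b * m a) (by rw [mul_smul, hm0, hm0]), mul_smul, hm1 a ha]
  have mone : m e = 1 := by simpa using muniq 1 (by simp)
  letI : Add α := ⟨fun x y => t y • x⟩
  letI : Zero α := ⟨o⟩
  letI : Neg α := ⟨fun x => (t x)⁻¹ • o⟩
  letI ag : AddGroup α := AddGroup.ofLeftAxioms
    (fun x y z => by
      show t z • t y • x = t (t z • y) • x
      rw [tmul, mul_smul])
    (fun x => ht0 x)
    (fun x => by
      show t x • (t x)⁻¹ • o = o
      simp)
  letI mo : Monoid α :=
    { mul := fun x a => if a = o then o else m a • x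
      one := e
      mul_assoc := fun x a b => by
        show (if b = o then o else m b • (if a = o then o else m a • x)) =
          if (if b = o then o else m b • a) = o then o else m (if b = o then o else m b • a) • x
        by_cases hb : b = o
        · simp [hb]
        by_cases ha : a = o
        · simp [ha, hb, hm0]
        simp [ha, hb, hne _ (hm0 b) a ha, mmul a b ha, mul_smul]
      one_mul := fun a => by
        show (if a = o then o else m a • e) = a
        by_cases ha : a = o
        · simp [ha]
        · simp [ha, hm1 a ha]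
      mul_one := fun a => by
        show (if e = o then o else m e • a) = a
        simp [hoe.symm, mone] }
  have hmul : ∀ x a : α, x * a = if a = o then o else m a • x := fun _ _ => rfl
  have hadd : ∀ x y : α, x + y = t y • x := fun _ _ => rfl
  refine ⟨{ ag, mo with
    right_distrib := fun a b c => ?_
    mul_zero := fun a => ?_
    zero_ne_one := hoe
    exists_inv := fun a ha => ?_ }, fun σ => ?_⟩
  · rw [hmul, hmul, hmul, hadd, hadd]
    by_cases hc : c = o
    · simp [hc, tzero]
    · simp only [hc, if_false]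
      have := tuniq _ (hN.conj_mem _ (htP b) (m c))
      have h3 : (m c)⁻¹ • o = o := by rw [inv_smul_eq_iff, hm0]
      rw [mul_smul, mul_smul, h3, ht0] at this
      rw [this]
      simp [mul_smul]
  · exact if_pos rfl
  · have ha' : a ≠ o := ha
    have h3 : (m a)⁻¹ • o = o := by rw [inv_smul_eq_iff, hm0]
    refine ⟨(m a)⁻¹ • e, ?_, ?_⟩
    · rw [hmul, if_neg (hne _ h3 e hoe.symm), muniq _ h3, inv_smul_eq_iff, eq_comm]
      exact hm1 a ha'
    · rw [hmul, if_neg ha', smul_inv_smul]
      rfl
  · constructor
    · intro hσ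
      set g : H := ⟨σ, hσ⟩
      have h3 : ((t (g • o))⁻¹ * g) • o = o := by rw [mul_smul, inv_smul_eq_iff, ht0]
      refine ⟨((t (g • o))⁻¹ * g) • e, g • o, hne _ h3 e hoe.symm, fun x => ?_⟩
      show g • x = t (g • o) • (if _ = o then o else m _ • x)
      rw [if_neg (hne _ h3 e hoe.symm), muniq _ h3]
      simp [mul_smul]
    · rintro ⟨a, b, ha, h⟩
      have : σ = (t b * m a : H) := by
        ext x
        rw [h x]
        show t b • (if a = o then o else m a • x) = _
        rw [if_neg (show ¬ a = o from ha)]
        rfl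
      rw [this]
      exact (t b * m a).2

end Cfsg.Agent.S0683
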