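import Mathlib
import Cfsg.Statements.S0684
import Cfsg.Agent.H8.FC9

set_option autoImplicit false
open Cfsg

namespace Cfsg.Agent.S0684

open CfsgH8.FC

/-- Point stabiliser of a sharply doubly transitive group not of semilinear type: a maximal normal abelian subgroup `A` of a linear group `H` that is regular on non-zero vectors and has no irreducible cyclic normal subgroup is cyclic and reducible, and the order of `A` divides `p ^ k - 1` for `k` the dimension of a minimal `A`-invariant subspace. -/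
theorem result {p : ℕ} [Fact p.Prime] {V : Type*} [AddCommGroup V] [Module (ZMod p) V] [Finite V] (H : Subgroup (V ≃ₗ[ZMod p] V)) (hreg : ∀ v w : V, v ≠ 0 → w ≠ 0 → ∃! h : H, (h : V ≃ₗ[ZMod p] V) v = w) (hI : ∀ A : Subgroup H, A.Normal → IsCyclic A → ∃ W : Submodule (ZMod p) V, W ≠ ⊥ ∧ W ≠ ⊤ ∧ ∀ a ∈ A, ∀ v ∈ W, ((a : H) : V ≃ₗ[ZMod p] V) v ∈ W) (A : Subgroup H) (hAn : A.Normal) (hAc : IsMulCommutative A) (hAmax : ∀ B : Subgroup H, B.Normal → IsMulCommutative B → A ≤ B → B = A) : IsCyclic A ∧ ∃ W : Submodule (ZMod p) V, W ≠ ⊥ ∧ W ≠ ⊤ ∧ (∀ a ∈ A, ∀ v ∈ W, ((a : H) : V ≃ₗ[ZMod p] V) v ∈ W) ∧ (∀ W' : Submodule (ZMod p) V, W' ≤ W → (∀ a ∈ A, ∀ v ∈ W', ((a : H) : V ≃ₗ[ZMod p] V) v ∈ W') → W' = ⊥ ∨ W' = W) ∧ Nat.card A ∣ p ^ Module.finrank (ZMod p) W - 1 := by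
  obtain ⟨W₀, hW₀, -⟩ := hI ⊥ inferInstance inferInstance
  haveI := nt_of_ne hW₀
  have h := st_of_reg hreg
  have c := h.fc.cyc_ab hAc
  obtain ⟨W, h1, h2, h3⟩ := hI A hAn c
  obtain ⟨U, l, h0, i, m⟩ := exists_min_iv (A := A) (W := W.toAddSubgroup) h3
    fun e => h1 (Submodule.toAddSubgroup_injective e)
  refine ⟨c, U.toZModSubmodule p, fun e => h0 (congrArg Submodule.toAddSubgroup e),
    fun e => h2 (eq_top_iff.2 fun v hv => l (e.ge hv)), i, fun X hX iX => (m X.toAddSubgroup hX iX).imp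
      (fun e => Submodule.toAddSubgroup_injective e) fun e => Submodule.toAddSubgroup_injective e, ?_⟩
  have := Module.natCard_eq_pow_finrank (K := ZMod p) (V := U.toZModSubmodule p)
  rw [Nat.card_zmod] at this
  exact this ▸ h.fr.card_dvd i

end Cfsg.Agent.S0684
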