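import Mathlib
import Cfsg.Statements.S0690
import Cfsg.Agent.H8.FC5

set_option autoImplicit false
open Cfsg

namespace Cfsg.Agent.S0690


open CfsgH8 CfsgH8.FC CfsgH2 CfsgH1 CfsgH3 Subgroup

/-- Zassenhaus: a perfect non-trivial group of fixed-point-free automorphisms of a finite group is isomorphic to `SL(2,5)`. -/
theorem result {K : Type*} [Group K] [Finite K] (G : Subgroup (MulAut K)) (hfpf : ∀ φ ∈ G, φ ≠ 1 → ∀ k : K, φ k = k → k = 1) (hperf : commutator G = ⊤) (hne : G ≠ ⊥) : Nonempty (G ≃* Matrix.SpecialLinearGroup (Fin 2) (ZMod 5)) := by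
  haveI := (nontrivial_iff_ne_bot G).2 hne
  haveI : Finite (MulAut K) := Finite.of_injective _ DFunLike.coe_injective
  haveI : Nontrivial K := by
    by_contra e
    rw [not_nontrivial_iff_subsingleton] at e
    exact hne (eq_bot_iff.2 fun φ _ => MulEquiv.ext fun k => Subsingleton.elim _ _)
  have h : FC ℂ G := fc_of_aut G.subtype fun g g1 => hfpf g g.2 fun e => g1 (Subtype.ext e)
  obtain ⟨φ, M, h1, h2, h3, -, -, h4, -, -, h5⟩ := h.nonsol fun _ =>
    (Group.IsSolvable.commutator_lt_top_of_nontrivial G).ne hperf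
  have e : φ.range ⊔ M = ⊤ := by
    haveI : Group.IsSolvable (G ⧸ (φ.range ⊔ M)) := burnside_paqb 2 2 1 0 Nat.prime_two Nat.prime_two (by
      rw [← index_eq_card]; rcases h5 with e | e <;> simp [e])
    exact (QuotientGroup.ker_mk' _).symm.trans (eq_top_of_perfect hperf _)
  haveI : Group.IsSolvable (G ⧸ φ.range) := Group.isSolvable_of_surjective
    (f := (QuotientGroup.mk' φ.range).comp M.subtype) (MonoidHom.range_eq_top.1 (by
      rw [MonoidHom.range_comp, range_subtype, ← sup_bot_eq (M.map _),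
        ← (map_eq_bot_iff (f := QuotientGroup.mk' φ.range) φ.range).2 (QuotientGroup.ker_mk' _).ge,
        ← Subgroup.map_sup, sup_comm, e]
      exact map_top_of_surjective _ (QuotientGroup.mk'_surjective _)))
  have := (QuotientGroup.ker_mk' φ.range).symm.trans (eq_top_of_perfect hperf _)
  exact ⟨(MulEquiv.ofBijective φ ⟨h1, MonoidHom.range_eq_top.1 this⟩).symm⟩

end Cfsg.Agent.S0690
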