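import Cfsg.Statements.S0691
import Mathlib
import Cfsg.Agent.H9.Reg2

set_option autoImplicit false
open Cfsg

namespace Cfsg.Agent.S0691

section
open Subgroup CfsgH9
open scoped commutatorElement

def tF : ℕ := 0x31010800c40420031010800c40420010c2100
def tG : ℕ := 0x20820840410410841041030c30c3040000000
def tD : ℕ := 0x40821020430c30421040c30c30c20010820c0
def lk (t : ℕ) (x y : ZMod 5) : ℕ := (t >>> (6 * (x.val * 5 + y.val))) % 64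
theorem c0 : ∀ x y : ZMod 5, ¬ (x = 0 ∧ y = 0) →
    (lk tF (2 * x + 0 * y) (0 * x + 3 * y) : ZMod 5) = 2 * (lk tF x y : ZMod 5) + 0 * (lk tG x y : ZMod 5) ∧
    (lk tG (2 * x + 0 * y) (0 * x + 3 * y) : ZMod 5) = 0 * (lk tF x y : ZMod 5) + 3 * (lk tG x y : ZMod 5) := by
  decide +kernel
theorem c1 : ∀ x y : ZMod 5, ¬ (x = 0 ∧ y = 0) →
    (lk tF (0 * x + 4 * y) (1 * x + 0 * y) : ZMod 5) = 0 * (lk tF x y : ZMod 5) + 4 * (lk tG x y : ZMod 5) ∧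
    (lk tG (0 * x + 4 * y) (1 * x + 0 * y) : ZMod 5) = 1 * (lk tF x y : ZMod 5) + 0 * (lk tG x y : ZMod 5) := by
  decide +kernel
theorem c2 : ∀ x y : ZMod 5, ¬ (x = 0 ∧ y = 0) →
    (lk tF (1 * x + 2 * y) (1 * x + 3 * y) : ZMod 5) = 1 * (lk tF x y : ZMod 5) + 2 * (lk tG x y : ZMod 5) ∧
    (lk tG (1 * x + 2 * y) (1 * x + 3 * y) : ZMod 5) = 1 * (lk tF x y : ZMod 5) + 3 * (lk tG x y : ZMod 5) := by
  decide +kernel
theorem cd : ∀ x y : ZMod 5, ¬ (x = 0 ∧ y = 0) → (x = 1 ∧ y = 0) ∨ lk tD (2 * x + 0 * y) (0 * x + 3 * y) < lk tD x y ∨ lk tD (0 * x + 4 * y) (1 * x + 0 * y) < lk tD x y ∨ lk tD (1 * x + 2 * y) (1 * x + 3 * y) < lk tD x y := by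
  decide +kernel

end

/-- An exceptional sharply doubly transitive group of degree 5^2: the listed matrices generate a subgroup of GL(2,5) of order 24 acting regularly on the non-zero vectors. -/
theorem result (A : Matrix.GeneralLinearGroup (Fin 2) (ZMod 5)) (B : Matrix.GeneralLinearGroup (Fin 2) (ZMod 5)) (C : Matrix.GeneralLinearGroup (Fin 2) (ZMod 5)) (hA : (A : Matrix (Fin 2) (Fin 2) (ZMod 5)) = !![2, 0; 0, -2]) (hB : (B : Matrix (Fin 2) (Fin 2) (ZMod 5)) = !![0, -1; 1, 0]) (hC : (C : Matrix (Fin 2) (Fin 2) (ZMod 5)) = !![1, 2; 1, -2]) : Nat.card (Subgroup.closure ({A, B, C} : Set (Matrix.GeneralLinearGroup (Fin 2) (ZMod 5)))) = 24 ∧ ∀ v w : Fin 2 → ZMod 5, v ≠ 0 → w ≠ 0 → ∃! h : Subgroup.closure ({A, B, C} : Set (Matrix.GeneralLinearGroup (Fin 2) (ZMod 5))), Matrix.mulVec ((h : Matrix.GeneralLinearGroup (Fin 2) (ZMod 5)) : Matrix (Fin 2) (Fin 2) (ZMod 5))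 v = w := by
  open Subgroup CfsgH9 in
  have e0 : A.1 0 0 = 2 ∧ A.1 0 1 = 0 ∧ A.1 1 0 = 0 ∧ A.1 1 1 = 3 := by
    rw [hA]; decide +kernel
  have e1 : B.1 0 0 = 0 ∧ B.1 0 1 = 4 ∧ B.1 1 0 = 1 ∧ B.1 1 1 = 0 := by
    rw [hB]; decide +kernel
  have e2 : C.1 0 0 = 1 ∧ C.1 0 1 = 2 ∧ C.1 1 0 = 1 ∧ C.1 1 1 = 3 := by
    rw [hC]; decide +kernel
  haveI : Fact (1 < 5) := ⟨by norm_num⟩
  have := reg2 ({A, B, C} : Set (Matrix.GeneralLinearGroup (Fin 2) (ZMod 5)))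
    (fun x y => (lk tF x y : ZMod 5)) (fun x y => (lk tG x y : ZMod 5)) (lk tD) (by decide +kernel) (by
      rintro _ (rfl | rfl | rfl)
      · rw [e0.1, e0.2.1, e0.2.2.1, e0.2.2.2]; exact c0
      · rw [e1.1, e1.2.1, e1.2.2.1, e1.2.2.2]; exact c1
      · rw [e2.1, e2.2.1, e2.2.2.1, e2.2.2.2]; exact c2) fun x y h => (cd x y h).imp_right (by
      rintro (k | k | k)
      · exact ⟨A, by simp, by rw [e0.1, e0.2.1, e0.2.2.1, e0.2.2.2]; exact k⟩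
      · exact ⟨B, by simp, by rw [e1.1, e1.2.1, e1.2.2.1, e1.2.2.2]; exact k⟩
      · exact ⟨C, by simp, by rw [e2.1, e2.2.1, e2.2.2.1, e2.2.2.2]; exact k⟩)
  rwa [Nat.card_zmod] at this

end Cfsg.Agent.S0691
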