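import Cfsg.Statements.S0692
import Mathlib
import Cfsg.Agent.H9.Reg2

set_option autoImplicit false
open Cfsg

namespace Cfsg.Agent.S0692

section
open Subgroup CfsgH9
open scoped commutatorElement

def tF : ℕ := 0xa0441c51880832401c920a1460020c11072482821431060010062072411020c52892851c62000c108424a2000c51060421c62091ca0840c50010051c818904308428a2090051810c21070882431461072810011840c90881c5280
def tG : ℕ := 0x904014208010404a0c318304114208a1420840831830c31c72000c400410104420618504814224618214508918328614524728a1c70072000c310820814824724910124918a2881482062871c02491802820401012841c1287000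
def tD : ℕ := 0x71882ca1c908510210a2c32481492c714130a18b1492c924820420c18b30310c24a1c82851873061c724828510730624814b08530920b28618a1cb24b1cc10c28328524b0c61c528808718310724828a20500120720610a2460c0
def lk (t : ℕ) (x y : ZMod 11) : ℕ := (t >>> (6 * (x.val * 11 + y.val))) % 64
theorem c0 : ∀ x y : ZMod 11, ¬ (x = 0 ∧ y = 0) →
    (lk tF (0 * x + 10 * y) (1 * x + 0 * y) : ZMod 11) = 0 * (lk tF x y : ZMod 11) + 10 * (lk tG x y : ZMod 11) ∧
    (lk tG (0 * x + 10 * y) (1 * x + 0 * y) : ZMod 11) = 1 * (lk tF x y : ZMod 11) + 0 * (lk tG x y : ZMod 11) := by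
  decide +kernel
theorem c1 : ∀ x y : ZMod 11, ¬ (x = 0 ∧ y = 0) →
    (lk tF (2 * x + 4 * y) (1 * x + 8 * y) : ZMod 11) = 2 * (lk tF x y : ZMod 11) + 4 * (lk tG x y : ZMod 11) ∧
    (lk tG (2 * x + 4 * y) (1 * x + 8 * y) : ZMod 11) = 1 * (lk tF x y : ZMod 11) + 8 * (lk tG x y : ZMod 11) := by
  decide +kernel
theorem cd : ∀ x y : ZMod 11, ¬ (x = 0 ∧ y = 0) → (x = 1 ∧ y = 0) ∨ lk tD (0 * x + 10 * y) (1 * x + 0 * y) < lk tD x y ∨ lk tD (2 * x + 4 * y) (1 * x + 8 * y) < lk tD x y := by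
  decide +kernel

end

/-- An exceptional sharply doubly transitive group of degree 11^2: the listed matrices generate a subgroup of GL(2,11) of order 120 acting regularly on the non-zero vectors. -/
theorem result (A : Matrix.GeneralLinearGroup (Fin 2) (ZMod 11)) (B : Matrix.GeneralLinearGroup (Fin 2) (ZMod 11)) (hA : (A : Matrix (Fin 2) (Fin 2) (ZMod 11)) = !![0, -1; 1, 0]) (hB : (B : Matrix (Fin 2) (Fin 2) (ZMod 11)) = !![2, 4; 1, -3]) : Nat.card (Subgroup.closure ({A, B} : Set (Matrix.GeneralLinearGroup (Fin 2) (ZMod 11)))) = 120 ∧ ∀ v w : Fin 2 → ZMod 11, v ≠ 0 → w ≠ 0 → ∃! h : Subgroup.closure ({A, B} : Set (Matrix.GeneralLinearGroup (Fin 2) (ZMod 11))), Matrix.mulVec ((h : Matrix.GeneralLinearGroup (Fin 2) (ZMod 11)) : Matrix (Fin 2) (Fin 2) (ZMod 11)) v = w := by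
  open Subgroup CfsgH9 in
  have e0 : A.1 0 0 = 0 ∧ A.1 0 1 = 10 ∧ A.1 1 0 = 1 ∧ A.1 1 1 = 0 := by
    rw [hA]; decide +kernel
  have e1 : B.1 0 0 = 2 ∧ B.1 0 1 = 4 ∧ B.1 1 0 = 1 ∧ B.1 1 1 = 8 := by
    rw [hB]; decide +kernel
  haveI : Fact (1 < 11) := ⟨by norm_num⟩
  have := reg2 ({A, B} : Set (Matrix.GeneralLinearGroup (Fin 2) (ZMod 11)))
    (fun x y => (lk tF x y : ZMod 11)) (fun x y => (lk tG x y : ZMod 11)) (lk tD) (by decide +kernel) (by
      rintro _ (rfl | rfl)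
      · rw [e0.1, e0.2.1, e0.2.2.1, e0.2.2.2]; exact c0
      · rw [e1.1, e1.2.1, e1.2.2.1, e1.2.2.2]; exact c1) fun x y h => (cd x y h).imp_right (by
      rintro (k | k)
      · exact ⟨A, by simp, by rw [e0.1, e0.2.1, e0.2.2.1, e0.2.2.2]; exact k⟩
      · exact ⟨B, by simp, by rw [e1.1, e1.2.1, e1.2.2.1, e1.2.2.2]; exact k⟩)
  rwa [Nat.card_zmod] at this

end Cfsg.Agent.S0692
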