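import Cfsg.Statements.S0694
import Mathlib
import Cfsg.Agent.H9.Reg2

set_option autoImplicit false
open Cfsg

namespace Cfsg.Agent.S0694

section
open Subgroup CfsgH9
open scoped commutatorElement

open Finset in
theorem sg (m i : ℕ) : (m + 1) ^ i = (∑ j ∈ range i, (m + 1) ^ j) * m + 1 :=
  (geom_sum_mul_add m i).symm
open Finset in
theorem smod {m r : ℕ} (h : r ∣ m) (i : ℕ) : (∑ j ∈ range i, (m + 1) ^ j) ≡ i [MOD r] := by
  induction i with
  | zero => rfl
  | succ i ih =>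
    rw [sum_range_succ]
    refine ih.add ?_
    have : m + 1 ≡ 1 [MOD r] := by simpa using ((Nat.modEq_zero_iff_dvd.2 h).add_right 1)
    simpa using this.pow i
open Finset in
theorem key {m n : ℕ} (hm : 0 < m) (h1 : ∀ r : ℕ, r.Prime → r ∣ n → r ∣ m) (h2 : 4 ∣ n → 4 ∣ m)
    {i : ℕ} (hi : i ≠ 0) : n ∣ (∑ j ∈ range i, (m + 1) ^ j) ↔ n ∣ i := by
  set s := ∑ j ∈ range i, (m + 1) ^ j with hs
  have s0 : s ≠ 0 := by
    obtain ⟨k, rfl⟩ := Nat.exists_eq_succ_of_ne_zero hi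
    rw [hs, sum_range_succ]; positivity
  have e : (m + 1) ^ i - 1 ^ i = s * m := by rw [sg, one_pow, Nat.add_sub_cancel]
  rw [Nat.dvd_iff_prime_pow_dvd_dvd, Nat.dvd_iff_prime_pow_dvd_dvd i]
  refine forall₃_congr fun r k hr => imp_congr_right fun hk => ?_
  haveI : Fact r.Prime := ⟨hr⟩
  rcases k with _ | _ | k
  · simp
  · simpa using (smod (h1 r hr (by simpa using hk)) i).dvd_iff dvd_rfl
  have rm : r ∣ m := h1 r hr ((dvd_pow_self r (by omega)).trans hk)
  have nd : ¬ r ∣ m + 1 := fun f => hr.one_lt.ne' (Nat.dvd_one.1 ((Nat.dvd_add_right rm).1 f))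
  rw [padicValNat_dvd_iff_le s0, padicValNat_dvd_iff_le hi]
  suffices padicValNat r s = padicValNat r i by rw [this]
  rcases hr.eq_two_or_odd' with rfl | ho
  · have m4 : 4 ∣ m := h2 ((show 4 ∣ 2 ^ (k + 1 + 1) from ⟨2 ^ k, by ring⟩).trans hk)
    rcases Nat.even_or_odd i with he | he
    · have := padicValNat.pow_two_sub_pow (x := m + 1) (y := 1) (by omega) (by simpa using rm) nd hi he
      rw [e, padicValNat.mul s0 hm.ne', Nat.add_sub_cancel] at this
      have h3 : padicValNat 2 (m + 1 + 1) = 1 := by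
        obtain ⟨c, rfl⟩ := m4
        rw [show 4 * c + 1 + 1 = 2 * (2 * c + 1) by ring, padicValNat.mul (by norm_num) (by omega),
          padicValNat_self, padicValNat.eq_zero_of_not_dvd (by omega)]
      omega
    · have h3 : ¬ 2 ∣ i := by have := Nat.odd_iff.1 he; omega
      rw [padicValNat.eq_zero_of_not_dvd h3, padicValNat.eq_zero_of_not_dvd
        (mt ((smod rm i).dvd_iff dvd_rfl).1 h3)]
  · have := padicValNat.pow_sub_pow (p := r) ho (x := m + 1) (y := 1) (by omega) (by simpa using rm) nd hi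
    rw [e, padicValNat.mul s0 hm.ne', Nat.add_sub_cancel] at this
    omega

end

/-- The Dickson pair condition: for a prime power `q` and `n > 1`, (every prime factor of `n` divides `q - 1`, and `4 ∣ n → 4 ∣ q - 1`) holds exactly when `q ^ n ≡ 1` modulo `n * (q - 1)` but `q ^ i` is not, for `0 < i < n`. -/
theorem result (q n : ℕ) (hq : IsPrimePow q) (hn : 1 < n) : ((∀ r : ℕ, r.Prime → r ∣ n → r ∣ q - 1) ∧ (4 ∣ n → 4 ∣ q - 1)) ↔ (q ^ n ≡ 1 [MOD n * (q - 1)] ∧ ∀ i : ℕ, 0 < i → i < n → ¬ q ^ i ≡ 1 [MOD n * (q - 1)]) := by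
  open Subgroup CfsgH9 in
  open Finset in
  obtain ⟨m, rfl⟩ : ∃ m, q = m + 1 := ⟨q - 1, by have := hq.two_le; omega⟩
  have hm : 0 < m := by have := hq.two_le; omega
  rw [Nat.add_sub_cancel]
  have e : ∀ i, (m + 1) ^ i ≡ 1 [MOD n * m] ↔ n ∣ ∑ j ∈ range i, (m + 1) ^ j := fun i => by
    rw [sg, Nat.ModEq.comm, Nat.modEq_iff_dvd' (by omega), Nat.add_sub_cancel,
      Nat.mul_dvd_mul_iff_right hm]
  simp only [e]
  refine ⟨fun h => ⟨(key hm h.1 h.2 (by omega)).2 dvd_rfl, fun i h1 h2 f =>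
    absurd (Nat.le_of_dvd h1 ((key hm h.1 h.2 h1.ne').1 f)) (by omega)⟩, fun h => ?_⟩
  have cop : n.Coprime (m + 1) := by
    rw [Nat.coprime_comm, ← Nat.coprime_pow_left_iff (show 0 < n by omega), sg]
    obtain ⟨c, hc⟩ := h.1
    rw [hc, mul_assoc, add_comm]
    exact (Nat.coprime_add_mul_left_left 1 n _).2 (Nat.coprime_one_left n)
  haveI : NeZero n := ⟨by omega⟩
  have inj : Function.Injective fun i : Fin n => ((∑ j ∈ range i, (m + 1) ^ j : ℕ) : ZMod n) := by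
    have : ∀ a b : ℕ, a < b → b < n → ((∑ j ∈ range a, (m + 1) ^ j : ℕ) : ZMod n) ≠
        ((∑ j ∈ range b, (m + 1) ^ j : ℕ) : ZMod n) := fun a b h1 h2 f => by
      obtain ⟨c, rfl⟩ := Nat.exists_eq_add_of_le h1.le
      rw [sum_range_add, ZMod.natCast_eq_natCast_iff, Nat.modEq_iff_dvd' (by omega),
        Nat.add_sub_cancel_left] at f
      simp only [pow_add, ← mul_sum] at f
      exact h.2 c (by omega) (by omega) ((cop.pow_right a).dvd_of_dvd_mul_left f)
    intro a b f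
    rcases lt_trichotomy a b with l | l | l
    exacts [absurd f (this _ _ l b.2), l, absurd f.symm (this _ _ l a.2)]
  have sj : ∀ c : ℕ, ∃ i, (∑ j ∈ range i, (m + 1) ^ j) ≡ c [MOD n] := fun c => by
    obtain ⟨i, hi⟩ := ((Nat.bijective_iff_injective_and_card _).2 ⟨inj, by simp⟩).2 (c : ZMod n)
    exact ⟨i, (ZMod.natCast_eq_natCast_iff _ _ _).1 hi⟩
  have p1 : ∀ r : ℕ, r.Prime → r ∣ n → r ∣ m := fun r hr hrn => by
    by_contra f
    haveI : Fact r.Prime := ⟨hr⟩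
    have m0 : (m : ZMod r) ≠ 0 := mt (ZMod.natCast_eq_zero_iff _ _).1 f
    obtain ⟨i, hi⟩ := sj (-(m : ZMod r)⁻¹).val
    have h3 := (ZMod.natCast_eq_natCast_iff _ _ _).2 (hi.of_dvd hrn)
    have h4 : (((m + 1) ^ i : ℕ) : ZMod r) = 0 := by
      rw [sg, Nat.cast_add, Nat.cast_mul, h3]; simp [m0]
    exact hr.one_lt.ne' (Nat.eq_one_of_dvd_coprimes cop hrn
      (hr.dvd_of_dvd_pow ((ZMod.natCast_eq_zero_iff _ _).1 h4)))
  refine ⟨p1, fun h4 => ?_⟩
  have h2 := p1 2 Nat.prime_two ((by norm_num : 2 ∣ 4).trans h4)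
  by_contra f
  obtain ⟨i, hi⟩ := sj 2
  have : ∀ i, (∑ j ∈ range i, (m + 1) ^ j) % 4 < 2 := fun i => by
    induction i with
    | zero => simp
    | succ i ih =>
      rw [sum_range_succ, sg m i]
      obtain ⟨c, hc⟩ : ∃ c, m = 4 * c + 2 := ⟨m / 4, by omega⟩
      generalize (∑ j ∈ range i, (m + 1) ^ j) = s at *
      subst hc
      rw [show s + (s * (4 * c + 2) + 1) = 4 * (s * c) + (3 * s + 1) by ring, Nat.mul_add_mod]
      obtain h | h : s % 4 = 0 ∨ s % 4 = 1 := by omega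
      all_goals rw [Nat.add_mod, Nat.mul_mod, h]; norm_num
  have h5 := hi.of_dvd h4
  have := this i
  unfold Nat.ModEq at h5
  omega

end Cfsg.Agent.S0694
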