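import Mathlib
import Cfsg.Statements.S0695
import Cfsg.Agent.H8.Multi

set_option autoImplicit false
open Cfsg

namespace Cfsg.Agent.S0695


/-- A regular normal subgroup of a doubly primitive group of finite degree at least 2 is an elementary abelian 2-group (and the degree is a power of 2), unless the degree is 3. -/
theorem result {G : Type*} [Group G] {X : Type*} [Fintype X] [MulAction G X] (hX : 2 ≤ Fintype.card X) (h2 : MulAction.IsMultiplyPreprimitive G X 2) (N : Subgroup G) [N.Normal] (htrans : MulAction.IsPretransitive N X) (hreg : ∀ x : X, MulAction.stabilizer N x = ⊥) : Fintype.card X = 3 ∨ (IsMulCommutative N ∧ (∀ n ∈ N, n ^ 2 = 1) ∧ ∃ m : ℕ, Fintype.card X = 2 ^ m) := by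
  classical
  obtain ⟨a⟩ : Nonempty X := Fintype.card_pos_iff.mp (by omega)
  have hp := h2.isPreprimitive_ofFixingSubgroup (s := {a}) (by simp; rfl)
  have hN : Nat.card N = Nat.card X := by
    rw [CfsgH8.card_eq_mul_stabilizer (G := N) a, hreg]; simp
  have huniq : ∀ x ∈ N, ∀ y ∈ N, x • a = y • a → x = y := by
    intro x hx y hy h
    have : (⟨y⁻¹ * x, N.mul_mem (N.inv_mem hy) hx⟩ : N) ∈ MulAction.stabilizer N a := by
      show (y⁻¹ * x) • a = a
      rw [mul_smul, h, inv_smul_smul]
    rw [hreg, Subgroup.mem_bot] at this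
    have := congrArg Subtype.val this
    simp only [OneMemClass.coe_one, inv_mul_eq_one] at this
    exact this.symm
  by_cases h3 : Fintype.card X = 3
  · exact Or.inl h3
  right
  have hsq : ∀ n ∈ N, n ^ 2 = 1 := by
    intro n hn
    by_contra hne
    have hn1 : n ≠ 1 := by rintro rfl; simp at hne
    have hne' : n • a ≠ n⁻¹ • a := fun h => hne (by
      rw [pow_two, mul_eq_one_iff_eq_inv]; exact huniq _ hn _ (N.inv_mem hn) h)
    have h1 : n • a ≠ a := fun h => hn1 (huniq _ hn _ N.one_mem (by simpa using h))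
    have h1' : n⁻¹ • a ≠ a := fun h => h1 (by rw [inv_smul_eq_iff] at h; exact h.symm)
    rcases CfsgH8.block_of_isPreprimitive_ofFixing hp {n • a, n⁻¹ • a} (by
      rintro x (rfl | rfl)
      · exact h1
      · exact h1') (by
      intro g hg
      have hga : g • a = a := hg a rfl
      have hga' : g⁻¹ • a = a := by rw [inv_smul_eq_iff, hga]
      have hc : ∀ m : G, g • m • a = (g * m * g⁻¹) • a := fun m => by
        rw [mul_smul, mul_smul, hga']
      have hcn := ‹N.Normal›.conj_mem n hn g
      have hci : g * n⁻¹ * g⁻¹ = (g * n * g⁻¹)⁻¹ := by group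
      have key : g * n * g⁻¹ = n ∨ g * n * g⁻¹ = n⁻¹ →
          ∀ z ∈ ({n • a, n⁻¹ • a} : Set X), g • z ∈ ({n • a, n⁻¹ • a} : Set X) := by
        rintro (h | h) z (rfl | rfl) <;> simp [hc, hci, h]
      rintro y (rfl | rfl) hy <;> apply key
      · rw [hc] at hy
        rcases hy with hy | hy
        · exact Or.inl (huniq _ hcn _ hn hy)
        · exact Or.inr (huniq _ hcn _ (N.inv_mem hn) hy)
      · rw [hc, hci] at hy
        rcases hy with hy | hy
        · exact Or.inr (inv_eq_iff_eq_inv.mp (huniq _ (N.inv_mem hcn) _ hn hy))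
        · exact Or.inl (inv_injective (huniq _ (N.inv_mem hcn) _ (N.inv_mem hn) hy))) with h | h
    · exact hne' (h (by simp) (by simp))
    · apply h3
      rw [← Finset.card_univ, Finset.card_eq_three]
      refine ⟨a, n • a, n⁻¹ • a, h1.symm, h1'.symm, hne', ?_⟩
      ext x
      by_cases hx : x = a
      · simp [hx]
      · simpa [hx] using h x hx
  refine ⟨⟨⟨fun x y => ?_⟩⟩, hsq, ?_⟩
  · apply Subtype.ext
    have h1 := hsq _ x.2
    have h2 := hsq _ y.2
    have h3 := hsq _ (x * y).2
    simp only [pow_two, mul_eq_one_iff_eq_inv, Subgroup.coe_mul, mul_inv_rev] at h1 h2 h3 ⊢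
    rw [h3, ← h1, ← h2]
  · have : Finite N := Nat.finite_of_card_ne_zero (by rw [hN, Nat.card_eq_fintype_card]; omega)
    have hpg : IsPGroup 2 N := fun x => ⟨1, Subtype.ext (by simpa using hsq _ x.2)⟩
    obtain ⟨m, hm⟩ := IsPGroup.iff_card.mp hpg
    exact ⟨m, by rw [← hm, hN, Nat.card_eq_fintype_card]⟩

end Cfsg.Agent.S0695
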