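import Mathlib
import Cfsg.Statements.S0696
import Cfsg.Agent.H8.Multi
import Cfsg.Agent.S0695

set_option autoImplicit false
open Cfsg

namespace Cfsg.Agent.S0696


/-- A triply primitive group of degree at least 3 having a regular normal subgroup has degree 3 or 4. -/
theorem result {G : Type*} [Group G] {X : Type*} [Fintype X] [MulAction G X] (hX : 3 ≤ Fintype.card X) (h3 : MulAction.IsMultiplyPreprimitive G X 3) (N : Subgroup G) [N.Normal] (htrans : MulAction.IsPretransitive N X) (hreg : ∀ x : X, MulAction.stabilizer N x = ⊥) : Fintype.card X = 3 ∨ Fintype.card X = 4 := by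
  classical
  have h2 : MulAction.IsMultiplyPreprimitive G X 2 :=
    MulAction.isMultiplyPreprimitive_of_le G X h3 (by norm_num) (by simpa using hX)
  rcases Cfsg.Agent.S0695.result (by omega) h2 N htrans hreg with h | ⟨hc, hsq, -⟩
  · exact Or.inl h
  right
  obtain ⟨a, b, c, hab, hac, hbc⟩ := Fintype.two_lt_card_iff.mp hX
  have hp := h3.isPreprimitive_ofFixingSubgroup (s := {a, b}) (by
    rw [Set.encard_pair hab]; rfl)
  have huniq : ∀ a : X, ∀ x ∈ N, ∀ y ∈ N, x • a = y • a → x = y := by
    intro a x hx y hy h
    have : (⟨y⁻¹ * x, N.mul_mem (N.inv_mem hy) hx⟩ : N) ∈ MulAction.stabilizer N a := by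
      show (y⁻¹ * x) • a = a
      rw [mul_smul, h, inv_smul_smul]
    rw [hreg, Subgroup.mem_bot] at this
    have := congrArg Subtype.val this
    simp only [OneMemClass.coe_one, inv_mul_eq_one] at this
    exact this.symm
  obtain ⟨⟨n, hn⟩, hnab⟩ := htrans.exists_smul_eq a b
  have hnab : n • a = b := hnab
  have hnn : ∀ x : X, n • n • x = x := fun x => by rw [← mul_smul, ← pow_two, hsq n hn, one_smul]
  have hnc : n • c ≠ c := fun h => hab (by
    rw [← hnab, huniq c n hn 1 N.one_mem (by simpa using h), one_smul])
  have hnca : n • c ≠ a := fun h => hbc (by rw [← hnab, ← h, hnn])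
  have hncb : n • c ≠ b := fun h => hac (MulAction.injective n (hnab.trans h.symm))
  rcases CfsgH8.block_of_isPreprimitive_ofFixing hp {c, n • c} (by
      rintro x (rfl | rfl)
      · simp [hac.symm, hbc.symm]
      · simp [hnca, hncb]) (by
      intro g hg
      have hga : g • a = a := hg a (by simp)
      have hgb : g • b = b := hg b (by simp)
      have hga' : g⁻¹ • a = a := by rw [inv_smul_eq_iff, hga]
      have hcomm : g * n * g⁻¹ = n := huniq a _ (‹N.Normal›.conj_mem n hn g) _ hn (by
        rw [mul_smul, mul_smul, hga', hnab, hgb])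
      have hcs : ∀ x : X, g • n • x = n • g • x := fun x => by
        conv_rhs => rw [← hcomm]
        simp [mul_smul]
      have key : g • c = c ∨ g • c = n • c →
          ∀ z ∈ ({c, n • c} : Set X), g • z ∈ ({c, n • c} : Set X) := by
        rintro (h | h) z (rfl | rfl) <;> simp [hcs, h, hnn]
      rintro y (rfl | rfl) hy <;> apply key
      · exact hy
      · rw [hcs] at hy
        rcases hy with hy | hy
        · right; rw [← hnn (g • c), hy]
        · left; exact MulAction.injective n hy) with h | h
  · exact (hnc (h (by simp) (by simp))).elim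
  · have : (Finset.univ : Finset X) = {a, b, c, n • c} := by
      ext x
      by_cases hx : x ∈ ({a, b} : Set X)
      · rcases hx with rfl | rfl <;> simp
      · rcases h x hx with rfl | rfl <;> simp
    rw [← Finset.card_univ, this, Finset.card_insert_of_notMem (by simp [hab, hac, hnca.symm]),
      Finset.card_insert_of_notMem (by simp [hbc, hncb.symm]), Finset.card_pair hnc.symm]

end Cfsg.Agent.S0696
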