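import Cfsg.Statements.S0697
import Cfsg.Agent.H1.MT

set_option autoImplicit false
open Cfsg

namespace Cfsg.Agent.S0697

/-- In a `k`-primitive permutation group which is not the whole symmetric group, a non-trivial non-regular normal subgroup is `k`-transitive. -/
theorem result {α : Type*} [Fintype α] [DecidableEq α] (G : Subgroup (Equiv.Perm α)) {k : ℕ} (hk : 1 ≤ k) (hkn : k ≤ Fintype.card α) (hG : MulAction.IsMultiplyPreprimitive G α k) (htop : G ≠ ⊤) (H : Subgroup G) [H.Normal] (hH : H ≠ ⊥) (hnr : ∃ a : α, MulAction.stabilizer H a ≠ ⊥) : MulAction.IsMultiplyPretransitive H α k := by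
  open MulAction CfsgH8 CfsgH1.MT in
  open scoped commutatorElement in
  · have cd : Nat.card α = Fintype.card α := Nat.card_eq_fintype_card
    have pr : ∀ S : Finset α, S.card + 1 ≤ k → Pr G S := fun S hS B b1 b2 =>
      block_of_isPreprimitive_ofFixing ((isMultiplyPreprimitive_of_le G α hG hS (by simpa using hkn)).isPreprimitive_ofFixingSubgroup (s := S) (by simp)) B b1 b2
    have p1 : IsPreprimitive G α := (is_one_preprimitive_iff G α).1 (isMultiplyPreprimitive_of_le G α hG hk (by simpa using hkn))
    suffices ∀ j ≤ k, IsMultiplyPretransitive H α j from this k le_rfl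
    intro j
    induction j with
    | zero => exact fun _ => is_zero_pretransitive'
    | succ j ih =>
      intro l
      have h := ih (by omega)
      by_contra c
      have z : ∀ S : Finset α, S.card = j → ∀ n ∈ H, (∀ x ∈ S, n • x = x) → n = 1 := fun S hS n hn f => by_contra fun n1 => c (step h hS (pr S (by omega)) hn n1 f)
      rcases j with _ | _ | j
      · exact hH (eq_bot_iff.2 fun n hn => z ∅ rfl n hn (by simp))
      · obtain ⟨a, ha⟩ := hnr
        exact ha (eq_bot_iff.2 fun n hn => Subtype.ext (z {a} rfl n n.2 (fun x hx => Finset.mem_singleton.1 hx ▸ hn)))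
      obtain ⟨S, -, hS⟩ := Finset.exists_subset_card_eq (s := (Finset.univ : Finset α)) (n := j + 1 + 1) (by rw [Finset.card_univ]; omega)
      obtain ⟨a, ha, b, hb, ab⟩ := Finset.one_lt_card.1 (show 1 < S.card by omega)
      obtain ⟨s, hs, e, o, k2, k3⟩ := swap h hS (z S hS) ha hb
      obtain ⟨d, -, hd⟩ := Finset.exists_mem_notMem_of_card_lt_card (s := S) (t := Finset.univ) (by rw [Finset.card_univ]; omega)
      by_cases f : ∀ x, x ∉ S → s • x = x
      · refine htop (Equiv.Perm.subgroup_eq_top_of_isPreprimitive_of_isSwap_mem p1 _ ⟨a, b, ab, Equiv.ext fun x => ?_⟩ s.2)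
        by_cases hx : x ∈ S
        · exact e x hx
        · exact (f x hx).trans (Equiv.swap_apply_of_ne_of_ne (by rintro rfl; exact hx ha) (by rintro rfl; exact hx hb)).symm
      push Not at f
      obtain ⟨x, hx, x1⟩ := f
      have := (pr S (by omega) {x, s • x} (by rintro _ (rfl | rfl); exacts [hx, o x hx]) (by
        intro g hg
        have key : g • x = x ∨ g • x = s • x → ∀ z ∈ ({x, s • x} : Set α), g • z ∈ ({x, s • x} : Set α) := by
          rintro (h | h) z (rfl | rfl) <;> simp [k3 g hg, h, k2]
        rintro y (rfl | rfl) hy <;> apply key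
        · exact hy
        · rw [k3 g hg] at hy
          exact hy.symm.imp (MulAction.injective s ·) fun hy => by rw [← k2 (g • x), hy])).resolve_left fun h => x1 (h (by simp) (by simp))
      have l2 := Finset.card_le_card (s := Finset.univ) (t := insert x (insert (s • x) S)) fun y _ => by
        by_cases hy : y ∈ S
        · simp [hy]
        · rcases this y hy with rfl | rfl <;> simp
      have := Finset.card_insert_le x (insert (s • x) S)
      have := Finset.card_insert_le (s • x) S
      rw [Finset.card_univ] at l2
      exact htop (Equiv.Perm.eq_top_of_isMultiplyPretransitive (isMultiplyPretransitive_of_le (n := k) (by omega) (by omega)))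

end Cfsg.Agent.S0697
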