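import Cfsg.Statements.S0698
import Cfsg.Agent.H1.MT
import Cfsg.Agent.S0696

set_option autoImplicit false
open Cfsg

namespace Cfsg.Agent.S0698

/-- Jordan's Theorem on normal subgroups of multiply transitive groups: if `G` is `k`-transitive (`k > 1`) of degree greater than `k`, a non-trivial normal subgroup is `(k-1)`-transitive, except possibly for `k = 3` when it may be an elementary abelian 2-group. -/
theorem result {α : Type*} [Fintype α] [DecidableEq α] (G : Subgroup (Equiv.Perm α)) {k : ℕ} (hk : 1 < k) (hdeg : k < Fintype.card α) (hG : MulAction.IsMultiplyPretransitive G α k) (N : Subgroup G) [N.Normal] (hN : N ≠ ⊥) : MulAction.IsMultiplyPretransitive N α (k - 1) ∨ (k = 3 ∧ IsMulCommutative N ∧ ∀ n ∈ N, n ^ 2 = 1) := by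
  open MulAction CfsgH8 CfsgH1.MT in
  open scoped commutatorElement in
  · have cd : Nat.card α = Fintype.card α := Nat.card_eq_fintype_card
    refine or_iff_not_imp_right.2 fun ex => ?_
    suffices ∀ j, j + 1 ≤ k → IsMultiplyPretransitive N α j from this _ (by omega)
    intro j
    induction j with
    | zero => exact fun _ => is_zero_pretransitive'
    | succ j ih =>
      intro l
      have h := ih (by omega)
      by_contra c
      have z : ∀ S : Finset α, S.card = j → ∀ n ∈ N, (∀ x ∈ S, n • x = x) → n = 1 := fun S hS n hn f => by_contra fun n1 =>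
        c (step h hS (pr_of hG (by omega) (by omega)) hn n1 f)
      rcases j with _ | _ | j
      · exact hN (eq_bot_iff.2 fun n hn => z ∅ rfl n hn (by simp))
      · have r : ∀ a : α, stabilizer N a = ⊥ := fun a => eq_bot_iff.2 fun n hn => Subtype.ext (z {a} rfl n n.2 (fun x hx => Finset.mem_singleton.1 hx ▸ hn))
        have p : ∀ m, m + 1 ≤ k → IsMultiplyPreprimitive G α m := fun m hm =>
          haveI : IsMultiplyPretransitive G α m.succ := isMultiplyPretransitive_of_le (n := k) hm (by omega)
          isMultiplyPreprimitive_of_isMultiplyPretransitive_succ G α (by rw [ENat.card_eq_coe_fintype_card]; exact_mod_cast hm.trans hdeg.le)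
        by_cases k3 : k = 3
        · obtain ⟨a, b, -⟩ := (S0695.result (by omega) (p 2 l) N (is_one_pretransitive_iff.1 h) r).resolve_left (by omega)
          exact ex ⟨k3, a, b⟩
        · have := S0696.result (by omega) (p 3 (by omega)) N (is_one_pretransitive_iff.1 h) r
          omega
      obtain ⟨S, -, hS⟩ := Finset.exists_subset_card_eq (s := (Finset.univ : Finset α)) (n := j + 1 + 1) (by rw [Finset.card_univ]; omega)
      obtain ⟨a, ha, b, hb, ab⟩ := Finset.one_lt_card.1 (show 1 < S.card by omega)
      obtain ⟨s, hs, e, o, k2, k3⟩ := swap h hS (z S hS) ha hb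
      have f : ∀ x, x ∉ S → s • x = x := fun x hx => by_contra fun x1 => by
        obtain ⟨d, -, hd⟩ := Finset.exists_mem_notMem_of_card_lt_card (s := insert (s • x) (insert x S)) (t := Finset.univ) (by
          have := Finset.card_insert_le (s • x) (insert x S)
          have := Finset.card_insert_le x S
          rw [Finset.card_univ]; omega)
        obtain ⟨g, g1, g2⟩ := exists_fix_smul_eq hG (by omega) (insert x S) (by have := Finset.card_insert_le x S; omega) (a := s • x) (b := d)
          (by simp [x1, o x hx]) fun c => hd (Finset.mem_insert_of_mem c)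
        rw [k3 g fun y hy => g1 y (Finset.mem_insert_of_mem hy), g1 x (Finset.mem_insert_self _ _)] at g2
        exact hd (g2 ▸ Finset.mem_insert_self _ _)
      obtain ⟨T, hT, c2⟩ := Finset.exists_subset_card_eq (s := (Finset.univ.erase a).erase b) (n := j + 1 + 1) (by
        rw [Finset.card_erase_of_mem (by simp [ab.symm]), Finset.card_erase_of_mem (by simp), Finset.card_univ]; omega)
      have := z T c2 s hs fun x hx => by
        have := hT hx
        simp only [Finset.mem_erase] at this
        by_cases hx : x ∈ S
        · exact (e x hx).trans (Equiv.swap_apply_of_ne_of_ne this.2.1 this.1)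
        · exact f x hx
      exact ab (by simpa [this] using e a ha)

end Cfsg.Agent.S0698
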