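import Cfsg.Statements.S0699
import Cfsg.Agent.H1.MT
import Cfsg.Agent.S0698
import Cfsg.Agent.H2.BG0
import Cfsg.Agent.H8.Gleason

set_option autoImplicit false
open Cfsg

namespace Cfsg.Agent.S0699

/-- Wagner's Theorem: a non-trivial normal subgroup of a triply transitive permutation group of odd degree at least 5 is triply transitive. -/
theorem result {α : Type*} [Fintype α] [DecidableEq α] (G : Subgroup (Equiv.Perm α)) (hodd : Odd (Fintype.card α)) (h5 : 5 ≤ Fintype.card α) (hG : MulAction.IsMultiplyPretransitive G α 3) (N : Subgroup G) [N.Normal] (hN : N ≠ ⊥) : MulAction.IsMultiplyPretransitive N α 3 := by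
  open CfsgH2 MulAction CfsgH8 CfsgH1.MT Pointwise in
  open scoped commutatorElement in
  · have cd : Nat.card α = Fintype.card α := Nat.card_eq_fintype_card
    have h2 : IsMultiplyPretransitive N α 2 := (S0698.result G (by norm_num) (by omega) hG N hN).resolve_right fun ⟨_, _, e⟩ => by
      have := ncard_modEq_fixed Nat.prime_two N (isPGroup_of_exp e) (Set.univ : Set α) (by simp)
      haveI t := is_one_pretransitive_iff.1 ((S0698.result G (k := 2) (by norm_num) (by omega) (isMultiplyPretransitive_of_le (n := 3) (by norm_num) (by omega)) N hN).resolve_right (by simp))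
      rw [Set.univ_inter, Set.ncard_univ, cd, Set.eq_empty_of_forall_notMem (s := fixedPoints N α) fun x hx => by
        obtain ⟨y, hy⟩ := Fintype.exists_ne_of_one_lt_card (by omega) x
        obtain ⟨n, rfl⟩ := exists_smul_eq N x y
        exact hy (hx n), Set.ncard_empty] at this
      exact Nat.not_even_iff_odd.2 hodd (Nat.even_iff.2 this)
    obtain ⟨a, b, ab⟩ := Fintype.exists_pair_of_one_lt_card (α := α) (by omega)
    let K : α → α → Subgroup G := fun a b => N ⊓ (stabilizer G a ⊓ stabilizer G b)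
    let T : Subgroup G := N ⊓ stabilizer G ({a, b} : Finset α)
    have mT : ∀ g : G, g ∈ stabilizer G ({a, b} : Finset α) ↔ (g • a = a ∧ g • b = b) ∨ (g • a = b ∧ g • b = a) := fun g => by
      rw [mem_stabilizer_iff, Finset.smul_finset_insert, Finset.smul_finset_singleton, ← Finset.coe_inj]
      simp only [Finset.coe_insert, Finset.coe_singleton, Set.pair_eq_pair_iff]
    have l : K a b ≤ T := inf_le_inf_left _ fun g hg => (mT g).2 (Or.inl hg)
    obtain ⟨P, hP⟩ := exists_syl (p := 2) T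
    have tr : ∀ {a b c d : α}, a ≠ b → c ≠ d → ∃ g : N, g • a = c ∧ g • b = d := is_two_pretransitive_iff.1 h2
    have nK : ∀ Q, Syl 2 Q T → ¬ Q ≤ K a b := fun Q hQ k => hQ.not_dvd_of_le k (by
      obtain ⟨⟨t, ht⟩, t1, t2⟩ := tr ab ab.symm
      refine (Subgroup.index_eq_two_iff.2 ⟨⟨t, ht, (mT t).2 (Or.inr ⟨t1, t2⟩)⟩, fun ⟨g, g1, g2⟩ => ?_⟩).symm.dvd
      replace g1 : g ∈ N := g1
      replace t1 : t • a = b := t1
      replace t2 : t • b = a := t2
      rcases (mT g).1 g2 with ⟨e1, e2⟩ | ⟨e1, e2⟩ <;> simp [K, Subgroup.mem_subgroupOf, mul_smul, e1, e2, t1, t2, ab, ab.symm, g1, N.mul_mem g1 ht])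
    have un : ∀ Q, Syl 2 Q T → ∀ c ∈ fixedPoints Q α, ∀ d ∈ fixedPoints Q α, c = d := fun Q hQ c hc d hd => by_contra fun ne => by
      obtain ⟨⟨n, hn⟩, n1, n2⟩ := tr ne ab
      have : Q.map (cj n) ≤ K a b := by
        rintro _ ⟨q, hq, rfl⟩
        refine ⟨‹N.Normal›.conj_mem _ (hQ.le hq).1 n, ?_, ?_⟩
        · rw [← n1]; simpa [mul_smul] using hc ⟨q, hq⟩
        · rw [← n2]; simpa [mul_smul] using hd ⟨q, hq⟩
      exact nK _ (hQ.of_card_ge (hQ.pg.map _) (this.trans l) (card_map_cj _ _).ge) this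
    obtain ⟨c, hc⟩ : (fixedPoints P α).Nonempty := Set.nonempty_of_ncard_ne_zero fun e => by
      have := ncard_modEq_fixed Nat.prime_two P hP.pg (Set.univ : Set α) (by simp)
      rw [Set.univ_inter, Set.ncard_univ, cd, e] at this
      exact Nat.not_even_iff_odd.2 hodd (Nat.even_iff.2 this)
    obtain ⟨s, hs, s1⟩ := SetLike.not_le_iff_exists.1 (nK P hP)
    have s2 := ((mT s).1 (hP.le hs).2).resolve_left fun e => s1 ⟨(hP.le hs).1, e⟩
    have sc : s • c = c := hc ⟨s, hs⟩
    have c1 : c ∉ ({a, b} : Finset α) := by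
      simp only [Finset.mem_insert, Finset.mem_singleton]
      rintro (rfl | rfl)
      exacts [ab (sc.symm.trans s2.1), ab (s2.2.symm.trans sc)]
    have k : ∀ d, d ∉ ({a, b} : Finset α) → ∃ g : N, (∀ x ∈ ({a, b} : Finset α), g • x = x) ∧ g • c = d := fun d hd => by
      obtain ⟨g, g1, rfl⟩ := exists_fix_smul_eq hG (by omega) {a, b} (by rw [Finset.card_pair ab]) c1 hd
      obtain ⟨t, ht, e⟩ := hP.conj (hP.map_cj_norm (g := g) (le_norm_inf (le_top.trans (top_le_norm_iff.2 ‹_›)) Subgroup.le_normalizer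
        ((mT g).2 (Or.inl ⟨g1 a (by simp), g1 b (by simp)⟩))))
      have f : ∀ g : G, g • c ∈ fixedPoints (P.map (cj g)) α := by
        rintro g ⟨_, q, hq, rfl⟩
        simpa [mul_smul] using hc ⟨q, hq⟩
      have e2 := un _ (hP.map_cj_mem ht) _ (f t) _ (e ▸ f g)
      rcases (mT t).1 ht.2 with ⟨e1, e3⟩ | ⟨e1, e3⟩
      · exact ⟨⟨t, ht.1⟩, by simp [e1, e3], e2⟩
      · exact ⟨⟨t * s, N.mul_mem ht.1 (hP.le hs).1⟩, by simp [mul_smul, e1, e3, s2.1, s2.2], by simp [mul_smul, sc, e2]⟩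
    refine isMultiplyPretransitive_succ_of h2 (by omega) {a, b} (Finset.card_pair ab) fun x y hx hy => ?_
    obtain ⟨g, g1, rfl⟩ := k x hx
    obtain ⟨g', g2, rfl⟩ := k y hy
    exact ⟨g' * g⁻¹, fun x hx => by rw [mul_smul, fix_inv g1 x hx, g2 x hx], by simp [mul_smul]⟩

end Cfsg.Agent.S0699
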