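import Cfsg.Statements.S0700
import Cfsg.Agent.H1.MT
import Cfsg.Agent.H3.Burnside
import Cfsg.Agent.H2.BG0
import Cfsg.Agent.H1.Misc1

set_option autoImplicit false
open Cfsg

namespace Cfsg.Agent.S0700

/-- Burnside's Theorem on doubly transitive groups: a minimal normal subgroup of a finite doubly transitive permutation group is elementary abelian and regular, or simple and primitive. -/
theorem result {α : Type*} [Fintype α] [DecidableEq α] (G : Subgroup (Equiv.Perm α)) (hG : MulAction.IsMultiplyPretransitive G α 2) (N : Subgroup G) [N.Normal] (hN : N ≠ ⊥) (hmin : ∀ M : Subgroup G, M.Normal → M ≤ N → M = ⊥ ∨ M = N) : (IsMulCommutative N ∧ (∃ p : ℕ, p.Prime ∧ ∀ n ∈ N, n ^ p = 1) ∧ ∀ a : α, MulAction.stabilizer N a = ⊥) ∨ (IsSimpleGroup N ∧ MulAction.IsPreprimitive N α) := by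
  open CfsgH2 MulAction CfsgH8 Subgroup in
  open CfsgH1 hiding card_inf_mul_relIndex card_lt_of_lt card_lt_of_ne_top card_map_mul_card_inf_ker card_mul_relIndex card_subgroupOf card_sup_dvd card_sup_mul_card_inf coprime_le_sup_cent exists_card_prime_le isNilpotent_map isNilpotent_of_le isPGroup_pCore isSolvable_map isSolvable_of_le le_pCore le_pPrimeCore relIndex_map_dvd in
  open scoped CfsgH1 in
  open scoped commutatorElement in
  · have fa : ∀ g : G, (∀ x : α, g • x = x) → g = 1 := fun g h => Subtype.ext (Equiv.ext h)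
    have tr : ∀ {a b c d : α}, a ≠ b → c ≠ d → ∃ g : G, g • a = c ∧ g • b = d := is_two_pretransitive_iff.1 hG
    haveI := isPreprimitive_of_is_two_pretransitive hG
    haveI tN := IsQuasiPreprimitive.isPretransitive_of_normal (N := N) (X := α) fun e => hN (eq_bot_iff.2 fun g hg => fa g fun b => (e.ge (Set.mem_univ b) : ∀ m : N, m • b = b) ⟨g, hg⟩)
    have cs : ∀ T : Subgroup G, IsPretransitive T α → ∀ c ∈ C[T], ∀ a : α, c • a = a → c = 1 := fun T t c hc a e => fa c fun x => by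
      obtain ⟨⟨n, hn⟩, rfl⟩ := exists_smul_eq T a x
      change c • n • a = n • a
      rw [← mul_smul, ← mem_cent_iff.1 hc n hn, mul_smul, e]
    by_cases so : Sol[N]
    · obtain ⟨p, _, V, l, v0, n, el, -⟩ := exists_min_norm (M := ⊤) so hN (top_le_norm_iff.2 ‹_›)
      obtain rfl := (hmin V (normal_of_top_le_norm n) l).resolve_left v0
      exact Or.inl ⟨el.1, ⟨p, Fact.out, el.2⟩, fun a => eq_bot_iff.2 fun g hg => Subtype.ext (cs V tN g (le_cent_self el.1 g.2) a hg)⟩
    obtain ⟨a⟩ : Nonempty α := by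
      by_contra c
      exact hN (eq_bot_iff.2 fun g _ => fa g fun x => (c ⟨x⟩).elim)
    have p3 : ∀ T : Subgroup G, ¬ Sol[T] → ∃ x ∈ T, ∃ y ∈ T, ∃ z ∈ T, x ≠ 1 ∧ y ≠ 1 ∧ z ≠ 1 ∧ orderOf x ≠ orderOf y ∧ orderOf x ≠ orderOf z ∧ orderOf y ≠ orderOf z := fun T h => by
      have k : ∀ p q : ℕ, p.Prime → q.Prime → ∃ x ∈ T, (orderOf x).Prime ∧ orderOf x ≠ p ∧ orderOf x ≠ q := fun p q hp hq => by
        by_contra! c
        refine h (isSolvable_of_piNum_pair hp hq fun r hr d => ?_)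
        haveI := Fact.mk hr
        obtain ⟨⟨x, hx⟩, o⟩ := exists_prime_orderOf_dvd_card' r d
        rw [orderOf_mk] at o
        exact or_iff_not_imp_left.2 fun n => o ▸ c x hx (o ▸ hr) (o ▸ n)
      obtain ⟨x, hx, x1, -⟩ := k 2 2 Nat.prime_two Nat.prime_two
      obtain ⟨y, hy, y1, y2, -⟩ := k _ _ x1 x1
      obtain ⟨z, hz, z1, z2, z3⟩ := k _ _ x1 y1
      exact ⟨x, hx, y, hy, z, hz, fun e => x1.ne_one (orderOf_eq_one_iff.2 e), fun e => y1.ne_one (orderOf_eq_one_iff.2 e), fun e => z1.ne_one (orderOf_eq_one_iff.2 e),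
        y2.symm, z2.symm, z3.symm⟩
    have oc : ∀ T : Subgroup G, (∀ t ∈ T, t • a = a → t = 1) → ∀ g ∈ N[T], g • a = a → ∀ x ∈ T, ∀ y ∈ T, g • x • a = y • a → orderOf x = orderOf y := fun T r g n e x hx y hy k => by
      have := r _ (mul_mem (inv_mem hy) (conj_mem_of_norm n hx)) (by rw [mul_smul, mul_smul, mul_smul, inv_smul_eq_iff.2 e.symm, k, inv_smul_smul])
      rw [inv_mul_eq_one.1 this]; exact ((MulAut.conj g).orderOf_eq x).symm
    have nr : ¬ ∀ t ∈ N, t • a = a → t = 1 := fun r => by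
      obtain ⟨x, hx, y, hy, -, -, x1, y1, -, ne, -⟩ := p3 N so
      obtain ⟨g, g1, g2⟩ := tr (a := a) (b := x • a) (c := a) (d := y • a) (fun e => x1 (r x hx e.symm)) fun e => y1 (r y hy e.symm)
      exact ne (oc N r g (top_le_norm_iff.2 ‹_› (mem_top g)) g1 x hx y hy g2)
    have pN : IsPreprimitive N α := by
      by_contra c
      obtain ⟨B, ⟨b1, b2, b3⟩, mB⟩ := Set.exists_min_image {B : Set α | (∀ g ∈ N, ∀ y ∈ B, g • y ∈ B → ∀ z ∈ B, g • z ∈ B) ∧ ¬ B.Subsingleton ∧ ¬ ∀ x, x ∈ B} Set.ncard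
        (Set.toFinite _) (by
          by_contra d
          exact c (isPreprimitive_of_block fun B h => by_contra fun k => d ⟨B, fun g hg => h ⟨g, hg⟩, not_or.1 k⟩))
      have cj' : ∀ g : G, ∀ n ∈ N, ∀ y, g • y ∈ B → g • n • y ∈ B → ∀ z, g • z ∈ B → g • n • z ∈ B := fun g n hn y h1 h2 z h3 => by
        simpa [mul_smul] using b1 _ (‹N.Normal›.conj_mem n hn g) _ h1 (by simpa [mul_smul] using h2) _ h3
      have ln : ∀ (g h : G) (x y : α), x ≠ y → g • x ∈ B → g • y ∈ B → h • x ∈ B → h • y ∈ B → ∀ z, g • z ∈ B → h • z ∈ B := fun g h x y ne h1 h2 h3 h4 z h5 => by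
        have := Set.eq_of_subset_of_ncard_le (Set.sep_subset B fun w => h • g⁻¹ • w ∈ B) (mB _ ⟨fun n hn u hu v w hw => ⟨b1 n hn u hu.1 v.1 w hw.1, by
          simpa [mul_smul] using cj' (h * g⁻¹) n hn u (by simpa [mul_smul] using hu.2) (by simpa [mul_smul] using v.2) w (by simpa [mul_smul] using hw.2)⟩,
          fun s => ne (MulAction.injective g (s ⟨h1, by simpa using h3⟩ ⟨h2, by simpa using h4⟩)), fun s => b3 fun x => (s x).1⟩)
        simpa using (this.ge h5).2
      obtain ⟨u, hu, v, hv, uv⟩ := Set.not_subsingleton_iff.1 b2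
      have off : ∀ n ∈ N, ∀ x y : α, x ≠ y → n • x = x → n • y = y → ∀ g : G, g • x ∈ B → g • y ∈ B → ∀ z, g • z ∉ B → n • z = z := fun n hn x y ne e1 e2 g h1 h2 z h3 => by_contra fun d => by
        obtain ⟨k, k1, k2⟩ := tr (a := x) (b := z) (by rintro rfl; exact h3 h1) uv
        obtain ⟨l, l1, l2⟩ := tr (a := y) (b := z) (by rintro rfl; exact h3 h2) uv
        have m1 := cj' k n hn x (k1 ▸ hu) (e1.symm ▸ k1 ▸ hu) z (k2 ▸ hv)
        have m2 := cj' l n hn y (l1 ▸ hu) (e2.symm ▸ l1 ▸ hu) z (l2 ▸ hv)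
        have := ln l k _ _ d m2 (l2 ▸ hv) m1 (k2 ▸ hv) y (l1 ▸ hu)
        exact h3 (ln k g x y ne (k1 ▸ hu) this h1 h2 z (k2 ▸ hv))
      have fr : ∀ n ∈ N, ∀ x y : α, x ≠ y → n • x = x → n • y = y → n = 1 := fun n hn x y ne e1 e2 => fa n fun z => by
        obtain ⟨g, g1, g2⟩ := tr ne uv
        have o := off n hn x y ne e1 e2 g (g1 ▸ hu) (g2 ▸ hv)
        by_cases hz : g • z ∈ B
        · obtain ⟨w, hw⟩ := not_forall.1 b3
          have hw' : g • g⁻¹ • w ∉ B := by simpa using hw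
          have xw : x ≠ g⁻¹ • w := by rintro rfl; exact hw' (g1 ▸ hu)
          obtain ⟨k, k1, k2⟩ := tr xw uv
          by_cases zx : x = z
          · exact zx ▸ e1
          exact off n hn x _ xw e1 (o _ hw') k (k1 ▸ hu) (k2 ▸ hv) z fun d => hw' (ln k g x z zx (k1 ▸ hu) d (g1 ▸ hu) hz _ (k2 ▸ hv))
        · exact o z hz
      haveI := Fintype.ofFinite N
      obtain ⟨K, k1, -, k3⟩ := CfsgH3.exists_frobenius_kernel (H := stabilizer N a) fun g hg x hx e => Subtype.ext (fr x x.2 a (g • a) (Ne.symm hg) hx (by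
        have : g⁻¹ • x • g • a = a := by simpa only [mul_smul] using mem_stabilizer_iff.1 e
        exact inv_smul_eq_iff.1 this))
      have k2 : ∀ x : N, x ∈ K ↔ x = 1 ∨ ∀ b : α, x • b ≠ b := fun x => (k1 x).trans (or_congr_right ⟨fun h b e => by
        obtain ⟨g, rfl⟩ := exists_smul_eq N a b
        exact h g (by rw [mem_stabilizer_iff, mul_smul, mul_smul, e, inv_smul_smul]), fun h g e => h (g • a) (by
          have : g⁻¹ • x • g • a = a := by simpa only [mul_smul] using mem_stabilizer_iff.1 e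
          exact inv_smul_eq_iff.1 this)⟩)
      rcases hmin (K.map N.subtype) ⟨by
        rintro _ ⟨x, hx, rfl⟩ g
        refine ⟨⟨_, ‹N.Normal›.conj_mem _ x.2 g⟩, (k2 _).2 (((k2 x).1 hx).imp (by rintro rfl; simp [Subtype.ext_iff]) fun h b e => h (g⁻¹ • b) ?_), rfl⟩
        have e' : (g * (x : G) * g⁻¹) • b = b := e
        have : g • (x : G) • g⁻¹ • b = b := by simpa only [mul_smul] using e'
        exact (inv_smul_eq_iff.2 this.symm).symm⟩ (map_subtype_le K) with e | e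
      · rw [map_eq_bot_iff_of_injective _ N.subtype_injective] at e
        subst e
        obtain ⟨n, rfl⟩ := exists_smul_eq N a u
        obtain ⟨m, rfl⟩ := exists_smul_eq N a v
        have := isComplement'_bot_left.1 k3
        exact uv ((this.ge (mem_top n) : n • a = a).trans (this.ge (mem_top m) : m • a = a).symm)
      · refine nr fun t ht d => ?_
        obtain ⟨x, hx, rfl⟩ := e.ge ht
        exact congrArg Subtype.val (((k2 x).1 hx).resolve_right fun h => h a d)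
    refine Or.inr ⟨?_, pN⟩
    obtain ⟨T, l, ⟨t0, nT⟩, mT⟩ := exists_minimal_le (fun T : Subgroup G => T ≠ ⊥ ∧ N ≤ N[T]) ⟨hN, le_normalizer⟩
    suffices T = N by
      subst this
      haveI := (nontrivial_iff_ne_bot T).2 t0
      refine ⟨fun K n => or_iff_not_imp_left.2 fun k => map_injective T.subtype_injective ?_⟩
      rw [mT _ ⟨by rwa [Ne, map_eq_bot_iff_of_injective _ T.subtype_injective], le_norm_map_subtype K⟩ (map_subtype_le K), ← MonoidHom.range_eq_map, range_subtype]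
    by_contra ne
    have nN : ∀ g : G, N.map (cj g) = N := fun g => map_cj_eq (top_le_norm_iff.2 ‹_› (mem_top g))
    have n2 : ∀ g : G, N ≤ N[T.map (cj g)] := fun g => by rw [normalizer_map_cj, ← nN g]; exact map_mono nT
    have l2 : ∀ g : G, T.map (cj g) ≤ N := fun g => nN g ▸ map_mono l
    have tT : ∀ T : Subgroup G, T ≤ N → T ≠ ⊥ → N ≤ N[T] → IsPretransitive T α := fun T l t0 n => by
      haveI := normal_subgroupOf_of_le_normalizer n
      have := IsQuasiPreprimitive.isPretransitive_of_normal (N := T.subgroupOf N) (X := α) fun e => t0 (eq_bot_iff.2 fun g hg => fa g fun b =>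
        (e.ge (Set.mem_univ b) : ∀ m : T.subgroupOf N, m • b = b) ⟨⟨g, l hg⟩, hg⟩)
      exact ⟨fun x y => let ⟨m, hm⟩ := exists_smul_eq (T.subgroupOf N) x y; ⟨⟨m.1.1, m.2⟩, hm⟩⟩
    have t1 := tT T l t0 nT
    have t2 := fun g => tT _ (l2 g) (by rwa [Ne, map_eq_bot_iff_of_injective _ (CfsgH2.cj_injective g)]) (n2 g)
    have ce : ∀ g, g ∉ N[T] → T.map (cj g) = C[T] := fun g hg => by
      have c : T.map (cj g) ≤ C[T] := le_cent_of_inf_eq_bot ((l2 g).trans nT) (l.trans (n2 g)) (by_contra fun d => hg (mem_norm_of_map_le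
        (eq_of_le_of_card_ge (inf_eq_right.1 (mT _ ⟨d, le_norm_inf (n2 g) nT⟩ inf_le_right)) (card_map_cj _ _).le).ge))
      refine le_antisymm c fun x hx => ?_
      obtain ⟨⟨y, hy⟩, e⟩ := exists_smul_eq (T.map (cj g)) a (x • a)
      exact inv_mul_eq_one.1 (cs T t1 _ (mul_mem (inv_mem (c hy)) hx) a (by rw [mul_smul, ← e]; exact inv_smul_smul y a)) ▸ hy
    obtain ⟨g, -, hg⟩ := SetLike.not_le_iff_exists.1 fun e : ⊤ ≤ N[T] => ne ((hmin T (normal_of_top_le_norm e) l).resolve_left t0)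
    have r : ∀ t ∈ T, t • a = a → t = 1 := fun t ht => cs _ (t2 g) t (le_centralizer_iff.1 (ce g hg).le ht) a
    obtain ⟨x, hx, y, hy, z, hz, x1, y1, z1, o1, o2, o3⟩ := p3 T fun s => by
      obtain ⟨p, _, V, lV, v0, n, el, -⟩ := exists_min_norm s t0 nT
      obtain rfl := mT V ⟨v0, n⟩ lV
      exact hg (mem_norm_of_map_le fun x hx => by
        obtain ⟨⟨y, hy⟩, e⟩ := exists_smul_eq V a (x • a)
        exact inv_mul_eq_one.1 (cs V t1 _ (mul_mem (inv_mem (le_cent_self el.1 hy)) ((ce g hg).le hx)) a (by rw [mul_smul, ← e]; exact inv_smul_smul y a)) ▸ hy)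
    obtain ⟨k, k1, k2⟩ := tr (a := a) (b := x • a) (c := a) (d := y • a) (fun e => x1 (r x hx e.symm)) fun e => y1 (r y hy e.symm)
    obtain ⟨m, m1, m2⟩ := tr (a := a) (b := x • a) (c := a) (d := z • a) (fun e => x1 (r x hx e.symm)) fun e => z1 (r z hz e.symm)
    have e1 := ce k⁻¹ fun n => o1 (oc T r k (inv_mem_iff.1 n) k1 x hx y hy k2)
    have e2 := ce m⁻¹ fun n => o2 (oc T r m (inv_mem_iff.1 n) m1 x hx z hz m2)
    refine o3 (oc T r (m * k⁻¹) (mem_norm_of_map_le ?_) (by rw [mul_smul, inv_smul_eq_iff.2 k1.symm, m1]) y hy z hz (by rw [mul_smul, ← k2, inv_smul_smul, m2]))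
    rw [← map_cj_cj, e1, ← e2, map_cj_cj, mul_inv_cancel]
    simp

end Cfsg.Agent.S0700
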