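import Mathlib
import Cfsg.Statements.S0701

set_option autoImplicit false
open Cfsg

namespace Cfsg.Agent.S0701


/-- The centraliser in the full symmetric group of a transitive permutation group `G` is semiregular, and it is transitive if and only if `G` is regular. -/
theorem result {α : Type*} (G : Subgroup (Equiv.Perm α)) [MulAction.IsPretransitive G α] : (∀ c ∈ Subgroup.centralizer (G : Set (Equiv.Perm α)), ∀ a : α, c a = a → c = 1) ∧ (MulAction.IsPretransitive (Subgroup.centralizer (G : Set (Equiv.Perm α))) α ↔ ∀ a : α, MulAction.stabilizer G a = ⊥) := by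
  have h1 : ∀ c ∈ Subgroup.centralizer (G : Set (Equiv.Perm α)), ∀ a : α, c a = a → c = 1 := by
    intro c hc a ha
    ext b
    obtain ⟨g, hg⟩ := MulAction.exists_smul_eq G a b
    have h2 := Subgroup.mem_centralizer_iff.mp hc g g.2
    have h3 := congrArg (fun f : Equiv.Perm α => f a) h2
    simp only [Equiv.Perm.coe_mul, Function.comp_apply, ha] at h3
    have hg' : (g : Equiv.Perm α) a = b := hg
    rw [hg'] at h3
    simp [← h3]
  refine ⟨h1, ⟨fun h a => ?_, fun h => ⟨fun a b => ?_⟩⟩⟩
  · rw [eq_bot_iff]
    intro g hg
    rw [Subgroup.mem_bot]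
    ext b
    obtain ⟨c, hc⟩ := h.exists_smul_eq a b
    have h2 := Subgroup.mem_centralizer_iff.mp c.2 g g.2
    have h3 := congrArg (fun f : Equiv.Perm α => f a) h2
    have hg' : (g : Equiv.Perm α) a = a := hg
    have hc' : (c : Equiv.Perm α) a = b := hc
    simp only [Equiv.Perm.coe_mul, Function.comp_apply, hg', hc'] at h3
    simp [h3]
  · have key : ∀ x y : α, ∀ g g' : G, g • x = g' • x → g • y = g' • y := by
      intro x y g g' hh
      have : g'⁻¹ * g ∈ MulAction.stabilizer G x := by
        simp [MulAction.mem_stabilizer_iff, mul_smul, hh]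
      rw [h x, Subgroup.mem_bot, inv_mul_eq_one] at this
      rw [this]
    choose ta hta using fun x => MulAction.exists_smul_eq G a x
    choose tb htb using fun x => MulAction.exists_smul_eq G b x
    let c : Equiv.Perm α := ⟨fun x => ta x • b, fun x => tb x • a,
      fun x => by
        have := key b a _ _ (htb (ta x • b))
        simp only [this, hta],
      fun x => by
        have := key a b _ _ (hta (tb x • a))
        simp only [this, htb]⟩
    refine ⟨⟨c, Subgroup.mem_centralizer_iff.mpr fun g hg => ?_⟩, ?_⟩
    · ext x
      have := key a b (ta ((⟨g, hg⟩ : G) • x)) (⟨g, hg⟩ * ta x) (by simp only [hta, mul_smul])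
      simp only [mul_smul] at this
      exact this.symm
    · have := key a b (ta a) 1 (by simp [hta])
      show ta a • b = b
      simpa using this

end Cfsg.Agent.S0701
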