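import Mathlib
import Cfsg.Statements.S0702
import Cfsg.Agent.H8.Basic
import Cfsg.Agent.S0701

set_option autoImplicit false
open Cfsg

namespace Cfsg.Agent.S0702

open MulAction

/-- For a transitive permutation group `G` on a finite set, the centraliser of `G` in the symmetric group is isomorphic to `N_G(G_ω)/G_ω`, and its orbit of `ω` is the set of fixed points of `G_ω`. -/
theorem result {α : Type*} [Finite α] (G : Subgroup (Equiv.Perm α)) [MulAction.IsPretransitive G α] (a : α) : Nonempty (Subgroup.centralizer (G : Set (Equiv.Perm α)) ≃* Subgroup.normalizer ((MulAction.stabilizer G a : Subgroup G) : Set G) ⧸ (MulAction.stabilizer G a).subgroupOf (Subgroup.normalizer ((MulAction.stabilizer G a : Subgroup G) : Set G))) ∧ MulAction.orbit (Subgroup.centralizer (G : Set (Equiv.Perm α))) a = MulAction.fixedPoints (MulAction.stabilizer G a) α := by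
  set C := Subgroup.centralizer (G : Set (Equiv.Perm α)) with hC
  set K := stabilizer G a with hK
  have hcomm : ∀ c ∈ C, ∀ g : G, ∀ x, c (g • x) = g • c x := by
    intro c hc g x
    have := Subgroup.mem_centralizer_iff.mp hc g g.2
    exact (congrArg (fun f : Equiv.Perm α => f x) this).symm
  choose t ht using fun x => exists_smul_eq G a x
  -- for n in the normaliser, the permutation g a ↦ g n⁻¹ a
  have key : ∀ n ∈ Subgroup.normalizer (K : Set G), ∀ g g' : G, g • a = g' • a →
      g • n • a = g' • n • a := by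
    intro n hn g g' h
    have h1 : g'⁻¹ * g ∈ K := by
      rw [hK, mem_stabilizer_iff, mul_smul, h, inv_smul_smul]
    have h2 : n⁻¹ * (g'⁻¹ * g) * n⁻¹⁻¹ ∈ K :=
      (Subgroup.mem_normalizer_iff.mp (Subgroup.inv_mem _ hn) _).mp h1
    rw [hK, mem_stabilizer_iff, inv_inv, mul_smul, mul_smul, inv_smul_eq_iff, mul_smul,
      inv_smul_eq_iff] at h2
    exact h2
  have hfun : ∀ n ∈ Subgroup.normalizer (K : Set G), ∀ m ∈ Subgroup.normalizer (K : Set G), ∀ x,
      t (t x • m • a) • n • a = t x • m • n • a := by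
    intro n hn m hm x
    have := key n hn (t (t x • m • a)) (t x * m) (by rw [ht, mul_smul])
    rwa [mul_smul] at this
  let φ : Subgroup.normalizer (K : Set G) →* C :=
    { toFun := fun n => ⟨⟨fun x => t x • (n : G)⁻¹ • a, fun x => t x • (n : G) • a,
        fun x => by simp only [hfun _ n.2 _ (Subgroup.inv_mem _ n.2), inv_smul_smul, ht],
        fun x => by simp only [hfun _ (Subgroup.inv_mem _ n.2) _ n.2, smul_inv_smul, ht]⟩,
        Subgroup.mem_centralizer_iff.mpr fun g hg => by
          ext x
          have := key _ (Subgroup.inv_mem _ n.2) (t ((⟨g, hg⟩ : G) • x)) (⟨g, hg⟩ * t x)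
            (by rw [ht, mul_smul, ht])
          rw [mul_smul] at this
          exact this.symm⟩
      map_one' := by
        ext x
        simp [ht]
      map_mul' := fun n m => by
        ext x
        show t x • ((n : G) * m)⁻¹ • a = t (t x • (m : G)⁻¹ • a) • (n : G)⁻¹ • a
        rw [hfun _ (Subgroup.inv_mem _ n.2) _ (Subgroup.inv_mem _ m.2), mul_inv_rev, mul_smul] }
  have hφa : ∀ n, (φ n : Equiv.Perm α) a = (n : G)⁻¹ • a := by
    intro n
    have := key _ (Subgroup.inv_mem _ n.2) (t a) 1 (by rw [ht, one_smul])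
    rw [one_smul] at this
    exact this
  have hsemi := (Cfsg.Agent.S0701.result G).1
  have hfixN : ∀ g : G, g • a ∈ fixedPoints K α → g ∈ Subgroup.normalizer (K : Set G) := by
    intro g hg
    apply Subgroup.inv_mem_iff _ |>.mp
    apply Subgroup.mem_normalizer_fintype
    intro k hk
    have := hg ⟨k, hk⟩
    show (g⁻¹ * k * g⁻¹⁻¹) • a = a
    rw [inv_inv, mul_smul, mul_smul, inv_smul_eq_iff]
    exact this
  have hCfix : ∀ c ∈ C, c a ∈ fixedPoints K α := by
    intro c hc k
    have h1 : (k : G) • a = a := k.2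
    show (k : G) • c a = c a
    rw [← hcomm c hc, h1]
  have hsurj : Function.Surjective φ := by
    intro c
    have hn := hfixN (t ((c : Equiv.Perm α) a)) (by rw [ht]; exact hCfix c c.2)
    refine ⟨⟨_, hn⟩⁻¹, ?_⟩
    have := hsemi ((c : Equiv.Perm α)⁻¹ * φ ⟨_, hn⟩⁻¹) (C.mul_mem (C.inv_mem c.2) (φ _).2) a (by
      rw [Equiv.Perm.mul_apply, hφa]
      simp [ht])
    rw [inv_mul_eq_one] at this
    exact Subtype.ext this.symm
  have hker : φ.ker = K.subgroupOf (Subgroup.normalizer (K : Set G)) := by
    ext n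
    rw [MonoidHom.mem_ker, Subgroup.mem_subgroupOf]
    constructor
    · intro h
      have := hφa n
      rw [h] at this
      have h2 : a = (n : G)⁻¹ • a := this
      rw [eq_inv_smul_iff] at h2
      exact h2
    · intro h
      apply Subtype.ext
      apply hsemi _ (φ n).2 a
      rw [hφa, inv_smul_eq_iff]
      exact Eq.symm h
  refine ⟨⟨((QuotientGroup.quotientKerEquivOfSurjective φ hsurj).symm.trans
    (QuotientGroup.quotientMulEquivOfEq hker))⟩, ?_⟩
  ext x
  constructor
  · rintro ⟨c, rfl⟩
    exact hCfix c c.2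
  · intro hx
    have hn := hfixN (t x) (by rw [ht]; exact hx)
    refine ⟨φ ⟨_, hn⟩⁻¹, ?_⟩
    show (φ ⟨_, hn⟩⁻¹ : Equiv.Perm α) a = x
    rw [hφa]
    simp [ht]

end Cfsg.Agent.S0702
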