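import Mathlib
import Cfsg.Statements.S0703
import Cfsg.Agent.H8.MinNormal

set_option autoImplicit false
open Cfsg

namespace Cfsg.Agent.S0703


/-- An abelian transitive minimal normal subgroup `M` of a permutation group on a finite set is self-centralising in the symmetric group, regular, elementary abelian, and is the unique minimal normal subgroup. -/
theorem result {α : Type*} [Finite α] (G : Subgroup (Equiv.Perm α)) (M : Subgroup G) [M.Normal] (hM : M ≠ ⊥) (hmin : ∀ L : Subgroup G, L.Normal → L ≤ M → L = ⊥ ∨ L = M) (hab : IsMulCommutative M) (htrans : MulAction.IsPretransitive M α) : Subgroup.centralizer ((M.map G.subtype : Subgroup (Equiv.Perm α)) : Set (Equiv.Perm α)) = M.map G.subtype ∧ (∀ a : α, MulAction.stabilizer M a = ⊥) ∧ (∃ p : ℕ, p.Prime ∧ ∀ m ∈ M, m ^ p = 1) ∧ ∀ L : Subgroup G, L.Normal → L ≠ ⊥ → (∀ L' : Subgroup G, L'.Normal → L' ≤ L → L' = ⊥ ∨ L' = L) → L = M := by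
  have hc : ∀ x ∈ M, ∀ y ∈ M, Commute x y := fun x hx y hy =>
    congrArg Subtype.val (hab.is_comm.comm ⟨x, hx⟩ ⟨y, hy⟩)
  have h1 : Subgroup.centralizer ((M.map G.subtype : Subgroup (Equiv.Perm α)) : Set (Equiv.Perm α)) = M.map G.subtype := by
    apply le_antisymm
    · intro c hcM
      rcases isEmpty_or_nonempty α with h | ⟨⟨a⟩⟩
      · rw [Subsingleton.elim c 1]; exact Subgroup.one_mem _
      obtain ⟨m, hm⟩ := htrans.exists_smul_eq a (c a)
      have hm' : ((m : G) : Equiv.Perm α) a = c a := hm
      have := CfsgH8.perm_eq_one_of_commute_of_transitive M htrans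
        (c := ((m : G) : Equiv.Perm α)⁻¹ * c) (a := a) (fun y hy => by
          refine Commute.mul_left (Commute.inv_left (congrArg Subtype.val (hc _ m.2 y hy).eq)) ?_
          exact (Subgroup.mem_centralizer_iff.mp hcM y ⟨y, hy, rfl⟩).symm)
        (by rw [Equiv.Perm.mul_apply, ← hm']; simp)
      rw [inv_mul_eq_one] at this
      exact ⟨m, m.2, this⟩
    · rintro _ ⟨x, hx, rfl⟩
      rw [Subgroup.mem_centralizer_iff]
      rintro _ ⟨y, hy, rfl⟩
      exact congrArg Subtype.val (hc y hy x hx).eq
  refine ⟨h1, fun a => ?_, CfsgH8.elementary_of_minimal_normal_comm M hM hmin hab, ?_⟩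
  · rw [eq_bot_iff]
    intro x hx
    rw [Subgroup.mem_bot]
    apply Subtype.ext; apply Subtype.ext
    exact CfsgH8.perm_eq_one_of_commute_of_transitive M htrans
      (fun y hy => congrArg Subtype.val (hc _ x.2 y hy).eq) (a := a) hx
  · intro L hL hL0 hLmin
    by_contra hne
    have := CfsgH8.commute_of_minimal_normal_ne M L hL0 hM hmin hLmin hne
    have hle : L ≤ M := by
      intro x hx
      have : (x : Equiv.Perm α) ∈ M.map G.subtype := by
        rw [← h1, Subgroup.mem_centralizer_iff]
        rintro _ ⟨y, hy, rfl⟩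
        exact congrArg Subtype.val (this x hx y hy).eq.symm
      obtain ⟨y, hy, h⟩ := this
      rwa [← Subtype.ext h]
    exact (hmin L hL hle).elim hL0 hne

end Cfsg.Agent.S0703
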