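import Mathlib
import Cfsg.Statements.S0704
import Cfsg.Agent.H8.MinNormal

set_option autoImplicit false
open Cfsg

namespace Cfsg.Agent.S0704

theorem aux {α : Type*} (G : Subgroup (Equiv.Perm α)) (M N : Subgroup G)
    (hMt : MulAction.IsPretransitive M α) (hNt : MulAction.IsPretransitive N α)
    (hc : ∀ x ∈ N, ∀ y ∈ M, Commute x y) :
    (∀ a : α, MulAction.stabilizer N a = ⊥) ∧
    Subgroup.centralizer ((M.map G.subtype : Subgroup (Equiv.Perm α)) : Set (Equiv.Perm α)) = N.map G.subtype := by
  constructor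
  · intro a
    rw [eq_bot_iff]
    intro x hx
    rw [Subgroup.mem_bot]
    apply Subtype.ext; apply Subtype.ext
    exact CfsgH8.perm_eq_one_of_commute_of_transitive M hMt
      (fun y hy => congrArg Subtype.val (hc _ x.2 y hy).eq) (a := a) hx
  · apply le_antisymm
    · intro c hcM
      rcases isEmpty_or_nonempty α with h | ⟨⟨a⟩⟩
      · rw [Subsingleton.elim c 1]; exact Subgroup.one_mem _
      obtain ⟨m, hm⟩ := hNt.exists_smul_eq a (c a)
      have hm' : ((m : G) : Equiv.Perm α) a = c a := hm
      have := CfsgH8.perm_eq_one_of_commute_of_transitive M hMt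
        (c := ((m : G) : Equiv.Perm α)⁻¹ * c) (a := a) (fun y hy => by
          refine Commute.mul_left (Commute.inv_left (congrArg Subtype.val (hc _ m.2 y hy).eq)) ?_
          exact (Subgroup.mem_centralizer_iff.mp hcM y ⟨y, hy, rfl⟩).symm)
        (by rw [Equiv.Perm.mul_apply, ← hm']; simp)
      rw [inv_mul_eq_one] at this
      exact ⟨m, m.2, this⟩
    · rintro _ ⟨x, hx, rfl⟩
      rw [Subgroup.mem_centralizer_iff]
      rintro _ ⟨y, hy, rfl⟩
      exact congrArg Subtype.val (hc x hx y hy).eq.symm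

/-- Two distinct transitive minimal normal subgroups `M`, `N` of a permutation group are regular, non-abelian, isomorphic, each other's centraliser in the symmetric group, and the only minimal normal subgroups. -/
theorem result {α : Type*} (G : Subgroup (Equiv.Perm α)) (M N : Subgroup G) [M.Normal] [N.Normal] (hM : M ≠ ⊥) (hN : N ≠ ⊥) (hMmin : ∀ L : Subgroup G, L.Normal → L ≤ M → L = ⊥ ∨ L = M) (hNmin : ∀ L : Subgroup G, L.Normal → L ≤ N → L = ⊥ ∨ L = N) (hMN : M ≠ N) (hMt : MulAction.IsPretransitive M α) (hNt : MulAction.IsPretransitive N α) : (∀ a : α, MulAction.stabilizer M a = ⊥) ∧ (∀ a : α, MulAction.stabilizer N a = ⊥) ∧ ¬ IsMulCommutative M ∧ Nonempty (M ≃* N) ∧ Subgroup.centralizer ((M.map G.subtype : Subgroup (Equiv.Perm α)) : Set (Equiv.Perm α)) = N.map G.subtype ∧ Subgroup.centralizer ((N.map G.subtype : Subgroup (Equiv.Perm α)) : Set (Equiv.Perm α)) = M.map G.subtype ∧ ∀ L : Subgroup G, L.Normal → L ≠ ⊥ → (∀ L' : Subgroup G, L'.Normal → L' ≤ L → L' = ⊥ ∨ L' = L) → L = M ∨ L = N :=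 by
  have hc := CfsgH8.commute_of_minimal_normal_ne M N hN hM hMmin hNmin hMN.symm
  have hc' : ∀ x ∈ M, ∀ y ∈ N, Commute x y := fun x hx y hy => (hc y hy x hx).symm
  obtain ⟨h1, h2⟩ := aux G M N hMt hNt hc
  obtain ⟨h3, h4⟩ := aux G N M hNt hMt hc'
  have hle : ∀ L : Subgroup G, (∀ x ∈ L, ∀ y ∈ M, Commute x y) → L ≤ N := by
    intro L hL x hx
    have : (x : Equiv.Perm α) ∈ N.map G.subtype := by
      rw [← h2, Subgroup.mem_centralizer_iff]
      rintro _ ⟨y, hy, rfl⟩
      exact congrArg Subtype.val (hL x hx y hy).eq.symm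
    obtain ⟨y, hy, h⟩ := this
    rwa [← Subtype.ext h]
  refine ⟨h3, h1, fun hab => ?_, ?_, h2, h4, fun L hL hL0 hLmin => ?_⟩
  · have := hle M fun x hx y hy => congrArg Subtype.val (hab.is_comm.comm ⟨x, hx⟩ ⟨y, hy⟩)
    exact (hNmin M inferInstance this).elim hM hMN
  · rcases isEmpty_or_nonempty α with h | ⟨⟨a⟩⟩
    · exact (hM (Subsingleton.elim _ _)).elim
    have uN : ∀ x y : N, x • a = y • a → x = y := fun x y h => by
      have : y⁻¹ * x ∈ MulAction.stabilizer N a := by
        rw [MulAction.mem_stabilizer_iff, mul_smul, h, inv_smul_smul]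
      rw [h1, Subgroup.mem_bot, inv_mul_eq_one] at this
      exact this.symm
    have uM : ∀ x y : M, x • a = y • a → x = y := fun x y h => by
      have : y⁻¹ * x ∈ MulAction.stabilizer M a := by
        rw [MulAction.mem_stabilizer_iff, mul_smul, h, inv_smul_smul]
      rw [h3, Subgroup.mem_bot, inv_mul_eq_one] at this
      exact this.symm
    choose f hf using fun m : M => hNt.exists_smul_eq a (m⁻¹ • a)
    choose g hg using fun n : N => hMt.exists_smul_eq a (n • a)
    have hcs : ∀ (m : M) (n : N) (x : α), n • m • x = m • n • x := fun m n x => by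
      show (n : G) • (m : G) • x = (m : G) • (n : G) • x
      rw [← mul_smul, ← mul_smul, (hc n n.2 m m.2).eq]
    refine ⟨{ toFun := f, invFun := fun n => (g n)⁻¹, left_inv := fun m => ?_,
              right_inv := fun n => ?_, map_mul' := fun x y => ?_ }⟩
    · rw [inv_eq_iff_eq_inv]
      apply uM
      rw [hg, hf]
    · apply uN
      rw [hf, inv_inv, hg]
    · apply uN
      rw [hf, mul_smul, hf, hcs, hf, mul_inv_rev, mul_smul]
  · by_cases hne : L = M
    · exact Or.inl hne
    · right
      have := CfsgH8.commute_of_minimal_normal_ne M L hL0 hM hMmin hLmin hne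
      exact (hNmin L hL (hle L this)).resolve_left hL0

end Cfsg.Agent.S0704
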