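import Mathlib
import Cfsg.Statements.S0705
import Cfsg.Agent.H8.Multi

set_option autoImplicit false
open scoped Pointwise
open Cfsg

namespace Cfsg.Agent.S0705


/-- A generously `k`-transitive permutation group (every `(k+1)`-subset has its full symmetric group induced by the setwise stabiliser) of degree greater than `k` is `k`-transitive, and for a `k`-subset the setwise and pointwise stabilisers have the same orbits outside it. -/
theorem result {α : Type*} [Fintype α] [DecidableEq α] (G : Subgroup (Equiv.Perm α)) {k : ℕ} (hk : k < Fintype.card α) (hgen : ∀ s : Finset α, s.card = k + 1 → ∀ σ : Equiv.Perm ↥s, ∃ g ∈ G, ∀ x : ↥s, g (x : α) = σ x) : MulAction.IsMultiplyPretransitive G α k ∧ ∀ s : Finset α, s.card = k → ∀ a b : α, a ∉ s → b ∉ s → (∃ g ∈ G, g • s = s ∧ g a = b) → ∃ g ∈ G, (∀ x ∈ s, g x = x) ∧ g a = b := by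
  have hgen' : ∀ s : Finset α, s.card = k + 1 → ∀ π : Equiv.Perm α, (∀ x ∈ s, π x ∈ s) →
      ∃ g ∈ G, ∀ x ∈ s, g x = π x := by
    intro s hs π hπ
    obtain ⟨g, hg, h⟩ := hgen s hs (π.subtypePermOfFintype (p := fun x => x ∈ s) hπ)
    exact ⟨g, hg, fun x hx => h ⟨x, hx⟩⟩
  constructor
  · apply CfsgH8.isMultiplyPretransitive_of_swap
    intro T hT a b ha hab
    obtain ⟨s, hs1, -, hs2⟩ := Finset.exists_subsuperset_card_eq (Finset.subset_univ (insert b T))
      (n := k + 1) ((Finset.card_insert_le _ _).trans (by omega)) (by simpa using hk)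
    have haS : a ∈ s := hs1 (Finset.mem_insert_of_mem ha)
    have hbS : b ∈ s := hs1 (Finset.mem_insert_self _ _)
    obtain ⟨g, hg, h⟩ := hgen' s hs2 (Equiv.swap a b) (fun x hx => by
      rw [Equiv.swap_apply_def]
      split_ifs <;> assumption)
    exact ⟨⟨g, hg⟩, fun x hx => h x (hs1 (Finset.mem_insert_of_mem hx))⟩
  · rintro s hs a b ha hb ⟨g, hg, hgs, hgab⟩
    have hmem : ∀ x, g x ∈ s ↔ x ∈ s := fun x => by
      conv_lhs => rw [← hgs]
      exact Finset.smul_mem_smul_finset_iff g
    have hfix : ∀ x ∈ s, Equiv.swap b (g⁻¹ b) x = x := fun x hx => by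
      apply Equiv.swap_apply_of_ne_of_ne
      · rintro rfl; exact hb hx
      · rintro rfl
        rw [← hmem] at hx
        exact hb (by simpa using hx)
    obtain ⟨h, hh, h'⟩ := hgen' (insert b s) (by rw [Finset.card_insert_of_notMem hb, hs])
      (g * Equiv.swap b (g⁻¹ b)) (fun x hx => by
        rcases Finset.mem_insert.mp hx with rfl | hx
        · simp
        · rw [Equiv.Perm.mul_apply, hfix x hx]
          exact Finset.mem_insert_of_mem ((hmem x).mpr hx))
    refine ⟨h⁻¹ * g, G.mul_mem (G.inv_mem hh) hg, fun x hx => ?_, ?_⟩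
    · rw [Equiv.Perm.mul_apply, Equiv.Perm.inv_eq_iff_eq, h' x (Finset.mem_insert_of_mem hx),
        Equiv.Perm.mul_apply, hfix x hx]
    · rw [Equiv.Perm.mul_apply, Equiv.Perm.inv_eq_iff_eq, h' b (Finset.mem_insert_self _ _), hgab]
      simp

end Cfsg.Agent.S0705
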