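import Mathlib
import Cfsg.Statements.S0706
import Cfsg.Agent.S0705

set_option autoImplicit false
open Cfsg

namespace Cfsg.Agent.S0706

open MulAction Finset
open scoped Pointwise

/-- In a generously `k`-transitive permutation group, for a prime `p ≤ k` and a `k`-set `Γ`, there are no `p` points outside `Γ` lying in distinct orbits of the pointwise stabiliser of `Γ` all of length prime to `p` (at most `p - 1` such orbits). -/
theorem result {α : Type*} [Fintype α] [DecidableEq α] (G : Subgroup (Equiv.Perm α)) {k : ℕ} (hk : k < Fintype.card α) (hgen : ∀ s : Finset α, s.card = k + 1 → ∀ σ : Equiv.Perm ↥s, ∃ g ∈ G, ∀ x : ↥s, g (x : α) = σ x) {p : ℕ} (hp : p.Prime) (hpk : p ≤ k) (Γ : Finset α) (hΓ : Γ.card = k) (f : Fin p → α) (hf : ∀ i, f i ∉ Γ) (hdist : ∀ i j, i ≠ j → f j ∉ MulAction.orbit (fixingSubgroup G (Γ : Set α)) (f i)) : ∃ i, p ∣ Nat.card (MulAction.orbit (fixingSubgroup G (Γ : Set α)) (f i)) := by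
  classical
  haveI : Fact p.Prime := ⟨hp⟩
  by_contra hcon
  push Not at hcon
  obtain ⟨htr, horb⟩ := Cfsg.Agent.S0705.result G hk hgen
  set H := fixingSubgroup G (Γ : Set α) with hH
  obtain ⟨C, hCΓ, hC⟩ := exists_subset_card_eq (s := Γ) (n := p) (by omega)
  let L : Subgroup G := fixingSubgroup G ((Γ \ C : Finset α) : Set α) ⊓ stabilizer G Γ
  have hL : ∀ g : G, g ∈ L ↔ (∀ x ∈ Γ, x ∉ C → g • x = x) ∧ g • Γ = Γ := by
    intro g
    simp only [L, Subgroup.mem_inf, mem_fixingSubgroup_iff, mem_stabilizer_iff, mem_coe, mem_sdiff, and_imp]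
  have hHm : ∀ g : G, g ∈ H ↔ ∀ x ∈ Γ, g • x = x := by
    intro g
    simp only [hH, mem_fixingSubgroup_iff, mem_coe]
  have hfix : ∀ g : G, (∀ x ∈ Γ, g • x ∈ Γ) → g • Γ = Γ := by
    intro g hg
    refine eq_of_subset_of_card_le ?_ (by rw [card_smul_finset])
    intro y hy
    obtain ⟨x, hx, rfl⟩ := mem_smul_finset.1 hy
    exact hg x hx
  have hHL : H ≤ L := by
    intro g hg
    rw [hHm] at hg
    exact (hL g).2 ⟨fun x hx _ => hg x hx, hfix g fun x hx => by rw [hg x hx]; exact hx⟩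
  obtain ⟨c, hc⟩ : C.Nonempty := card_pos.1 (by rw [hC]; exact hp.pos)
  have hoC : orbit L c = (C : Set α) := by
    ext y
    constructor
    · rintro ⟨g, rfl⟩
      obtain ⟨h1, h2⟩ := (hL g).1 g.2
      change (g : G) • c ∈ C
      by_contra h3
      have h4 : (g : G) • c ∈ Γ := h2 ▸ smul_mem_smul_finset (hCΓ hc)
      have h5 := h1 _ h4 h3
      rw [smul_left_cancel_iff] at h5
      exact h3 (by rw [h5]; exact hc)
    · intro hy
      have hy : y ∈ C := hy
      have ha := hf ⟨0, hp.pos⟩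
      obtain ⟨g, hg, hgx⟩ := hgen (insert (f ⟨0, hp.pos⟩) Γ) (by rw [card_insert_of_notMem ha, hΓ])
        (Equiv.swap ⟨c, mem_insert_of_mem (hCΓ hc)⟩ ⟨y, mem_insert_of_mem (hCΓ hy)⟩)
      have h1 : ∀ x ∈ Γ, x ≠ c → x ≠ y → g x = x := by
        intro x hx h1 h2
        have := hgx ⟨x, mem_insert_of_mem hx⟩
        rwa [Equiv.swap_apply_of_ne_of_ne (fun h => h1 (congrArg Subtype.val h)) (fun h => h2 (congrArg Subtype.val h))] at this
      have h2 : g c = y := (hgx ⟨c, mem_insert_of_mem (hCΓ hc)⟩).trans (by rw [Equiv.swap_apply_left])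
      have h3 : g y = c := (hgx ⟨y, mem_insert_of_mem (hCΓ hy)⟩).trans (by rw [Equiv.swap_apply_right])
      refine ⟨⟨⟨g, hg⟩, (hL _).2 ⟨fun x hx hxC => h1 x hx (fun h => hxC (h ▸ hc)) (fun h => hxC (h ▸ hy)), hfix _ fun x hx => ?_⟩⟩, h2⟩
      change g x ∈ Γ
      by_cases hxc : x = c
      · rw [hxc, h2]; exact hCΓ hy
      by_cases hxy : x = y
      · rw [hxy, h3]; exact hCΓ hc
      · rw [h1 x hx hxc hxy]; exact hx
  have hdiv : p * Nat.card H ∣ Nat.card L := by
    have h1 := Nat.card_congr (orbitProdStabilizerEquivGroup L c)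
    rw [Nat.card_prod, hoC] at h1
    have h2 : Nat.card (C : Set α) = p := by simp [hC]
    rw [← h1, h2]
    refine Nat.mul_dvd_mul_left _ ?_
    have h3 : H.subgroupOf L ≤ stabilizer L c := fun g hg => (hHm _).1 hg c (hCΓ hc)
    have h4 := Subgroup.card_dvd_of_le h3
    rwa [Nat.card_congr (Subgroup.subgroupOfEquivOfLe hHL).toEquiv] at h4
  obtain ⟨Q⟩ : Nonempty (Sylow p L) := inferInstance
  have hout : ∀ i, ∀ y ∈ orbit H (f i), y ∉ Γ := by
    rintro i _ ⟨h, rfl⟩ hy
    have h1 := (hHm _).1 h.2 _ hy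
    change (h : G) • (h : G) • f i = (h : G) • f i at h1
    rw [smul_left_cancel_iff] at h1
    change (h : G) • f i ∈ Γ at hy
    exact hf i (h1 ▸ hy)
  have hb : ∀ i, ∃ b ∈ orbit H (f i), ∀ q : (Q : Subgroup L), q • b = b := by
    intro i
    let S : SubMulAction (Q : Subgroup L) α := ⟨orbit H (f i), fun q x hx => by
      have h1 := ((hL _).1 q.1.2).2
      have h2 : ((q : L) : G) • x ∉ Γ := by
        intro h
        rw [← h1, smul_mem_smul_finset_iff] at h
        exact hout i x hx h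
      obtain ⟨g, hg, hg1, hg2⟩ := horb Γ hΓ x (((q : L) : G) • x) (hout i x hx) h2 ⟨_, q.1.1.2, h1, rfl⟩
      obtain ⟨h, rfl⟩ := hx
      refine ⟨⟨⟨g, hg⟩, (hHm _).2 hg1⟩ * h, ?_⟩
      simp only [mul_smul]
      exact hg2⟩
    obtain ⟨b, hb⟩ := Q.isPGroup'.nonempty_fixed_point_of_prime_not_dvd_card S (hcon i)
    exact ⟨b.1, b.2, fun q => congrArg Subtype.val (hb q)⟩
  choose b hb1 hb2 using hb
  have hbi : Function.Injective b := by
    intro i j h
    by_contra hij
    refine hdist i j hij ?_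
    have h1 := orbit_eq_iff.2 (hb1 i)
    have h2 := orbit_eq_iff.2 (hb1 j)
    rw [← h1, h, h2]
    exact mem_orbit_self _
  let Γ' : Finset α := (Γ \ C) ∪ univ.map ⟨b, hbi⟩
  have hΓ' : #Γ' = k := by
    rw [card_union_of_disjoint, card_sdiff_of_subset hCΓ, card_map, card_univ, Fintype.card_fin, hC, hΓ]
    · omega
    · rw [disjoint_left]
      intro x hx hx2
      obtain ⟨i, -, rfl⟩ := mem_map.1 hx2
      exact hout i _ (hb1 i) (mem_sdiff.1 hx).1
  obtain ⟨g, hg⟩ := (Set.powersetCard.isPretransitive_of_isMultiplyPretransitive G htr).exists_smul_eq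
    (⟨Γ, by simpa using hΓ⟩ : Set.powersetCard α k) ⟨Γ', by simpa using hΓ'⟩
  have hg' : g • Γ = Γ' := congrArg Subtype.val hg
  let φ : (Q : Subgroup L) →* G := (MulAut.conj g⁻¹).toMonoidHom.comp (L.subtype.comp (Q : Subgroup L).subtype)
  have hφ : ∀ q, φ q ∈ H := by
    intro q
    rw [hHm]
    intro x hx
    have h1 : g • x ∈ Γ' := hg' ▸ smul_mem_smul_finset hx
    have h2 : ((q : L) : G) • g • x = g • x := by
      rcases mem_union.1 h1 with h | h
      · exact ((hL _).1 q.1.2).1 _ (mem_sdiff.1 h).1 (mem_sdiff.1 h).2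
      · obtain ⟨i, -, hi⟩ := mem_map.1 h
        rw [← hi]
        exact hb2 i q
    change (g⁻¹ * ((q : L) : G) * g⁻¹⁻¹) • x = x
    rw [inv_inv, mul_smul, mul_smul, ← mul_smul, mul_smul, h2, inv_smul_smul]
  have hφi : Function.Injective (φ.codRestrict H hφ) := by
    intro x y h
    have h1 : φ x = φ y := congrArg Subtype.val h
    exact Subtype.ext (Subtype.ext ((MulAut.conj g⁻¹).injective h1))
  have h1 := Subgroup.card_dvd_of_injective _ hφi
  rw [Q.card_eq_multiplicity] at h1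
  have h2 : p ^ ((Nat.card L).factorization p + 1) ∣ Nat.card L := by
    rw [pow_succ']
    exact (Nat.mul_dvd_mul_left _ h1).trans hdiv
  exact Nat.pow_succ_factorization_not_dvd Nat.card_pos.ne' hp h2

end Cfsg.Agent.S0706
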