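import Mathlib
import Cfsg.Statements.S0707

set_option autoImplicit false
open Cfsg

namespace Cfsg.Agent.S0707


/-- In a primitive permutation group, distinct points have distinct stabilisers unless the group is regular of prime degree. -/
theorem result {α : Type*} (G : Subgroup (Equiv.Perm α)) [MulAction.IsPreprimitive G α] (h : ¬ (Nat.card α).Prime ∨ ∃ a : α, MulAction.stabilizer G a ≠ ⊥) {a b : α} (hab : a ≠ b) : MulAction.stabilizer G a ≠ MulAction.stabilizer G b := by
  intro hEq
  have hnt : Nontrivial α := ⟨⟨a, b, hab⟩⟩
  have hco := MulAction.IsPreprimitive.isCoatom_stabilizer_of_isPreprimitive G a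
  obtain ⟨g, hg⟩ := MulAction.exists_smul_eq G a b
  have hgn : g ∈ Subgroup.normalizer (MulAction.stabilizer G a : Set G) := by
    rw [Subgroup.mem_normalizer_iff]
    intro x
    conv_rhs => rw [hEq, ← hg]
    simp [MulAction.mem_stabilizer_iff, mul_smul]
  have hlt : MulAction.stabilizer G a < Subgroup.normalizer (MulAction.stabilizer G a : Set G) := by
    refine lt_of_le_of_ne Subgroup.le_normalizer fun h => ?_
    rw [← h] at hgn
    exact hab (by rw [← hg]; exact hgn.symm)
  have htop := hco.2 _ hlt
  have hnormal : (MulAction.stabilizer G a).Normal := Subgroup.normalizer_eq_top_iff.mp htop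
  have hall : ∀ c : α, MulAction.stabilizer G c = ⊥ := by
    have hsame : ∀ c : α, MulAction.stabilizer G c = MulAction.stabilizer G a := by
      intro c
      obtain ⟨k, rfl⟩ := MulAction.exists_smul_eq G a c
      ext x
      constructor
      · intro hx
        have : k⁻¹ * x * k ∈ MulAction.stabilizer G a := by
          have hx' : x • k • a = k • a := hx
          simp [MulAction.mem_stabilizer_iff, mul_smul, hx']
        have := hnormal.conj_mem _ this k
        simpa [mul_assoc] using this
      · intro hx
        have : k⁻¹ * x * k⁻¹⁻¹ ∈ MulAction.stabilizer G a := hnormal.conj_mem _ hx k⁻¹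
        rw [MulAction.mem_stabilizer_iff, mul_smul, mul_smul, inv_smul_eq_iff, inv_inv] at this
        exact this
    intro c
    rw [eq_bot_iff]
    intro x hx
    rw [Subgroup.mem_bot]
    ext y
    have : x ∈ MulAction.stabilizer G y := by rw [hsame y, ← hsame c]; exact hx
    exact this
  rcases h with h | ⟨c, hc⟩
  · apply h
    rw [hall a] at hco
    have hso : IsSimpleOrder (Subgroup G) := by
      have : Nontrivial (Subgroup G) := ⟨⟨⊥, ⊤, hco.1⟩⟩
      refine ⟨fun H => ?_⟩
      rcases eq_or_ne H ⊥ with h | h
      · exact Or.inl h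
      · exact Or.inr (hco.2 _ (bot_lt_iff_ne_bot.mpr h))
    have hcard : Nat.card α = Nat.card G := by
      rw [← MulAction.index_stabilizer_of_transitive G a, hall a, Subgroup.index_bot]
    rw [hcard]
    have hcyc : IsCyclic G := by
      have : Nontrivial G := (Subgroup.nontrivial_iff (G := G)).mp inferInstance
      obtain ⟨x, hx⟩ := exists_ne (1 : G)
      refine ⟨⟨x, fun y => ?_⟩⟩
      have : Subgroup.zpowers x = ⊤ := (eq_bot_or_eq_top _).resolve_left (by simpa using hx)
      have hy : y ∈ Subgroup.zpowers x := this ▸ Subgroup.mem_top y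
      exact hy
    letI : CommGroup G := IsCyclic.commGroup
    have : IsSimpleGroup G := by
      have : Nontrivial G := (Subgroup.nontrivial_iff (G := G)).mp inferInstance
      exact ⟨fun H _ => eq_bot_or_eq_top H⟩
    exact IsSimpleGroup.prime_card
  · exact hc (hall c)

end Cfsg.Agent.S0707
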