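import Cfsg.Statements.S4301
import Cfsg.Agent.H3.Hv1

set_option autoImplicit false
open Cfsg

namespace Cfsg.Agent.S4301
theorem ext1 {α : Type*} (G : Subgroup (Equiv.Perm α)) (h g : Equiv.Perm α) (o x y : α) (hfix : ∀ f ∈ G, f o = o)
    (hg : g ∈ G) (ho : h o = x) (xo : x ≠ o) (h4 : g x = y)
    (t2 : ∀ f ∈ G, f x ≠ x → ∃ a ∈ G, a x = x ∧ a y = f x)
    (h6 : (g * h) ^ 3 ∈ G) (h7 : h ^ 2 ∈ G) (h8 : ∀ f ∈ G, f x = x → h * f * h ∈ G) :
    ∀ f ∈ Subgroup.closure ((G : Set (Equiv.Perm α)) ∪ {h}), f o = o → f ∈ G := by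
  have A : ∀ f ∈ G, h * f * h ∈ G ∨ ∃ a ∈ G, ∃ b ∈ G, h * f * h = a * h * b := by
    intro f hf
    by_cases e : f x = x
    · exact .inl (h8 f hf e)
    obtain ⟨a, ha, ax, ay⟩ := t2 f hf e
    have hb : g⁻¹ * a⁻¹ * f ∈ G := mul_mem (mul_mem (inv_mem hg) (inv_mem ha)) hf
    have bx : (g⁻¹ * a⁻¹ * f) x = x := by
      simp only [Equiv.Perm.mul_apply, ← ay]; rw [← h4]; simp
    refine .inr ⟨h * a * h * (h ^ 2)⁻¹ * g⁻¹ * (g * h) ^ 3 * (h ^ 2)⁻¹,
      mul_mem (mul_mem (mul_mem (mul_mem (h8 a ha ax) (inv_mem h7)) (inv_mem hg)) h6) (inv_mem h7),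
      g⁻¹ * (h ^ 2)⁻¹ * (h * (g⁻¹ * a⁻¹ * f) * h),
      mul_mem (mul_mem (inv_mem hg) (inv_mem h7)) (h8 _ hb bx), ?_⟩
    simp only [pow_succ, pow_zero]; group
  have B : ∀ f ∈ Subgroup.closure ((G : Set (Equiv.Perm α)) ∪ {h}), f ∈ G ∨ ∃ a ∈ G, ∃ b ∈ G, f = a * h * b := by
    have m1 : ∀ u ∈ G, ∀ f, (f ∈ G ∨ ∃ a ∈ G, ∃ b ∈ G, f = a * h * b) →
        (u * f ∈ G ∨ ∃ a ∈ G, ∃ b ∈ G, u * f = a * h * b) := by
      rintro u hu f (hf | ⟨a, ha, b, hb, rfl⟩)
      · exact .inl (mul_mem hu hf)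
      · exact .inr ⟨u * a, mul_mem hu ha, b, hb, by group⟩
    have m2 : ∀ f, (f ∈ G ∨ ∃ a ∈ G, ∃ b ∈ G, f = a * h * b) →
        (h * f ∈ G ∨ ∃ a ∈ G, ∃ b ∈ G, h * f = a * h * b) := by
      rintro f (hf | ⟨a, ha, b, hb, rfl⟩)
      · exact .inr ⟨1, one_mem _, f, hf, by group⟩
      · rcases A a ha with e | ⟨c, hc, d, hd, e⟩
        · exact .inl (by simpa [mul_assoc] using mul_mem e hb)
        · exact .inr ⟨c, hc, d * b, mul_mem hd hb, by rw [← mul_assoc, ← mul_assoc, e]; group⟩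
    intro f hf
    induction hf using Subgroup.closure_induction_left with
    | one => exact .inl (one_mem _)
    | mul_left u hu f _ ih =>
      rcases hu with hu | rfl
      · exact m1 u hu f ih
      · exact m2 f ih
    | inv_mul_cancel u hu f _ ih =>
      rcases hu with hu | rfl
      · exact m1 _ (inv_mem hu) f ih
      · have := m1 _ (inv_mem h7) _ (m2 f ih)
        rwa [show (u ^ 2)⁻¹ * (u * f) = u⁻¹ * f by rw [sq]; group] at this
  intro f hf e
  rcases B f hf with hf | ⟨a, ha, b, hb, rfl⟩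
  · exact hf
  · simp only [Equiv.Perm.mul_apply, hfix b hb, ho] at e
    exact absurd (a.injective (e.trans (hfix a ha).symm)) xo

/-- One-point extension of a multiply transitive group. Let X be a set and G a group of permutations of Option X (the set X with one extra point ∗ = none) all of whose elements fix ∗, such that G is k-transitive on the points of X for some k ≥ 2, X having at least k points. Suppose a permutation h of Option X and an element g of G satisfy: h interchanges ∗ with a point x of X and fixes a point y of X; g interchanges x and y; (g h)³ and h² lie in G; and for every f in G fixing x, the product h f h lies in G and fixes x. Then an element of the group generated by G and h fixes ∗ exactly when it lies in G, and that group acts (k+1)-transitively on Option X. -/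
theorem result {X : Type*} (G : Subgroup (Equiv.Perm (Option X))) (hfix : ∀ f ∈ G, f none = none)
    (k : ℕ) (hk : 2 ≤ k) (hkX : Nonempty (Fin k ↪ X))
    (htrans : ∀ a b : Fin k ↪ X, ∃ f ∈ G, ∀ i, f (some (a i)) = some (b i))
    (h g : Equiv.Perm (Option X)) (hg : g ∈ G) (x y : X)
    (h1 : h none = some x) (h2 : h (some x) = none) (h3 : h (some y) = some y)
    (h4 : g (some x) = some y) (h5 : g (some y) = some x)
    (h6 : (g * h) ^ 3 ∈ G) (h7 : h ^ 2 ∈ G)
    (h8 : ∀ f ∈ G, f (some x) = some x → h * f * h ∈ G ∧ (h * f * h) (some x) = some x) :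
    (∀ f ∈ Subgroup.closure ((G : Set (Equiv.Perm (Option X))) ∪ {h}), f none = none ↔ f ∈ G) ∧
      MulAction.IsMultiplyPretransitive (Subgroup.closure ((G : Set (Equiv.Perm (Option X))) ∪ {h})) (Option X) (k + 1) := by
  classical
  obtain ⟨e⟩ := hkX
  have xy : x ≠ y := by rintro rfl; rw [h2] at h3; cases h3
  have ex : ∀ u v : X, u ≠ v → ∃ a : Fin k ↪ X, a ⟨0, by omega⟩ = u ∧ a ⟨1, by omega⟩ = v := by
    intro u v uv
    have n01 : e ⟨0, by omega⟩ ≠ e ⟨1, by omega⟩ := fun h => by simpa using e.injective h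
    set σ := Equiv.swap (e ⟨0, by omega⟩) u with hσ
    have : σ (e ⟨1, by omega⟩) ≠ u := fun h => n01 (σ.injective (by rw [h, hσ, Equiv.swap_apply_left]))
    refine ⟨e.trans (σ.trans (Equiv.swap (σ (e ⟨1, by omega⟩)) v)).toEmbedding, ?_, by simp⟩
    simp only [Function.Embedding.trans_apply, Equiv.coe_toEmbedding, Equiv.trans_apply]
    rw [show σ (e ⟨0, by omega⟩) = u by rw [hσ, Equiv.swap_apply_left]]
    exact Equiv.swap_apply_of_ne_of_ne this.symm uv
  have t2 : ∀ u v u' v' : X, u ≠ v → u' ≠ v' → ∃ f ∈ G, f (some u) = some u' ∧ f (some v) = some v' := by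
    intro u v u' v' n n'
    obtain ⟨a, rfl, rfl⟩ := ex u v n
    obtain ⟨b, rfl, rfl⟩ := ex u' v' n'
    obtain ⟨f, hf, e⟩ := htrans a b
    exact ⟨f, hf, e _, e _⟩
  have GK : ∀ f ∈ G, f ∈ Subgroup.closure ((G : Set (Equiv.Perm (Option X))) ∪ {h}) :=
    fun f hf => Subgroup.subset_closure (.inl hf)
  refine ⟨fun f hf => ⟨ext1 G h g none (some x) (some y) hfix hg h1 (by simp) h4 (fun f hf n => ?_) h6 h7
    (fun f hf e => (h8 f hf e).1) f hf, hfix f⟩, ?_⟩
  · have : f (some x) ≠ none := fun e => by simpa using f.injective (e.trans (hfix f hf).symm)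
    obtain ⟨z, hz⟩ := Option.ne_none_iff_exists'.1 this
    rw [hz] at n ⊢
    exact t2 x y x z xy fun e => n (by rw [e])
  have T : ∀ a : Fin (k + 1) ↪ Option X, ∃ f ∈ Subgroup.closure ((G : Set (Equiv.Perm (Option X))) ∪ {h}),
      f (a 0) = none ∧ ∀ i : Fin k, f (a i.succ) = some (e i) := by
    intro a
    obtain ⟨u, hu, u0⟩ : ∃ u ∈ Subgroup.closure ((G : Set (Equiv.Perm (Option X))) ∪ {h}), u (a 0) = none := by
      rcases h0 : a 0 with _ | z
      · exact ⟨1, one_mem _, rfl⟩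
      · obtain ⟨f, hf, e⟩ : ∃ f ∈ G, f (some z) = some x := by
          by_cases zx : z = x
          · exact ⟨1, one_mem _, by simp [zx]⟩
          · obtain ⟨f, hf, e, -⟩ := t2 z x x y zx xy
            exact ⟨f, hf, e⟩
        exact ⟨h * f, mul_mem (Subgroup.subset_closure (.inr rfl)) (GK f hf), by simp [e, h2]⟩
    have : ∀ i : Fin k, ∃ z, u (a i.succ) = some z := fun i => Option.ne_none_iff_exists'.1 fun e =>
      Fin.succ_ne_zero i (a.injective (u.injective (e.trans u0.symm)))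
    choose c hc using this
    obtain ⟨f, hf, fe⟩ := htrans ⟨c, fun i j e => Fin.succ_injective _
      (a.injective (u.injective (by rw [hc, hc, e])))⟩ e
    exact ⟨f * u, mul_mem (GK f hf) hu, by simp [u0, hfix f hf], fun i => by rw [Equiv.Perm.mul_apply, hc]; exact fe i⟩
  refine ⟨fun a b => ?_⟩
  obtain ⟨f, hf, f0, f1⟩ := T a
  obtain ⟨f', hf', f0', f1'⟩ := T b
  refine ⟨⟨f'⁻¹ * f, mul_mem (inv_mem hf') hf⟩, ?_⟩
  ext1 i
  show f'⁻¹ (f (a i)) = b i
  rw [Equiv.Perm.inv_eq_iff_eq]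
  induction i using Fin.cases with
  | zero => rw [f0, f0']
  | succ i => rw [f1, f1']


end Cfsg.Agent.S4301
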