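import Cfsg.Statements.S0709
import Cfsg.Agent.H3.Hv1
import Cfsg.Agent.S4301

set_option autoImplicit false
open Cfsg

namespace Cfsg.Agent.S0709
open Cfsg.Agent.S4301 Subgroup

/-- Witt's Lemma for constructing transitive extensions. Points `q 1, …, q t` (`t ≥ 2`) of a finite set are given; `G` fixes `q i` for `i ≥ 3` and is doubly transitive on the remaining points; `s 1 ∈ G` swaps `q 1, q 2`; for `2 ≤ i ≤ t-1`, `s i` swaps `q i, q (i+1)` and fixes the other `q j`; with `H` the stabiliser of `q 1, q 2` in `G`: `s i ^ 2 ∈ H`, `(s i * s (i+1)) ^ 3 ∈ H`, `(s i * s j) ^ 2 ∈ H` for `j ≥ i + 2`, and `s i` (`i ≥ 2`) normalises the stabiliser of `q 2` in `G`. Then `G` and the `s i` generate a `t`-transitive group whose pointwise stabiliser of the `q`'s is `H`. -/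
theorem result {α : Type*} [Fintype α] [DecidableEq α] (t : ℕ) (ht : 2 ≤ t) (q : ℕ → α) (hq : ∀ i j : ℕ, 1 ≤ i → i ≤ t → 1 ≤ j → j ≤ t → q i = q j → i = j) (G : Subgroup (Equiv.Perm α)) (hfix : ∀ g ∈ G, ∀ i : ℕ, 3 ≤ i → i ≤ t → g (q i) = q i) (h2 : ∀ a b c d : α, (∀ i, 3 ≤ i → i ≤ t → a ≠ q i ∧ b ≠ q i ∧ c ≠ q i ∧ d ≠ q i) → a ≠ b → c ≠ d → ∃ g ∈ G, g a = c ∧ g b = d) (s : ℕ → Equiv.Perm α) (hs1 : s 1 ∈ G) (hs1q : s 1 (q 1) = q 2 ∧ s 1 (q 2) = q 1) (hsq : ∀ i : ℕ, 2 ≤ i → i + 1 ≤ t → s i (q i) = q (i + 1) ∧ s i (q (i + 1)) = q i ∧ ∀ j : ℕ, 1 ≤ j → j ≤ t → j ≠ i → j ≠ i + 1 → s i (q j) = q j) (H : Subgroup (Equiv.Perm α)) (hH : H = G ⊓ MulAction.stabilizer (Equiv.Perm α) (q 1) ⊓ MulAction.stabilizer (Equiv.Perm α) (q 2)) (hsq2 : ∀ i : ℕ, 1 ≤ i → i + 1 ≤ t → s i ^ 2 ∈ H) (hbraid : ∀ i : ℕ, 1 ≤ i → i + 2 ≤ t → (s i * s (i + 1)) ^ 3 ∈ H) (hcomm : ∀ i j : ℕ, 1 ≤ i → i + 2 ≤ j → j + 1 ≤ t → (s i * s j) ^ 2 ∈ H ∧ (s j * s i) ^ 2 ∈ H) (hnorm : ∀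 i : ℕ, 2 ≤ i → i + 1 ≤ t → ∀ g ∈ G ⊓ MulAction.stabilizer (Equiv.Perm α) (q 2), s i * g * (s i)⁻¹ ∈ G ⊓ MulAction.stabilizer (Equiv.Perm α) (q 2)) : MulAction.IsMultiplyPretransitive ↥(Subgroup.closure ((G : Set (Equiv.Perm α)) ∪ {x | ∃ i : ℕ, 2 ≤ i ∧ i + 1 ≤ t ∧ x = s i})) α t ∧ Subgroup.closure ((G : Set (Equiv.Perm α)) ∪ {x | ∃ i : ℕ, 2 ≤ i ∧ i + 1 ≤ t ∧ x = s i}) ⊓ fixingSubgroup (Equiv.Perm α) {x | ∃ i : ℕ, 1 ≤ i ∧ i ≤ t ∧ x = q i} = H := by
  set G1 := G ⊓ MulAction.stabilizer (Equiv.Perm α) (q 2) with hG1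
  have mG1 : ∀ f, f ∈ G1 ↔ f ∈ G ∧ f (q 2) = q 2 := fun f => Iff.rfl
  have mH : ∀ f, f ∈ H ↔ (f ∈ G ∧ f (q 1) = q 1) ∧ f (q 2) = q 2 := fun f => by rw [hH]; rfl
  have HG1 : H ≤ G1 := fun f hf => ⟨((mH f).1 hf).1.1, ((mH f).1 hf).2⟩
  let K : ℕ → Subgroup (Equiv.Perm α) := fun i => closure ((G1 : Set (Equiv.Perm α)) ∪ {x | ∃ j, 1 ≤ j ∧ j + 1 ≤ i ∧ x = s j})
  have G1K : ∀ i, G1 ≤ K i := fun i f hf => subset_closure (.inl hf)
  have sK : ∀ i j, 1 ≤ j → j + 1 ≤ i → s j ∈ K i := fun i j a b => subset_closure (.inr ⟨j, a, b, rfl⟩)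
  have mono : ∀ i j, i ≤ j → K i ≤ K j := fun i j ij => closure_mono (Set.union_subset_union_right _
    fun x ⟨l, a, b, e⟩ => ⟨l, a, by omega, e⟩)
  have K1 : K 1 = G1 := le_antisymm ((closure_le _).2 fun x hx => hx.elim id fun ⟨l, a, b, _⟩ => by omega) (G1K 1)
  have qne : ∀ i j, 1 ≤ i → i ≤ t → 1 ≤ j → j ≤ t → i ≠ j → q i ≠ q j := fun i j a b c d n e => n (hq i j a b c d e)
  have sw : ∀ i, 1 ≤ i → i + 1 ≤ t → s i (q i) = q (i + 1) ∧ s i (q (i + 1)) = q i ∧
      ∀ l, i + 1 < l → l ≤ t → s i (q l) = q l := by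
    intro i a b
    rcases a.eq_or_lt with rfl | a
    · exact ⟨hs1q.1, hs1q.2, fun l c d => hfix _ hs1 l c d⟩
    · exact ⟨(hsq i a b).1, (hsq i a b).2.1, fun l c d => (hsq i a b).2.2 l (by omega) d (by omega) (by omega)⟩
  have F : ∀ i, 1 ≤ i → ∀ f ∈ K i, ∀ l, i < l → l ≤ t → f (q l) = q l := by
    intro i hi f hf l a b
    refine (closure_le (MulAction.stabilizer (Equiv.Perm α) (q l))).2 ?_ hf
    rintro x (hx | ⟨j, c, d, rfl⟩)
    · rcases (show 2 ≤ l by omega).eq_or_lt with rfl | e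
      · exact hx.2
      · exact hfix x hx.1 l e b
    · exact (sw j c (by omega)).2.2 l (by omega) b
  have P : ∀ i, 1 ≤ i → i ≤ t → ∀ z, (∀ l, i < l → l ≤ t → z ≠ q l) → ∃ f ∈ K i, f z = q i := by
    intro i hi
    induction i, hi using Nat.le_induction with
    | base =>
      intro _ z hz
      obtain ⟨g, hg, e1, e2⟩ := h2 z (q 2) (q 1) (q 2) (fun l a b => ⟨hz l (by omega) b,
        qne _ _ (by omega) ht (by omega) b (by omega), qne _ _ (by omega) (by omega) (by omega) b (by omega),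
        qne _ _ (by omega) ht (by omega) b (by omega)⟩) (hz 2 (by omega) ht)
        (qne _ _ (by omega) (by omega) (by omega) ht (by omega))
      exact ⟨g, G1K 1 ⟨hg, e2⟩, e1⟩
    | succ i hi ih =>
      intro it z hz
      by_cases e : z = q (i + 1)
      · exact ⟨1, one_mem _, e⟩
      obtain ⟨f, hf, fz⟩ := ih (by omega) z fun l a b => by
        rcases (show i + 1 ≤ l from a).eq_or_lt with rfl | c
        · exact e
        · exact hz l c b
      exact ⟨s i * f, mul_mem (sK _ _ hi le_rfl) (mono _ _ (by omega) hf), by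
        rw [Equiv.Perm.mul_apply, fz, (sw i hi it).1]⟩
  have T : ∀ i, 1 ≤ i → i ≤ t → ∀ a : ℕ → α, (∀ j l, 1 ≤ j → j < l → l ≤ i → a j ≠ a l) →
      (∀ j, 1 ≤ j → j ≤ i → ∀ l, i < l → l ≤ t → a j ≠ q l) → ∃ f ∈ K i, ∀ j, 1 ≤ j → j ≤ i → f (a j) = q j := by
    intro i hi
    induction i, hi using Nat.le_induction with
    | base =>
      intro h1 a _ h
      obtain ⟨f, hf, e⟩ := P 1 le_rfl h1 (a 1) (h 1 le_rfl le_rfl)
      exact ⟨f, hf, fun j b c => by rwa [show j = 1 by omega]⟩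
    | succ i hi ih =>
      intro it a inj h
      obtain ⟨u, hu, e⟩ := P (i + 1) (by omega) it (a (i + 1)) (h _ (by omega) le_rfl)
      obtain ⟨f, hf, e'⟩ := ih (by omega) (fun j => u (a j))
        (fun j l b c d x => inj j l b c (by omega) (u.injective x)) fun j b c l d d' x => by
          rcases (show i + 1 ≤ l from d).eq_or_lt with rfl | d
          · exact inj j (i + 1) b (by omega) le_rfl (u.injective (x.trans e.symm))
          · exact h j b (by omega) l d d' (u.injective (x.trans (F _ (by omega) u hu l d d').symm))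
      refine ⟨f * u, mul_mem (mono _ _ (by omega) hf) hu, fun j b c => ?_⟩
      rcases c.eq_or_lt with rfl | c
      · rw [Equiv.Perm.mul_apply, e, F i hi f hf _ (by omega) it]
      · exact e' j b (by omega)
  have K2 : K 2 = G := by
    refine le_antisymm ((closure_le _).2 fun x hx => hx.elim (fun h => h.1) fun ⟨l, a, b, e⟩ => ?_) fun f hf => ?_
    · rw [e, show l = 1 by omega]; exact hs1
    by_cases e : f (q 2) = q 2
    · exact G1K 2 ⟨hf, e⟩
    obtain ⟨a, ha, e1⟩ := P 1 le_rfl (by omega) (f (q 2)) fun l b c x => by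
      rcases (show 2 ≤ l from b).eq_or_lt with rfl | b
      · exact e x
      · exact qne 2 l (by omega) ht (by omega) c (by omega) (f.injective (x.trans (hfix f hf l b c).symm))
    have ha' := K1 ▸ ha
    have : s 1 * a * f ∈ G1 := ⟨mul_mem (mul_mem hs1 ha'.1) hf, by
      show s 1 (a (f (q 2))) = q 2
      rw [e1, hs1q.1]⟩
    have := mul_mem (inv_mem (mul_mem (sK 2 1 le_rfl le_rfl) (G1K 2 ha'))) (G1K 2 this)
    rwa [inv_mul_cancel_left] at this
  have Ks : ∀ i, 1 ≤ i → K (i + 1) ≤ closure ((K i : Set (Equiv.Perm α)) ∪ {s i}) := by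
    intro i hi
    refine (closure_le _).2 ?_
    rintro x (hx | ⟨j, a, b, rfl⟩)
    · exact subset_closure (.inl (G1K i hx))
    · rcases b.eq_or_lt with b | b
      · rw [show j = i by omega]; exact subset_closure (.inr rfl)
      · exact subset_closure (.inl (sK i j a (by omega)))
  have S : ∀ i, 1 ≤ i → i + 1 ≤ t → ∀ f ∈ K (i + 1), f (q (i + 1)) = q (i + 1) → f ∈ K i := by
    intro i hi
    induction i, hi using Nat.le_induction with
    | base => exact fun _ f hf e => G1K 1 ⟨K2 ▸ hf, e⟩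
    | succ i hi ih =>
      intro it f hf
      have HK : ∀ j, H ≤ K j := fun j => HG1.trans (G1K j)
      refine ext1 (K (i + 1)) (s (i + 1)) (s i) _ (q (i + 1)) (q i) (fun f hf => F _ (by omega) f hf _ (by omega) it)
        (sK _ _ hi le_rfl) (sw _ (by omega) it).2.1
        (qne _ _ (by omega) (by omega) (by omega) it (by omega)) ?_ (fun f hf n => ?_) ?_
        (HK _ (hsq2 _ (by omega) it)) (fun f hf e => ?_) f (Ks _ (by omega) hf)
      · exact (sw i hi (by omega)).2.1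
      · obtain ⟨a, ha, e⟩ := P i hi (by omega) (f (q (i + 1))) fun l b c x => by
          rcases (show i + 1 ≤ l from b).eq_or_lt with rfl | b
          · exact n x
          · exact qne (i + 1) l (by omega) (by omega) (by omega) c (by omega)
              (f.injective (x.trans (F _ (by omega) f hf l b c).symm))
        refine ⟨a⁻¹, inv_mem (mono _ _ (by omega) ha), ?_, ?_⟩
        · rw [Equiv.Perm.inv_eq_iff_eq, F i hi a ha _ (by omega) (by omega)]
        · rw [Equiv.Perm.inv_eq_iff_eq, e]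
      · exact HK _ (hbraid i hi it)
      · have hf' := ih (by omega) f hf e
        have c : ∀ f ∈ K i, s (i + 1) * f * (s (i + 1))⁻¹ ∈ K i := by
          intro f hf
          refine (closure_le ((K i).comap (MulAut.conj (s (i + 1))).toMonoidHom)).2 ?_ hf
          rintro x (hx | ⟨j, a, b, rfl⟩)
          · exact G1K i (hnorm (i + 1) (by omega) it x hx)
          · have := mul_mem (mul_mem (HK i (hcomm j (i + 1) a (by omega) it).2) (inv_mem (sK i j a b)))
              (inv_mem (HK i (hsq2 (i + 1) (by omega) it)))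
            show s (i + 1) * s j * (s (i + 1))⁻¹ ∈ K i
            convert this using 1
            simp only [sq]; group
        have := mul_mem (mono _ _ (Nat.le_succ i) (c f hf')) (HK _ (hsq2 (i + 1) (by omega) it))
        convert this using 1
        simp only [sq]; group
  have Kt : closure ((G : Set (Equiv.Perm α)) ∪ {x | ∃ i : ℕ, 2 ≤ i ∧ i + 1 ≤ t ∧ x = s i}) = K t := by
    refine le_antisymm ((closure_le _).2 ?_) ((closure_le _).2 ?_)
    · rintro x (hx | ⟨j, a, b, rfl⟩)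
      · exact mono 2 t ht (K2.symm ▸ hx)
      · exact sK _ _ (by omega) b
    · rintro x (hx | ⟨j, a, b, rfl⟩)
      · exact subset_closure (.inl hx.1)
      · rcases a.eq_or_lt with rfl | a
        · exact subset_closure (.inl hs1)
        · exact subset_closure (.inr ⟨j, a, b, rfl⟩)
  rw [Kt]
  constructor
  · have T' : ∀ a : Fin t ↪ α, ∃ f ∈ K t, ∀ j : Fin t, f (a j) = q (j + 1) := by
      intro a
      obtain ⟨f, hf, e⟩ := T t (by omega) le_rfl (fun j => if h : j - 1 < t then a ⟨j - 1, h⟩ else q 0)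
        (fun j l b c d => by
          simp only [dif_pos (show j - 1 < t by omega), dif_pos (show l - 1 < t by omega)]
          exact fun x => by have := congrArg Fin.val (a.injective x); simp at this; omega)
        (fun j b c l d d' => by omega)
      exact ⟨f, hf, fun j => by simpa using e (j + 1) (by omega) j.2⟩
    refine ⟨fun a b => ?_⟩
    obtain ⟨f, hf, f0⟩ := T' a
    obtain ⟨f', hf', f0'⟩ := T' b
    refine ⟨⟨f'⁻¹ * f, mul_mem (inv_mem hf') hf⟩, ?_⟩
    ext1 i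
    show f'⁻¹ (f (a i)) = b i
    rw [Equiv.Perm.inv_eq_iff_eq, f0, f0']
  · ext f
    rw [mem_inf, mem_fixingSubgroup_iff]
    constructor
    · rintro ⟨hf, e⟩
      have e' : ∀ i, 1 ≤ i → i ≤ t → f (q i) = q i := fun i a b => e _ ⟨i, a, b, rfl⟩
      have : ∀ n, n + 1 ≤ t → f ∈ K (t - n) := by
        intro n
        induction n with
        | zero => exact fun _ => hf
        | succ n ih =>
          intro h
          have := ih (by omega)
          rw [show t - n = t - (n + 1) + 1 by omega] at this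
          exact S _ (by omega) (by omega) f this (e' _ (by omega) (by omega))
      have := this (t - 1) (by omega)
      rw [show t - (t - 1) = 1 by omega, K1] at this
      exact (mH f).2 ⟨⟨this.1, e' 1 le_rfl (by omega)⟩, this.2⟩
    · intro hf
      refine ⟨G1K t (HG1 hf), ?_⟩
      rintro _ ⟨i, a, b, rfl⟩
      rcases a.eq_or_lt with rfl | a
      · exact ((mH f).1 hf).1.2
      · exact F 1 le_rfl f (G1K 1 (HG1 hf)) i a b


end Cfsg.Agent.S0709
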