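import Mathlib
import Cfsg.Statements.S0711
import Cfsg.Agent.H8.Jordan

set_option autoImplicit false
open Cfsg

namespace Cfsg.Agent.S0711

open Equiv Equiv.Perm

theorem supp_bound {α : Type*} [Fintype α] [DecidableEq α] (g u : Perm α) (S I : Finset α)
    (hS : S ⊆ g.support) (hu : ∀ x ∈ S, u x = x) (hI : I ⊆ g.support)
    (hI' : ∀ x ∈ I, u⁻¹ x ∈ g.support) :
    (g⁻¹ * (u * g * u⁻¹)).support.card + (S.filter fun x => g x ∈ S).card + I.card ≤
      2 * g.support.card := by
  have h1 : (g⁻¹ * (u * g * u⁻¹)).support ∪ (S.filter fun x => g x ∈ S) ⊆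
      g.support ∪ (u * g * u⁻¹).support := by
    apply Finset.union_subset
    · simpa using support_mul_le g⁻¹ (u * g * u⁻¹)
    · exact (Finset.filter_subset _ _).trans (hS.trans Finset.subset_union_left)
  have h2 : Disjoint (g⁻¹ * (u * g * u⁻¹)).support (S.filter fun x => g x ∈ S) := by
    rw [Finset.disjoint_right]
    intro x hx
    rw [Finset.mem_filter] at hx
    have : u⁻¹ x = x := by rw [Perm.inv_eq_iff_eq, hu x hx.1]
    simp only [mem_support, mul_apply, this, hu _ hx.2]
    simp
  have h3 : I ⊆ g.support ∩ (u * g * u⁻¹).support := by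
    intro x hx
    refine Finset.mem_inter.mpr ⟨hI hx, ?_⟩
    have := hI' x hx
    simp only [mem_support, mul_apply] at this ⊢
    intro h
    apply this
    rw [Perm.eq_inv_iff_eq, h]
  have h4 := Finset.card_union_add_card_inter g.support (u * g * u⁻¹).support
  rw [card_support_conj] at h4
  have h5 := Finset.card_le_card h1
  rw [Finset.card_union_of_disjoint h2] at h5
  have h6 := Finset.card_le_card h3
  omega

theorem exists_seg {α : Type*} [Fintype α] [DecidableEq α] (g : Perm α) (j : ℕ)
    (hj : j ≤ g.support.card) : ∃ S ⊆ g.support, S.card = j ∧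
      ((∀ x ∈ S, g x ∈ S) ∨ ∃ y ∈ S, g y ∉ S ∧ ∀ x ∈ S, x ≠ y → g x ∈ S) := by
  induction j with
  | zero => exact ⟨∅, by simp, rfl, Or.inl (by simp)⟩
  | succ j ih =>
    obtain ⟨S, hS, hc, h⟩ := ih (by omega)
    have : ∃ z ∈ g.support, z ∉ S ∧ ∀ x ∈ S, g x ∈ insert z S := by
      rcases h with h | ⟨y, hy, hy', h⟩
      · obtain ⟨z, hz, hz'⟩ := Finset.exists_mem_notMem_of_card_lt_card
          (show S.card < g.support.card by omega)
        exact ⟨z, hz, hz', fun x hx => Finset.mem_insert_of_mem (h x hx)⟩
      · refine ⟨g y, apply_mem_support.mpr (hS hy), hy', fun x hx => ?_⟩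
        by_cases hxy : x = y
        · simp [hxy]
        · exact Finset.mem_insert_of_mem (h x hx hxy)
    obtain ⟨z, hz, hz', h⟩ := this
    refine ⟨insert z S, Finset.insert_subset hz hS, by rw [Finset.card_insert_of_notMem hz', hc], ?_⟩
    by_cases hgz : g z ∈ insert z S
    · left
      intro x hx
      rcases Finset.mem_insert.mp hx with rfl | hx
      · exact hgz
      · exact h x hx
    · right
      refine ⟨z, Finset.mem_insert_self _ _, hgz, fun x hx hxz => h x ?_⟩
      exact (Finset.mem_insert.mp hx).resolve_left hxz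

/-- A `k`-transitive permutation group (`k ≥ 3`) with a non-identity element of support smaller than `2k - 2` contains a non-identity element of support at most 3, and therefore contains the alternating group. -/
theorem result {α : Type*} [Fintype α] [DecidableEq α] (G : Subgroup (Equiv.Perm α)) {k : ℕ} (hk : 3 ≤ k) (hkn : k ≤ Fintype.card α) (hG : MulAction.IsMultiplyPretransitive G α k) (g : Equiv.Perm α) (hg : g ∈ G) (hg1 : g ≠ 1) (hsupp : g.support.card < 2 * k - 2) : (∃ h : Equiv.Perm α, h ∈ G ∧ h ≠ 1 ∧ h.support.card ≤ 3) ∧ alternatingGroup α ≤ G := by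
  have hkn' : k ≤ Nat.card α := by simpa using hkn
  have main : ∀ m, ∀ g ∈ G, g ≠ 1 → g.support.card = m → m < 2 * k - 2 →
      ∃ h : Equiv.Perm α, h ∈ G ∧ h ≠ 1 ∧ h.support.card ≤ 3 := by
    intro m
    induction m using Nat.strong_induction_on with | _ m ih => ?_
    intro g hg hg1 hm hlt
    by_cases h3 : m ≤ 3
    · exact ⟨g, hg, hg1, hm ▸ h3⟩
    suffices ∃ h ∈ G, h ≠ 1 ∧ h.support.card < m by
      obtain ⟨h, h1, h2, h3⟩ := this
      exact ih _ h3 h h1 h2 rfl (by omega)
    by_cases hall : ∀ x, x ∈ g.support
    · obtain ⟨a, b, c, -, -, -, hab, hac, hbc⟩ := Finset.two_lt_card_iff.mp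
        (show 2 < g.support.card by omega)
      obtain ⟨u, hu, hu'⟩ := CfsgH8.exists_fix_smul_eq hG hkn' {a} (by simp; omega)
        (a := b) (b := c) (by simpa using hab.symm) (by simpa using hac.symm)
      refine ⟨u, u.2, fun h => hbc ?_, ?_⟩
      · have : (u : Perm α) b = c := hu'
        rw [h] at this; exact this
      · rw [← hm]
        apply Finset.card_lt_card
        refine ⟨fun x _ => hall x, fun h => ?_⟩
        exact mem_support.mp (h (hall a)) (hu a (by simp))
    push Not at hall
    obtain ⟨w, hw⟩ := hall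
    have hmem : ∀ u : G, g⁻¹ * (u * g * (u : Perm α)⁻¹) ∈ G := fun u =>
      G.mul_mem (G.inv_mem hg) (G.mul_mem (G.mul_mem u.2 hg) (G.inv_mem u.2))
    have hout : ∀ u : Perm α, ∀ y ∈ g.support, u y = w → g⁻¹ * (u * g * u⁻¹) ≠ 1 := by
      intro u y hy hyw h
      rw [inv_mul_eq_one] at h
      apply hw
      rw [h, ← hyw]
      simpa using hy
    have hinv : ∀ (u : Perm α) (S : Finset α), S ⊆ g.support → (∀ x ∈ S, u x = x) →
        ∀ x ∈ S, u⁻¹ x ∈ g.support := fun u S hS hu x hx => by
      rw [show u⁻¹ x = x by rw [Perm.inv_eq_iff_eq, hu x hx]]; exact hS hx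
    by_cases hmk : m ≤ k
    · obtain ⟨y, hy⟩ : g.support.Nonempty := Finset.card_pos.mp (by omega)
      have hc := Finset.card_erase_of_mem hy
      obtain ⟨u, hu, hu'⟩ := CfsgH8.exists_fix_smul_eq hG hkn' (g.support.erase y) (by omega)
        (a := y) (b := w) (by simp) (fun h => hw (Finset.mem_of_mem_erase h))
      refine ⟨_, hmem u, hout u y hy hu', ?_⟩
      have h1 := supp_bound g u (g.support.erase y) (g.support.erase y) (Finset.erase_subset _ _) hu
        (Finset.erase_subset _ _) (hinv u _ (Finset.erase_subset _ _) hu)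
      have h2 : (g.support.erase y).erase (g⁻¹ y) ⊆
          (g.support.erase y).filter fun x => g x ∈ g.support.erase y := by
        intro x hx
        simp only [Finset.mem_erase, Finset.mem_filter, apply_mem_support] at hx ⊢
        refine ⟨hx.2, fun h => hx.1 ?_, hx.2.2⟩
        rw [← h]; simp
      have h4 := Finset.card_le_card h2
      have h5 := Finset.pred_card_le_card_erase (s := g.support.erase y) (a := g⁻¹ y)
      omega
    · obtain ⟨S, hS, hc, h | ⟨y, hy, hy', h⟩⟩ := exists_seg g (k - 1) (by omega)
      · obtain ⟨z, hz, hz'⟩ := Finset.exists_mem_notMem_of_card_lt_card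
          (show S.card < g.support.card by omega)
        obtain ⟨u, hu, hu'⟩ := CfsgH8.exists_fix_smul_eq hG hkn' S (by omega)
          (a := z) (b := w) hz' (fun h => hw (hS h))
        refine ⟨_, hmem u, hout u z hz hu', ?_⟩
        have h1 := supp_bound g u S S hS hu hS (hinv u _ hS hu)
        rw [Finset.filter_true_of_mem h] at h1
        omega
      · obtain ⟨z, hz, hz'⟩ := Finset.exists_mem_notMem_of_card_lt_card
          (show (insert (g y) S).card < g.support.card by
            rw [Finset.card_insert_of_notMem hy']; omega)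
        simp only [Finset.mem_insert, not_or] at hz'
        obtain ⟨u, hu, hu'⟩ := CfsgH8.exists_fix_smul_eq hG hkn' S (by omega)
          (a := g y) (b := z) hy' hz'.2
        have hu' : (u : Perm α) (g y) = z := hu'
        refine ⟨_, hmem u, fun e => hz'.1 ?_, ?_⟩
        · rw [inv_mul_eq_one] at e
          have : (u : Perm α)⁻¹ y = y := by rw [Perm.inv_eq_iff_eq]; exact (hu y hy).symm
          rw [e, mul_apply, mul_apply, this, hu']
        have h1 := supp_bound g u S (insert z S) hS hu (Finset.insert_subset hz hS) (by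
          intro x hx
          rcases Finset.mem_insert.mp hx with rfl | hx
          · rw [← hu']; simpa using hS hy
          · exact hinv u _ hS hu x hx)
        rw [Finset.card_insert_of_notMem hz'.2] at h1
        have h2 : S.erase y ⊆ S.filter fun x => g x ∈ S := by
          intro x hx
          simp only [Finset.mem_erase, Finset.mem_filter] at hx ⊢
          exact ⟨hx.2, h x hx.2 hx.1⟩
        have h4 := Finset.card_le_card h2
        have h5 := Finset.card_erase_of_mem hy
        omega
  obtain ⟨h, h1, h2, h3⟩ := main _ g hg hg1 rfl hsupp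
  refine ⟨⟨h, h1, h2, h3⟩, ?_⟩
  have hprim : MulAction.IsPreprimitive G α := MulAction.isPreprimitive_of_is_two_pretransitive
    (MulAction.isMultiplyPretransitive_of_le (n := k) (by omega) hkn')
  have h4 := two_le_card_support_of_ne_one h2
  rcases (show h.support.card = 2 ∨ h.support.card = 3 by omega) with h5 | h5
  · rw [subgroup_eq_top_of_isPreprimitive_of_isSwap_mem hprim h (card_support_eq_two.mp h5) h1]
    exact le_top
  · exact alternatingGroup_le_of_isPreprimitive_of_isThreeCycle_mem hprim
      (card_support_eq_three_iff.mp h5) h1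

end Cfsg.Agent.S0711
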