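import Mathlib
import Cfsg.Statements.S0712
import Cfsg.Agent.H8.Jordan

set_option autoImplicit false
open Cfsg

namespace Cfsg.Agent.S0712


/-- Jordan: a primitive group in which the pointwise stabiliser of a set `s` is doubly transitive on the complement of `s` (which has at least 2 points) is `(|s| + 2)`-transitive. -/
theorem result {α : Type*} [Fintype α] [DecidableEq α] (G : Subgroup (Equiv.Perm α)) (hG : MulAction.IsPreprimitive G α) (s : Set α) {m : ℕ} (hsm : s.ncard = m) (hm : m + 2 ≤ Fintype.card α) (h2 : MulAction.IsMultiplyPretransitive (fixingSubgroup G s) (SubMulAction.ofFixingSubgroup G s) 2) : MulAction.IsMultiplyPretransitive G α (m + 2) := by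
  classical
  have hfin : s.Finite := Set.toFinite s
  have h1 := CfsgH8.multiplyTransitive_of_primitive_jordan hG s (by rw [hsm]; simpa using hm)
    (MulAction.isPreprimitive_of_is_two_pretransitive h2)
  rw [hsm] at h1
  obtain ⟨c, hc⟩ : ∃ c, c ∉ s := by
    by_contra h
    push Not at h
    rw [Set.eq_univ_of_forall h, Set.ncard_univ, Nat.card_eq_fintype_card] at hsm
    omega
  refine CfsgH8.isMultiplyPretransitive_succ_of h1 (by rw [Nat.card_eq_fintype_card]; omega)
    (insert c hfin.toFinset) (by
      rw [Finset.card_insert_of_notMem (by simpa using hc), ← Set.ncard_eq_toFinset_card s hfin, hsm])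
    fun a b ha hb => ?_
  simp only [Finset.mem_insert, Set.Finite.mem_toFinset, not_or] at ha hb
  rw [MulAction.is_two_pretransitive_iff] at h2
  obtain ⟨g, hg1, hg2⟩ := h2 (a := ⟨c, hc⟩) (b := ⟨a, ha.2⟩)
    (c := ⟨c, hc⟩) (d := ⟨b, hb.2⟩) (fun h => ha.1 (congrArg Subtype.val h).symm)
    (fun h => hb.1 (congrArg Subtype.val h).symm)
  refine ⟨g, fun x hx => ?_, congrArg Subtype.val hg2⟩
  simp only [Finset.mem_insert, Set.Finite.mem_toFinset] at hx
  rcases hx with rfl | hx
  · exact congrArg Subtype.val hg1
  · exact (mem_fixingSubgroup_iff G).mp g.2 x hx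

end Cfsg.Agent.S0712
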