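import Cfsg.Statements.S0714
import Cfsg.Agent.H3.Pc1

set_option autoImplicit false
open Cfsg

namespace Cfsg.Agent.S0714
open CfsgH3
open MulAction Equiv

/-- Over any field, the permutation module of the alternating group of degree at least 5 has exactly four invariant subspaces: zero, the constant functions, the functions with coordinate sum zero, and everything. -/
theorem result {α : Type*} [Fintype α] [DecidableEq α] (hα : 5 ≤ Fintype.card α) {K : Type*} [Field K] (W : Subrepresentation (Cfsg.permRep K (alternatingGroup α) α)) : W.toSubmodule = ⊥ ∨ W = Cfsg.permConstants K (alternatingGroup α) α ∨ W = Cfsg.permSumZero K (alternatingGroup α) α ∨ W.toSubmodule = ⊤ := by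
  by_cases hc : ∀ f ∈ W.toSubmodule, ∀ a b, f a = f b
  · by_cases h0 : W.toSubmodule = ⊥
    · exact .inl h0
    obtain ⟨f, hf, f0⟩ := Submodule.exists_mem_ne_zero_of_ne_bot h0
    obtain ⟨a, ha⟩ := Function.ne_iff.1 f0
    refine .inr (.inl (Subrepresentation.toSubmodule_injective (le_antisymm (fun g hg => ?_) ?_)))
    · exact Submodule.mem_span_singleton.2 ⟨g a, funext fun x => by simp [hc g hg a x]⟩
    · refine Submodule.span_le.2 (Set.singleton_subset_iff.2 ?_)
      have : (f a)⁻¹ • f = fun _ => 1 := funext fun x => by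
        rw [Pi.smul_apply, hc f hf x a, smul_eq_mul, inv_mul_cancel₀ ha]
      exact this ▸ W.toSubmodule.smul_mem (f a)⁻¹ hf
  push Not at hc
  obtain ⟨f, hf, a, b, hab⟩ := hc
  have ab : a ≠ b := fun e => hab (e ▸ rfl)
  have ex : ∀ s : Finset α, s.card < 5 → ∃ x, x ∉ s := fun s hs => by
    by_contra h; push Not at h
    rw [Finset.eq_univ_of_forall h, Finset.card_univ] at hs; omega
  obtain ⟨c, hc⟩ := ex {a, b} (by have := Finset.card_le_two (a := a) (b := b); omega)
  obtain ⟨d, hd⟩ := ex {a, b, c} (by have := Finset.card_le_three (a := a) (b := b) (c := c); omega)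
  obtain ⟨e, he⟩ := ex {a, b, c, d} (by have := Finset.card_le_four (a := a) (b := b) (c := c) (d := d); omega)
  simp only [Finset.mem_insert, Finset.mem_singleton, not_or] at hc hd he
  obtain ⟨c1, c2⟩ := hc
  obtain ⟨d1, d2, d3⟩ := hd
  obtain ⟨e1, e2, e3, e4⟩ := he
  have inv : ∀ x y z : α, x ≠ y → x ≠ z → ∀ g ∈ W.toSubmodule, (g - fun w => g (swap x z (swap x y w))) ∈
      W.toSubmodule := fun x y z h1 h2 g hg =>
    sub_mem hg (W.apply_mem_toSubmodule (⟨swap x z * swap x y, by simp [h1, h2]⟩ : alternatingGroup α)⁻¹ hg)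
  have k : (Pi.single a 1 - Pi.single e 1 : α → K) ∈ W.toSubmodule := by
    convert W.toSubmodule.smul_mem (f a - f b)⁻¹ (inv a d e (Ne.symm d1) (Ne.symm e1) _
      (inv a b c ab (Ne.symm c1) f hf)) using 1
    have h0 := sub_ne_zero.2 hab
    ext w
    simp only [Pi.sub_apply, Pi.smul_apply, smul_eq_mul, Pi.single_apply, swap_apply_def]
    rw [eq_inv_mul_iff_mul_eq₀ h0]
    grind
  haveI : IsMultiplyPretransitive (alternatingGroup α) α 2 := by
    haveI := alternatingGroup.isMultiplyPretransitive α
    rw [← Nat.card_eq_fintype_card] at hα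
    exact isMultiplyPretransitive_of_le (n := Nat.card α - 2) (by omega) (by omega)
  have k2 : ∀ x, (Pi.single x 1 - Pi.single a 1 : α → K) ∈ W.toSubmodule := fun x => by
    rcases eq_or_ne x a with rfl | h
    · simp
    obtain ⟨g, g1, g2⟩ := is_two_pretransitive_iff.1 this (Ne.symm e1) h
    convert W.apply_mem_toSubmodule g k using 1
    ext w
    simp [Cfsg.permRep, Pi.single_apply, inv_smul_eq_iff, g1, g2]
  have k3 : ∀ g : α → K, ∑ x, g x = 0 → g ∈ W.toSubmodule := fun g hg => by
    convert W.toSubmodule.sum_mem (t := Finset.univ) fun x _ => W.toSubmodule.smul_mem (g x) (k2 x) using 1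
    simp only [smul_sub, Finset.sum_sub_distrib, ← Finset.sum_smul, hg, zero_smul, sub_zero]
    ext w
    simp [Finset.sum_apply, Pi.single_apply]
  by_cases h : ∀ g ∈ W.toSubmodule, ∑ x, g x = 0
  · exact .inr (.inr (.inl (Subrepresentation.toSubmodule_injective (le_antisymm h k3))))
  push Not at h
  obtain ⟨g, hg, g0⟩ := h
  refine .inr (.inr (.inr (eq_top_iff.2 fun v _ => ?_)))
  have := k3 (v - ((∑ x, v x) / ∑ x, g x) • g) (by
    simp only [Pi.sub_apply, Pi.smul_apply, smul_eq_mul, Finset.sum_sub_distrib, ← Finset.mul_sum]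
    rw [div_mul_cancel₀ _ g0, sub_self])
  simpa using add_mem this (W.toSubmodule.smul_mem ((∑ x, v x) / ∑ x, g x) hg)


end Cfsg.Agent.S0714
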