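import Cfsg.Statements.S0716
import Cfsg.Agent.H3.Pc1

set_option autoImplicit false
open Cfsg

namespace Cfsg.Agent.S0716
open CfsgH3
open CfsgPc MulAction CfsgH3

/-- (a) If all non-principal irreducible constituents of the permutation character of a transitive group have the same degree `f`, the character is multiplicity-free and all non-trivial subdegrees equal `f`. (b) A transitive group of rank at most 5 has multiplicity-free permutation character. -/
theorem result {G : Type*} [Group G] [Fintype G] {Ω : Type*} [Fintype Ω] [MulAction G Ω] [MulAction.IsPretransitive G Ω] (a : Ω) : ((f : ℕ) → (∀ χ : G → ℂ, Cfsg.IsIrrCharacter G χ → χ ≠ (fun _ => 1) → Cfsg.classInner (fun g : G => (Nat.card (MulAction.fixedBy Ω g) : ℂ)) χ ≠ 0 → χ 1 = f) → (∀ χ : G → ℂ, Cfsg.IsIrrCharacter G χ → Cfsg.classInner (fun g : G => (Nat.card (MulAction.fixedBy Ω g) : ℂ)) χ = 0 ∨ Cfsg.classInner (fun g : G => (Nat.card (MulAction.fixedBy Ω g) : ℂ)) χ = 1) ∧ ∀ b : Ω, b ≠ a → Nat.card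 (MulAction.orbit (MulAction.stabilizer G a) b) = f) ∧ (Nat.card (MulAction.orbitRel.Quotient (MulAction.stabilizer G a) Ω) ≤ 5 → ∀ χ : G → ℂ, Cfsg.IsIrrCharacter G χ → Cfsg.classInner (fun g : G => (Nat.card (MulAction.fixedBy Ω g) : ℂ)) χ = 0 ∨ Cfsg.classInner (fun g : G => (Nat.card (MulAction.fixedBy Ω g) : ℂ)) χ = 1) := by
  classical
  have hπ := isCharacter_fixedBy (G := G) Ω
  obtain ⟨m, m1, m2⟩ := hπ.exists_eq_sum_irr
  set o : IrrCharacter G := ⟨_, isIrr_one⟩
  have mo : m o = 1 := by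
    have h := (m1 o).symm.trans (classInner_fixedBy_one Ω)
    haveI : Nonempty Ω := ⟨a⟩
    haveI : Unique (Quotient (orbitRel G Ω)) :=
      (pretransitive_iff_unique_quotient_of_nonempty G Ω).1 inferInstance |>.some
    rw [Nat.card_unique] at h
    exact_mod_cast h
  have := Fintype.ofFinite (orbitRel.Quotient (stabilizer G a) Ω)
  have rk : Nat.card (orbitRel.Quotient (stabilizer G a) Ω) = 1 + ∑ χ ∈ Finset.univ.erase o, m χ ^ 2 := by
    have h1 := classInner_fixedBy_one (G := stabilizer G a) Ω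
    have h2 := classInner_indFun_right (H := stabilizer G a) (fun _ => 1) hπ.isClassFunction
    rw [← card_fixedBy_eq_indFun, hπ.isClassFunction.classInner_eq_sum_irr,
      Finset.sum_congr rfl (g := fun χ => ((m χ ^ 2 : ℕ) : ℂ)) fun χ _ => by
        rw [χ.2.isCharacter.classInner_comm hπ, m1]; push_cast; ring] at h2
    rw [← one_pow 2, ← mo, Finset.add_sum_erase _ (fun χ => m χ ^ 2) (Finset.mem_univ o)]
    exact_mod_cast (h2.trans h1).symm
  have fin : (∀ χ ∈ Finset.univ.erase o, m χ ≤ 1) → ∀ χ : G → ℂ, IsIrrCharacter G χ →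
      classInner (fun g : G => (Nat.card (fixedBy Ω g) : ℂ)) χ = 0 ∨
      classInner (fun g : G => (Nat.card (fixedBy Ω g) : ℂ)) χ = 1 := fun h χ hχ => by
    have : m ⟨χ, hχ⟩ ≤ 1 := by
      by_cases e : (⟨χ, hχ⟩ : IrrCharacter G) = o
      · rw [e, mo]
      · exact h _ (Finset.mem_erase.2 ⟨e, Finset.mem_univ _⟩)
    rw [m1 ⟨χ, hχ⟩]
    rcases Nat.le_one_iff_eq_zero_or_eq_one.1 this with e | e <;> simp [e]
  have main : ∀ f : ℕ, (∀ χ ∈ Finset.univ.erase o, m χ ≠ 0 → χ.1 1 = f) →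
      (∀ χ ∈ Finset.univ.erase o, m χ ≤ 1) ∧ ∀ b : Ω, b ≠ a → Nat.card (orbit (stabilizer G a) b) = f := by
    intro f hf
    have dv : ∀ b, b ≠ a → f ∣ Nat.card (orbit (stabilizer G a) b) := fun b hb =>
      dvd_subdeg f (fun χ hχ h1 h2 => ⟨1,
        (hf ⟨χ, hχ⟩ (Finset.mem_erase.2 ⟨fun e => h1 (congrArg Subtype.val e), Finset.mem_univ _⟩)
          fun e => h2 (by rw [m1 ⟨χ, hχ⟩, e, Nat.cast_zero])).trans (by simp)⟩) hb
    have n1 : Nat.card Ω = 1 + ∑ χ ∈ Finset.univ.erase o, f * m χ := by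
      have := congrFun m2 1
      rw [Finset.sum_apply, ← Finset.add_sum_erase _ _ (Finset.mem_univ o), mo,
        Finset.sum_congr rfl (g := fun χ => ((f * m χ : ℕ) : ℂ)) fun χ hχ => by
          by_cases e : m χ = 0
          · simp [e]
          · simp [hf χ hχ e, mul_comm]] at this
      simp only [fixedBy_one_eq_univ, Nat.card_univ, o, Pi.smul_apply, smul_eq_mul, mul_one] at this
      exact_mod_cast this
    set q : orbitRel.Quotient (stabilizer G a) Ω := Quotient.mk _ a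
    have n2 : Nat.card Ω = 1 + ∑ ω ∈ Finset.univ.erase q, Nat.card ω.orbit := by
      rw [Nat.card_congr (selfEquivSigmaOrbits' (stabilizer G a) Ω), Nat.card_sigma,
        ← Finset.add_sum_erase _ _ (Finset.mem_univ q)]
      congr 1
      exact Nat.card_eq_one_iff_exists.2 ⟨⟨a, mem_orbit_self a⟩, fun ⟨_, g, rfl⟩ => Subtype.ext g.2⟩
    have le : ∀ ω ∈ Finset.univ.erase q, f ≤ Nat.card ω.orbit := fun ω hω => by
      induction ω using Quotient.inductionOn with
      | _ b =>
      haveI : Nonempty (orbit (stabilizer G a) b) := ⟨⟨b, mem_orbit_self b⟩⟩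
      show f ≤ Nat.card (orbit (stabilizer G a) b)
      exact Nat.le_of_dvd Nat.card_pos (dv b fun e => Finset.ne_of_mem_erase hω (by rw [e]))
    have le2 : ∀ χ ∈ Finset.univ.erase o, f * m χ ≤ f * m χ ^ 2 := fun χ _ =>
      Nat.mul_le_mul_left _ (Nat.le_self_pow two_ne_zero _)
    have s1 := Finset.sum_le_sum le
    have s2 := Finset.sum_le_sum le2
    have s3 : ∑ ω ∈ Finset.univ.erase q, f = ∑ χ ∈ Finset.univ.erase o, f * m χ ^ 2 := by
      rw [Finset.sum_const, Finset.card_erase_of_mem (Finset.mem_univ _), Finset.card_univ,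
        ← Nat.card_eq_fintype_card, rk, ← Finset.mul_sum, smul_eq_mul, mul_comm, Nat.add_sub_cancel_left]
    refine ⟨fun χ hχ => ?_, fun b hb => ?_⟩
    · by_contra h
      have e := (Finset.sum_eq_sum_iff_of_le le2).1 (by omega) χ hχ
      have f0 : 0 < f := Nat.pos_of_ne_zero fun e => χ.2.apply_one_ne_zero (by rw [hf χ hχ (by omega), e]; simp)
      have := Nat.eq_of_mul_eq_mul_left f0 e
      nlinarith
    · refine ((Finset.sum_eq_sum_iff_of_le le).1 (by omega) (Quotient.mk _ b)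
        (Finset.mem_erase.2 ⟨fun e => ?_, Finset.mem_univ _⟩)).symm
      obtain ⟨g, hg⟩ := Quotient.exact e
      exact hb (hg.symm.trans g.2)
  refine ⟨fun f hf => ?_, fun h => fin fun χ hχ => ?_⟩
  · obtain ⟨k1, k2⟩ := main f fun χ hχ h => hf χ χ.2 (fun e => Finset.ne_of_mem_erase hχ (Subtype.ext e))
      (by rw [m1]; exact_mod_cast h)
    exact ⟨fin k1, k2⟩
  by_contra h2
  obtain ⟨f, -, hf⟩ := χ.2.exists_pos_apply_one
  refine h2 ((main f fun ψ hψ h3 => ?_).1 χ hχ)
  by_contra h4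
  have ne : χ ≠ ψ := fun e => h4 (e ▸ hf)
  have := Finset.sum_le_sum_of_subset (f := fun χ => m χ ^ 2) (s := {χ, ψ}) (t := Finset.univ.erase o)
    (by simp only [Finset.insert_subset_iff, Finset.singleton_subset_iff]; exact ⟨hχ, hψ⟩)
  rw [Finset.sum_pair ne] at this
  have : 1 ≤ m ψ ^ 2 := Nat.pos_of_ne_zero (pow_ne_zero 2 h3)
  have : 4 ≤ m χ ^ 2 := by nlinarith
  omega


end Cfsg.Agent.S0716
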