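import Cfsg.Statements.S0717
import Cfsg.Agent.H3.Pc1

set_option autoImplicit false
open Cfsg

namespace Cfsg.Agent.S0717
open CfsgH3
open CfsgPc MulAction CfsgH3
open scoped ComplexConjugate

/-- All suborbits of a transitive group are self-paired (every pair of points is interchanged by some group element) if and only if the permutation character is multiplicity-free and each of its irreducible constituents is real-valued. -/
theorem result {G : Type*} [Group G] [Fintype G] {Ω : Type*} [Fintype Ω] [MulAction G Ω] [MulAction.IsPretransitive G Ω] : (∀ a b : Ω, ∃ g : G, g • a = b ∧ g • b = a) ↔ ∀ χ : G → ℂ, Cfsg.IsIrrCharacter G χ → Cfsg.classInner (fun g : G => (Nat.card (MulAction.fixedBy Ω g) : ℂ)) χ ≠ 0 → Cfsg.classInner (fun g : G => (Nat.card (MulAction.fixedBy Ω g) : ℂ)) χ = 1 ∧ ∀ g : G, (starRingEnd ℂ) (χ g) = χ g := by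
  classical
  rw [← perm_char]
  have hc := (isCharacter_of_rep (permRep ℂ G Ω)).isClassFunction
  refine ⟨fun h χ hχ h0 => ?_, fun h a b => ?_⟩
  · have sy : ∀ S ∈ ((permRep ℂ G Ω).linHom (permRep ℂ G Ω)).invariants,
        (LinearMap.toMatrix' S).transpose = LinearMap.toMatrix' S := fun S hS => Matrix.ext fun x y => by
      obtain ⟨g, g1, g2⟩ := h x y
      rw [Matrix.transpose_apply, ← (mem_inv_iff S).1 hS g x y, g1, g2]
    have h1 := ((mf_iff (permRep ℂ G Ω)).2 (fun S T hS hT => LinearMap.toMatrix'.injective (by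
      have : S ∘ₗ T ∈ ((permRep ℂ G Ω).linHom (permRep ℂ G Ω)).invariants := by
        have hS := (Representation.mem_linHom_invariants_iff_isIntertwining _).1 hS
        have hT := (Representation.mem_linHom_invariants_iff_isIntertwining _).1 hT
        exact (Representation.mem_linHom_invariants_iff_isIntertwining _).2
          ⟨fun g v => by rw [LinearMap.comp_apply, hT.1, hS.1]; rfl⟩
      rw [← sy _ this, LinearMap.toMatrix'_comp, LinearMap.toMatrix'_comp, Matrix.transpose_mul, sy S hS,
        sy T hT])) χ hχ).resolve_left h0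
    refine ⟨h1, fun g => ?_⟩
    have e : E (permRep ℂ G Ω) (fun g => conj (conj (χ g))) = E (permRep ℂ G Ω) fun g => conj (χ g) :=
      LinearMap.toMatrix'.injective (Matrix.ext fun x y => by
        rw [← sy _ (E_mem _ hχ.isClassFunction.conj), Matrix.transpose_apply, ← E_transpose _ x y]
        simp only [hχ.isCharacter.apply_inv])
    have t : ∀ h, _ = _ := fun h => (sum_conj_mul hχ.conj hc h).symm.trans (((trace_E _ _ h).symm.trans
      ((congrArg (fun T => LinearMap.trace ℂ _ (permRep ℂ G Ω h ∘ₗ T)) e).trans (trace_E _ _ h))).trans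
      (sum_conj_mul hχ hc h))
    obtain ⟨n, hn, h2⟩ := hχ.exists_pos_apply_one
    have t1 := t 1
    have t2 := t g
    have n0 : (n : ℂ) ≠ 0 := Nat.cast_ne_zero.2 hn.ne'
    simp only [h2, map_natCast, h1, div_mul_cancel₀ _ n0] at t1 t2
    rw [t1] at t2
    exact mul_left_cancel₀ (by simp [n0, Nat.card_pos.ne']) t2
  let M : Matrix Ω Ω ℂ := Matrix.of fun x y => if ∃ g : G, g • a = x ∧ g • b = y then 1 else 0
  have hM : Matrix.toLin' M ∈ ((permRep ℂ G Ω).linHom (permRep ℂ G Ω)).invariants :=
    (mem_inv_iff _).2 fun g x y => by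
      simp only [LinearMap.toMatrix'_toLin', M, Matrix.of_apply]
      refine if_congr ⟨fun ⟨k, k1, k2⟩ => ⟨g⁻¹ * k, ?_, ?_⟩, fun ⟨k, k1, k2⟩ => ⟨g * k, ?_, ?_⟩⟩ rfl rfl <;>
        simp [mul_smul, k1, k2]
  have := Submodule.span_induction (p := fun T _ => LinearMap.toMatrix' T b a = LinearMap.toMatrix' T a b)
    (by
      rintro _ ⟨χ, h1, h2, rfl⟩
      rw [← E_transpose]
      simp only [h1.isCharacter.apply_inv, (h χ h1 (by rw [h2]; exact one_ne_zero)).2])
    (by simp) (fun _ _ _ _ h1 h2 => by simp only [map_add, Matrix.add_apply, h1, h2])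
    (fun _ _ _ h1 => by simp only [map_smul, Matrix.smul_apply, h1])
    (mf_span _ (fun χ hχ => (em _).imp_right fun e => (h χ hχ e).1) hM)
  simp only [LinearMap.toMatrix'_toLin', M, Matrix.of_apply] at this
  rw [if_pos (c := ∃ g : G, g • a = a ∧ g • b = b) ⟨1, one_smul _ _, one_smul _ _⟩] at this
  by_contra h3
  rw [if_neg h3] at this
  exact zero_ne_one this


end Cfsg.Agent.S0717
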