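import Mathlib
import Cfsg.Statements.S0724
import Cfsg.Agent.H8.Gleason

set_option autoImplicit false
open Cfsg

namespace Cfsg.Agent.S0724


/-- Blichfeldt's Theorem: if a finite set `L` of natural numbers contains the number of fixed points of every non-identity element of a permutation group `G` of degree `n`, then the order of `G` divides `∏ (n - l)` over `l ∈ L`. -/
theorem result {α : Type*} [Fintype α] [DecidableEq α] (G : Subgroup (Equiv.Perm α)) (L : Finset ℕ) (hL : ∀ g ∈ G, g ≠ 1 → Nat.card (MulAction.fixedBy α g) ∈ L) : Nat.card G ∣ ∏ l ∈ L, (Fintype.card α - l) := by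
  classical
  by_cases hl : ∀ l ∈ L, l ≤ Fintype.card α
  swap
  · push Not at hl
    obtain ⟨l, hl, h⟩ := hl
    rw [Finset.prod_eq_zero hl (by omega)]
    exact dvd_zero _
  have h := CfsgH8.card_dvd_sum_eval_fixedBy (G := G) (Ω := α)
    (∏ l ∈ L, (Polynomial.X - Polynomial.C (l : ℤ)))
  rw [Finset.sum_eq_single 1] at h
  · rw [← Int.natCast_dvd_natCast]
    convert h using 1
    simp only [MulAction.fixedBy_one_eq_univ, Nat.card_univ, Nat.card_eq_fintype_card,
      Polynomial.eval_prod, Polynomial.eval_sub, Polynomial.eval_X, Polynomial.eval_C, Nat.cast_prod]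
    exact Finset.prod_congr rfl fun l hl' => by rw [Nat.cast_sub (hl l hl')]; simp
  · intro g _ hg
    rw [Polynomial.eval_prod]
    refine Finset.prod_eq_zero (hL g g.2 (fun h => hg (Subtype.ext h))) ?_
    simp only [Polynomial.eval_sub, Polynomial.eval_X, Polynomial.eval_C]
    exact sub_self _
  · simp

end Cfsg.Agent.S0724
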