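import Mathlib
import Cfsg.Statements.S0727
import Cfsg.Agent.H8.Za3

set_option autoImplicit false
open Cfsg

namespace Cfsg.Agent.S0727

open CfsgH8 CfsgH8.Za

/-- A sharply triply transitive permutation group of degree `2^f + 1` is isomorphic to the projective general linear group of degree 2 over the field with `2^f` elements. -/
theorem result {α : Type*} [Fintype α] [DecidableEq α] {f : ℕ} (hf : 1 ≤ f) (hα : Fintype.card α = 2 ^ f + 1) (G : Subgroup (Equiv.Perm α)) (h3 : MulAction.IsMultiplyPretransitive G α 3) (hsharp : ∀ x : Fin 3 ↪ α, MulAction.stabilizer G x = ⊥) : ∃ (F : Type) (_ : Field F) (_ : Fintype F), Fintype.card F = 2 ^ f ∧ Nonempty (G ≃* Matrix.ProjGenLinGroup (Fin 2) F) := by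
  have h2 : 2 ≤ 2 ^ f := Nat.one_lt_two_pow (by omega)
  have s : S3 G α := S3.of h3 (by rw [Nat.card_eq_fintype_card]; omega)
    ((sharp_three_iff (G := G) (Ω := α)).1 hsharp)
  obtain ⟨a, b, hab⟩ := Fintype.exists_pair_of_one_lt_card (α := α) (by omega)
  obtain ⟨K, h⟩ := s.toZT.exists_K hab
  have hK : Nat.card K = 2 ^ f := by
    have := h.card_Ω'
    rw [Nat.card_eq_fintype_card] at this
    omega
  obtain ⟨F, _, _, hF⟩ := exists_field_card (l := 2 ^ f) ⟨2, f, Nat.prime_two.prime, hf, rfl⟩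
  exact ⟨F, inferInstance, inferInstance, hF, h.iso_even (s.card_H h (hK ▸ h2))
    (hK ▸ (Nat.even_pow.2 ⟨even_two, by omega⟩)) F (hF.trans hK.symm)⟩

end Cfsg.Agent.S0727
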