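import Mathlib
import Cfsg.Statements.S0728
import Cfsg.Agent.H8.Za2

set_option autoImplicit false
open Cfsg

namespace Cfsg.Agent.S0728

open CfsgH8 CfsgH8.Za CfsgH2 CfsgH1 Subgroup MulAction

/-- In a sharply triply transitive group of even degree at least 6 (degree `q + 1`, `q` odd), a two-point stabiliser has at most one subgroup of order 3. -/
theorem result {α : Type*} [Fintype α] [DecidableEq α] (heven : Even (Fintype.card α)) (h6 : 6 ≤ Fintype.card α) (G : Subgroup (Equiv.Perm α)) (h3 : MulAction.IsMultiplyPretransitive G α 3) (hsharp : ∀ x : Fin 3 ↪ α, MulAction.stabilizer G x = ⊥) {a b : α} (hab : a ≠ b) (A B : Subgroup G) (hA : A ≤ MulAction.stabilizer G a ⊓ MulAction.stabilizer G b) (hB : B ≤ MulAction.stabilizer G a ⊓ MulAction.stabilizer G b) (hA3 : Nat.card A = 3) (hB3 : Nat.card B = 3) : A = B := by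
  rw [is_three_pretransitive_iff] at h3
  replace hsharp := (sharp_three_iff (G := G) (Ω := α)).1 hsharp
  obtain ⟨x, hxa, hxb⟩ : ∃ x : α, x ≠ a ∧ x ≠ b := by
    by_contra e
    push Not at e
    have : (Finset.univ : Finset α) ⊆ {a, b} := fun x _ => by
      by_cases h : x = a
      · simp [h]
      · simp [e x h]
    have := (Finset.card_le_card this).trans (Finset.card_le_two)
    rw [Finset.card_univ] at this
    omega
  have hZ : ZT G α := ⟨fun g hg => Subtype.ext (Equiv.ext hg), fun a b c d h1 h2 => by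
    obtain ⟨x, h⟩ : ∃ x : α, x ∉ ({a, b, c, d} : Finset α) := by
      by_contra e
      push Not at e
      have := (Finset.card_le_card (fun x _ => e x : (Finset.univ : Finset α) ⊆ _)).trans Finset.card_le_four
      rw [Finset.card_univ] at this
      omega
    simp only [Finset.mem_insert, Finset.mem_singleton, not_or] at h
    obtain ⟨g, e1, e2, -⟩ := h3 a b x c d x h1 (Ne.symm h.1) (Ne.symm h.2.1) h2 (Ne.symm h.2.2.1) (Ne.symm h.2.2.2)
    exact ⟨g, e1, e2⟩, fun g a b c h1 h2 h3 => hsharp g a b c h1 h3 h2⟩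
  have cyc : ∀ u ∈ HH G a b, u ≠ 1 → u ^ 3 = 1 →
      x ≠ u • x ∧ x ≠ u • u • x ∧ u • x ≠ u • u • x ∧ u • u • u • x = x := fun u hu h1 h2 => by
    have e1 : x ≠ u • x := fun e => (hZ.fix_H hab hu h1 e.symm).elim hxa hxb
    have e2 : u • u • u • x = x := by rw [← mul_smul, ← mul_smul, ← pow_three', h2, one_smul]
    exact ⟨e1, fun e => e1 (by rw [← e] at e2; exact e2.symm), fun e => e1 (smul_left_cancel u e), e2⟩
  have key : ∀ u ∈ HH G a b, u ≠ 1 → u ^ 3 = 1 → ∀ v ∈ HH G a b, v ≠ 1 → v ^ 3 = 1 → u ≠ v →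
      ∃ g : G, g • x = x ∧ g • a = b ∧ g • b = a ∧ g * u * g⁻¹ = v := by
    intro u hu u1 u3 v hv v1 v3 uv
    obtain ⟨a1, a2, a3, a4⟩ := cyc u hu u1 u3
    obtain ⟨b1, b2, b3, b4⟩ := cyc v hv v1 v3
    obtain ⟨g, e1, e2, e3⟩ := h3 _ _ _ _ _ _ a1 a2 a3 b1 b2 b3
    have e : g * u = v * g := hZ.eq_of_three a1 a3 a2 (by rw [mul_smul, mul_smul, e1, e2])
      (by rw [mul_smul, mul_smul, e2, e3]) (by rw [mul_smul, mul_smul, a4, e1, e3, b4])
    have e' : g * u * g⁻¹ = v := by rw [e, mul_inv_cancel_right]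
    rcases hZ.pres hab hu u1 (e' ▸ hv) with h | h
    · have : g = 1 := hsharp g a b x hab hxa.symm hxb.symm h.1 h.2 e1
      rw [this] at e'
      exact absurd (by simpa using e') uv
    · exact ⟨g, e1, h.1, h.2, e'⟩
  haveI := Fact.mk Nat.prime_three
  obtain ⟨u, hu, ou⟩ := exists_prime_order_mem Nat.prime_three hA3.symm.dvd
  obtain ⟨v, hv, ov⟩ := exists_prime_order_mem Nat.prime_three hB3.symm.dvd
  have u1 : u ≠ 1 := by rintro rfl; simp at ou
  have v1 : v ≠ 1 := by rintro rfl; simp at ov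
  have u3 : u ^ 3 = 1 := ou ▸ pow_orderOf_eq_one u
  have v3 : v ^ 3 = 1 := ov ▸ pow_orderOf_eq_one v
  have hvA : v ∈ A := by
    by_cases uv : u = v
    · exact uv ▸ hu
    obtain ⟨g, e1, e2, e3, e4⟩ := key u (hA hu) u1 u3 v (hB hv) v1 v3 uv
    obtain ⟨k, f1, f2, f3, f4⟩ := key u (hA hu) u1 u3 u⁻¹ (hA (inv_mem hu)) (inv_ne_one.2 u1)
      (by rw [inv_pow, u3, inv_one]) (fun e => u1 (by
        rw [pow_three', mul_eq_one_iff_eq_inv.2 e, one_mul] at u3; exact u3))
    rw [hZ.eq_of_three hab hxb.symm hxa.symm (e2.trans f2.symm) (e3.trans f3.symm) (e1.trans f1.symm),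
      f4] at e4
    exact e4 ▸ inv_mem hu
  have e1 : zpowers v = A := eq_of_le_of_card_ge (zpowers_le.2 hvA) (by rw [Nat.card_zpowers, ov, hA3])
  have e2 : zpowers v = B := eq_of_le_of_card_ge (zpowers_le.2 hv) (by rw [Nat.card_zpowers, ov, hB3])
  exact e1.symm.trans e2

end Cfsg.Agent.S0728
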