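import Mathlib
import Cfsg.Statements.S0729
import Cfsg.Agent.H8.Za13

set_option autoImplicit false
open Cfsg

namespace Cfsg.Agent.S0729

open CfsgH8 CfsgH8.Za CfsgH2 Subgroup MulAction

/-- In a sharply triply transitive group of even degree at least 6, the two-point stabiliser `H = G_{a,b}` has a normal subgroup of index 2 that is normalised by the element `s` interchanging `a, b` and fixing a third point `c`. -/
theorem result {α : Type*} [Fintype α] [DecidableEq α] (heven : Even (Fintype.card α)) (h6 : 6 ≤ Fintype.card α) (G : Subgroup (Equiv.Perm α)) (h3 : MulAction.IsMultiplyPretransitive G α 3) (hsharp : ∀ x : Fin 3 ↪ α, MulAction.stabilizer G x = ⊥) {a b c : α} (hab : a ≠ b) (hac : a ≠ c) (hbc : b ≠ c) (s : G) (hsa : s • a = b) (hsb : s • b = a) (hsc : s • c = c) : ∃ N : Subgroup G, N ≤ MulAction.stabilizer G a ⊓ MulAction.stabilizer G b ∧ (N.subgroupOf (MulAction.stabilizer G a ⊓ MulAction.stabilizer G b)).Normal ∧ N.relIndex (MulAction.stabilizer G a ⊓ MulAction.stabilizer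 G b) = 2 ∧ ∀ n ∈ N, s * n * s⁻¹ ∈ N := by
  have s3 : S3 G α := S3.of h3 (by rw [Nat.card_eq_fintype_card]; omega)
    ((sharp_three_iff (G := G) (Ω := α)).1 hsharp)
  obtain ⟨K, h⟩ := s3.toZT.exists_K hab
  have hK := h.card_Ω'
  rw [Nat.card_eq_fintype_card] at hK
  have hd := s3.card_H h (by omega)
  obtain ⟨m, hm⟩ := heven
  obtain ⟨z, e⟩ := h.e3 hd ⟨m - 1, by omega⟩
  obtain ⟨N, h1, h2, h4⟩ := e.exists_N hsa hsb (e.sw_sq hsa hsb hsc)
  exact ⟨N, h1, normal_of_index_eq_two h2, h2, h4⟩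

end Cfsg.Agent.S0729
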