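import Mathlib
import Cfsg.Statements.S0730
import Cfsg.Agent.H8.Za13

set_option autoImplicit false
open Cfsg

namespace Cfsg.Agent.S0730

open CfsgH8 CfsgH8.Za CfsgH2 Subgroup MulAction

/-- A sharply triply transitive group of degree `p^f + 1`, `p` an odd prime and `f` odd, is isomorphic to the projective general linear group of degree 2 over the field with `p^f` elements (for even `f` there is a second, twisted, group). -/
theorem result {α : Type*} [Fintype α] [DecidableEq α] {p f : ℕ} (hp : p.Prime) (hp2 : p ≠ 2) (hfo : Odd f) (hα : Fintype.card α = p ^ f + 1) (G : Subgroup (Equiv.Perm α)) (h3 : MulAction.IsMultiplyPretransitive G α 3) (hsharp : ∀ x : Fin 3 ↪ α, MulAction.stabilizer G x = ⊥) : ∃ (F : Type) (_ : Field F) (_ : Fintype F), Fintype.card F = p ^ f ∧ Nonempty (G ≃* Matrix.ProjGenLinGroup (Fin 2) F) := by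
  have f0 : f ≠ 0 := by rintro rfl; simp at hfo
  have h2 : 2 ≤ p ^ f := Nat.one_lt_pow f0 hp.one_lt
  have s3 : S3 G α := S3.of h3 (by rw [Nat.card_eq_fintype_card]; omega)
    ((sharp_three_iff (G := G) (Ω := α)).1 hsharp)
  obtain ⟨a, b, hab⟩ := Fintype.exists_pair_of_one_lt_card (α := α) (by omega)
  obtain ⟨K, h⟩ := s3.toZT.exists_K hab
  have hK : Nat.card K = p ^ f := by
    have := h.card_Ω'
    rw [Nat.card_eq_fintype_card] at this
    omega
  have hd := s3.card_H h (hK ▸ h2)
  obtain ⟨z, e⟩ := h.e3 hd (hd ▸ hK ▸ Nat.Odd.sub_odd (hp.odd_of_ne_two hp2).pow odd_one)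
  obtain ⟨F, _, _, hF⟩ := exists_field_card (l := p ^ f) ⟨p, f, hp.prime, Nat.pos_of_ne_zero f0, rfl⟩
  exact ⟨F, inferInstance, inferInstance, hF, e.iso_pgl (e.ab_of_odd hp hfo hK) F (hF.trans hK.symm)⟩

end Cfsg.Agent.S0730
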