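import Mathlib
import Cfsg.Statements.S0731
import Cfsg.Agent.H8.Za8

set_option autoImplicit false
open Cfsg

namespace Cfsg.Agent.S0731

open CfsgH8 CfsgH8.Za CfsgH2

/-- A finite Zassenhaus group whose point stabiliser has an abelian regular normal subgroup on the remaining points is sharply triply transitive or isomorphic to `PSL(2, F)` for a finite field `F` of odd characteristic. -/
theorem result {G Ω : Type*} [Group G] [Finite G] [MulAction G Ω] [Finite Ω] (hZ : Cfsg.IsZassenhausGroup G Ω) (x : Ω) (F : Subgroup G) (hFle : F ≤ MulAction.stabilizer G x) (hFn : (F.subgroupOf (MulAction.stabilizer G x)).Normal) (hFab : IsMulCommutative F) (hreg : ∀ y z : Ω, y ≠ x → z ≠ x → ∃! u : F, (u : G) • y = z) : (MulAction.IsMultiplyPretransitive G Ω 3 ∧ ∀ t : Fin 3 ↪ Ω, MulAction.stabilizer G t = ⊥) ∨ ∃ (K : Type) (_ : Field K) (_ : Fintype K), ringChar K ≠ 2 ∧ Nonempty (G ≃* Matrix.ProjectiveSpecialLinearGroup (Fin 2) K) := by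
  obtain ⟨b, hab⟩ := exists_ne hZ x
  have h := ZK.of_reg' (ZT.of hZ) hab hFle hFn hreg
  have h0 := HH_ne hZ hab
  have h1 := (feit hZ h).resolve_right fun e => e.2.1 hFab
  rcases h.card_cases h0 h1 with e | e
  · have s := h.s3_of_card e
    exact Or.inl ⟨is_three_pretransitive_iff.2 s.tri,
      (sharp_three_iff (G := G) (Ω := Ω)).2 fun g a b c h1 h2 h3 => s.three g a b c h1 h3 h2⟩
  · obtain ⟨K, _, _, hK⟩ := exists_field_card (h.isPrimePow (h.ker_ne h0) h1)
    refine Or.inr ⟨K, inferInstance, inferInstance, fun e2 => ?_, psl_of_half hZ h e K hK⟩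
    have := FiniteField.even_card_of_char_two e2
    have := card_pos' F
    omega

end Cfsg.Agent.S0731
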