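import Mathlib
import Cfsg.Statements.S0732
import Cfsg.Agent.H8.Za14

set_option autoImplicit false
open Cfsg

namespace Cfsg.Agent.S0732

open CfsgH8 CfsgH8.Za CfsgH2 CfsgH1 CfsgRO Subgroup MulAction

/-- A transitive permutation group on `p + 1` points (`p` prime) of order `(p+1) p d` with `d < p` is isomorphic to `PGL(2,p)` with `d = p - 1`, or to `PSL(2,p)` with `2d = p - 1`, or else `p + 1 = 2^q` for a prime `q`, `d = 1` or `d = q`, and the group is permutation-isomorphic to a group of semi-affine maps `x ↦ a φ(x) + b` of the field with `2^q` elements. -/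
theorem result {α : Type*} [Fintype α] [DecidableEq α] {p d : ℕ} (hp : p.Prime) (hα : Fintype.card α = p + 1) (G : Subgroup (Equiv.Perm α)) [MulAction.IsPretransitive G α] (hG : Nat.card G = (p + 1) * p * d) (hd : d < p) : (d = p - 1 ∧ Nonempty (G ≃* Matrix.ProjGenLinGroup (Fin 2) (ZMod p))) ∨ (2 * d = p - 1 ∧ Nonempty (G ≃* Matrix.ProjectiveSpecialLinearGroup (Fin 2) (ZMod p))) ∨ (∃ q : ℕ, q.Prime ∧ p + 1 = 2 ^ q ∧ (d = 1 ∨ d = q) ∧ ∃ e : α ≃ GaloisField 2 q, ∀ g : G, (e.symm.trans (((g : Equiv.Perm α)).trans e)) ∈ Cfsg.semiaffineGroup (GaloisField 2 q)) := by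
  haveI := Fact.mk hp
  have hΩ : Nat.card α = p + 1 := by rw [Nat.card_eq_fintype_card, hα]
  have hZ : ZT G α := zt_of_prime (fun g hg => Subtype.ext (Equiv.ext hg)) hp hΩ hG hd
  obtain ⟨a, b, hab⟩ := Fintype.exists_pair_of_one_lt_card (α := α) (by have := hp.pos; omega)
  obtain ⟨K, h⟩ := hZ.exists_K hab
  obtain ⟨e1, e2⟩ := card_of_prime hp hΩ hG h
  have hF : Fintype.card (ZMod p) = Nat.card K := by rw [ZMod.card, e1]
  by_cases c1 : d = p - 1
  · exact Or.inl ⟨c1, h.pgl_of_prime (e1 ▸ hp) (by rw [e1, e2, c1]) _ hF⟩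
  have ab := h.cyc_of_prime (e1 ▸ hp)
  rcases h.zas_or with hz | ⟨M, R⟩
  · have := (h.card_cases (HH_ne hz hab) ((feit hz h).resolve_right fun e => e.2.1 ab)).resolve_left
      (by rwa [e1, e2])
    exact Or.inr (Or.inl ⟨by rwa [e1, e2] at this, psl_of_half hz h this _ hF⟩)
  have d0 := e2 ▸ card_pos' (HH G a b)
  have ex := h.rn_exp R (e1 ▸ hp.odd_of_ne_two (by omega))
  have inv : ∀ n ∈ M, n⁻¹ = n := fun n hn => inv_eq_of_mul_eq_one_left (by rw [← pow_two, ex n hn])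
  have hM : IsMulCommutative M := ⟨⟨fun x y => Subtype.ext (by
    change x.1 * y = y * x
    rw [← inv _ (mul_mem x.2 y.2), mul_inv_rev, inv x x.2, inv y y.2])⟩⟩
  obtain ⟨q, hq⟩ := exists_card_eq_pow (isPGroup_of_exp ex)
  have e3 : p + 1 = 2 ^ q := by rw [← hq, R.card a, hΩ]
  have qp : q.Prime := Nat.Prime.of_mersenne (by rw [mersenne, ← e3]; exact hp)
  haveI := Fintype.ofFinite (GaloisField 2 q)
  have cF := GaloisField.card 2 q qp.ne_zero
  obtain ⟨h1, e, he⟩ := h.semiaff R ab hM (GaloisField 2 q) (by rw [← Nat.card_eq_fintype_card, cF, hq])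
  rw [card_aut cF, e2] at h1
  refine Or.inr (Or.inr ⟨q, qp, e3, (Nat.dvd_prime qp).1 h1, e.symm, fun g => ?_⟩)
  obtain ⟨u, t, σ, h2⟩ := he g
  exact ⟨u, t, σ, fun x => e.symm_apply_eq.2 (h2 x)⟩

end Cfsg.Agent.S0732
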