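import Mathlib
import Cfsg.Statements.S0733

set_option autoImplicit false
open Cfsg

namespace Cfsg.Agent.S0733

open MulAction
open scoped Pointwise

/-- A permutation group of affine type — generated by the translations of a finite vector space `V` over `ZMod p` together with a group `G₀` of linear automorphisms — is primitive on `V` if and only if `G₀` is irreducible on `V`. -/
theorem result {p : ℕ} [Fact p.Prime] {V : Type*} [AddCommGroup V] [Module (ZMod p) V] [Finite V] [Nontrivial V] (G₀ : Subgroup (V ≃ₗ[ZMod p] V)) (G : Subgroup (Equiv.Perm V)) (hG : ∀ σ : Equiv.Perm V, σ ∈ G ↔ ∃ g ∈ G₀, ∃ b : V, ∀ x : V, σ x = (g : V ≃ₗ[ZMod p] V) x + b) : MulAction.IsPreprimitive G V ↔ ∀ W : Submodule (ZMod p) V, (∀ g ∈ G₀, ∀ v ∈ W, (g : V ≃ₗ[ZMod p] V) v ∈ W) → W = ⊥ ∨ W = ⊤ := by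
  have htr : ∀ b : V, Equiv.addRight b ∈ G := fun b =>
    (hG _).mpr ⟨1, G₀.one_mem, b, fun x => by simp⟩
  have hlin : ∀ g ∈ G₀, (g : V ≃ₗ[ZMod p] V).toEquiv ∈ G := fun g hg =>
    (hG _).mpr ⟨g, hg, 0, fun x => by simp⟩
  constructor
  · intro hp W hW
    have hblock : IsBlock G (W : Set V) := by
      rw [isBlock_iff_smul_eq_of_mem]
      intro σ x hx hσx
      obtain ⟨g, hg, b, hb⟩ := (hG σ).mp σ.2
      have hsm : ∀ y, σ • y = g y + b := hb
      have hbW : b ∈ W := by
        rw [hsm] at hσx
        have := W.sub_mem hσx (hW g hg x hx)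
        simpa using this
      apply Set.eq_of_subset_of_ncard_le
      · rintro _ ⟨y, hy, rfl⟩
        show σ • y ∈ W
        rw [hsm]
        exact W.add_mem (hW g hg y hy) hbW
      · rw [Set.ncard_smul_set]
      · exact Set.toFinite _
    rcases hp.isTrivialBlock_of_isBlock hblock with h | h
    · left
      rw [eq_bot_iff]
      intro x hx
      exact h hx W.zero_mem
    · right
      exact SetLike.coe_injective h
  · intro h
    haveI : IsPretransitive G V := ⟨fun x y => ⟨⟨_, htr (y - x)⟩, by
      show x + (y - x) = y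
      abel⟩⟩
    refine IsPreprimitive.of_isTrivialBlock_base (0 : V) fun {B} h0 hB => ?_
    have hadd : ∀ b ∈ B, ∀ x ∈ B, x + b ∈ B := by
      intro b hb x hx
      have := isBlock_iff_smul_eq_of_mem.mp hB (g := ⟨_, htr b⟩) h0 (by
        show 0 + b ∈ B
        simpa using hb)
      rw [← this]
      exact ⟨x, hx, rfl⟩
    let A : AddSubmonoid V := ⟨⟨B, fun {x y} hx hy => hadd y hy x hx⟩, h0⟩
    let W : Submodule (ZMod p) V :=
      { A with
        smul_mem' := fun c x hx => by
          have : c • x = c.val • x := by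
            conv_lhs => rw [← ZMod.natCast_zmod_val c]
            exact Nat.cast_smul_eq_nsmul _ _ _
          rw [this]
          exact A.nsmul_mem hx _ }
    have hW := h W (fun g hg v hv => by
      have := isBlock_iff_smul_eq_of_mem.mp hB (g := ⟨_, hlin g hg⟩) h0 (by
        show g 0 ∈ B
        simpa using h0)
      show g v ∈ B
      rw [← this]
      exact ⟨v, hv, rfl⟩)
    rcases hW with hW | hW
    · left
      intro x hx y hy
      have hx' : x ∈ W := hx
      have hy' : y ∈ W := hy
      rw [hW, Submodule.mem_bot] at hx' hy'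
      rw [hx', hy']
    · right
      rw [Set.eq_univ_iff_forall]
      intro x
      have : x ∈ W := hW ▸ Submodule.mem_top
      exact this

end Cfsg.Agent.S0733
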