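import Mathlib
import Cfsg.Statements.S0734

set_option autoImplicit false
open Cfsg

namespace Cfsg.Agent.S0734

open MulAction
open scoped Pointwise

/-- Higman's criterion for primitivity: a transitive action on a finite set is primitive if and only if every non-trivial orbital graph (edges = images of a fixed pair of distinct points) is connected. -/
theorem result {G : Type*} [Group G] {Ω : Type*} [Finite Ω] [MulAction G Ω] [MulAction.IsPretransitive G Ω] [Nontrivial Ω] : MulAction.IsPreprimitive G Ω ↔ ∀ a b : Ω, a ≠ b → (SimpleGraph.fromRel fun x y : Ω => ∃ g : G, g • a = x ∧ g • b = y).Connected := by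
  constructor
  · intro hp a b hab
    set Γ := (SimpleGraph.fromRel fun x y : Ω => ∃ g : G, g • a = x ∧ g • b = y) with hΓ
    have hadj : ∀ g : G, ∀ x y, Γ.Adj x y → Γ.Adj (g • x) (g • y) := by
      intro g x y h
      rw [SimpleGraph.fromRel_adj] at h ⊢
      refine ⟨fun e => h.1 (MulAction.injective g e), ?_⟩
      rcases h.2 with ⟨k, h1, h2⟩ | ⟨k, h1, h2⟩
      · exact Or.inl ⟨g * k, by simp [mul_smul, h1], by simp [mul_smul, h2]⟩
      · exact Or.inr ⟨g * k, by simp [mul_smul, h1], by simp [mul_smul, h2]⟩
    have hreach : ∀ g : G, ∀ x y, Γ.Reachable x y → Γ.Reachable (g • x) (g • y) := by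
      intro g x y h
      exact h.map (⟨fun z => g • z, fun {x y} h => hadj g x y h⟩ : Γ →g Γ)
    have hblock : IsBlock G {x | Γ.Reachable a x} := by
      rw [isBlock_iff_smul_eq_of_mem]
      intro g x hx hgx
      have h1 : Γ.Reachable a (g • a) := hgx.trans (hreach g a x hx).symm
      ext y
      rw [Set.mem_smul_set_iff_inv_smul_mem]
      constructor
      · intro hy
        have := hreach g _ _ hy
        rw [smul_inv_smul] at this
        exact h1.trans this
      · intro hy
        have := hreach g⁻¹ _ _ (h1.symm.trans hy)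
        rwa [inv_smul_smul] at this
    rcases hp.isTrivialBlock_of_isBlock hblock with h | h
    · exfalso
      apply hab
      refine h (SimpleGraph.Reachable.refl a) (SimpleGraph.Adj.reachable ?_)
      rw [SimpleGraph.fromRel_adj]
      exact ⟨hab, Or.inl ⟨1, by simp, by simp⟩⟩
    · haveI : Nonempty Ω := ⟨a⟩
      refine ⟨fun x y => ?_⟩
      have hx : x ∈ {x | Γ.Reachable a x} := h ▸ Set.mem_univ x
      have hy : y ∈ {x | Γ.Reachable a x} := h ▸ Set.mem_univ y
      exact hx.symm.trans hy
  · intro h
    refine ⟨fun {B} hB => ?_⟩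
    by_cases hs : B.Subsingleton
    · exact Or.inl hs
    right
    obtain ⟨a, ha, b, hb, hab⟩ := Set.not_subsingleton_iff.mp hs
    have hc := h a b hab
    have key : ∀ x y, (SimpleGraph.fromRel fun x y : Ω => ∃ g : G, g • a = x ∧ g • b = y).Adj x y →
        x ∈ B → y ∈ B := by
      intro x y hxy hx
      rw [SimpleGraph.fromRel_adj] at hxy
      rcases hxy.2 with ⟨k, rfl, rfl⟩ | ⟨k, rfl, rfl⟩
      · have := isBlock_iff_smul_eq_of_mem.mp hB ha hx
        rw [← this]; exact Set.smul_mem_smul_set hb
      · have := isBlock_iff_smul_eq_of_mem.mp hB hb hx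
        rw [← this]; exact Set.smul_mem_smul_set ha
    rw [Set.eq_univ_iff_forall]
    intro y
    obtain ⟨w⟩ := hc a y
    clear hab hb hc
    have : ∀ {x y : Ω} (w : (SimpleGraph.fromRel fun x y : Ω => ∃ g : G, g • a = x ∧ g • b = y).Walk x y), x ∈ B → y ∈ B := by
      intro x y w
      induction w with
      | nil => exact id
      | cons h _ ih => exact fun hx => ih (key _ _ h hx)
    exact this w ha

end Cfsg.Agent.S0734
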