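import Mathlib
import Cfsg.Statements.S0735
import Cfsg.Agent.H8.Multi

set_option autoImplicit false
open Cfsg

namespace Cfsg.Agent.S0735
open scoped Pointwise


/-- A 2-homogeneous permutation group (transitive on 2-subsets) of even order is doubly transitive; a non-trivial 2-homogeneous group is primitive. -/
theorem result {α : Type*} [Fintype α] [DecidableEq α] (G : Subgroup (Equiv.Perm α)) (h2 : MulAction.IsPretransitive G (Set.powersetCard α 2)) (hα : 3 ≤ Fintype.card α) : (Even (Nat.card G) → MulAction.IsMultiplyPretransitive G α 2) ∧ (G ≠ ⊥ → MulAction.IsPreprimitive G α) := by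
  have hp : ∀ a b c d : α, a ≠ b → c ≠ d → ∃ g : G, (g • a = c ∧ g • b = d) ∨ (g • a = d ∧ g • b = c) := by
    intro a b c d hab hcd
    obtain ⟨g, hg⟩ := h2.exists_smul_eq ⟨{a, b}, by simpa using Finset.card_pair hab⟩
      ⟨{c, d}, by simpa using Finset.card_pair hcd⟩
    have h : g • ({a, b} : Finset α) = {c, d} := congrArg Subtype.val hg
    simp only [Finset.smul_finset_insert, Finset.smul_finset_singleton] at h
    refine ⟨g, ?_⟩
    have h' : ({g • a, g • b} : Set α) = {c, d} := by
      have := congrArg (fun s : Finset α => (s : Set α)) h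
      simpa using this
    exact Set.pair_eq_pair_iff.mp h'
  constructor
  · intro hev
    obtain ⟨t, ht⟩ := exists_prime_orderOf_dvd_card' (G := G) 2 hev.two_dvd
    have ht1 : t ≠ 1 := by rintro rfl; simp at ht
    have : ∃ a : α, t • a ≠ a := by
      by_contra h
      push Not at h
      exact ht1 (by ext a; exact h a)
    obtain ⟨a, ha⟩ := this
    have htt : t • t • a = a := by
      rw [← mul_smul, ← pow_two, ← ht, pow_orderOf_eq_one, one_smul]
    have key : ∀ c d, c ≠ d → ∃ g : G, g • a = c ∧ g • t • a = d := by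
      intro c d hcd
      obtain ⟨g, h | h⟩ := hp a (t • a) c d ha.symm hcd
      · exact ⟨g, h⟩
      · exact ⟨g * t, by rw [mul_smul, h.2], by rw [mul_smul, htt, h.1]⟩
    rw [MulAction.is_two_pretransitive_iff]
    intro x y c d hxy hcd
    obtain ⟨g, h1, h2⟩ := key x y hxy
    obtain ⟨g', h3, h4⟩ := key c d hcd
    exact ⟨g' * g⁻¹, by rw [mul_smul, ← h1, inv_smul_smul, h3], by
      rw [mul_smul, ← h2, inv_smul_smul, h4]⟩
  · intro _
    have htr : MulAction.IsPretransitive G α := by
      refine ⟨fun x y => ?_⟩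
      by_cases hxy : x = y
      · exact ⟨1, by simp [hxy]⟩
      obtain ⟨z, hz⟩ : ∃ z, z ∉ ({x, y} : Finset α) := by
        by_contra hh
        push Not at hh
        have := Finset.card_le_card (show Finset.univ ⊆ ({x, y} : Finset α) from fun z _ => hh z)
        have h3 := Finset.card_le_two (a := x) (b := y)
        rw [Finset.card_univ] at this
        omega
      simp only [Finset.mem_insert, Finset.mem_singleton, not_or] at hz
      obtain ⟨g, h | h⟩ := hp x z y z (Ne.symm hz.1) (Ne.symm hz.2)
      · exact ⟨g, h.1⟩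
      · exact ⟨g * g, by rw [mul_smul, h.1, h.2]⟩
    apply CfsgH8.isPreprimitive_of_block
    intro B hB
    by_cases hs : B.Subsingleton
    · exact Or.inl hs
    right
    obtain ⟨a, ha, b, hb, hab⟩ := Set.not_subsingleton_iff.mp hs
    intro c
    by_cases hc : c = a
    · exact hc ▸ ha
    obtain ⟨g, h | h⟩ := hp a b a c hab (Ne.symm hc)
    · exact h.2 ▸ hB g a ha (h.1.symm ▸ ha) b hb
    · exact h.1 ▸ hB g b hb (h.2.symm ▸ ha) a ha

end Cfsg.Agent.S0735
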