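import Mathlib
import Cfsg.Statements.S0736

set_option autoImplicit false
open Cfsg

namespace Cfsg.Agent.S0736

open Finset
open scoped Pointwise

theorem luc {p : ℕ} [Fact p.Prime] (a c : ℕ) : (p ^ a * c + (p ^ a - 1)).choose (p ^ a * c) ≡ 1 [MOD p] := by
  have hp : p.Prime := Fact.out
  induction a with
  | zero => simp [Nat.ModEq]
  | succ a ih =>
    have h1 : p ^ (a+1) * c + (p ^ (a+1) - 1) = (p - 1) + p * (p ^ a * c + (p ^ a - 1)) := by
      have h2 : 1 ≤ p ^ a := Nat.one_le_pow _ _ hp.pos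
      have h3 : 1 ≤ p ^ (a+1) := Nat.one_le_pow _ _ hp.pos
      have h4 := hp.one_le
      zify [h2, h3, h4]
      ring
    have h2 : p ^ (a+1) * c = p * (p ^ a * c) := by ring
    have h5 : p - 1 < p := Nat.sub_lt hp.pos one_pos
    refine (Choose.choose_modEq_choose_mod_mul_choose_div_nat (p := p)).trans ?_
    rw [h1, h2, Nat.add_mul_mod_self_left, Nat.mul_mod_right, Nat.choose_zero_right, one_mul,
      Nat.add_mul_div_left _ _ hp.pos, Nat.div_eq_of_lt h5, zero_add, Nat.mul_div_cancel_left _ hp.pos]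
    exact ih

theorem dc {α : Type*} [DecidableEq α] (O : Finset α → Prop) [DecidablePred O] (M : Finset α) (j : ℕ) :
    ∑ K ∈ powersetCard (j+1) M, #(K.filter fun x => O (K.erase x)) =
      ∑ t ∈ (powersetCard j M).filter O, #(M \ t) := by
  rw [← card_sigma, ← card_sigma]
  refine card_bij' (fun x _ => ⟨x.1.erase x.2, x.2⟩) (fun y _ => ⟨insert y.2 y.1, y.2⟩) ?_ ?_ ?_ ?_
  · rintro ⟨K, x⟩ h
    simp only [mem_sigma, mem_powersetCard, mem_filter, mem_sdiff] at h ⊢
    obtain ⟨⟨h1, h2⟩, h3, h4⟩ := h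
    refine ⟨⟨⟨(erase_subset _ _).trans h1, ?_⟩, h4⟩, h1 h3, notMem_erase _ _⟩
    rw [card_erase_of_mem h3, h2]; rfl
  · rintro ⟨t, x⟩ h
    simp only [mem_sigma, mem_powersetCard, mem_filter, mem_sdiff] at h ⊢
    obtain ⟨⟨⟨h1, h2⟩, h3⟩, h4, h5⟩ := h
    refine ⟨⟨insert_subset h4 h1, by rw [card_insert_of_notMem h5, h2]⟩, mem_insert_self _ _, ?_⟩
    rwa [erase_insert h5]
  · rintro ⟨K, x⟩ h
    simp only [mem_sigma, mem_powersetCard, mem_filter] at h
    simp [insert_erase h.2.1]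
  · rintro ⟨t, x⟩ h
    simp only [mem_sigma, mem_powersetCard, mem_filter, mem_sdiff] at h
    simp [erase_insert h.2.2]

/-- A `k`-homogeneous permutation group of degree `n`, `k ≥ 2`, with `k + q - 1 ≤ n` for every prime power `q` dividing `k`, is `(k-1)`-homogeneous. -/
theorem result {α : Type*} [Fintype α] [DecidableEq α] (G : Subgroup (Equiv.Perm α)) {k : ℕ} (hk : 2 ≤ k) (hG : MulAction.IsPretransitive G (Set.powersetCard α k)) (hq : ∀ q : ℕ, IsPrimePow q → q ∣ k → k + q - 1 ≤ Fintype.card α) : MulAction.IsPretransitive G (Set.powersetCard α (k - 1)) := by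
  classical
  obtain ⟨j, rfl⟩ : ∃ j, k = j + 1 := ⟨k - 1, by omega⟩
  have hkn : j + 1 ≤ Fintype.card α := by
    have hm := Nat.minFac_prime (n := j + 1) (by omega)
    have := hq _ hm.isPrimePow (Nat.minFac_dvd _)
    have := hm.one_le
    omega
  refine ⟨fun s t => ?_⟩
  have hs : #s.1 = j := by simpa using s.2
  have ht : #t.1 = j := by simpa using t.2
  let O : Finset α → Prop := fun u => ∃ g : G, g • s.1 = u
  let r : Finset α → ℕ := fun K => #(K.filter fun x => O (K.erase x))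
  have hr : ∀ K L : Finset α, #K = j + 1 → #L = j + 1 → r K ≤ r L := by
    intro K L hK hL
    obtain ⟨g, hg⟩ := hG.exists_smul_eq (⟨K, by simpa using hK⟩ : Set.powersetCard α (j+1)) ⟨L, by simpa using hL⟩
    have hg' : g • K = L := by
      exact congrArg Subtype.val hg
    refine card_le_card_of_injOn (fun x => g • x) ?_ (fun x _ y _ h => by simpa using h)
    intro x hx
    simp only [coe_filter, Set.mem_ofPred_eq] at hx ⊢
    obtain ⟨hx, h, hh⟩ := hx
    refine ⟨hg' ▸ smul_mem_smul_finset hx, g * h, ?_⟩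
    rw [mul_smul, hh, ← hg']
    ext y
    simp only [mem_smul_finset, mem_erase]
    constructor
    · rintro ⟨z, ⟨h1, h2⟩, rfl⟩
      exact ⟨fun h => h1 (by simpa using h), z, h2, rfl⟩
    · rintro ⟨h1, z, h2, rfl⟩
      exact ⟨z, ⟨fun h => h1 (by rw [h]), h2⟩, rfl⟩
  have ext1 : ∀ u : Finset α, #u = j → ∃ x, x ∉ u := by
    intro u hu
    by_contra h
    push Not at h
    have : u = univ := eq_univ_of_forall h
    rw [this, card_univ] at hu
    omega
  obtain ⟨x, hx⟩ := ext1 s.1 hs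
  have hK0 : #(insert x s.1) = j + 1 := by rw [card_insert_of_notMem hx, hs]
  have hpos : 0 < r (insert x s.1) := by
    refine card_pos.2 ⟨x, ?_⟩
    simp only [mem_filter]
    exact ⟨mem_insert_self _ _, 1, by rw [erase_insert hx, one_smul]⟩
  have hdvd : j + 1 ∣ r (insert x s.1) := by
    rw [Nat.dvd_iff_prime_pow_dvd_dvd]
    intro p a hp ha
    rcases Nat.eq_zero_or_pos a with rfl | ha0
    · simp
    haveI : Fact p.Prime := ⟨hp⟩
    have h1 := hq (p ^ a) (hp.isPrimePow.pow ha0.ne') ha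
    obtain ⟨M, -, hM⟩ := exists_subset_card_eq (s := (univ : Finset α)) (n := j + 1 + p ^ a - 1) (by simpa using h1)
    have h2 := dc O M j
    have h3 : ∑ K ∈ powersetCard (j+1) M, r K = (j + 1 + p ^ a - 1).choose (j+1) * r (insert x s.1) := by
      rw [sum_congr rfl (g := fun _ => r (insert x s.1)), sum_const, card_powersetCard, hM, smul_eq_mul]
      intro K hK
      have hK := (mem_powersetCard.1 hK).2
      exact le_antisymm (hr _ _ hK hK0) (hr _ _ hK0 hK)
    have h4 : p ^ a ∣ ∑ t ∈ (powersetCard j M).filter O, #(M \ t) := by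
      refine dvd_sum fun u hu => ?_
      have hu := mem_powersetCard.1 (mem_filter.1 hu).1
      rw [card_sdiff_of_subset hu.1, hM, hu.2]
      have : 1 ≤ p ^ a := Nat.one_le_pow _ _ hp.pos
      rw [show j + 1 + p ^ a - 1 - j = p ^ a by omega]
    rw [← h2] at h4
    change p ^ a ∣ ∑ K ∈ powersetCard (j+1) M, r K at h4
    rw [h3] at h4
    obtain ⟨c, hc⟩ := ha
    have h5 := luc (p := p) a c
    have h6 : 1 ≤ p ^ a := Nat.one_le_pow _ _ hp.pos
    rw [← hc, show j + 1 + (p ^ a - 1) = j + 1 + p ^ a - 1 by omega] at h5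
    refine Nat.Coprime.dvd_of_dvd_mul_left ?_ h4
    refine Nat.Coprime.pow_left _ ?_
    rw [Nat.Prime.coprime_iff_not_dvd hp]
    intro h7
    have h8 := (Nat.modEq_zero_iff_dvd.2 h7).symm.trans h5
    have := Nat.ModEq.eq_of_lt_of_lt h8 hp.pos hp.one_lt
    omega
  obtain ⟨y, hy⟩ := ext1 t.1 ht
  have hK1 : #(insert y t.1) = j + 1 := by rw [card_insert_of_notMem hy, ht]
  have h9 : j + 1 ≤ r (insert y t.1) := (Nat.le_of_dvd hpos hdvd).trans (hr _ _ hK0 hK1)
  have h10 : (insert y t.1).filter (fun x => O ((insert y t.1).erase x)) = insert y t.1 :=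
    eq_of_subset_of_card_le (filter_subset _ _) (by rw [hK1]; exact h9)
  have h11 : y ∈ (insert y t.1).filter (fun x => O ((insert y t.1).erase x)) := by
    rw [h10]; exact mem_insert_self _ _
  obtain ⟨g, hg⟩ := (mem_filter.1 h11).2
  rw [erase_insert hy] at hg
  exact ⟨g, Subtype.ext hg⟩

end Cfsg.Agent.S0736
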