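import Mathlib
import Cfsg.Statements.S0737
import Cfsg.Agent.H8.Hup2
import Cfsg.Agent.H8.MinNormal
import Cfsg.Agent.H2.FT
import Cfsg.Agent.S0735

set_option autoImplicit false
open Cfsg

namespace Cfsg.Agent.S0737

open Subgroup CfsgH2 CfsgH1 CfsgH8 CfsgH8.Hu MulAction Function
open scoped Pointwise

theorem pm {K V : Type*} [Group K] [Finite K] [AddCommGroup V] [Finite V] [Nontrivial V] [DistribMulAction K V]
    {p : ℕ} (hp : p.Prime) (ex : ∀ v : V, p • v = 0) (oK : Odd (Nat.card K)) (oV : Odd (Nat.card V))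
    (tr : ∀ v w : V, v ≠ 0 → w ≠ 0 → ∃ g : K, g • v = w ∨ g • v = -w) :
    ∃ n, Nat.card V = p ^ n ∧ p ^ n % 4 = 3 ∧ SL1 K V := by
  let f : K × ℤˣ →* V ≃ₗ[ℤ] V :=
    { toFun := fun x => DistribMulAction.toLinearEquiv ℤ V x.1 * DistribMulAction.toLinearEquiv ℤ V x.2
      map_one' := by ext v; simp
      map_mul' := fun x y => by
        ext v
        change (x.1 * y.1) • (x.2 * y.2) • v = x.1 • x.2 • y.1 • y.2 • v
        rw [mul_smul, mul_smul, smul_comm y.1 x.2] }
  have fa : ∀ x v, f x v = x.1 • x.2 • v := fun _ _ => rfl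
  haveI := ft oK
  haveI : Group.IsSolvable f.range := Group.isSolvable_of_surjective f.rangeRestrict_surjective
  haveI : Finite f.range := Finite.of_surjective _ f.rangeRestrict_surjective
  have h : TR p f.range V := ⟨hp, ex, fun g e => Subtype.ext (LinearEquiv.ext e), fun v w v0 w0 => by
    obtain ⟨g, e | e⟩ := tr v w v0 w0
    · exact ⟨⟨_, (g, 1), rfl⟩, by change f _ _ = _; rw [fa, one_smul, e]⟩
    · exact ⟨⟨_, (g, -1), rfl⟩, by change f _ _ = _; rw [fa, Units.neg_smul, one_smul, smul_neg, e, neg_neg]⟩,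
    inferInstance⟩
  have d : Nat.card f.range ∣ Nat.card K * 2 := by
    have := card_dvd_of_surjective _ f.rangeRestrict_surjective
    rwa [Nat.card_prod, Nat.card_eq_fintype_card (α := ℤˣ), Fintype.card_units_int] at this
  obtain ⟨n, n0, e⟩ := h.card
  have d4 : ¬ 4 ∣ Nat.card K * 2 := by obtain ⟨k, hk⟩ := oK; omega
  have m4 : p ^ n % 4 = 3 := by
    have := mt (fun t : 4 ∣ _ => t.trans (h.card_dvd.trans d)) d4
    obtain ⟨k, hk⟩ := oV
    omega
  have s : SL1 f.range V := by
    rcases (show n = 1 ∨ 1 < n by omega) with rfl | n1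
    · exact dim1 (by rwa [e, pow_one])
    have p2 : p ≠ 2 := by
      rintro rfl
      have := dvd_pow_self 2 n0.ne'
      omega
    obtain ⟨u, hu, o⟩ := zsig hp.one_lt n1 (fun t => p2 t.1) (by
      rintro ⟨rfl, -⟩
      obtain ⟨k, rfl⟩ := hp.odd_of_ne_two p2
      rw [show (2 * k + 1) ^ 2 = 4 * (k * k + k) + 1 by ring] at m4
      omega)
    refine h.ppd e n1 hu o fun _ T _ _ _ _ _ _ => ?_
    obtain ⟨k, hk⟩ := exists_card_eq_pow (isPGroup_piCoreOf : IsPGroup 2 O[{2}, (⊤ : Subgroup f.range)])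
    have i := (index_cent_dvd O[{2}, (⊤ : Subgroup f.range)]).trans card_aut_dvd
    have := (card_subgroup_dvd_card O[{2}, (⊤ : Subgroup f.range)]).trans d
    rw [hk] at i this
    have : k < 2 := by
      by_contra t
      exact d4 ((pow_dvd_pow 2 (not_lt.1 t)).trans this)
    have : (2 ^ k - 1).factorial = 1 := by interval_cases k <;> rfl
    rw [this, Nat.dvd_one, index_eq_one] at i
    exact le_top.trans i.ge
  obtain ⟨F, _, _, ε, s⟩ := s
  refine ⟨n, e, m4, F, inferInstance, inferInstance, ε, fun g => ?_⟩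
  obtain ⟨a, σ, t⟩ := s ⟨_, (g, 1), rfl⟩
  refine ⟨a, σ, fun v => ?_⟩
  rw [← t]
  change _ = ε (f _ _)
  rw [fa, one_smul]

/-- A non-trivial 2-homogeneous permutation group that is not doubly transitive has odd order and degree `p^f ≡ 3 (mod 4)`, and is permutation-isomorphic to a group of semi-affine transformations `x ↦ a φ(x) + b` of the field with `p^f` elements containing all translations. -/
theorem result {α : Type*} [Fintype α] [DecidableEq α] (G : Subgroup (Equiv.Perm α)) (hne : G ≠ ⊥) (h2 : MulAction.IsPretransitive G (Set.powersetCard α 2)) (hn2 : ¬ MulAction.IsMultiplyPretransitive G α 2) : Odd (Nat.card G) ∧ ∃ (p f : ℕ) (_ : Fact p.Prime), p ≠ 2 ∧ Fintype.card α = p ^ f ∧ p ^ f % 4 = 3 ∧ ∃ e : α ≃ GaloisField p f, (∀ g : G, e.symm.trans (((g : Equiv.Perm α)).trans e) ∈ Cfsg.semiaffineGroup (GaloisField p f)) ∧ ∀ b : GaloisField p f, ∃ g : G, ∀ x : α, e ((g : Equiv.Perm α) x) = e x + b := by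
  have h3 : 3 ≤ Fintype.card α := by
    by_contra t
    obtain ⟨⟨g, hg⟩, g1⟩ := ne_bot_iff_exists_ne_one.1 hne
    obtain ⟨a, ha⟩ : ∃ a, g a ≠ a := by
      by_contra u
      push Not at u
      exact g1 (Subtype.ext (Equiv.ext u))
    have k : ∀ x, x = a ∨ x = g a := fun x => by
      by_contra u
      push Not at u
      exact t (Fintype.two_lt_card_iff.2 ⟨x, a, g a, u.1, u.2, ha.symm⟩)
    have gg : g (g a) = a := (k _).resolve_right (mt g.injective.eq_iff.1 ha)
    refine hn2 (is_two_pretransitive_iff.2 fun {x y z w} hx hz => ?_)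
    rcases k x with rfl | rfl <;> rcases k y with rfl | hy <;> rcases k z with rfl | hz' <;>
      rcases k w with rfl | hw <;> subst_vars <;>
      first | contradiction | exact ⟨1, rfl, rfl⟩ | exact ⟨⟨g, hg⟩, by simp [gg], by simp [gg]⟩
  obtain ⟨ev, pr⟩ := Cfsg.Agent.S0735.result G h2 h3
  have oG : Odd (Nat.card G) := Nat.not_even_iff_odd.1 (mt ev hn2)
  haveI := pr hne
  haveI := ft oG
  haveI := (nontrivial_iff_ne_bot G).2 hne
  obtain ⟨N, _, n0, -, mn⟩ := CfsgH8.exists_minimal_normal_le (⊤ : Subgroup G) top_ne_bot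
  have ab : IsMulCommutative N := by
    have := (mn ⁅N, N⁆ inferInstance (commutator_le_left _ _)).resolve_right (Group.IsSolvable.commutator_lt_of_ne_bot n0).ne
    exact isMulComm_of_le_cent (commutator_eq_bot_iff_le_centralizer.1 this)
  obtain ⟨p, hp, ex⟩ := elementary_of_minimal_normal_comm N n0 mn ab
  have tr := transitive_of_normal_of_primitive (Ω := α) N n0
  obtain ⟨a⟩ : Nonempty α := Fintype.card_pos_iff.1 (by omega)
  letI : CommGroup N := { (inferInstance : Group N) with mul_comm := ab.is_comm.comm }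
  have ij : Injective fun m : N => m • a := fun x y e => by
    have : (y⁻¹ * x) • a = a := by rw [mul_smul, show x • a = y • a from e, inv_smul_smul]
    have := perm_eq_one_of_commute_of_transitive N tr (c := (y⁻¹ * x).1.1) (fun m hm =>
      congrArg Subtype.val (congrArg Subtype.val (mul_comm (y⁻¹ * x) ⟨m, hm⟩))) this
    exact (inv_mul_eq_one.1 (Subtype.ext (Subtype.ext this))).symm
  let β : Additive N ≃ α := Additive.toMul.trans (Equiv.ofBijective _ ⟨ij, fun b => tr.1 a b⟩)
  letI : MulDistribMulAction (stabilizer G a) N := MulDistribMulAction.compHom N ((MulAut.conjNormal (H := N)).comp (stabilizer G a).subtype)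
  letI : DistribMulAction (stabilizer G a) (Additive N) :=
    { smul := fun g v => .ofMul (g • v.toMul)
      one_smul := fun v => one_smul _ v.toMul
      mul_smul := fun g h v => mul_smul g h v.toMul
      smul_zero := fun g => (smul_one g : g • (1 : N) = 1)
      smul_add := fun g v w => smul_mul' g v.toMul w.toMul }
  have b1 : ∀ (g : stabilizer G a) v, β (g • v) = g.1 • β v := fun g v => by
    change (g.1 * v.toMul.1 * g.1⁻¹) • a = g.1 • v.toMul.1 • a
    rw [mul_smul, mul_smul, show g.1⁻¹ • a = a from (inv_mem g.2 :)]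
  have b2 : ∀ v w, β (v + w) = v.toMul.1 • β w := fun v w => mul_smul v.toMul.1 w.toMul.1 a
  have b0 : β 0 = a := one_smul G a
  haveI := (nontrivial_iff_ne_bot N).2 n0
  obtain ⟨n, e, m4, F, _, _, ε, s⟩ := pm (K := stabilizer G a) (V := Additive N) hp
    (fun v => Subtype.ext (ex _ v.toMul.2)) (oG.of_dvd_nat (card_subgroup_dvd_card _))
    (oG.of_dvd_nat (card_subgroup_dvd_card N)) fun v w v0 w0 => by
    have k : ∀ v, v ≠ 0 → a ≠ β v := fun v v0 e => v0 (β.injective (e ▸ b0)).symm
    obtain ⟨g, hg⟩ := h2.1 ⟨{a, β v}, Finset.card_pair (k v v0)⟩ ⟨{a, β w}, Finset.card_pair (k w w0)⟩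
    have h : g • ({a, β v} : Finset α) = {a, β w} := congrArg Subtype.val hg
    simp only [Finset.smul_finset_insert, Finset.smul_finset_singleton] at h
    have h' : ({g • a, g • β v} : Set α) = {a, β w} := by
      simpa using congrArg (fun s : Finset α => (s : Set α)) h
    rcases Set.pair_eq_pair_iff.1 h' with ⟨h1, h2⟩ | ⟨h1, h2⟩
    · exact ⟨⟨g, h1⟩, .inl (β.injective ((b1 _ _).trans h2))⟩
    · refine ⟨⟨(-w).toMul.1 * g, ?_⟩, .inr (β.injective ((b1 _ _).trans ?_))⟩
      · rw [mem_stabilizer_iff, mul_smul, h1, ← b2, neg_add_cancel, b0]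
      · rw [mul_smul, h2, ← b0, ← b2, add_zero]
  haveI := Fact.mk hp
  have n0 : n ≠ 0 := by rintro rfl; simp at m4
  haveI := Fintype.ofFinite (GaloisField p n)
  let φ : F ≃+* GaloisField p n := FiniteField.ringEquivOfCardEq (by
    rw [← Nat.card_eq_fintype_card, ← Nat.card_eq_fintype_card, GaloisField.card p n n0, ← e, Nat.card_congr ε.toEquiv])
  refine ⟨oG, p, n, inferInstance, ?_, by rw [← e, ← Nat.card_eq_fintype_card, Nat.card_congr β], m4,
    β.symm.trans (ε.toEquiv.trans φ.toEquiv), fun g => ?_, fun b => ⟨(ε.symm (φ.symm b)).toMul.1, fun x => ?_⟩⟩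
  · rintro rfl
    have := dvd_pow_self 2 n0
    omega
  · obtain ⟨m, hm⟩ := β.surjective (g • a)
    obtain ⟨c, σ, t⟩ := s ⟨(-m).toMul.1 * g, by rw [mem_stabilizer_iff, mul_smul, ← hm, ← b2, neg_add_cancel, b0]⟩
    have c0 : φ c ≠ 0 := fun z => by
      obtain ⟨v, v0⟩ := exists_ne (0 : Additive N)
      have := t v
      rw [φ.map_eq_zero_iff.1 z, zero_mul, ε.map_eq_zero_iff, smul_eq_zero_iff_eq] at this
      exact v0 this
    refine ⟨Units.mk0 _ c0, φ (ε m), (φ.symm.trans σ).trans φ, fun x => ?_⟩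
    obtain ⟨x, rfl⟩ := φ.surjective x
    obtain ⟨v, rfl⟩ := ε.surjective x
    have : g • β v = β (m + (⟨(-m).toMul.1 * g, by
      rw [mem_stabilizer_iff, mul_smul, ← hm, ← b2, neg_add_cancel, b0]⟩ : stabilizer G a) • v) := by
      rw [b2, b1, smul_smul]; simp
    have u : g.1 (β v) = _ := this
    change φ (ε (β.symm (g.1 (β (ε.symm (φ.symm (φ (ε v)))))))) = φ c * φ (σ (φ.symm (φ (ε v)))) + φ (ε m)
    rw [φ.symm_apply_apply, ε.symm_apply_apply, u, β.symm_apply_apply, map_add, t, map_add, map_mul, add_comm]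
  · obtain ⟨v, rfl⟩ := β.surjective x
    have u : (ε.symm (φ.symm b)).toMul.1.1 (β v) = _ := (b2 _ v).symm
    change φ (ε (β.symm ((ε.symm (φ.symm b)).toMul.1.1 (β v)))) = φ (ε (β.symm (β v))) + b
    rw [u, β.symm_apply_apply, β.symm_apply_apply, map_add, map_add, ε.apply_symm_apply, φ.apply_symm_apply, add_comm]

end Cfsg.Agent.S0737
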