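import Mathlib
import Cfsg.Statements.S0738
import Cfsg.Agent.H8.Za2

set_option autoImplicit false
open Cfsg

namespace Cfsg.Agent.S0738

open CfsgH8.Za

/-- Let a finite Zassenhaus group of degree `n + 1` have two-point stabilisers of order `d` with `2d ≥ n - 1`. Then a normal subgroup of a point stabiliser acting regularly on the remaining points is elementary abelian, and the degree is a prime power plus one. -/
theorem result {G Ω : Type*} [Group G] [Finite G] [MulAction G Ω] [Fintype Ω] (hZ : Cfsg.IsZassenhausGroup G Ω) {a b : Ω} (hab : a ≠ b) (hd : Fintype.card Ω - 2 ≤ 2 * Nat.card ↥(MulAction.stabilizer G a ⊓ MulAction.stabilizer G b)) (F : Subgroup G) (hFle : F ≤ MulAction.stabilizer G a) (hFn : (F.subgroupOf (MulAction.stabilizer G a)).Normal) (hreg : ∀ y z : Ω, y ≠ a → z ≠ a → ∃! u : F, (u : G) • y = z) : IsMulCommutative F ∧ ∃ p f : ℕ, p.Prime ∧ (∀ u ∈ F, u ^ p = 1) ∧ Fintype.card Ω = p ^ f + 1 := by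
  have h := ZK.of_reg' (ZT.of hZ) hab hFle hFn hreg
  rw [← Nat.card_eq_fintype_card, h.card_Ω'] at hd ⊢
  obtain ⟨p, hp, e⟩ := h.elem (h.ker_ne (HH_ne hZ hab)) hd
  obtain ⟨f, hf⟩ := CfsgH2.exists_card_eq_pow (CfsgH2.elem_pgroup e)
  exact ⟨e.1, p, f, hp.out, e.2, by rw [hf]⟩

end Cfsg.Agent.S0738
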