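import Mathlib
import Cfsg.Statements.S0739
import Cfsg.Agent.H8.Za2

set_option autoImplicit false
open Cfsg

namespace Cfsg.Agent.S0739

open CfsgH8.Za CfsgH2 CfsgH1 Subgroup

/-- In a finite Zassenhaus group whose two-point stabiliser `H = G_{a,b}` has odd order `d`, and which has no normal `q`-complement for any prime `q ∣ d`, `H` is cyclic, `C_G(H) = H`, and every element swapping `a` and `b` inverts each element of `H`. -/
theorem result {G Ω : Type*} [Group G] [Finite G] [MulAction G Ω] [Fintype Ω] (hZ : Cfsg.IsZassenhausGroup G Ω) {a b : Ω} (hab : a ≠ b) (hodd : Odd (Nat.card ↥(MulAction.stabilizer G a ⊓ MulAction.stabilizer G b))) (hnil : ∀ q : ℕ, q.Prime → q ∣ Nat.card ↥(MulAction.stabilizer G a ⊓ MulAction.stabilizer G b) → ¬ ∃ N : Subgroup G, N.Normal ∧ N.index = q ^ (Nat.card G).factorization q) : IsCyclic ↥(MulAction.stabilizer G a ⊓ MulAction.stabilizer G b) ∧ Subgroup.centralizer ((MulAction.stabilizer G a ⊓ MulAction.stabilizer G b : Subgroup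 G) : Set G) = MulAction.stabilizer G a ⊓ MulAction.stabilizer G b ∧ ∀ s : G, s • a = b → s • b = a → ∀ h ∈ MulAction.stabilizer G a ⊓ MulAction.stabilizer G b, s * h * s⁻¹ = h⁻¹ := by
  obtain ⟨K, h⟩ := (ZT.of hZ).exists_K hab
  have h0 := HH_ne hZ hab
  have key : ∀ s : G, s • a = b → s • b = a → ∀ x ∈ HH G a b, s * x * s⁻¹ = x⁻¹ := fun s h1 h2 =>
    h.cyc_inv hodd (fun q _ hq hn => hnil q Fact.out hq (by
      obtain ⟨P, N, h1, h2⟩ := npc_top_iff.2 hn
      exact ⟨N, h1, by rw [h2.symm.index_eq_card, P.card_eq_multiplicity]⟩)) h1 h2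
  obtain ⟨w, h1, h2⟩ := h.two a b b a hab hab.symm
  have ab := isMulComm_of_inverted (key w h1 h2)
  refine ⟨h.cyc_of_comm ab, le_antisymm (fun g hg => ?_) (le_cent_self ab), key⟩
  refine (h.toZT.mem_norm hab le_rfl h0 (cent_le_norm _ hg)).resolve_right fun e => h0 ?_
  refine eq_bot_iff.2 fun x hx => ?_
  have e1 := key g e.1 e.2 x hx
  rw [← mem_cent_iff.1 hg x hx, mul_inv_cancel_right] at e1
  have : orderOf x ∣ 2 := orderOf_dvd_of_pow_eq_one (by rw [pow_two]; nth_rw 1 [e1]; simp)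
  exact orderOf_eq_one_iff.1 (Nat.eq_one_of_dvd_coprimes (Nat.coprime_two_right.2 hodd)
    (orderOf_dvd_of_mem hx) this)

end Cfsg.Agent.S0739
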