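import Mathlib
import Cfsg.Statements.S0740
import Cfsg.Agent.H8.Gleason

set_option autoImplicit false
open Cfsg

namespace Cfsg.Agent.S0740

open MulAction

/-- In a finite Zassenhaus group any two points `a ≠ b` are swapped by an involution; every such involution has exactly one fixed point when the degree is odd and 0 or 2 fixed points when the degree is even; and if the two-point stabiliser has even order, some such involution has exactly 2 fixed points. -/
theorem result {G Ω : Type*} [Group G] [Finite G] [MulAction G Ω] [Fintype Ω] (hZ : Cfsg.IsZassenhausGroup G Ω) {a b : Ω} (hab : a ≠ b) : (∃ s : G, orderOf s = 2 ∧ s • a = b ∧ s • b = a) ∧ (∀ s : G, orderOf s = 2 → s • a = b → s • b = a → (Odd (Fintype.card Ω) → Nat.card (MulAction.fixedBy Ω s) = 1) ∧ (Even (Fintype.card Ω) → Nat.card (MulAction.fixedBy Ω s) = 0 ∨ Nat.card (MulAction.fixedBy Ω s) = 2)) ∧ (Even (Fintype.card Ω) → Even (Nat.card ↥(MulAction.stabilizer G a ⊓ MulAction.stabilizer G b)) → ∃ s : G, orderOf s = 2 ∧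 s • a = b ∧ s • b = a ∧ Nat.card (MulAction.fixedBy Ω s) = 2) := by
  classical
  obtain ⟨hf, h2, h3, -, -⟩ := hZ
  have h2' := h2
  rw [is_two_pretransitive_iff] at h2'
  have := Fact.mk Nat.prime_two
  have hconj : ∀ t : G, orderOf t = 2 → ∃ s : G, orderOf s = 2 ∧ s • a = b ∧ s • b = a ∧
      Nat.card (fixedBy Ω s) = Nat.card (fixedBy Ω t) := by
    intro t ht
    have ht1 : t ≠ 1 := by rintro rfl; simp at ht
    obtain ⟨x, hx⟩ : ∃ x : Ω, t • x ≠ x := by
      by_contra h
      push Not at h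
      exact ht1 (eq_of_smul_eq_smul (α := Ω) fun x => by rw [h x, one_smul])
    have htt : t • t • x = x := by
      rw [← mul_smul, ← pow_two, ← ht, pow_orderOf_eq_one, one_smul]
    obtain ⟨g, h1, h2⟩ := h2' hx.symm hab
    refine ⟨g * t * g⁻¹, by rw [← ht]; exact (MulAut.conj g).orderOf_eq t, ?_, ?_,
      CfsgH8.card_fixedBy_conj t g⟩
    · rw [mul_smul, mul_smul, ← h1, inv_smul_smul, h2]
    · rw [mul_smul, mul_smul, ← h2, inv_smul_smul, htt, h1]
  have hle : ∀ s : G, orderOf s = 2 → Nat.card (fixedBy Ω s) ≤ 2 := by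
    intro s hs
    by_contra h
    push Not at h
    rw [Nat.card_coe_set_eq, Set.two_lt_ncard_iff (Set.toFinite _)] at h
    obtain ⟨x, y, z, hx, hy, hz, h1, h2, h4⟩ := h
    rw [h3 s x y z h1 h4 h2 hx hy hz] at hs
    simp at hs
  have hmod : ∀ s : G, orderOf s = 2 → Fintype.card Ω % 2 = Nat.card (fixedBy Ω s) % 2 := by
    intro s hs
    have := CfsgH8.card_modEq_card_fixedBy (Ω := Ω) Nat.prime_two (g := s) (k := 1)
      (by rw [pow_one, ← hs, pow_orderOf_eq_one])
    rwa [Nat.card_eq_fintype_card] at this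
  refine ⟨?_, fun s hs _ _ => ⟨fun h => ?_, fun h => ?_⟩, fun _ h => ?_⟩
  · obtain ⟨g, h1, h2⟩ := h2' hab hab.symm
    have hev : 2 ∣ orderOf g := by
      by_contra hodd
      obtain ⟨k, hk⟩ := Nat.not_even_iff_odd.mp (fun h => hodd h.two_dvd)
      have hk2 : ∀ k : ℕ, g ^ (2 * k) • a = a := by
        intro k
        induction k with
        | zero => simp
        | succ k ih => rw [mul_add, pow_add, mul_smul, mul_one, pow_two, mul_smul, h1, h2, ih]
      have := pow_orderOf_eq_one g
      rw [hk, pow_succ'] at this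
      apply hab
      rw [← h1, ← hk2 k, ← mul_smul, this, one_smul, hk2]
    obtain ⟨t, ht⟩ := exists_prime_orderOf_dvd_card' (G := G) 2 (hev.trans (orderOf_dvd_natCard g))
    obtain ⟨s, h1, h2, h3, -⟩ := hconj t ht
    exact ⟨s, h1, h2, h3⟩
  · have h1 := hle s hs
    have h2 := hmod s hs
    rw [Nat.odd_iff] at h
    omega
  · have h1 := hle s hs
    have h2 := hmod s hs
    rw [Nat.even_iff] at h
    omega
  · obtain ⟨t, ht⟩ := exists_prime_orderOf_dvd_card' 2 h.two_dvd
    have ht' : orderOf (t : G) = 2 := by rw [Subgroup.orderOf_coe, ht]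
    obtain ⟨s, h1, h2, h4, h5⟩ := hconj t ht'
    refine ⟨s, h1, h2, h4, le_antisymm (hle s h1) ?_⟩
    rw [h5, Nat.card_coe_set_eq, ← Set.ncard_pair hab]
    apply Set.ncard_le_ncard _ (Set.toFinite _)
    rintro x (rfl | rfl)
    · exact t.2.1
    · exact t.2.2

end Cfsg.Agent.S0740
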