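import Mathlib
import Cfsg.Statements.S0742
import Cfsg.Agent.H8.Za3

set_option autoImplicit false
open Cfsg

namespace Cfsg.Agent.S0742

open CfsgH8 CfsgH8.Za

/-- A finite Zassenhaus group of degree `n + 1` with two-point stabilisers of even order `d` satisfying `2d ≤ n - 1` has `n = p^f` for an odd prime `p` and is isomorphic to `PSL(2, p^f)`. -/
theorem result {G Ω : Type*} [Group G] [Finite G] [MulAction G Ω] [Fintype Ω] (hZ : Cfsg.IsZassenhausGroup G Ω) {a b : Ω} (hab : a ≠ b) (heven : Even (Nat.card ↥(MulAction.stabilizer G a ⊓ MulAction.stabilizer G b))) (hd : 2 * Nat.card ↥(MulAction.stabilizer G a ⊓ MulAction.stabilizer G b) ≤ Fintype.card Ω - 2) : ∃ (p f : ℕ) (K : Type) (_ : Field K) (_ : Fintype K), p.Prime ∧ p ≠ 2 ∧ Fintype.card K = p ^ f ∧ Fintype.card Ω = p ^ f + 1 ∧ Nonempty (G ≃* Matrix.ProjectiveSpecialLinearGroup (Fin 2) K) := by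
  obtain ⟨K, h⟩ := (ZT.of hZ).exists_K hab
  rw [← Nat.card_eq_fintype_card, h.card_Ω'] at hd ⊢
  replace hd : 2 * Nat.card (HH G a b) ≤ Nat.card K - 1 := hd
  have h1 := h.le_two_mul heven
  have hp := h.isPrimePow (h.ker_ne (HH_ne hZ hab)) h1
  obtain ⟨F, _, _, hF⟩ := exists_field_card hp
  obtain ⟨p, k, hp, hk, e⟩ := (isPrimePow_nat_iff _).1 hp
  obtain ⟨w, h2, h3⟩ := h.two a b b a hab hab.symm
  refine ⟨p, k, F, inferInstance, inferInstance, hp, ?_, hF.trans e.symm, by rw [e],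
    h.iso_psl (by omega) h2 h3 (inv_of_sq_all h2 h3 fun v => h.sq_swap heven hd) F hF⟩
  rintro rfl
  have := CfsgH2.card_pos' K
  have : 2 ∣ Nat.card K := e ▸ dvd_pow_self 2 hk.ne'
  omega

end Cfsg.Agent.S0742
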