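import Mathlib
import Cfsg.Statements.S0744
import Cfsg.Agent.H8.Gleason

set_option autoImplicit false
open Cfsg

namespace Cfsg.Agent.S0744


/-- If for some `k > 1` the pointwise stabilisers of all `(k-1)`-subsets have the same order `> 1` and those of all `k`-subsets have the same order, then the group is `(k-1)`-transitive. -/
theorem result {α : Type*} [Fintype α] [DecidableEq α] (G : Subgroup (Equiv.Perm α)) {k : ℕ} (hk : 1 < k) (hkn : k ≤ Fintype.card α) (l m : ℕ) (hl : 1 < l) (hkm1 : ∀ s : Finset α, s.card = k - 1 → Nat.card (fixingSubgroup G (s : Set α)) = l) (hkm : ∀ s : Finset α, s.card = k → Nat.card (fixingSubgroup G (s : Set α)) = m) : MulAction.IsMultiplyPretransitive G α (k - 1) := by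
  have hle : ∀ (s : Finset α) (a : α), fixingSubgroup G ((insert a s : Finset α) : Set α) ≤
      fixingSubgroup G (s : Set α) := fun s a =>
    fixingSubgroup_antitone G α (by simp)
  obtain ⟨S, -, hS⟩ := Finset.exists_subset_card_eq (s := (Finset.univ : Finset α)) (n := k - 1)
    (by rw [Finset.card_univ]; omega)
  have hins : ∀ (s : Finset α) (a : α), s.card = k - 1 → a ∉ s → (insert a s).card = k :=
    fun s a h ha => by rw [Finset.card_insert_of_notMem ha]; omega
  have hne : ¬ l ∣ m := by
    intro h
    have : fixingSubgroup G (S : Set α) = ⊥ := by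
      rw [eq_bot_iff]
      intro g hg
      rw [Subgroup.mem_bot]
      ext x
      by_cases hx : x ∈ S
      · exact (mem_fixingSubgroup_iff G).mp hg x hx
      · have := Subgroup.eq_of_le_of_card_ge (hle S x) (by
          rw [hkm1 S hS, hkm _ (hins S x hS hx)]
          exact Nat.le_of_dvd (hkm _ (hins S x hS hx) ▸ Nat.card_pos) h)
        rw [← this] at hg
        exact (mem_fixingSubgroup_iff G).mp hg x (by simp)
    have h2 := hkm1 S hS
    rw [this, Subgroup.card_bot] at h2
    omega
  obtain ⟨p, j, hp, hj1, hj2⟩ : ∃ p j : ℕ, p.Prime ∧ p ^ j ∣ l ∧ ¬ p ^ j ∣ m := by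
    by_contra h
    push Not at h
    exact hne ((Nat.dvd_iff_prime_pow_dvd_dvd m l).mpr h)
  have := Fact.mk hp
  refine CfsgH8.gleason hp (by omega) (by rw [Nat.card_eq_fintype_card]; omega) fun s hs => ?_
  obtain ⟨P, hP⟩ := Sylow.exists_subgroup_card_pow_prime (G := fixingSubgroup G (s : Set α)) p
    (hkm1 s hs ▸ hj1)
  have hc : Nat.card (P.map (fixingSubgroup G (s : Set α)).subtype) = p ^ j := by
    rw [Subgroup.card_map_of_injective (Subgroup.subtype_injective _), hP]
  refine ⟨P.map (Subgroup.subtype _), IsPGroup.of_card hc, ?_⟩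
  ext x
  constructor
  · intro hx
    by_contra hxs
    apply hj2
    rw [← hkm _ (hins s x hs hxs), ← hc]
    apply Subgroup.card_dvd_of_le
    rintro _ ⟨g, hg, rfl⟩
    rw [mem_fixingSubgroup_iff]
    intro y hy
    rcases Finset.mem_insert.mp hy with rfl | hy
    · exact hx ⟨_, g, hg, rfl⟩
    · exact (mem_fixingSubgroup_iff G).mp g.2 y hy
  · rintro hx ⟨_, g, hg, rfl⟩
    exact (mem_fixingSubgroup_iff G).mp g.2 x hx

end Cfsg.Agent.S0744
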