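import Cfsg.Statements.S0750
import Cfsg.Agent.H5.CFormInst

set_option autoImplicit false
open Cfsg

namespace Cfsg.Agent.S0750

/-- Witt's Lemma for quadratic forms over a finite field, in any characteristic: if Q is a quadratic form on a finite-dimensional space V whose polar bilinear form is non-degenerate, then every linear equivalence between subspaces X, Y of V that preserves Q extends to a Q-preserving linear automorphism of V. (In odd characteristic this is the symmetric-bilinear case; in characteristic two it is the statement for non-degenerate quadratic forms.) -/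
theorem result {F V : Type*} [Field F] [Finite F] [AddCommGroup V] [Module F V] [FiniteDimensional F V] (Q : QuadraticForm F V) (hQ : (QuadraticMap.polarBilin Q).Nondegenerate) (X Y : Submodule F V) (φ : X ≃ₗ[F] Y) (hφ : ∀ x : X, Q (φ x : V) = Q (x : V)) : ∃ g : V ≃ₗ[F] V, (∀ v : V, Q (g v) = Q v) ∧ ∀ x : X, g (x : V) = (φ x : V) := by
  obtain ⟨g, hg, h⟩ := CfsgH5.CForm.witt (CfsgH5.CForm.ofQuad_nondeg hQ) X
    (Y.subtype.comp φ.toLinearMap) (Y.injective_subtype.comp φ.injective)
    (fun u v => by
      rw [CfsgH5.CForm.orth_B, CfsgH5.CForm.orth_B, ← map_add]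
      have h1 := hφ u
      have h2 := hφ v
      have h3 := hφ (u + v)
      simp only [CfsgH5.CForm.ofQuad_Q, LinearMap.comp_apply, Submodule.subtype_apply,
        LinearEquiv.coe_coe]
      rw [h1, h2, h3]; rfl) hφ
  exact ⟨g, hg.2, h⟩

end Cfsg.Agent.S0750
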