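import Cfsg.Statements.S0751
import Cfsg.Agent.H5.CFormInst

set_option autoImplicit false
open Cfsg

namespace Cfsg.Agent.S0751

/-- Witt's Lemma for Hermitian forms. Let σ be a non-identity involutive automorphism of a finite field F and B a non-degenerate σ-sesquilinear form on a finite-dimensional F-space V which is conjugate-symmetric (σ (B x y) = B y x). Then every linear equivalence between subspaces X, Y of V preserving B extends to a B-preserving linear automorphism of V. -/
theorem result {F V : Type*} [Field F] [Finite F] [AddCommGroup V] [Module F V] [FiniteDimensional F V] (σ : F →+* F) (hσ : σ ≠ RingHom.id F) (hσ2 : ∀ a : F, σ (σ a) = a) (B : V →ₛₗ[σ] V →ₗ[F] F) (hS : B.IsSymm) (hB : B.Nondegenerate) (X Y : Submodule F V) (φ : X ≃ₗ[F] Y) (hφ : ∀ x x' : X, B (φ x : V) (φ x' : V) = B (x : V) (x' : V)) : ∃ g : V ≃ₗ[F] V, (∀ u v : V, B (g u) (g v) = B u v) ∧ ∀ x : X, g (x : V) = (φ x : V) := by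
  let f := CfsgH5.CForm.ofHerm hσ hσ2 (fun u v : V => B v u) (by simp) (by simp)
    (fun u v => (hS.eq v u).symm)
  have hf : f.Nondeg := fun v hv => hB.1 v hv
  obtain ⟨g, hg, h⟩ := CfsgH5.CForm.witt hf X
    (Y.subtype.comp φ.toLinearMap) (Y.injective_subtype.comp φ.injective)
    (fun u v => hφ v u) (fun v => hφ v v)
  exact ⟨g, fun u v => hg.1 v u, h⟩

end Cfsg.Agent.S0751
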