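import Cfsg.Statements.S0752
import Cfsg.Agent.H5.Symp

set_option autoImplicit false
open Cfsg

namespace Cfsg.Agent.S0752

/-- Classification of alternating forms: for an alternating bilinear form B on a finite-dimensional space over any field there is a basis indexed by (Fin m ⊕ Fin m) ⊕ Fin k such that B (e_i, f_j) = δ_ij, the e's are pairwise orthogonal, the f's are pairwise orthogonal, and the last k basis vectors are orthogonal to everything (they span the radical). -/
theorem result {F V : Type*} [Field F] [AddCommGroup V] [Module F V] [FiniteDimensional F V] (B : LinearMap.BilinForm F V) (hA : B.IsAlt) : ∃ (m k : ℕ) (b : Module.Basis ((Fin m ⊕ Fin m) ⊕ Fin k) F V), (∀ i j : Fin m, B (b (Sum.inl (Sum.inl i))) (b (Sum.inl (Sum.inr j))) = if i = j then 1 else 0) ∧ (∀ i j : Fin m, B (b (Sum.inl (Sum.inl i))) (b (Sum.inl (Sum.inl j))) = 0) ∧ (∀ i j : Fin m, B (b (Sum.inl (Sum.inr i))) (b (Sum.inl (Sum.inr j))) = 0) ∧ (∀ (j : Fin k) (v : V), B (b (Sum.inr j)) v = 0)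 := by
  let f := CfsgH5.CForm.ofAlt B hA
  obtain ⟨W, hW⟩ := (f.perp ⊤).exists_isCompl
  have hW' : (f.res W).Nondeg := by
    intro v hv
    have h1 : (v : V) ∈ f.perp ⊤ := by
      refine f.mem_perp'.2 fun u _ => ?_
      obtain ⟨a, b, rfl⟩ := CfsgH5.exists_add_of_isCompl hW u
      have : f.B b v = 0 := hv b
      rw [f.B_add_left, this, a.2 v trivial, add_zero]
    exact Subtype.ext (Submodule.disjoint_def.1 hW.1 v h1 v.2)
  obtain ⟨m, hm⟩ := CfsgH5.CForm.symp_even _ hW' rfl
  obtain ⟨e, he⟩ := CfsgH5.CForm.symp_exists_isIso (2 * m) (CfsgH5.spForm_nondeg (F := F) m) hW'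
    (CfsgH5.finrank_sum_fun m) (by omega)
  let b1 : Module.Basis (Fin m ⊕ Fin m) F W :=
    ((Pi.basisFun F (Fin m ⊕ Fin m)).map e).reindex (Equiv.sumComm _ _)
  let b2 := Module.finBasis F (f.perp ⊤)
  let b := (b1.prod b2).map (Submodule.prodEquivOfIsCompl _ _ hW.symm)
  have hb1 : ∀ i, b (Sum.inl i) = e (Pi.single i.swap 1) := by
    intro i; simp [b, b1]
  have hb2 : ∀ j, b (Sum.inr j) = b2 j := by
    intro j; simp [b]
  have key : ∀ i j, B (b (Sum.inl i)) (b (Sum.inl j)) =
      Cfsg.sympForm m F (Pi.single i.swap 1) (Pi.single j.swap 1) := by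
    intro i j; rw [hb1, hb1]; exact he.1 _ _
  refine ⟨m, _, b, fun i j => ?_, fun i j => ?_, fun i j => ?_, fun j v => ?_⟩
  · rw [key]; simp [CfsgH5.sympForm_apply, Pi.single_apply, eq_comm]
  · rw [key]; simp [CfsgH5.sympForm_apply]
  · rw [key]; simp [CfsgH5.sympForm_apply]
  · rw [hb2]; exact (b2 j).2 v trivial

end Cfsg.Agent.S0752
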