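import Cfsg.Statements.S0756
import Cfsg.Agent.H5.Orth7

set_option autoImplicit false
open Cfsg

namespace Cfsg.Agent.S0756

/-- Classification of symmetric bilinear forms over finite fields of odd characteristic: if B is non-degenerate symmetric on V of dimension n + 1 and α is a fixed non-square of F, there is an orthogonal basis b_0, ..., b_n with B(b_i, b_i) = 1 for i < n and B(b_n, b_n) ∈ {1, α}. -/
theorem result {F V : Type*} [Field F] [Finite F] [AddCommGroup V] [Module F V] [FiniteDimensional F V] (h2 : (2 : F) ≠ 0) (B : LinearMap.BilinForm F V) (hS : B.IsSymm) (hB : B.Nondegenerate) {n : ℕ} (hn : Module.finrank F V = n + 1) (α : F) (hα : ¬ IsSquare α) : ∃ b : Module.Basis (Fin (n + 1)) F V, (∀ i j, i ≠ j → B (b i) (b j) = 0) ∧ (∀ i, i ≠ Fin.last n → B (b i) (b i) = 1) ∧ (B (b (Fin.last n)) (b (Fin.last n)) = 1 ∨ B (b (Fin.last n)) (b (Fin.last n)) = α) := by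
  classical
  have := Fintype.ofFinite F
  induction n generalizing V with
  | zero =>
    obtain ⟨b, -, h⟩ := CfsgH5.CForm.exists_orth_basis h2 hS hB
    let v := b ⟨0, by omega⟩
    have hv : B v v ≠ 0 := h _
    have hα0 : α ≠ 0 := by rintro rfl; exact hα IsSquare.zero
    obtain ⟨t, ht, h1⟩ : ∃ t : F, t ≠ 0 ∧ (t * (t * B v v) = 1 ∨ t * (t * B v v) = α) := by
      by_cases hq : IsSquare (B v v)
      · obtain ⟨r, hr⟩ := hq
        have : r ≠ 0 := by rintro rfl; simp [hv] at hr
        exact ⟨r⁻¹, inv_ne_zero this, .inl (by rw [hr]; field_simp)⟩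
      · obtain ⟨r, hr⟩ := (quadraticChar_one_iff_isSquare (mul_ne_zero hv hα0)).1 (by
          rw [map_mul, quadraticChar_neg_one_iff_not_isSquare.2 hq,
            quadraticChar_neg_one_iff_not_isSquare.2 hα]; simp)
        have : r ≠ 0 := by rintro rfl; simp [hv, hα0] at hr
        exact ⟨α / r, div_ne_zero hα0 this, .inr (by field_simp; rw [mul_comm, hr]; ring)⟩
    have h0 : t • v ≠ 0 := smul_ne_zero ht (b.ne_zero _)
    refine ⟨FiniteDimensional.basisSingleton (Fin 1) hn _ h0, fun i j h => absurd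
      (Subsingleton.elim (α := Fin 1) _ _) h, fun i h => absurd (Subsingleton.elim (α := Fin 1) _ _) h, ?_⟩
    simpa [FiniteDimensional.basisSingleton_apply] using h1
  | succ n ih =>
    have hf := CfsgH5.CForm.ofSymm_nondeg h2 hS hB
    obtain ⟨v, hv⟩ := CfsgH5.CForm.orth_universal hf (by omega) one_ne_zero
    rw [CfsgH5.CForm.ofSymm_Q] at hv
    have hv0 : v ≠ 0 := by rintro rfl; simp at hv
    obtain ⟨h3, h4⟩ := CfsgH5.CForm.nondeg_perp_of_B_ne hf (v := v)
      (by simp [CfsgH5.CForm.ofSymm_B hS, hv, h2])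
    have e := hf.finrank_perp (F ∙ v)
    rw [finrank_span_singleton hv0] at e
    set N := (CfsgH5.CForm.ofSymm B).perp (F ∙ v)
    have hN : ∀ w ∈ N, B w v = 0 := fun w hw => by
      simpa [CfsgH5.CForm.ofSymm_B hS, h2] using CfsgH5.CForm.mem_perp_single.1 hw
    have hnd : ∀ x : N, (∀ y : N, B y x = 0) → x = 0 := fun x hx => h3 x fun y => by
      simp [CfsgH5.CForm.ofSymm_B hS, hx]
    obtain ⟨b, b1, b2, b3⟩ := ih (B.restrict N) (hS.restrict N)
      ⟨fun x hx => hnd x fun y => (hS.eq _ _).trans (hx y), hnd⟩ (by omega)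
    refine ⟨Module.Basis.mkFinCons v b (fun c x hx h => ?_) (fun z => ?_), fun i j hij => ?_,
      fun i hi => ?_, ?_⟩
    · have := congrArg (B · v) h
      simpa [hv, hN x hx] using this
    · refine ⟨-B z v, CfsgH5.CForm.mem_perp_single.2 ?_⟩
      simp [CfsgH5.CForm.ofSymm_B hS, hv]
    · rw [Module.Basis.coe_mkFinCons]
      refine Fin.cases (fun j => ?_) (fun i j => ?_) i j hij <;>
        refine Fin.cases (fun h => ?_) (fun j h => ?_) j
      · exact absurd rfl h
      · exact (hS.eq _ _).trans (hN _ (b j).2)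
      · exact hN _ (b i).2
      · exact b1 i j fun e => h (e ▸ rfl)
    · rw [Module.Basis.coe_mkFinCons]
      refine Fin.cases (fun _ => hv) (fun i h => b2 i fun e => h ?_) i hi
      rw [e, Fin.succ_last]
    · rw [Module.Basis.coe_mkFinCons, ← Fin.succ_last]
      exact b3

end Cfsg.Agent.S0756
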