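import Cfsg.Statements.S0757
import Mathlib

set_option autoImplicit false
open Cfsg

namespace Cfsg.Agent.S0757

/-- The two diagonal forms Σ x_i^2 and Σ_(i<n) x_i^2 + α x_n^2 on F^(n+1), with α a non-square and 2 ≠ 0 in F, are inequivalent quadratic forms (so over a finite field of odd order there are exactly two classes of non-singular symmetric bilinear forms in each dimension). -/
theorem result {F : Type*} [Field F] (h2 : (2 : F) ≠ 0) (n : ℕ) (α : F) (hα : ¬ IsSquare α) : ¬ (QuadraticMap.weightedSumSquares F (fun _ : Fin (n + 1) => (1 : F))).Equivalent (QuadraticMap.weightedSumSquares F (fun i : Fin (n + 1) => if i = Fin.last n then α else (1 : F))) := by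
  rintro ⟨e⟩
  have := invertibleOfNonzero h2
  have key : ∀ w : Fin (n + 1) → F,
      QuadraticForm.discr' (QuadraticMap.weightedSumSquares F w) = ∏ i, w i := fun w => by
    rw [QuadraticForm.discr', ← Matrix.det_diagonal]
    congr 1
    ext i j
    simp only [QuadraticForm.toMatrix', LinearMap.toMatrix₂'_apply, QuadraticMap.associated_apply,
      QuadraticMap.weightedSumSquares_apply, ← Finset.sum_sub_distrib, Pi.add_apply, smul_eq_mul]
    rw [Finset.sum_congr rfl (g := fun k => 2 * (w k * (Pi.single (M := fun _ => F) i 1 k *
      Pi.single (M := fun _ => F) j 1 k))) (fun k _ => by ring), ← Finset.mul_sum]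
    by_cases h : i = j
    · subst h; simp [Pi.single_apply, h2]
    · simp [Pi.single_apply, h, Ne.symm h]
  have h := QuadraticForm.discr'_comp (Q := QuadraticMap.weightedSumSquares F (fun i : Fin (n + 1) => if i = Fin.last n then α else (1 : F))) e.toLinearEquiv.toLinearMap
  rw [show QuadraticMap.comp _ e.toLinearEquiv.toLinearMap = QuadraticMap.weightedSumSquares F
    (fun _ : Fin (n + 1) => (1 : F)) from QuadraticMap.ext fun v => e.map_app v, key, key] at h
  simp only [Finset.prod_const_one, Finset.prod_ite_eq', Finset.mem_univ, if_true] at h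
  generalize (LinearMap.toMatrix' e.toLinearEquiv.toLinearMap).det = d at h
  have hd : d ≠ 0 := by rintro rfl; simp at h
  exact hα ⟨d⁻¹, by field_simp; linear_combination -h⟩

end Cfsg.Agent.S0757
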