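import Cfsg.Statements.S0758
import Mathlib

set_option autoImplicit false
open Cfsg

namespace Cfsg.Agent.S0758

/-- For a finite field F of odd order q and a non-square α: the form x² + y² is isotropic iff q ≡ 1 mod 4, and the form x² + α y² is isotropic iff q ≡ 3 mod 4. -/
theorem result {F : Type*} [Field F] [Fintype F] (h2 : (2 : F) ≠ 0) (α : F) (hα : ¬ IsSquare α) : ((∃ x y : F, (x ≠ 0 ∨ y ≠ 0) ∧ x ^ 2 + y ^ 2 = 0) ↔ Fintype.card F % 4 = 1) ∧ ((∃ x y : F, (x ≠ 0 ∨ y ≠ 0) ∧ x ^ 2 + α * y ^ 2 = 0) ↔ Fintype.card F % 4 = 3) := by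
  classical
  have hc : ringChar F ≠ 2 := fun h => h2 (by simpa using (ringChar.spec F 2).2 (by rw [h]))
  have hodd := FiniteField.odd_card_of_char_ne_two hc
  have hα0 : α ≠ 0 := by rintro rfl; exact hα IsSquare.zero
  have key : ∀ c : F, c ≠ 0 → ((∃ x y : F, (x ≠ 0 ∨ y ≠ 0) ∧ x ^ 2 + c * y ^ 2 = 0) ↔ IsSquare (-c)) :=
    fun c hc => ⟨fun ⟨x, y, h1, h⟩ => by
      have hy : y ≠ 0 := by rintro rfl; simp_all
      exact ⟨x / y, by field_simp; linear_combination -h⟩,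
      fun ⟨r, hr⟩ => ⟨r, 1, .inr one_ne_zero, by linear_combination -hr⟩⟩
  have h1 := FiniteField.isSquare_neg_one_iff (F := F)
  refine ⟨?_, ?_⟩
  · have := key 1 one_ne_zero
    simp only [one_mul] at this
    rw [this, h1]; omega
  · rw [key α hα0, ← quadraticChar_one_iff_isSquare (neg_ne_zero.2 hα0), ← neg_one_mul, map_mul,
      quadraticChar_neg_one_iff_not_isSquare.2 hα, mul_neg_one, neg_eq_iff_eq_neg,
      quadraticChar_neg_one_iff_not_isSquare, h1]
    omega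

end Cfsg.Agent.S0758
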