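import Cfsg.Statements.S0759
import Cfsg.Agent.H5.Orth7

set_option autoImplicit false
open Cfsg

namespace Cfsg.Agent.S0759

/-- Type of the orthonormal form: over a finite field of odd order q and for m ≥ 1, the quadratic form Σ_(i<2m) x_i² on F^(2m) admits an m-dimensional subspace on which it vanishes identically if and only if it is not the case that q ≡ 3 (mod 4) and m is odd. -/
theorem result {F : Type*} [Field F] [Fintype F] (h2 : (2 : F) ≠ 0) (m : ℕ) (hm : 1 ≤ m) : (∃ W : Submodule F (Fin (2 * m) → F), Module.finrank F W = m ∧ ∀ w ∈ W, ∑ i, w i ^ 2 = 0) ↔ ¬ (Fintype.card F % 4 = 3 ∧ Odd m) := by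
  classical
  let B : LinearMap.BilinForm F (Fin (2 * m) → F) := Matrix.toBilin' 1
  have hB : ∀ u v, B u v = ∑ i, u i * v i := fun u v => by
    simp [B, Matrix.toBilin'_apply', dotProduct]
  have hS : B.IsSymm := ⟨fun u v => by simp [hB, mul_comm]⟩
  have hnd : ∀ x, (∀ y, B y x = 0) → x = 0 := fun x hx => funext fun i => by
    simpa [hB, Pi.single_apply] using hx (Pi.single i 1)
  have hf := CfsgH5.CForm.ofSymm_nondeg h2 hS
    ⟨fun x hx => hnd x fun y => (hS.eq _ _).trans (hx y), hnd⟩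
  have := CfsgH5.CForm.quadraticChar_disc hf h2 (Pi.basisFun F _) (fun i j hij => by
    simp [CfsgH5.CForm.ofSymm_B hS, hB, Pi.single_apply, hij.symm]) (fun i => by
    simp [CfsgH5.CForm.ofSymm_Q, hB, Pi.single_apply]) (m := m) (by simp)
  simp only [CfsgH5.CForm.ofSymm_Q, hB, Pi.basisFun_apply, Pi.single_apply, mul_ite, mul_one,
    mul_zero, Finset.sum_ite_eq', Finset.mem_univ, if_true, Finset.prod_const_one, map_one] at this
  have e1 : (∃ W : Submodule F (Fin (2 * m) → F), Module.finrank F W = m ∧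
      ∀ w ∈ W, ∑ i, w i ^ 2 = 0) ↔ (CfsgH5.CForm.ofSymm B).IsPlus := by
    refine exists_congr fun W => ?_
    rw [CfsgH5.CForm.TS_orth, and_comm]
    simp [CfsgH5.CForm.ofSymm_Q, hB, sq]
  have h1 : Fintype.card F % 2 = 1 := by simpa using CfsgH5.card_odd_of_two_ne h2
  have e2 : Fintype.card F ^ m % 4 = 3 ↔ Fintype.card F % 4 = 3 ∧ Odd m := by
    rw [Nat.pow_mod]
    rcases (show Fintype.card F % 4 = 1 ∨ Fintype.card F % 4 = 3 by omega) with h | h <;> rw [h]
    · simp
    · rcases Nat.even_or_odd' m with ⟨k, rfl | rfl⟩ <;> simp [pow_succ, pow_mul, Nat.pow_mod,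
        Nat.mul_mod]
  rw [e1, ← e2, ← CfsgH5.CForm.sgn_eq_one]
  rcases CfsgH5.CForm.quadraticChar_neg_one_pow h2 m with ⟨a, b⟩ | ⟨a, b⟩ <;> rw [a] at this <;>
    omega

end Cfsg.Agent.S0759
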