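import Cfsg.Statements.S0761
import Cfsg.Agent.H5.CFormInst

set_option autoImplicit false
open Cfsg

namespace Cfsg.Agent.S0761

/-- Hyperbolic partners: let B be a non-degenerate bilinear form on a finite-dimensional space, either alternating, or symmetric with 2 ≠ 0. If Z is a subspace on which B vanishes, x ∉ Z is isotropic and orthogonal to Z, then there is an isotropic y with B x y = 1 which is orthogonal to Z. -/
theorem result {F V : Type*} [Field F] [AddCommGroup V] [Module F V] [FiniteDimensional F V] (B : LinearMap.BilinForm F V) (hB : B.Nondegenerate) (hform : B.IsAlt ∨ (B.IsSymm ∧ (2 : F) ≠ 0)) (x : V) (Z : Submodule F V) (hxZ : x ∉ Z) (hx : B x x = 0) (hxz : ∀ z ∈ Z, B x z = 0) (hZ : ∀ z ∈ Z, ∀ z' ∈ Z, B z z' = 0) : ∃ y : V, B y y = 0 ∧ B x y = 1 ∧ ∀ z ∈ Z, B z y = 0 := by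
  rcases hform with hA | ⟨hS, h2⟩
  · obtain ⟨y, hy, hy'⟩ := (CfsgH5.CForm.ofAlt_nondeg hA hB).exists_dual hxZ
    exact ⟨y, hA.self_eq_zero y, hy, hy'⟩
  · have hnd : (CfsgH5.CForm.ofQuad B.toQuadraticMap).Nondeg := by
      intro v hv
      refine hB.2 v fun u => ?_
      have := hv u
      rw [CfsgH5.CForm.ofQuad_B, LinearMap.BilinMap.polar_toQuadraticMap, hS.eq v u,
        ← two_mul] at this
      simpa [h2] using this
    obtain ⟨y, hy, hy'⟩ := hnd.exists_hyp (x := x) hx hxZ (fun w hw => by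
      rw [CfsgH5.CForm.ofQuad_B, LinearMap.BilinMap.polar_toQuadraticMap, hS.eq w x, hxz w hw]
      simp)
    have h1 := hy.hxy
    rw [CfsgH5.CForm.ofQuad_B, LinearMap.BilinMap.polar_toQuadraticMap, hS.eq y x] at h1
    have h3 : B y y = 0 := hy.hy
    refine ⟨(2 : F) • y, by simp [h3], by simp [two_mul, h1], fun z hz => ?_⟩
    have := hy' z hz
    rw [CfsgH5.CForm.ofQuad_B, LinearMap.BilinMap.polar_toQuadraticMap, hS.eq y z] at this
    simp [two_mul, this]

end Cfsg.Agent.S0761
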