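import Cfsg.Statements.S0763
import Cfsg.Agent.H5.Orth6

set_option autoImplicit false
open Cfsg

namespace Cfsg.Agent.S0763

/-- Binary quadratic forms in characteristic two over a finite field: if Q is a quadratic form on a 2-dimensional space whose polar form is non-degenerate, then either there are vectors v, w with Q v = Q w = 0 and polar value 1 (Q is xy in these coordinates), or there are v, w and μ with Q v = 1, Q w = μ, polar value 1 and x² + x + μ without roots in F (Q is x² + xy + μy²). -/
theorem result {F V : Type*} [Field F] [Finite F] [CharP F 2] [AddCommGroup V] [Module F V] (Q : QuadraticForm F V) (h2 : Module.finrank F V = 2) (hQ : (QuadraticMap.polarBilin Q).Nondegenerate) : (∃ v w : V, LinearIndependent F ![v, w] ∧ Q v = 0 ∧ Q w = 0 ∧ QuadraticMap.polar Q v w = 1) ∨ (∃ (v w : V) (μ : F), LinearIndependent F ![v, w] ∧ (∀ x : F, x ^ 2 + x + μ ≠ 0) ∧ Q v = 1 ∧ Q w = μ ∧ QuadraticMap.polar Q v w = 1) := by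
  have : FiniteDimensional F V := Module.finite_of_finrank_pos (by omega)
  have hf := CfsgH5.CForm.ofQuad_nondeg hQ
  rcases CfsgH5.CForm.aniso_or_hyp hf with h | ⟨x, y, h⟩
  · right
    obtain ⟨v, hv⟩ := CfsgH5.CForm.orth_universal hf h2.ge one_ne_zero
    obtain ⟨w, hw⟩ := hf.exists_B_eq_one (x := v) (by rintro rfl; simp at hv)
    have h0 : (CfsgH5.CForm.ofQuad Q).B v v = 0 := by
      rw [CfsgH5.CForm.orth_B_self, show (2 : F) = 0 from CharP.cast_eq_zero F 2, zero_mul]
    have li : LinearIndependent F ![v, w] := by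
      rw [LinearIndependent.pair_iff]
      intro s t hst
      have a := congrArg ((CfsgH5.CForm.ofQuad Q).B v) hst
      simp [h0, hw] at a
      subst a
      have b := congrArg ((CfsgH5.CForm.ofQuad Q).B · w) hst
      simpa [hw] using b
    refine ⟨v, w, Q w, li, fun x hx => ?_, hv, rfl, hw⟩
    have := h (x • v + (1 : F) • w) (by
      rw [CfsgH5.CForm.orth_Q_add, CfsgH5.CForm.orth_Q_smul, hv]
      simp only [one_smul, CfsgH5.CForm.B_smul_left, hw, CfsgH5.CForm.ofQuad_Q]
      linear_combination hx)
    exact one_ne_zero (LinearIndependent.pair_iff.1 li _ _ this).2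
  · exact .inl ⟨x, y, h.linInd, h.hx, h.hy, h.hxy⟩

end Cfsg.Agent.S0763
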