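import Cfsg.Statements.S0767
import Cfsg.Agent.H5.Symp2

set_option autoImplicit false
open Cfsg

namespace Cfsg.Agent.S0767

/-- The root group of a point: T_v(c) T_v(d) = T_v(c + d), and for A in the symplectic group with A v = a v, the conjugate A T_v(c) A⁻¹ is again some T_v(d). -/
theorem result {F : Type*} [Field F] (m : ℕ) (v : Fin m ⊕ Fin m → F) : (∀ c d : F, Cfsg.sympTransvection m v c * Cfsg.sympTransvection m v d = Cfsg.sympTransvection m v (c + d)) ∧ ∀ (A : Matrix (Fin m ⊕ Fin m) (Fin m ⊕ Fin m) F) (a : F), A ∈ Matrix.symplecticGroup (Fin m) F → A.mulVec v = a • v → ∀ c : F, ∃ d : F, A * Cfsg.sympTransvection m v c * A⁻¹ = Cfsg.sympTransvection m v d := by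
  have hv : Cfsg.sympForm m F v v = 0 := (CfsgH5.spForm F m).symp_B_self v
  refine ⟨fun c d => CfsgH5.mat_ext_mulVec fun x => ?_, fun A a hA ha c => ⟨a * a * c, ?_⟩⟩
  · rw [← Matrix.mulVec_mulVec]
    simp only [CfsgH5.sympTransvection_mulVec, ← CfsgH5.spForm_B, CfsgH5.CForm.B_add_left,
      CfsgH5.CForm.B_smul_left, CfsgH5.CForm.symp_B_self]
    module
  · have hu : IsUnit A.det := SymplecticGroup.symplectic_det hA
    suffices A * Cfsg.sympTransvection m v c = Cfsg.sympTransvection m v (a * a * c) * A by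
      rw [this, Matrix.mul_nonsing_inv_cancel_right _ _ hu]
    refine CfsgH5.mat_ext_mulVec fun x => ?_
    have h1 := CfsgH5.mem_symplectic_iff.1 hA x v
    rw [ha, ← CfsgH5.spForm_B, CfsgH5.CForm.B_smul_right, CfsgH5.spForm_B] at h1
    rw [← Matrix.mulVec_mulVec, ← Matrix.mulVec_mulVec]
    simp only [CfsgH5.sympTransvection_mulVec, Matrix.mulVec_add, Matrix.mulVec_smul, ha, ← h1,
      CfsgH5.FP.symp_σ]
    module

end Cfsg.Agent.S0767
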