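import Cfsg.Statements.S0768
import Cfsg.Agent.H5.Symp2

set_option autoImplicit false
open scoped LinearAlgebra.Projectivization
open Cfsg

namespace Cfsg.Agent.S0768

open scoped Pointwise

/-- Primitivity: for m ≥ 1 and F finite, the symplectic group of the form sympForm (as a subgroup of the general linear group) acts primitively on the projective space of F^(2m). -/
theorem result {F : Type*} [Field F] [Finite F] (m : ℕ) (hm : 1 ≤ m) : MulAction.IsPreprimitive ↥(Cfsg.spGL m F) (ℙ F (Fin m ⊕ Fin m → F)) := by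
  classical
  let f := CfsgH5.spForm F m
  have hf : f.Nondeg := CfsgH5.spForm_nondeg m
  have lift : ∀ g ∈ f.Isom, ∃ A : Cfsg.spGL m F, ∀ v (hv : v ≠ 0), ∃ h,
      A • Projectivization.mk F v hv = Projectivization.mk F (g v) h := by
    intro g hg
    refine ⟨⟨CfsgH5.glOfLin g, fun u v => by
      simpa [f, CfsgH5.spForm_B] using f.Isom_B hg u v⟩, fun v hv => ⟨by simpa using hv, ?_⟩⟩
    change CfsgH5.glOfLin g • Projectivization.mk F v hv = _
    rw [Projectivization.smul_mk]
    congr 1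
    exact CfsgH5.glOfLin_mulVec g v
  have htr : MulAction.IsPretransitive ↥(Cfsg.spGL m F) (ℙ F (Fin m ⊕ Fin m → F)) := ⟨by
    intro x y
    induction x using Projectivization.ind with | h x hx =>
    induction y using Projectivization.ind with | h y hy =>
    obtain ⟨g, hg, e⟩ := CfsgH5.CForm.witt_one hf hx hy (by simp)
    obtain ⟨A, hA⟩ := lift g hg
    obtain ⟨h, hh⟩ := hA x hx
    exact ⟨A, by rw [hh]; congr 1⟩⟩
  refine { isTrivialBlock_of_isBlock := fun {B} hB => ?_ }
  by_cases hs : B.Subsingleton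
  · exact Or.inl hs
  right
  rw [Set.not_subsingleton_iff] at hs
  obtain ⟨a, ha, b, hb, hab⟩ := hs
  induction a using Projectivization.ind with | h a ha0 =>
  induction b using Projectivization.ind with | h b hb0 =>
  let r : (Fin m ⊕ Fin m → F) → (Fin m ⊕ Fin m → F) → Prop := fun u v =>
    ∃ (hu : u ≠ 0) (hv : v ≠ 0) (A : Cfsg.spGL m F),
      Projectivization.mk F u hu ∈ A • B ∧ Projectivization.mk F v hv ∈ A • B
  have key := CfsgH5.CForm.prim_rel hf (CfsgH5.CForm.rich2_of_ker CfsgH5.CForm.symp_ker) r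
    (fun x y ⟨hx, hy, A, h1, h2⟩ => ⟨hy, hx, A, h2, h1⟩)
    (fun x y z ⟨hx, hy, A, h1, h2⟩ ⟨_, hz, A', h3, h4⟩ => by
      have : A • B = A' • B := hB.smul_eq_smul_of_nonempty ⟨_, h2, h3⟩
      exact ⟨hx, hz, A', this ▸ h1, h4⟩)
    (fun x c _ hx hc => by
      obtain ⟨A, hA⟩ := MulAction.exists_smul_eq (Cfsg.spGL m F) (Projectivization.mk F a ha0)
        (Projectivization.mk F x hx)
      have h1 : Projectivization.mk F x hx ∈ A • B := hA ▸ Set.smul_mem_smul_set ha
      refine ⟨hx, smul_ne_zero hc hx, A, h1, ?_⟩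
      rwa [(Projectivization.mk_eq_mk_iff' F _ _ _ hx).2 ⟨c, rfl⟩])
    (fun g x a c hg u v ⟨hu, hv, A, h1, h2⟩ => by
      obtain ⟨A', hA'⟩ := lift g hg.mem_Isom
      obtain ⟨h3, h4⟩ := hA' u hu
      obtain ⟨h5, h6⟩ := hA' v hv
      refine ⟨h3, h5, A' * A, ?_, ?_⟩
      · rw [← h4, mul_smul]; exact Set.smul_mem_smul_set h1
      · rw [← h6, mul_smul]; exact Set.smul_mem_smul_set h2)
    (x := a) (y := b) (by simp) (by simp) (fun hm => by
      obtain ⟨c, hc⟩ := Submodule.mem_span_singleton.1 hm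
      exact hab ((Projectivization.mk_eq_mk_iff' F _ _ _ ha0).2 ⟨c, hc⟩).symm)
    ⟨ha0, hb0, 1, by simpa using ha, by simpa using hb⟩
  rw [Set.eq_univ_iff_forall]
  intro x
  induction x using Projectivization.ind with | h x hx =>
  obtain ⟨_, _, A, h1, h2⟩ := key a x (by simp) ha0 (by simp) hx
  rwa [hB.smul_eq_of_nonempty ⟨_, h1, ha⟩] at h2

end Cfsg.Agent.S0768
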