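import Cfsg.Statements.S0770


set_option autoImplicit false
open Cfsg

namespace Cfsg.Agent.S0770

open Matrix

/-- For a field with at least 3 elements, an invertible matrix normalises the subgroup of invertible diagonal matrices of GL_n if and only if it is monomial (exactly one non-zero entry in each row). -/
theorem result {F : Type*} [Field F] (hF : ∃ a : F, a ≠ 0 ∧ a ≠ 1) (n : ℕ) (g : Matrix.GeneralLinearGroup (Fin n) F) : g ∈ Subgroup.normalizer ((Units.map (Matrix.diagonalRingHom (Fin n) F).toMonoidHom).range : Subgroup (Matrix.GeneralLinearGroup (Fin n) F)) ↔ ∀ i : Fin n, ∃! j : Fin n, (g : Matrix (Fin n) (Fin n) F) i j ≠ 0 := by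
  have m : ∀ x : GL (Fin n) F, x ∈ (Units.map (Matrix.diagonalRingHom (Fin n) F).toMonoidHom).range ↔
      ∃ d : Fin n → Fˣ, diagonal (fun i => (d i : F)) = x.1 := fun x =>
    (MulEquiv.piUnits.symm.surjective.exists).trans (exists_congr fun d => Units.ext_iff)
  rw [Subgroup.mem_normalizer_iff]
  refine ⟨fun h i => ?_, fun h x => ?_⟩
  · obtain ⟨a, a0, a1⟩ := hF
    obtain ⟨j, hj⟩ : ∃ j, g.1 i j ≠ 0 := by
      by_contra! k
      exact g.det_ne_zero (det_eq_zero_of_row_eq_zero i k)
    refine ⟨j, hj, fun k hk => by_contra fun e => a1 ?_⟩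
    let d : Fin n → Fˣ := Function.update 1 j (Units.mk0 a a0)
    obtain ⟨x, hx⟩ : ∃ x : GL (Fin n) F, diagonal (fun i => (d i : F)) = x.1 :=
      ⟨Units.map (Matrix.diagonalRingHom (Fin n) F).toMonoidHom (MulEquiv.piUnits.symm d), rfl⟩
    obtain ⟨c, hc⟩ := (m _).1 ((h x).1 ((m _).2 ⟨d, hx⟩))
    have : diagonal (fun i => (c i : F)) * g.1 = g.1 * diagonal fun i => (d i : F) := by rw [hc, hx]; simp
    have u := congrFun₂ this i j
    have v := congrFun₂ this i k
    simp [d, e, hk] at u v
    rw [v] at u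
    simpa [hj] using u
  choose π h1 h2 using h
  have s : Function.Surjective π := fun j => by
    by_contra! k
    exact g.det_ne_zero (det_eq_zero_of_column_eq_zero j fun i => by_contra fun e => k i (h2 i j e).symm)
  let e := Equiv.ofBijective π s.bijective_of_finite
  have k : ∀ d : Fin n → Fˣ, diagonal (fun i => (d (π i) : F)) * g.1 = g.1 * diagonal fun i => (d i : F) := fun d => by
    ext i j
    by_cases h : g.1 i j = 0
    · simp [h]
    · simp [h2 i j h, mul_comm]
  rw [m, m]
  refine ⟨fun ⟨d, h⟩ => ⟨d ∘ π, by simp [← h, ← k]⟩, fun ⟨d, h⟩ => ⟨d ∘ e.symm, (Units.mul_right_inj g).1 ?_⟩⟩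
  refine (k _).symm.trans ?_
  simp [show ∀ i, e.symm (π i) = i from e.symm_apply_apply, h]

end Cfsg.Agent.S0770
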