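import Cfsg.Statements.S0771
import Cfsg.Agent.H5.Gb1

set_option autoImplicit false
open Cfsg

namespace Cfsg.Agent.S0771

open CfsgH5 CfsgH5.Gb Matrix

/-- Maximal parabolic of GL_n(q): the stabiliser of the coordinate subspace spanned by the first k basis vectors has order q^(k(n-k)) · |GL_k(q)| · |GL_(n-k)(q)| (unipotent radical of order q^(k(n-k)) and Levi complement GL_k × GL_(n-k)). -/
theorem result {F : Type*} [Field F] [Fintype F] {q : ℕ} (hF : Fintype.card F = q) (n k : ℕ) (hk : k ≤ n) : Nat.card ↥(Cfsg.stabilizing (Cfsg.glToMat (Fin n) F) {v : Fin n → F | ∀ i : Fin n, k ≤ (i : ℕ) → v i = 0}) = q ^ (k * (n - k)) * (∏ i : Fin k, (q ^ k - q ^ (i : ℕ))) * ∏ i : Fin (n - k), (q ^ (n - k) - q ^ (i : ℕ)) := by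
  have a : Fintype.card {i : Fin n // (i : ℕ) < k} = k := by
    rw [Fintype.card_subtype, Fin.card_filter_val_lt, min_eq_right hk]
  have b : Fintype.card {i : Fin n // ¬ (i : ℕ) < k} = n - k := by rw [Fintype.card_subtype_compl, a, Fintype.card_fin]
  have := card_block (F := F) fun i : Fin n => (i : ℕ) < k
  rw [card_GL, card_GL, a, b, ← Nat.card_congr Matrix.of, Nat.card_fun, Nat.card_fun, ← pow_mul, mul_comm (Nat.card {i // _})] at this
  simp only [Nat.card_eq_fintype_card, a, b, hF] at this
  refine Eq.trans (Nat.card_congr (Equiv.subtypeEquivRight fun g => mem_cs.trans ?_)) (by simpa using this)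
  simp

end Cfsg.Agent.S0771
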