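import Cfsg.Statements.S0773
import Cfsg.Agent.H5.Gb1

set_option autoImplicit false
open Cfsg

namespace Cfsg.Agent.S0773

open CfsgH5 CfsgH5.Gb CfsgH5.Au CfsgH5.CForm Matrix Module

/-- transposition in the antidiagonal followed by inversion -/
def tw (F : Type*) [Field F] (n : ℕ) : GL (Fin n) F →* GL (Fin n) F where
  toFun g := ⟨(g⁻¹).1ᵀ.submatrix Fin.revPerm Fin.revPerm, g.1ᵀ.submatrix Fin.revPerm Fin.revPerm,
    by rw [submatrix_mul_equiv, ← transpose_mul]; simp, by rw [submatrix_mul_equiv, ← transpose_mul]; simp⟩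
  map_one' := Units.ext (by simp)
  map_mul' a b := Units.ext (by simp [-coe_units_inv, -Fin.revPerm_apply, submatrix_mul_equiv])

theorem rk {F : Type*} [Field F] {n k : ℕ} (h : k ≤ n) : finrank F (cs F fun i : Fin n => k ≤ (i : ℕ)) = k := by
  have e : (cs F fun i : Fin n => k ≤ (i : ℕ)) ≃ₗ[F] (Fin k → F) :=
    { toFun v i := v.1 (i.castLE h)
      map_add' _ _ := rfl
      map_smul' _ _ := rfl
      invFun v := ⟨fun i => if c : (i : ℕ) < k then v ⟨i, c⟩ else 0, fun i c => dif_neg (by omega)⟩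
      left_inv v := Subtype.ext (funext fun i => by
        by_cases c : (i : ℕ) < k
        · simp [c]
        · simp [c, v.2 i (by omega)])
      right_inv v := funext fun i => by simp }
  simpa using e.finrank_eq

/-- The stabilisers in GL_n(F), F finite, of the coordinate subspaces of dimensions k and n − k are isomorphic groups, but when 2k ≠ n (and 0 < k < n) no element of GL_n conjugates one onto the other. -/
theorem result {F : Type*} [Field F] [Finite F] (n k : ℕ) (hk0 : 0 < k) (hkn : k < n) (h2 : 2 * k ≠ n) : Nonempty (↥(Cfsg.stabilizing (Cfsg.glToMat (Fin n) F) {v : Fin n → F | ∀ i : Fin n, k ≤ (i : ℕ) → v i = 0}) ≃* ↥(Cfsg.stabilizing (Cfsg.glToMat (Fin n) F) {v : Fin n → F | ∀ i : Fin n, n - k ≤ (i : ℕ) → v i = 0})) ∧ ∀ g : Matrix.GeneralLinearGroup (Fin n) F, (Cfsg.stabilizing (Cfsg.glToMat (Fin n) F) {v : Fin n → F | ∀ i : Fin n, k ≤ (i : ℕ) → v i = 0}).map (MulAut.conj g).toMonoidHom ≠ Cfsg.stabilizing (Cfsg.glToMat (Fin n) F) {v : Fin n → F | ∀ i : Fin n, n -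 k ≤ (i : ℕ) → v i = 0} := by
  have t : ∀ g, tw F n (tw F n g) = g := fun g => Units.ext (by ext i j; exact congrArg₂ g.1 (Fin.rev_rev i) (Fin.rev_rev j))
  have m : ∀ a b : ℕ, a + b = n → ∀ g ∈ stabilizing (glToMat (Fin n) F) {v | ∀ i : Fin n, a ≤ (i : ℕ) → v i = 0},
      tw F n g ∈ stabilizing (glToMat (Fin n) F) {v | ∀ i : Fin n, b ≤ (i : ℕ) → v i = 0} := fun a b h g k =>
    mem_cs.2 fun i j u v => mem_cs.1 (inv_mem k) _ _ (by simp; omega) (by simp; omega)
  refine ⟨⟨{ toFun g := ⟨_, m k _ (by omega) _ g.2⟩, invFun g := ⟨_, m _ k (by omega) _ g.2⟩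
             left_inv g := Subtype.ext (t _), right_inv g := Subtype.ext (t _)
             map_mul' a b := Subtype.ext (map_mul (tw F n) _ _) }⟩, fun g h => h2 ?_⟩
  let U := (cs F fun i : Fin n => k ≤ (i : ℕ)).map (gl g).toLinearMap
  let W := cs F fun i : Fin n => n - k ≤ (i : ℕ)
  have u : finrank F U = k := (LinearEquiv.finrank_map_eq _ _).trans (rk hkn.le)
  have w : finrank F W = n - k := rk (by omega)
  have e : stabS F (U : Set (Fin n → F)) = stabS F (W : Set (Fin n → F)) := Subgroup.ext fun x => by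
    obtain ⟨x, rfl⟩ := gl_surjective x
    refine Iff.trans ?_ (SetLike.ext_iff.1 h x)
    rw [Subgroup.mem_map_equiv, mem_stabS, (gl g).surjective.forall]
    exact forall_congr' fun v => by
      simp only [U, SetLike.mem_coe, Submodule.mem_map_equiv, LinearEquiv.symm_apply_apply]
      rw [show (gl g).symm (gl x (gl g v)) = gl (g⁻¹ * x * g) v by simp [-gl_apply]]
      rfl
  have a := Submodule.finrank_mono (eq_of_stab e.le fun c => by rw [c, finrank_top, finrank_fin_fun] at w; omega)
  have b := Submodule.finrank_mono (eq_of_stab e.ge fun c => by rw [c, finrank_top, finrank_fin_fun] at u; omega)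
  omega

end Cfsg.Agent.S0773
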