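import Cfsg.Statements.S0774
import Cfsg.Agent.H5.Gb1

set_option autoImplicit false
open Cfsg

namespace Cfsg.Agent.S0774

open CfsgH5 CfsgH5.Gb Matrix

/-- Borel subgroup of the symplectic group: the elements of Sp_2m(q) stabilising each of the totally isotropic coordinate subspaces ⟨e_0, ..., e_k⟩ (k < m) form a subgroup of order q^(m²) (q − 1)^m. -/
theorem result {F : Type*} [Field F] [Fintype F] {q : ℕ} (hF : Fintype.card F = q) (m : ℕ) : Nat.card ↥(⨅ k : Fin m, Cfsg.stabilizing (Cfsg.spToMat m F) {v : Fin m ⊕ Fin m → F | (∀ i : Fin m, (k : ℕ) < (i : ℕ) → v (Sum.inl i) = 0) ∧ ∀ i : Fin m, v (Sum.inr i) = 0}) = q ^ (m ^ 2) * (q - 1) ^ m := by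
  have mem : ∀ g : symplecticGroup (Fin m) F, g ∈ (⨅ k : Fin m, stabilizing (spToMat m F) {v : Fin m ⊕ Fin m → F |
      (∀ i : Fin m, (k : ℕ) < (i : ℕ) → v (.inl i) = 0) ∧ ∀ i : Fin m, v (.inr i) = 0}) ↔
      (∀ i j, j < i → g.1 (.inl i) (.inl j) = 0) ∧ ∀ i j, g.1 (.inr i) (.inl j) = 0 := fun g => by
    have : ∀ k : Fin m, {v : Fin m ⊕ Fin m → F | (∀ i : Fin m, (k : ℕ) < (i : ℕ) → v (.inl i) = 0) ∧
      ∀ i : Fin m, v (.inr i) = 0} = {v | ∀ i : Fin m ⊕ Fin m, i.elim (k < ·) (fun _ => True) → v i = 0} := by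
      intro; ext; simp
    simp only [Subgroup.mem_iInf, this, mem_cs]
    exact ⟨fun h => ⟨fun i j k => h j _ _ k (lt_irrefl _), fun i j => h j _ _ trivial (lt_irrefl _)⟩, fun h k => by
      rintro (i | i) (j | j) a b
      exacts [h.1 _ _ ((not_lt.1 b).trans_lt a), (b trivial).elim, h.2 _ _, (b trivial).elim]⟩
  let M : {g : GL (Fin m) F // ∀ i j, j < i → g.1 i j = 0} × {S : Fin m → Fin m → F // ∀ i j, S i j = S j i} →
      symplecticGroup (Fin m) F := fun x => ⟨fromBlocks x.1.1.1 (of x.2.1 * (x.1.1⁻¹).1ᵀ) 0 (x.1.1⁻¹).1ᵀ, by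
    have : (of x.2.1)ᵀ = of x.2.1 := Matrix.ext fun i j => x.2.2 j i
    rw [SymplecticGroup.mem_iff]
    simp [-coe_units_inv, J, fromBlocks_transpose, fromBlocks_multiply, mul_assoc, ← transpose_mul _ (x.1.1⁻¹).1,
      ← mul_assoc x.1.1.1, this]⟩
  rw [← Nat.card_congr (Equiv.ofBijective (fun x => (⟨M x, (mem _).2 ⟨x.1.2, fun _ _ => rfl⟩⟩ : (⨅ k : Fin m,
    stabilizing (spToMat m F) _ : Subgroup _))) ⟨fun x y h => ?_, fun ⟨g, h⟩ => ?_⟩), Nat.card_prod, card_tri,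
    Nat.card_congr Sym2.lift, Nat.card_fun]
  · simp only [Nat.card_eq_fintype_card, hF, Sym2.card, Fintype.card_fin]
    rw [mul_right_comm, ← pow_add, Nat.choose_succ_succ', Nat.choose_one_right, add_left_comm, ← two_mul,
      Nat.choose_two_right, Nat.mul_div_cancel' (Nat.even_mul_pred_self m).two_dvd]
    cases m <;> simp [pow_two]
    ring_nf; simp
  · obtain ⟨a, b, -, c⟩ := fromBlocks_inj.1 (congrArg (·.1.1) h)
    refine Prod.ext (Subtype.ext (Units.ext a)) (Subtype.ext (of.injective ?_))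
    simpa [-coe_units_inv, ← c, mul_assoc, ← transpose_mul] using congrArg (· * x.1.1.1ᵀ) b
  · obtain ⟨h, k⟩ := (mem _).1 h
    have e : fromBlocks g.1.toBlocks₁₁ g.1.toBlocks₁₂ 0 g.1.toBlocks₂₂ = g.1 := by
      ext (i | i) (j | j)
      exacts [rfl, rfl, (k _ _).symm, rfl]
    have := SymplecticGroup.mem_iff.1 g.2
    rw [← e] at this
    simp [J, fromBlocks_transpose, fromBlocks_multiply] at this
    obtain ⟨a, b, c⟩ := this
    refine ⟨(⟨⟨_, _, b, mul_eq_one_comm.1 b⟩, h⟩, ⟨g.1.toBlocks₁₂ * g.1.toBlocks₁₁ᵀ, fun i j => ?_⟩),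
      Subtype.ext (Subtype.ext (Eq.trans ?_ e))⟩
    · exact (congrFun₂ (add_neg_eq_zero.1 a) i j).trans (by simp [mul_apply, mul_comm])
    · simp [M, -coe_units_inv]
      exact (mul_assoc _ _ _).trans (by rw [mul_eq_one_comm.1 c, mul_one])

end Cfsg.Agent.S0774
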