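import Cfsg.Statements.S0776
import Cfsg.Agent.H5.Symp

set_option autoImplicit false
open Cfsg

namespace Cfsg.Agent.S0776

/-- If W ≤ F^(2m) is a 2k-dimensional subspace on which the symplectic form is non-degenerate, then the stabiliser of W in Sp_2m(F) is isomorphic to Sp_2k(F) × Sp_(2m−2k)(F). -/
theorem result {F : Type*} [Field F] (m k : ℕ) (hk : k ≤ m) (W : Submodule F (Fin m ⊕ Fin m → F)) (hWk : Module.finrank F W = 2 * k) (hW : ∀ u ∈ W, (∀ v ∈ W, Cfsg.sympForm m F u v = 0) → u = 0) : Nonempty (↥(Cfsg.stabilizing (Cfsg.spToMat m F) (W : Set (Fin m ⊕ Fin m → F))) ≃* Matrix.symplecticGroup (Fin k) F × Matrix.symplecticGroup (Fin (m - k)) F) := by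
  have hf := CfsgH5.spForm_nondeg (F := F) m
  have hW' : ((CfsgH5.spForm F m).res W).Nondeg := fun v hv =>
    Subtype.ext (hW v v.2 fun w hw => (CfsgH5.spForm F m).B_zero_symm (hv ⟨w, hw⟩))
  have hc := hf.isCompl_perp (((CfsgH5.spForm F m).res_nondeg_iff W).1 hW')
  have hd := hf.finrank_perp W
  rw [CfsgH5.finrank_sum_fun] at hd
  obtain ⟨a⟩ := CfsgH5.symp_isom_equiv hW' hWk
  obtain ⟨b⟩ := CfsgH5.symp_isom_equiv (hf.res_perp hW') (m := m - k) (by omega)
  exact ⟨(CfsgH5.spStabEquiv m _).trans ((CfsgH5.CForm.stabEquiv hc).symm.trans (a.prodCongr b))⟩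

end Cfsg.Agent.S0776
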