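import Cfsg.Statements.S0777
import Cfsg.Agent.H5.Gb1
import Cfsg.Agent.H5.Symp2

set_option autoImplicit false
open Cfsg

namespace Cfsg.Agent.S0777

open CfsgH5 CfsgH5.Gb Matrix

variable {F : Type*} [Field F] {m : ℕ}

/-- monomial matrices -/
def mon (π : Equiv.Perm (Fin m ⊕ Fin m)) (c : Fin m ⊕ Fin m → F) : Matrix (Fin m ⊕ Fin m) (Fin m ⊕ Fin m) F :=
  of fun i j => if i = π j then c j else 0

theorem mon_mem {π : Equiv.Perm (Fin m ⊕ Fin m)} {c : Fin m ⊕ Fin m → F} :
    mon π c ∈ symplecticGroup (Fin m) F ↔ ∀ a b, c a * J _ F (π a) (π b) * c b = J _ F a b := by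
  simp [SymplecticGroup.mem_iff', ← Matrix.ext_iff, mul_apply, mon]

theorem J_ne {a b : Fin m ⊕ Fin m} : J _ F a b ≠ 0 ↔ b = a.swap := by
  rcases a with a | a <;> rcases b with b | b <;> simp [J, one_apply, eq_comm]

theorem J_sq (a : Fin m ⊕ Fin m) : J _ F a a.swap * J _ F a a.swap = 1 ∧ J _ F a.swap a = -J _ F a a.swap := by
  rcases a with a | a <;> simp [J]

theorem mon_mem' {π : Equiv.Perm (Fin m ⊕ Fin m)} (h : ∀ a, π a.swap = (π a).swap) (d : Fin m → Fˣ) :
    mon π (Sum.elim (fun i => (d i : F)) fun i => -(d i : F)⁻¹ * J _ F (π (.inl i)) (π (.inl i)).swap) ∈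
      symplecticGroup (Fin m) F := mon_mem.2 fun a b => by
  by_cases k : b = a.swap
  · subst k
    rcases a with a | a
    · have := (J_sq (F := F) (π (.inl a))).1
      rw [h]; simp [J] at this ⊢; field_simp; linear_combination this
    · have := J_sq (F := F) (π (.inl a))
      rw [show π (.inr a) = _ from h (.inl a), Sum.swap_inr, this.2]
      simp [J] at this ⊢; field_simp; linear_combination this.1
  · rw [not_not.1 (J_ne.not.2 k), not_not.1 (J_ne.not.2 fun e => k (π.injective (e.trans (h a).symm)))]; simp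

/-- Weyl group of type C_m: for q ≥ 4 the diagonal matrices of Sp_2m(q) form a torus T ≅ (C_(q−1))^m (the elements stabilising every coordinate axis), and the normaliser of T in Sp_2m(q) has order 2^m · m! · (q − 1)^m. -/
theorem result {F : Type*} [Field F] [Fintype F] {q : ℕ} (hF : Fintype.card F = q) (hq : 4 ≤ q) (m : ℕ) : Nat.card ↥(Subgroup.normalizer (⨅ i : Fin m ⊕ Fin m, Cfsg.stabilizing (Cfsg.spToMat m F) ((Submodule.span F {(Pi.single i (1 : F) : Fin m ⊕ Fin m → F)} : Submodule F (Fin m ⊕ Fin m → F)) : Set (Fin m ⊕ Fin m → F)) : Set (Matrix.symplecticGroup (Fin m) F))) = 2 ^ m * Nat.factorial m * (q - 1) ^ m := by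
  set T : Set (symplecticGroup (Fin m) F) := ⨅ i : Fin m ⊕ Fin m, stabilizing (spToMat m F) ((Submodule.span F
      {(Pi.single i (1 : F) : Fin m ⊕ Fin m → F)} : Submodule F _) : Set (Fin m ⊕ Fin m → F))
  have mem : ∀ g, g ∈ T ↔ ∃ d, diagonal d = g.1 := fun g => by
    have : ∀ i : Fin m ⊕ Fin m, ((Submodule.span F {(Pi.single i (1 : F) : Fin m ⊕ Fin m → F)} : Submodule F _) :
        Set (Fin m ⊕ Fin m → F)) = {v | ∀ j, j ≠ i → v j = 0} := fun i => Set.ext fun v =>
      Submodule.mem_span_singleton.trans ⟨by rintro ⟨a, rfl⟩ j h; simp [h], fun h => ⟨v i, funext fun j => by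
        by_cases k : j = i <;> simp [k, h j]⟩⟩
    simp only [T, Set.iInf_eq_iInter, Set.mem_iInter, SetLike.mem_coe, this, mem_cs]
    exact ⟨fun h => ⟨_, IsDiag.diagonal_diag fun i j k => h j i j k (by simp)⟩, fun ⟨d, h⟩ k i j a b =>
      (congrFun₂ h i j).symm.trans (diagonal_apply_ne _ (not_not.1 b ▸ a))⟩
  let s : Equiv.Perm (Fin m ⊕ Fin m) := Equiv.sumComm _ _
  have cs : ∀ π, π ∈ Subgroup.centralizer {s} ↔ ∀ a, π a.swap = (π a).swap := fun π =>
    Subgroup.mem_centralizer_singleton_iff.trans Equiv.ext_iff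
  rw [← Nat.card_congr (Equiv.ofBijective (fun x : Subgroup.centralizer {s} × (Fin m → Fˣ) =>
    (⟨⟨_, mon_mem' ((cs _).1 x.1.2) x.2⟩, Subgroup.mem_normalizer_fintype fun t h => ?_⟩ : Subgroup.normalizer T))
    ⟨fun x y h => ?_, fun ⟨g, h⟩ => ?_⟩), Nat.card_prod, Equiv.Perm.nat_card_centralizer, Nat.card_fun, Nat.card_units]
  · have a := Equiv.Perm.cycleType_of_pow_prime_eq_one (σ := s) (p := 2) (by ext a; simp [s, pow_two])
    have b : s.cycleType.sum = m + m := by
      rw [Equiv.Perm.sum_cycleType, Finset.eq_univ_of_forall (s := s.support) (by rintro (a | a) <;> simp [s])]; simp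
    rw [b]
    rw [a, Multiset.sum_replicate, smul_eq_mul, mul_two] at b
    rw [a, show s.cycleType.card = m by omega]
    rcases eq_or_ne m 0 with rfl | h
    · simp
    · simp [Multiset.toFinset_replicate, h, hF]
  · obtain ⟨d, h⟩ := (mem _).1 h
    generalize hg : (⟨_, mon_mem' ((cs _).1 x.1.2) x.2⟩ : symplecticGroup (Fin m) F) = g
    have : diagonal (d ∘ x.1.1.symm) * g.1 = (g * t).1 := by
      ext i j
      simp [← hg, ← h, mon]
      split_ifs with k <;> simp [k, mul_comm]
    exact (mem _).2 ⟨d ∘ x.1.1.symm, by rw [Submonoid.coe_mul, ← this, mul_assoc, ← Submonoid.coe_mul, mul_inv_cancel]; simp⟩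
  · have k := fun i j => congrArg (·.1.1 i j) h
    have e : x.1 = y.1 := Subtype.ext (Equiv.ext fun j => by_contra fun c => by
      have := k (x.1.1 j) j
      rcases j with j | j <;> simp [mon, c] at this
      exact J_ne.2 rfl this)
    exact Prod.ext e (funext fun i => Units.ext (by simpa [mon, e] using k (x.1.1 (.inl i)) (.inl i)))
  obtain ⟨a, a0, a1⟩ := exists_sq_ne_one (F := F) (hF ▸ hq)
  have d := (SymplecticGroup.symplectic_det g.2).ne_zero
  have u : ∀ i j k, g.1 i j ≠ 0 → g.1 k j ≠ 0 → i = k := fun i j k hi hk => by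
    have : ∀ l, Sum.elim (Function.update (1 : Fin m → F) l a) (Function.update 1 l a⁻¹) i =
        Sum.elim (Function.update (1 : Fin m → F) l a) (Function.update 1 l a⁻¹) k := fun l => by
      let t : symplecticGroup (Fin m) F := ⟨diagonal (Sum.elim (Function.update 1 l a) (Function.update 1 l a⁻¹)), by
        rw [SymplecticGroup.mem_iff]
        ext (i | i) (j | j) <;> simp [J, one_apply] <;> split_ifs with h <;> simp [h, Function.update_apply] <;>
          split_ifs <;> simp [a0]⟩
      obtain ⟨c, hc⟩ := (mem _).1 ((Subgroup.mem_set_normalizer_iff''.1 h t).1 ((mem _).2 ⟨_, rfl⟩))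
      have : g.1 * diagonal c = t.1 * g.1 := by rw [hc, ← Submonoid.coe_mul, ← Submonoid.coe_mul]; simp [mul_assoc]
      have x := congrFun₂ this i j
      have y := congrFun₂ this k j
      simp only [t, mul_diagonal, diagonal_mul, mul_comm _ (c j)] at x y
      exact (mul_right_cancel₀ hi x).symm.trans (mul_right_cancel₀ hk y)
    have := this (i.elim id id)
    have n1 : a ≠ 1 := by rintro rfl; simp at a1
    have n2 : a ≠ a⁻¹ := fun e => a1 (by rw [pow_two]; nth_rw 2 [e]; simp [a0])
    rcases i with i | i <;> rcases k with k | k <;> simp [Function.update_apply] at this ⊢ <;> grind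
  choose π hπ using fun j => not_forall.1 fun k : ∀ i, g.1 i j = 0 => d (det_eq_zero_of_column_eq_zero j k)
  let e : Equiv.Perm (Fin m ⊕ Fin m) := Equiv.ofBijective π (Function.Surjective.bijective_of_finite fun i => by
    obtain ⟨j, k⟩ := not_forall.1 fun k : ∀ j, g.1 i j = 0 => d (det_eq_zero_of_row_eq_zero i k)
    exact ⟨j, u _ _ _ (hπ j) k⟩)
  have gm : mon e (fun j => g.1 (π j) j) = g.1 := Matrix.ext fun i j => by
    by_cases k : i = e j
    · simp [mon, k, e]
    · simpa [mon, k, eq_comm] using not_not.1 fun c => k (u _ _ _ c (hπ j))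
  have k := mon_mem.1 (gm ▸ g.2)
  have c : ∀ a, e a.swap = (e a).swap := fun a => (J_ne (F := F)).1 fun c => J_ne.2 rfl ((k a _).symm.trans (by simp [c]))
  refine ⟨(⟨e, (cs _).2 c⟩, fun i => Units.mk0 _ (hπ (.inl i))), Subtype.ext (Subtype.ext (Eq.trans
    (congrArg (mon e) (funext ?_)) gm))⟩
  rintro (i | i)
  · rfl
  · have := k (.inl i) (.inr i)
    have h := hπ (.inl i)
    rw [show e (.inr i) = _ from c (.inl i)] at this
    simp [J] at this ⊢
    have b := (J_sq (F := F) (e (.inl i))).1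
    simp only [J] at b
    grind

end Cfsg.Agent.S0777
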