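import Cfsg.Statements.S0778
import Cfsg.Agent.H5.Gb1

set_option autoImplicit false
open Cfsg

namespace Cfsg.Agent.S0778

open CfsgH5 CfsgH5.Gb Matrix

/-- The elements of Sp_2m(F) stabilising both W = ⟨e_1..e_m⟩ and U = ⟨f_1..f_m⟩ form a subgroup isomorphic to GL_m(F) (block-diagonal matrices diag(X, X^(−ᵀ)) up to the sign convention of J), for m ≥ 1 or m = 0 alike. -/
theorem result {F : Type*} [Field F] (m : ℕ) : Nonempty (↥(Cfsg.stabilizing (Cfsg.spToMat m F) {v : Fin m ⊕ Fin m → F | ∀ i : Fin m, v (Sum.inr i) = 0} ⊓ Cfsg.stabilizing (Cfsg.spToMat m F) {v : Fin m ⊕ Fin m → F | ∀ i : Fin m, v (Sum.inl i) = 0}) ≃* Matrix.GeneralLinearGroup (Fin m) F) := by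
  let φ : GL (Fin m) F →* symplecticGroup (Fin m) F := MonoidHom.mk' (fun g => ⟨fromBlocks g.1 0 0 (g⁻¹).1ᵀ, by
    rw [SymplecticGroup.mem_iff]
    simp [-coe_units_inv, J, fromBlocks_transpose, fromBlocks_multiply, ← transpose_mul]⟩) fun a b =>
    Subtype.ext (by simp [-coe_units_inv, fromBlocks_multiply])
  have a : {v : Fin m ⊕ Fin m → F | ∀ i, v (.inr i) = 0} = {v | ∀ i : Fin m ⊕ Fin m, i.isRight → v i = 0} := by
    ext; simp
  have b : {v : Fin m ⊕ Fin m → F | ∀ i, v (.inl i) = 0} = {v | ∀ i : Fin m ⊕ Fin m, i.isLeft → v i = 0} := by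
    ext; simp
  refine ⟨(equivOfRange φ (fun a b h => Units.ext (fromBlocks_inj.1 (congrArg Subtype.val h)).1) _ fun g => ?_).symm⟩
  rw [a, b, Subgroup.mem_inf, mem_cs, mem_cs]
  refine ⟨fun ⟨h, k⟩ => ?_, by rintro ⟨g, rfl⟩; simp [φ]⟩
  have e : fromBlocks g.1.toBlocks₁₁ 0 0 g.1.toBlocks₂₂ = g.1 := by
    ext (i | i) (j | j)
    exacts [rfl, (k _ _ rfl (by simp)).symm, (h _ _ rfl (by simp)).symm, rfl]
  have := SymplecticGroup.mem_iff.1 g.2
  rw [← e] at this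
  simp [J, fromBlocks_transpose, fromBlocks_multiply] at this
  exact ⟨⟨_, _, this.1, mul_eq_one_comm.1 this.1⟩, Subtype.ext e⟩

end Cfsg.Agent.S0778
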