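import Cfsg.Statements.S0779
import Cfsg.Agent.H5.Unit2

set_option autoImplicit false
open Cfsg

namespace Cfsg.Agent.S0779

/-- Unitary transvections: let |F| = q², h the standard Hermitian form Σ x_i y_i^q and v ≠ 0 with h(v, v) = 0. The linear map x ↦ x + c h(x, v) v is an isometry of h if and only if c = 0 or c^(q−1) = −1. -/
theorem result {F : Type*} [Field F] [Fintype F] {q : ℕ} (hF : Fintype.card F = q ^ 2) (n : ℕ) (v : Fin n → F) (hv : v ≠ 0) (hv0 : Cfsg.hermForm n F q v v = 0) (c : F) : (∀ x y : Fin n → F, Cfsg.hermForm n F q ((Cfsg.unitaryTransvection n q v c).mulVec x) ((Cfsg.unitaryTransvection n q v c).mulVec y) = Cfsg.hermForm n F q x y) ↔ (c = 0 ∨ c ^ (q - 1) = -1) := by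
  have H := CfsgH5.frobq_UF hF
  have h2 := H.two_le
  simp only [CfsgH5.unitaryTransvection_mulVec, ← CfsgH5.hermC_B H] at hv0 ⊢
  have key : c + CfsgH5.frobq hF c = 0 ↔ c = 0 ∨ c ^ (q - 1) = -1 := by
    rw [H.pow, show c + c ^ q = c * (c ^ (q - 1) + 1) by
      rw [mul_add, ← pow_succ', Nat.sub_add_cancel (by omega)]; ring, mul_eq_zero,
      add_eq_zero_iff_eq_neg]
  rw [← key]
  constructor
  · intro h
    obtain ⟨y, hy⟩ := (CfsgH5.hermC_nondeg H n).exists_B_eq_one hv
    have := h y y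
    simp [hv0, hy, (CfsgH5.hermC H n).B_one_symm hy] at this
    linear_combination this
  · intro h x y
    simp only [CfsgH5.CForm.B_add_left, CfsgH5.CForm.B_add_right, CfsgH5.CForm.B_smul_left,
      CfsgH5.CForm.B_smul_right, hv0, CfsgH5.FP.unit_σ, map_mul, ← CfsgH5.CForm.unit_B_symm]
    linear_combination ((CfsgH5.hermC H n).B x v * (CfsgH5.hermC H n).B v y) * h

end Cfsg.Agent.S0779
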