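import Cfsg.Statements.S0781
import Cfsg.Agent.H5.Unit2

set_option autoImplicit false
open Cfsg

namespace Cfsg.Agent.S0781

/-- In SU_n(q) with n ≥ 4, or n = 3 and q > 2, every element whose matrix is a unitary transvection x ↦ x + c h(x, v) v (v isotropic) is a commutator ⁅B, C⁆ of two elements of SU_n(q). -/
theorem result {F : Type*} [Field F] [Fintype F] {q : ℕ} (hF : Fintype.card F = q ^ 2) (n : ℕ) (hn : 4 ≤ n ∨ (n = 3 ∧ 3 ≤ q)) (A : ↥(Cfsg.SU n F q)) (v : Fin n → F) (c : F) (hv0 : Cfsg.hermForm n F q v v = 0) (hA : ((A : Matrix.SpecialLinearGroup (Fin n) F) : Matrix (Fin n) (Fin n) F) = Cfsg.unitaryTransvection n q v c) : A ∈ commutatorSet ↥(Cfsg.SU n F q) := by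
  have H := CfsgH5.frobq_UF hF
  have hf := CfsgH5.hermC_nondeg H n
  have h1 := (CfsgH5.CForm.unit_isSimple H hf (by simp; omega) (by simp; omega)).2.1
  by_cases hv : v = 0
  · have : A = 1 := Subtype.ext (Subtype.ext (hA.trans (CfsgH5.mat_ext_mulVec fun x => by
      simp [CfsgH5.unitaryTransvection_mulVec, hv])))
    rw [this]; exact one_mem_commutatorSet _
  have happ : ∀ x, (CfsgH5.suEquiv H n A : _ ≃ₗ[F] _) x = x + (c * (CfsgH5.hermC H n).B x v) • v :=
    fun x => by rw [CfsgH5.suEquiv_apply, hA, CfsgH5.unitaryTransvection_mulVec]; rfl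
  have hg : (CfsgH5.hermC H n).IsEich (CfsgH5.suEquiv H n A) v 0 (-c) := by
    refine ⟨hv0, by simp, ?_, fun x => by simp [happ, -CfsgH5.suEquiv_apply]⟩
    obtain ⟨y, hy⟩ := hf.exists_B_eq_one hv
    have := (CfsgH5.hermC H n).Isom_B (CfsgH5.suEquiv H n A).2.1 y y
    rw [← CfsgH5.hermC_B H] at hv0
    simp [happ, -CfsgH5.suEquiv_apply, hv0, hy, (CfsgH5.hermC H n).B_one_symm hy] at this
    simp
    linear_combination -this
  obtain ⟨a, ha, b, hb, e⟩ := CfsgH5.CForm.unit_transvection_comm H.ne_id hf (by simp; omega) hg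
  refine ⟨(CfsgH5.suEquiv H n).symm ⟨a, h1 ▸ ha⟩, (CfsgH5.suEquiv H n).symm ⟨b, h1 ▸ hb⟩,
    (CfsgH5.suEquiv H n).injective (Subtype.ext ?_)⟩
  rw [e, map_commutatorElement]
  simp [commutatorElement_def]

end Cfsg.Agent.S0781
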