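import Cfsg.Statements.S0783
import Cfsg.Agent.H5.TSub

set_option autoImplicit false
open Cfsg

namespace Cfsg.Agent.S0783

/-- PGU_n(q)/PSU_n(q) is cyclic of order (n, q+1): for n ≥ 2 and |F| = q² there is a surjective homomorphism from GU_n(q) onto the cyclic group of order gcd(n, q + 1) whose kernel is generated by the determinant-one elements together with the centre. -/
theorem result {F : Type*} [Field F] [Fintype F] {q : ℕ} (hF : Fintype.card F = q ^ 2) (n : ℕ) (hn : 2 ≤ n) : ∃ φ : ↥(Cfsg.GU n F q) →* Multiplicative (ZMod (Nat.gcd n (q + 1))), Function.Surjective φ ∧ φ.ker = (Matrix.GeneralLinearGroup.det : Matrix.GeneralLinearGroup (Fin n) F →* Fˣ).ker.subgroupOf (Cfsg.GU n F q) ⊔ Subgroup.center ↥(Cfsg.GU n F q) := by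
  have H := CfsgH5.frobq_UF hF
  have hf := CfsgH5.hermC_nondeg H n
  have hdet : ∀ g : Cfsg.GU n F q, LinearMap.det ((CfsgH5.guEquiv H n g).1.toLinearMap) = ((g : GL (Fin n) F) : Matrix (Fin n) (Fin n) F).det :=
    fun g => CfsgH5.toLinHom_det _ _
  let C := rootsOfUnity (q + 1) F
  let d : Cfsg.GU n F q →* C := (Matrix.GeneralLinearGroup.det.comp (Cfsg.GU n F q).subtype).codRestrict C
    fun g => by
      have := CfsgH5.CForm.det_norm hf (CfsgH5.guEquiv H n g).2
      rw [hdet, CfsgH5.FP.unit_σ, H.norm_eq] at this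
      exact (mem_rootsOfUnity' _ _).2 this
  have hd : ∀ g, ((d g : Fˣ) : F) = ((g : GL (Fin n) F) : Matrix (Fin n) (Fin n) F).det :=
    fun _ => rfl
  have hds : Function.Surjective d := fun c => by
    obtain ⟨g, hg, e⟩ := CfsgH5.CForm.unit_exists_det H.ne_id hf (by simp; omega) (c.1 : F)
      (by rw [H.norm_eq]; exact (mem_rootsOfUnity' _ _).1 c.2)
    obtain ⟨g', e'⟩ := (CfsgH5.guEquiv H n).surjective ⟨g, hg⟩
    exact ⟨g', Subtype.ext (Units.ext (by rw [hd, ← hdet, e', e]))⟩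
  let R := (powMonoidHom n : C →* C).range
  have hR : Nat.card (C ⧸ R) = Nat.card (Multiplicative (ZMod (Nat.gcd n (q + 1)))) := by
    rw [← Subgroup.index_eq_card, IsCyclic.index_powMonoidHom_range, H.card_roots_succ,
      Nat.card_congr Multiplicative.toAdd, Nat.card_zmod, Nat.gcd_comm]
  have : IsCyclic (C ⧸ R) := isCyclic_of_surjective _ (QuotientGroup.mk'_surjective R)
  let e := mulEquivOfCyclicCardEq hR
  obtain ⟨x, y, hxy⟩ := CfsgH5.CForm.unit_exists_hyp H hf (by simpa)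
  have : Nontrivial (Fin n → F) := nontrivial_of_ne x 0 hxy.x_ne
  have hz : ∀ z : Cfsg.GU n F q, z ∈ Subgroup.center (Cfsg.GU n F q) ↔
      ∃ l : F, ∀ v, (CfsgH5.guEquiv H n z).1 v = l • v := fun z => by
    rw [← CfsgH5.mem_center_equiv (CfsgH5.guEquiv H n), CfsgH5.CForm.mem_center_iff_scalar hf
      (CfsgH5.CForm.rich_of_ker (CfsgH5.CForm.unit_ker H.ne_id)) hxy CfsgH5.CForm.E_le_Isom le_rfl]
  refine ⟨e.toMonoidHom.comp ((QuotientGroup.mk' R).comp d),
    e.surjective.comp ((QuotientGroup.mk'_surjective R).comp hds), ?_⟩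
  have hker : ∀ g, g ∈ (e.toMonoidHom.comp ((QuotientGroup.mk' R).comp d)).ker ↔ d g ∈ R := by
    intro g
    simp [MonoidHom.mem_ker]
  refine le_antisymm (fun g hg => ?_) (sup_le (fun g hg => ?_) fun g hg => ?_)
  · obtain ⟨c, hc⟩ := (hker g).1 hg
    obtain ⟨z, hz'⟩ := (CfsgH5.guEquiv H n).surjective ⟨CfsgH5.CForm.scal _ c.1,
      (CfsgH5.CForm.scal_mem_Isom hf).2 (by
        rw [CfsgH5.FP.unit_σ, H.norm_eq]; exact (mem_rootsOfUnity' _ _).1 c.2)⟩
    have h1 : d z = d g := Subtype.ext (Units.ext (by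
      rw [hd, ← hdet, hz', CfsgH5.CForm.scal_det, ← hc]; simp))
    rw [show g = g * z⁻¹ * z by group]
    refine Subgroup.mul_mem_sup ?_ ((hz z).2 ⟨c.1, fun v => by rw [hz']; rfl⟩)
    have : d (g * z⁻¹) = 1 := by rw [map_mul, map_inv, h1, mul_inv_cancel]
    exact congrArg Subtype.val this
  · rw [hker, show d g = 1 from Subtype.ext hg]; exact R.one_mem
  · obtain ⟨l, hl⟩ := (hz g).1 hg
    obtain ⟨u, -, hu⟩ := CfsgH5.CForm.exists_scal_of_smul hl
    have h1 := (CfsgH5.CForm.scal_mem_Isom hf).1 (hu ▸ (CfsgH5.guEquiv H n g).2)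
    rw [CfsgH5.FP.unit_σ, H.norm_eq] at h1
    refine (hker g).2 ⟨⟨u, (mem_rootsOfUnity' _ _).2 h1⟩, Subtype.ext (Units.ext ?_)⟩
    rw [hd, ← hdet, hu, CfsgH5.CForm.scal_det]; simp

end Cfsg.Agent.S0783
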