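import Cfsg.Statements.S0785
import Cfsg.Agent.H5.Orth6

set_option autoImplicit false
open Cfsg

namespace Cfsg.Agent.S0785

/-- det(I) = {±1}: for a quadratic form on F^n whose polar form is non-degenerate, every element of the isometry group has determinant 1 or −1, and as soon as Q takes a non-zero value some isometry has determinant −1. -/
theorem result {F : Type*} [Field F] {n : ℕ} (Q : QuadraticForm F (Fin n → F)) (hQ : (QuadraticMap.polarBilin Q).Nondegenerate) : (∀ g : ↥(Cfsg.isometryGroup F ⇑Q), ((g : Matrix.GeneralLinearGroup (Fin n) F) : Matrix (Fin n) (Fin n) F).det = 1 ∨ ((g : Matrix.GeneralLinearGroup (Fin n) F) : Matrix (Fin n) (Fin n) F).det = -1) ∧ ((∃ v, Q v ≠ 0) → ∃ g : ↥(Cfsg.isometryGroup F ⇑Q), ((g : Matrix.GeneralLinearGroup (Fin n) F) : Matrix (Fin n) (Fin n) F).det = -1) := by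
  refine ⟨fun g => ?_, fun ⟨v, hv⟩ => ⟨(CfsgH5.orthEquiv Q).symm ⟨_, CfsgH5.CForm.rf_mem v⟩, ?_⟩⟩
  · have := CfsgH5.CForm.det_norm (CfsgH5.CForm.ofQuad_nondeg hQ) (CfsgH5.orthEquiv Q g).2
    rw [CfsgH5.orthEquiv_det] at this
    exact mul_self_eq_one_iff.1 this
  · rw [← CfsgH5.orthEquiv_det, MulEquiv.apply_symm_apply]
    exact CfsgH5.CForm.rf_det hv

end Cfsg.Agent.S0785
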