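import Cfsg.Statements.S0786
import Cfsg.Agent.H5.Orth6

set_option autoImplicit false
open Cfsg

namespace Cfsg.Agent.S0786

/-- Generation by reflections: if F is finite, Q is a quadratic form on F^n with non-degenerate polar form, and (|F|, n) ≠ (2, 4), then the isometry group of Q is generated by the reflections r_v, Q(v) ≠ 0. -/
theorem result {F : Type*} [Field F] [Fintype F] {n : ℕ} (Q : QuadraticForm F (Fin n → F)) (hQ : (QuadraticMap.polarBilin Q).Nondegenerate) (h : Fintype.card F ≠ 2 ∨ n ≠ 4) : Subgroup.closure {g : ↥(Cfsg.isometryGroup F ⇑Q) | ∃ v : Fin n → F, Q v ≠ 0 ∧ ((g : Matrix.GeneralLinearGroup (Fin n) F) : Matrix (Fin n) (Fin n) F) = Cfsg.reflectionMatrix ⇑Q v} = ⊤ := by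
  have hf := CfsgH5.CForm.ofQuad_nondeg hQ
  rw [eq_top_iff]
  intro g _
  have := CfsgH5.CForm.Isom_le_of_rf hf (CfsgH5.CForm.split_of_card hf (by simpa using h))
    (S := ((Subgroup.closure {g : ↥(Cfsg.isometryGroup F ⇑Q) | ∃ v : Fin n → F, Q v ≠ 0 ∧ ((g : Matrix.GeneralLinearGroup (Fin n) F) : Matrix (Fin n) (Fin n) F) = Cfsg.reflectionMatrix ⇑Q v}).map
      (CfsgH5.orthEquiv Q).toMonoidHom).map (Subgroup.subtype _)) (fun d hd =>
      ⟨⟨_, CfsgH5.CForm.rf_mem d⟩, ⟨(CfsgH5.orthEquiv Q).symm ⟨_, CfsgH5.CForm.rf_mem d⟩,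
        Subgroup.subset_closure ⟨d, hd, CfsgH5.orthEquiv_symm_rf Q d⟩, by simp⟩, rfl⟩)
      (CfsgH5.orthEquiv Q g).2
  obtain ⟨_, ⟨g', h1, rfl⟩, h2⟩ := this
  rwa [← (CfsgH5.orthEquiv Q).injective (Subtype.ext h2)]

end Cfsg.Agent.S0786
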