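import Cfsg.Statements.S0787
import Cfsg.Agent.H5.Orth7

set_option autoImplicit false
open Cfsg

namespace Cfsg.Agent.S0787

open scoped commutatorElement

theorem aux {G H : Type*} [Group G] [Group H] (e : G ≃* H) (h : ∃! K : Subgroup H, K.index = 2) :
    ∃! K : Subgroup G, K.index = 2 := by
  obtain ⟨K, h1, h2⟩ := h
  refine ⟨K.comap e.toMonoidHom, by
    rw [← h1]; exact Subgroup.index_comap_of_surjective _ e.surjective, fun L hL => ?_⟩
  rw [← h2 (L.map e.toMonoidHom) ((Subgroup.index_map_equiv _ e).trans hL),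
    Subgroup.comap_map_eq_self_of_injective e.injective]

theorem aux2 {G : Type*} [Group G] [Finite G] (S : Subgroup G) [S.Normal] (hle : commutator G ≤ S)
    (hi : (commutator G).relIndex S = 2) (h : ∀ N : Subgroup G, N.Normal →
      (∀ g ∈ S, g ^ 2 ∈ N) → commutator G ≤ N) : ∃! K : Subgroup S, K.index = 2 := by
  refine ⟨(commutator G).subgroupOf S, hi, fun K hK => ?_⟩
  have h1 := h (Subgroup.normalClosure {x | ∃ g ∈ S, g ^ 2 = x}) inferInstance fun g hg =>
    Subgroup.subset_normalClosure ⟨g, hg, rfl⟩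
  have h2 : Subgroup.normalClosure {x | ∃ g ∈ S, g ^ 2 = x} ≤ K.map S.subtype := by
    refine (Subgroup.closure_le _).2 fun x hx => ?_
    obtain ⟨_, ⟨g, hg, rfl⟩, hc⟩ := Group.mem_conjugatesOfSet_iff.1 hx
    obtain ⟨c, rfl⟩ := isConj_iff.1 hc
    exact ⟨⟨c * g * c⁻¹, Subgroup.Normal.conj_mem inferInstance g hg c⟩ ^ 2,
      K.sq_mem_of_index_two hK _, by simp [sq]⟩
  have h3 : (commutator G).subgroupOf S ≤ K := fun g hg => by
    obtain ⟨k, hk, e⟩ := h2 (h1 hg)
    rwa [← Subtype.ext e]
  have := Subgroup.relIndex_mul_index h3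
  rw [hK, show ((commutator G).subgroupOf S).index = 2 from hi] at this
  exact le_antisymm (Subgroup.relIndex_eq_one.1 (by omega)) h3

/-- Existence and uniqueness of Ω: if F is finite, n ≥ 2, Q is a quadratic form on F^n with non-degenerate polar form and (|F|, n) ≠ (2, 4), then the group of isometries of determinant one has a unique subgroup of index 2. -/
theorem result {F : Type*} [Field F] [Fintype F] {n : ℕ} (hn : 2 ≤ n) (Q : QuadraticForm F (Fin n → F)) (hQ : (QuadraticMap.polarBilin Q).Nondegenerate) (h : Fintype.card F ≠ 2 ∨ n ≠ 4) : ∃! H : Subgroup ↥(Cfsg.specialIsometryGroup F ⇑Q), H.index = 2 := by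
  classical
  have hf := CfsgH5.CForm.ofQuad_nondeg hQ
  have hs := CfsgH5.CForm.split_of_card hf (by simpa using h)
  have := (CfsgH5.CForm.ofQuad Q).finite_Isom
  let S : Subgroup (CfsgH5.CForm.ofQuad Q).Isom :=
    (LinearEquiv.det.comp (Subgroup.subtype _)).ker
  have hS : ∀ g, g ∈ S ↔ ((CfsgH5.CForm.dick hf hs g : ℤ) : F) = 1 := fun g => by
    rw [← CfsgH5.CForm.det_eq_dick, MonoidHom.mem_ker, Units.ext_iff, MonoidHom.comp_apply,
      LinearEquiv.coe_det]; rfl
  have hm : (Cfsg.specialIsometryGroup F ⇑Q).map (CfsgH5.orthEquiv Q).toMonoidHom = S := by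
    ext g
    obtain ⟨g, rfl⟩ := (CfsgH5.orthEquiv Q).surjective g
    rw [hS, ← CfsgH5.CForm.det_eq_dick, CfsgH5.orthEquiv_det]
    refine (Subgroup.mem_map_iff_mem (f := (CfsgH5.orthEquiv Q).toMonoidHom)
      (CfsgH5.orthEquiv Q).injective).trans ?_
    rw [Cfsg.specialIsometryGroup, MonoidHom.mem_ker, Units.ext_iff]; rfl
  have hle : commutator _ ≤ S := Abelianization.commutator_subset_ker _
  refine aux (((CfsgH5.orthEquiv Q).subgroupMap _).trans (MulEquiv.subgroupCongr hm))
    (aux2 S hle ?_ fun N _ hN => CfsgH5.CForm.commutator_le_of_rf hf hs N fun a b ha hb => ?_)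
  · have := Subgroup.relIndex_mul_index hle
    by_cases h2 : (2 : F) = 0
    · have e : S = ⊤ := eq_top_iff.2 fun g _ => (hS g).2 (by
        rcases Int.units_eq_one_or (CfsgH5.CForm.dick hf hs g) with a | a <;> rw [a]
        · simp
        · push_cast; linear_combination -h2)
      rw [CfsgH5.CForm.index_commutator_two hf hs h2 (by simp; omega)] at this
      rwa [show S.index = 1 by rw [e, Subgroup.index_top], mul_one] at this
    · have e : S = (CfsgH5.CForm.dick hf hs).ker := by
        ext g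
        rw [hS, MonoidHom.mem_ker]
        rcases Int.units_eq_one_or (CfsgH5.CForm.dick hf hs g) with a | a <;> rw [a]
        · simp
        · push_cast
          exact ⟨fun h => absurd (by linear_combination -h) h2, fun h => absurd h (by decide)⟩
      obtain ⟨g, hg⟩ := CfsgH5.CForm.dick_surjective hf hs (by simp; omega) (-1)
      rw [CfsgH5.CForm.index_commutator_four hf h2 (by simpa),
        show S.index = 2 from e ▸ CfsgH5.index_ker_of_ne_one hg] at this
      omega
  · have := hN (⟨_, CfsgH5.CForm.rf_mem a⟩ * ⟨_, CfsgH5.CForm.rf_mem b⟩) (by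
      rw [hS, map_mul, CfsgH5.CForm.dick_rf hf hs ha, CfsgH5.CForm.dick_rf hf hs hb]; simp)
    convert this using 1
    rw [commutatorElement_def, sq, mul_assoc, inv_eq_of_mul_eq_one_right (CfsgH5.CForm.rf_sq' a),
      inv_eq_of_mul_eq_one_right (CfsgH5.CForm.rf_sq' b)]

end Cfsg.Agent.S0787
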