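import Cfsg.Statements.S0790
import Cfsg.Agent.H5.Orth6

set_option autoImplicit false
open Cfsg

namespace Cfsg.Agent.S0790

/-- −1 ∈ Ω⁺_2m(q) iff q^m ≡ 1 (mod 4), for q odd and m ≥ 1 (so that in the other case SO⁺_2m(q) = 2 × Ω⁺_2m(q)). -/
theorem result {F : Type*} [Field F] [Fintype F] {q : ℕ} (hF : Fintype.card F = q) (hodd : Odd q) (m : ℕ) (hm : 1 ≤ m) : (∃ g : ↥(Cfsg.isometryGroup F (Cfsg.quadFormPlus m F)), g ∈ Cfsg.Omega F (Cfsg.quadFormPlus m F) ∧ ((g : Matrix.GeneralLinearGroup (Fin m ⊕ Fin m) F) : Matrix (Fin m ⊕ Fin m) (Fin m ⊕ Fin m) F) = -1) ↔ q ^ m % 4 = 1 := by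
  subst hF
  obtain ⟨m, rfl⟩ : ∃ k, m = k + 1 := ⟨m - 1, by omega⟩
  refine (CfsgH5.exists_neg_mem_Omega_iff (CfsgH5.plusQ F (m + 1))).trans ?_
  rw [CfsgH5.CForm.neg_mem_commutator_iff (CfsgH5.plusQ_nondeg F (m + 1))
    (CfsgH5.two_ne_of_odd hodd) (m := m) (by simp; omega), (CfsgH5.plusQ_isPlus _).sgn, if_pos rfl]

end Cfsg.Agent.S0790
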