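import Cfsg.Statements.S0792
import Cfsg.Agent.H5.Orth6

set_option autoImplicit false
open Cfsg

namespace Cfsg.Agent.S0792

/-- For q odd and Q with non-degenerate polar form on F^n, the determinant-one isometries form the subgroup generated by all products r_u r_v of two reflections (Q(u), Q(v) ≠ 0). -/
theorem result {F : Type*} [Field F] [Fintype F] (h2 : (2 : F) ≠ 0) {n : ℕ} (Q : QuadraticForm F (Fin n → F)) (hQ : (QuadraticMap.polarBilin Q).Nondegenerate) : Cfsg.specialIsometryGroup F ⇑Q = Subgroup.closure {g : ↥(Cfsg.isometryGroup F ⇑Q) | ∃ u v : Fin n → F, Q u ≠ 0 ∧ Q v ≠ 0 ∧ ((g : Matrix.GeneralLinearGroup (Fin n) F) : Matrix (Fin n) (Fin n) F) = Cfsg.reflectionMatrix ⇑Q u * Cfsg.reflectionMatrix ⇑Q v} := by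
  have hf := CfsgH5.CForm.ofQuad_nondeg hQ
  have hs : (CfsgH5.CForm.ofQuad Q).Split := CfsgH5.CForm.split_of_two_ne h2
  have hm : ∀ g : Cfsg.isometryGroup F ⇑Q, g ∈ Cfsg.specialIsometryGroup F ⇑Q ↔
      LinearMap.det ((CfsgH5.orthEquiv Q g).1 : (Fin n → F) →ₗ[F] (Fin n → F)) = 1 := fun g => by
    rw [CfsgH5.orthEquiv_det, Cfsg.specialIsometryGroup, MonoidHom.mem_ker, Units.ext_iff]; rfl
  refine le_antisymm (fun g hg => ?_) ((Subgroup.closure_le _).2 ?_)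
  · set S := Subgroup.closure {g : ↥(Cfsg.isometryGroup F ⇑Q) | ∃ u v : Fin n → F, Q u ≠ 0 ∧ Q v ≠ 0 ∧ ((g : Matrix.GeneralLinearGroup (Fin n) F) : Matrix (Fin n) (Fin n) F) = Cfsg.reflectionMatrix ⇑Q u * Cfsg.reflectionMatrix ⇑Q v}
    let r : (Fin n → F) → Cfsg.isometryGroup F ⇑Q := fun d =>
      (CfsgH5.orthEquiv Q).symm ⟨_, CfsgH5.CForm.rf_mem d⟩
    have hr : ∀ a b, Q a ≠ 0 → Q b ≠ 0 → r a * r b ∈ S := fun a b ha hb =>
      Subgroup.subset_closure ⟨a, b, ha, hb, by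
        rw [← CfsgH5.orthEquiv_symm_rf, ← CfsgH5.orthEquiv_symm_rf]; rfl⟩
    have hrr : ∀ a, r a * r a = 1 := fun a => by
      simp only [r]; rw [← map_mul, CfsgH5.CForm.rf_sq', map_one]
    have h1 : (-1 : F) ≠ 1 := fun h => h2 (by linear_combination -h)
    have := CfsgH5.CForm.rf_induction hf hs (fun g => ∀ hg : g ∈ (CfsgH5.CForm.ofQuad Q).Isom,
      (LinearMap.det (g : (Fin n → F) →ₗ[F] (Fin n → F)) = 1 ∧ (CfsgH5.orthEquiv Q).symm ⟨g, hg⟩ ∈ S) ∨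
      (LinearMap.det (g : (Fin n → F) →ₗ[F] (Fin n → F)) = -1 ∧ ∃ d, Q d ≠ 0 ∧
        (CfsgH5.orthEquiv Q).symm ⟨g, hg⟩ * r d ∈ S))
      (fun _ => .inl ⟨by simp, by
        rw [show (⟨1, _⟩ : (CfsgH5.CForm.ofQuad Q).Isom) = 1 from rfl, map_one]; exact one_mem _⟩)
      (fun g d hg hd ih hgd => by
        have e : (CfsgH5.orthEquiv Q).symm ⟨_, hgd⟩ = (CfsgH5.orthEquiv Q).symm ⟨g, hg⟩ * r d := by
          simp only [r]; rw [← map_mul]; rfl
        rw [e, LinearEquiv.coe_toLinearMap_mul, map_mul, CfsgH5.CForm.rf_det hd]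
        rcases ih hg with ⟨a, b⟩ | ⟨a, d', hd', b⟩
        · exact .inr ⟨by simp [a], d, hd, by rwa [mul_assoc, hrr, mul_one]⟩
        · refine .inl ⟨by simp [a], ?_⟩
          have := S.mul_mem b (hr d' d hd' hd)
          rwa [mul_assoc, ← mul_assoc (r d'), hrr, one_mul] at this)
      _ (CfsgH5.orthEquiv Q g).2 (CfsgH5.orthEquiv Q g).2
    rcases this with ⟨_, b⟩ | ⟨a, _⟩
    · simpa using b
    · exact absurd (a.symm.trans ((hm g).1 hg)) h1
  · rintro g ⟨u, v, hu, hv, hg⟩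
    rw [SetLike.mem_coe, hm, CfsgH5.orthEquiv_det, hg, Matrix.det_mul, ← CfsgH5.orthEquiv_symm_rf,
      ← CfsgH5.orthEquiv_symm_rf, ← CfsgH5.orthEquiv_det, ← CfsgH5.orthEquiv_det,
      MulEquiv.apply_symm_apply, MulEquiv.apply_symm_apply, CfsgH5.CForm.rf_det hu,
      CfsgH5.CForm.rf_det hv]
    simp

end Cfsg.Agent.S0792
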