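import Cfsg.Statements.S0793
import Cfsg.Agent.H5.Orth6

set_option autoImplicit false
open Cfsg

namespace Cfsg.Agent.S0793

/-- Root elements: if Q(u) = Q(v) = 0 and f(u, v) = 0 (f the polar form), then for every c the Siegel matrix T_(u,v)(c) preserves Q, fixes u and v, and T(c) T(d) = T(c + d). -/
theorem result {F : Type*} [Field F] {n : ℕ} (Q : QuadraticForm F (Fin n → F)) (u v : Fin n → F) (hu : Q u = 0) (hv : Q v = 0) (huv : QuadraticMap.polar ⇑Q u v = 0) : (∀ c x, Q ((Cfsg.siegelMatrix ⇑Q u v c).mulVec x) = Q x) ∧ (∀ c, (Cfsg.siegelMatrix ⇑Q u v c).mulVec u = u ∧ (Cfsg.siegelMatrix ⇑Q u v c).mulVec v = v) ∧ ∀ c d, Cfsg.siegelMatrix ⇑Q u v c * Cfsg.siegelMatrix ⇑Q u v d = Cfsg.siegelMatrix ⇑Q u v (c + d) := by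
  have h1 : (CfsgH5.CForm.ofQuad Q).B u v = 0 := huv
  have h2 := (CfsgH5.CForm.ofQuad Q).B_zero_symm h1
  have h3 := (CfsgH5.CForm.ofQuad Q).B_self_of_Q_zero hu
  have h4 := (CfsgH5.CForm.ofQuad Q).B_self_of_Q_zero hv
  refine ⟨fun c x => ?_, fun c => ?_, fun c d => CfsgH5.mat_ext_mulVec fun x => ?_⟩
  · rw [CfsgH5.siegelMatrix_mulVec, ← CfsgH5.CForm.ofQuad_Q, ← CfsgH5.CForm.ofQuad_Q]
    simp only [CfsgH5.CForm.Q_sub, CfsgH5.CForm.orth_Q_add, CfsgH5.CForm.orth_Q_smul,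
      CfsgH5.CForm.B_add_left, CfsgH5.CForm.B_smul_left, CfsgH5.CForm.B_smul_right, h2,
      show (CfsgH5.CForm.ofQuad Q).Q u = 0 from hu, show (CfsgH5.CForm.ofQuad Q).Q v = 0 from hv,
      CfsgH5.FP.orth_σ, CfsgH5.FP.orth_t]
    ring
  · simp [CfsgH5.siegelMatrix_mulVec, h1, h2, h3, h4]
  · rw [← Matrix.mulVec_mulVec]
    simp only [CfsgH5.siegelMatrix_mulVec, CfsgH5.CForm.B_add_left, CfsgH5.CForm.B_smul_left,
      CfsgH5.CForm.B_sub_left, h1, h2, h3, h4]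
    module

end Cfsg.Agent.S0793
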