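import Cfsg.Statements.S0795
import Cfsg.Agent.H5.Orth6

set_option autoImplicit false
open Cfsg

namespace Cfsg.Agent.S0795

/-- Generation of Ω by root elements: for q odd, n ≥ 5 and Q with non-degenerate polar form on F^n, the commutator subgroup of the isometry group equals the subgroup generated by the isometries whose matrices are Siegel transformations T_(u,v)(c) with u, v singular and orthogonal. -/
theorem result {F : Type*} [Field F] [Fintype F] (h2 : (2 : F) ≠ 0) {n : ℕ} (hn : 5 ≤ n) (Q : QuadraticForm F (Fin n → F)) (hQ : (QuadraticMap.polarBilin Q).Nondegenerate) : Cfsg.Omega F ⇑Q = Subgroup.closure {g : ↥(Cfsg.isometryGroup F ⇑Q) | ∃ (u v : Fin n → F) (c : F), Q u = 0 ∧ Q v = 0 ∧ QuadraticMap.polar ⇑Q u v = 0 ∧ ((g : Matrix.GeneralLinearGroup (Fin n) F) : Matrix (Fin n) (Fin n) F) = Cfsg.siegelMatrix ⇑Q u v c} := by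
  have hf := CfsgH5.CForm.ofQuad_nondeg hQ
  have hE := CfsgH5.CForm.comm_eq_E hf (CfsgH5.CForm.split_of_two_ne h2) (by simp; omega)
  refine le_antisymm (fun g hg => ?_) ((Subgroup.closure_le _).2 ?_)
  · rw [← CfsgH5.mem_commutator_equiv (CfsgH5.orthEquiv Q), CfsgH5.mem_commutator_subtype, hE] at hg
    have := CfsgH5.CForm.E_le_of_siegel hf (by simpa)
      (S := ((Subgroup.closure {g : ↥(Cfsg.isometryGroup F ⇑Q) | ∃ (u v : Fin n → F) (c : F), Q u = 0 ∧ Q v = 0 ∧ QuadraticMap.polar ⇑Q u v = 0 ∧ ((g : Matrix.GeneralLinearGroup (Fin n) F) : Matrix (Fin n) (Fin n) F) = Cfsg.siegelMatrix ⇑Q u v c}).map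
      (CfsgH5.orthEquiv Q).toMonoidHom).map (Subgroup.subtype _)) (fun g x a h =>
      ⟨⟨_, h.mem_Isom⟩, ⟨(CfsgH5.orthEquiv Q).symm ⟨_, h.mem_Isom⟩,
        Subgroup.subset_closure ⟨a, x, 1, h.hc.symm, h.hx, h.ha, CfsgH5.mat_ext_mulVec fun w => by
          rw [← CfsgH5.orthEquiv_apply, MulEquiv.apply_symm_apply, CfsgH5.siegelMatrix_mulVec,
            h.app]; simp⟩, by simp⟩, rfl⟩) hg
    obtain ⟨_, ⟨g', h1, rfl⟩, h2⟩ := this
    rwa [← (CfsgH5.orthEquiv Q).injective (Subtype.ext h2)]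
  · rintro g ⟨u, v, c, hu, hv, huv, hg⟩
    have := CfsgH5.isEich_of_siegel Q hu hv huv (c := c) (g := (CfsgH5.orthEquiv Q g).1)
      fun x => by rw [CfsgH5.orthEquiv_apply, hg]
    rw [SetLike.mem_coe, ← CfsgH5.mem_commutator_equiv (CfsgH5.orthEquiv Q),
      CfsgH5.mem_commutator_subtype, hE]
    exact this.mem_E

end Cfsg.Agent.S0795
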