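import Cfsg.Statements.S0796
import Cfsg.Agent.H3.Hv1
import Cfsg.Agent.H8.MinNormal

set_option autoImplicit false
open Cfsg

namespace Cfsg.Agent.S0796
open MulAction

/-- If G is finite and acts faithfully and primitively on X, H is the stabiliser of a point, A is a normal subgroup of H whose normal closure in G is G, then for every non-trivial normal subgroup K of G the quotient G ⧸ K is isomorphic to A ⧸ B for some normal subgroup B of A. -/
theorem result {G X : Type*} [Group G] [Finite G] [MulAction G X] [FaithfulSMul G X] (hprim : MulAction.IsPreprimitive G X) (x : X) (A : Subgroup G) (hA : A ≤ MulAction.stabilizer G x) (hAn : (A.subgroupOf (MulAction.stabilizer G x)).Normal) (hgen : Subgroup.normalClosure (A : Set G) = ⊤) (K : Subgroup G) [K.Normal] (hK : K ≠ ⊥) : ∃ (B : Subgroup A) (_ : B.Normal), Nonempty (G ⧸ K ≃* A ⧸ B) := by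
  haveI := CfsgH8.transitive_of_normal_of_primitive (Ω := X) K hK
  let f := (QuotientGroup.mk' K).comp A.subtype
  have hn : (A.map (QuotientGroup.mk' K)).Normal := ⟨by
    rintro _ ⟨a, ha, rfl⟩ q
    obtain ⟨g, rfl⟩ := QuotientGroup.mk'_surjective K q
    obtain ⟨k, hk⟩ := exists_smul_eq K (g • x) x
    have m : (k : G) * g ∈ stabilizer G x := by rw [mem_stabilizer_iff, mul_smul]; exact hk
    have := hAn.conj_mem ⟨a, hA ha⟩ ha ⟨_, m⟩
    refine ⟨_, this, ?_⟩
    have k1 : QuotientGroup.mk' K k = 1 := (QuotientGroup.eq_one_iff _).2 k.2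
    simp only [Subgroup.coe_subtype, Subgroup.coe_mul, Subgroup.coe_inv, map_mul, map_inv, k1, one_mul]⟩
  have hs : Function.Surjective f := fun q => by
    obtain ⟨g, rfl⟩ := QuotientGroup.mk'_surjective K q
    have : Subgroup.normalClosure (A : Set G) ≤ (A.map (QuotientGroup.mk' K)).comap (QuotientGroup.mk' K) :=
      Subgroup.normalClosure_le_normal (Subgroup.le_comap_map _ _)
    obtain ⟨a, ha, e⟩ := this (hgen ▸ Subgroup.mem_top g)
    exact ⟨⟨a, ha⟩, e⟩
  exact ⟨f.ker, inferInstance, ⟨(QuotientGroup.quotientKerEquivOfSurjective f hs).symm⟩⟩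


end Cfsg.Agent.S0796
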