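import Cfsg.Statements.S0797
import Cfsg.Agent.H5.Orth7

set_option autoImplicit false
open Cfsg

namespace Cfsg.Agent.S0797

/-- O^ε_2m(q) ≅ Ω.2² for q odd: if F is finite of odd characteristic, n ≥ 2 is even and Q has non-degenerate polar form on F^n, the isometry group of Q has exactly three subgroups of index 2. -/
theorem result {F : Type*} [Field F] [Fintype F] (h2 : (2 : F) ≠ 0) {n : ℕ} (hn : 2 ≤ n) (heven : Even n) (Q : QuadraticForm F (Fin n → F)) (hQ : (QuadraticMap.polarBilin Q).Nondegenerate) : Nat.card {H : Subgroup ↥(Cfsg.isometryGroup F ⇑Q) // H.index = 2} = 3 := by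
  classical
  have hf := CfsgH5.CForm.ofQuad_nondeg hQ
  have hs : (CfsgH5.CForm.ofQuad Q).Split := CfsgH5.CForm.split_of_two_ne h2
  have hn' : 2 ≤ Module.finrank F (Fin n → F) := by simpa
  rw [Nat.card_congr (Equiv.subtypeEquiv (CfsgH5.orthEquiv Q).mapSubgroup.toEquiv
    (q := fun H => H.index = 2) fun H => by
      rw [← Subgroup.index_map_equiv H (CfsgH5.orthEquiv Q)]; rfl)]
  obtain ⟨θ, hθ, -⟩ := CfsgH5.CForm.exists_spinor hf h2 hn'
  obtain ⟨a, ha⟩ := CfsgH5.CForm.dick_prod_surjective hf hs hn' h2 hθ (-1, 1)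
  obtain ⟨b, hb⟩ := CfsgH5.CForm.dick_prod_surjective hf hs hn' h2 hθ (1, -1)
  simp only [MonoidHom.prod_apply, Prod.mk.injEq] at ha hb
  change Nat.card {H : Subgroup (CfsgH5.CForm.ofQuad Q).Isom | H.index = 2} = 3
  rw [Nat.card_coe_set_eq, Set.ncard_eq_three]
  refine ⟨(CfsgH5.CForm.dick hf hs).ker, θ.ker, (CfsgH5.CForm.dick hf hs * θ).ker,
    fun h => ?_, fun h => ?_, fun h => ?_, Set.ext fun H => ⟨fun h => ?_, ?_⟩⟩
  · simpa [ha] using congrArg (a ∈ ·) h
  · simpa [hb] using congrArg (b ∈ ·) h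
  · simpa [ha] using congrArg (a ∈ ·) h
  · obtain ⟨s, rfl⟩ := CfsgH5.exists_hom_of_index_two h
    rcases CfsgH5.CForm.hom_cases hf hs hn' h2 hθ s with rfl | rfl | rfl | rfl
    · simp at h
    all_goals simp
  · rintro (rfl | rfl | rfl)
    exacts [CfsgH5.index_ker_of_ne_one ha.1, CfsgH5.index_ker_of_ne_one hb.2,
      CfsgH5.index_ker_of_ne_one (g := a) (by simp [ha])]

end Cfsg.Agent.S0797
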