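import Cfsg.Statements.S0798
import Cfsg.Agent.H5.Orth7

set_option autoImplicit false
open Cfsg

namespace Cfsg.Agent.S0798

open CfsgH5 CfsgH5.CForm Module in
open scoped commutatorElement in
theorem aux {F : Type*} [Field F] [Fintype F] {V : Type*} [AddCommGroup V] [Module F V]
    [FiniteDimensional F V] {f : CForm (FP.orth F) V} (hf : f.Nondeg) (h2 : (2 : F) ≠ 0)
    (h : finrank F V = 2 ∨ 6 ≤ finrank F V ∨ (4 ≤ finrank F V ∧ ∃ l : F, l ≠ 0 ∧ l ^ 2 ≠ 1))
    {c : F} (hc : c ≠ 0) : (Subgroup.closure {g : f.Isom | ∃ (v : V) (t : F), t ≠ 0 ∧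
      f.Q v = c * t ^ 2 ∧ g.1 = f.rf v}).index = 2 := by
  classical
  have hs : f.Split := split_of_two_ne h2
  have hn : 2 ≤ finrank F V := by omega
  set S := Subgroup.closure {g : f.Isom | ∃ (v : V) (t : F), t ≠ 0 ∧ f.Q v = c * t ^ 2 ∧
    g.1 = f.rf v}
  have hr : ∀ v, f.Q v = c → (⟨_, rf_mem v⟩ : f.Isom) ∈ S := fun v hv =>
    Subgroup.subset_closure ⟨v, 1, one_ne_zero, by simp [hv], rfl⟩
  obtain ⟨v, hv⟩ := orth_universal hf hn hc
  have hle : commutator f.Isom ≤ S := by
    rcases h with h | h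
    · have : S.Normal := by
        refine ⟨fun n hn g => ?_⟩
        induction hn using Subgroup.closure_induction with
        | mem x hx =>
          obtain ⟨v, t, a, b, e⟩ := hx
          exact Subgroup.subset_closure ⟨g.1 v, t, a, by rw [f.Isom_Q g.2, b],
            by rw [← rf_conj g.2, ← e]; rfl⟩
        | one => simpa using S.one_mem
        | mul x y _ _ a b => simpa [mul_assoc] using S.mul_mem a b
        | inv x _ a => simpa [mul_assoc] using S.inv_mem a
      refine commutator_le_of_rf hf hs S fun a b ha hb => ?_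
      set A : f.Isom := ⟨_, rf_mem a⟩
      set B : f.Isom := ⟨_, rf_mem b⟩
      set R : f.Isom := ⟨_, rf_mem v⟩
      have e := sq_eq_one_of_dim_two hf hs h (g := R * (A * B)) (by
        simp only [map_mul, A, B, R]
        rw [dick_rf hf hs ha, dick_rf hf hs hb, dick_rf hf hs (hv ▸ hc)]; simp)
      have := S.mul_mem (this.conj_mem _ (hr v hv) (A * B)) (hr v hv)
      convert this using 1
      rw [commutatorElement_def, inv_eq_of_mul_eq_one_right (rf_sq' a),
        inv_eq_of_mul_eq_one_right (rf_sq' b), inv_eq_of_mul_eq_one_right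
          (show (A * B) * (R * (A * B) * R) = 1 by
            rw [← mul_left_inj (A * B), one_mul, mul_assoc, mul_assoc _ R, e, mul_one])]
      have hR : R * R = 1 := rf_sq' v
      change A * B * A * B = A * B * R * (R * (A * B) * R) * R
      simp only [mul_assoc, ← mul_assoc R R, hR, one_mul, mul_one]
    · intro g hg
      rw [mem_commutator_subtype, comm_eq_E hf hs (by omega)] at hg
      obtain ⟨g', h1, h3⟩ := E_le_of_data hf (S := S.map f.Isom.subtype)
        (fun g x c _ hg => orth_eich_zero hg ▸ one_mem _) (fun x y a hxy ax ay => by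
          have e1 := hxy.finrank_perp
          have e := span_Q_eq_top (hxy.nondeg_perp hf) (by
            rcases h with h | h
            exacts [.inl (by omega), .inr ⟨by omega, h.2⟩]) hc
          have key : ∀ w ∈ Submodule.span F {v | (f.res (f.perp (Submodule.span F {x, y}))).Q v = c},
              ∀ t : F, ∃ g c, f.IsEich g x (t • (w : V)) c ∧ g ∈ S.map f.Isom.subtype := by
            intro w hw
            induction hw using Submodule.span_induction with
            | mem w hw =>
              intro t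
              obtain ⟨g, hg⟩ := orth_exists_eich (a := t • (w : V)) hxy.hx
                (by simp [(IsHyp.mem_perp.1 w.2).1])
              refine ⟨g, _, hg, ?_⟩
              by_cases ht : t = 0
              · subst ht; rw [zero_smul] at hg; exact orth_eich_zero hg ▸ one_mem _
              have q : f.Q (t • (w : V)) = c * t ^ 2 := by
                rw [orth_Q_smul, mul_comm]; congr 1
              obtain ⟨a1, a2⟩ := hg.eq_rf_mul (q ▸ mul_ne_zero hc (pow_ne_zero _ ht))
              exact a1 ▸ mul_mem ⟨⟨_, rf_mem _⟩, Subgroup.subset_closure ⟨_, t, ht, q, rfl⟩, rfl⟩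
                ⟨⟨_, rf_mem _⟩, Subgroup.subset_closure ⟨_, t, ht, a2.trans q, rfl⟩, rfl⟩
            | zero =>
              intro t
              obtain ⟨g, hg⟩ := orth_exists_eich (a := 0) hxy.hx (by simp)
              exact ⟨g, _, by simpa using hg, orth_eich_zero hg ▸ one_mem _⟩
            | add a b _ _ ha hb =>
              intro t
              obtain ⟨g, c, a1, a2⟩ := ha t
              obtain ⟨g', c', b1, b2⟩ := hb t
              exact ⟨_, _, by simpa using a1.mul b1, mul_mem a2 b2⟩
            | smul s a _ ha => intro t; simpa [mul_smul] using ha (t * s)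
          simpa using key ⟨a, IsHyp.mem_perp.2 ⟨ax, ay⟩⟩ (e ▸ Submodule.mem_top) 1) hg
      rwa [← Subtype.ext h3]
  obtain ⟨θ, hθ, -⟩ := exists_spinor hf h2 hn
  obtain ⟨b, hb⟩ := dick_prod_surjective hf hs hn h2 hθ (1, -1)
  simp only [MonoidHom.prod_apply, Prod.mk.injEq] at hb
  have d1 := dick_rf hf hs (hv ▸ hc)
  obtain ⟨s, s1, s2, s3⟩ : ∃ s : f.Isom →* ℤˣ, s b = -1 ∧ (∀ d, f.Q d ≠ 0 →
      quadraticChar F (f.Q d) = quadraticChar F c → s ⟨_, rf_mem d⟩ = 1) ∧
      ∀ g, dick hf hs g = 1 → s g = 1 → θ g = 1 := by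
    rcases quadraticChar_dichotomy hc with a | a
    · exact ⟨θ, hb.2, fun d hd e => Units.ext (by rw [hθ d hd, e, a]; rfl), fun _ _ h => h⟩
    · refine ⟨dick hf hs * θ, by simp [hb], fun d hd e => ?_, fun g a b => by simpa [a] using b⟩
      rw [MonoidHom.mul_apply, dick_rf hf hs hd,
        show θ ⟨_, rf_mem d⟩ = -1 from Units.ext (by rw [hθ d hd, e, a]; rfl)]; simp
  rw [← index_ker_of_ne_one s1]
  congr 1
  refine le_antisymm ((Subgroup.closure_le _).2 ?_) fun g hg => ?_
  · rintro g ⟨v, t, ht, e, e'⟩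
    obtain rfl : g = ⟨_, rf_mem v⟩ := Subtype.ext e'
    exact s2 v (e ▸ mul_ne_zero hc (pow_ne_zero _ ht)) (by
      rw [e, map_mul, quadraticChar_sq_one' ht, mul_one])
  · rw [commutator_eq_inf hf hs hn h2 hθ] at hle
    rcases Int.units_eq_one_or (dick hf hs g) with a | a
    · exact hle ⟨a, s3 g a hg⟩
    · have a' : dick hf hs (g * ⟨_, rf_mem v⟩) = 1 := by rw [map_mul, a, d1]; simp
      have := hle ⟨a', s3 _ a' (by
        rw [map_mul, hg, s2 v (hv ▸ hc) (by rw [hv]), mul_one])⟩
      exact (S.mul_mem_cancel_right (hr v hv)).1 this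

/-- For q odd, n ≥ 2 even, Q with non-degenerate polar form (n, |F|) ≠ (4, 3), and a fixed c ≠ 0: the subgroup of the isometry group generated by the reflections r_v with Q(v) ∈ c·(F^×)² has index 2. -/
theorem result {F : Type*} [Field F] [Fintype F] (h2 : (2 : F) ≠ 0) {n : ℕ} (hn : 2 ≤ n) (heven : Even n) (Q : QuadraticForm F (Fin n → F)) (hQ : (QuadraticMap.polarBilin Q).Nondegenerate) (h43 : ¬ (n = 4 ∧ Fintype.card F = 3)) (c : F) (hc : c ≠ 0) : (Subgroup.closure {g : ↥(Cfsg.isometryGroup F ⇑Q) | ∃ (v : Fin n → F) (t : F), t ≠ 0 ∧ Q v = c * t ^ 2 ∧ ((g : Matrix.GeneralLinearGroup (Fin n) F) : Matrix (Fin n) (Fin n) F) = Cfsg.reflectionMatrix ⇑Q v}).index = 2 := by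
  have hf := CfsgH5.CForm.ofQuad_nondeg hQ
  refine Eq.trans ?_ (aux hf h2 ?_ hc)
  · rw [← Subgroup.index_map_equiv _ (CfsgH5.orthEquiv Q), MonoidHom.map_closure]
    congr 2
    ext g
    obtain ⟨g, rfl⟩ := (CfsgH5.orthEquiv Q).surjective g
    refine ((CfsgH5.orthEquiv Q).injective.mem_set_image).trans ?_
    simp only [Set.mem_setOf_eq, CfsgH5.orthEquiv_eq_rf]; rfl
  · obtain ⟨k, rfl⟩ := heven
    simp only [Module.finrank_fintype_fun_eq_card, Fintype.card_fin]
    by_cases h : k + k = 4
    · have h1 : Fintype.card F % 2 = 1 := by simpa using CfsgH5.card_odd_of_two_ne h2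
      have := Fintype.one_lt_card (α := F)
      exact .inr (.inr ⟨h.ge, CfsgH5.exists_sq_ne_one (by omega)⟩)
    · omega

end Cfsg.Agent.S0798
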