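import Mathlib
import Cfsg.Statements.S0799
import Cfsg.Agent.H8.Dick2

set_option autoImplicit false
open Cfsg

namespace Cfsg.Agent.S0799


open CfsgH8

/-- Dickson's classification of the subgroups of PSL_2(q), q a power of the prime p, d = gcd(2, q − 1): every subgroup H is (a) cyclic or dihedral with k dividing (q+1)/d or (q−1)/d (cyclic of order k, or dihedral of order 2k), (b) isomorphic to a subgroup of the normaliser of a Sylow p-subgroup, (c) isomorphic to A_4, S_4 or A_5, or (d) isomorphic to PSL_2(K) or PGL_2(K) for a finite field K with |K|^m = q. -/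
theorem result {F : Type*} [Field F] [Fintype F] {q : ℕ} (hF : Fintype.card F = q) (p : ℕ) [Fact p.Prime] [CharP F p] (H : Subgroup (Matrix.ProjectiveSpecialLinearGroup (Fin 2) F)) : (∃ k : ℕ, (k ∣ (q + 1) / Nat.gcd 2 (q - 1) ∨ k ∣ (q - 1) / Nat.gcd 2 (q - 1)) ∧ ((IsCyclic H ∧ Nat.card H = k) ∨ Nonempty (H ≃* DihedralGroup k))) ∨ (∃ (P : Sylow p (Matrix.ProjectiveSpecialLinearGroup (Fin 2) F)) (K : Subgroup (Matrix.ProjectiveSpecialLinearGroup (Fin 2) F)), K ≤ Subgroup.normalizer ((P : Subgroup (Matrix.ProjectiveSpecialLinearGroup (Fin 2) F)) : Set (Matrix.ProjectiveSpecialLinearGroup (Fin 2) F)) ∧ Nonempty (H ≃* K)) ∨ Nonempty (H ≃* alternatingGroup (Fin 4)) ∨ Nonempty (H ≃* Equiv.Perm (Fin 4)) ∨ Nonempty (H ≃* alternatingGroup (Fin 5)) ∨ (∃ (K : Type) (_ : Field K) (_ : Fintype K) (m : ℕ), Fintype.card K ^ m = q ∧ (Nonempty (H ≃* Matrix.ProjectiveSpecialLinearGroup (Fin 2) K) ∨ Nonempty (H ≃* Matrix.ProjGenLinGroup (Fin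 2) K))) := by
  subst hF
  have e : ∀ x, Nonempty (H ≃* H.map (cjP x).toMonoidHom) := fun x =>
    ⟨H.equivMapOfInjective _ (cjP x).injective⟩
  rcases dickson p H with ⟨C, N, h, hH⟩ | ⟨s, hs⟩ | h | h | h | ⟨x, L, h⟩
  · left
    have k : Nat.card ((H.comap πS ⊓ C).map πS) ∣ Nat.card C / Nat.gcd 2 (Fintype.card F - 1) := by
      rw [← card_map_πS' h.tor.neg_one_mem]
      exact Subgroup.card_dvd_of_le (Subgroup.map_mono inf_le_right)
    refine ⟨_, h.tor.card.imp (fun e => e ▸ k) (fun e => e ▸ k), ?_⟩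
    by_cases hC : H.comap πS ≤ C
    · rw [inf_eq_left.2 hC, map_comap_πS]
      have := h.tor.isCyclic_of_le hC
      exact Or.inl ⟨map_comap_πS H ▸ isCyclic_of_surjective _ (πS.subgroupMap_surjective _), rfl⟩
    · have := h.dihedral hH hC
      rw [map_comap_πS] at this
      exact Or.inr this
  · obtain ⟨Q⟩ := (inferInstance : Nonempty (Sylow p (Matrix.SpecialLinearGroup (Fin 2) F)))
    obtain ⟨t, ht⟩ := sylow_eq_US p Q
    refine Or.inr (Or.inl ⟨Q.mapSurjective πS_surj, H.map (MulAut.conj (πS (t * s))).toMonoidHom,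
      ?_, ⟨H.equivMapOfInjective _ (MulEquiv.injective _)⟩⟩)
    rintro _ ⟨g, hg, rfl⟩
    obtain ⟨g, rfl⟩ := πS_surj g
    refine Subgroup.le_normalizer_map πS ⟨t * (s * g * s⁻¹) * t⁻¹, ?_, by simp [mul_assoc]⟩
    rw [ht]
    exact Subgroup.le_normalizer_map _ ⟨_, normalizer_US.ge (hs g hg), rfl⟩
  · exact Or.inr (Or.inr (Or.inl h.2))
  · exact Or.inr (Or.inr (Or.inr (Or.inl h.2)))
  · exact Or.inr (Or.inr (Or.inr (Or.inr (Or.inl h.2))))
  · obtain ⟨K, _, _, f, h1, rfl⟩ := exists_model L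
    obtain ⟨m, -, hm⟩ := exists_card_pow f.fieldRange
    refine Or.inr (Or.inr (Or.inr (Or.inr (Or.inr ⟨K, inferInstance, inferInstance, m, by rw [h1, ← hm], ?_⟩))))
    obtain ⟨e⟩ := e x
    obtain ⟨e1⟩ := nonempty_map_SLs f
    rcases h with h | h
    · exact Or.inl ⟨(e.trans (MulEquiv.subgroupCongr (map_cjP_eq h))).trans e1⟩
    rcases GLs_eq_SLs_or f.fieldRange with h2 | h2
    · exact Or.inl ⟨(e.trans (MulEquiv.subgroupCongr (map_cjP_eq (h.trans h2)))).trans e1⟩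
    · obtain ⟨e2⟩ := nonempty_map_GLs f fun a => h2 _ ⟨a, rfl⟩
      exact Or.inr ⟨(e.trans (MulEquiv.subgroupCongr (map_cjP_eq h))).trans e2⟩

end Cfsg.Agent.S0799
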