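import Mathlib
import Cfsg.Statements.S0800
import Cfsg.Agent.H8.SL2n

set_option autoImplicit false
open Cfsg

namespace Cfsg.Agent.S0800

open CfsgH8

/-- Tori of SL_2(q): if g ∈ SL_2(q) has order coprime to the characteristic p, then the order of g divides q − 1 or q + 1. -/
theorem result {F : Type*} [Field F] [Fintype F] {q : ℕ} (hF : Fintype.card F = q) (p : ℕ) [Fact p.Prime] [CharP F p] (g : Matrix.SpecialLinearGroup (Fin 2) F) (hg : Nat.Coprime (orderOf g) p) : orderOf g ∣ q - 1 ∨ orderOf g ∣ q + 1 := by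
  subst hF
  by_cases hs : IsSc g.1
  · left
    rcases Nat.mod_two_eq_zero_or_one (Fintype.card F) with h | h
    · obtain rfl : g = 1 := (isSc_SL2.1 hs).elim id fun e => e.trans (neg_eq_self_of_even h 1)
      simp
    · refine (orderOf_dvd_of_pow_eq_one (n := 2) ?_).trans (by omega)
      rcases isSc_SL2.1 hs with rfl | rfl <;> simp
  · exact (reg_of_not_dvd p hs fun h => (Nat.Prime.coprime_iff_not_dvd Fact.out).1 hg.symm
      (h.trans (orderOf_πS_dvd g))).orderOf_dvd.symm

end Cfsg.Agent.S0800
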