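import Mathlib
import Cfsg.Statements.S0801
import Cfsg.Agent.H8.Dick5

set_option autoImplicit false
open Cfsg

namespace Cfsg.Agent.S0801


open CfsgH8

/-- Let F be a finite field of odd characteristic and λ ≠ 0 an element generating F as a field. Then the lower and upper unitriangular matrices with off-diagonal entries 1 and λ generate SL_2(F), unless |F| = 9 and λ² = −1, in which case they generate a subgroup of order 120. -/
theorem result {F : Type*} [Field F] [Fintype F] (h2 : (2 : F) ≠ 0) (lam : F) (hlam : lam ≠ 0) (hgen : Subfield.closure ({lam} : Set F) = ⊤) : (Subgroup.closure {g : Matrix.SpecialLinearGroup (Fin 2) F | (g : Matrix (Fin 2) (Fin 2) F) = !![1, 0; 1, 1] ∨ (g : Matrix (Fin 2) (Fin 2) F) = !![1, lam; 0, 1]} = ⊤ ∧ ¬ (Fintype.card F = 9 ∧ lam ^ 2 = -1)) ∨ (Fintype.card F = 9 ∧ lam ^ 2 = -1 ∧ Nat.card ↥(Subgroup.closure {g : Matrix.SpecialLinearGroup (Fin 2) F | (g : Matrix (Fin 2) (Fin 2) F) = !![1, 0; 1, 1] ∨ (g : Matrix (Fin 2) (Fin 2) F) = !![1,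 lam; 0, 1]}) = 120) := by
  obtain ⟨p, _, n, hp, hn⟩ := FiniteField.card' F
  have : Fact p.Prime := ⟨hp⟩
  have hp2 : p ≠ 2 := by
    rintro rfl
    exact h2 (CharP.cast_eq_zero F 2)
  have hq := odd_of_char (F := F) p hp2
  set H := Subgroup.closure {g : Matrix.SpecialLinearGroup (Fin 2) F |
    (g : Matrix (Fin 2) (Fin 2) F) = !![1, 0; 1, 1] ∨ (g : Matrix (Fin 2) (Fin 2) F) = !![1, lam; 0, 1]}
    with hH
  have a : loS 1 ∈ H := Subgroup.subset_closure (Or.inl rfl)
  have b : triS 1 lam ∈ H := Subgroup.subset_closure (Or.inr (by simp [triS_val]))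
  have t1 : (loS 1 * triS 1 lam).1.trace = 2 + lam := by
    simp [loS_val, triS_val]; ring
  have t2 : ((loS 1)⁻¹ * triS 1 lam).1.trace = 2 - lam := by
    rw [Matrix.trace_fin_two, sl2_mul, sl2_mul, sl2_inv]; simp [loS_val, triS_val]; ring
  have top : ∀ L : Subfield F, lam ∈ L → L = ⊤ := fun L h =>
    eq_top_iff.2 (hgen.ge.trans (Subfield.closure_le.2 (by simpa)))
  have le : H ≤ (H.map πS).comap πS := Subgroup.le_comap_map _ _
  by_cases ht : H.map πS = ⊤
  · refine Or.inl ⟨(map_πS_eq_top (neg_one_mem_of_even hq ?_)).1 ht, fun ⟨e1, e2⟩ => ?_⟩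
    · have := two_dvd_card_map_SLs hq (⊤ : Subfield F)
      rwa [SLs_top, (map_πS_eq_top (Subgroup.mem_top _)).2 rfl, ← ht] at this
    have h3 : (3 : F) = 0 := by
      have := FiniteField.cast_card_eq_zero F
      rw [e1] at this
      exact pow_eq_zero_iff two_ne_zero |>.1 (by rw [← this]; norm_num)
    have h5 : πS (loS 1 * triS 1 lam) ^ 5 = 1 := πS_five_iff.2 (Or.inr (by
      rw [t1]; linear_combination (lam ^ 2 + 8 * lam + 20) * e2 + (4 * lam - 5) * h3))
    obtain ⟨φ, c, d⟩ := exists_hom_A5 (x := πS (loS (1 : F))) (y := πS (loS 1 * triS 1 lam) ^ 2)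
      (πS_cube_iff.2 (Or.inr (by simp [loS_val]; linear_combination h3)))
      (by rw [← pow_mul, mul_comm, pow_mul, h5, one_pow])
      (by
        rw [← map_pow, ← map_mul]
        refine πS_sq_iff.2 (Or.inr ?_)
        simp [pow_two, loS_val, triS_val]
        linear_combination 2 * e2 + 2 * lam * h3)
    have h6 : H.map πS ≤ φ.range := by
      rw [Subgroup.map_le_iff_le_comap, hH, Subgroup.closure_le]
      rintro g (e | e)
      · exact ⟨a5x, c.trans (congrArg πS (Subtype.ext e.symm))⟩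
      · refine ⟨a5x⁻¹ * a5y ^ 3, ?_⟩
        rw [map_mul, map_inv, map_pow, c, d, ← pow_mul, show 2 * 3 = 5 + 1 from rfl, pow_succ, h5,
          one_mul, map_mul, inv_mul_cancel_left]
        exact congrArg πS (Subtype.ext (by simp [e, triS_val]))
    have h7 := Subgroup.card_le_of_le (ht.ge.trans h6)
    have h8 := Nat.le_of_dvd Nat.card_pos (Subgroup.card_range_dvd φ)
    have := lt_card_PSL2 hq (a := 9) e1.ge
    rw [card_A5] at h8
    rw [Subgroup.card_top] at h7
    omega
  rcases dickson_p p ht (char_dvd_of_triS p hlam (le b)) with ⟨h, -⟩ | ⟨s, h⟩ | ⟨rfl, h⟩ |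
    ⟨x, L, h, -, h'⟩
  · exact absurd h hp2
  · exact absurd h (not_conj_BS hlam one_ne_zero (le b) (le a))
  · have h0 := (card_of_equiv h).trans card_A5
    have h1 := card_dvd_PSL2 (H.map πS)
    rw [h0] at h1
    have h3 := (five_dvd_iff _).1 (((show 5 ∣ 60 by norm_num).mul_left _).trans h1)
    have h4 : Fintype.card F = 9 := by
      obtain ⟨k, hk | hk⟩ := Nat.even_or_odd' (n : ℕ)
      · obtain ⟨L, hL⟩ := exists_sub_card (F := F) (l := 9) (m := k) (by norm_num)
          (by rw [hn, hk, pow_mul]; rfl)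
        obtain ⟨x, hx⟩ := A5_conj_le hq h (L := L) (by rw [hL]; norm_num)
        have := hx ⟨_, le (mul_mem a b), rfl⟩
        have := add_mem (this 0 0) (this 1 1)
        rw [← Matrix.trace_fin_two, MulEquiv.coe_toMonoidHom, cjE_apply, trace_cjS, t1,
          add_mem_cancel_left (ofNat_mem L 2)] at this
        rw [← sub_eq_top_iff.1 (top L this), hL]
      · have := pow_mod_five 3 k (by norm_num)
        rw [← hk, ← hn] at this
        omega
    have h5 : (3 : F) = 0 := CharP.cast_eq_zero F 3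
    have k : ∀ g ∈ H, g.1.trace ∉ (⊥ : Subfield F) →
        g.1.trace ^ 4 - 3 * g.1.trace ^ 2 + 1 = 0 := fun g hg e => by
      obtain ⟨n, a, b⟩ := pow_of_equiv h (P := fun n => n = 2 ∨ n = 3 ∨ n = 5) (fun a =>
        (orders_A5 a).elim (fun e => ⟨2, by omega, e⟩) fun e => e.elim (fun e => ⟨3, by omega, e⟩)
          fun e => ⟨5, by omega, e⟩) ⟨g, hg, rfl⟩
      rcases a with rfl | rfl | rfl
      · exact absurd (trace_mem_of_pow _ (Or.inl b)) e
      · exact absurd (trace_mem_of_pow _ (Or.inr b)) e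
      · exact (πS_five_iff.1 b).resolve_left fun e' => e (trace_mem_of_πS_eq_one _ e')
    have nb : lam ∉ (⊥ : Subfield F) := fun e => by
      have := sub_eq_top_iff.1 (top _ e)
      rw [card_sub_bot 3] at this
      omega
    have k1 := k _ (mul_mem a b) (by rwa [t1, add_mem_cancel_left (ofNat_mem _ 2)])
    have k2 := k _ (mul_mem (inv_mem a) b) (by
      rwa [t2, sub_eq_add_neg, add_mem_cancel_left (ofNat_mem _ 2), neg_mem_iff])
    rw [t1] at k1
    rw [t2] at k2
    refine Or.inr ⟨h4, mul_left_cancel₀ hlam ?_, ?_⟩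
    · linear_combination k1 - k2 - (5 * lam ^ 3 + 13 * lam) * h5
    · rw [card_map_πS (neg_one_mem_of_even hq (by rw [h0]; norm_num)), gcd_two_odd hq, h0]
  · have k : ∀ g ∈ H, g.1.trace ^ 2 ∈ L := fun g hg => by
      rw [← trace_cjS x]; exact trace_sq_mem (h' ⟨g, le hg, rfl⟩)
    refine absurd (top L ?_) h
    convert div_mem (sub_mem (k _ (mul_mem a b)) (k _ (mul_mem (inv_mem a) b)))
      (pow_mem (ofNat_mem L 2) 3) using 1
    rw [t1, t2]; field_simp; ring

end Cfsg.Agent.S0801
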