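import Mathlib
import Cfsg.Statements.S0802
import Cfsg.Agent.H8.Dick2

set_option autoImplicit false
open Cfsg

namespace Cfsg.Agent.S0802


open CfsgH8

/-- PSL_2(p^n) has a subgroup isomorphic to A_4 if and only if it is not the case that p = 2 and n is odd. -/
theorem result {F : Type*} [Field F] [Fintype F] (p n : ℕ) [Fact p.Prime] [CharP F p] (hF : Fintype.card F = p ^ n) : (∃ H : Subgroup (Matrix.ProjectiveSpecialLinearGroup (Fin 2) F), Nonempty (H ≃* alternatingGroup (Fin 4))) ↔ ¬ (p = 2 ∧ Odd n) := by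
  rw [← has_top_iff]
  by_cases hp : p = 2
  · subst hp
    simp only [true_and, Nat.not_odd_iff_even]
    constructor
    · intro h
      obtain ⟨K, -, hK⟩ := h.exists
      have hq : Fintype.card F % 2 = 0 := FiniteField.even_card_iff_char_two.1 (ringChar.eq F 2)
      obtain ⟨V, hV, h1, h2⟩ := klein_of_A4 hK
      have c1 := card_comap_πS V
      have c2 := card_comap_πS K
      rw [gcd_two_even hq, one_mul] at c1 c2
      rw [hV.card_four] at c1
      rw [card_of_equiv hK, card_A4] at c2
      obtain ⟨s, hs⟩ := exists_conj_le_US 2 (IsPGroup.of_card (n := 2) c1)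
      have h3 := card_dvd_of_BS (G := K.comap πS) (s := s) fun g hg =>
        normalizer_of_le_US (A := (V.comap πS).map (MulAut.conj s).toMonoidHom)
          (by rintro _ ⟨x, hx, rfl⟩; exact hs x hx) (fun e => by
            rw [(Subgroup.map_eq_bot_iff_of_injective _ (MulAut.conj s).injective).1 e] at c1
            simp at c1)
          (Subgroup.le_normalizer_map _ ⟨g, Subgroup.le_normalizer_comap _ (h2 hg), rfl⟩)
      rw [c2, hF] at h3
      have h4 := (Nat.Coprime.pow_right n (show Nat.Coprime 3 2 by norm_num)).dvd_mul_right.1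
        ((show 3 ∣ 12 by norm_num).trans h3)
      by_contra hn
      obtain ⟨k, rfl⟩ := Nat.not_even_iff_odd.1 hn
      rw [pow_succ, pow_mul] at h4
      have h5 : (2 ^ 2) ^ k % 3 = 1 := by rw [Nat.pow_mod]; simp
      omega
    · rintro ⟨k, rfl⟩
      refine (has_A5 (Dvd.dvd.mul_left ?_ _)).A4_of_A5
      rw [hF, ← pow_mul, show (k + k) * 2 = 4 * k by ring, pow_mul]
      exact (show 5 ∣ 2 ^ 4 - 1 by norm_num).trans (Nat.sub_one_dvd_pow_sub_one _ _)
  · simp only [hp, false_and, not_false_eq_true, iff_true]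
    have hq : Fintype.card F % 2 = 1 := by
      rw [hF]; exact Nat.odd_iff.1 ((Nat.Prime.odd_of_ne_two Fact.out hp).pow)
    obtain ⟨V, hV⟩ := exists_klein hq
    obtain ⟨h2, h3, h4⟩ := card_normalizer_V hq hV
    rcases (by omega : (Fintype.card F % 8 = 3 ∨ Fintype.card F % 8 = 5) ∨
      (Fintype.card F % 8 = 1 ∨ Fintype.card F % 8 = 7)) with h | h
    · exact (has_of_equiv (normalizer_klein_A4 h2 (h3 h))).mono le_top
    · exact (has_of_equiv (normalizer_klein_S4 h2 (h4 h))).A4_of_S4.mono le_top

end Cfsg.Agent.S0802
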