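import Mathlib
import Cfsg.Statements.S0803
import Cfsg.Agent.H8.Dick2

set_option autoImplicit false
open Cfsg

namespace Cfsg.Agent.S0803


open CfsgH8

/-- PSL_2(q) has a subgroup isomorphic to S_4 iff q² ≡ 1 (mod 16). -/
theorem result {F : Type*} [Field F] [Fintype F] {q : ℕ} (hF : Fintype.card F = q) : (∃ H : Subgroup (Matrix.ProjectiveSpecialLinearGroup (Fin 2) F), Nonempty (H ≃* Equiv.Perm (Fin 4))) ↔ q ^ 2 % 16 = 1 := by
  subst hF
  have h0 : 1 ≤ Fintype.card F ^ 2 := Nat.one_le_pow _ _ Fintype.card_pos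
  have hc := card_PSL2 (F := F)
  have h8 : Fintype.card F ^ 2 % 16 = (Fintype.card F % 16) ^ 2 % 16 := Nat.pow_mod _ _ _
  constructor
  · intro h
    rcases Nat.mod_two_eq_zero_or_one (Fintype.card F) with hq | hq
    · obtain ⟨φ, h1, -⟩ := has_top_iff.2 h
      have h2 : orderOf (φ (finRotate 4)) = 4 := by
        rw [orderOf_injective φ h1]
        exact orderOf_eq_prime_pow (p := 2) (n := 1) (by decide) (by decide)
      have : CharP F 2 := ringChar.of_eq (FiniteField.even_card_iff_char_two.2 hq)
      have := orderOf_πS_cases 2 (φ (finRotate 4))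
      rw [h2, gcd_two_even hq, Nat.div_one, Nat.div_one] at this
      have h3 : 0 < Fintype.card F := Fintype.card_pos
      clear h8 hc h0
      omega
    · have := (has_top_iff.2 h).card_dvd
      rw [card_S4, Subgroup.card_top] at this
      have h3 : 2 ^ 4 ∣ Fintype.card F * (Fintype.card F ^ 2 - 1) := by
        rw [← hc, gcd_two_odd hq]; omega
      rw [(Nat.Coprime.pow_left 4 (Nat.coprime_two_left.2 (Nat.odd_iff.2 hq))).dvd_mul_left] at h3
      omega
  · intro h
    have h1 : Fintype.card F % 8 = 1 ∨ Fintype.card F % 8 = 7 := by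
      have := Nat.mod_lt (Fintype.card F) (show 0 < 16 by norm_num)
      rw [h8] at h
      have h2 : Fintype.card F % 8 = Fintype.card F % 16 % 8 := by omega
      rw [h2]
      generalize Fintype.card F % 16 = r at this h
      interval_cases r <;> simp_all
    obtain ⟨V, hV⟩ := exists_klein (F := F) (by omega)
    obtain ⟨h2, -, h3⟩ := card_normalizer_V (by omega) hV
    exact ⟨_, normalizer_klein_S4 h2 (h3 h1)⟩

end Cfsg.Agent.S0803
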