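import Mathlib
import Cfsg.Statements.S0805
import Cfsg.Agent.H8.Dick2

set_option autoImplicit false
open Cfsg

namespace Cfsg.Agent.S0805


open CfsgH8

/-- Subfield subgroups: let F be a finite field of odd order q and K a finite field with |K|^m = q, m ≥ 1. Then PSL_2(F) has a subgroup isomorphic to PSL_2(K), and has a subgroup isomorphic to PGL_2(K) if and only if m is even. -/
theorem result {F K : Type*} [Field F] [Fintype F] [Field K] [Fintype K] {q : ℕ} (hF : Fintype.card F = q) (hodd : Odd q) (m : ℕ) (hm : 1 ≤ m) (hK : Fintype.card K ^ m = q) : (∃ H : Subgroup (Matrix.ProjectiveSpecialLinearGroup (Fin 2) F), Nonempty (H ≃* Matrix.ProjectiveSpecialLinearGroup (Fin 2) K)) ∧ ((∃ H : Subgroup (Matrix.ProjectiveSpecialLinearGroup (Fin 2) F), Nonempty (H ≃* Matrix.ProjGenLinGroup (Fin 2) K)) ↔ Even m) := by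
  subst hF
  have hq := Nat.odd_iff.1 hodd
  rw [← Nat.card_eq_fintype_card] at hK
  refine ⟨has_top_iff.1 (has_PSL_of_card hK.symm), fun ⟨H, h⟩ => ?_, fun h => ?_⟩
  · by_contra hm'
    obtain ⟨k, rfl⟩ := Nat.not_even_iff_odd.1 hm'
    have h1 := H.card_subgroup_dvd_card
    rw [card_of_equiv h, CfsgH5.card_PGL_eq_card_SL, CfsgH5.card_SL2,
      ← Nat.card_eq_fintype_card] at h1
    have h2 := card_PSL2 (F := F)
    rw [gcd_two_odd hq, ← hK] at h2
    have h0 : 1 < Nat.card K ^ 2 := Nat.one_lt_pow two_ne_zero Finite.one_lt_card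
    generalize Nat.card K = l at *
    have hl : Odd l := (Nat.odd_pow_iff (by omega)).1 (hK ▸ hodd)
    have h3 : 2 * (l ^ 2 - 1) ∣ l ^ (2 * k + 1) * ((l ^ (2 * k + 1)) ^ 2 - 1) :=
      h2 ▸ Nat.mul_dvd_mul_left 2 ((dvd_mul_left _ _).trans h1)
    have h4 : ∀ n, (∑ i ∈ Finset.range n, (l ^ 2) ^ i) % 2 = n % 2 := fun n => by
      induction n with
      | zero => simp
      | succ n ih =>
        have := Nat.odd_iff.1 (hl.pow (n := 2).pow (n := n))
        rw [Finset.sum_range_succ]; omega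
    rw [← pow_mul, mul_comm _ 2, pow_mul, ← geom_sum_mul_of_one_le h0.le, ← mul_assoc,
      Nat.mul_dvd_mul_iff_right (by omega)] at h3
    exact Nat.not_even_iff_odd.2 (hl.pow.mul (Nat.odd_iff.2 ((h4 (2 * k + 1)).trans (by omega))))
      (even_iff_two_dvd.2 h3)
  · obtain ⟨f⟩ := nonempty_ringHom hK.symm
    exact ⟨_, nonempty_map_GLs f fun a => (forall_isSquare_iff hq (L := f.fieldRange)
      (by rw [card_fieldRange, hK])).2 h _ ⟨a, rfl⟩⟩

end Cfsg.Agent.S0805
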