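import Mathlib
import Cfsg.Statements.S0806
import Cfsg.Agent.H8.Dick2

set_option autoImplicit false
open Cfsg

namespace Cfsg.Agent.S0806


open CfsgH8

/-- Minimal index (Galois): if q ∉ {2, 3, 5, 7, 9, 11} then every proper subgroup of PSL_2(q) has index ≥ q + 1, and some subgroup has index exactly q + 1. -/
theorem result {F : Type*} [Field F] [Fintype F] {q : ℕ} (hF : Fintype.card F = q) (hq : q ∉ ({2, 3, 5, 7, 9, 11} : Finset ℕ)) : (∀ H : Subgroup (Matrix.ProjectiveSpecialLinearGroup (Fin 2) F), H ≠ ⊤ → q + 1 ≤ H.index) ∧ ∃ H : Subgroup (Matrix.ProjectiveSpecialLinearGroup (Fin 2) F), H.index = q + 1 := by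
  subst hF
  simp only [Finset.mem_insert, Finset.mem_singleton, not_or] at hq
  obtain ⟨p, _, n, hp, hn⟩ := FiniteField.card' F
  have : Fact p.Prime := ⟨hp⟩
  have h1 : 1 < Fintype.card F := Fintype.one_lt_card
  have key : ∀ H : Subgroup (Matrix.ProjectiveSpecialLinearGroup (Fin 2) F),
      H.index * Nat.card (H.comap πS) =
        (Fintype.card F + 1) * ((Fintype.card F - 1) * Fintype.card F) := fun H => by
    rw [← H.index_comap_of_surjective πS_surj, Subgroup.index_mul_card, card_SL2']; ring
  have pos : 0 < (Fintype.card F - 1) * Fintype.card F := Nat.mul_pos (by omega) (by omega)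
  refine ⟨fun H hH => ?_, (BS F).map πS, ?_⟩
  · refine Nat.le_of_mul_le_mul_right ((key H).ge.trans (Nat.mul_le_mul_left _ ?_)) pos
    have small : p ≠ 2 → Nat.card H ≤ 60 → Nat.card (H.comap πS) ≤
        (Fintype.card F - 1) * Fintype.card F := fun h2 h => by
      have h3 : Fintype.card F % 2 = 1 := by
        rw [hn]; exact Nat.odd_iff.1 ((hp.odd_of_ne_two h2).pow)
      rw [card_comap_πS, gcd_two_odd h3]
      have := Nat.mul_le_mul (show 12 ≤ Fintype.card F - 1 by omega)
        (show 13 ≤ Fintype.card F by omega)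
      omega
    rcases dickson' p hH with ⟨C, N, h, h'⟩ | ⟨s, h⟩ | h | h | h | ⟨x, L, h, -, h'⟩
    · refine (Subgroup.card_le_of_le h').trans ?_
      have := Nat.mul_le_mul_right (Fintype.card F) (show 3 ≤ Fintype.card F - 1 by omega)
      rw [h.card]
      rcases h.tor.card with e | e <;> omega
    · exact Nat.le_of_dvd pos (card_dvd_of_BS h)
    · exact small (by rintro rfl; simp at h) (by rw [card_of_equiv h.2, card_A4]; norm_num)
    · exact small (by rintro rfl; simp at h) (by rw [card_of_equiv h.2, card_S4]; norm_num)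
    · exact small (by rintro rfl; simp at h) (by rw [card_of_equiv h.2, card_A5])
    · have h2 := sq_card_le h
      have h3 := one_lt_card_sub L
      rw [← card_map_cjE _ x]
      refine (Subgroup.card_le_of_le h').trans ((Nat.le_of_dvd ?_ (card_GLs_dvd L)).trans ?_)
      · exact Nat.mul_pos two_pos (Nat.mul_pos (by omega) (Nat.sub_pos_of_lt (by nlinarith)))
      · rw [← mul_assoc, mul_comm]
        exact Nat.mul_le_mul (by omega) (by nlinarith)
  · refine Nat.eq_of_mul_eq_mul_right pos ?_
    rw [← key, comap_map_πS (mem_BS.2 (by simp)), card_BS]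

end Cfsg.Agent.S0806
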