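import Mathlib
import Cfsg.Statements.S0807
import Cfsg.Agent.H8.Klein2

set_option autoImplicit false
open Cfsg

namespace Cfsg.Agent.S0807


open CfsgH8

/-- For q odd, twelve times the number of Klein four-subgroups of PSL_2(q) equals the order of PSL_2(q). -/
theorem result {F : Type*} [Field F] [Fintype F] {q : ℕ} (hF : Fintype.card F = q) (hodd : Odd q) : 12 * Nat.card {V : Subgroup (Matrix.ProjectiveSpecialLinearGroup (Fin 2) F) // IsKleinFour V} = Nat.card (Matrix.ProjectiveSpecialLinearGroup (Fin 2) F) := by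
  subst hF
  have hq := Nat.odd_iff.1 hodd
  obtain ⟨V, hV⟩ := exists_klein hq
  have k : ∀ {V : Subgroup (Matrix.ProjectiveSpecialLinearGroup (Fin 2) F)} (_ : IsKleinFour V) (g),
      IsKleinFour (V.map (MulAut.conj g).toMonoidHom) :=
    fun h g => isKleinFour_map h _ (MulAut.conj g).injective
  change 12 * Set.ncard {V : Subgroup _ | IsKleinFour V} = _
  have h1 := (Subgroup.normalizer (SetLike.coe V)).index_mul_card
  rcases (by omega : (Fintype.card F % 8 = 3 ∨ Fintype.card F % 8 = 5) ∨
    (Fintype.card F % 8 = 1 ∨ Fintype.card F % 8 = 7)) with h | h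
  · rw [← h1, (card_normalizer_V hq hV).2.1 h, ← ncard_conj_subgroup, mul_comm]
    congr 2
    exact Set.ext fun W => ⟨klein_conj_of h hV, fun ⟨g, e⟩ => e ▸ k hV g⟩
  · obtain ⟨x, hx⟩ := exists_nonsquare_det hq
    have hW := isKleinFour_map hV (cjP x).toMonoidHom (cjP x).injective
    have h2 := (Subgroup.normalizer (SetLike.coe (V.map (cjP x).toMonoidHom))).index_mul_card
    rw [(card_normalizer_V hq hV).2.2 h, ← ncard_conj_subgroup] at h1
    rw [(card_normalizer_V hq hW).2.2 h, ← ncard_conj_subgroup] at h2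
    rw [show {V : Subgroup _ | IsKleinFour V} = {W | ∃ g, W = V.map (MulAut.conj g).toMonoidHom} ∪
      {W | ∃ g, W = (V.map (cjP x).toMonoidHom).map (MulAut.conj g).toMonoidHom} from
      Set.ext fun W => ⟨fun h => by
        obtain ⟨y, rfl⟩ := klein_conj hq hV h
        exact conj_or_conj hx V y, by
        rintro (⟨g, rfl⟩ | ⟨g, rfl⟩)
        exacts [k hV g, k hW g]⟩, Set.ncard_union_eq]
    · omega
    · rw [Set.disjoint_left]
      rintro _ ⟨a, rfl⟩ ⟨b, e⟩
      refine klein_not_conj h hV hx (b⁻¹ * a) ?_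
      rw [← map_conj_mul, e, map_conj_mul, inv_mul_cancel, map_conj_one]

end Cfsg.Agent.S0807
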