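import Mathlib
import Cfsg.Statements.S0808
import Cfsg.Agent.H8.Klein2

set_option autoImplicit false
open Cfsg

namespace Cfsg.Agent.S0808


open CfsgH8

/-- Conjugacy classes of four-groups in PSL_2(q), q odd: if q ≡ 3 or 5 (mod 8) all Klein four-subgroups are conjugate; if q ≡ 1 or 7 (mod 8) there are two Klein four-subgroups which are not conjugate, and every Klein four-subgroup is conjugate to one of them. -/
theorem result {F : Type*} [Field F] [Fintype F] {q : ℕ} (hF : Fintype.card F = q) (hodd : Odd q) : ((q % 8 = 3 ∨ q % 8 = 5) → ∀ V W : Subgroup (Matrix.ProjectiveSpecialLinearGroup (Fin 2) F), IsKleinFour V → IsKleinFour W → ∃ g : Matrix.ProjectiveSpecialLinearGroup (Fin 2) F, W = V.map (MulAut.conj g).toMonoidHom) ∧ ((q % 8 = 1 ∨ q % 8 = 7) → ∃ V₁ V₂ : Subgroup (Matrix.ProjectiveSpecialLinearGroup (Fin 2) F), IsKleinFour V₁ ∧ IsKleinFour V₂ ∧ (¬ ∃ g : Matrix.ProjectiveSpecialLinearGroup (Fin 2) F, V₂ = V₁.map (MulAut.conj g).toMonoidHom)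 ∧ ∀ W : Subgroup (Matrix.ProjectiveSpecialLinearGroup (Fin 2) F), IsKleinFour W → (∃ g : Matrix.ProjectiveSpecialLinearGroup (Fin 2) F, W = V₁.map (MulAut.conj g).toMonoidHom) ∨ (∃ g : Matrix.ProjectiveSpecialLinearGroup (Fin 2) F, W = V₂.map (MulAut.conj g).toMonoidHom)) := by
  subst hF
  have hq := Nat.odd_iff.1 hodd
  refine ⟨fun h V W hV hW => klein_conj_of h hV hW, fun h => ?_⟩
  obtain ⟨V, hV⟩ := exists_klein hq
  obtain ⟨x, hx⟩ := exists_nonsquare_det hq
  refine ⟨V, V.map (cjP x).toMonoidHom, hV, isKleinFour_map hV _ (cjP x).injective,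
    fun ⟨g, hg⟩ => klein_not_conj h hV hx g hg, fun W hW => ?_⟩
  obtain ⟨y, rfl⟩ := klein_conj hq hV hW
  exact conj_or_conj hx V y

end Cfsg.Agent.S0808
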