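import Mathlib
import Cfsg.Statements.S0809
import Cfsg.Agent.H8.SL2n

set_option autoImplicit false
open Cfsg

namespace Cfsg.Agent.S0809

open CfsgH8

/-- In SL_2(q), q odd: any two subgroups of order 4 are conjugate, and the normaliser of a subgroup of order 4 has order 2(q − 1) if q ≡ 1 (mod 4) and 2(q + 1) if q ≡ 3 (mod 4); consequently all involutions of PSL_2(q) are conjugate. -/
theorem result {F : Type*} [Field F] [Fintype F] {q : ℕ} (hF : Fintype.card F = q) (hodd : Odd q) (A : Subgroup (Matrix.SpecialLinearGroup (Fin 2) F)) (hA : Nat.card A = 4) : (∀ B : Subgroup (Matrix.SpecialLinearGroup (Fin 2) F), Nat.card B = 4 → ∃ g : Matrix.SpecialLinearGroup (Fin 2) F, B = A.map (MulAut.conj g).toMonoidHom) ∧ (q % 4 = 1 → Nat.card ↥(Subgroup.normalizer (A : Set (Matrix.SpecialLinearGroup (Fin 2) F))) = 2 * (q - 1)) ∧ (q % 4 = 3 → Nat.card ↥(Subgroup.normalizer (A : Set (Matrix.SpecialLinearGroup (Fin 2) F))) = 2 * (q + 1)) ∧ (∀ x y : Matrix.ProjectiveSpecialLinearGroup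 (Fin 2) F, orderOf x = 2 → orderOf y = 2 → IsConj x y) := by
  classical
  subst hF
  have hq := Nat.odd_iff.1 hodd
  have key : ∀ A : Subgroup (Matrix.SpecialLinearGroup (Fin 2) F), Nat.card A = 4 →
      ∃ z, z.1.trace = 0 ∧ A = Subgroup.zpowers z := by
    intro A hA
    have : ∃ a ∈ A, ¬ IsSc a.1 := by
      by_contra h
      push Not at h
      have := Subgroup.card_dvd_of_le (show A ≤ Subgroup.center _ from
        fun a ha => mem_center_SL2.2 (h a ha))
      rw [hA, card_center_SL2, gcd_two_odd hq] at this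
      omega
    obtain ⟨a, ha, hs⟩ := this
    have h1 : a.1.trace = 0 := trace_eq_zero_of_isSc_sq (isSc_of_sq_eq_one (two_ne_zero_of_odd hq)
      (by rw [← sq, ← pow_mul, ← orderOf_dvd_iff_pow_eq_one]; exact (A.orderOf_dvd_natCard ha).trans hA.dvd)) hs
    exact ⟨a, h1, (Subgroup.eq_of_le_of_card_ge (Subgroup.zpowers_le.2 ha)
      (by rw [hA, Nat.card_zpowers, orderOf_of_trace_zero hq h1])).symm⟩
  obtain ⟨z, hz, rfl⟩ := key A hA
  have hr := reg_of_trace_zero hq hz
  obtain ⟨C, N, hN, hzC, -⟩ := exists_torN_of_reg hr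
  have h4 := C.orderOf_dvd_natCard hzC
  rw [orderOf_of_trace_zero hq hz] at h4
  rw [hN.normalizer_eq (Subgroup.zpowers_le.2 hzC) (Subgroup.mem_zpowers z) hr.not_isSc, hN.card]
  refine ⟨fun B hB => ?_, fun h => ?_, fun h => ?_, fun x y hx hy => ?_⟩
  · obtain ⟨w, hw, rfl⟩ := key B hB
    obtain ⟨g, rfl⟩ := isConj_iff.1 (hr.isConj_SL (hz.trans hw.symm))
    exact ⟨g, by rw [MonoidHom.map_zpowers]; rfl⟩
  · rcases hN.tor.card with e | e <;> omega
  · rcases hN.tor.card with e | e <;> omega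
  · obtain ⟨x, rfl⟩ := πS_surj x
    obtain ⟨y, rfl⟩ := πS_surj y
    exact πS.map_isConj ((reg_of_trace_zero hq (trace_of_orderOf_πS_two hx)).isConj_SL
      ((trace_of_orderOf_πS_two hx).trans (trace_of_orderOf_πS_two hy).symm))

end Cfsg.Agent.S0809
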