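import Mathlib
import Cfsg.Statements.S0810
import Cfsg.Agent.H8.Dick4
import Cfsg.Agent.H3.Burnside

set_option autoImplicit false
open Cfsg

namespace Cfsg.Agent.S0810


open CfsgH8

variable {F : Type*} [Field F] [Fintype F]

local notation "SL2" => Matrix.SpecialLinearGroup (Fin 2) F
local notation "PSL2" => Matrix.ProjectiveSpecialLinearGroup (Fin 2) F

theorem solv_of_le {G : Type*} [Group G] {H K : Subgroup G} (h : H ≤ K) (hK : Group.IsSolvable K) :
    Group.IsSolvable H :=
  Group.isSolvable_of_isSolvable_injective (Subgroup.inclusion_injective h)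

theorem solv_of_comm {G : Type*} [Group G] {H A : Subgroup G} (h : ⁅H, H⁆ ≤ A)
    (hA : ∀ a ∈ A, ∀ b ∈ A, a * b = b * a) : Group.IsSolvable H := by
  refine ⟨2, ?_⟩
  have h1 : commutator H ≤ A.subgroupOf H := by
    rw [← Subgroup.map_subtype_commutator] at h
    exact Subgroup.map_le_iff_le_comap.1 h
  rw [derivedSeries_succ, derivedSeries_one, Subgroup.commutator_eq_bot_iff_le_centralizer]
  exact fun a ha b hb => Subtype.ext (hA _ (h1 hb) _ (h1 ha))

theorem solv_N {C N : Subgroup SL2} (h : TorN C N) : Group.IsSolvable N :=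
  solv_of_comm (A := C) (Subgroup.commutator_le.2 fun a ha b hb => by
    rw [commutatorElement_def]
    by_cases e : b ∈ C
    · exact mul_mem (h.conj_mem le_rfl ha e) (inv_mem e)
    by_cases e' : a ∈ C
    · simpa [mul_assoc] using mul_mem e' (h.conj_mem le_rfl hb (inv_mem e'))
    · simpa [mul_assoc] using mul_mem (h.mul a ha e' b hb e) (h.mul _ (inv_mem ha) (by simpa) _
        (inv_mem hb) (by simpa))) fun a ha b hb => h.tor.comm ha hb

theorem solv_B : Group.IsSolvable (BS F) :=
  solv_of_comm (A := US F) (Subgroup.commutator_le.2 fun a ha b hb => comm_mem_US ha hb) (by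
    simp only [mem_US]
    rintro _ ⟨a, rfl⟩ _ ⟨b, rfl⟩
    simp [triS_mul, add_comm])

theorem solv_of_conj {H : Subgroup PSL2} {G : Subgroup SL2} (e : SL2 ≃* SL2)
    (h : (H.comap πS).map e.toMonoidHom ≤ G) (hG : Group.IsSolvable G) : Group.IsSolvable H := by
  have := solv_of_le h hG
  have := Group.isSolvable_of_isSolvable_injective (f := ((H.comap πS).equivMapOfInjective e.toMonoidHom
    e.injective).toMonoidHom) (MulEquiv.injective _)
  rw [← map_comap_πS H]
  exact Group.isSolvable_of_surjective (πS.subgroupMap_surjective _)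

theorem ns {G A : Type*} [Group G] [Group A] [IsSimpleGroup A] (H : Subgroup G)
    (e : Nonempty (H ≃* A)) (h : Group.IsSolvable H) : Nat.card A ≠ 60 ∧ ∀ a b : A, a * b = b * a := by
  obtain ⟨e⟩ := e
  have := Group.isSolvable_of_surjective (f := e.toMonoidHom) e.surjective
  have h1 := IsSimpleGroup.comm_iff_isSolvable.2 this
  refine ⟨fun e => ?_, h1⟩
  let _ : CommGroup A := ⟨h1⟩
  exact absurd (e ▸ IsSimpleGroup.prime_card) (by norm_num)

theorem solv_iff (h4 : 4 ≤ Fintype.card F) : (∀ H : Subgroup PSL2, H ≠ ⊤ → Group.IsSolvable H) ↔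
    (∀ L : Subfield F, L ≠ ⊤ → Nat.card L ≤ 3) ∧
      (Fintype.card F ≤ 5 ∨ Fintype.card F % 5 = 2 ∨ Fintype.card F % 5 = 3) := by
  have hA := alternatingGroup.isSimpleGroup (α := Fin 5) (by simp)
  have hc := card_PSL2 (F := F)
  constructor
  · intro h
    refine ⟨fun L hL => ?_, ?_⟩
    · by_contra e
      have := Fintype.ofFinite L
      have := simple_PSL2 (F := L) (by rw [← Nat.card_eq_fintype_card]; omega)
      have h1 := (ns _ (nonempty_map_SLs L.subtype) (h _ fun e => GLs_ne_top hL (eq_top_iff.2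
        (((map_πS_eq_top (neg_one_mem_SLs _)).1 e).ge.trans (by
          rw [L.fieldRange_subtype]; exact SLs_le_GLs L))))).2 (πS (triS 1 1)) (πS (loS 1))
      rw [← map_mul, ← map_mul, πS_eq_iff] at h1
      rcases h1 with h1 | h1 <;> replace h1 := m2_ext_iff.1 (congrArg Subtype.val h1) <;>
        simp [triS_val, loS_val] at h1
      exact one_ne_zero (by linear_combination h1.1 - h1.2.1 : (1 : L) = 0)
    · by_contra e
      obtain ⟨K, k1, -, -, k2⟩ := exists_ne_top_card (has_A5 (F := F) ((five_dvd_iff _).2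
        (by omega))) (by
          have := card_le_card_map_SLs (⊤ : Subfield F) (a := 6) (by rw [card_sub_top]; omega)
          have := Subgroup.card_le_card_group ((SLs (⊤ : Subfield F)).map πS)
          rw [card_A5]; omega)
      exact (ns K k2 (h K k1)).1 card_A5
  · rintro ⟨h1, h2⟩ H hH
    obtain ⟨p, _, n, hp, hn⟩ := FiniteField.card' F
    have : Fact p.Prime := ⟨hp⟩
    rcases dickson' p hH with ⟨C, N, h, h'⟩ | ⟨s, h⟩ | h | h | h | ⟨x, L, h, -, h'⟩
    · exact solv_of_conj (MulEquiv.refl _) (by simpa using h') (solv_N h)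
    · exact solv_of_conj (MulAut.conj s) (by rintro _ ⟨g, hg, rfl⟩; exact h g hg) solv_B
    · exact CfsgH3.burnside_paqb 2 3 2 1 Nat.prime_two Nat.prime_three
        (by rw [card_of_equiv h.2, card_A4]; norm_num)
    · exact CfsgH3.burnside_paqb 2 3 3 1 Nat.prime_two Nat.prime_three
        (by rw [card_of_equiv h.2, card_S4]; norm_num)
    · have h3 := (card_of_equiv h.2).trans card_A5
      have h5 := card_dvd_PSL2 H
      rw [h3] at h5
      have := (five_dvd_iff _).1 (((show 5 ∣ 60 by norm_num).mul_left _).trans h5)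
      exact absurd (Subgroup.eq_top_of_card_eq _ (h3.trans (card_PSL2_sixty (by omega)).symm)) hH
    · refine solv_of_conj _ h' (CfsgH3.burnside_paqb 2 3 4 1 Nat.prime_two Nat.prime_three
        ((card_GLs_dvd L).trans ?_))
      have := one_lt_card_sub L
      have := h1 L h
      obtain e | e : Nat.card L = 2 ∨ Nat.card L = 3 := by omega
      all_goals rw [e]; norm_num

theorem pow_mod_five (a k : ℕ) (h : a % 5 = 2 ∨ a % 5 = 3) :
    a ^ (2 * k + 1) % 5 = 2 ∨ a ^ (2 * k + 1) % 5 = 3 := by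
  induction k with
  | zero => simpa
  | succ k ih =>
    rw [show 2 * (k + 1) + 1 = 2 * k + 1 + 2 by ring, pow_add, Nat.mul_mod, Nat.pow_mod a 2]
    rcases h with h | h <;> rcases ih with e | e <;> simp [h, e]

/-- PSL_2(q) is minimal simple iff q is 2^r (r prime), 3^r (r an odd prime), a prime greater than 5 congruent to 2 or 3 mod 5, or 5. -/
theorem result {F : Type*} [Field F] [Fintype F] {q : ℕ} (hF : Fintype.card F = q) : Cfsg.IsMinimalSimple (Matrix.ProjectiveSpecialLinearGroup (Fin 2) F) ↔ ((∃ r : ℕ, r.Prime ∧ q = 2 ^ r) ∨ (∃ r : ℕ, r.Prime ∧ r ≠ 2 ∧ q = 3 ^ r) ∨ (q.Prime ∧ 5 < q ∧ (q % 5 = 2 ∨ q % 5 = 3)) ∨ q = 5) := by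
  subst hF
  obtain ⟨p, _, n, hp, hn⟩ := FiniteField.card' F
  have : Fact p.Prime := ⟨hp⟩
  have hb := card_sub_bot (F := F) p
  have hp2 := hp.two_le
  constructor
  · rintro ⟨h1, h2, h3⟩
    have h4 : 4 ≤ Fintype.card F := by
      by_contra e
      have h5 := Fintype.one_lt_card (α := F)
      have h6 := card_PSL2 (F := F)
      refine h2 ⟨⟨IsSimpleGroup.comm_iff_isSolvable.2 (CfsgH3.burnside_paqb 2 3 3 1 Nat.prime_two
        Nat.prime_three (Dvd.dvd.trans (Dvd.intro_left _ h6) ?_))⟩⟩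
      obtain e | e : Fintype.card F = 2 ∨ Fintype.card F = 3 := by omega
      all_goals rw [e]; norm_num
    obtain ⟨h5, h6⟩ := (solv_iff h4).1 h3
    by_cases h7 : (⊥ : Subfield F) = ⊤
    · have := (sub_eq_top_iff.1 h7).symm.trans hb
      have h8 : p ≠ 4 := by rintro rfl; norm_num at hp
      rw [this] at h4 h6 ⊢
      exact Or.inr (Or.inr (by_cases (fun e : p = 5 => Or.inr e) fun e =>
        Or.inl ⟨hp, by omega, by omega⟩))
    obtain ⟨M, r, -, hr, h8⟩ := exists_max_sub h7
    have h9 := h5 M fun e => by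
      rw [← sub_eq_top_iff.1 e] at h8
      exact (Nat.pow_lt_pow_right (one_lt_card_sub M) hr.one_lt).ne (by rwa [pow_one])
    have := one_lt_card_sub M
    obtain e | e : Nat.card M = 2 ∨ Nat.card M = 3 := by omega
    · exact Or.inl ⟨r, hr, e ▸ h8⟩
    · refine Or.inr (Or.inl ⟨r, hr, ?_, e ▸ h8⟩)
      rintro rfl
      rw [h8, e] at h6
      norm_num at h6
  · intro h
    have key : ∀ l r : ℕ, r.Prime → l.Prime → l ≤ 3 → Fintype.card F = l ^ r →
        ∀ L : Subfield F, L ≠ ⊤ → Nat.card L ≤ 3 := fun l r hr hl h3 e L hL => by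
      obtain rfl : p = l := (Nat.prime_dvd_prime_iff_eq hp hl).1
        (hp.dvd_of_dvd_pow (e ▸ (not_char_dvd p).1))
      rw [(sub_eq_or_top (bot_le : ⊥ ≤ L) hr (hb.symm ▸ e)).resolve_right hL]
      omega
    have h1 : 4 ≤ Fintype.card F ∧ (∀ L : Subfield F, L ≠ ⊤ → Nat.card L ≤ 3) ∧
        (Fintype.card F ≤ 5 ∨ Fintype.card F % 5 = 2 ∨ Fintype.card F % 5 = 3) := by
      rcases h with ⟨r, hr, e⟩ | ⟨r, hr, h2, e⟩ | ⟨h1, h2, h3⟩ | e
      · refine ⟨e ▸ Nat.pow_le_pow_right (n := 2) two_pos hr.two_le,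
          key 2 r hr Nat.prime_two (by norm_num) e, ?_⟩
        rcases hr.eq_two_or_odd' with rfl | ⟨k, rfl⟩
        · omega
        · exact Or.inr (e ▸ pow_mod_five 2 k (by norm_num))
      · obtain ⟨k, rfl⟩ := hr.odd_of_ne_two h2
        exact ⟨e ▸ (show 4 ≤ 3 ^ 2 by norm_num).trans (Nat.pow_le_pow_right (by norm_num) hr.two_le),
          key 3 _ hr Nat.prime_three le_rfl e, Or.inr (e ▸ pow_mod_five 3 k (by norm_num))⟩
      · exact ⟨by omega, fun L hL => absurd (sub_eq_top_of_prime h1 L) hL, Or.inr h3⟩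
      · exact ⟨by omega, fun L hL => absurd (sub_eq_top_of_prime (e ▸ Nat.prime_five) L) hL,
          Or.inl e.le⟩
    have hs := simple_PSL2 h1.1
    refine ⟨hs, fun hc => ?_, (solv_iff h1.1).2 h1.2⟩
    obtain ⟨N, h⟩ := (isTor_range_dS (F := F) (by omega)).exists_N
    have := h.ne_top (by omega)
    let _ : CommGroup (Matrix.ProjectiveSpecialLinearGroup (Fin 2) F) := ⟨hc.1.1⟩
    have h2 := IsSimpleGroup.prime_card (α := Matrix.ProjectiveSpecialLinearGroup (Fin 2) F)
    have h3 := (N.map πS).card_subgroup_dvd_card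
    rw [h.card_map] at h3
    have h4 := (Nat.prime_dvd_prime_iff_eq Nat.prime_two h2).1 ((dvd_mul_right _ _).trans h3)
    have := card_le_card_map_SLs (⊤ : Subfield F) (a := 4) (by rw [card_sub_top]; omega)
    have := Subgroup.card_le_card_group ((SLs (⊤ : Subfield F)).map πS)
    omega

end Cfsg.Agent.S0810
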