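import Mathlib
import Cfsg.Statements.S0811
import Cfsg.Agent.H8.Dick3

set_option autoImplicit false
open Cfsg

namespace Cfsg.Agent.S0811


open CfsgH8

/-- For q ∉ {2, 7, 9}, PSL_2(q) has a maximal subgroup isomorphic to the dihedral group of order 2(q + 1)/d, d = gcd(2, q − 1). -/
theorem result {F : Type*} [Field F] [Fintype F] {q : ℕ} (hF : Fintype.card F = q) (hq : q ∉ ({2, 7, 9} : Finset ℕ)) : ∃ H : Subgroup (Matrix.ProjectiveSpecialLinearGroup (Fin 2) F), IsCoatom H ∧ Nonempty (H ≃* DihedralGroup ((q + 1) / Nat.gcd 2 (q - 1))) := by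
  subst hF
  simp only [Finset.mem_insert, Finset.mem_singleton, not_or] at hq
  obtain ⟨C, hC, e⟩ := exists_tor_add (F := F)
  obtain ⟨N, h⟩ := hC.exists_N
  refine ⟨N.map πS, ?_, e ▸ h.dihedral'⟩
  have h1 := h.card_map
  have h2 : 1 < Fintype.card F := Fintype.one_lt_card
  by_cases h3 : Fintype.card F = 4 ∨ Fintype.card F = 5
  · have := simple_PSL2 (F := F) (by omega)
    refine isCoatom_of_sixty (card_PSL2_sixty h3) ?_
    rcases h3 with h3 | h3 <;> rw [e, h3] at h1 <;> rw [h1] <;> norm_num
  by_cases h4 : Fintype.card F = 3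
  · have h5 := (N.map πS).index_mul_card
    have h6 := card_PSL2 (F := F)
    rw [e, h4] at h1
    rw [h4] at h6
    replace h1 : Nat.card (N.map πS) = 4 := h1
    norm_num at h6
    refine isCoatom_of_card (fun e => by rw [e, Subgroup.card_top] at h1; omega) fun K a b => ?_
    have c := Subgroup.card_dvd_of_le a
    have d := Nat.le_of_dvd Nat.card_pos K.card_subgroup_dvd_card
    have d' := K.card_subgroup_dvd_card
    have f : Nat.card K ≠ 12 := fun e => b (Subgroup.eq_top_of_card_eq _ (by omega))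
    have g : Nat.card K ≠ 8 := fun e => by rw [e] at d'; omega
    rw [h1] at c ⊢
    omega
  refine h.isCoatom ?_
  rcases Nat.mod_two_eq_zero_or_one (Fintype.card F) with h5 | h5
  · rw [gcd_two_even h5]; omega
  · rw [gcd_two_odd h5]; omega

end Cfsg.Agent.S0811
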