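import Mathlib
import Cfsg.Statements.S0812
import Cfsg.Agent.H8.Dick3

set_option autoImplicit false
open Cfsg

namespace Cfsg.Agent.S0812


open CfsgH8

/-- For q ∉ {2, 3, 5, 7, 9, 11}, PSL_2(q) has a maximal subgroup isomorphic to the dihedral group of order 2(q − 1)/d, d = gcd(2, q − 1). -/
theorem result {F : Type*} [Field F] [Fintype F] {q : ℕ} (hF : Fintype.card F = q) (hq : q ∉ ({2, 3, 5, 7, 9, 11} : Finset ℕ)) : ∃ H : Subgroup (Matrix.ProjectiveSpecialLinearGroup (Fin 2) F), IsCoatom H ∧ Nonempty (H ≃* DihedralGroup ((q - 1) / Nat.gcd 2 (q - 1))) := by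
  subst hF
  simp only [Finset.mem_insert, Finset.mem_singleton, not_or] at hq
  have h2 : 1 < Fintype.card F := Fintype.one_lt_card
  obtain ⟨C, hC, e⟩ := exists_tor_sub (F := F) (by omega)
  obtain ⟨N, h⟩ := hC.exists_N
  refine ⟨N.map πS, ?_, e ▸ h.dihedral'⟩
  have h1 := h.card_map
  by_cases h3 : Fintype.card F = 4
  · have := simple_PSL2 (F := F) (by omega)
    refine isCoatom_of_sixty (card_PSL2_sixty (Or.inl h3)) ?_
    rw [e, h3] at h1; rw [h1]; norm_num
  refine h.isCoatom ?_
  have h4 : Fintype.card F ≠ 6 := fun h => by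
    have := FiniteField.isPrimePow_card F
    rw [h] at this
    exact absurd this (by decide)
  rcases Nat.mod_two_eq_zero_or_one (Fintype.card F) with h5 | h5
  · rw [gcd_two_even h5]; omega
  · rw [gcd_two_odd h5]; omega

end Cfsg.Agent.S0812
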