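import Cfsg.Statements.S0813
import Cfsg.Agent.H5.Au6

set_option autoImplicit false
open Cfsg

namespace Cfsg.Agent.S0813

/-- |Aut(PSL_n(q))|, q = p^f: for n ≥ 3 it is 2 f |PGL_n(q)|, and for n = 2 (q ≥ 4) it is f |PGL_2(q)|. -/
theorem result {F : Type*} [Field F] [Fintype F] (p f : ℕ) [Fact p.Prime] (hf : 1 ≤ f) (hF : Fintype.card F = p ^ f) (n : ℕ) (hn : 2 ≤ n) (h2 : n = 2 → 4 ≤ p ^ f) : Nat.card (MulAut (Matrix.ProjectiveSpecialLinearGroup (Fin n) F)) = (if n = 2 then 1 else 2) * f * Nat.card (Matrix.ProjGenLinGroup (Fin n) F) := by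
  have hn' : 2 ≤ Fintype.card (Fin n) := by simpa using hn
  have : Nonempty (Fin n) := ⟨⟨0, by omega⟩⟩
  obtain ⟨φ, h1, h3⟩ := CfsgH5.Au.exists_out_PSL (ι := Fin n) (F := F) hn'
  obtain ⟨-, h5⟩ := CfsgH5.Au.out_diag_PSL (ι := Fin n) (F := F) hn'
  rw [CfsgH5.Au.card_aut_eq ((CfsgH5.Au.KS_SLV hn').center_eq_bot (CfsgH5.Au.slE _ F)),
    CfsgH5.card_PGL_eq_card_SL, ← CfsgH5.card_center_mul_card_PSL, CfsgH5.card_center_SL,
    CfsgH5.Au.card_eq_card_mul_ker _ φ.rangeRestrict_surjective, MonoidHom.ker_rangeRestrict, h1, h5,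
    ← mul_assoc]
  congr 2
  rw [← CfsgH5.Au.card_ringAut hF]
  split_ifs with h
  · have : φ.range = (MonoidHom.inl _ _).range := by
      ext x; rw [h3]; simp [h, Prod.ext_iff, eq_comm]
    rw [this, one_mul]
    exact (Nat.card_congr (MonoidHom.ofInjective (fun a b h => congrArg Prod.fst h)).toEquiv).symm
  · have : φ.range = ⊤ := eq_top_iff.2 fun x _ => (h3 x).2 (Or.inr (by simp; omega))
    rw [this, Subgroup.card_top, Nat.card_prod, mul_comm]; simp

end Cfsg.Agent.S0813
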