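import Cfsg.Statements.S0814
import Cfsg.Agent.S2600
import Cfsg.Agent.H5.Oe11

set_option autoImplicit false
open Cfsg

namespace Cfsg.Agent.S0814

open CfsgH5 CfsgH5.Au CfsgH5.Oe CfsgH5.Au.Γ

theorem aux {F : Type*} [Field F] [Finite F] {m : ℕ} (hm : 2 ≤ m) (hs : Function.Surjective (ΨSp (F := F) m)) :
    Nat.card (Cfsg.Out (Cfsg.PSp m F)) = Nat.gcd 2 (Nat.card Fˣ) * Nat.card (F ≃+* F) := by
  obtain ⟨μ, -, s, k⟩ := mult_sp (F := F) hm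
  have a : ∀ ρ : F ≃+* F, ∃ θ : Sim (spForm F m) cm_symp, θ.1.σ = ρ := fun ρ => ⟨⟨_, 1, isSim_std_sp m ρ⟩, rfl⟩
  have c := card_quot_pow (A := Fˣ) 2
  have hD := QuotientGroup.mk'_surjective (powMonoidHom 2 : Fˣ →* Fˣ).range
  have b : ∀ x, x ∈ (powMonoidHom 2 : Fˣ →* Fˣ).range ↔ QuotientGroup.mk' (powMonoidHom 2 : Fˣ →* Fˣ).range x = 1 :=
    fun _ => (QuotientGroup.eq_one_iff _).symm
  have d0 := @out_card F _ _ _ _ _ _ (spForm F m) cm_symp _ _ (spE m) (KS_sp hm)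
  have d1 := d0 hs
  have d2 := @d1 a
  have d3 := @d2 _ _ ((QuotientGroup.mk' (powMonoidHom 2 : Fˣ →* Fˣ).range).comp μ)
  have d4 := d3 (fun x => let ⟨y, h⟩ := hD x; let ⟨g, l⟩ := s y; ⟨g, (congrArg _ l).trans h⟩)
  have d5 := d4 fun g => (k g).trans (b _)
  rw [c] at d5
  convert d5

/-- |Aut(PSp_2m(q))| = gcd(2, q−1) · f · |PSp_2m(q)| for q = p^f, m ≥ 2, (m, q) ≠ (2, 2), with an extra factor 2 exactly when m = 2 and p = 2. -/
theorem result {F : Type*} [Field F] [Fintype F] (p f : ℕ) [Fact p.Prime] (hf : 1 ≤ f) (hF : Fintype.card F = p ^ f) (m : ℕ) (hm : 2 ≤ m) (h22 : m = 2 → 3 ≤ p ^ f) : Nat.card (MulAut (Cfsg.PSp m F)) = (if m = 2 ∧ p = 2 then 2 else 1) * Nat.gcd 2 (p ^ f - 1) * f * Nat.card (Cfsg.PSp m F) := by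
  refine (card_aut_eq ((KS_sp (F := F) hm).center_eq_bot (spE m))).trans (congrArg (· * _) ?_)
  by_cases h : m = 2 ∧ p = 2
  · obtain ⟨rfl, rfl⟩ := h
    rw [(S2600.result hf hF).2, show Nat.gcd 2 (2 ^ f - 1) = 1 from Nat.coprime_two_left.2
      (Nat.Even.sub_odd Nat.one_le_two_pow (Nat.even_pow.2 ⟨even_two, by omega⟩) odd_one), if_pos ⟨rfl, rfl⟩]
  have o : m = 2 → (2 : F) ≠ 0 := fun k =>
    two_ne_of_odd (hF ▸ ((Fact.out : p.Prime).odd_of_ne_two fun c => h ⟨k, c⟩).pow)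
  rw [aux hm (aut_PSp ((show 3 ≤ m ∨ m = 2 by omega).imp_right fun k => ⟨hm, o k⟩)), Nat.card_units,
    Nat.card_eq_fintype_card (α := F), card_ringAut hF, hF, if_neg h, one_mul]

end Cfsg.Agent.S0814
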