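import Cfsg.Statements.S0816
import Cfsg.Agent.H5.Au19

set_option autoImplicit false
open Cfsg

namespace Cfsg.Agent.S0816

/-- |Aut(PΩ_(2m+1)(q))| = 2 f · |PΩ_(2m+1)(q)| for q = p^f odd and m ≥ 3 (for the form quadFormOdd). -/
theorem result {F : Type*} [Field F] [Fintype F] (p f : ℕ) [Fact p.Prime] (hf : 1 ≤ f) (hF : Fintype.card F = p ^ f) (hodd : Odd p) (m : ℕ) (hm : 3 ≤ m) : Nat.card (MulAut (Cfsg.POmega F (Cfsg.quadFormOdd m F))) = 2 * f * Nat.card (Cfsg.POmega F (Cfsg.quadFormOdd m F)) := by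
  have h2 : (2 : F) ≠ 0 := CfsgH5.two_ne_of_odd (hF ▸ hodd.pow)
  obtain ⟨e1⟩ := CfsgH5.Au.out_POdd h2 hm
  change Nat.card (MulAut (Cfsg.POmega F (CfsgH5.oddQ F m))) = 2 * f * Nat.card (Cfsg.POmega F (CfsgH5.oddQ F m))
  refine (CfsgH5.Au.card_aut_eq ((CfsgH5.Au.KS_O (CfsgH5.oddQ_nondeg h2 m)
    (CfsgH5.Au.five_odd hm)).center_eq_bot (CfsgH5.Au.omE (CfsgH5.oddQ_nondeg h2 m) (CfsgH5.Au.five_odd hm)))).trans ?_
  rw [Nat.card_congr e1.toEquiv, Nat.card_prod, CfsgH5.Au.card_ringAut hF]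
  simp

end Cfsg.Agent.S0816
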