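import Cfsg.Statements.S2607
import Cfsg.Agent.H5.Ch7
import Cfsg.Agent.H5.Oe11

set_option autoImplicit false
open Cfsg

namespace Cfsg.Agent.S2607

open CfsgH5 CfsgH5.Au CfsgH5.Oe CfsgH5.Ch
set_option maxHeartbeats 2000000

/-- Outer automorphism group of PΩ⁺_2m(q), q = 2^f: for m ≥ 5 it is the direct product of a group of order 2 (graph automorphism, an orthogonal transvection) and a cyclic group of order f (field automorphisms); for m = 4 triality enlarges it to S_3 × C_f. -/
theorem result {F : Type*} [Field F] [Fintype F] {f m : ℕ} (hf : 1 ≤ f) (hF : Fintype.card F = 2 ^ f) (hm : 4 ≤ m) : if m = 4 then Nonempty (Cfsg.Out (Cfsg.POmega F (Cfsg.quadFormPlus m F)) ≃* Equiv.Perm (Fin 3) × Multiplicative (ZMod f)) else Nonempty (Cfsg.Out (Cfsg.POmega F (Cfsg.quadFormPlus m F)) ≃* Multiplicative (ZMod 2 × ZMod f)) := by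
  have h2 : (2 : F) = 0 := by
    have := FiniteField.cast_card_eq_zero F
    rw [hF] at this
    exact pow_eq_zero_iff (by omega : f ≠ 0) |>.1 (by simpa using this)
  split_ifs with h
  · subst h
    obtain ⟨φ, -⟩ := exists_iso_D4 (evP F (by omega : 3 ≤ 4)).om
    exact ⟨(outCongr φ).symm.trans (out_D4 hF (.inl ⟨rfl, rfl⟩)).some⟩
  · obtain ⟨φ, -, k, -⟩ := exists_frob hF
    exact (evP F (by omega)).out_two' _ (aut_plus (by omega)) (card_ringAut hF) (θ := stP m φ) k
      (Subtype.ext ((map_pow (std _) _ _).symm.trans (by rw [← k, pow_orderOf_eq_one, map_one]; rfl))) h2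

end Cfsg.Agent.S2607
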