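import Cfsg.Statements.S2608
import Cfsg.Agent.H5.Ch7
import Cfsg.Agent.H5.Oe11

set_option autoImplicit false
open Cfsg

namespace Cfsg.Agent.S2608

open CfsgH5 CfsgH5.Au CfsgH5.Oe CfsgH5.Ch
set_option maxHeartbeats 2000000

/-- Outer automorphism group of PΩ⁺_2m(q), q = p^f odd: for m = 4 it is S_4 × C_f (triality); for m ≥ 5 it is C_2 × C_2 × C_f when q ≡ 3 (mod 4) and m is odd, and D_8 × C_f otherwise. -/
theorem result {F : Type*} [Field F] [Fintype F] {p f m : ℕ} [Fact p.Prime] (hf : 1 ≤ f) (hF : Fintype.card F = p ^ f) (hp : p ≠ 2) (hm : 4 ≤ m) : if m = 4 then Nonempty (Cfsg.Out (Cfsg.POmega F (Cfsg.quadFormPlus m F)) ≃* Equiv.Perm (Fin 4) × Multiplicative (ZMod f)) else if p ^ f % 4 = 3 ∧ Odd m then Nonempty (Cfsg.Out (Cfsg.POmega F (Cfsg.quadFormPlus m F)) ≃* Multiplicative (ZMod 2 × ZMod 2 × ZMod f)) else Nonempty (Cfsg.Out (Cfsg.POmega F (Cfsg.quadFormPlus m F)) ≃* DihedralGroup 4 × Multiplicative (ZMod f))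 := by
  have ho : Odd (Fintype.card F) := hF ▸ ((Fact.out : p.Prime).odd_of_ne_two hp).pow
  obtain ⟨φ, -, k, -⟩ := exists_frob hF
  have l : stP m φ ^ f = 1 :=
    Subtype.ext ((map_pow (std _) _ _).symm.trans (by rw [← k, pow_orderOf_eq_one, map_one]; rfl))
  have s := sn_ng_plus ho (by omega : 3 ≤ m)
  rw [hF, and_comm] at s
  split_ifs with h h'
  · subst h
    obtain ⟨φ, -⟩ := exists_iso_D4 (evP F (by omega : 3 ≤ 4)).om
    exact ⟨(outCongr φ).symm.trans (out_D4 hF (.inr ⟨hp, rfl⟩)).some⟩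
  · exact (evP F (by omega)).out_V4' _ (aut_plus (by omega)) (card_ringAut hF) (θ := stP m φ) k l (two_ne_of_odd ho)
      fun c => s.1 c h'
  · exact (evP F (by omega)).out_D8' _ (aut_plus (by omega)) (card_ringAut hF) (θ := stP m φ) k l (two_ne_of_odd ho)
      (s.2 h') (isSim_std_plus m φ)

end Cfsg.Agent.S2608
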