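import Cfsg.Statements.S0817
import Cfsg.Agent.S2607
import Cfsg.Agent.S2608

set_option autoImplicit false
open Cfsg

namespace Cfsg.Agent.S0817

open CfsgH5 CfsgH5.Au CfsgH5.Oe
set_option maxHeartbeats 2000000

/-- |Aut(PΩ⁺_2m(q))| for q = p^f, m ≥ 4: |PΩ⁺_2m(q)| times f, times 3 when m = 4, times 2 if p = 2, and times 8 or 4 if p is odd according as m(q−1)/2 is even or odd. -/
theorem result {F : Type*} [Field F] [Fintype F] (p f : ℕ) [Fact p.Prime] (hf : 1 ≤ f) (hF : Fintype.card F = p ^ f) (m : ℕ) (hm : 4 ≤ m) : Nat.card (MulAut (Cfsg.POmega F (Cfsg.quadFormPlus m F))) = (if m = 4 then 3 else 1) * (if p = 2 then 2 else (if Even (m * (p ^ f - 1) / 2) then 8 else 4)) * f * Nat.card (Cfsg.POmega F (Cfsg.quadFormPlus m F)) := by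
  have E := evP F (by omega : 3 ≤ m)
  rw [card_aut_eq (G := Cfsg.POmega F (Cfsg.quadFormPlus m F)) (E.KS.center_eq_bot E.om)]
  congr 1
  by_cases h1 : p = 2
  · subst h1
    have k := S2607.result hf hF hm
    rw [if_pos rfl]
    split_ifs at k ⊢ <;> rw [Nat.card_congr k.some.toEquiv]
    · rw [Nat.card_prod, Nat.card_congr Multiplicative.toAdd, Nat.card_zmod, Nat.card_perm]; simp [Nat.factorial]
    · rw [Nat.card_congr Multiplicative.toAdd, Nat.card_prod, Nat.card_zmod, Nat.card_zmod]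
  have k := S2608.result hf hF h1 hm
  obtain ⟨t, ht⟩ : Odd (p ^ f) := ((Fact.out : p.Prime).odd_of_ne_two h1).pow
  have l : Even (m * (p ^ f - 1) / 2) ↔ ¬ (p ^ f % 4 = 3 ∧ Odd m) := by
    rw [ht, Nat.add_sub_cancel, mul_left_comm, Nat.mul_div_cancel_left _ two_pos, Nat.even_mul, Nat.even_iff,
      Nat.even_iff, Nat.odd_iff]
    omega
  simp only [if_neg h1, l, ite_not]
  by_cases h4 : m = 4
  · rw [if_pos h4] at k ⊢
    rw [if_neg fun c => by have := c.2; rw [h4] at this; revert this; decide, Nat.card_congr k.some.toEquiv,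
      Nat.card_prod, Nat.card_congr Multiplicative.toAdd, Nat.card_zmod, Nat.card_perm]
    simp [Nat.factorial]
  rw [if_neg h4] at k ⊢
  split_ifs at k ⊢ <;> rw [Nat.card_congr k.some.toEquiv]
  · rw [Nat.card_congr Multiplicative.toAdd, Nat.card_prod, Nat.card_prod, Nat.card_zmod, Nat.card_zmod]; ring
  · rw [Nat.card_prod, Nat.card_congr Multiplicative.toAdd, Nat.card_zmod, DihedralGroup.nat_card]

end Cfsg.Agent.S0817
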