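import Cfsg.Statements.S2605
import Cfsg.Agent.H5.Oe8

set_option autoImplicit false
open Cfsg

namespace Cfsg.Agent.S2605

open CfsgH5 CfsgH5.Au CfsgH5.Oe

/-- Outer automorphism group of PΩ⁻_2m(q), m ≥ 4, q = 2^f: cyclic of order 2f, generated by a semilinear map inducing the Frobenius automorphism of the field (its f-th power is a graph automorphism, an orthogonal transvection). -/
theorem result {F : Type*} [Field F] [Fintype F] {f m : ℕ} (hf : 1 ≤ f) (hF : Fintype.card F = 2 ^ f) (hm : 4 ≤ m) (a b : F) (hab : ∀ z₁ z₂ : F, z₁ ^ 2 + a * z₁ * z₂ + b * z₂ ^ 2 = 0 → z₁ = 0 ∧ z₂ = 0) : IsCyclic (Cfsg.Out (Cfsg.POmega F (Cfsg.quadFormMinus (m - 1) F a b))) ∧ Nat.card (Cfsg.Out (Cfsg.POmega F (Cfsg.quadFormMinus (m - 1) F a b))) = 2 * f := by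
  have h2 : (2 : F) = 0 := by
    have := FiniteField.cast_card_eq_zero F
    rw [hF] at this
    exact pow_eq_zero_iff (by omega : f ≠ 0) |>.1 (by simpa using this)
  obtain ⟨θ, h1, g, h3, h4⟩ := exists_frob_lift (m := m - 1) hF hf hab (by omega)
  exact (evM hab (by omega)).out_two _ (aut_minus hab (by omega)) (card_ringAut hF) h1 h3 h4 h2

end Cfsg.Agent.S2605
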