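import Cfsg.Statements.S2606
import Cfsg.Agent.H5.Oe8

set_option autoImplicit false
open Cfsg

namespace Cfsg.Agent.S2606

open CfsgH5 CfsgH5.Au CfsgH5.Oe

/-- Outer automorphism group of PΩ⁻_2m(q), m ≥ 4, q = p^f odd: it is dihedral of order 8 times cyclic of order f when q ≡ 3 (mod 4) and m is odd, and otherwise the direct product of a group of order 2 with a cyclic group of order 2f. -/
theorem result {F : Type*} [Field F] [Fintype F] {p f m : ℕ} [Fact p.Prime] (hf : 1 ≤ f) (hF : Fintype.card F = p ^ f) (hp : p ≠ 2) (hm : 4 ≤ m) (a b : F) (hab : ∀ z₁ z₂ : F, z₁ ^ 2 + a * z₁ * z₂ + b * z₂ ^ 2 = 0 → z₁ = 0 ∧ z₂ = 0) : if p ^ f % 4 = 3 ∧ Odd m then Nonempty (Cfsg.Out (Cfsg.POmega F (Cfsg.quadFormMinus (m - 1) F a b)) ≃* DihedralGroup 4 × Multiplicative (ZMod f)) else Nonempty (Cfsg.Out (Cfsg.POmega F (Cfsg.quadFormMinus (m - 1) F a b)) ≃* Multiplicative (ZMod 2 × ZMod (2 * f))) := by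
  have ho : Odd (Fintype.card F) := hF ▸ ((Fact.out : p.Prime).odd_of_ne_two hp).pow
  obtain ⟨θ, h1, g, h3, h4⟩ := exists_frob_lift (m := m - 1) hF hf hab (by omega)
  have k := sn_ng_minus ho hab (by omega : 2 ≤ m - 1)
  have l : Even (m - 1) ↔ Odd m := by rw [Nat.even_iff, Nat.odd_iff]; omega
  rw [hF, l, and_comm] at k
  split_ifs with h
  · refine (evM hab (by omega)).out_D8 _ (aut_minus hab (by omega)) (card_ringAut hF) h1 h3 (two_ne_of_odd ho)
      (k.2 h) (by rw [Nat.sub_add_cancel (by omega)]; exact h.2) ?_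
    have := pow_mod_four ((Fact.out : p.Prime).odd_of_ne_two hp) f
    rw [h.1] at this
    by_contra c
    simp [c] at this
  · exact (evM hab (by omega)).out_V4 _ (aut_minus hab (by omega)) (card_ringAut hF) h1 h3 h4 (two_ne_of_odd ho)
      fun c => h (k.1 c)

end Cfsg.Agent.S2606
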