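import Cfsg.Statements.S0818
import Cfsg.Agent.S2605
import Cfsg.Agent.S2606

set_option autoImplicit false
open Cfsg

namespace Cfsg.Agent.S0818

open CfsgH5 CfsgH5.Au CfsgH5.Oe

/-- |Aut(PΩ⁻_2m(q))| for q = p^f, m ≥ 4 (form quadFormMinus (m−1) with anisotropic binary part): |PΩ⁻_2m(q)| times f, times 2 if p = 2, and times 4 or 8 if p is odd according as m(q−1)/2 is even or odd. -/
theorem result {F : Type*} [Field F] [Fintype F] (p f : ℕ) [Fact p.Prime] (hf : 1 ≤ f) (hF : Fintype.card F = p ^ f) (m : ℕ) (hm : 4 ≤ m) (a b : F) (hab : ∀ z₁ z₂ : F, z₁ ^ 2 + a * z₁ * z₂ + b * z₂ ^ 2 = 0 → z₁ = 0 ∧ z₂ = 0) : Nat.card (MulAut (Cfsg.POmega F (Cfsg.quadFormMinus (m - 1) F a b))) = (if p = 2 then 2 else (if Even (m * (p ^ f - 1) / 2) then 4 else 8)) * f * Nat.card (Cfsg.POmega F (Cfsg.quadFormMinus (m - 1) F a b)) := by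
  have E := evM hab (by omega : 2 ≤ m - 1)
  rw [card_aut_eq (G := Cfsg.POmega F (Cfsg.quadFormMinus (m - 1) F a b)) (E.KS.center_eq_bot E.om)]
  congr 1
  split_ifs with h1 h2
  · subst h1
    exact (S2605.result hf hF hm a b hab).2
  all_goals
    have k := S2606.result hf hF h1 hm a b hab
    obtain ⟨t, ht⟩ : Odd (p ^ f) := ((Fact.out : p.Prime).odd_of_ne_two h1).pow
    have l : Even (m * (p ^ f - 1) / 2) ↔ ¬ (p ^ f % 4 = 3 ∧ Odd m) := by
      rw [ht, Nat.add_sub_cancel, mul_left_comm, Nat.mul_div_cancel_left _ two_pos, Nat.even_mul, Nat.even_iff,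
        Nat.even_iff, Nat.odd_iff]
      omega
  · rw [if_neg (l.1 h2)] at k
    rw [Nat.card_congr k.some.toEquiv]
    rw [Nat.card_congr Multiplicative.toAdd, Nat.card_prod, Nat.card_zmod, Nat.card_zmod]; ring
  · rw [if_pos (by simpa [l] using h2)] at k
    rw [Nat.card_congr k.some.toEquiv]
    rw [Nat.card_prod, Nat.card_congr Multiplicative.toAdd, Nat.card_zmod, DihedralGroup.nat_card]

end Cfsg.Agent.S0818
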