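import Cfsg.Statements.S0823
import Cfsg.Agent.H5.Orth6

set_option autoImplicit false
open Cfsg

namespace Cfsg.Agent.S0823

open CfsgH5 CfsgH5.CForm Matrix

/-- four singular vectors -/
def V (F : Type*) [Field F] : Matrix (Unit ⊕ (Fin 1 ⊕ Fin 1)) (Fin 4) F :=
  of (Sum.elim (fun _ => ![0, 0, 1, -1]) (Sum.elim (fun _ => ![1, 0, 1, 1]) fun _ => ![0, -1, -1, -1]))

/-- their duals -/
def W (F : Type*) [Field F] : Matrix (Fin 4) (Unit ⊕ (Fin 1 ⊕ Fin 1)) F :=
  (of (Sum.elim (fun _ => ![0, 0, -1, 1]) (Sum.elim (fun _ => ![0, -1, -1, -1]) fun _ => ![1, 0, 1, 1])))ᵀ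

/-- SO_3(3) ≅ S_4: the determinant-one isometries of the form x_0² + x_1y_1 over the field with 3 elements form a group isomorphic to the symmetric group on 4 letters. -/
theorem result {F : Type*} [Field F] [Fintype F] (hF : Fintype.card F = 3) : Nonempty (↥(Cfsg.specialIsometryGroup F (Cfsg.quadFormOdd 1 F)) ≃* Equiv.Perm (Fin 4)) := by
  have h3 : (3 : F) = 0 := by simpa [hF] using FiniteField.cast_card_eq_zero F
  have sq : ∀ a : F, a ≠ 0 → a ^ 2 = 1 := fun a h => by simpa [hF] using FiniteField.pow_card_sub_one_eq_one a h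
  have h2 : (2 : F) ≠ 0 := fun h => one_ne_zero (α := F) (by linear_combination h3 - h)
  have vw : V F * W F = 1 := by
    ext (i | i | i) (j | j | j) <;> fin_cases i <;> fin_cases j <;> simp [V, W, mul_apply, Fin.sum_univ_succ] <;> grind
  have wv : W F * V F = of fun i j => if i = j then 0 else -1 := by
    ext i j; fin_cases i <;> fin_cases j <;> simp [V, W, mul_apply] <;> grind
  have sv : ∀ a, ∑ i, V F a i = 0 := by rintro (a | a | a) <;> simp [V, Fin.sum_univ_succ] <;> grind
  have mv : ∀ σ : Equiv.Perm (Fin 4), (V F).submatrix id σ * W F * V F = (V F).submatrix id σ := fun σ => by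
    ext a j
    have := (Equiv.sum_comp σ (V F a)).trans (sv a)
    rw [Matrix.mul_assoc, wv]
    fin_cases j <;> simp [mul_apply, Fin.sum_univ_succ] at this ⊢ <;> grind
  let M : Equiv.Perm (Fin 4) →* Matrix _ _ F :=
    { toFun σ := (V F).submatrix id σ * W F
      map_one' := vw
      map_mul' σ τ := by
        rw [← Matrix.mul_assoc, ← show ((V F).submatrix id σ * W F * V F).submatrix id τ =
          (V F).submatrix id σ * W F * (V F).submatrix id τ from rfl, mv]; rfl }
  have Q : ∀ c, quadFormOdd 1 F (V F *ᵥ c) = (∑ i, c i) ^ 2 - ∑ i, c i ^ 2 := fun c => by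
    simp [quadFormOdd, V, mulVec, dotProduct, Fin.sum_univ_succ]; grind
  have d : ∀ σ, (M σ).det ≠ 0 := fun σ => GeneralLinearGroup.det_ne_zero (M.toHomUnits σ)
  let u : Equiv.Perm (Fin 4) →* GL _ F := MonoidHom.toHomUnits
    { toFun σ := (M σ).det • M σ
      map_one' := by simp
      map_mul' σ τ := by rw [_root_.map_mul, det_mul, smul_mul_smul_comm] }
  have m : ∀ σ, u σ ∈ isometryGroup F (quadFormOdd 1 F) := fun σ x _ => by
    change oddQ F 1 (((M σ).det • M σ) *ᵥ x) = quadFormOdd 1 F x
    rw [smul_mulVec, QuadraticMap.map_smul, ← pow_two, sq _ (d σ), one_smul, oddQ_coe,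
      show quadFormOdd 1 F x = quadFormOdd 1 F (V F *ᵥ W F *ᵥ x) by rw [mulVec_mulVec, vw, one_mulVec], Q]
    change quadFormOdd 1 F (((V F).submatrix id σ * W F) *ᵥ x) = _
    rw [← mulVec_mulVec, submatrix_mulVec_equiv, Function.comp_id, Q]
    exact congrArg₂ (· ^ 2 - ·) (Equiv.sum_comp σ.symm _) (Equiv.sum_comp σ.symm fun i => (W F *ᵥ x) i ^ 2)
  let φ := (u.codRestrict _ m).codRestrict (specialIsometryGroup F (quadFormOdd 1 F)) fun σ => Units.ext (by
    change ((M σ).det • M σ).det = 1
    have := sq _ (d σ)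
    simp
    grind)
  refine ⟨(MulEquiv.ofBijective φ ((Nat.bijective_iff_injective_and_card _).2 ⟨(injective_iff_map_eq_one _).2
    fun σ h => Equiv.ext fun i => by_contra fun k => ?_, ?_⟩)).symm⟩
  · have : (M σ).det • (W F * ((V F).submatrix id σ * W F * V F)) = W F * V F := by
      rw [← Matrix.mul_smul, ← Matrix.smul_mul, show (M σ).det • ((V F).submatrix id σ * W F) = 1 from
        congrArg (·.1.1.1) h, Matrix.one_mul]
    have := congrFun₂ this i i
    rw [mv, show W F * (V F).submatrix id σ = (W F * V F).submatrix id σ from rfl, wv] at this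
    simp [d] at this
    exact k this.symm
  have a := orth_card_odd 1 (oddQ_nondeg h2 1) (by simp)
  have b := (specialIsometryGroup F (quadFormOdd 1 F)).card_mul_index
  rw [← Nat.card_congr (orthEquiv _).toEquiv, Nat.card_eq_fintype_card (α := F), hF] at a
  rw [specialIsometryGroup, Subgroup.index_ker, MonoidHom.range_eq_top.2 fun x => ⟨⟨.scalar _ x, fun v _ => by
      have := sq x x.ne_zero; simp [quadFormOdd]; grind⟩, ?_⟩,
    Subgroup.card_top, Nat.card_units, Nat.card_eq_fintype_card (α := F), hF] at b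
  · simp [Nat.card_perm, Nat.factorial] at a ⊢
    exact Nat.eq_of_mul_eq_mul_right two_pos (b.trans a).symm
  · exact Units.ext (by have := sq x x.ne_zero; simp; grind)

end Cfsg.Agent.S0823
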