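import Cfsg.Statements.S0828
import Cfsg.Agent.H5.TSub

set_option autoImplicit false
open Cfsg

namespace Cfsg.Agent.S0828

/-- The symplectic generalised quadrangle over a field with q elements: the number of 2-dimensional subspaces of F^4 on which the symplectic form vanishes is (q + 1)(q² + 1), and every non-zero vector lies in exactly q + 1 of them. -/
theorem result {F : Type*} [Field F] [Fintype F] {q : ℕ} (hF : Fintype.card F = q) : Nat.card {W : Submodule F (Fin 2 ⊕ Fin 2 → F) // Module.finrank F W = 2 ∧ ∀ u ∈ W, ∀ v ∈ W, Cfsg.sympForm 2 F u v = 0} = (q + 1) * (q ^ 2 + 1) ∧ ∀ v : Fin 2 ⊕ Fin 2 → F, v ≠ 0 → Nat.card {W : Submodule F (Fin 2 ⊕ Fin 2 → F) // Module.finrank F W = 2 ∧ v ∈ W ∧ ∀ u ∈ W, ∀ w ∈ W, Cfsg.sympForm 2 F u w = 0} = q + 1 := by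
  have hf := CfsgH5.spForm_nondeg (F := F) 2
  have h3 : 2 ≤ q := hF ▸ Fintype.one_lt_card
  have h4 : ∀ i, 1 ≤ q ^ i := fun i => Nat.one_le_pow _ _ (by omega)
  have h5 : q ≤ q ^ 2 := Nat.le_self_pow (by omega) _
  have h6 : (q : ℤ) ^ 2 - 1 ≠ 0 := by nlinarith
  have h8 : (q : ℤ) - 1 ≠ 0 := by omega
  have hq : Nat.card F = q := by rw [Nat.card_eq_fintype_card, hF]
  have key : Nat.card {W : Submodule F (Fin 2 ⊕ Fin 2 → F) // Module.finrank F W = 2 ∧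
      ∀ u ∈ W, ∀ v ∈ W, Cfsg.sympForm 2 F u v = 0} = (q + 1) * (q ^ 2 + 1) := by
    obtain ⟨K, hK, h2⟩ := CfsgH5.CForm.symp_exists_TS hf (k := 2) (by simp)
    have h1 := CfsgH5.CForm.card_Isom_eq_TS_mul hf hK
    obtain ⟨U, -, u1, u2, u3⟩ := CfsgH5.CForm.card_stab_TS_eq hf hK h2 (d := 0) (by simp)
    rw [u3, CfsgH5.CForm.symp_card_Isom 2 hf (by simp), CfsgH5.CForm.symp_card_Isom 0 u1 u2, h2,
      CfsgH5.CForm.symp_τ, hq] at h1
    simp only [CfsgH5.CForm.TS_symp, Finset.prod_range_succ, Fin.prod_univ_two] at h1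
    norm_num at h1
    change Nat.card {W : Submodule F (Fin 2 ⊕ Fin 2 → F) | Module.finrank F W = 2 ∧
      ∀ u ∈ W, ∀ v ∈ W, (CfsgH5.spForm F 2).B u v = 0} = _
    rw [Nat.card_coe_set_eq]
    zify [h4, h5] at h1 ⊢
    apply mul_right_cancel₀ (b := (q : ℤ) ^ 4 * (q ^ 2 - 1) * (q - 1)) (by positivity)
    linear_combination -h1
  refine ⟨key, fun v hv => ?_⟩
  let T := fun v : Fin 2 ⊕ Fin 2 → F => {W : Submodule F (Fin 2 ⊕ Fin 2 → F) //
    Module.finrank F W = 2 ∧ v ∈ W ∧ ∀ u ∈ W, ∀ w ∈ W, Cfsg.sympForm 2 F u w = 0}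
  have hT : ∀ w : {w : Fin 2 ⊕ Fin 2 → F // w ≠ 0}, Nat.card (T w) = Nat.card (T v) := fun w => by
    obtain ⟨g, hg, e⟩ := CfsgH5.CForm.witt_one hf w.2 hv (by simp)
    refine Nat.card_congr ((Submodule.orderIsoMapComap g).toEquiv.subtypeEquiv fun W => ?_)
    change _ ↔ Module.finrank F (W.map g.toLinearMap) = 2 ∧ v ∈ W.map g.toLinearMap ∧
      ∀ u ∈ W.map g.toLinearMap, ∀ w ∈ W.map g.toLinearMap, _
    rw [LinearEquiv.finrank_map_eq, ← e]
    have := (CfsgH5.spForm F 2).Isom_B hg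
    simp only [CfsgH5.spForm_B] at this
    simp [this, Submodule.mem_map, -Submodule.mem_map_equiv]
  have e : (Σ w : {w : Fin 2 ⊕ Fin 2 → F // w ≠ 0}, T w) ≃
      Σ W : {W : Submodule F (Fin 2 ⊕ Fin 2 → F) // Module.finrank F W = 2 ∧
      ∀ u ∈ W, ∀ v ∈ W, Cfsg.sympForm 2 F u v = 0}, {w : W.1 // w ≠ 0} :=
    ⟨fun p => ⟨⟨p.2.1, p.2.2.1, p.2.2.2.2⟩, ⟨⟨p.1.1, p.2.2.2.1⟩,
      fun h => p.1.2 (congrArg Subtype.val h)⟩⟩,
      fun p => ⟨⟨p.2.1.1, fun h => p.2.2 (Subtype.ext h)⟩, ⟨p.1.1, p.1.2.1, p.2.1.2, p.1.2.2⟩⟩,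
      fun _ => rfl, fun _ => rfl⟩
  have h1 := Nat.card_congr e
  have hne : ∀ (V : Type _) [AddCommGroup V] [Module F V] [FiniteDimensional F V] (d : ℕ),
      Module.finrank F V = d → Nat.card {w : V // w ≠ 0} = q ^ d - 1 := by
    intro V _ _ _ d hd
    classical
    have : Finite V := Module.finite_of_finite F
    rw [← hq, ← hd, ← CfsgH5.card_submodule, ← Nat.card_congr (Equiv.optionSubtypeNe (0 : V)),
      Finite.card_option, Nat.add_sub_cancel]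
  rw [CfsgH5.natCard_sigma_const hT (fun _ => inferInstance),
    CfsgH5.natCard_sigma_const (fun W => hne _ 2 W.2.1) (fun _ => inferInstance), key,
    hne _ 4 (by simp)] at h1
  change Nat.card (T v) = _
  zify [h4] at h1 ⊢
  apply mul_left_cancel₀ (a := ((q : ℤ) ^ 2 - 1) * (q ^ 2 + 1)) (by positivity)
  linear_combination h1

end Cfsg.Agent.S0828
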