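import Cfsg.Statements.S0829
import Cfsg.Agent.H5.TSub

set_option autoImplicit false
open Cfsg

namespace Cfsg.Agent.S0829

/-- The unitary quadrangle of PSU_4(q): with |F| = q², the number of 2-dimensional subspaces of F^4 on which the Hermitian form Σ x_i y_i^q vanishes is (q + 1)(q³ + 1). -/
theorem result {F : Type*} [Field F] [Fintype F] {q : ℕ} (hF : Fintype.card F = q ^ 2) : Nat.card {W : Submodule F (Fin 4 → F) // Module.finrank F W = 2 ∧ ∀ u ∈ W, ∀ v ∈ W, Cfsg.hermForm 4 F q u v = 0} = (q + 1) * (q ^ 3 + 1) := by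
  have H := CfsgH5.frobq_UF hF
  have hf := CfsgH5.hermC_nondeg H 4
  obtain ⟨K, hK, h2⟩ := CfsgH5.CForm.unit_exists_TS H hf (k := 2) (by simp)
  have h1 := CfsgH5.CForm.card_Isom_eq_TS_mul hf hK
  rw [CfsgH5.CForm.unit_card_stab_TS H hf hK h2 (d := 0) (by simp),
    CfsgH5.CForm.unit_card_Isom H 4 hf (by simp), h2] at h1
  simp only [CfsgH5.CForm.TS_unit] at h1
  have h3 := H.two_le
  have h4 : ∀ i, 1 ≤ q ^ i := fun i => Nat.one_le_pow _ _ (by omega)
  have h5 : q ^ 2 ≤ (q ^ 2) ^ 2 := Nat.le_self_pow (by omega) _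
  have h6 : (q : ℤ) ^ 2 - 1 ≠ 0 := by nlinarith
  have h7 : (q : ℤ) ^ 4 - 1 ≠ 0 := by
    have : (q : ℤ) ^ 4 - 1 = (q ^ 2 - 1) * (q ^ 2 + 1) := by ring
    rw [this]; exact mul_ne_zero h6 (by positivity)
  simp only [CfsgH5.uOrd, Finset.prod_range_succ, Fin.prod_univ_two, ← pow_mul] at h1
  norm_num [Nat.even_add_one] at h1
  rw [← pow_mul] at h5
  change Nat.card {W : Submodule F (Fin 4 → F) | Module.finrank F W = 2 ∧
    ∀ u ∈ W, ∀ v ∈ W, (CfsgH5.hermC H 4).B u v = 0} = _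
  rw [Nat.card_coe_set_eq]
  zify [h4, h5] at h1 ⊢
  apply mul_right_cancel₀ (b := (q : ℤ) ^ 6 * (q ^ 2 - 1) * (q ^ 4 - 1)) (by positivity)
  linear_combination -h1

end Cfsg.Agent.S0829
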