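import Cfsg.Statements.S0831
import Cfsg.Agent.H5.Orth7

set_option autoImplicit false
open Cfsg

namespace Cfsg.Agent.S0831

/-- The two families of maximal totally singular subspaces of the hyperbolic quadric: for the form Σ x_i y_i on F^(2m), m ≥ 1, and m-dimensional subspaces U, W, X on which it vanishes, the parities of m − dim(U ∩ W), m − dim(W ∩ X) and m − dim(U ∩ X) sum to an even number (so 'even codimension of the intersection' is an equivalence relation), and there exist two such subspaces meeting in codimension 1 (so there are exactly two classes). -/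
theorem result {F : Type*} [Field F] (m : ℕ) (hm : 1 ≤ m) : (∀ U W X : Submodule F (Fin m ⊕ Fin m → F), (Module.finrank F U = m ∧ ∀ w ∈ U, Cfsg.quadFormPlus m F w = 0) → (Module.finrank F W = m ∧ ∀ w ∈ W, Cfsg.quadFormPlus m F w = 0) → (Module.finrank F X = m ∧ ∀ w ∈ X, Cfsg.quadFormPlus m F w = 0) → Even ((m - Module.finrank F ↥(U ⊓ W)) + (m - Module.finrank F ↥(W ⊓ X)) + (m - Module.finrank F ↥(U ⊓ X)))) ∧ ∃ U W : Submodule F (Fin m ⊕ Fin m → F), (Module.finrank F U = m ∧ ∀ w ∈ U, Cfsg.quadFormPlus m F w = 0) ∧ (Module.finrank F W = m ∧ ∀ w ∈ W, Cfsg.quadFormPlus m F w = 0) ∧ Module.finrank F ↥(U ⊓ W) + 1 = m := by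
  have hf := CfsgH5.plusQ_nondeg F m
  have hd : 2 * m = Module.finrank F (Fin m ⊕ Fin m → F) := by simp [two_mul]
  refine ⟨fun U W X hU hW hX => ?_, ?_⟩
  · have a := Submodule.finrank_mono (inf_le_left : W ⊓ X ≤ W)
    have b := Submodule.finrank_mono (inf_le_left : U ⊓ X ≤ U)
    have c := Submodule.finrank_mono (inf_le_left : U ⊓ W ≤ U)
    have := CfsgH5.CForm.TS.parity hf hd (CfsgH5.CForm.TS_orth.2 hU.2) (CfsgH5.CForm.TS_orth.2 hW.2)
      hU.1 hW.1 (m - Module.finrank F ↥(W ⊓ X)) X (CfsgH5.CForm.TS_orth.2 hX.2) hX.1 (by omega)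
    rw [Nat.even_iff]; omega
  · obtain ⟨W, h1, h2⟩ := CfsgH5.plusQ_isPlus (F := F) m
    obtain ⟨v, hv⟩ := exists_linearIndependent_of_le_finrank (R := F) (M := W) (n := m - 1) (by omega)
    have hT1 : (CfsgH5.CForm.ofQuad (CfsgH5.plusQ F m)).TS
        ((Submodule.span F (Set.range v)).map W.subtype) := h1.mono (Submodule.map_subtype_le _ _)
    have hT2 := (Submodule.finrank_map_subtype_eq W _).trans
      ((finrank_span_eq_card hv).trans (Fintype.card_fin _))
    generalize (Submodule.span F (Set.range v)).map W.subtype = T at hT1 hT2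
    obtain ⟨x, y, h, hx, hy⟩ := hT1.exists_hyp_of_succ hf (CfsgH5.plusQ_isPlus m) (by omega)
    have x0 : x ∉ T := fun e => by simpa [h.hxy] using hy x e
    have y0 : y ∉ T := fun e => by simpa [h.hyx] using hx y e
    have a := Submodule.finrank_sup_span_singleton x0
    have b := Submodule.finrank_sup_span_singleton y0
    refine ⟨T ⊔ F ∙ x, T ⊔ F ∙ y, ⟨by omega, (hT1.sup_span h.hx hx).1⟩,
      ⟨by omega, (hT1.sup_span h.hy hy).1⟩, ?_⟩
    have := (hT1.sup_span h.hx hx).adjacent hf hT1 h hx hy (by omega) (by omega)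
    rw [inf_idem, inf_eq_right.2 (le_sup_left : T ≤ _)] at this
    omega

end Cfsg.Agent.S0831
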