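import Cfsg.Statements.S0832
import Cfsg.Agent.H5.Orth7

set_option autoImplicit false
open Cfsg

namespace Cfsg.Agent.S0832

/-- For the form Σ x_i y_i on F^(2m) over a finite field, m ≥ 1: an (m−1)-dimensional subspace on which the form vanishes is contained in exactly two m-dimensional subspaces on which it vanishes. -/
theorem result {F : Type*} [Field F] [Finite F] (m : ℕ) (hm : 1 ≤ m) (U : Submodule F (Fin m ⊕ Fin m → F)) (hU : Module.finrank F U + 1 = m ∧ ∀ u ∈ U, Cfsg.quadFormPlus m F u = 0) : Nat.card {W : Submodule F (Fin m ⊕ Fin m → F) // Module.finrank F W = m ∧ (∀ w ∈ W, Cfsg.quadFormPlus m F w = 0) ∧ U ≤ W} = 2 := by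
  have hf := CfsgH5.plusQ_nondeg F m
  have hd : 2 * m = Module.finrank F (Fin m ⊕ Fin m → F) := by simp [two_mul]
  have hT : (CfsgH5.CForm.ofQuad (CfsgH5.plusQ F m)).TS U := CfsgH5.CForm.TS_orth.2 hU.2
  obtain ⟨x, y, h, hx, hy⟩ := hT.exists_hyp_of_succ hf (CfsgH5.plusQ_isPlus m) (by omega)
  have x0 : x ∉ U := fun e => by simpa [h.hxy] using hy x e
  have y0 : y ∉ U := fun e => by simpa [h.hyx] using hx y e
  have a := Submodule.finrank_sup_span_singleton x0
  have b := Submodule.finrank_sup_span_singleton y0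
  rw [Nat.card_eq_two_iff]
  refine ⟨⟨U ⊔ F ∙ x, by omega, (hT.sup_span h.hx hx).1, le_sup_left⟩,
    ⟨U ⊔ F ∙ y, by omega, (hT.sup_span h.hy hy).1, le_sup_left⟩, fun e => ?_, ?_⟩
  · have e' : U ⊔ F ∙ x = U ⊔ F ∙ y := congrArg Subtype.val e
    have := (hT.sup_span h.hx hx).2 x (Submodule.mem_sup_right (Submodule.mem_span_singleton_self x))
      y (e' ▸ Submodule.mem_sup_right (Submodule.mem_span_singleton_self y))
    simp [h.hxy] at this
  · rw [Set.eq_univ_iff_forall]
    rintro ⟨W, h1, h2, h3⟩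
    have hW : (CfsgH5.CForm.ofQuad (CfsgH5.plusQ F m)).TS W := CfsgH5.CForm.TS_orth.2 h2
    obtain ⟨w, hw, hw'⟩ : ∃ w ∈ W, w ∉ U := by
      by_contra hc; push Not at hc
      have := Submodule.finrank_mono (show W ≤ U from hc); omega
    have c := Submodule.finrank_sup_span_singleton hw'
    have e : U ⊔ F ∙ w = W := Submodule.eq_of_le_of_finrank_eq (sup_le h3
      ((Submodule.span_singleton_le_iff_mem _ _).2 hw)) (by omega)
    rcases hT.mem_or_mem hf h hx hy (by omega) ((CfsgH5.CForm.mem_perp _).2 fun u hu =>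
      hW.2 w hw u (h3 hu)) (h2 w hw) with d | d
    · exact .inl (Subtype.ext (Submodule.eq_of_le_of_finrank_eq (e ▸ sup_le le_sup_left
        ((Submodule.span_singleton_le_iff_mem _ _).2 d)) (h1.trans (by simp only; omega))))
    · exact .inr (Subtype.ext (Submodule.eq_of_le_of_finrank_eq (e ▸ sup_le le_sup_left
        ((Submodule.span_singleton_le_iff_mem _ _).2 d)) (h1.trans (by simp only; omega))))

end Cfsg.Agent.S0832
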