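import Cfsg.Statements.S0835
import Cfsg.Agent.H5.Orth7

set_option autoImplicit false
open Cfsg

namespace Cfsg.Agent.S0835

/-- Over a finite field with 2 ≠ 0: if B₁ on U (dim 2k, k ≥ 1) is non-degenerate symmetric of minus type (no totally isotropic k-subspace) and B₂ on W (dim 2l + 1) is non-degenerate symmetric, then B₁ ⊗ B₂ (dimension 2k(2l+1)) admits no totally isotropic subspace of dimension k(2l+1) (minus type). -/
theorem result {F U W : Type*} [Field F] [Fintype F] [AddCommGroup U] [Module F U] [FiniteDimensional F U] [AddCommGroup W] [Module F W] [FiniteDimensional F W] (h2 : (2 : F) ≠ 0) (B₁ : LinearMap.BilinForm F U) (B₂ : LinearMap.BilinForm F W) (h₁ : B₁.Nondegenerate) (h₂ : B₂.Nondegenerate) (hS₁ : B₁.IsSymm) (hS₂ : B₂.IsSymm) (k l : ℕ) (hk : 1 ≤ k) (hU : Module.finrank F U = 2 * k) (hW : Module.finrank F W = 2 * l + 1) (hm₁ : ¬ (∃ X : Submodule F (U), Module.finrank F X = k ∧ ∀ x ∈ X,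 ∀ y ∈ X, (B₁) x y = 0)) : ¬ (∃ X : Submodule F (TensorProduct F U W), Module.finrank F X = k * (2 * l + 1) ∧ ∀ x ∈ X, ∀ y ∈ X, (B₁.tmul B₂) x y = 0) := by
  classical
  obtain ⟨b, b1, b2⟩ := CfsgH5.CForm.exists_orth_basis h2 hS₁ h₁
  obtain ⟨c, c1, c2⟩ := CfsgH5.CForm.exists_orth_basis h2 hS₂ h₂
  have hS : LinearMap.BilinForm.IsSymm (B₁.tmul B₂) := LinearMap.BilinForm.isSymm_iff.2
    ((LinearMap.BilinForm.isSymm_iff.1 hS₁).tmul (LinearMap.BilinForm.isSymm_iff.1 hS₂))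
  have hf := CfsgH5.CForm.ofSymm_nondeg h2 hS (CfsgH5.tmul_nondegenerate h₁ h₂)
  have hd : Module.finrank F (TensorProduct F U W) = 2 * (k * (2 * l + 1)) := by
    rw [Module.finrank_tensorProduct, hU, hW]; ring
  have := CfsgH5.CForm.quadraticChar_disc hf h2 (b.tensorProduct c) (fun ⟨i, j⟩ ⟨i', j'⟩ h => by
    by_cases e : i = i'
    · simp [CfsgH5.CForm.ofSymm_B hS, c1 j j' fun e' => h (by rw [e, e'])]
    · simp [CfsgH5.CForm.ofSymm_B hS, b1 i i' e]) (fun ⟨i, j⟩ => by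
    simp [CfsgH5.CForm.ofSymm_Q, b2, c2]) hd
  have h3 := CfsgH5.CForm.quadraticChar_disc (CfsgH5.CForm.ofSymm_nondeg h2 hS₁ h₁) h2 b
    (fun i j h => by simp [CfsgH5.CForm.ofSymm_B hS₁, b1 i j h]) b2 hU
  rw [CfsgH5.CForm.sgn_of_not fun ⟨X, a1, a2⟩ => hm₁ ⟨X, by omega,
    (CfsgH5.CForm.ofSymm_TS h2 hS₁).1 a1⟩] at h3
  simp only [CfsgH5.CForm.ofSymm_Q, Fintype.prod_prod_type, Module.Basis.tensorProduct_apply,
    LinearMap.BilinForm.tensorDistrib_tmul, smul_eq_mul, Finset.prod_mul_distrib, Finset.prod_const,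
    Finset.prod_pow, Finset.card_univ, Fintype.card_fin] at this h3
  have p1 := Finset.prod_ne_zero_iff.2 fun i (_ : i ∈ Finset.univ) => b2 i
  have p2 := Finset.prod_ne_zero_iff.2 fun i (_ : i ∈ Finset.univ) => c2 i
  generalize ∏ x, B₁ (b x) (b x) = P₁ at *
  generalize ∏ x, B₂ (c x) (c x) = P₂ at *
  rw [map_mul, map_pow, map_pow, hU, hW, pow_mul,
    quadraticChar_sq_one p2, h3, mul_pow, ← pow_mul,
    Odd.neg_one_pow ⟨l, rfl⟩, one_pow, one_mul, mul_left_inj' (pow_ne_zero _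
      (mt quadraticChar_eq_zero_iff.1 (neg_ne_zero.2 one_ne_zero)))] at this
  rintro ⟨X, a1, a2⟩
  rw [CfsgH5.CForm.IsPlus.sgn ⟨X, (CfsgH5.CForm.ofSymm_TS h2 hS).2 a2, by omega⟩] at this
  exact absurd this (by decide)

end Cfsg.Agent.S0835
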