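import Cfsg.Statements.S0836
import Cfsg.Agent.H5.SLBasic

set_option autoImplicit false
open Cfsg
open scoped commutatorElement

namespace Cfsg.Agent.S0836

/-- For i ≠ j and any scalar c, the elementary transvection 1 + c E_ij is a commutator ⁅g, h⁆ of two elements of SL_n(F) provided n ≥ 3, or n = 2 and F contains x ≠ 0 with x² ≠ 1. -/
theorem result {F : Type*} [Field F] (n : ℕ) (hn : 3 ≤ n ∨ (n = 2 ∧ ∃ x : F, x ≠ 0 ∧ x ^ 2 ≠ 1)) (i j : Fin n) (hij : i ≠ j) (c : F) (t : Matrix.SpecialLinearGroup (Fin n) F) (ht : (t : Matrix (Fin n) (Fin n) F) = Matrix.transvection i j c) : t ∈ commutatorSet (Matrix.SpecialLinearGroup (Fin n) F) := by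
  have e : t = Matrix.SpecialLinearGroup.transvection hij c := Subtype.ext ht
  subst e
  rcases hn with hn | ⟨rfl, x, hx0, hx1⟩
  · exact CfsgH5.transvection_mem_commutatorSet (by simpa using hn) hij c
  · have hx : x ^ 2 - 1 ≠ 0 := sub_ne_zero.2 hx1
    fin_cases i <;> fin_cases j
    · exact absurd rfl hij
    · exact ⟨_, _, Matrix.commutator_diag2_transvection x hx0 (c / (x ^ 2 - 1)) c
        (div_mul_cancel₀ c hx).symm⟩
    · refine ⟨Matrix.SpecialLinearGroup.diag2 x⁻¹ (inv_ne_zero hx0),
        Matrix.SpecialLinearGroup.transvection one_ne_zero (c / (x ^ 2 - 1)), ?_⟩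
      rw [commutatorElement_def, Matrix.SpecialLinearGroup.diag2_inv x⁻¹ (inv_ne_zero hx0),
        Matrix.SpecialLinearGroup.transvection_inv one_ne_zero]
      refine Subtype.ext <| Matrix.ext fun i j ↦ ?_
      fin_cases i <;> fin_cases j <;>
      simp [Matrix.SpecialLinearGroup.transvection_coe, Matrix.SpecialLinearGroup.diag2_coe,
        inv_inv, mul_add, add_mul, mul_inv_cancel₀ hx0, inv_mul_cancel₀ hx0]
      field_simp
      ring
    · exact absurd rfl hij

end Cfsg.Agent.S0836
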