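import Cfsg.Statements.S0839
import Mathlib
import Cfsg.Agent.H9.SLT

set_option autoImplicit false
open Cfsg

namespace Cfsg.Agent.S0839

/-- Every transvection t ∈ SL_(n+2)(F) (rank(t − 1) = 1, (t − 1)² = 0) is conjugate in SL_(n+2)(F) to 1 + v·e_0ᵀ for some column vector v with v_0 = 0 (the group A of matrices that are the identity except in the first column below the diagonal); the dimension is written n + 2 ≥ 2. -/
theorem result {F : Type*} [Field F] (n : ℕ) (t : Matrix.SpecialLinearGroup (Fin (n + 2)) F) (ht : Cfsg.IsTransvection (t : Matrix (Fin (n + 2)) (Fin (n + 2)) F)) : ∃ (g : Matrix.SpecialLinearGroup (Fin (n + 2)) F) (v : Fin (n + 2) → F), v 0 = 0 ∧ ((g⁻¹ * t * g : Matrix.SpecialLinearGroup (Fin (n + 2)) F) : Matrix (Fin (n + 2)) (Fin (n + 2)) F) = 1 + Matrix.vecMulVec v (Pi.single 0 1) := by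
  open Subgroup CfsgH9 in
  open Matrix in
  obtain ⟨h1, h2⟩ := ht
  set N := (t : Matrix (Fin (n + 2)) (Fin (n + 2)) F) - 1 with hN
  obtain ⟨⟨u, hu⟩, u0, h3⟩ := finrank_eq_one_iff'.1 h1
  choose c hc using fun j => h3 ⟨N *ᵥ Pi.single j 1, ⟨_, rfl⟩⟩
  have e : N = vecMulVec u c := Matrix.ext fun i j => by
    have := congrFun (congrArg Subtype.val (hc j)) i
    simp only [SetLike.val_smul, Pi.smul_apply, smul_eq_mul, mulVec_single_one] at this
    rw [vecMulVec_apply, mul_comm, this]; rfl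
  have u1 : u ≠ 0 := fun f => u0 (Subtype.ext f)
  have c0 : c ≠ 0 := fun f => by
    rw [f] at e
    rw [e] at h1
    simp at h1
  have cu : c ⬝ᵥ u = 0 := by
    rw [e, vecMulVec_mul_vecMulVec] at h2
    obtain ⟨i, hi⟩ := Function.ne_iff.1 u1
    obtain ⟨j, hj⟩ := Function.ne_iff.1 c0
    have := congrFun (congrFun h2 i) j
    simp only [vecMulVec_apply, Pi.smul_apply, smul_eq_mul, Matrix.zero_apply, mul_eq_zero] at this
    exact (this.resolve_left hi).resolve_right hj
  have s0 : (Pi.single 0 1 : Fin (n + 2) → F) ≠ 0 := by simp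
  obtain ⟨g, hg⟩ := sl_trans (by omega) (Submodule.span F {c}) (Submodule.span F {Pi.single 0 1})
    (by rw [finrank_span_singleton c0, finrank_span_singleton s0])
  obtain ⟨a, ha⟩ := Submodule.mem_span_singleton.1
    (hg.le (Submodule.mem_map_of_mem (Submodule.mem_span_singleton_self c)))
  rw [toLin'_apply] at ha
  have k : c ᵥ* g.transpose.1 = a • Pi.single 0 1 := by
    rw [ha]; exact vecMul_transpose _ _
  have i1 : g.transpose.1 * (g.transpose⁻¹).1 = 1 :=
    congrArg Subtype.val (mul_inv_cancel g.transpose)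
  have i2 : (g.transpose⁻¹).1 * g.transpose.1 = 1 :=
    congrArg Subtype.val (inv_mul_cancel g.transpose)
  refine ⟨g.transpose, a • ((g.transpose⁻¹).1 *ᵥ u), ?_, ?_⟩
  · rw [← cu, ← one_mulVec u, ← i1, ← mulVec_mulVec, dotProduct_mulVec, k, mulVec_mulVec, i2]
    simp
  · change (g.transpose⁻¹).1 * t.1 * g.transpose.1 = _
    rw [show t.1 = 1 + N by rw [hN]; abel, mul_add, add_mul, mul_one, i2, e, mul_vecMulVec,
      vecMulVec_mul, k, vecMulVec_smul, smul_vecMulVec]

end Cfsg.Agent.S0839
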