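import Cfsg.Statements.S0841
import Cfsg.Agent.H3.Basic

set_option autoImplicit false
open Cfsg

namespace Cfsg.Agent.S0841
open CfsgH3

/-- If the commutator subgroup of G lies in the centre, then for all x, y in G and every natural number n one has (x * y) ^ n = x ^ n * y ^ n * c ^ (n * (n - 1) / 2) with c = y⁻¹ * x⁻¹ * y * x. -/
theorem result {G : Type*} [Group G] (hG : commutator G ≤ Subgroup.center G) (x y : G) (n : ℕ) : (x * y) ^ n = x ^ n * y ^ n * (y⁻¹ * x⁻¹ * y * x) ^ (n * (n - 1) / 2) := by
  set c := y⁻¹ * x⁻¹ * y * x with hc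
  have hcz : c ∈ Subgroup.center G := hG (by
    have := Subgroup.commutator_mem_commutator (Subgroup.mem_top y⁻¹) (Subgroup.mem_top x⁻¹)
    simpa [commutatorElement_def, commutator_def, hc] using this)
  have hcomm : ∀ g : G, Commute g c := fun g => Subgroup.mem_center_iff.1 hcz g
  have h1 : y * x = x * y * c := by rw [hc]; group
  have h2 : ∀ k : ℕ, y ^ k * x = x * y ^ k * c ^ k := by
    intro k
    induction k with
    | zero => simp
    | succ k ih =>
      calc y ^ (k + 1) * x = y * (y ^ k * x) := by rw [pow_succ', mul_assoc]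
        _ = (y * x) * y ^ k * c ^ k := by rw [ih]; simp only [mul_assoc]
        _ = x * y * (c * y ^ k) * c ^ k := by rw [h1]; simp only [mul_assoc]
        _ = x * y * (y ^ k * c) * c ^ k := by rw [(hcomm (y ^ k)).eq]
        _ = _ := by simp only [pow_succ', mul_assoc]
  induction n with
  | zero => simp
  | succ n ih =>
    have e : (n + 1) * (n + 1 - 1) / 2 = n * (n - 1) / 2 + n := by
      have := Nat.triangle_succ n
      simpa using this
    rw [pow_succ, ih, e]
    calc x ^ n * y ^ n * c ^ (n * (n - 1) / 2) * (x * y)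
        = x ^ n * y ^ n * (x * y) * c ^ (n * (n - 1) / 2) := by
          rw [mul_assoc, ← ((hcomm (x * y)).pow_right _).eq, ← mul_assoc]
      _ = x ^ n * (y ^ n * x) * y * c ^ (n * (n - 1) / 2) := by simp only [mul_assoc]
      _ = x ^ n * x * y ^ n * (c ^ n * y) * c ^ (n * (n - 1) / 2) := by
          rw [h2]; simp only [mul_assoc]
      _ = x ^ n * x * y ^ n * (y * c ^ n) * c ^ (n * (n - 1) / 2) := by
          rw [((hcomm y).pow_right n).eq]
      _ = _ := by
          rw [add_comm _ n, pow_add c]
          simp only [pow_succ, mul_assoc]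


end Cfsg.Agent.S0841
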