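import Cfsg.Statements.S0842
import Cfsg.Agent.H3.Hv2

set_option autoImplicit false
open Cfsg

namespace Cfsg.Agent.S0842
open Subgroup CfsgH2 CfsgHv MulAction
open CfsgH4 (GQ mul_inv_mem_of_relIndex_two mem_cent_of_odd_cyclic gq_of_equiv npc_of_cyclic)
open scoped commutatorElement

/-- Suppose a Sylow 2-subgroup S of the finite group G is generalized quaternion of order at least 16, and let D be the commutator subgroup of S, C its centralizer and N its normalizer in G. Then there is a subgroup K of odd order, contained in C and normalized by N, with K ⊔ S = N and K ⊔ (S ⊓ C) = C, and C has index 2 in N. -/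
theorem result {G : Type*} [Group G] [Finite G] (S : Sylow 2 G) (n : ℕ) (e : (S : Subgroup G) ≃* QuaternionGroup (2 ^ (n + 2))) (D : Subgroup G) (hD : D = ⁅(S : Subgroup G), (S : Subgroup G)⁆) : ∃ K : Subgroup G, Odd (Nat.card K) ∧ K ≤ Subgroup.centralizer (D : Set G) ∧ Subgroup.normalizer (D : Set G) ≤ Subgroup.normalizer (K : Set G) ∧ K ⊔ (S : Subgroup G) = Subgroup.normalizer (D : Set G) ∧ K ⊔ ((S : Subgroup G) ⊓ Subgroup.centralizer (D : Set G)) = Subgroup.centralizer (D : Set G) ∧ ((Subgroup.centralizer (D : Set G)).subgroupOf (Subgroup.normalizer (D : Set G))).index = 2 := by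
  obtain ⟨a, b, h⟩ := gq_of_equiv (by omega) e
  have hm : 2 ≤ n + 2 := by omega
  have hS := syl_top S
  rw [(gq_mc h).commutator_eq] at hD
  subst hD
  have l : zpowers (a ^ 2) ≤ zpowers a := zpowers_le.2 (pow_mem (mem_zpowers a) 2)
  have s1 := h.syl_cent hS (l (mem_zpowers _)) (gq_sq_ne h hm)
  have n1 := (h.npc_cent hS (l (mem_zpowers _)) (gq_sq_ne h hm)).1
  have nS : (S : Subgroup G) ≤ N[zpowers (a ^ 2)] := (gq_mc h).commutator_eq ▸ le_norm_comm_left
  have e1 := n1.sup_eq s1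
  rw [cent_zpowers]
  refine ⟨O[{2}ᶜ, C1[a ^ 2]], Nat.not_even_iff_odd.1 fun h => not_dvd_piCoreOf h.two_dvd, piCoreOf_le,
    le_norm_piCoreOf' (cent_zpowers (a ^ 2) ▸ norm_le_norm_cent _), le_antisymm (sup_le ?_ nS) fun g hg => ?_,
    le_antisymm (sup_le piCoreOf_le inf_le_right) (e1.ge.trans (sup_le_sup_left (le_inf h.ale s1.le) _)), ?_⟩
  · exact piCoreOf_le.trans (cent_zpowers (a ^ 2) ▸ CfsgH2.cent_le_norm _)
  · have l2 : C1[a ^ 2] ≤ O[{2}ᶜ, C1[a ^ 2]] ⊔ (S : Subgroup G) := e1.ge.trans (sup_le_sup_left h.ale _)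
    rcases gq_norm h hm hS hg with h1 | h1
    · exact l2 h1
    · simpa using mul_mem (l2 h1) (mem_sup_right (inv_mem h.bmem))
  · refine index_eq_two_iff.2 ⟨⟨b, nS h.bmem⟩, fun g => ?_⟩
    rcases gq_norm h hm hS g.2 with h1 | h1
    · exact Or.inr ⟨h1, fun h2 => gq_b_nc h hm (by simpa using mul_mem (inv_mem h1) (mem_subgroupOf.1 h2))⟩
    · exact Or.inl ⟨h1, fun h2 => gq_b_nc h hm (by simpa using mul_mem (inv_mem (mem_subgroupOf.1 h2)) h1)⟩


end Cfsg.Agent.S0842
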