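import Cfsg.Statements.S0843
import Cfsg.Agent.H3.Hv2

set_option autoImplicit false
open Cfsg

namespace Cfsg.Agent.S0843
open Subgroup CfsgH2 CfsgHv MulAction
open CfsgH4 (GQ mul_inv_mem_of_relIndex_two mem_cent_of_odd_cyclic gq_of_equiv npc_of_cyclic)
open scoped commutatorElement

/-- Suppose a Sylow 2-subgroup S of the finite group G is generalized quaternion of order at least 16; let D be the commutator subgroup of S and X the set of elements of the centralizer of D whose order is divisible by the order of D. Then D is contained in the cyclic subgroup generated by any element of X; an element of G conjugating some element of X into the centralizer of D normalizes D; and the normalizer of D maps X to itself under conjugation. -/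
theorem result {G : Type*} [Group G] [Finite G] (S : Sylow 2 G) (n : ℕ) (e : (S : Subgroup G) ≃* QuaternionGroup (2 ^ (n + 2))) (D : Subgroup G) (hD : D = ⁅(S : Subgroup G), (S : Subgroup G)⁆) : (∀ y : G, y ∈ Subgroup.centralizer (D : Set G) → Nat.card D ∣ orderOf y → D ≤ Subgroup.zpowers y) ∧ (∀ g y : G, y ∈ Subgroup.centralizer (D : Set G) → Nat.card D ∣ orderOf y → g * y * g⁻¹ ∈ Subgroup.centralizer (D : Set G) → g ∈ Subgroup.normalizer (D : Set G)) ∧ (∀ g y : G, g ∈ Subgroup.normalizer (D : Set G) → y ∈ Subgroup.centralizer (D : Set G) → Nat.card D ∣ orderOf y → g * y * g⁻¹ ∈ Subgroup.centralizer (D : Set G) ∧ Nat.card D ∣ orderOf (g * y * g⁻¹)) := by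
  obtain ⟨a, b, h⟩ := gq_of_equiv (by omega) e
  have hm : 2 ≤ n + 2 := by omega
  have hS := syl_top S
  rw [(gq_mc h).commutator_eq] at hD
  subst hD
  rw [Nat.card_zpowers, (gq_mc h).ord_sq]
  refine ⟨fun y hy => gq_le_zpowers h hm hS (cent_zpowers (a ^ 2) ▸ hy), fun g y hy hd hg =>
    gq_ti h hm hS (cent_zpowers (a ^ 2) ▸ hy) hd (cent_zpowers (a ^ 2) ▸ hg), fun g y hg hy hd =>
    ⟨conj_mem_of_norm (norm_le_norm_cent _ hg) hy, by rwa [orderOf_conj']⟩⟩


end Cfsg.Agent.S0843
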