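import Cfsg.Statements.S0844
import Cfsg.Agent.H4.BS1

set_option autoImplicit false
open Cfsg

open Cfsg MonoidAlgebra CfsgL0 CfsgH1 CfsgH4
open CfsgH3 hiding cj cj_cj
open scoped ComplexConjugate

namespace Cfsg.Agent.S0844
theorem col {G : Type*} [Group G] [Fintype G] {P : Subgroup G} {a b : G} {m : ℕ} (h : GQ P a b m)
    (hS : CfsgH2.Syl 2 P ⊤) (hm : 2 ≤ m) :
    ∃ Θ, IsGeneralizedCharacter G Θ ∧ classInner Θ Θ = 3 ∧ classInner Θ (fun _ => 1) = -1 ∧
      ∀ g, ppart 2 g * ppart 2 g = 1 → Θ g = 0 := by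
  classical
  obtain ⟨M, hM⟩ := exists_pmod 2
  have hB := (isPBlock_principal (M := M) (G := G)).fB_mem
  let H := Subgroup.zpowers a
  have := Fintype.ofFinite H
  have hH : IsPGroup 2 H := h.pg.to_le h.ale
  let a' : H := ⟨a, Subgroup.mem_zpowers a⟩
  have ha' : ∀ x : H, x ∈ Subgroup.zpowers a' := fun ⟨x, k, hk⟩ => ⟨k, Subtype.ext hk⟩
  let i : ℂˣ := Units.mk0 Complex.I Complex.I_ne_zero
  have hi : i ^ 4 = 1 := Units.ext (by simp [i])
  let l : H →* ℂˣ := monoidHomOfForallMemZpowers ha' (g' := i) ((orderOf_dvd_of_pow_eq_one hi).trans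
    (by rw [Subgroup.orderOf_mk, h.ord]; exact pow_dvd_pow 2 (by omega : 2 ≤ m + 1)))
  have hl : (l a' : ℂ) = Complex.I := by simp [l, i]
  let θ : H → ℂ := (fun x => (l x : ℂ)) - fun _ => 1
  have hθ : IsGeneralizedCharacter H θ := (isIrr_of_unitsHom l).isGen.sub isGen_one
  have hsq : ∀ y : H, (y : G) * y = 1 → θ y = 0 := fun y hy => by
    rcases CfsgH2.eq_half_of_sq h.ord y.2 hy with h1 | h1
    · rw [show y = 1 from Subtype.ext h1]; simp [θ]
    · obtain ⟨k, rfl⟩ := Nat.exists_eq_add_of_le hm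
      rw [show y = a' ^ 2 ^ (2 + k) from Subtype.ext h1]
      simp [θ, hl, pow_add, pow_mul]
  let Θ := blockPart (principalBlock M G) (indFun H θ)
  have hΘ : IsGeneralizedCharacter G Θ := blockPart_isGen _ hθ.ind
  have hΘ0 : ∀ g, ppart 2 g * ppart 2 g = 1 → Θ g = 0 := fun g hg =>
    blockPart_indFun_eq_zero hB hH fun y hy => hsq y (by
      obtain ⟨x, hx⟩ := isConj_iff.1 hy
      rw [← hx] at hg
      simpa using hg)
  have hΘ1 : ∀ u : H, (u : G) * u ≠ 1 → Θ u = θ u + conj (θ u) := fun u hu => by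
    have h1 : colB (principalBlock M G) u u = Nat.card H := by
      rw [colB_principal_pelt (pelt_of_mem hH u.2), colB_principal_of_npc
        (CfsgH2.npc_iff.2 (h.npc_cent hS u.2 hu).1), (h.npc_cent hS u.2 hu).2, Nat.card_zpowers,
        h.ord]
    have h2 : colB (principalBlock M G) (u⁻¹ : H) u = Nat.card H := by
      rw [← conj_colB, Subgroup.coe_inv, ← h.inverts h.bmem h.nmem u.2, isClassFunction_colB, h1,
        map_natCast]
    have h3 : u ≠ u⁻¹ := fun e => hu (congrArg Subtype.val (mul_eq_one_iff_eq_inv.2 e))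
    simp only [Θ]
    rw [blockPart_indFun_apply, ← Finset.sum_subset (Finset.subset_univ {u, u⁻¹}),
      Finset.sum_pair h3, h1, h2, hθ.apply_inv, ← add_mul, mul_comm,
      mul_inv_cancel_right₀ (natCard_ne_zero H)]
    intro y _ hy
    rw [colB_eq_zero hB, mul_zero]
    rw [ppart_of_pelt (pelt_of_mem hH y.2), ppart_of_pelt (pelt_of_mem hH u.2)]
    intro hc
    obtain ⟨g, hg⟩ := isConj_iff.1 hc
    rcases h.fusion hS u.2 (hg ▸ y.2) with h4 | h4
    · exact hy (by simp [show y = u from Subtype.ext (hg.symm.trans h4)])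
    · exact hy (by simp [show y = u⁻¹ from Subtype.ext (hg.symm.trans h4)])
  have e1 : classInner (fun x : H => (l x : ℂ)) (fun _ => 1) = 0 :=
    (isIrr_of_unitsHom l).classInner_of_ne isIrr_one fun e => by
      have := congrFun e a'
      simp only [hl] at this
      simpa using congrArg Complex.im this
  have e2 : classInner (fun x : H => conj (l x : ℂ)) (fun _ => 1) = 0 :=
    (isIrr_of_unitsHom l).conj.classInner_of_ne isIrr_one fun e => by
      have := congrFun e a'
      simp only [hl] at this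
      simpa using congrArg Complex.re this
  have e3 : classInner (fun x : H => conj (l x : ℂ)) (fun x => (l x : ℂ)) = 0 :=
    (isIrr_of_unitsHom l).conj.classInner_of_ne (isIrr_of_unitsHom l) fun e => by
      have := congrFun e a'
      simp only [hl] at this
      have := congrArg Complex.im this
      norm_num at this
  have hn : classInner Θ Θ = 3 := by
    have h1 : classInner Θ Θ = classInner (θ + fun x => conj (θ x)) θ := by
      rw [← classInner_blockPart_left _ hΘ.isClassFunction (isClassFunction_indFun θ),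
        blockPart_blockPart, Set.inter_self,
        classInner_indFun_right _ (isClassFunction_blockPart _ _), classInner, classInner]
      congr 1
      refine Finset.sum_congr rfl fun u _ => ?_
      by_cases hu : (u : G) * u = 1
      · rw [hsq u hu, map_zero, mul_zero, mul_zero]
      · exact congrArg (· * _) (hΘ1 u hu)
    have h2 : (fun x => conj (θ x)) = (fun x : H => conj (l x : ℂ)) - fun _ => 1 := by
      funext x; simp [θ]
    rw [h1, h2]
    simp only [θ, classInner_add_left, classInner_sub_left, classInner_sub_right, e1, e2, e3,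
      classInner_eq_zero_comm.1 e1, (isIrr_of_unitsHom l).classInner_self,
      isIrr_one.classInner_self]
    norm_num
  refine ⟨Θ, hΘ, hn, ?_, hΘ0⟩
  refine (classInner_blockPart _ _ (irrOne G)).trans ?_
  rw [if_pos irrOne_mem_principal, classInner_indFun_left _ (irrOne G).2.isClassFunction]
  simp [θ, irrOne, classInner_sub_left, e1, isIrr_one.classInner_self]

/-- Suppose a Sylow 2-subgroup S of the finite group G is generalized quaternion of order at least 16. Then G has two non-principal irreducible characters χ₁ and χ₂ with χ₁ 1 = χ₂ 1 + 1 such that χ₁ g - χ₂ g = 1 for every element g whose order is not divisible by 4. -/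
theorem result {G : Type*} [Group G] [Fintype G] (S : Sylow 2 G) (n : ℕ) (e : (S : Subgroup G) ≃* QuaternionGroup (2 ^ (n + 2))) : ∃ χ₁ χ₂ : G → ℂ, Cfsg.IsIrrCharacter G χ₁ ∧ Cfsg.IsIrrCharacter G χ₂ ∧ χ₁ ≠ (fun _ => 1) ∧ χ₂ ≠ (fun _ => 1) ∧ χ₁ 1 = χ₂ 1 + 1 ∧ ∀ g : G, ¬ 4 ∣ orderOf g → χ₁ g - χ₂ g = 1 := by
  classical
  obtain ⟨a, b, h⟩ := gq_of_equiv (by omega) e
  obtain ⟨Θ, h1, h2, h3, h4⟩ := col h (CfsgH2.syl_top S) (by omega)
  have h5 : ∀ g, ¬ 4 ∣ orderOf g → (Θ + fun _ => 1 : G → ℂ) g = 1 := fun g hg => by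
    obtain ⟨k, hk⟩ := pelt_ppart 2 g
    have : k ≤ 1 := not_lt.1 fun l => hg (((pow_dvd_pow 2 l).trans hk.symm.dvd).trans (orderOf_dvd_of_mem_zpowers (ppart_mem_zpowers 2 g)))
    rw [Pi.add_apply, h4 g (by rw [← sq, ← orderOf_dvd_iff_pow_eq_one, hk]; exact pow_dvd_pow 2 this), zero_add]
  have h6 : classInner (Θ + fun _ => 1) (fun _ => 1) = 0 := by
    rw [classInner_add_left, h3, isIrr_one.classInner_self, neg_add_cancel]
  obtain ⟨s, ε, hs, hε, -, h7, e⟩ := (h1.add isGen_one).exists_signed_sum (m := 2) (by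
    rw [classInner_add_right, h6, classInner_add_left, h2, isGen_one.classInner_comm h1, h3]
    norm_num) (by norm_num)
  have h8 : ∀ x ∈ s, x.1 ≠ fun _ => 1 := fun x hx k => by
    have := h7 x
    rw [k, h6] at this
    rcases hε x hx with l | l <;> simp [l] at this
  obtain ⟨x, y, hxy, rfl⟩ := Finset.card_eq_two.1 hs
  rw [Finset.sum_pair hxy] at e
  obtain ⟨c, hc, hx⟩ := x.2.exists_pos_apply_one
  obtain ⟨d, hd, hy⟩ := y.2.exists_pos_apply_one
  have h9 : ¬ 4 ∣ orderOf (1 : G) := by simp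
  have e1 := congrFun e 1
  rw [h5 1 h9, Pi.add_apply, Pi.smul_apply, Pi.smul_apply, hx, hy, smul_eq_mul, smul_eq_mul] at e1
  have e2 : (1 : ℤ) = ε x * c + ε y * d := by exact_mod_cast e1
  rw [e] at h5
  rcases hε x (by simp) with k | k <;> rcases hε y (by simp) with l | l <;> rw [k, l] at h5 e2
  · omega
  · have : ∀ g, ¬ 4 ∣ orderOf g → x.1 g - y.1 g = 1 := fun g hg => by simpa [sub_eq_add_neg] using h5 g hg
    exact ⟨x, y, x.2, y.2, h8 x (by simp), h8 y (by simp), by linear_combination this 1 h9, this⟩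
  · have : ∀ g, ¬ 4 ∣ orderOf g → y.1 g - x.1 g = 1 := fun g hg => by simpa [sub_eq_add_neg, add_comm] using h5 g hg
    exact ⟨y, x, y.2, x.2, h8 y (by simp), h8 x (by simp), by linear_combination this 1 h9, this⟩
  · omega


end Cfsg.Agent.S0844
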