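import Cfsg.Statements.S0845
import Cfsg.Agent.H3.Hv2

set_option autoImplicit false
open Cfsg

namespace Cfsg.Agent.S0845
open Subgroup CfsgH2 CfsgHv MulAction
open CfsgH4 (GQ mul_inv_mem_of_relIndex_two mem_cent_of_odd_cyclic gq_of_equiv npc_of_cyclic)
open scoped commutatorElement

/-- Suppose a Sylow 2-subgroup S of the finite group G is generalized quaternion of order at least 16. Then G has a normal subgroup M of even order such that G / M is non-abelian, that is, M does not contain the commutator subgroup of G. -/
theorem result {G : Type*} [Group G] [Finite G] (S : Sylow 2 G) (n : ℕ) (e : (S : Subgroup G) ≃* QuaternionGroup (2 ^ (n + 2))) : ∃ M : Subgroup G, M.Normal ∧ Even (Nat.card M) ∧ ¬ commutator G ≤ M := by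
  obtain ⟨a, b, h⟩ := gq_of_equiv (by omega) e
  obtain ⟨M, h1, h2, h3, -⟩ := gq_bs h (syl_top S)
  refine ⟨M, h1, h2, fun hl => h3 ?_⟩
  have := card_dvd_of_le ((commutator_mono le_top le_top : ⁅(S : Subgroup G), (S : Subgroup G)⁆ ≤ _).trans hl)
  rw [(gq_mc h).card_commutator, pow_add] at this
  exact (Dvd.intro_left _ rfl).trans this


end Cfsg.Agent.S0845
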