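import Cfsg.Statements.S0846
import Cfsg.Agent.H3.Hv2

set_option autoImplicit false
open Cfsg

namespace Cfsg.Agent.S0846
open Subgroup CfsgH2 CfsgHv MulAction
open CfsgH4 (GQ mul_inv_mem_of_relIndex_two mem_cent_of_odd_cyclic gq_of_equiv npc_of_cyclic)
open scoped commutatorElement

/-- Suppose a Sylow 2-subgroup S of the finite group G is generalized quaternion of order at least 16. Then every Sylow 2-subgroup of the subgroup generated by the involutions of G is cyclic. -/
theorem result {G : Type*} [Group G] [Finite G] (S : Sylow 2 G) (n : ℕ) (e : (S : Subgroup G) ≃* QuaternionGroup (2 ^ (n + 2))) (Q : Sylow 2 ↥(Subgroup.closure {g : G | orderOf g = 2})) : IsCyclic Q := by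
  obtain ⟨a, b, h⟩ := gq_of_equiv (by omega) e
  obtain ⟨M, h1, h2, h3, h4⟩ := gq_bs h (syl_top S)
  have hd := (card_subgroup_dvd_card (Q : Subgroup (closure {g : G | orderOf g = 2}))).trans
    (card_dvd_of_le ((closure_le _).2 h4))
  obtain ⟨k, hk⟩ := Q.isPGroup'.exists_card_eq
  rcases k with _ | _ | k
  · rw [card_eq_one.1 hk]; infer_instance
  · exact isCyclic_of_card_prime Nat.prime_two hk
  · exact absurd ((Dvd.intro_left (2 ^ k) (by ring)).trans (hk ▸ hd)) h3


end Cfsg.Agent.S0846
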