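import Cfsg.Statements.S0849
import Cfsg.Agent.H3.Misc2

set_option autoImplicit false
open Cfsg

namespace Cfsg.Agent.S0849
open CfsgH3

/-- Let H be a subgroup of a finite group G and S a subset of H that is mapped to itself under conjugation by H, is disjoint from its conjugate by any element outside H, and is closed under inverses. Let φ be a class function of H vanishing on H away from S, and let u, v be involutions of G. Then the sum of the induced function of φ over all products a * b with a conjugate to u and b conjugate to v equals the index of H times the sum of φ (a * b) over such pairs with a and b in H. -/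
theorem result {G : Type*} [Group G] [Fintype G] (H : Subgroup G) (S : Set G) (hSH : S ⊆ H) (hHS : ∀ h ∈ H, ∀ s ∈ S, h * s * h⁻¹ ∈ S) (hTI : ∀ g : G, g ∉ H → ∀ s ∈ S, g * s * g⁻¹ ∉ S) (hinv : ∀ s ∈ S, s⁻¹ ∈ S) (φ : H → ℂ) (hφ : Cfsg.IsClassFunction H φ) (hφS : ∀ x : H, (x : G) ∉ S → φ x = 0) (u v : G) (hu : orderOf u = 2) (hv : orderOf v = 2) : ∑ᶠ p ∈ {p : G × G | IsConj u p.1 ∧ IsConj v p.2}, Cfsg.indFun H φ (p.1 * p.2) = (H.index : ℂ) * ∑ᶠ p ∈ {p : H × H | IsConj u (p.1 : G) ∧ IsConj v (p.2 : G)}, φ (p.1 * p.2) := by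
  classical
  rw [finsum_mem_eq_finite_toFinset_sum _ (Set.toFinite _),
    finsum_mem_eq_finite_toFinset_sum _ (Set.toFinite _)]
  simp only [Set.Finite.toFinset_setOf]
  have h1 : ∀ g : G, ∑ p : G × G with IsConj u p.1 ∧ IsConj v p.2,
      Cfsg.extendByZero H φ (g⁻¹ * (p.1 * p.2) * g) =
      ∑ p : G × G with IsConj u p.1 ∧ IsConj v p.2, Cfsg.extendByZero H φ (p.1 * p.2) := by
    intro g
    refine Finset.sum_equiv (Equiv.prodCongr (MulAut.conj g⁻¹).toEquiv (MulAut.conj g⁻¹).toEquiv)
      (fun p => ?_) fun p _ => ?_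
    · have e : ∀ a b : G, IsConj a b ↔ IsConj a (g⁻¹ * b * g) := fun a b =>
        ⟨fun h => h.trans (isConj_iff.2 ⟨g⁻¹, by simp⟩),
          fun h => h.trans (isConj_iff.2 ⟨g, by simp [mul_assoc]⟩)⟩
      simp only [Finset.mem_filter, Finset.mem_univ, true_and]
      exact and_congr (by simpa using e u p.1) (by simpa using e v p.2)
    · simp [mul_assoc]
  have h2 : ∑ p : G × G with IsConj u p.1 ∧ IsConj v p.2, Cfsg.extendByZero H φ (p.1 * p.2) =
      ∑ p : H × H with IsConj u (p.1 : G) ∧ IsConj v (p.2 : G), φ (p.1 * p.2) := by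
    symm
    refine Finset.sum_bij_ne_zero (fun p _ _ => ((p.1 : G), (p.2 : G))) (fun p hp _ => by simpa using hp)
      (fun a _ _ b _ _ h => Prod.ext (Subtype.ext (congrArg Prod.fst h)) (Subtype.ext (congrArg Prod.snd h)))
      ?_ fun p _ _ => ?_
    · rintro ⟨x, y⟩ hp hne
      simp only [Finset.mem_filter, Finset.mem_univ, true_and] at hp
      have hxy : x * y ∈ H := by
        by_contra h
        exact hne (extendByZero_of_not_mem _ h)
      rw [extendByZero_of_mem _ hxy] at hne
      have hS : x * y ∈ S := by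
        by_contra h
        exact hne (hφS _ h)
      have hx : x * x = 1 := by rw [← pow_two, ← hu, orderOf_eq_of_isConj hp.1, pow_orderOf_eq_one]
      have hy : y * y = 1 := by rw [← pow_two, ← hv, orderOf_eq_of_isConj hp.2, pow_orderOf_eq_one]
      have hxH : x ∈ H := by
        by_contra h
        refine hTI x h _ hS ?_
        have : x * (x * y) * x⁻¹ = (x * y)⁻¹ := by
          rw [← mul_assoc, hx, one_mul, mul_inv_rev, inv_eq_of_mul_eq_one_right hy]
        rw [this]
        exact hinv _ hS
      have hyH : y ∈ H := by simpa using H.mul_mem (H.inv_mem hxH) hxy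
      exact ⟨(⟨x, hxH⟩, ⟨y, hyH⟩), by simpa using hp, hne, rfl⟩
    · exact (extendByZero_coe φ (p.1 * p.2)).symm
  simp_rw [indFun_apply, ← Finset.mul_sum]
  rw [Finset.sum_comm]
  simp_rw [h1, h2]
  rw [Finset.sum_const, Finset.card_univ, nsmul_eq_mul, ← Nat.card_eq_fintype_card,
    ← H.index_mul_card]
  have := natCard_ne_zero H
  push_cast
  field_simp


end Cfsg.Agent.S0849
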