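import Cfsg.Statements.S0850
import Cfsg.Agent.H3.Misc2

set_option autoImplicit false
open Cfsg

namespace Cfsg.Agent.S0850
open CfsgH3

/-- Let K be a subgroup of the finite group G that meets each conjugate by an element outside its normalizer N trivially, is properly contained in N, and contains the centralizer of each of its non-identity elements (a T.I. subgroup with Frobenius normalizer). Then no element of N outside K is conjugate in G to an element of K, and for every class function ϑ of N that vanishes on N away from K and at the identity, the function induced from ϑ to G agrees with ϑ on all of N. -/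
theorem result {G : Type*} [Group G] [Fintype G] (K : Subgroup G) (hTI : ∀ g : G, g ∉ Subgroup.normalizer (K : Set G) → ∀ k ∈ K, g * k * g⁻¹ ∈ K → k = 1) (hlt : K < Subgroup.normalizer (K : Set G)) (hC : ∀ k ∈ K, k ≠ 1 → Subgroup.centralizer ({k} : Set G) ≤ K) : (∀ x ∈ Subgroup.normalizer (K : Set G), x ∉ K → ∀ g : G, g * x * g⁻¹ ∉ K) ∧ ∀ (ϑ : Subgroup.normalizer (K : Set G) → ℂ), Cfsg.IsClassFunction (Subgroup.normalizer (K : Set G)) ϑ → (∀ x : Subgroup.normalizer (K : Set G), (x : G) ∉ K → ϑ x = 0) → ϑ 1 = 0 → ∀ x : Subgroup.normalizer (K : Set G), Cfsg.indFun (Subgroup.normalizer (K : Set G)) ϑ x = ϑ x := by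
  have key : ∀ x ∈ Subgroup.normalizer (K : Set G), x ∉ K → ∀ g : G, g * x * g⁻¹ ∉ K := by
    intro x hx hxK g hg
    have h := coprime_card_index_of_centralizer_le (N := K.subgroupOf (Subgroup.normalizer (K : Set G)))
      (fun n hn h1 y hy => hC n hn (fun h => h1 (Subtype.ext h))
        (Subgroup.mem_centralizer_singleton_iff.2
          (congrArg Subtype.val (Subgroup.mem_centralizer_singleton_iff.1 hy))))
    rw [CfsgH1.card_subgroupOf_of_le Subgroup.le_normalizer] at h
    refine hxK (CfsgH1.mem_of_orderOf_coprime_index (N := K.subgroupOf _) (x := ⟨x, hx⟩) ?_)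
    refine h.coprime_dvd_left ?_
    rw [← Subgroup.orderOf_coe, ← orderOf_conj' g]
    exact CfsgH1.orderOf_dvd_card_of_mem hg
  refine ⟨key, fun ϑ h1 h2 h3 x => ?_⟩
  by_cases hx : (x : G) ∈ K
  · exact indFun_apply_of_tiset (S := K) hTI h1 h2 h3 x hx
  · rw [h2 x hx]
    exact indFun_eq_zero_of_not_conj_mem (S := K) h2 fun y => by simpa using key x x.2 hx y⁻¹


end Cfsg.Agent.S0850
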