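import Cfsg.Statements.S0852
import Cfsg.Agent.H3.Coh8

set_option autoImplicit false
open Cfsg

namespace Cfsg.Agent.S0852
open CfsgH3

/-- Let K be a subgroup of the finite group G that meets each conjugate by an element outside its normalizer N trivially, is properly contained in N, and contains the centralizer of each of its non-identity elements (a T.I. subgroup with Frobenius normalizer). Let S be the set of irreducible characters of N taking at some element of K a value different from their degree, suppose S has at least two members, and let star be a linear isometry on the integer span of S into the generalized characters of G that agrees with induction on the members vanishing at the identity (so S is coherent, with star as the extending isometry). Then an irreducible character ψ of G is of the form star χ or -star χ for some χ in S if and only if ψ is not constant on the non-identity elements of K. -/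
theorem result {G : Type*} [Group G] [Fintype G] (K : Subgroup G) (hTI : ∀ g : G, g ∉ Subgroup.normalizer (K : Set G) → ∀ k ∈ K, g * k * g⁻¹ ∈ K → k = 1) (hlt : K < Subgroup.normalizer (K : Set G)) (hC : ∀ k ∈ K, k ≠ 1 → Subgroup.centralizer ({k} : Set G) ≤ K) [Fintype ↥(Subgroup.normalizer (K : Set G))] (S : Set (↥(Subgroup.normalizer (K : Set G)) → ℂ)) (hS : S = {χ : ↥(Subgroup.normalizer (K : Set G)) → ℂ | Cfsg.IsIrrCharacter ↥(Subgroup.normalizer (K : Set G)) χ ∧ ∃ k : ↥(Subgroup.normalizer (K : Set G)), (k : G) ∈ K ∧ χ k ≠ χ 1}) (htwo : ∃ χ ∈ S, ∃ ξ ∈ S, χ ≠ ξ) (star : (↥(Subgroup.normalizer (K : Set G)) → ℂ) → (G → ℂ)) (hstar : Cfsg.IsLinearIsometryOn (Cfsg.zspan S) star) (hext : ∀ α ∈ Cfsg.zspanOn S ({1}ᶜ : Set ↥(Subgroup.normalizer (K : Set G))), star α = Cfsg.indFun (Subgroup.normalizer (K : Set G)) α) (ψ : G → ℂ) (hψ : Cfsg.IsIrrCharacter G ψ) : (∃ χ ∈ S, ψ = star χ ∨ ψ = -star χ) ↔ ∃ a ∈ K, ∃ b ∈ K, a ≠ 1 ∧ b ≠ 1 ∧ ψ a ≠ ψ b := by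
  have h := tif_normalizer hTI hC
  rw [← h.iia_eq] at hS
  subst hS
  obtain ⟨T, hT, he⟩ := hstar.exists_linear
  refine ⟨fun ⟨χ, hχ, h1⟩ => ?_, fun ⟨a, ha, b, hb, a1, b1, h1⟩ => ?_⟩
  · by_contra h2
    push Not at h2
    obtain ⟨ξ, hξ, hne⟩ := Set.Nontrivial.exists_ne htwo χ
    have h3 := deg_smul_mem_zspanOn hχ hξ (iia_isCharacter hχ) (iia_isCharacter hξ)
    obtain ⟨-, k, hk, h4⟩ := (h.iia_eq ▸ hχ :)
    have h5 := TIF.classInner_of_const (h.eq_zero h3.1) (mem_zspanOn.1 h3).2
      (ρ := fun x => ψ x) (c := ψ k) fun x hx h5 => h2 _ hx _ hk (fun h => h5 (Subtype.ext h))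
        (fun h => h4 (by rw [show k = 1 from Subtype.ext h]))
    have h6 := hstar.2.2.1 _ h3.1 _ (Submodule.subset_span hχ)
    rw [h.orth_one h3.1, mul_zero, ← classInner_indFun_left _ hψ.isClassFunction,
      ← hext _ h3] at h5
    rw [classInner_sub_left, classInner_smul_left, classInner_smul_left,
      (h.irr hχ).classInner_self, (h.irr hξ).classInner_of_ne (h.irr hχ) hne] at h6
    refine (h.irr hξ).apply_one_ne_zero ?_
    rcases h1 with rfl | rfl
    · simpa [h5] using h6.symm
    · rw [classInner_neg_right, neg_eq_zero] at h5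
      simpa [h5] using h6.symm
  · by_contra h2
    push Not at h2
    obtain ⟨c, hc⟩ := h.const_of_orth (hψ.isClassFunction.restrict _) fun α hα => by
      rw [← classInner_indFun_left _ hψ.isClassFunction, ← hext α hα, ← he α hα.1]
      refine classInner_map_eq_zero_of_span T (fun χ hχ => not_not.1 fun h3 => ?_) hα.1
      rw [he χ (Submodule.subset_span hχ), classInner_eq_zero_comm] at h3
      exact (hψ.sIrr.eq_or_eq_neg (hstar.sIrr hχ (h.irr hχ)) h3).elim (h2 χ hχ).1 (h2 χ hχ).2
    exact h1 ((hc ⟨a, h.le ha⟩ ha fun h => a1 (congrArg Subtype.val h)).trans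
      (hc ⟨b, h.le hb⟩ hb fun h => b1 (congrArg Subtype.val h)).symm)


end Cfsg.Agent.S0852
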