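import Cfsg.Statements.S0853
import Cfsg.Agent.H3.Coh8

set_option autoImplicit false
open Cfsg

namespace Cfsg.Agent.S0853
open CfsgH3

/-- Let K be a subgroup of the finite group G that meets each conjugate by an element outside its normalizer N trivially, is properly contained in N, and contains the centralizer of each of its non-identity elements (a T.I. subgroup with Frobenius normalizer). Let S be the set of irreducible characters of N taking at some element of K a value different from their degree, suppose S has at least two members, and let star be a linear isometry on the integer span of S into the generalized characters of G that agrees with induction on the members vanishing at the identity (so S is coherent, with star as the extending isometry). Then there is a single integer m such that star χ k - χ k = m * χ 1 / e for every χ in S and every non-identity element k of K, where e is the index of K in N. -/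
theorem result {G : Type*} [Group G] [Fintype G] (K : Subgroup G) (hTI : ∀ g : G, g ∉ Subgroup.normalizer (K : Set G) → ∀ k ∈ K, g * k * g⁻¹ ∈ K → k = 1) (hlt : K < Subgroup.normalizer (K : Set G)) (hC : ∀ k ∈ K, k ≠ 1 → Subgroup.centralizer ({k} : Set G) ≤ K) [Fintype ↥(Subgroup.normalizer (K : Set G))] (S : Set (↥(Subgroup.normalizer (K : Set G)) → ℂ)) (hS : S = {χ : ↥(Subgroup.normalizer (K : Set G)) → ℂ | Cfsg.IsIrrCharacter ↥(Subgroup.normalizer (K : Set G)) χ ∧ ∃ k : ↥(Subgroup.normalizer (K : Set G)), (k : G) ∈ K ∧ χ k ≠ χ 1}) (htwo : ∃ χ ∈ S, ∃ ξ ∈ S, χ ≠ ξ) (star : (↥(Subgroup.normalizer (K : Set G)) → ℂ) → (G → ℂ)) (hstar : Cfsg.IsLinearIsometryOn (Cfsg.zspan S) star) (hext : ∀ α ∈ Cfsg.zspanOn S ({1}ᶜ : Set ↥(Subgroup.normalizer (K : Set G))), star α = Cfsg.indFun (Subgroup.normalizer (K : Set G)) α) : ∃ m : ℤ, ∀ χ ∈ S, ∀ k : ↥(Subgroup.normalizer (K : Set G)), (k : G) ∈ K → k ≠ 1 → star χ k - χ k = (m : ℂ) * χ 1 / ((K.subgroupOf (Subgroup.normalizer (K : Set G))).index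 : ℂ) := by
  classical
  have h := tif_normalizer hTI hC
  have := h.normal
  rw [← h.iia_eq] at hS
  subst hS
  obtain ⟨T, hT, he⟩ := hstar.exists_linear
  have hT' := fun α hα => (he α (zspanOn_subset hα)).trans (hext α hα)
  choose! m hm using fun χ hχ => h.ext_apply hT hT' (χ := χ) hχ
  obtain ⟨ψ, hψ, -⟩ := htwo
  obtain ⟨-, k, hk, h4⟩ := (h.iia_eq ▸ hψ :)
  have hk1 : k ≠ 1 := by rintro rfl; exact h4 rfl
  let N := Subgroup.normalizer (K : Set G)
  set e := (K.subgroupOf N).index with he'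
  have e0 : (e : ℂ) ≠ 0 := by exact_mod_cast (CfsgH2.index_pos _).ne'
  have h1 : ∀ χ ∈ Cfsg.inducedIrrAbove (K.subgroupOf N) ⊥, ψ 1 * m χ = χ 1 * m ψ := by
    intro χ hχ
    have h2 := deg_smul_mem_zspanOn hχ hψ (iia_isCharacter hχ) (iia_isCharacter hψ)
    have h3 := (congrFun (hT' _ h2) k).trans (h.ind_apply h2 k hk)
    simp only [map_sub, map_smul, Pi.sub_apply, Pi.smul_apply, smul_eq_mul, hm χ hχ k hk hk1,
      hm ψ hψ k hk hk1] at h3
    linear_combination h3
  have h0 := (h.irr hψ).apply_one_ne_zero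
  have h2 : ∀ θ, Cfsg.IsIrrCharacter (K.subgroupOf N) θ → θ ≠ (fun _ => 1) →
      ∃ n : ℤ, e * m ψ / ψ 1 * θ 1 = n := fun θ a b => by
    have h3 := h1 _ ⟨θ, a, b, fun x hx => by rw [show x = 1 from Subtype.ext hx], rfl⟩
    rw [indFun_apply_one] at h3
    exact ⟨m (Cfsg.indFun _ θ), by field_simp; linear_combination -h3⟩
  obtain ⟨n, hn⟩ : ∃ n : ℤ, e * m ψ / ψ 1 = n := by
    have h3 : ∃ n : ℤ, e * m ψ / ψ 1 * Nat.card (K.subgroupOf N) = n := by
      obtain ⟨θ, a, b, -⟩ := hψ
      obtain ⟨n, hn⟩ := h2 θ a b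
      obtain ⟨d, -, hd⟩ := a.exists_pos_apply_one
      obtain ⟨c, hc⟩ := a.degree_dvd_card hd
      exact ⟨n * c, by rw [hc, Nat.cast_mul, ← mul_assoc, ← hd, hn]; simp⟩
    obtain ⟨n, hn⟩ := h3
    rw [← sum_irr_deg_sq, ← sum_irrFin fun θ => θ 1 ^ 2,
      ← Finset.add_sum_erase _ _ (mem_irrFin.2 isIrr_one), mul_add, one_pow, mul_one,
      Finset.mul_sum, ← eq_sub_iff_add_eq] at hn
    refine hn ▸ (⊥ : Subring ℂ).sub_mem (intCast_mem _ _) (Subring.sum_mem _ fun θ hθ => ?_)
      |> fun h => by simpa [eq_comm] using Subring.mem_bot.1 h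
    have a := mem_irrFin.1 (Finset.mem_of_mem_erase hθ)
    obtain ⟨n, hn⟩ := h2 θ a (Finset.ne_of_mem_erase hθ)
    obtain ⟨d, -, hd⟩ := a.exists_pos_apply_one
    rw [sq, ← mul_assoc, hn, hd]
    exact Subring.mul_mem _ (intCast_mem _ _) (natCast_mem _ _)
  refine ⟨n, fun χ hχ x hx hx1 => ?_⟩
  rw [← he χ (Submodule.subset_span hχ), hm χ hχ x hx hx1, ← hn]
  field_simp
  linear_combination h1 χ hχ


end Cfsg.Agent.S0853
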