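import Cfsg.Statements.S0855
import Mathlib
import Cfsg.Agent.H4.Ch2
import Cfsg.Agent.S4456

set_option autoImplicit false
open Cfsg

open Cfsg CfsgH3 CfsgH4 CfsgH1 Function
open CfsgH2 hiding cj
open scoped ComplexConjugate Pointwise

namespace Cfsg.Agent.S0855

/-- For a finite group G and a prime p: every irreducible character of G has degree a power of p if and only if G has an abelian normal subgroup whose order is prime to p and whose index is a power of p. -/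
theorem result {G : Type*} [Group G] [Finite G] (p : ℕ) (hp : p.Prime) : (∀ χ : Cfsg.IrrCharacter G, ∃ k : ℕ, (χ : G → ℂ) 1 = (p : ℂ) ^ k) ↔ ∃ A : Subgroup G, A.Normal ∧ (∀ a ∈ A, ∀ b ∈ A, a * b = b * a) ∧ Nat.Coprime (Nat.card A) p ∧ ∃ k : ℕ, A.index = p ^ k := by
  refine ⟨fun h => ?_, fun ⟨A, _, h1, _, k, hk⟩ χ => ?_⟩
  · have h1 : ∀ χ, IsIrrCharacter G χ → ∃ k, charDegree χ = p ^ k := fun χ hχ =>
      (h ⟨χ, hχ⟩).imp fun k hk => charDegree_eq (by simpa using hk)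
    obtain ⟨N, hN, h2, h3⟩ := S4456.result (G := G) p hp fun χ h2 => by
      obtain ⟨_ | k, hk⟩ := h1 χ.1 χ.2
      exacts [absurd hk h2, hk ▸ dvd_pow_self p k.succ_ne_zero]
    refine ⟨N, hN, fun a ha b hb => congrArg Subtype.val (comm_of_forall_lin (G := N)
      (fun θ hθ => ?_) ⟨a, ha⟩ ⟨b, hb⟩), h2, h3⟩
    obtain ⟨χ, hχ, h4⟩ := exists_over_dvd hθ
    obtain ⟨k, hk⟩ := h1 χ hχ
    exact (charDegree_eq_one hθ.isCharacter).1 (Nat.eq_one_of_dvd_coprimes (h2.pow_right k)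
      (charDegree_dvd hθ) (hk ▸ (Dvd.intro_left _ rfl).trans h4))
  · obtain ⟨j, -, hj⟩ := (Nat.dvd_prime_pow hp).1 (hk ▸ deg_dvd_index_ab χ.2 A h1)
    exact ⟨j, by rw [← coe_charDegree χ.2.isCharacter, hj, Nat.cast_pow]⟩

end Cfsg.Agent.S0855
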