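import Cfsg.Statements.S0859
import Cfsg.Agent.H3.Cd3

set_option autoImplicit false
open Cfsg

open Cfsg CfsgH3 CfsgH4 CfsgCd Function

namespace Cfsg.Agent.S0859

/-- Let G be a finite solvable group and N a normal subgroup such that for every prime p every Sylow p-subgroup of N is abelian. Suppose every irreducible character of G is induced from an irreducible character of some subgroup containing N whose restriction to N is irreducible. Then every irreducible character of G is induced from a character of degree 1 of some subgroup. -/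
theorem result {G : Type*} [Group G] [Fintype G] [Group.IsSolvable G] (N : Subgroup G) [N.Normal] (hab : ∀ (p : ℕ) [Fact p.Prime] (P : Sylow p N), ∀ a ∈ P, ∀ b ∈ P, a * b = b * a) (hrel : ∀ χ : G → ℂ, Cfsg.IsIrrCharacter G χ → ∃ (H : Subgroup G) (hNH : N ≤ H) (ψ : H → ℂ), Cfsg.IsIrrCharacter H ψ ∧ Cfsg.indFun H ψ = χ ∧ Cfsg.IsIrrCharacter N (fun n : N => ψ ⟨(n : G), hNH n.2⟩)) (χ : G → ℂ) (hχ : Cfsg.IsIrrCharacter G χ) : ∃ (U : Subgroup G) (lam : U → ℂ), Cfsg.IsCharacter U lam ∧ lam 1 = 1 ∧ Cfsg.indFun U lam = χ := by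
  obtain ⟨H, hNH, ψ, hψ, rfl, hr⟩ := hrel χ hχ
  haveI := Fintype.ofFinite H
  have hA : AbP (N.subgroupOf H) := by
    intro p hp P hP hp' a ha b hb
    haveI : Fact p.Prime := ⟨hp⟩
    let f : N.subgroupOf H →* N := (Subgroup.subgroupOfEquivOfLe hNH).toMonoidHom
    obtain ⟨S, hS⟩ := ((hp'.comap_subtype (K := N.subgroupOf H)).map f).exists_le_sylow
    have := congrArg Subtype.val (hab p S _ (hS ⟨⟨a, hP ha⟩, ha, rfl⟩) _ (hS ⟨⟨b, hP hb⟩, hb, rfl⟩))
    exact Subtype.ext this
  obtain ⟨U, lam, h⟩ := (mono_of_res _ H (N.subgroupOf H) le_rfl hA ψ hψ ((isIrr_subOf_iff hNH).2 hr)).ind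
  exact ⟨U, _, (isIrr_of_unitsHom lam).isCharacter, by simp, h.symm⟩


end Cfsg.Agent.S0859
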