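import Cfsg.Statements.S0860
import Cfsg.Agent.H3.More

set_option autoImplicit false
open Cfsg

namespace Cfsg.Agent.S0860
open CfsgH3

/-- Let a group A act on the set of irreducible characters and on the set of conjugacy classes of a finite group G in such a way that (a • χ) evaluated on the class a • C equals χ evaluated on C, for all a, χ and C. Then every element of A fixes exactly as many irreducible characters as it fixes conjugacy classes. -/
theorem result {G : Type*} [Group G] [Finite G] {A : Type*} [Group A] [MulAction A (Cfsg.IrrCharacter G)] [MulAction A (ConjClasses G)] (hcompat : ∀ (a : A) (χ : Cfsg.IrrCharacter G) (g g' : G), ConjClasses.mk g' = a • ConjClasses.mk g → ((a • χ : Cfsg.IrrCharacter G) : G → ℂ) g' = (χ : G → ℂ) g) (a : A) : Nat.card {χ : Cfsg.IrrCharacter G // a • χ = χ} = Nat.card {C : ConjClasses G // a • C = C} := by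
  classical
  have hf : ∀ (χ : Cfsg.IrrCharacter G),
      (fun g => (χ : G → ℂ) (a • ConjClasses.mk g).out) = ((a⁻¹ • χ : Cfsg.IrrCharacter G) : G → ℂ) := by
    intro χ
    ext g
    have := hcompat a (a⁻¹ • χ) g (a • ConjClasses.mk g).out (Quotient.out_eq _)
    rwa [smul_inv_smul] at this
  have := brauer_perm (G := G) (fun g => (a • ConjClasses.mk g).out) (fun χ hχ => by
    rw [hf ⟨χ, hχ⟩]; exact (a⁻¹ • (⟨χ, hχ⟩ : Cfsg.IrrCharacter G)).2)
  refine Eq.trans ?_ (this.trans ?_)
  · refine Nat.card_congr (Equiv.subtypeEquivRight fun χ => ?_)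
    rw [hf, ← Subtype.ext_iff, inv_smul_eq_iff, eq_comm]
  · refine Nat.card_congr (Equiv.subtypeEquivRight fun C => ?_)
    have e : ∀ D : ConjClasses G, ConjClasses.mk D.out = D := fun D => Quotient.out_eq _
    constructor
    · intro h
      obtain ⟨x, rfl⟩ := ConjClasses.mk_surjective C
      have h2 := ConjClasses.mk_eq_mk_iff_isConj.2 (h x rfl)
      rwa [e] at h2
    · rintro h g rfl
      rw [← ConjClasses.mk_eq_mk_iff_isConj, e, h]


end Cfsg.Agent.S0860
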