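import Cfsg.Statements.S0861
import Cfsg.Agent.H3.Misc2

set_option autoImplicit false
open Cfsg

namespace Cfsg.Agent.S0861
open CfsgH3

/-- Let P be a normal abelian Sylow p-subgroup of the finite group G and suppose some element g of P has centralizer exactly P. Then the number of irreducible characters of G is at most the order of P, and if equality holds then G / P is abelian (the commutator subgroup lies in P). -/
theorem result {G : Type*} [Group G] [Finite G] (p : ℕ) [Fact p.Prime] (P : Sylow p G) [(P : Subgroup G).Normal] (hab : ∀ a ∈ P, ∀ b ∈ P, a * b = b * a) (g : G) (hg : g ∈ P) (hC : Subgroup.centralizer ({g} : Set G) = P) : Nat.card (Cfsg.IrrCharacter G) ≤ Nat.card P ∧ (Nat.card (Cfsg.IrrCharacter G) = Nat.card P → commutator G ≤ P) := by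
  classical
  have hp : p.Prime := Fact.out
  have h0 : ∀ χ : Cfsg.IrrCharacter G, (χ : G → ℂ) g ≠ 0 := by
    intro χ
    obtain ⟨d, -, hd⟩ := χ.2.exists_pos_apply_one
    obtain ⟨k, hk⟩ := P.isPGroup' ⟨g, hg⟩
    refine χ.2.isGen.apply_ne_zero_of_not_dvd hp (congrArg Subtype.val hk) hd fun h => ?_
    refine P.not_dvd_index (h.trans (χ.2.degree_dvd_index_of_abelian_normal hd _ ?_))
    intro a ha b hb
    rw [hab a ha b hb]; simp
  obtain ⟨n, hn⟩ : ∃ n : ℤ, ∏ χ : Cfsg.IrrCharacter G, (χ : G → ℂ) g = n := by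
    refine exists_int_of_fixed (IsIntegral.prod _ fun χ _ => χ.2.isCharacter.isIntegral g)
      fun σ => ?_
    rw [map_prod]
    refine Fintype.prod_bijective (fun χ => ⟨_, χ.2.map (σ : ℂ →+* ℂ)⟩) ?_ _ _ fun _ => rfl
    refine (Finite.injective_iff_bijective).1 fun a b h => Subtype.ext (funext fun x => ?_)
    exact σ.injective (congrFun (congrArg Subtype.val h) x)
  have hn0 : n ≠ 0 := by
    rintro rfl
    exact Finset.prod_ne_zero_iff.2 (fun χ _ => h0 χ) (by simpa using hn)
  have h1 : (0 : ℝ) ≤ ∑ χ : Cfsg.IrrCharacter G, Real.log (‖(χ : G → ℂ) g‖ ^ 2) := by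
    rw [← Real.log_prod fun χ _ => pow_ne_zero 2 (norm_ne_zero_iff.2 (h0 χ)), Finset.prod_pow,
      ← norm_prod, hn]
    refine Real.log_nonneg (one_le_pow₀ ?_)
    rw [Complex.norm_intCast]
    exact_mod_cast Int.one_le_abs hn0
  have h2 := column_orthogonality_self g
  rw [hC] at h2
  have h3 : ∀ χ : Cfsg.IrrCharacter G,
      Real.log (‖(χ : G → ℂ) g‖ ^ 2) ≤ ‖(χ : G → ℂ) g‖ ^ 2 - 1 := fun χ =>
    Real.log_le_sub_one_of_pos (pow_pos (norm_pos_iff.2 (h0 χ)) 2)
  have h4 : ∑ χ : Cfsg.IrrCharacter G, (‖(χ : G → ℂ) g‖ ^ 2 - 1) =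
      (Nat.card (P : Subgroup G) : ℝ) - Nat.card (Cfsg.IrrCharacter G) := by
    rw [Finset.sum_sub_distrib, h2]; simp
  have h5 := Finset.sum_le_sum fun χ (_ : χ ∈ Finset.univ) => h3 χ
  refine ⟨?_, fun he => ?_⟩
  · have : (Nat.card (Cfsg.IrrCharacter G) : ℝ) ≤ Nat.card (P : Subgroup G) := by linarith
    exact_mod_cast this
  · have he' : (Nat.card (Cfsg.IrrCharacter G) : ℝ) = Nat.card (P : Subgroup G) := by
      exact_mod_cast he
    have h6 := (Finset.sum_eq_sum_iff_of_le fun χ (_ : χ ∈ Finset.univ) => h3 χ).1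
      (le_antisymm h5 (by linarith))
    have h7 : ∀ χ : Cfsg.IrrCharacter G, ‖(χ : G → ℂ) g‖ = 1 := by
      intro χ
      by_contra h
      have := Real.log_lt_sub_one_of_pos (pow_pos (norm_pos_iff.2 (h0 χ)) 2)
        (fun h' => h ((pow_eq_one_iff_of_nonneg (norm_nonneg _) two_ne_zero).1 h'))
      exact this.ne (h6 χ (Finset.mem_univ _))
    rw [commutator_def, Subgroup.commutator_le]
    intro a _ b _
    rw [← QuotientGroup.eq_one_iff]
    refine eq_one_of_forall_irr fun χ hχ => ?_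
    have h8 := h7 ⟨_, hχ.comp_of_surjective _ (QuotientGroup.mk'_surjective (P : Subgroup G))⟩
    simp only [QuotientGroup.mk'_apply, (QuotientGroup.eq_one_iff g).2 hg] at h8
    obtain ⟨d, -, hd⟩ := hχ.exists_pos_apply_one
    rw [hd, Complex.norm_natCast, Nat.cast_eq_one] at h8
    obtain ⟨f, rfl⟩ := hχ.isCharacter.exists_monoidHom (by rw [hd, h8, Nat.cast_one])
    simp [commutatorElement_def, mul_comm (f a) (f b)]


end Cfsg.Agent.S0861
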