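import Cfsg.Statements.S0866
import Mathlib
import Cfsg.Agent.H4.Ext2

set_option autoImplicit false
open Cfsg

open Cfsg CfsgH3 CfsgH4 CfsgH1 CfsgL0 MonoidAlgebra

namespace Cfsg.Agent.S0866

/-- Let N be a normal subgroup of the finite group G and ϑ an irreducible character of N, invariant under conjugation by G, of degree d coprime to the index of N. Then ϑ is the restriction of an irreducible character of G if and only if the determinantal character of ϑ is the restriction of a character of G of degree 1. -/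
theorem result {G : Type*} [Group G] [Finite G] (N : Subgroup G) [hN : N.Normal] (ϑ : N → ℂ) (hϑ : Cfsg.IsIrrCharacter N ϑ) (hinv : ∀ (g : G) (n : N), ϑ ⟨g * n * g⁻¹, hN.conj_mem (n : G) n.2 g⟩ = ϑ n) (d : ℕ) (hd : ϑ 1 = d) (hcop : Nat.Coprime N.index d) : (∃ χ : G → ℂ, Cfsg.IsIrrCharacter G χ ∧ (∀ n : N, χ n = ϑ n)) ↔ ∃ μ : G → ℂ, Cfsg.IsCharacter G μ ∧ μ 1 = 1 ∧ ∀ n : N, μ n = Cfsg.detChar ϑ n := by
  refine ⟨fun ⟨χ, h1, h2⟩ => ⟨_, (isIrr_of_unitsHom (dt χ)).isCharacter, by simp, fun n => ?_⟩,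
    fun ⟨μ, h1, h2, h3⟩ => ?_⟩
  · exact (congrArg Units.val (dt_of_eq h1.isCharacter N.subtype h2 n)).trans (coe_dt _ _)
  · obtain ⟨l, rfl⟩ := h1.exists_monoidHom h2
    exact exists_ext_of_det hϑ (fun g => funext (hinv g)) hd hcop l fun n =>
      Units.ext ((h3 n).trans (coe_dt _ _).symm)

end Cfsg.Agent.S0866
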