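import Cfsg.Statements.S0865
import Mathlib
import Cfsg.Agent.H4.Ext2

set_option autoImplicit false
open Cfsg

open Cfsg CfsgH3 CfsgH4 CfsgH1 CfsgL0 MonoidAlgebra

namespace Cfsg.Agent.S0865

/-- Let N be a normal subgroup of the finite group G and λ a character of N of degree 1, invariant under conjugation by G, whose order (under pointwise multiplication) is coprime to the index of N. Then there is a character μ of G of degree 1 restricting to λ with the same order as λ, and μ is the only degree-1 character of G restricting to λ whose order is coprime to the index of N. -/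
theorem result {G : Type*} [Group G] [Finite G] (N : Subgroup G) [hN : N.Normal] (lam : N → ℂ) (hlam : Cfsg.IsCharacter N lam ∧ lam 1 = 1) (hinv : ∀ (g : G) (n : N), lam ⟨g * n * g⁻¹, hN.conj_mem (n : G) n.2 g⟩ = lam n) (hcop : Nat.Coprime N.index (orderOf lam)) : ∃ μ : G → ℂ, (Cfsg.IsCharacter G μ ∧ μ 1 = 1 ∧ (∀ n : N, μ n = lam n) ∧ orderOf μ = orderOf lam) ∧ ∀ μ' : G → ℂ, Cfsg.IsCharacter G μ' ∧ μ' 1 = 1 → (∀ n : N, μ' n = lam n) → Nat.Coprime N.index (orderOf μ') → μ' = μ := by
  obtain ⟨l, rfl⟩ := hlam.1.exists_monoidHom hlam.2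
  rw [orderOf_lin] at hcop
  obtain ⟨μ, h1, h2⟩ := exists_lin_ext_of_coprime (l := l) (fun g n => Units.ext (hinv g n)) hcop
  refine ⟨_, ⟨(isIrr_of_unitsHom μ).isCharacter, by simp, fun n => congrArg Units.val (h1 n),
    by rw [orderOf_lin, orderOf_lin, h2]⟩, fun ν h3 h4 h5 => ?_⟩
  obtain ⟨ν, rfl⟩ := h3.1.exists_monoidHom h3.2
  rw [orderOf_lin] at h5
  rw [lin_eq_of_coprime (N := N) (μ := ν) (ν := μ)
    (fun n hn => (Units.ext (h4 ⟨n, hn⟩)).trans (h1 ⟨n, hn⟩).symm) h5 (h2 ▸ hcop)]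

end Cfsg.Agent.S0865
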