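import Cfsg.Statements.S0872
import Cfsg.Agent.H3.PermChar

set_option autoImplicit false
open Cfsg

namespace Cfsg.Agent.S0872
open CfsgH3

/-- For a finite group G and a prime p there are an integer m not divisible by p and a ℤ-linear combination of functions induced from the constant function 1 on subgroups H, each having a cyclic normal subgroup of order prime to p and p-power index in H, that equals the constant function m. -/
theorem result {G : Type*} [Group G] [Fintype G] (p : ℕ) (hp : p.Prime) : ∃ (m : ℤ) (a : Subgroup G → ℤ), ¬ (p : ℤ) ∣ m ∧ (∀ H, a H ≠ 0 → (∃ C : Subgroup G, C ≤ H ∧ H ≤ Subgroup.normalizer (C : Set G) ∧ IsCyclic C ∧ Nat.Coprime (Nat.card C) p ∧ ∃ k : ℕ, C.relIndex H = p ^ k)) ∧ (fun _ : G => (m : ℂ)) = ∑ H : Subgroup G, (a H : ℂ) • Cfsg.indFun H (fun _ => 1) := by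
  classical
  obtain ⟨m, hm, h⟩ := exists_const_mem_qeSpan (G := G) hp
  obtain ⟨c, hc⟩ := (Submodule.mem_span_range_iff_exists_fun ℤ).1 h
  refine ⟨m, fun H => if h : QE p H then c ⟨H, h⟩ else 0, hm, fun H hH => ?_, ?_⟩
  · by_contra h'
    exact hH (dif_neg h')
  · rw [← hc, ← Finset.sum_filter_of_ne (p := QE p) (fun H _ hH => by
      by_contra h'
      exact hH (by simp [h'])), Finset.sum_subtype (p := QE p) _ (by simp)]
    refine Finset.sum_congr rfl fun H _ => ?_
    simp only [dif_pos H.2, Int.cast_smul_eq_zsmul]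


end Cfsg.Agent.S0872
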