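import Cfsg.Statements.S0874
import Cfsg.Agent.H3.Brauer

set_option autoImplicit false
open Cfsg

namespace Cfsg.Agent.S0874
open CfsgH3

/-- For a finite group G and a prime p there are an integer m not divisible by p and a list of triples (E, φ, c), with E a p-elementary subgroup, φ a character of E and c an integer, such that the constant function m on G equals the sum of the c • (function induced from φ). -/
theorem result {G : Type*} [Group G] [Fintype G] (p : ℕ) (hp : p.Prime) : ∃ (m : ℤ) (l : List ((E : Subgroup G) × ((E → ℂ) × ℤ))), ¬ (p : ℤ) ∣ m ∧ (∀ t ∈ l, Cfsg.IsElementary p t.1 ∧ Cfsg.IsCharacter t.1 t.2.1) ∧ (fun _ : G => (m : ℂ)) = (l.map fun t => (t.2.2 : ℂ) • Cfsg.indFun t.1 t.2.1).sum := by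
  obtain ⟨m, hm, h⟩ := exists_const_mem_indSpan (G := G) hp
  suffices ∀ φ ∈ indSpan G (fun E => Cfsg.IsElementary p E),
      ∃ l : List ((E : Subgroup G) × ((E → ℂ) × ℤ)),
      (∀ t ∈ l, Cfsg.IsElementary p t.1 ∧ Cfsg.IsCharacter t.1 t.2.1) ∧
        φ = (l.map fun t => (t.2.2 : ℂ) • Cfsg.indFun t.1 t.2.1).sum by
    obtain ⟨l, h1, h2⟩ := this _ h
    exact ⟨m, l, hm, h1, h2⟩
  intro φ h
  induction h using Submodule.span_induction with
  | mem x hx =>
    obtain ⟨E, hE, lam, hl, rfl⟩ := hx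
    exact ⟨[⟨E, lam, 1⟩], by simpa using ⟨hE, hl⟩, by simp⟩
  | zero => exact ⟨[], by simp, by simp⟩
  | add x y _ _ hx hy =>
    obtain ⟨l1, h1, rfl⟩ := hx
    obtain ⟨l2, h2, rfl⟩ := hy
    refine ⟨l1 ++ l2, fun t ht => ?_, by simp⟩
    rcases List.mem_append.1 ht with h | h
    exacts [h1 t h, h2 t h]
  | smul a x _ hx =>
    obtain ⟨l, h1, rfl⟩ := hx
    refine ⟨l.map fun t => ⟨t.1, t.2.1, a * t.2.2⟩, fun t ht => ?_, ?_⟩
    · obtain ⟨s, hs, rfl⟩ := List.mem_map.1 ht
      exact h1 s hs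
    · rw [List.smul_sum, List.map_map, List.map_map]
      congr 1
      refine List.map_congr_left fun t _ => ?_
      ext g
      simp [mul_assoc]


end Cfsg.Agent.S0874
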