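import Cfsg.Statements.S0875
import Cfsg.Agent.H3.Misc2

set_option autoImplicit false
open Cfsg

namespace Cfsg.Agent.S0875
open CfsgH3

/-- Let G be a finite group of order m * n with m and n coprime, and g an element whose order is coprime to m. Every x in G factors uniquely as x = u * v with u, v commuting, the order of u coprime to n and the order of v coprime to m; let ϑ be the function on G equal to n at those x whose factor v is conjugate to g and equal to 0 elsewhere. Then ϑ is a linear combination of the irreducible characters of G with algebraic-integer coefficients. -/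
theorem result {G : Type*} [Group G] [Fintype G] (m n : ℕ) (hmn : Nat.card G = m * n) (hcop : Nat.Coprime m n) (g : G) (hg : Nat.Coprime (orderOf g) m) (ϑ : G → ℂ) (hϑ1 : ∀ x : G, (∃ v : G, IsConj v g ∧ (∃ u : G, x = u * v ∧ Commute u v ∧ Nat.Coprime (orderOf u) n ∧ Nat.Coprime (orderOf v) m)) → ϑ x = n) (hϑ0 : ∀ x : G, (¬ ∃ v : G, IsConj v g ∧ (∃ u : G, x = u * v ∧ Commute u v ∧ Nat.Coprime (orderOf u) n ∧ Nat.Coprime (orderOf v) m)) → ϑ x = 0) : ∃ c : Cfsg.IrrCharacter G → ℂ, (∀ χ, c χ ∈ Cfsg.AlgInt) ∧ ϑ = ∑ᶠ χ : Cfsg.IrrCharacter G, c χ • (χ : G → ℂ) := by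
  classical
  obtain ⟨k, hk⟩ := exists_pow_coprime_part hcop
  have hm : ∀ u : G, (orderOf u).Coprime n → orderOf u ∣ m := fun u hu =>
    hu.dvd_of_dvd_mul_right (hmn ▸ orderOf_dvd_natCard u)
  have hn : ∀ u : G, (orderOf u).Coprime m → orderOf u ∣ n := fun u hu =>
    hu.dvd_of_dvd_mul_left (hmn ▸ orderOf_dvd_natCard u)
  have hθ : ϑ = fun x => if IsConj (x ^ k) g then (n : ℂ) else 0 := by
    ext x
    split_ifs with h
    · obtain ⟨a, b, h1, h2, h3⟩ := exists_pow_decomp x hcop (hmn ▸ pow_card_eq_one')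
      have h4 := orderOf_dvd_of_pow_eq_one h2
      have h5 := orderOf_dvd_of_pow_eq_one h3
      refine hϑ1 x ⟨x ^ b, ?_, x ^ a, h1, Commute.pow_pow_self x a b, hcop.coprime_dvd_left h4,
        hcop.symm.coprime_dvd_left h5⟩
      rwa [h1, hk G _ _ (Commute.pow_pow_self x a b) h4 h5] at h
    · refine hϑ0 x ?_
      rintro ⟨v, hv, u, rfl, h1, h2, h3⟩
      exact h (by rwa [hk G u v h1 (hm u h2) (hn v h3)])
  have hc : Cfsg.IsClassFunction G ϑ := by
    intro a b
    have : IsConj ((b * a * b⁻¹) ^ k) g ↔ IsConj (a ^ k) g := by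
      rw [conj_pow]
      exact ⟨fun h => (isConj_iff.2 ⟨b, rfl⟩).trans h, fun h => (isConj_iff.2 ⟨b, rfl⟩).symm.trans h⟩
    simp only [hθ, this]
  refine ⟨fun χ => Cfsg.classInner ϑ χ, fun χ => ?_, by
    rw [finsum_eq_sum_of_fintype]; exact hc.eq_sum_irr⟩
  refine classInner_mem_of_elementary Cfsg.AlgInt.toSubring.toAddSubgroup hc
    (fun E ⟨q, hq, hE⟩ _ lam => ?_) χ.2.isGen
  have := hE.isNilpotent hq
  obtain ⟨A, B, -, -, hc, hcomm, hA, hB, hmem⟩ := exists_nilpotent_split (E := E) n
  have hBn : Nat.card B ∣ n := by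
    have h1 : (Nat.card B).Coprime m := Nat.coprime_of_dvd fun r hr h1 h2 =>
      hr.one_lt.ne' (Nat.eq_one_of_dvd_coprimes hcop h2 (hB r hr h1))
    exact h1.dvd_of_dvd_mul_left (hmn ▸ (Subgroup.card_subgroup_dvd_card B).trans
      (Subgroup.card_subgroup_dvd_card E))
  obtain ⟨c, hc'⟩ := hBn
  obtain ⟨j, hj⟩ := isCharacter_one.exists_nat_classInner
    ((isIrr_of_unitsHom lam).isCharacter.restrict A)
  have e : Cfsg.classInner (fun e : E => ϑ e) (fun e => (lam e : ℂ)) =
      j * c * ∑ b : B, if IsConj ((b : E) : G) g then starRingEnd ℂ (lam b : ℂ) else 0 := by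
    rw [← hj]
    unfold Cfsg.classInner
    rw [sum_eq_sum_complement hc, ← hc.card_mul_card]
    have h2 : ∀ (a : A) (b : B), ϑ ((a : E) * (b : E) : E) * starRingEnd ℂ (lam (a * b) : ℂ) =
        starRingEnd ℂ (lam a : ℂ) *
          (n * if IsConj ((b : E) : G) g then starRingEnd ℂ (lam b : ℂ) else 0) := by
      intro a b
      have h3 : (((a : E) * (b : E) : E) : G) ^ k = (b : E) := by
        rw [← Subgroup.coe_pow, hk E a b (hcomm a a.2 b b.2)]
        · rw [← Subgroup.orderOf_coe]
          exact hm _ (by rw [Subgroup.orderOf_coe]; exact (hmem a).1 a.2)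
        · exact (CfsgH1.orderOf_dvd_card_of_mem b.2).trans ⟨c, hc'⟩
      simp only [hθ, h3, map_mul, Units.val_mul]
      split_ifs
      · ring
      · simp
    simp_rw [h2, ← Finset.mul_sum, ← Finset.sum_mul, hc']
    have := natCard_ne_zero A
    have := natCard_ne_zero B
    simp only [one_mul]
    push_cast
    field_simp
  rw [e]
  refine ((isIntegral_natCast j).mul (isIntegral_natCast c)).mul (IsIntegral.sum _ fun b _ => ?_)
  split_ifs
  exacts [(isIrr_of_unitsHom lam).isCharacter.conj.isIntegral _, isIntegral_zero]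


end Cfsg.Agent.S0875
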