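import Mathlib
import Cfsg.Statements.S0879
import Cfsg.Agent.H8.Za8

set_option autoImplicit false
open Cfsg

namespace Cfsg.Agent.S0879

open CfsgH8 CfsgH8.Za CfsgH2

/-- Let G be a Zassenhaus group on the finite set Ω and E the stabilizer of two distinct points a, b. Then an element outside the normalizer of E conjugates no non-identity element of E into E, and E has index 2 in its normalizer. -/
theorem result {G Ω : Type*} [Group G] [Finite G] [MulAction G Ω] [Fintype Ω] (hZ : Cfsg.IsZassenhausGroup G Ω) {a b : Ω} (hab : a ≠ b) : (∀ g : G, g ∉ Subgroup.normalizer ((MulAction.stabilizer G a ⊓ MulAction.stabilizer G b : Subgroup G) : Set G) → ∀ x ∈ (MulAction.stabilizer G a ⊓ MulAction.stabilizer G b : Subgroup G), g * x * g⁻¹ ∈ (MulAction.stabilizer G a ⊓ MulAction.stabilizer G b : Subgroup G) → x = 1) ∧ ((MulAction.stabilizer G a ⊓ MulAction.stabilizer G b : Subgroup G).subgroupOf (Subgroup.normalizer ((MulAction.stabilizer G a ⊓ MulAction.stabilizer G b : Subgroup G) : Set G))).index = 2 := by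
  refine ⟨fun g hg x hx e => ?_, (ZT.of hZ).relIndex_two hab (HH_ne hZ hab)⟩
  by_contra h1
  rcases (ZT.of hZ).pres hab hx h1 e with h | h
  · exact hg (Subgroup.le_normalizer h)
  · exact hg (swap_norm h.1 h.2)

end Cfsg.Agent.S0879
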