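import Mathlib
import Cfsg.Statements.S0882
import Cfsg.Agent.H8.Za16

set_option autoImplicit false
open Cfsg

namespace Cfsg.Agent.S0882

open CfsgH8 CfsgH8.Za CfsgH2 CfsgRO

/-- Let G be a finite simple Zassenhaus group on Ω with n = h + 1 points whose two-point stabilizer E has odd order e with 2e < h - 1. Then any two involutions of G are conjugate, and the number of involutions is e * (h + 1) if h is even and e * h if h is odd. -/
theorem result {G Ω : Type*} [Group G] [Finite G] [MulAction G Ω] [Fintype Ω] (hZ : Cfsg.IsZassenhausGroup G Ω) {a b : Ω} (hab : a ≠ b) [IsSimpleGroup G] (h e : ℕ) (hh : Fintype.card Ω = h + 1) (he : Nat.card ↥(MulAction.stabilizer G a ⊓ MulAction.stabilizer G b : Subgroup G) = e) (hodd : Odd e) (hlt : 2 * e < h - 1) : (∀ x y : G, orderOf x = 2 → orderOf y = 2 → IsConj x y) ∧ Nat.card {x : G // orderOf x = 2} = (if Even h then e * (h + 1) else e * h) := by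
  subst he
  obtain ⟨K, hK⟩ := (ZT.of hZ).exists_K hab
  obtain rfl : Nat.card K = h := by
    have := hK.card_Ω'
    rw [Nat.card_eq_fintype_card] at this
    omega
  obtain ⟨w, hw⟩ := hK.exists_ZI (HH_ne hZ hab) hodd
  obtain rfl := hw.wa
  have he := hw.suz hZ hlt
  have ro := hK.ro hw.ww he
  refine ⟨fun x y hx hy => ?_, by rw [if_pos he, hw.card_inv he]⟩
  obtain ⟨g, hg⟩ := ro.inv_fix (ne_of_ord hx) (sq_of_ord hx)
  obtain ⟨k, hk⟩ := ro.inv_fix (ne_of_ord hy) (sq_of_ord hy)
  obtain ⟨l, -, e⟩ := ro.K_trans hg hk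
  exact isConj_iff.2 ⟨k⁻¹ * l⁻¹ * g, by
    calc _ = k⁻¹ * (l⁻¹ * (g * x * g⁻¹) * l) * k := by group
      _ = y := by rw [e]; group⟩

end Cfsg.Agent.S0882
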