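import Cfsg.Statements.S0893
import Cfsg.Agent.H3.Misc2

set_option autoImplicit false
open Cfsg

namespace Cfsg.Agent.S0893
open CfsgH3

/-- Let P be an extraspecial p-group of order p ^ (2 * n + 1), A an abelian subgroup of order p ^ (n + 1), and λ a character of A of degree 1 that is not identically 1 on the elements of A lying in the centre of P. Then the function induced from λ to P is an irreducible character of P and vanishes at every element outside the centre. -/
theorem result {P : Type*} [Group P] [Fintype P] (p n : ℕ) [Fact p.Prime] (hP : Cfsg.IsExtraspecial p P) (hcard : Nat.card P = p ^ (2 * n + 1)) (A : Subgroup P) (hab : ∀ a ∈ A, ∀ b ∈ A, a * b = b * a) (hA : Nat.card A = p ^ (n + 1)) (lam : A → ℂ) (hlam : Cfsg.IsCharacter A lam ∧ lam 1 = 1) (hZ : ∃ a : A, (a : P) ∈ Subgroup.center P ∧ lam a ≠ 1) : Cfsg.IsIrrCharacter P (Cfsg.indFun A lam) ∧ ∀ x : P, x ∉ Subgroup.center P → Cfsg.indFun A lam x = 0 := by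
  classical
  have hp : p.Prime := Fact.out
  obtain ⟨⟨-, -, hcomm⟩, hZc⟩ := hP
  obtain ⟨a, ha, hne⟩ := hZ
  have hχ := hlam.1.ind
  have ha1 : (a : P) ≠ 1 := fun h => hne (by rw [show a = 1 from Subtype.ext h, hlam.2])
  have hgen : ∀ z ∈ Subgroup.center P, z ≠ 1 → Subgroup.zpowers z = Subgroup.center P := by
    intro z hz h1
    have := Fact.mk (hZc ▸ hp : (Nat.card (Subgroup.center P)).Prime)
    refine Subgroup.eq_of_le_of_card_ge (Subgroup.zpowers_le.2 hz) ?_
    have h2 := Subgroup.card_dvd_of_le (Subgroup.zpowers_le.2 hz)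
    rw [hZc] at h2 ⊢
    rcases (Nat.dvd_prime hp).1 h2 with h | h
    · rw [Nat.card_zpowers, orderOf_eq_one_iff] at h; exact (h1 h).elim
    · exact h.ge
  have hZA : Subgroup.center P ≤ A := hgen a ha ha1 ▸ Subgroup.zpowers_le.2 a.2
  have hidx : A.index = p ^ n := by
    have := A.index_mul_card
    rw [hA, hcard, show 2 * n + 1 = n + (n + 1) by ring, pow_add p n (n + 1)] at this
    exact Nat.eq_of_mul_eq_mul_right (pow_pos hp.pos _) this
  have hval : ∀ (z : P) (hz : z ∈ Subgroup.center P),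
      Cfsg.indFun A lam z = A.index * lam ⟨z, hZA hz⟩ := by
    intro z hz
    have : ∀ x : P, x⁻¹ * z * x = z := fun x => by
      rw [mul_assoc, ← Subgroup.mem_center_iff.1 hz x]; simp
    rw [indFun_apply]
    simp_rw [this, extendByZero_of_mem _ (hZA hz)]
    rw [Finset.sum_const, Finset.card_univ, nsmul_eq_mul, ← Nat.card_eq_fintype_card,
      ← A.index_mul_card]
    have := natCard_ne_zero A
    push_cast
    field_simp
  obtain ⟨f, rfl⟩ := hlam.1.exists_monoidHom hlam.2
  have hi0 : (A.index : ℂ) ≠ 0 := by exact_mod_cast A.index_ne_zero_of_finite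
  have hZχ : Subgroup.center P ≤ charCenter (Cfsg.indFun A fun g => (f g : ℂ)) := by
    intro z hz
    rw [hχ.mem_charCenter, hval z hz, indFun_apply_one, norm_mul, norm_mul]
    congr 1
    have h3 := (isIrr_of_unitsHom f).isCharacter
    exact h3.mem_charCenter.1 (by
      rw [(isIrr_of_unitsHom f).isCharacter.mem_charCenter]
      have h4 : ((f ⟨z, hZA hz⟩ : ℂˣ) : ℂ) ^ Nat.card A = 1 := by
        rw [← Units.val_pow_eq_pow_val, ← map_pow, pow_card_eq_one', map_one, Units.val_one]
      simpa using Complex.norm_eq_one_of_pow_eq_one h4 Nat.card_pos.ne')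
  have hvan : ∀ x : P, x ∉ Subgroup.center P → Cfsg.indFun A (fun g => (f g : ℂ)) x = 0 := by
    intro x hx
    rw [Subgroup.mem_center_iff] at hx
    push Not at hx
    obtain ⟨y, hy⟩ := hx
    have h1 : y * x * y⁻¹ * x⁻¹ ∈ Subgroup.center P :=
      hcomm ▸ Subgroup.commutator_mem_commutator (Subgroup.mem_top y) (Subgroup.mem_top x)
    refine hχ.apply_eq_zero_of_commutator (hZχ h1) fun h => hne ?_
    rw [hval _ h1, indFun_apply_one, mul_right_inj' hi0] at h
    have h2 := hgen _ h1 (fun h => hy (by rwa [mul_inv_eq_one, mul_inv_eq_iff_eq_mul] at h))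
    obtain ⟨k, hk⟩ := h2 ▸ ha
    have : a = (⟨_, hZA h1⟩ : A) ^ k := Subtype.ext hk.symm
    have h3 : f ⟨_, hZA h1⟩ = 1 := Units.ext (by simpa using h)
    simp only [this, map_zpow, h3]
    simp
  refine ⟨hχ.isIrr_of_inner_eq_one ?_, hvan⟩
  rw [classInner_self, ← Finset.sum_filter_of_ne (p := (· ∈ Subgroup.center P)) (fun x _ hx => by
    by_contra h'; exact hx (by simp [hvan x h'])),
    Finset.sum_congr rfl (g := fun _ => ((p : ℝ) ^ n) ^ 2) fun x hx => by
      rw [hχ.mem_charCenter.1 (hZχ (Finset.mem_filter.1 hx).2), indFun_apply_one, hidx]; simp,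
    Finset.sum_const, ← Fintype.card_subtype, ← Nat.card_eq_fintype_card, hZc, hcard]
  have : (p : ℝ) ≠ 0 := by exact_mod_cast hp.ne_zero
  norm_cast
  push_cast
  rw [nsmul_eq_mul]
  field_simp
  ring


end Cfsg.Agent.S0893
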