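import Cfsg.Statements.S0894
import Cfsg.Agent.H3.Misc2

set_option autoImplicit false
open Cfsg

namespace Cfsg.Agent.S0894
open CfsgH3

/-- Let P be an extraspecial p-group of order p ^ (2 * n + 1). Then every irreducible character of P has degree 1 or p ^ n, and exactly p - 1 of them have degree p ^ n. -/
theorem result {P : Type*} [Group P] [Finite P] (p n : ℕ) [Fact p.Prime] (hP : Cfsg.IsExtraspecial p P) (hcard : Nat.card P = p ^ (2 * n + 1)) : (∀ χ : Cfsg.IrrCharacter P, (χ : P → ℂ) 1 = 1 ∨ (χ : P → ℂ) 1 = (p : ℂ) ^ n) ∧ Nat.card {χ : Cfsg.IrrCharacter P // (χ : P → ℂ) 1 = (p : ℂ) ^ n} = p - 1 := by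
  classical
  have hp : p.Prime := Fact.out
  obtain ⟨⟨-, -, hcomm⟩, hZc⟩ := hP
  have hgen : ∀ z ∈ Subgroup.center P, z ≠ 1 → Subgroup.zpowers z = Subgroup.center P := by
    intro z hz h1
    refine Subgroup.eq_of_le_of_card_ge (Subgroup.zpowers_le.2 hz) ?_
    have h2 := Subgroup.card_dvd_of_le (Subgroup.zpowers_le.2 hz)
    rw [hZc] at h2 ⊢
    rcases (Nat.dvd_prime hp).1 h2 with h | h
    · rw [Nat.card_zpowers, orderOf_eq_one_iff] at h; exact (h1 h).elim
    · exact h.ge
  have hmem : ∀ x y : P, y * x * y⁻¹ * x⁻¹ ∈ Subgroup.center P := fun x y =>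
      hcomm ▸ Subgroup.commutator_mem_commutator (Subgroup.mem_top y) (Subgroup.mem_top x)
  have h1 : ∀ χ : Cfsg.IrrCharacter P, (χ : P → ℂ) 1 = 1 ∨ (χ : P → ℂ) 1 = (p : ℂ) ^ n := by
    intro χ
    by_cases h : Subgroup.center P ≤ charKer (χ : P → ℂ)
    · exact Or.inl (χ.2.apply_one_of_commutator fun a b =>
        χ.2.isCharacter.mem_charKer.1 (h (hmem b a)))
    · right
      obtain ⟨d, -, hd⟩ := χ.2.exists_pos_apply_one
      have := χ.2.degree_sq_mul_card_eq χ.2.center_le_charCenter (fun x hx => by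
        rw [Subgroup.mem_center_iff] at hx
        push Not at hx
        obtain ⟨y, hy⟩ := hx
        refine χ.2.isCharacter.apply_eq_zero_of_commutator (χ.2.center_le_charCenter (hmem x y))
          fun h' => h ?_
        rw [← hgen _ (hmem x y) (fun h => hy (by rwa [mul_inv_eq_one, mul_inv_eq_iff_eq_mul] at h))]
        exact Subgroup.zpowers_le.2 (χ.2.isCharacter.mem_charKer.2 h')) hd
      rw [hZc, hcard, pow_succ p, mul_comm 2, pow_mul] at this
      have h2 := Nat.eq_of_mul_eq_mul_right hp.pos this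
      rw [hd, Nat.pow_left_injective two_ne_zero h2]
      simp
  refine ⟨h1, ?_⟩
  have hidx : (commutator P).index = p ^ (2 * n) := by
    have := (commutator P).index_mul_card
    rw [hcomm, hZc, hcard, pow_succ, ← hcomm] at this
    exact Nat.eq_of_mul_eq_mul_right hp.pos this
  have hn : (p : ℂ) ^ n ≠ 1 := by
    intro h
    have h2 : Subgroup.center P ≤ ⊥ := by
      rw [← hcomm, commutator_def, Subgroup.commutator_le]
      intro a _ b _
      refine eq_one_of_forall_irr fun χ hχ => ?_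
      obtain ⟨f, rfl⟩ := hχ.isCharacter.exists_monoidHom ((h1 ⟨χ, hχ⟩).elim id fun h' => h'.trans h)
      simp [commutatorElement_def, mul_comm (f a) (f b)]
    rw [le_bot_iff.1 h2] at hZc
    exact hp.one_lt.ne (by simpa using hZc)
  have h2 := sum_irr_deg_sq (G := P)
  rw [← Finset.sum_filter_add_sum_filter_not Finset.univ
      (fun χ : Cfsg.IrrCharacter P => (χ : P → ℂ) 1 = 1),
    Finset.sum_congr rfl (g := fun _ => 1) fun χ hχ => by rw [(Finset.mem_filter.1 hχ).2]; simp,
    Finset.sum_congr (s₂ := Finset.univ.filter fun χ : Cfsg.IrrCharacter P =>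
      (χ : P → ℂ) 1 = (p : ℂ) ^ n) (Finset.filter_congr fun χ _ =>
        ⟨(h1 χ).resolve_left, fun h h' => hn (h.symm.trans h')⟩) (g := fun _ => ((p : ℂ) ^ n) ^ 2)
      fun χ hχ => by rw [(Finset.mem_filter.1 hχ).2],
    Finset.sum_const, Finset.sum_const, ← Fintype.card_subtype, ← Fintype.card_subtype,
    ← Nat.card_eq_fintype_card, ← Nat.card_eq_fintype_card, card_linear_eq, card_unitsHom, hidx,
    hcard] at h2
  simp only [nsmul_eq_mul, mul_one] at h2
  have h3 : p ^ (2 * n) * (1 + Nat.card {χ : Cfsg.IrrCharacter P // (χ : P → ℂ) 1 = (p : ℂ) ^ n}) =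
      p ^ (2 * n) * p := by
    rw [← pow_succ]
    have : ((p ^ (2 * n) * (1 + Nat.card {χ : Cfsg.IrrCharacter P // (χ : P → ℂ) 1 = (p : ℂ) ^ n}) : ℕ) : ℂ)
        = (p ^ (2 * n + 1) : ℕ) := by
      rw [← h2]; push_cast; ring
    exact_mod_cast this
  have := Nat.eq_of_mul_eq_mul_left (pow_pos hp.pos _) h3
  omega


end Cfsg.Agent.S0894
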