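import Cfsg.Statements.S0898
import Cfsg.Agent.H3.Cd4
import Cfsg.Agent.H3.Misc2
import Cfsg.Agent.H3.Monomial

set_option autoImplicit false
open Cfsg

open Cfsg CfsgH3 CfsgH4 CfsgCd Function Subgroup
open CfsgH2 hiding cj cj_apply isPGroup_pCore le_pCore isNilpotent_map card_mul_relIndex
open scoped ComplexConjugate commutatorElement CfsgH2

namespace Cfsg.Agent.S0898
theorem key {K : Type*} [Group K] [Fintype K] (H : Subgroup K) [H.Normal] [Fintype H] {χ : K → ℂ} (hχ : IsCharacter K χ)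
    (hk : ∃ h ∈ H, χ h ≠ χ 1) (A : K → Prop) [DecidablePred A] (hA : ∀ y, ¬ A y → ∀ h ∈ H, χ (h * y) = χ y) :
    ∑ y with A y, ‖avg H χ y‖ ^ 2 + Nat.card K ≤ ∑ y with A y, ‖χ y‖ ^ 2 := by
  have a1 : classInner (avg H χ) (avg H χ) = classInner (avg H χ) χ := by
    rw [classInner, classInner]
    congr 1
    have : ∀ n : H, ∑ y, avg H χ y * conj (χ (n * y)) = ∑ y, avg H χ y * conj (χ y) := fun n => by
      rw [← Equiv.sum_comp (Equiv.mulLeft (n : K)) fun y => avg H χ y * conj (χ y)]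
      simp only [Equiv.coe_mulLeft, avg_mul n.2]
    calc _ = ∑ y, (Nat.card H : ℂ)⁻¹ * ∑ n : H, avg H χ y * conj (χ (n * y)) := Finset.sum_congr rfl fun y _ => by
          rw [← Finset.mul_sum, mul_left_comm, ← map_sum]
          nth_rw 2 [avg]
          simp
      _ = _ := by
          rw [← Finset.mul_sum, Finset.sum_comm, Finset.sum_congr rfl fun n _ => this n, Finset.sum_const, nsmul_eq_mul,
            Finset.card_univ, ← Nat.card_eq_fintype_card, inv_mul_cancel_left₀ (natCard_ne_zero H)]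
  have g := hχ.isGen.sub (isCharacter_avg (N := H) hχ).isGen
  obtain ⟨n, hn⟩ := g.exists_int_classInner g
  have a2 : (1 : ℝ) ≤ n := by
    have b := classInner_self_re_nonneg (χ - avg H χ)
    rw [hn, Complex.intCast_re, Int.cast_nonneg_iff] at b
    refine Int.cast_one (R := ℝ) ▸ Int.cast_le.2 (b.lt_of_ne fun e => ?_)
    rw [← e, Int.cast_zero, classInner_self_eq_zero, sub_eq_zero] at hn
    obtain ⟨h, h1, h2⟩ := hk
    exact h2 (by rw [hn, ← mul_one h, avg_mul h1])
  rw [classInner_sub_left, classInner_sub_right, classInner_sub_right, a1, sub_self, sub_zero,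
    hχ.classInner_comm (isCharacter_avg hχ), ← a1] at hn
  have a3 := congrArg Complex.re hn
  rw [Complex.sub_re, classInner_self_re, classInner_self_re, Complex.intCast_re, ← mul_sub,
    ← Finset.sum_filter_add_sum_filter_not _ A, ← Finset.sum_filter_add_sum_filter_not _ A fun y => ‖avg H χ y‖ ^ 2] at a3
  have a4 : ∑ y with ¬ A y, ‖avg H χ y‖ ^ 2 = ∑ y with ¬ A y, ‖χ y‖ ^ 2 := Finset.sum_congr rfl fun y hy => by
    rw [avg, Finset.sum_congr rfl fun (n : H) _ => hA y (Finset.mem_filter.1 hy).2 n n.2, Finset.sum_const, nsmul_eq_mul,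
      Finset.card_univ, ← Nat.card_eq_fintype_card, inv_mul_cancel_left₀ (natCard_ne_zero H)]
  have a5 : (0 : ℝ) < Nat.card K := Nat.cast_pos.2 Nat.card_pos
  rw [a4, inv_mul_eq_iff_eq_mul₀ a5.ne'] at a3
  nlinarith
theorem one {G : Type*} [Group G] [Fintype G] (H : Subgroup G) [Fintype H] (hab : ∀ a ∈ H, ∀ b ∈ H, a * b = b * a)
    (hZ : H ⊓ center G = ⊥) (hone : ∀ g : G, g ∉ center G → ∀ a : G, H ⊓ C1[g] ≠ ⊥ → H ⊓ C1[a * g * a⁻¹] ≠ ⊥ → a ∈ N[H])
    {χ : G → ℂ} (hχ : IsIrrCharacter G χ) (hker : ∃ h ∈ H, χ h ≠ χ 1) : Nat.card H * ‖avg H χ 1‖ ^ 2 < ‖χ 1‖ ^ 2 := by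
  classical
  let X : Set G := {g | g ∉ center G ∧ H ⊓ C1[g] ≠ ⊥}
  have x1 : X ⊆ N[H] := fun g hg => hone g hg.1 g hg.2 (by simpa using hg.2)
  have x2 : ∀ n ∈ N[H], ∀ s ∈ X, n * s * n⁻¹ ∈ X := fun n hn s hs => ⟨fun e => hs.1 (by
      simpa [mul_assoc] using (inferInstance : (center G).Normal).conj_mem' _ e n), by
    obtain ⟨⟨h, h1, h2⟩, h3⟩ := ne_bot_iff_exists_ne_one.1 hs.2
    refine ne_bot_iff_exists_ne_one.2 ⟨⟨n * h * n⁻¹, conj_mem_of_norm hn h1, mem_centralizer_singleton_iff.2 ?_⟩, fun e => h3 ?_⟩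
    · rw [conj_mul, conj_mul, mem_centralizer_singleton_iff.1 h2]
    · exact Subtype.ext (by simpa using congrArg Subtype.val e)⟩
  have x3 := sum_conj_tiset (N := N[H]) x1 x2 (fun g hg s hs e => hg (hone s hs.1 g hs.2 e.2))
    (hχ.isClassFunction.map fun z => ((‖z‖ ^ 2 : ℝ) : ℂ))
  have x4 : (N[H]).index * ∑ g with g ∈ X, ‖χ g‖ ^ 2 < (N[H]).index * Nat.card N[H] := by
    rw [← Nat.cast_mul, index_mul_card, ← sum_norm_sq_of_irr hχ]
    norm_cast at x3
    refine lt_of_eq_of_lt (by convert x3.symm) (Finset.sum_lt_sum_of_subset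
      (Finset.filter_subset (fun g => ∃ x, x * g * x⁻¹ ∈ X) _) (Finset.mem_univ 1)
      (by simp [X]) (pow_pos (norm_pos_iff.2 hχ.apply_one_ne_zero) 2) fun _ _ _ => sq_nonneg _)
  replace x4 := lt_of_mul_lt_mul_left x4 (Nat.cast_nonneg _)
  have av : ∀ y : N[H], avg (H.subgroupOf N[H]) (fun x => χ x) y = avg H χ y := fun y => by
    rw [avg, avg, Nat.card_congr (subgroupOfEquivOfLe le_normalizer).toEquiv,
      ← Equiv.sum_comp (subgroupOfEquivOfLe (H := H) le_normalizer).toEquiv]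
    rfl
  obtain ⟨h, h1, h2⟩ := hker
  have k := key (H.subgroupOf N[H]) (hχ.isCharacter.restrict N[H]) ⟨⟨h, le_normalizer h1⟩, h1, h2⟩
    (fun y => (y : G) ∈ center G ∨ (y : G) ∈ X) fun y hy a ha => by
      obtain ⟨x, -, hx⟩ := CfsgH3.exists_conj_of_fpf (K := H) (g := y) (fun _ => conj_mem_of_norm y.2) (fun c hc e => by_contra fun n =>
        hy (or_iff_not_imp_left.2 fun l => ⟨l, ne_bot_iff_exists_ne_one.2
          ⟨⟨c, hc, mem_centralizer_singleton_iff.2 e.symm⟩, fun e => n (congrArg Subtype.val e)⟩⟩)) ha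
      exact (congrArg χ hx.symm).trans (hχ.isClassFunction _ _)
  have tr : ∀ f : G → ℝ, ∑ y ∈ Finset.univ.filter fun y : N[H] => (y : G) ∈ center G ∨ (y : G) ∈ X, f y = ∑ y with y ∈ center G ∨ y ∈ X, f y := fun f =>
    Finset.sum_bij (fun (y : N[H]) _ => y.1) (by simp) (by simp) (fun y hy => ⟨⟨y, (Finset.mem_filter.1 hy).2.elim
      (fun l => center_le_normalizer _ l) fun l => x1 l⟩, by simpa using hy, rfl⟩) (by simp)
  simp only [av] at k
  rw [tr fun y => ‖avg H χ y‖ ^ 2, tr fun y => ‖χ y‖ ^ 2, Finset.filter_or (p := (· ∈ center G))] at k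
  have u : ∑ y ∈ Finset.univ.filter (· ∈ center G) ∪ Finset.univ.filter (· ∈ X), ‖χ y‖ ^ 2 =
      Nat.card (center G) * ‖χ 1‖ ^ 2 + ∑ g with g ∈ X, ‖χ g‖ ^ 2 := by
    rw [Finset.sum_union (Finset.disjoint_filter.2 fun y _ l m => m.1 l), Finset.sum_congr rfl fun y hy => by
      rw [hχ.norm_apply_of_mem_center (Finset.mem_filter.1 hy).2], Finset.sum_const, nsmul_eq_mul, Nat.card_eq_fintype_card,
      Fintype.card_subtype]
  have w : Nat.card (center G) * (Nat.card H * ‖avg H χ 1‖ ^ 2) ≤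
      ∑ y ∈ Finset.univ.filter (· ∈ center G) ∪ Finset.univ.filter (· ∈ X), ‖avg H χ y‖ ^ 2 := by
    have inj : Injective fun p : center G × H => (p.2 : G) * p.1 := fun p q e => by
      have e : (p.2 : G) * p.1 = q.2 * q.1 := e
      have : (q.2 : G)⁻¹ * p.2 ∈ H ⊓ center G := ⟨H.mul_mem (H.inv_mem q.2.2) p.2.2, by
        rw [show (q.2 : G)⁻¹ * p.2 = q.1 * (p.1 : G)⁻¹ by rw [eq_mul_inv_iff_mul_eq, mul_assoc, e, inv_mul_cancel_left]]
        exact (center G).mul_mem q.1.2 ((center G).inv_mem p.1.2)⟩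
      rw [hZ, mem_bot, inv_mul_eq_one] at this
      exact Prod.ext (Subtype.ext (mul_left_cancel (this ▸ e))) (Subtype.ext this.symm)
    refine le_trans (le_of_eq ?_) (Finset.sum_le_sum_of_subset_of_nonneg (s := Finset.univ.map ⟨_, inj⟩) ?_ fun _ _ _ => sq_nonneg _)
    · rw [Finset.sum_map, Finset.sum_congr rfl (g := fun _ => ‖avg H χ 1‖ ^ 2) fun p _ => ?_, Finset.sum_const, nsmul_eq_mul,
        Finset.card_univ, ← Nat.card_eq_fintype_card, Nat.card_prod, Nat.cast_mul, mul_assoc]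
      have m := hχ.norm_apply_of_mem_center p.1.2
      have : χ 1 * avg H χ p.1 = avg H χ 1 * χ p.1 := by
        rw [avg, avg, mul_left_comm, Finset.mul_sum, mul_assoc, Finset.sum_mul]
        simp only [hχ.isCharacter.apply_mul_of_norm_eq m, mul_one]
      have := congrArg norm this
      rw [norm_mul, norm_mul, m, mul_comm] at this
      rw [Function.Embedding.coeFn_mk, avg_mul p.2.2, mul_right_cancel₀ (norm_ne_zero_iff.2 hχ.apply_one_ne_zero) this]
    · intro y hy
      obtain ⟨⟨z, a⟩, -, rfl⟩ := Finset.mem_map.1 hy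
      rw [← Finset.filter_or, Finset.mem_filter]
      refine ⟨Finset.mem_univ _, or_iff_not_imp_left.2 fun l => ⟨l, ne_bot_iff_exists_ne_one.2
        ⟨⟨h, h1, mem_centralizer_singleton_iff.2 ?_⟩, fun e => h2 (congrArg χ (congrArg Subtype.val e))⟩⟩⟩
      show h * (a * z) = a * z * h
      rw [← mul_assoc, hab h h1 a a.2, mul_assoc, mem_center_iff.1 z.2 h, mul_assoc]
  exact lt_of_mul_lt_mul_left (a := (Nat.card (center G) : ℝ)) (by linarith) (Nat.cast_nonneg _)

/-- Let H be an abelian subgroup of the finite group G meeting the centre of G trivially, such that for every non-central g the centralizer of g has nontrivial intersection with at most one conjugate of H. Let χ be an irreducible character of G with χ h ≠ χ 1 for some h in H, and let c be the inner product of the restriction of χ to H with the principal character. Then χ(1)² > (order of H)·c²; and if in addition χ 1 ≠ 1 and no proper normal subgroup of G contains H, then (1 + χ 1)² > order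 of H (both sides read as real numbers). -/
theorem result {G : Type*} [Group G] [Fintype G] (H : Subgroup G) [Fintype H] (hab : ∀ a ∈ H, ∀ b ∈ H, a * b = b * a) (hZ : H ⊓ Subgroup.center G = ⊥) (hone : ∀ g : G, g ∉ Subgroup.center G → ∀ a b : G, Subgroup.centralizer ({g} : Set G) ⊓ H.map (MulAut.conj a).toMonoidHom ≠ ⊥ → Subgroup.centralizer ({g} : Set G) ⊓ H.map (MulAut.conj b).toMonoidHom ≠ ⊥ → H.map (MulAut.conj a).toMonoidHom = H.map (MulAut.conj b).toMonoidHom) (χ : G → ℂ) (hχ : Cfsg.IsIrrCharacter G χ) (hker : ∃ h ∈ H, χ h ≠ χ 1) : (χ 1).re ^ 2 > (Nat.card H : ℝ) * (Cfsg.classInner (fun h : H => χ h) (fun _ => 1)).re ^ 2 ∧ (χ 1 ≠ 1 → (∀ M : Subgroup G, M.Normal → H ≤ M → M = ⊤) → (1 + (χ 1).re) ^ 2 > (Nat.card H : ℝ)) := by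
  have hone' : ∀ g : G, g ∉ center G → ∀ a : G, H ⊓ C1[g] ≠ ⊥ → H ⊓ C1[a * g * a⁻¹] ≠ ⊥ → a ∈ N[H] := fun g hg a h1 h2 => by
    have e : H.map (MulAut.conj (1 : G)).toMonoidHom = H := by ext; simp
    have := hone g hg 1 a⁻¹ (by rwa [e, inf_comm]) (by
      obtain ⟨⟨h, h3, h4⟩, h5⟩ := ne_bot_iff_exists_ne_one.1 h2
      refine ne_bot_iff_exists_ne_one.2 ⟨⟨a⁻¹ * h * a, mem_centralizer_singleton_iff.2 ?_, h, h3, by simp⟩, fun e => h5 ?_⟩
      · have := mem_centralizer_singleton_iff.1 h4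
        calc _ = a⁻¹ * (h * (a * g * a⁻¹)) * a := by group
          _ = _ := by rw [this]; group
      · exact Subtype.ext (by simpa [mul_assoc] using congrArg (fun x => a * x * a⁻¹) (congrArg Subtype.val e)))
    rw [e] at this
    exact inv_mem_iff.1 (mem_normalizer_iff_map_conj_eq.2 this.symm)
  have p1 : ∀ ψ, IsIrrCharacter G ψ → (∃ h ∈ H, ψ h ≠ ψ 1) →
      √(Nat.card H) * (classInner (fun h : H => ψ h) fun _ => 1).re < (ψ 1).re := fun ψ hψ hk => by
    have := one H hab hZ hone' hψ hk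
    obtain ⟨n, hn⟩ := (hψ.isCharacter.restrict H).exists_nat_classInner isCharacter_one
    obtain ⟨d, hd⟩ := hψ.isCharacter.exists_nat_apply_one
    rw [avg_one, hn, hd, Complex.norm_natCast, Complex.norm_natCast] at this
    rw [hn, hd, Complex.natCast_re, Complex.natCast_re]
    exact lt_of_pow_lt_pow_left₀ 2 d.cast_nonneg (by rwa [mul_pow, Real.sq_sqrt (Nat.cast_nonneg _)])
  obtain ⟨d, hd0, hd⟩ := hχ.exists_pos_apply_one
  refine ⟨?_, fun h1 hM => ?_⟩
  · have := pow_lt_pow_left₀ (p1 χ hχ hker) (by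
      obtain ⟨n, hn⟩ := (hχ.isCharacter.restrict H).exists_nat_classInner isCharacter_one
      rw [hn, Complex.natCast_re]
      positivity) two_ne_zero
    rwa [mul_pow, Real.sq_sqrt (Nat.cast_nonneg _)] at this
  have a1 : classInner (χ * fun g => conj (χ g)) (fun _ => 1) = 1 := by
    rw [classInner_mul_left]
    simpa [Pi.mul_def] using hχ.classInner_self
  have a2 := (hχ.isCharacter.mul hχ.isCharacter.conj).sub_of_constituent isIrr_one (a1.trans_ne one_ne_zero)
  obtain ⟨m, a3, a4⟩ := a2.exists_eq_sum_irr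
  have a5 : ∀ φ : IrrCharacter G, m φ ≠ 0 → ∃ h ∈ H, φ.1 h ≠ φ.1 1 := fun φ h0 => by
    by_contra! e
    have := a3 φ
    rw [φ.2.eq_one_of_forall_eq fun g => φ.2.isCharacter.mem_charKer.1 (by
      rw [hM _ φ.2.isCharacter.charKer_normal fun x hx => φ.2.isCharacter.mem_charKer.2 (e x hx)]; trivial),
      classInner_sub_left, a1, isIrr_one.classInner_self, sub_self] at this
    exact h0 (by exact_mod_cast this.symm)
  have a6 : ∑ φ : IrrCharacter G, m φ * (φ.1 1).re = d ^ 2 - 1 := by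
    have := congrArg Complex.re (congrFun a4 1)
    simpa [hd, sq] using this.symm
  have d2 : (2 : ℝ) ≤ d := by
    have : d ≠ 1 := fun e => h1 (by rw [hd, e, Nat.cast_one])
    exact_mod_cast (by omega : 2 ≤ d)
  have a7 : ∑ φ : IrrCharacter G, m φ * (classInner (fun h : H => φ.1 h) fun _ => 1).re =
      (classInner (fun h : H => χ h) fun h : H => χ h).re - 1 := by
    have := congrArg (fun f : G → ℂ => (classInner (fun h : H => f h) fun _ => 1).re) a4
    simp only [Finset.sum_apply, Pi.smul_apply, Pi.sub_apply, Pi.mul_apply] at this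
    rw [show (fun h : H => ∑ φ : IrrCharacter G, (m φ : ℂ) • φ.1 h) = ∑ φ : IrrCharacter G, (m φ : ℂ) • fun h : H => φ.1 h by
      ext; simp, classInner_sum_left, show (fun h : H => χ h * conj (χ h) - 1) = ((fun h : H => χ h) * fun h : H => conj (χ h)) -
        fun _ => 1 from rfl, classInner_sub_left, classInner_mul_left, isIrr_one.classInner_self] at this
    simpa [classInner_smul_left, Pi.mul_def] using this.symm
  have a8 : (d : ℝ) ≤ (classInner (fun h : H => χ h) fun h : H => χ h).re := by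
    obtain ⟨n, b2, b1⟩ := (hχ.isCharacter.restrict H).exists_eq_sum_irr
    have := congrFun b1 1
    simp only [Finset.sum_apply, Pi.smul_apply, smul_eq_mul, OneMemClass.coe_one, hd,
      fun φ : IrrCharacter H => φ.2.apply_one_of_comm fun a b => Subtype.ext (hab a a.2 b b.2), mul_one] at this
    rw [(hχ.isClassFunction.restrict H).classInner_self_re, show d = ∑ φ, n φ by exact_mod_cast this]
    simp only [b2, Complex.norm_natCast]
    exact_mod_cast Finset.sum_le_sum fun φ _ => Nat.le_self_pow two_ne_zero (n φ)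
  have a9 : √(Nat.card H) * ∑ φ : IrrCharacter G, m φ * (classInner (fun h : H => φ.1 h) fun _ => 1).re <
      ∑ φ : IrrCharacter G, m φ * (φ.1 1).re := by
    rw [Finset.mul_sum]
    obtain ⟨φ, -, h0⟩ := Finset.exists_ne_zero_of_sum_ne_zero (a6.trans_ne (by nlinarith))
    have h0 : m φ ≠ 0 := fun e => h0 (by simp [e])
    refine Finset.sum_lt_sum (fun ψ _ => ?_) ⟨φ, Finset.mem_univ _, ?_⟩ <;> rw [mul_left_comm]
    · rcases eq_or_ne (m ψ) 0 with e | e
      · simp [e]
      · exact mul_le_mul_of_nonneg_left (p1 _ ψ.2 (a5 ψ e)).le (Nat.cast_nonneg _)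
    · exact mul_lt_mul_of_pos_left (p1 _ φ.2 (a5 φ h0)) (Nat.cast_pos.2 (Nat.pos_of_ne_zero h0))
  rw [a6, a7] at a9
  rw [hd, Complex.natCast_re, gt_iff_lt, ← Real.sqrt_lt' (by linarith)]
  have := Real.sqrt_nonneg (Nat.card H)
  nlinarith


end Cfsg.Agent.S0898
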