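import Cfsg.Statements.S0899
import Cfsg.Agent.H3.Ito
import Cfsg.Agent.S0898

set_option autoImplicit false
open Cfsg

open Subgroup Cfsg CfsgH3 CfsgH4 CfsgIto Function
open CfsgH2 hiding cj_apply
open scoped commutatorElement ComplexConjugate

namespace Cfsg.Agent.S0899
universe u
theorem ftb {p : ℕ} [hp : Fact p.Prime] (N : ℕ) : ∀ (G : Type u) [Group G] [Finite G] (χ : G → ℂ), Nat.card G = N → IsCharacter G χ →
    (∀ g, χ g = χ 1 → g = 1) → ((charDegree χ + 1) ^ 2 ≤ p ∨ charDegree χ + 1 < p ∧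
      ∀ K Q : Subgroup G, ¬ p ^ 2 ∣ o[K] → Syl p Q K → K ≤ N[Q]) → ∀ P : Subgroup G, Syl p P ⊤ → P.Normal := by
  induction N using Nat.strong_induction_on with | _ N ih =>
  intro G _ _ χ hN hχ hf h P hP
  have i1 : ∀ L Q : Subgroup G, L ≠ ⊤ → Syl p Q L → L ≤ N[Q] := fun L Q hL hQ => by
    have := ih _ (hN ▸ CfsgH2.card_lt_of_ne_top hL) L (fun x => χ x) rfl (hχ.restrict L) (fun g e => Subtype.ext (hf g e))
      (h.imp_right fun a => ⟨a.1, fun K R b c => (inj_le_norm L.subtype_injective).1 (a.2 _ _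
        (by rwa [card_map_of_injective L.subtype_injective]) ((inj_syl L.subtype_injective).2 c))⟩) _ hQ.subgroupOf
    exact le_normalizer_of_normal_subgroupOf hQ.le
  have hd : charDegree χ + 1 < p := h.elim (fun a => by have := hp.out.two_le; nlinarith) And.left
  by_contra hn
  have i2 : ∀ S : Subgroup G, Syl p S ⊤ → ¬ S.Normal := fun S hS e => hn (hS.eq_of_norm hP le_normalizer_of_normal ▸ e)
  have i3 : ∀ S : Subgroup G, Syl p S ⊤ → S ≤ commutator G := fun S hS => by
    obtain ⟨M, -, m1, m2, m3, m4⟩ := hS.exists_transfer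
    by_contra c
    have m0 : M ≠ ⊤ := fun e => c (by rw [e, top_inf_eq] at m3; exact m3.le.trans inf_le_left)
    haveI : M.Normal := normalizer_eq_top_iff.1 (top_le_iff.1 m1)
    have q := hS.inf_norm (K := M) le_top le_normalizer_of_normal
    have q1 : (S ⊓ M).Normal := normalizer_eq_top_iff.1 (top_le_iff.1 (m1.trans (q.norm_le_of_norm (i1 _ _ m0 q))))
    refine hd.ne (ito hχ hf hd.le ⟨3, ![⊥, S ⊓ M, M, ⊤], rfl, rfl, ?_, fun i => ?_, fun i => ?_⟩ hS (i2 S hS)).1
    · refine Fin.monotone_iff_le_succ.2 fun i => ?_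
      fin_cases i
      exacts [bot_le, inf_le_right, le_top]
    · fin_cases i
      exacts [normal_bot, q1, ‹M.Normal›, normal_top]
    · fin_cases i
      · exact .inl ⟨_, (relIndex_bot_left _).trans q.card_eq⟩
      · exact .inr ((coprime_iff_not_dvd hp.out).2 (q.not_dvd_of_le le_rfl))
      · refine .inl ((Nat.dvd_prime_pow hp.out).1 (Dvd.dvd.trans ?_ hS.card_eq.dvd) |>.imp fun _ => And.right)
        show M.relIndex ⊤ ∣ _
        rw [← m4, sup_comm, relIndex_sup_of_norm le_normalizer_of_normal]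
        exact relIndex_dvd_card _ _
  have i4 : ∀ S : Subgroup G, Syl p S ⊤ → S ⊓ center G = ⊥ := fun S hS => eq_bot_iff.2 fun x hx => by
    have := central_pow_index_mem (H := S) hx.2 (i3 S hS hx.1)
    rw [commutator_eq_bot_iff_le_centralizer.2 (comm_pg hχ hf hd.le hS.pg), mem_bot, ← orderOf_dvd_iff_pow_eq_one] at this
    exact eq_one_of_coprime_order hS.pg hx.1 (((coprime_iff_not_dvd hp.out).2
      (relIndex_top_right S ▸ hS.not_dvd_of_le le_rfl)).coprime_dvd_left this)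
  have i5 : ∀ S T : Subgroup G, Syl p S ⊤ → Syl p T ⊤ → ∀ x ∈ S, x ∈ T → x ≠ 1 → S = T := fun S T hS hT x a b c => by
    have k : ∀ S : Subgroup G, Syl p S ⊤ → x ∈ S → Syl p S C1[x] := fun S hS a => hS.mono (fun y hy =>
      mem_centralizer_singleton_iff.2 (comm_pg hχ hf hd.le hS.pg a y hy)) le_top
    refine (k T hT b).eq_of_norm (k S hS a) (i1 _ _ (fun e => c (mem_bot.1 (i4 S hS ▸ ⟨a, mem_center_iff.2 fun g =>
      mem_centralizer_singleton_iff.1 (e.ge (mem_top g))⟩))) (k T hT b))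
  have i6 : P ≠ ⊥ := fun e => hn (e ▸ normal_bot)
  obtain ⟨⟨x, hx⟩, x1⟩ := ne_bot_iff_exists_ne_one.1 i6
  have := Fintype.ofFinite G
  have := Fintype.ofFinite P
  obtain ⟨ψ, hψ, h2, h3⟩ := exists_con hχ (x := x) fun e => x1 (Subtype.ext (hf x e))
  have h4 : charDegree ψ ≤ charDegree χ := hχ.degree_le_of_constituent hψ h2 (coe_charDegree hψ.isCharacter).symm (coe_charDegree hχ).symm
  have h5 := (Cfsg.Agent.S0898.result P (fun a ha b hb => comm_pg hχ hf hd.le hP.pg hb a ha) (i4 P hP) (fun g hg a b h1 h2 => by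
    obtain ⟨Q, hQ⟩ := exists_syl p C1[g]
    obtain ⟨S, hS, l⟩ := exists_syl_ge hQ.pg le_top
    have k : ∀ a : G, C1[g] ⊓ P.map (MulAut.conj a).toMonoidHom ≠ ⊥ → P.map (MulAut.conj a).toMonoidHom = S := fun a h1 => by
      obtain ⟨⟨y, y1, y2⟩, y3⟩ := ne_bot_iff_exists_ne_one.1 h1
      have t : Syl p (P.map (MulAut.conj a).toMonoidHom) ⊤ := hP.map_cj_mem (mem_top a)
      obtain ⟨k, hk⟩ := pgroup_pow_eq_one t.pg y2
      exact i5 _ _ t hS y y2 (l (hQ.mem_of_norm (i1 _ _ (fun e => hg (mem_center_iff.2 fun z =>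
        mem_centralizer_singleton_iff.1 (e.ge (mem_top z)))) hQ) y1 hk)) fun e => y3 (Subtype.ext e)
    rw [k a h1, k b h2]) ψ hψ ⟨x, hx, h3⟩).2 (fun e => h3 ((lin_comm hψ.isCharacter e (i3 P hP hx)).trans e.symm)) fun M m l => by
      by_contra c
      exact hn (normalizer_eq_top_iff.1 (top_le_iff.1 (le_normalizer_of_normal.trans
        ((hP.mono l le_top).norm_le_of_norm (i1 _ _ c (hP.mono l le_top))))))
  rw [← coe_charDegree hψ.isCharacter, Complex.natCast_re] at h5
  have h6 : (charDegree χ + 1) ^ 2 ≤ o[P] := h.elim (fun a => a.trans (Nat.le_of_dvd Nat.card_pos (dvd_card_of_pgroup hP.pg i6)))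
    fun a => (Nat.pow_le_pow_left a.1.le 2).trans (Nat.le_of_dvd Nat.card_pos (hP.pow_dvd (by_contra fun c =>
      hn (normalizer_eq_top_iff.1 (top_le_iff.1 (a.2 _ _ c hP))))))
  have h7 : o[P] < (1 + charDegree ψ) ^ 2 := by exact_mod_cast h5
  nlinarith

/-- Let G be a finite group with a faithful complex representation of degree n (on Fin n → ℂ) and p a prime. Suppose either that (n + 1) ^ 2 ≤ p, or that n + 1 < p and every subgroup of G whose order is not divisible by p ^ 2 has a normal Sylow p-subgroup. Then every Sylow p-subgroup of G is normal. -/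
theorem result {G : Type*} [Group G] [Finite G] (n : ℕ) (ρ : Representation ℂ G (Fin n → ℂ)) (hρ : Function.Injective ρ) (p : ℕ) [Fact p.Prime] (h : (n + 1) ^ 2 ≤ p ∨ (n + 1 < p ∧ ∀ K : Subgroup G, ¬ p ^ 2 ∣ Nat.card K → ∀ Q : Sylow p K, (Q : Subgroup K).Normal)) (P : Sylow p G) : (P : Subgroup G).Normal := by
  have e : charDegree ρ.character = n := by
    have := coe_charDegree (G := G) ⟨n, ρ, rfl⟩
    rw [Representation.char_one, Module.finrank_fin_fun] at this
    exact_mod_cast this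
  have k : (∀ K : Subgroup G, ¬ p ^ 2 ∣ o[K] → ∀ Q : Sylow p K, (Q : Subgroup K).Normal) →
      ∀ K Q : Subgroup G, ¬ p ^ 2 ∣ o[K] → Syl p Q K → K ≤ N[Q] := fun a K Q b c => by
    obtain ⟨R, rfl⟩ := c.exists_sub
    haveI := a K b R
    exact (map_subtype_top K).ge.trans (map_le_norm_map _ le_normalizer_of_normal)
  exact ftb _ G ρ.character rfl ⟨n, ρ, rfl⟩ (fun g hg => hρ (((character_eq_one_iff ρ g).1 hg).trans (map_one ρ).symm))
    (by rw [e]; exact h.imp_right fun a => ⟨a.1, fun K Q b c => k a.2 K Q b c⟩) _ (syl_top P)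


end Cfsg.Agent.S0899
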