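import Cfsg.Statements.S0900
import Cfsg.Agent.H3.Misc2

set_option autoImplicit false
open Cfsg

namespace Cfsg.Agent.S0900
open CfsgH3

/-- Let N be a normal subgroup of the finite group G, χ an irreducible character of G and ϑ an irreducible character of N having nonzero inner product with the restriction of χ. Consider: (a) the restriction of χ to N is e • ϑ for a natural number e with e ^ 2 equal to the index of N; (b) χ vanishes outside N and ϑ is invariant under conjugation by G; (c) ϑ is invariant and every irreducible character of G having nonzero inner product with the function induced from ϑ equals χ. Then (a) ↔ (b) and (a) ↔ (c). -/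
theorem result {G : Type*} [Group G] [Fintype G] (N : Subgroup G) [hN : N.Normal] [Fintype N] (χ : G → ℂ) (hχ : Cfsg.IsIrrCharacter G χ) (ϑ : N → ℂ) (hϑ : Cfsg.IsIrrCharacter N ϑ) (hcon : Cfsg.classInner (fun n : N => χ n) ϑ ≠ 0) : ((∃ e : ℕ, (fun n : N => χ n) = (e : ℂ) • ϑ ∧ e ^ 2 = N.index) ↔ ((∀ g : G, g ∉ N → χ g = 0) ∧ ∀ (g : G) (n : N), ϑ ⟨g * n * g⁻¹, hN.conj_mem (n : G) n.2 g⟩ = ϑ n)) ∧ ((∃ e : ℕ, (fun n : N => χ n) = (e : ℂ) • ϑ ∧ e ^ 2 = N.index) ↔ (∀ (g : G) (n : N), ϑ ⟨g * n * g⁻¹, hN.conj_mem (n : G) n.2 g⟩ = ϑ n ∧ ∀ ψ : G → ℂ, Cfsg.IsIrrCharacter G ψ → Cfsg.classInner (Cfsg.indFun N ϑ) ψ ≠ 0 → ψ = χ)) := by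
  classical
  obtain ⟨m, hm⟩ := (hχ.isCharacter.restrict N).exists_nat_classInner hϑ.isCharacter
  have hN0 := natCard_ne_zero N
  have hinv : (∃ e : ℕ, (fun n : N => χ n) = (e : ℂ) • ϑ ∧ e ^ 2 = N.index) ↔
      (∀ g, cj g ϑ = ϑ) ∧ m ^ 2 = N.index := by
    constructor
    · rintro ⟨e, h1, h2⟩
      have h3 : e = m := by
        rw [h1, classInner_smul_left, hϑ.classInner_self, mul_one] at hm
        exact_mod_cast hm
      subst h3
      refine ⟨fun g => ?_, h2⟩
      have := cj_restrict (N := N) hχ.isClassFunction g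
      rw [h1] at this
      exact smul_right_injective _ (hm ▸ hcon) this
    · rintro ⟨h1, h2⟩
      exact ⟨m, hm ▸ clifford_of_invariant hχ hϑ hcon h1, h2⟩
  have hi : (∀ (g : G) (n : N), ϑ ⟨g * n * g⁻¹, hN.conj_mem (n : G) n.2 g⟩ = ϑ n) ↔
      ∀ g, cj g ϑ = ϑ := forall_congr' fun g => funext_iff.symm
  rw [hinv, hi, forall_comm]
  refine ⟨?_, ?_⟩
  · rw [and_comm (a := ∀ g : G, g ∉ N → χ g = 0)]
    refine and_congr_right fun h => ?_
    have h1 := clifford_of_invariant hχ hϑ hcon h
    rw [hm] at h1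
    have h2 := sum_norm_sq_of_irr hχ
    have h3 := sum_norm_sq_of_irr hϑ
    rw [← Finset.sum_filter_add_sum_filter_not Finset.univ (· ∈ N), ← sum_subgroup_eq] at h2
    have h4 : ∑ n : N, ‖χ n‖ ^ 2 = m ^ 2 * Nat.card N := by
      rw [← h3, Finset.mul_sum]
      refine Finset.sum_congr rfl fun n _ => ?_
      rw [congrFun h1 n]
      simp [mul_pow]
    rw [h4, ← N.index_mul_card] at h2
    have h5 : (0 : ℝ) < Nat.card N := by exact_mod_cast Nat.card_pos
    push_cast at h2
    constructor
    · intro h6 g hg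
      have h7 : (m : ℝ) ^ 2 = N.index := by exact_mod_cast h6
      rw [h7, add_eq_left, Finset.sum_eq_zero_iff_of_nonneg fun _ _ => by positivity] at h2
      simpa using h2 g (by simpa using hg)
    · intro h6
      rw [Finset.sum_eq_zero fun g hg => by rw [h6 g (Finset.mem_filter.1 hg).2]; simp,
        add_zero] at h2
      exact_mod_cast mul_right_cancel₀ h5.ne' h2
  · have key : ∀ (P : Prop) (Q : N → G → Prop), (∀ b a, Q b a ∧ P) ↔ (∀ a b, Q b a) ∧ P :=
      fun P Q => ⟨fun h => ⟨fun a b => (h b a).1, (h 1 1).2⟩, fun h b a => ⟨h.1 a b, h.2⟩⟩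
    rw [key, hi]
    refine and_congr_right fun h' => ?_
    have h1 := classInner_indFun_self_of_invariant hϑ h'
    have h2 : Cfsg.classInner (Cfsg.indFun N ϑ) χ = m := by
      rw [hϑ.isCharacter.ind.classInner_comm hχ.isCharacter,
        classInner_indFun_right _ hχ.isClassFunction, hm]
    constructor
    · intro h3 ψ hψ h4
      have h5 : Cfsg.indFun N ϑ - (m : ℂ) • χ = 0 := by
        rw [← classInner_self_eq_zero, classInner_sub_left, classInner_sub_right,
          classInner_sub_right, classInner_smul_left, classInner_smul_left, classInner_smul_right,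
          classInner_smul_right, h1, h2, hχ.isCharacter.classInner_comm hϑ.isCharacter.ind, h2,
          hχ.classInner_self, ← h3]
        simp only [map_natCast]
        push_cast
        ring
      rw [sub_eq_zero.1 h5, classInner_smul_left] at h4
      exact (hχ.eq_of_classInner_ne_zero hψ (right_ne_zero_of_mul h4)).symm
    · intro h3
      have h4 := (isClassFunction_indFun ϑ).eq_smul_of_unique hχ h3
      rw [h4, h2, classInner_smul_left, classInner_smul_right, hχ.classInner_self] at h1
      simp only [map_natCast, mul_one] at h1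
      rw [pow_two]
      exact_mod_cast h1


end Cfsg.Agent.S0900
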