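import Cfsg.Statements.S0901
import Mathlib
import Cfsg.Agent.H4.Loc

set_option autoImplicit false
open Cfsg

namespace Cfsg.Agent.S0901
open CfsgH4



/-- Let M be a maximal ideal of the ring of algebraic integers containing the prime p, and let U be the set of complex roots of unity of order prime to p. Then reduction modulo M is injective on U, and every algebraic integer not in M is congruent modulo M to an element of U (so U maps bijectively onto the nonzero residues). -/
theorem result (p : ℕ) [Fact p.Prime] (M : Ideal Cfsg.AlgInt) (hM : Cfsg.IsPModular p M) : (∀ ε₁ ε₂ : Cfsg.AlgInt, (∃ m : ℕ, ¬ p ∣ m ∧ (ε₁ : ℂ) ^ m = 1) → (∃ m : ℕ, ¬ p ∣ m ∧ (ε₂ : ℂ) ^ m = 1) → ε₁ - ε₂ ∈ M → ε₁ = ε₂) ∧ (∀ a : Cfsg.AlgInt, a ∉ M → ∃ ε : Cfsg.AlgInt, (∃ m : ℕ, ¬ p ∣ m ∧ (ε : ℂ) ^ m = 1) ∧ a - ε ∈ M) := by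
  haveI : PMod p M := ⟨hM⟩
  have hp : p.Prime := Fact.out
  have key : ∀ (z : ℂ) (m : ℕ), ¬ p ∣ m → z ^ m = 1 → MemLocalIdeal M (z - 1) → z = 1 := by
    intro z m hm hz h
    by_contra hne
    have hm0 : 0 < m := Nat.pos_of_ne_zero (by rintro rfl; simp at hm)
    have hzl : z ∈ Loc M := mem_Loc_of_InP_sub h (one_mem _)
    have h1 : ∑ i ∈ Finset.range m, z ^ i = 0 := by
      have := mul_geom_sum z m
      rw [hz, sub_self] at this
      exact (mul_eq_zero.1 this).resolve_left (sub_ne_zero.2 hne)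
    have h2 := congrArg (red M) h1
    rw [red_sum _ _ (fun i _ => pow_mem hzl i), red_zero] at h2
    have h3 : red M z = 1 := by rw [← red_one, red_eq_iff hzl (one_mem _)]; exact h
    simp only [red_pow hzl, h3, one_pow, Finset.sum_const, Finset.card_range, nsmul_eq_mul,
      mul_one] at h2
    exact hm ((CharP.cast_eq_zero_iff (Res M) p m).1 h2)
  constructor
  · rintro ε₁ ε₂ ⟨m₁, hm₁, h₁⟩ ⟨m₂, hm₂, h₂⟩ h
    have hm20 : m₂ ≠ 0 := by rintro rfl; simp at hm₂
    have h0 : (ε₂ : ℂ) ≠ 0 := by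
      intro h0; rw [h0, zero_pow hm20] at h₂; exact zero_ne_one h₂
    have hinv : (ε₂ : ℂ)⁻¹ ∈ Loc M := by
      have : (ε₂ : ℂ)⁻¹ = ε₂ ^ (m₂ - 1) := by
        apply inv_eq_of_mul_eq_one_right
        rw [← pow_succ', Nat.sub_add_cancel (Nat.pos_of_ne_zero hm20), h₂]
      rw [this]; exact pow_mem (algInt_mem_Loc _) _
    have := key ((ε₁ : ℂ) * (ε₂ : ℂ)⁻¹) (m₁ * m₂) (fun h => (hp.dvd_mul.1 h).elim hm₁ hm₂)
      (by rw [mul_pow, inv_pow, pow_mul, h₁, mul_comm m₁, pow_mul, h₂]; simp) (by
        have h3 := InP.mul_right ((InP_algInt_iff _).2 h) hinv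
        convert h3 using 1
        push_cast
        field_simp)
    apply Subtype.ext
    field_simp at this
    exact this
  · intro a ha
    have hal : (a : ℂ) ∈ Loc M := algInt_mem_Loc a
    have h0 : red M a ≠ 0 := by rw [Ne, red_eq_zero_iff hal, InP_algInt_iff]; exact ha
    letI : Algebra (ZMod p) (Res M) := ZMod.algebra _ _
    have hint' : IsIntegral (ZMod p) (red M a) := by
      rw [red_of_mem hal]
      have h1 : IsIntegral ℤ (⟨a, hal⟩ : Loc M) :=
        (isIntegral_algHom_iff (Loc M).subtype.toIntAlgHom Subtype.val_injective).1 a.2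
      obtain ⟨f, hf, h2⟩ := h1
      refine ⟨f.map (Int.castRingHom _), hf.map _, ?_⟩
      have h3 := congrArg (res M) h2
      rw [Polynomial.hom_eval₂, map_zero] at h3
      rw [Polynomial.eval₂_map, ← h3]
      congr 1
      exact RingHom.ext_int _ _
    have hfin : Finite (Algebra.adjoin (ZMod p) {red M a}) := by
      have : Module.Finite (ZMod p) (Algebra.adjoin (ZMod p) {red M a}) :=
        Algebra.finite_adjoin_simple_of_isIntegral hint'
      exact Module.finite_of_finite (ZMod p)
    have hfo : IsOfFinOrder (red M a) := by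
      have h1 : ¬ Function.Injective (fun n : ℕ =>
          (⟨red M a ^ n, pow_mem (Algebra.self_mem_adjoin_singleton _ _) n⟩ :
            Algebra.adjoin (ZMod p) {red M a})) := not_injective_infinite_finite _
      by_contra hc
      apply h1
      intro i j hij
      have h2 : red M a ^ i = red M a ^ j := congrArg Subtype.val hij
      have h3 : ¬ IsOfFinOrder (Units.mk0 _ h0) := by
        rwa [← Units.isOfFinOrder_val]
      apply injective_pow_iff_not_isOfFinOrder.2 h3
      apply Units.ext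
      simpa using h2
    obtain ⟨n, hn, h1⟩ := isOfFinOrder_iff_pow_eq_one.1 hfo
    obtain ⟨k, m, hm, rfl⟩ := Nat.exists_eq_pow_mul_and_not_dvd hn.ne' p hp.ne_one
    have hm0 : 0 < m := Nat.pos_of_ne_zero (by rintro rfl; simp at hm)
    have h2 : red M a ^ m = 1 := by
      rw [← sub_eq_zero]
      have : (red M a ^ m - 1) ^ p ^ k = 0 := by
        rw [sub_pow_char_pow, ← pow_mul, mul_comm, h1]; simp
      exact pow_eq_zero_iff (pow_pos hp.pos k).ne' |>.1 this
    have hζ := Complex.isPrimitiveRoot_exp m hm0.ne'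
    set ζ := Complex.exp (2 * Real.pi * Complex.I / m)
    have hζi : IsIntegral ℤ ζ := hζ.isIntegral hm0
    have h3 := congrArg (Polynomial.eval (a : ℂ)) (Polynomial.X_pow_sub_one_eq_prod hm0 hζ)
    simp only [Polynomial.eval_sub, Polynomial.eval_pow, Polynomial.eval_X, Polynomial.eval_one,
      Polynomial.eval_prod, Polynomial.eval_C] at h3
    by_contra hc
    push Not at hc
    have h4 : ∀ s : Finset ℂ, (∀ z ∈ s, z ^ m = 1) → ∏ z ∈ s, ((a : ℂ) - z) ∈ Loc M ∧
        ¬ MemLocalIdeal M (∏ z ∈ s, ((a : ℂ) - z)) := by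
      intro s
      classical
      induction s using Finset.induction_on with
      | empty => intro _; rw [Finset.prod_empty]; exact ⟨one_mem _, not_InP_one⟩
      | insert z s hz ih =>
        intro h
        have h5 := ih fun w hw => h w (Finset.mem_insert_of_mem hw)
        have h6 := h z (Finset.mem_insert_self _ _)
        have h7 : IsIntegral ℤ z := IsIntegral.of_pow hm0 (by rw [h6]; exact isIntegral_one)
        have h8 : (a : ℂ) - z ∈ Loc M := sub_mem hal (mem_Loc_of_isIntegral h7)
        rw [Finset.prod_insert hz]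
        refine ⟨mul_mem h8 h5.1, fun h9 => (InP.or_of_mul h8 h5.1 h9).elim (fun h10 => ?_) h5.2⟩
        apply hc ⟨z, h7⟩ ⟨m, hm, h6⟩
        rw [← InP_algInt_iff]
        exact h10
    apply (h4 (Polynomial.nthRootsFinset m 1) fun z hz => (Polynomial.mem_nthRootsFinset hm0 1).1 hz).2
    rw [← h3, ← red_eq_iff (pow_mem hal m) (one_mem _), red_pow hal, h2, red_one]

end Cfsg.Agent.S0901
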