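import Cfsg.Statements.S0902
import Mathlib
import Cfsg.Agent.H4.Sec

set_option autoImplicit false
open Cfsg

open Cfsg CfsgH3 CfsgH4 CfsgH1 CfsgL0 MonoidAlgebra

namespace Cfsg.Agent.S0902

/-- If two irreducible characters of a finite group lie in the same block relative to one maximal ideal M of the algebraic integers containing the prime p, then at every element the difference of their central characters is an algebraic integer lying in every maximal ideal containing p; in particular they lie in the same block relative to any such ideal. -/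
theorem result {G : Type*} [Group G] [Finite G] (p : ℕ) [Fact p.Prime] (M : Ideal Cfsg.AlgInt) (hM : Cfsg.IsPModular p M) (χ ψ : Cfsg.IrrCharacter G) (h : Cfsg.SameBlock M (χ : G → ℂ) (ψ : G → ℂ)) (M' : Ideal Cfsg.AlgInt) (hM' : Cfsg.IsPModular p M') (g : G) : ∃ r : Cfsg.AlgInt, r ∈ M' ∧ (r : ℂ) = Cfsg.centralChar (χ : G → ℂ) g - Cfsg.centralChar (ψ : G → ℂ) g := by
  haveI : PMod p M := ⟨hM⟩
  haveI : PMod p M' := ⟨hM'⟩
  have hB := isPBlock_blockOf (M := M') χ.2
  obtain ⟨P⟩ : Nonempty (Sylow p G) := inferInstance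
  have h1 : fB (blockOf M' χ.1) ∈ LG G M := mem_LG.2 fun y => by
    have := card_mul_blockCoeff_mem (I := ZI) hB.fB_mem (y := y)
      (fun ψ _ => isIntegral_conj (ψ.2.isCharacter.isIntegral y)) P
    have h2 := mul_mem (inv_natCast_mem_Loc (M := M) P.not_dvd_index) (mem_Loc_of_isIntegral this)
    rwa [inv_mul_cancel_left₀ (Nat.cast_ne_zero.2 (index_ne_zero' _))] at h2
  have h2 : SameBlock M' χ.1 ψ.1 := mem_of_fB_mem_LG h1 (mem_blockOf_self χ) h
  refine ⟨⟨_, (isIntegral_centralChar χ.2 g).sub (isIntegral_centralChar ψ.2 g)⟩, ?_, rfl⟩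
  rw [← InP_algInt_iff]
  exact h2 g

end Cfsg.Agent.S0902
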