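import Cfsg.Statements.S0903
import Mathlib
import Cfsg.Agent.H4.Def

set_option autoImplicit false
open Cfsg

namespace Cfsg.Agent.S0903
open CfsgH4 CfsgL0 CfsgH1 MonoidAlgebra



/-- Let P be a p-subgroup of the finite group G, let c centralize P and let g, h ∈ G. The number of pairs (x, y) with x conjugate to g, y conjugate to h and x * y = c is congruent modulo p to the number of such pairs in which x and y both centralize P. (This is why the Brauer map on class sums is multiplicative.) -/
theorem result {G : Type*} [Group G] [Finite G] (p : ℕ) [Fact p.Prime] (P : Subgroup G) (hP : IsPGroup p P) (c : G) (hc : c ∈ Subgroup.centralizer (P : Set G)) (g h : G) : Nat.card {xy : G × G // IsConj g xy.1 ∧ IsConj h xy.2 ∧ xy.1 * xy.2 = c} ≡ Nat.card {xy : G × G // IsConj g xy.1 ∧ IsConj h xy.2 ∧ xy.1 * xy.2 = c ∧ xy.1 ∈ Subgroup.centralizer (P : Set G) ∧ xy.2 ∈ Subgroup.centralizer (P : Set G)} [MOD p] := by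
  classical
  have := Fintype.ofFinite G
  have h1 := sum_eq_sum_fixed' hP
    (fun (q : P) (x : G × G) => ((q * x.1 * (q : G)⁻¹, q * x.2 * (q : G)⁻¹) : G × G))
    (by simp) (by simp [mul_assoc]) (fun _ : G × G => (1 : ZMod p))
    (Finset.univ.filter fun xy : G × G => IsConj g xy.1 ∧ IsConj h xy.2 ∧ xy.1 * xy.2 = c) (by
      intro q x hx
      simp only [Finset.mem_filter, Finset.mem_univ, true_and] at hx ⊢
      refine ⟨hx.1.trans (isConj_iff.2 ⟨q, rfl⟩), hx.2.1.trans (isConj_iff.2 ⟨q, rfl⟩), ?_⟩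
      have := Subgroup.mem_centralizer_iff.1 hc q q.2
      calc q * x.1 * (q : G)⁻¹ * (q * x.2 * (q : G)⁻¹) = q * (x.1 * x.2) * (q : G)⁻¹ := by group
        _ = c := by rw [hx.2.2, this]; group) (fun _ _ _ => rfl) (fun _ _ => by simp)
  simp only [Finset.sum_const, nsmul_eq_mul, mul_one] at h1
  rw [Nat.card_eq_fintype_card, Nat.card_eq_fintype_card, Fintype.card_subtype,
    Fintype.card_subtype, ← ZMod.natCast_eq_natCast_iff, h1, Finset.filter_filter]
  congr 2
  ext x
  simp only [Finset.mem_filter, Finset.mem_univ, true_and, Prod.ext_iff,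
    mul_inv_eq_iff_eq_mul, Subgroup.mem_centralizer_iff, SetLike.mem_coe,
    Subtype.forall, and_assoc]
  refine and_congr_right fun _ => and_congr_right fun _ => and_congr_right fun _ => ?_
  exact ⟨fun h => ⟨fun a ha => (h a ha).1, fun a ha => (h a ha).2⟩,
    fun h a ha => ⟨h.1 a ha, h.2 a ha⟩⟩

end Cfsg.Agent.S0903
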