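import Cfsg.Statements.S0904
import Mathlib
import Cfsg.Agent.H4.BT
import Cfsg.Agent.H4.Cy7

set_option autoImplicit false
open Cfsg

open Cfsg CfsgH3 CfsgH4 CfsgH1 CfsgL0 MonoidAlgebra

namespace Cfsg.Agent.S0904

/-- Let G be a finite simple group of order p ^ a * q ^ b * r with p, q, r distinct primes. Then every Sylow r-subgroup S of G satisfies C_G(S) = S. -/
theorem result {G : Type*} [Group G] [Finite G] [IsSimpleGroup G] (p q r a b : ℕ) (hp : p.Prime) (hq : q.Prime) [Fact r.Prime] (hpq : p ≠ q) (hpr : p ≠ r) (hqr : q ≠ r) (hcard : Nat.card G = p ^ a * q ^ b * r) (S : Sylow r G) : Subgroup.centralizer (S : Set G) = (S : Subgroup G) := by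
  have hr : r.Prime := Fact.out
  have h1 : ¬ r ∣ p ^ a * q ^ b := fun h => (hr.dvd_mul.1 h).elim
    (fun h => hpr ((Nat.prime_dvd_prime_iff_eq hr hp).1 (hr.dvd_of_dvd_pow h)).symm)
    fun h => hqr ((Nat.prime_dvd_prime_iff_eq hr hq).1 (hr.dvd_of_dvd_pow h)).symm
  obtain ⟨u, h2, h3⟩ := exists_zpowers_eq (P := (S : Subgroup G)) (p := r) (by
    rw [S.card_eq_multiplicity, hcard, Nat.factorization_mul (fun h => h1 (by rw [h]; exact dvd_zero r)) hr.ne_zero,
      Finsupp.add_apply, Nat.factorization_eq_zero_of_not_dvd h1, hr.factorization_self]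
    simp)
  rw [show (S : Set G) = (S : Subgroup G) from rfl, ← h3, centralizer_zpowers]
  exact cent_eq_zpowers_of_simple hp hq hr hcard.dvd h1 h2

end Cfsg.Agent.S0904
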