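import Cfsg.Statements.S0905
import Mathlib
import Cfsg.Agent.H4.Def
import Cfsg.Agent.H1.Cores

set_option autoImplicit false
open Cfsg

namespace Cfsg.Agent.S0905
open CfsgH4 CfsgL0 CfsgH1 MonoidAlgebra



/-- Let F be a field of characteristic p and let g be an element of the finite group G no conjugate of which centralizes O_p(G). Then the class sum of g is a nilpotent element of the group algebra F[G]. -/
theorem result {G : Type*} [Group G] [Finite G] (p : ℕ) [Fact p.Prime] (F : Type*) [Field F] [CharP F p] (g : G) (hg : ∀ x : G, IsConj g x → x ∉ Subgroup.centralizer (Cfsg.pCore p G : Set G)) : IsNilpotent (∑ᶠ x ∈ ConjClasses.carrier (ConjClasses.mk g), MonoidAlgebra.single x (1 : F) : MonoidAlgebra F G) := by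
  classical
  have h1 : (∑ᶠ x ∈ ConjClasses.carrier (ConjClasses.mk g), MonoidAlgebra.single x (1 : F) :
      MonoidAlgebra F G) = csum F ⊤ g := by
    have := Fintype.ofFinite G
    rw [finsum_mem_eq_finite_toFinset_sum _ (Set.toFinite _)]
    apply ga_ext; intro y
    rw [coeff_sum, Finsupp.finset_sum_apply, coeff_csum]
    simp only [coeff_single, Finsupp.single_apply, Finset.sum_ite_eq', Set.Finite.mem_toFinset,
      ConjClasses.mem_carrier_iff_mk_eq, ConjClasses.mk_eq_mk_iff_isConj, Subgroup.mem_top,
      true_and]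
    congr 1
    rw [isConj_comm, isConj_iff]
  rw [h1]
  refine nilpotent_of_br_eq_zero (P := pCore p G) (K := ⊤) (isPGroup_pCore p) le_top
    Subgroup.le_normalizer_of_normal (Supp.top _) (inv_csum ⊤ g).top ?_
  rw [br_def, cut_eq_zero_iff]
  intro x hx
  by_contra h
  obtain ⟨k, -, rfl⟩ := exists_of_coeff_csum_ne h
  exact hg _ (isConj_iff.2 ⟨k, rfl⟩) hx

end Cfsg.Agent.S0905
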