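import Cfsg.Statements.S0923
import Mathlib
import Cfsg.Agent.H4.Sec

set_option autoImplicit false
open Cfsg

open Cfsg CfsgH3 CfsgH4 CfsgH1 CfsgL0 MonoidAlgebra

namespace Cfsg.Agent.S0923

/-- Brauer's Second Main Theorem, in terms of ordinary characters. Let x be a p-element of the finite group G with centralizer C, let χ lie in the block B of G and let b be a block of C that does not induce B (relative to a maximal ideal M of the algebraic integers containing p). Form the class function ϑ(c) = χ(x c) on C and its b-part (the sum over ψ ∈ b of the inner product of ϑ with ψ, times ψ). Then the b-part of ϑ vanishes at every p-regular element of C. (Equivalently, the generalized decomposition numbers of χ with respect to b are zero.) -/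
theorem result {G : Type*} [Group G] [Finite G] (p : ℕ) [Fact p.Prime] (M : Ideal Cfsg.AlgInt) (hM : Cfsg.IsPModular p M) (x : G) (hx : ∃ k : ℕ, orderOf x = p ^ k) (B : Set (Cfsg.IrrCharacter G)) (hB : Cfsg.IsPBlock M B) (χ : Cfsg.IrrCharacter G) (hχ : χ ∈ B) (b : Set (Cfsg.IrrCharacter (Subgroup.centralizer ({x} : Set G)))) (hb : Cfsg.IsPBlock M b) (hnot : ¬ Cfsg.IsInducedBlock M (Subgroup.centralizer ({x} : Set G)) b B) (y : Subgroup.centralizer ({x} : Set G)) (hy : ¬ p ∣ orderOf y) : Cfsg.blockPart b (fun c : Subgroup.centralizer ({x} : Set G) => (χ : G → ℂ) (x * (c : G))) y = 0 := by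
  haveI : PMod p M := ⟨hM⟩
  obtain ⟨B', hB'⟩ := (brLoc_cent_pelt hx).exists_isInducedBlock hb
  have hχ' : χ ∉ B' := fun h => hnot (hB.eq_of_mem hB'.2.1 hχ h ▸ hB')
  let x' : Subgroup.centralizer ({x} : Set G) := ⟨x, Subgroup.mem_centralizer_singleton_iff.2 rfl⟩
  have hxy : Commute x y := (Subgroup.mem_centralizer_singleton_iff.1 y.2).symm
  have h1 := hB'.indB.ev_inc_fB_eq_zero (Subgroup.subtype_injective _) hb hB'.2.1 hχ'
    (h := x' * y) (by
      rw [Subgroup.range_subtype]
      refine le_of_eq ?_
      congr 2
      exact ppart_mul hxy hx (by rwa [Subgroup.orderOf_coe]))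
  have hc : IsClassFunction (Subgroup.centralizer ({x} : Set G))
      (fun c => χ.1 (x * (c : G))) := fun a b => by
    have := Subgroup.mem_centralizer_singleton_iff.1 b.2
    simp only []
    rw [← χ.2.isClassFunction (x * a) b]
    simp only [Subgroup.coe_mul, Subgroup.coe_inv, ← mul_assoc, this]
  rw [blockPart_eq_ev hc]
  rw [ev_inc, ← one_mul (1 : ℂ), ← single_mul_single, ← mul_assoc,
    ← ((inv_fB b).commute _).eq, mul_assoc, ev_single_mul] at h1
  exact h1

end Cfsg.Agent.S0923
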