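import Cfsg.Statements.S0926
import Mathlib
import Cfsg.Agent.H4.Sec

set_option autoImplicit false
open Cfsg

open Cfsg CfsgH3 CfsgH4 CfsgH1 CfsgL0 MonoidAlgebra

namespace Cfsg.Agent.S0926

/-- Let B be a block of the finite group G with defect group D (relative to a maximal ideal M of the algebraic integers containing p), let χ ∈ B have height zero, and let x be a p-element. Then some conjugate of x lies in D if and only if χ does not vanish on the whole p-section of x (the elements whose p-part is conjugate to x). -/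
theorem result {G : Type*} [Group G] [Finite G] (p : ℕ) [Fact p.Prime] (M : Ideal Cfsg.AlgInt) (hM : Cfsg.IsPModular p M) (B : Set (Cfsg.IrrCharacter G)) (hB : Cfsg.IsPBlock M B) (D : Subgroup G) (hD : Cfsg.IsDefectGroup p M B D) (χ : Cfsg.IrrCharacter G) (hχ : χ ∈ B) (h0 : Cfsg.blockHeight p B (χ : G → ℂ) = 0) (x : G) (hx : ∃ k : ℕ, orderOf x = p ^ k) : (∃ g : G, g * x * g⁻¹ ∈ D) ↔ ∃ u : G, (∃ z : G, Cfsg.IsPPart p u z ∧ IsConj x z) ∧ (χ : G → ℂ) u ≠ 0 := by
  haveI : PMod p M := ⟨hM⟩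
  constructor
  · rintro ⟨g, hg⟩
    obtain ⟨y, hy, hS⟩ := isDefectGroup_iff_sylow.1 hD
    have hc : Commute (g * x * g⁻¹) y := Subgroup.mem_centralizer_singleton_iff.1 (hS.le hg)
    have hx' := pelt_of_mem hS.isPGroup hg
    refine ⟨g * x * g⁻¹ * y, ⟨_, ⟨y, rfl, hc, hx', hy.reg hB⟩, isConj_iff.2 ⟨g, rfl⟩⟩, ?_⟩
    intro h1
    have h2 := char_pmul_InP (M := M) χ.2.isCharacter hc hx'
    rw [h1, zero_sub] at h2
    exact (hy.height_zero_iff hB hχ).1 h0 (by simpa using InP.neg h2)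
  · rintro ⟨u, ⟨z, hz, hxz⟩, hu⟩
    obtain ⟨g, hg⟩ := hB.exists_conj_mem hχ hu hD
    obtain ⟨c, hc⟩ := isConj_iff.1 hxz
    rw [← hz.eq_ppart, ← hc] at hg
    exact ⟨g * c, by simpa [mul_assoc] using hg⟩

end Cfsg.Agent.S0926
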