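import Cfsg.Statements.S0928
import Mathlib
import Cfsg.Agent.H4.Dim

set_option autoImplicit false
open Cfsg

open Cfsg CfsgH3 CfsgH4 CfsgH1 CfsgL0 MonoidAlgebra

namespace Cfsg.Agent.S0928

/-- Let χ be an irreducible character of the finite group G and p a prime. If χ g = 0 for every element g of order p, then the exponent of p in the degree χ(1) equals the exponent of p in the order of G (χ has p-defect zero). -/
theorem result {G : Type*} [Group G] [Finite G] (p : ℕ) [Fact p.Prime] (χ : Cfsg.IrrCharacter G) (hvan : ∀ g : G, orderOf g = p → (χ : G → ℂ) g = 0) : (Cfsg.charDegree (χ : G → ℂ)).factorization p = (Nat.card G).factorization p := by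
  have := Fintype.ofFinite G
  classical
  obtain ⟨M, hM⟩ := exists_pmod p
  have hp := PMod.prime M
  have hB := isPBlock_blockOf (M := M) χ.2
  have hχ := mem_blockOf_self (M := M) χ
  have h1 := fact_degree_add (p := p) hχ
  have h1' := blockHeight_le (p := p) hχ
  suffices blockDefect p (blockOf M χ.1) = 0 by omega
  by_contra h2
  obtain ⟨D, hD⟩ := hB.exists_defectGroup
  obtain ⟨⟨z, hzD⟩, hz⟩ := exists_prime_orderOf_dvd_card' (G := D) p
    (by rw [hD.card_eq hB]; exact dvd_pow_self _ h2)
  rw [← Subgroup.orderOf_coe] at hz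
  change orderOf z = p at hz
  have hz' : ∃ k, orderOf z = p ^ k := ⟨1, by rw [hz, pow_one]⟩
  have h3 : br (Subgroup.zpowers z) (eB M (blockOf M χ.1)) ≠ 0 :=
    br_ne_zero_of_le ((Subgroup.zpowers_le).2 hzD) (hB.isDefectGroup_iff.1 hD).ne
  let C := Subgroup.centralizer ({z} : Set G)
  obtain ⟨b, hb⟩ := hB.exists_local (K := C) (brLoc_cent_pelt hz') h3
  let z' : C := ⟨z, Subgroup.mem_centralizer_singleton_iff.2 rfl⟩
  have hz'c : z' ∈ Subgroup.center C := self_mem_center_centralizer z
  have hoz : orderOf z' = p := by rw [← Subgroup.orderOf_coe]; exact hz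
  obtain ⟨ξ, hξ, h4⟩ : ∃ ξ ∈ b, centralChar ξ.1 z' ≠ 1 := by
    by_contra h4
    push Not at h4
    have h5 := colB_eq_zero_of_sing hb.1.fB_mem (y := 1)
      (by rw [orderOf_one]; exact hp.not_dvd_one) z' (by rw [hoz])
    have h6 : colB b 1 z' = colB b 1 1 := by
      rw [colB_apply, colB_apply]
      refine Finset.sum_congr rfl fun ξ _ => ?_
      split_ifs with hξ
      · rw [← one_mul z', irr_mul_central ξ.2 hz'c, h4 ξ hξ, one_mul]
      · rfl
    rw [h6, colB_one_one, Nat.cast_eq_zero, finsum_mem_irr, Finset.sum_eq_zero_iff] at h5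
    obtain ⟨ξ, hξ⟩ := hb.1.nonempty
    have h7 := h5 ξ (Finset.mem_univ _)
    rw [if_pos hξ] at h7
    exact charDegree_ne_zero ξ.2 (pow_eq_zero_iff (two_ne_zero) |>.1 h7)
  let S : ℂ[G] := mk fun g => if g ^ p = 1 then 1 else 0
  have hS : Inv ⊤ S := inv_mk fun g x => by simp only [conj_pow, conj_eq_one_iff]
  have hSl : S ∈ LG G M := mk_mem_LG fun g => by split_ifs; exacts [one_mem _, zero_mem _]
  have h5 : om χ.1 S = 1 := by
    rw [om_def, ev_eq_sum, Finset.sum_eq_single 1, div_eq_one_iff_eq χ.2.apply_one_ne_zero]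
    · simp [S]
    · intro g _ hg
      simp only [S, coeff_mk]
      split_ifs with h
      · rw [hvan g (orderOf_eq_prime h hg), mul_zero]
      · rw [zero_mul]
    · simp
  have h6 : ev ξ.1 (pull C.subtype S) = 0 := by
    have := Fintype.ofFinite C
    have h7 : ev ξ.1 (pull C.subtype S) = centralChar ξ.1 z' * ev ξ.1 (pull C.subtype S) := by
      rw [ev_eq_sum, Finset.mul_sum, ← Equiv.sum_comp (Equiv.mulRight z')]
      refine Finset.sum_congr rfl fun c _ => ?_
      simp only [Equiv.coe_mulRight, irr_mul_central ξ.2 hz'c, coeff_pull, S, coeff_mk, map_mul]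
      have h8 : Commute (c : G) z := (Subgroup.mem_centralizer_singleton_iff.1 c.2)
      have h9 : z ^ p = 1 := by rw [← hz, pow_orderOf_eq_one]
      simp only [Subgroup.coe_subtype, z', h8.mul_pow, h9, mul_one]
      exact mul_left_comm _ _ _
    rw [← sub_eq_zero, ← one_sub_mul, mul_eq_zero, sub_eq_zero] at h7
    exact h7.resolve_left h4.symm
  have h7 := hb.indB ξ hξ χ hχ _ hS.redG
  rw [lam_pull_redG _ ξ.2 hS.top hSl, lam_redG χ.2 hS hSl, h5, om_def, h6, zero_div, red_zero,
    red_one] at h7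
  exact zero_ne_one h7

end Cfsg.Agent.S0928
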