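import Cfsg.Statements.S0931
import Mathlib
import Cfsg.Agent.H4.Cons

set_option autoImplicit false
open Cfsg

open Cfsg CfsgH3 CfsgH4 CfsgH1 CfsgL0 MonoidAlgebra

namespace Cfsg.Agent.S0931

/-- Let H be a subgroup of the finite group G and fix a maximal ideal M of the algebraic integers containing the prime p. If the block b of H induces the block B of G, then b has defect 0 if and only if B has defect 0. -/
theorem result {G : Type*} [Group G] [Finite G] (p : ℕ) [Fact p.Prime] (M : Ideal Cfsg.AlgInt) (hM : Cfsg.IsPModular p M) (H : Subgroup G) (b : Set (Cfsg.IrrCharacter H)) (B : Set (Cfsg.IrrCharacter G)) (hind : Cfsg.IsInducedBlock M H b B) : Cfsg.blockDefect p b = 0 ↔ Cfsg.blockDefect p B = 0 := by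
  haveI : PMod p M := ⟨hM⟩
  have hp := (Fact.out : p.Prime)
  obtain ⟨D, hD⟩ := hind.1.exists_defectGroup
  obtain ⟨E, hE, hle⟩ := hind.indB.exists_isDef_ge H.subtype_injective hind.1 hind.2.1 hD
  rw [← Nat.pow_right_inj hp.one_lt, ← Nat.pow_right_inj hp.one_lt (m := blockDefect p B),
    ← hD.card_eq hind.1, ← hE.card_eq hind.2.1, pow_zero, Subgroup.card_eq_one,
    Subgroup.card_eq_one]
  constructor
  · rintro rfl
    by_contra h
    haveI := (Subgroup.nontrivial_iff_ne_bot E).2 h
    haveI := hE.isPGroup.center_nontrivial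
    obtain ⟨x, hx⟩ := exists_ne (1 : Subgroup.center E)
    obtain ⟨u, h1, -, h3⟩ := hind.indB.exists_conj_center hind.1 hind.2.1 hD hE x.1.2
      fun w hw => Subgroup.mem_centralizer_singleton_iff.2
        (congrArg Subtype.val (Subgroup.mem_center_iff.1 x.2 ⟨w, hw⟩))
    rw [Subgroup.mem_bot.1 h1, map_one, isConj_one_left] at h3
    exact hx (Subtype.ext (Subtype.ext h3))
  · rintro rfl
    rwa [le_bot_iff, Subgroup.map_eq_bot_iff_of_injective _ H.subtype_injective] at hle

end Cfsg.Agent.S0931
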