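import Cfsg.Statements.S0933
import Mathlib
import Cfsg.Agent.H4.Cons

set_option autoImplicit false
open Cfsg

open Cfsg CfsgH3 CfsgH4 CfsgH1 CfsgL0 MonoidAlgebra

namespace Cfsg.Agent.S0933

/-- Let H be a subgroup of the finite group G and ξ an irreducible character of H such that the induced function ξ^G is an irreducible character of G. Then, relative to any maximal ideal M of the algebraic integers containing the prime p, the block of ξ induces the block of ξ^G. -/
theorem result {G : Type*} [Group G] [Fintype G] (p : ℕ) [Fact p.Prime] (M : Ideal Cfsg.AlgInt) (hM : Cfsg.IsPModular p M) (H : Subgroup G) (ξ : Cfsg.IrrCharacter H) (hind : Cfsg.IsIrrCharacter G (Cfsg.indFun H (ξ : H → ℂ))) : Cfsg.IsInducedBlock M H (Cfsg.blockOf M (ξ : H → ℂ)) (Cfsg.blockOf M (Cfsg.indFun H (ξ : H → ℂ))) := by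
  haveI : PMod p M := ⟨hM⟩
  refine isInducedBlock_iff.2 ⟨isPBlock_blockOf ξ.2, isPBlock_blockOf hind,
    indB_of_single (isPBlock_blockOf ξ.2) (isPBlock_blockOf hind) (mem_blockOf_self ξ)
      (mem_blockOf_self ⟨_, hind⟩) ?_⟩
  rw [lam_pull_eq_iff _ ξ.2 hind]
  intro g
  rw [← om_indFun H ξ.1 (inv_csum _ _), om_csum (isClassFunction_indFun ξ.1), sub_self]
  exact InP.zero

end Cfsg.Agent.S0933
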