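import Cfsg.Statements.S0934
import Mathlib
import Cfsg.Agent.H4.Cons

set_option autoImplicit false
open Cfsg

open Cfsg CfsgH3 CfsgH4 CfsgH1 CfsgL0 MonoidAlgebra

namespace Cfsg.Agent.S0934

/-- Let H be a subgroup of the finite group G and fix a maximal ideal M of the algebraic integers containing the prime p. If the block b of H induces the block B of G and ξ ∈ b, then there is χ ∈ B whose restriction to H has nonzero inner product with ξ. -/
theorem result {G : Type*} [Group G] [Fintype G] (p : ℕ) [Fact p.Prime] (M : Ideal Cfsg.AlgInt) (hM : Cfsg.IsPModular p M) (H : Subgroup G) [Fintype H] (b : Set (Cfsg.IrrCharacter H)) (B : Set (Cfsg.IrrCharacter G)) (hind : Cfsg.IsInducedBlock M H b B) (ξ : Cfsg.IrrCharacter H) (hξ : ξ ∈ b) : ∃ χ ∈ B, Cfsg.classInner (fun h : H => (χ : G → ℂ) h) (ξ : H → ℂ) ≠ 0 := by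
  haveI : PMod p M := ⟨hM⟩
  have h1 := hind.indB.lam_eB hind.2.1 hξ
  rw [eB, lam_pull_redG _ ξ.2 (inv_fB B).top hind.2.1.fB_mem, ← om_indFun H ξ.1 (inv_fB B)] at h1
  have h2 : ev (indFun H ξ.1) (fB B) ≠ 0 := fun h => by
    rw [om_def, h, zero_div, red_zero] at h1
    exact zero_ne_one h1
  rw [ev_fB_class] at h2
  obtain ⟨χ, -, hχ⟩ := Finset.exists_ne_zero_of_sum_ne_zero h2
  split_ifs at hχ with h3
  · refine ⟨χ, h3, fun h => right_ne_zero_of_mul hχ ?_⟩
    rwa [classInner_indFun_left _ χ.2.isClassFunction, classInner_eq_zero_comm]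
  · exact absurd rfl hχ

end Cfsg.Agent.S0934
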