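import Cfsg.Statements.S0938
import Mathlib
import Cfsg.Agent.H4.Cons

set_option autoImplicit false
open Cfsg

open Cfsg CfsgH3 CfsgH4 CfsgH1 CfsgL0 MonoidAlgebra

namespace Cfsg.Agent.S0938

/-- Let B be a block of the finite group G relative to a maximal ideal M of the algebraic integers containing the prime p, and let χ ∈ B. Then the kernel of B (the set of g with ψ g = ψ 1 for all ψ ∈ B) is a normal subgroup of order prime to p contained in the kernel of χ, and it contains every normal subgroup of order prime to p on which χ takes the value χ(1); that is, it is O_p' of the kernel of χ. -/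
theorem result {G : Type*} [Group G] [Finite G] (p : ℕ) [Fact p.Prime] (M : Ideal Cfsg.AlgInt) (hM : Cfsg.IsPModular p M) (B : Set (Cfsg.IrrCharacter G)) (hB : Cfsg.IsPBlock M B) (χ : Cfsg.IrrCharacter G) (hχ : χ ∈ B) : ∃ K : Subgroup G, K.Normal ∧ (K : Set G) = Cfsg.blockKer B ∧ ¬ p ∣ Nat.card K ∧ (∀ g ∈ K, (χ : G → ℂ) g = (χ : G → ℂ) 1) ∧ ∀ N : Subgroup G, N.Normal → ¬ p ∣ Nat.card N → (∀ g ∈ N, (χ : G → ℂ) g = (χ : G → ℂ) 1) → N ≤ K := by
  haveI : PMod p M := ⟨hM⟩
  have hm : ∀ g, g ∈ ⨅ ψ ∈ B, charKer ψ.1 ↔ ∀ ψ ∈ B, ψ.1 g = ψ.1 1 := fun g => by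
    simp only [Subgroup.mem_iInf]
    exact forall₂_congr fun ψ _ => ψ.2.isCharacter.mem_charKer
  refine ⟨⨅ ψ ∈ B, charKer ψ.1, ⟨fun n hn g => ?_⟩, Set.ext hm, fun hd => ?_,
    fun g hg => (hm g).1 hg χ hχ, fun N hN h1 h2 g hg => (hm g).2 fun ψ hψ =>
      (hB.sameBlock hχ hψ).ker h1 h2 g hg⟩
  · rw [hm] at hn ⊢
    intro ψ hψ
    rw [ψ.2.isClassFunction, hn ψ hψ]
  · obtain ⟨x, hx⟩ := exists_prime_orderOf_dvd_card' p hd
    have h1 := blockCoeff_eq_zero hB.fB_mem (y := x) (by rw [Subgroup.orderOf_coe, hx])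
    have h2 : blockCoeff B x = blockCoeff B 1 := by
      rw [blockCoeff, blockCoeff]
      congr 1
      exact finsum_mem_congr rfl fun ψ hψ => by rw [(hm _).1 x.2 ψ hψ]
    have h3 := ev_inc_fB_ne_zero (φ := MonoidHom.id G) (isCharacter_regChar (G := G)) hχ (by
      have := Fintype.ofFinite G
      rw [over_iff]
      simpa [classInner_regChar_left] using χ.2.apply_one_ne_zero)
    apply h3
    have := Fintype.ofFinite G
    rw [ev_inc, ev_eq_sum, Finset.sum_eq_single 1, coeff_fB, ← h2, h1, zero_mul]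
    · intro g _ hg
      simp [regChar_of_ne hg]
    · simp

end Cfsg.Agent.S0938
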