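import Cfsg.Statements.S0940
import Mathlib
import Cfsg.Agent.H4.Rob

set_option autoImplicit false
open Cfsg

open Cfsg CfsgH3 CfsgH4 CfsgH1 CfsgL0 MonoidAlgebra Function
open scoped ComplexConjugate Pointwise

namespace Cfsg.Agent.S0940

open Classical in
theorem aux {G : Type*} [Group G] [Finite G] (p : ℕ) [Fact p.Prime] (M : Ideal AlgInt) [PMod p M] (g : G) (hg : ¬ p ∣ orderOf g) : (Nat.card {xy : G × G // (∃ k : ℕ, orderOf xy.1 = p ^ k) ∧ ¬ p ∣ orderOf xy.2 ∧ xy.1 * xy.2 = g} : Res M) = (eB M (principalBlock M G)).coeff g * Nat.card {y : G // ¬ p ∣ orderOf y} := by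
  have := Fintype.ofFinite G
  have c : IsClassFunction G (Set.indicator {g : G | ¬ p ∣ orderOf g} (irrOne G).1) :=
    psat_reg.isClassFunction (irrOne G).2.isCharacter.isClassFunction
  have l : mk (Set.indicator {g : G | ¬ p ∣ orderOf g} (irrOne G).1) ∈ LG G M := mk_mem_LG fun g => by
    rw [Set.indicator_apply]; split_ifs; exacts [irr_mem_Loc _ _, zero_mem _]
  have a := red_coeff_pelt (inv_mk c) l hg
  rw [Finset.sum_eq_single ⟨_, isPBlock_principal⟩ (fun B _ h => ?_) (by simp),
    isPBlock_principal.lam_eq (Bl.rep_mem ⟨_, isPBlock_principal⟩) irrOne_mem_principal (inv_mk c).redG,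
    lam_redG (irrOne G).2 (inv_mk c) l] at a
  · convert a using 2
    · rw [← red_natCast, coeff_mul_sum, Nat.card_eq_fintype_card, Fintype.card_subtype, Finset.card_filter,
        Fintype.sum_prod_type]
      push_cast
      congr 1
      refine Finset.sum_congr rfl fun x _ => ?_
      rw [Finset.sum_eq_single (x⁻¹ * g) (fun b _ h => if_neg fun e => h (by simp [← e.2.2])) (by simp)]
      simp only [coeff_mk, Set.indicator_apply, irrOne, Set.mem_setOf_eq]
      split_ifs <;> simp_all
    · rw [← red_natCast, om_def, ev_eq_sum, Nat.card_eq_fintype_card, Fintype.card_subtype, Finset.card_filter]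
      simp [Set.indicator_apply, irrOne]
  · have := classInner_indicator_eq_zero (M := M) isPBlock_principal.fB_mem psat_reg irrOne_mem_principal
      (ψ := B.rep) fun e => h (Subtype.ext (B.2.eq_of_mem isPBlock_principal B.rep_mem e))
    have e : ev B.rep.1 (mk (Set.indicator {g : G | ¬ p ∣ orderOf g} (irrOne G).1)) = 0 := by
      rw [classInner, mul_eq_zero, inv_eq_zero] at this
      have := (map_eq_zero_iff _ (starRingEnd ℂ).injective).2 (this.resolve_left (natCard_ne_zero G))
      rw [ev_eq_sum, ← this, map_sum]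
      refine Finset.sum_congr rfl fun x _ => ?_
      simp only [coeff_mk, Set.indicator_apply, irrOne]
      split_ifs <;> simp
    rw [lam_redG B.rep.2 (inv_mk c) l, om_def, e, zero_div, red_zero, mul_zero]

/-- Let G be a finite group and M a maximal ideal of the algebraic integers containing the prime p. For every p-regular g, the idempotent coefficient of the principal block at g (the inverse of the group order times the sum over χ in the principal block of χ 1 * conj (χ g)) is congruent modulo the local ideal at M to N / R, where N is the number of pairs (x, y) with x of p-power order, y of order prime to p and x * y = g, and R is the number of elements of G of order prime to p. -/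
theorem result {G : Type*} [Group G] [Finite G] (p : ℕ) [Fact p.Prime] (M : Ideal Cfsg.AlgInt) (hM : Cfsg.IsPModular p M) (g : G) (hg : ¬ p ∣ orderOf g) : Cfsg.MemLocalIdeal M (Cfsg.blockCoeff (Cfsg.principalBlock M G) g - (Nat.card {xy : G × G // (∃ k : ℕ, orderOf xy.1 = p ^ k) ∧ ¬ p ∣ orderOf xy.2 ∧ xy.1 * xy.2 = g} : ℂ) / (Nat.card {y : G // ¬ p ∣ orderOf y} : ℂ)) := by
  haveI : PMod p M := ⟨hM⟩
  have hp : p.Prime := Fact.out
  have a : ¬ p ∣ Nat.card {y : G // ¬ p ∣ orderOf y} := fun e => by
    have b := aux p M (1 : G) (by simpa using hp.ne_one)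
    rw [(CharP.cast_eq_zero_iff (Res M) p _).2 e, mul_zero, Nat.card_eq_one_iff_exists.2
      ⟨⟨(1, 1), ⟨0, by simp⟩, by simpa using hp.ne_one, by simp⟩, fun x => by
        have c := eq_inv_of_mul_eq_one_left x.2.2.2
        have d : x.1.1 = 1 := by rw [← ppart_of_pelt x.2.1, c, ppart_inv, ppart_of_reg x.2.2.1, inv_one]
        exact Subtype.ext (Prod.ext d (inv_eq_one.1 (c ▸ d)))⟩] at b
    simp at b
  rw [div_eq_mul_inv, ← red_eq_iff (isPBlock_principal.blockCoeff_mem g) (mul_mem (natCast_mem _ _) (inv_natCast_mem_Loc a)),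
    red_mul (natCast_mem _ _) (inv_natCast_mem_Loc a), red_inv (natCast_mem _ _) (by rwa [InP_natCast_iff]),
    red_natCast, red_natCast, aux p M g hg, coeff_eB, mul_inv_cancel_right₀ (natCast_res_ne a)]

end Cfsg.Agent.S0940
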