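import Cfsg.Statements.S0942
import Mathlib
import Cfsg.Agent.H4.Sub

set_option autoImplicit false
open Cfsg

open Cfsg CfsgH3 CfsgH4 CfsgH1 CfsgL0 MonoidAlgebra

namespace Cfsg.Agent.S0942

/-- Let u be a p-element of the finite group G, let v lie in the largest normal subgroup of C_G(u) of order prime to p, and let χ belong to the principal block (relative to a maximal ideal M of the algebraic integers containing p). Then χ (u * v) = χ u. -/
theorem result {G : Type*} [Group G] [Finite G] (p : ℕ) [Fact p.Prime] (M : Ideal Cfsg.AlgInt) (hM : Cfsg.IsPModular p M) (u : G) (hu : ∃ k : ℕ, orderOf u = p ^ k) (v : G) (hv : v ∈ Cfsg.centralizerPPrimeCore p u) (χ : Cfsg.IrrCharacter G) (hχ : χ ∈ Cfsg.principalBlock M G) : (χ : G → ℂ) (u * v) = (χ : G → ℂ) u := by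
  haveI : PMod p M := ⟨hM⟩
  haveI := Fintype.ofFinite G
  obtain ⟨s, hs, rfl⟩ := hv
  let C := Subgroup.centralizer ({u} : Set G)
  haveI := Fintype.ofFinite C
  have hN := not_dvd_card_pPrimeCore (G := C) p
  have hB := (isPBlock_principal (M := M) (G := G)).fB_mem
  have hreg : ¬ p ∣ orderOf s := fun h => hN (h.trans (Subgroup.orderOf_dvd_natCard _ hs))
  have h1 := blockPart_tr_brSet (C := C) rfl hu hB χ.2.isClassFunction hreg
  have h2 := blockPart_tr_brSet (C := C) rfl hu hB χ.2.isClassFunction (s := 1)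
    (by rw [orderOf_one]; exact (Fact.out : p.Prime).not_dvd_one)
  rw [blockPart_irr_of_mem hχ, brSet_principal rfl hu] at h1 h2
  simp only [OneMemClass.coe_one, mul_one] at h2
  rw [← h2]
  refine h1.symm.trans ?_
  rw [blockPart_eq, blockPart_eq]
  refine Finset.sum_congr rfl fun ξ _ => ?_
  split_ifs with h
  · rw [CfsgH4.Cfsg.SameBlock.ker (χ := irrOne C) hN h (fun _ _ => rfl) s hs]
  · rfl

end Cfsg.Agent.S0942
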