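import Cfsg.Statements.S0943
import Mathlib
import Cfsg.Agent.H4.Cons

set_option autoImplicit false
open Cfsg

open Cfsg CfsgH3 CfsgH4 CfsgH1 CfsgL0 MonoidAlgebra

namespace Cfsg.Agent.S0943

/-- Let χ be an irreducible character of the finite group G and u, v ∈ G. If χ (x * y) = χ (u * v) whenever x is conjugate to u and y is conjugate to v, then χ u * χ v = χ 1 * χ (u * v). (Multiply the class sums of u and v and apply the central character of χ.) -/
theorem result {G : Type*} [Group G] [Finite G] (χ : Cfsg.IrrCharacter G) (u v : G) (hc : ∀ x y : G, IsConj u x → IsConj v y → (χ : G → ℂ) (x * y) = (χ : G → ℂ) (u * v)) : (χ : G → ℂ) u * (χ : G → ℂ) v = (χ : G → ℂ) 1 * (χ : G → ℂ) (u * v) := by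
  have := Fintype.ofFinite G
  have h1 := ev_central_mul χ.2 (inv_csum (R := ℂ) ⊤ u) (single v 1)
  rw [om_csum χ.2.isClassFunction, ev_mul_single, csum_top_eq, ev_single, centralChar,
    Finset.sum_congr rfl (g := fun x => classInd u x * χ.1 (u * v)),
    sum_classInd_mul (isClassFunction_const _)] at h1
  · have h2 := χ.2.apply_one_ne_zero
    have h3 : ((Subgroup.centralizer ({u} : Set G)).index : ℂ) ≠ 0 :=
      Nat.cast_ne_zero.2 (index_ne_zero' _)
    field_simp at h1
    linear_combination -h1
  · intro x _
    rw [coeff_mk]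
    by_cases hx : IsConj u x
    · rw [hc x v hx (IsConj.refl v)]
    · rw [classInd_of_not_isConj hx, zero_mul, zero_mul]

end Cfsg.Agent.S0943
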