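import Cfsg.Statements.S0944
import Mathlib
import Cfsg.Agent.H4.Cons

set_option autoImplicit false
open Cfsg

open Cfsg CfsgH3 CfsgH4 CfsgH1 CfsgL0 MonoidAlgebra

namespace Cfsg.Agent.S0944

/-- Let χ be an irreducible character of the finite group G and u an involution. Then χ u is a rational integer n with n ≡ χ 1 (mod 2). -/
theorem result {G : Type*} [Group G] [Finite G] (χ : Cfsg.IrrCharacter G) (u : G) (hu : orderOf u = 2) : ∃ n : ℤ, (χ : G → ℂ) u = (n : ℂ) ∧ (2 : ℤ) ∣ (Cfsg.charDegree (χ : G → ℂ) : ℤ) - n := by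
  obtain ⟨n, s, h1, h2, -, h3⟩ := χ.2.isCharacter.exists_eigenvalues u
  have h4 := h3 1
  rw [zpow_one] at h4
  have h5 : ∀ i, ∃ a : ℤ, s i = a ∧ (2 : ℤ) ∣ 1 - a := fun i => by
    have := h2 i
    rw [hu, sq_eq_one_iff] at this
    rcases this with h | h
    · exact ⟨1, by simp [h], by simp⟩
    · exact ⟨-1, by simp [h], by simp⟩
  choose a ha ha' using h5
  refine ⟨∑ i, a i, by simp [h4, ha], ?_⟩
  rw [charDegree_eq h1]
  have : (n : ℤ) - ∑ i, a i = ∑ i, (1 - a i) := by simp [Finset.sum_sub_distrib]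
  rw [this]
  exact Finset.dvd_sum fun i _ => ha' i

end Cfsg.Agent.S0944
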