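import Cfsg.Statements.S0945
import Mathlib
import Cfsg.Agent.H4.Homo

set_option autoImplicit false
open Cfsg

open Cfsg CfsgH3 CfsgH4 CfsgH1 CfsgL0 MonoidAlgebra

namespace Cfsg.Agent.S0945

/-- Let P be a Sylow 2-subgroup of the finite group G isomorphic to Z/2^m × Z/2^m with m ≥ 1. Then (i) the index of C_G(P) in N_G(P) is 1 or 3, and (ii) if it is not 1, then for every z ≠ 1 in P, C_G(z) ∩ N_G(P) = C_G(P). -/
theorem result {G : Type*} [Group G] [Finite G] (P : Sylow 2 G) (m : ℕ) (hm : 1 ≤ m) (e : (P : Subgroup G) ≃* Multiplicative (ZMod (2 ^ m) × ZMod (2 ^ m))) : ((Subgroup.centralizer (P : Set G)).relIndex (Subgroup.normalizer (P : Set G)) = 1 ∨ (Subgroup.centralizer (P : Set G)).relIndex (Subgroup.normalizer (P : Set G)) = 3) ∧ ((Subgroup.centralizer (P : Set G)).relIndex (Subgroup.normalizer (P : Set G)) ≠ 1 → ∀ z ∈ (P : Subgroup G), z ≠ 1 → Subgroup.centralizer ({z} : Set G) ⊓ Subgroup.normalizer (P : Set G) = Subgroup.centralizer (P : Set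 G)) := by
  obtain ⟨a, b, h⟩ := r2_of_equiv hm e
  have h1 := h.relIndex_cases (CfsgH2.syl_top P)
  rw [top_inf_eq] at h1
  refine ⟨h1, fun _ z hz hz1 => le_antisymm (fun n hn => h.mem_cent_of_fix (CfsgH2.syl_top P) trivial
    hn.2 hz hz1 (Subgroup.mem_centralizer_singleton_iff.1 hn.1)) (le_inf
    (Subgroup.centralizer_le (Set.singleton_subset_iff.2 hz)) (Subgroup.centralizer_le_normalizer _))⟩

end Cfsg.Agent.S0945
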