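import Cfsg.Statements.S0947
import Mathlib
import Cfsg.Agent.H4.Quo

set_option autoImplicit false
open Cfsg

open Cfsg CfsgH3 CfsgH4 CfsgH1 CfsgL0 MonoidAlgebra

namespace Cfsg.Agent.S0947

theorem aux {G : Type*} [Group G] [Finite G] (B : Set (IrrCharacter G)) (y : G) :
    ((∑ᶠ ζ ∈ B, ‖(ζ : G → ℂ) y‖ ^ 2 : ℝ) : ℂ) = colB B y y := by
  classical
  rw [colB_apply, finsum_mem_irr, Complex.ofReal_sum]
  refine Finset.sum_congr rfl fun χ _ => ?_
  split_ifs
  · rw [Complex.mul_conj, Complex.normSq_eq_norm_sq]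
  · rfl

/-- Let z ≠ 1 be a p-element of the finite group G with centralizer H, and fix a maximal ideal M of the algebraic integers containing p. (i) For every y ∈ H of order prime to p, the sum over ζ in the principal block of G of |ζ (z * y)|² equals the sum over χ in the principal block of H of |χ y|². (ii) If moreover H has a normal p-complement (its largest normal subgroup of order prime to p has p-power index), that common value is the largest power of p dividing the order of H. -/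
theorem result {G : Type*} [Group G] [Finite G] (p : ℕ) [Fact p.Prime] (M : Ideal Cfsg.AlgInt) (hM : Cfsg.IsPModular p M) (z : G) (hz : ∃ k : ℕ, orderOf z = p ^ k) (hz1 : z ≠ 1) (y : Subgroup.centralizer ({z} : Set G)) (hy : ¬ p ∣ orderOf y) : (∑ᶠ ζ ∈ Cfsg.principalBlock M G, ‖(ζ : G → ℂ) (z * (y : G))‖ ^ 2 = ∑ᶠ χ ∈ Cfsg.principalBlock M (Subgroup.centralizer ({z} : Set G)), ‖(χ : Subgroup.centralizer ({z} : Set G) → ℂ) y‖ ^ 2) ∧ ((∃ k : ℕ, (Cfsg.pPrimeCore p (Subgroup.centralizer ({z} : Set G))).index = p ^ k) → ∑ᶠ ζ ∈ Cfsg.principalBlock M G, ‖(ζ : G → ℂ) (z * (y : G))‖ ^ 2 = ((p ^ (Nat.card (Subgroup.centralizer ({z} : Set G))).factorization p : ℕ) : ℝ)) := by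
  haveI : PMod p M := ⟨hM⟩
  haveI := Fintype.ofFinite G
  have h1 : ∑ᶠ ζ ∈ principalBlock M G, ‖(ζ : G → ℂ) (z * (y : G))‖ ^ 2 =
      ∑ᶠ χ ∈ principalBlock M (Subgroup.centralizer ({z} : Set G)),
        ‖(χ : Subgroup.centralizer ({z} : Set G) → ℂ) y‖ ^ 2 := by
    apply Complex.ofReal_injective
    rw [aux, aux, colB_cent rfl hz isPBlock_principal.fB_mem hy hy, brSet_principal rfl hz]
  refine ⟨h1, fun hk => ?_⟩
  have hN := not_dvd_card_pPrimeCore (G := Subgroup.centralizer ({z} : Set G)) p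
  rw [h1, principalBlock_eq_of_index hN hk]
  have h2 := mem_of_reg_of_index hk hy
  rw [finsum_mem_congr rfl fun χ hχ => by rw [hχ y h2]]
  apply Complex.ofReal_injective
  rw [aux, colB_ker_one]
  obtain ⟨k, hk⟩ := hk
  rw [fact_card_eq_add p (pPrimeCore p _), Nat.factorization_eq_zero_of_not_dvd hN, hk,
    add_zero, Nat.Prime.factorization_pow Fact.out]
  simp

end Cfsg.Agent.S0947
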