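import Cfsg.Statements.S0949
import Cfsg.Agent.H3.Hv1
import Cfsg.Agent.H3.Bf4
import Cfsg.Agent.S0945

set_option autoImplicit false
open Cfsg

namespace Cfsg.Agent.S0949
open CfsgBf CfsgH2 Cfsg Subgroup

/-- Let the finite group G have a Sylow 2-subgroup P isomorphic to Z/2^m × Z/2^m with m ≥ 2, and suppose G has no nontrivial normal subgroup of odd order. Then P is normal in G, C_G(P) = P, and the index of P is 1 or 3. -/
theorem result {G : Type*} [Group G] [Finite G] (P : Sylow 2 G) (m : ℕ) (hm : 2 ≤ m) (e : (P : Subgroup G) ≃* Multiplicative (ZMod (2 ^ m) × ZMod (2 ^ m))) (hO : ∀ N : Subgroup G, N.Normal → Odd (Nat.card N) → N = ⊥) : (P : Subgroup G).Normal ∧ Subgroup.centralizer (P : Set G) = (P : Subgroup G) ∧ ((P : Subgroup G).index = 1 ∨ (P : Subgroup G).index = 3) := by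
  have hS := syl_top P
  have hab : IsMulCommutative (P : Subgroup G) := ⟨⟨fun a b => e.injective (by rw [map_mul, map_mul, mul_comm])⟩⟩
  have key : ∀ K : Subgroup G, K.Normal → C[(P : Subgroup G)] ≤ K → K ⊓ N[(P : Subgroup G)] ≤ C[(P : Subgroup G)] →
      K = P := by
    intro K hn h1 h2
    have hK := hS.mono ((le_cent_of_comm hab le_rfl).trans h1) le_top
    have h3 := hK.npc_of_norm_le_cent h2
    have h4 := h3.sup_eq hK
    rw [hO (piCoreOf {2}ᶜ K) inferInstance
      (Nat.not_even_iff_odd.1 fun h => not_dvd_piCoreOf h.two_dvd), bot_sup_eq] at h4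
    exact h4.symm
  obtain ⟨h1, h2⟩ := Cfsg.Agent.S0945.result P m (by omega) e
  by_cases h3 : C[(P : Subgroup G)].relIndex N[(P : Subgroup G)] = 1
  · have := key ⊤ inferInstance le_top (inf_le_right.trans (relIndex_eq_one.1 h3))
    refine ⟨this ▸ inferInstance, le_antisymm (le_top.trans this.le) (le_cent_of_comm hab le_rfl), Or.inl ?_⟩
    rw [← this, index_top]
  have h4 : C[(P : Subgroup G)].relIndex N[(P : Subgroup G)] = 3 := h1.resolve_left h3
  have hA : AF 2 (P : Subgroup G) := ⟨hS, hab, fun y hy h1 => (h2 h3 y hy h1).le⟩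
  obtain ⟨K, hn, hC, hK⟩ := hA.exists_normal_two h4 (by
    rw [Nat.card_congr e.toEquiv]
    simp only [Nat.card_eq_fintype_card, Fintype.card_multiplicative, Fintype.card_prod, ZMod.card]
    have : 2 ^ 2 ≤ 2 ^ m := Nat.pow_le_pow_right two_pos hm
    nlinarith)
  have h5 : K = P := by
    refine key K hn hC ?_
    have h6 : C[(P : Subgroup G)] ≤ K ⊓ N[(P : Subgroup G)] := le_inf hC (cent_le_norm _)
    have h7 := relIndex_mul_relIndex _ _ _ h6 (inf_le_right : K ⊓ N[(P : Subgroup G)] ≤ _)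
    rw [h4] at h7
    rcases (Nat.dvd_prime Nat.prime_three).1 ⟨_, h7.symm⟩ with h8 | h8
    · exact relIndex_eq_one.1 h8
    · rw [h8] at h7
      have h9 : N[(P : Subgroup G)] ≤ K := (relIndex_eq_one.1 (by omega : (K ⊓ N[(P : Subgroup G)]).relIndex
        N[(P : Subgroup G)] = 1)).trans inf_le_left
      have := Sylow.normalizer_sup_eq_top' P (N := K) (hA.le_cent.trans hC)
      exact absurd (top_le_iff.1 (this.ge.trans (sup_le h9 le_rfl))) hK
  have h6 : C[(P : Subgroup G)] = P := le_antisymm (hC.trans h5.le) hA.le_cent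
  refine ⟨h5 ▸ hn, h6, Or.inr ?_⟩
  rw [h6, normalizer_eq_top_iff.2 (h5 ▸ hn), relIndex_top_right] at h4
  exact h4


end Cfsg.Agent.S0949
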