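import Cfsg.Statements.S0950
import Mathlib
import Cfsg.Agent.H4.G2

set_option autoImplicit false
open Cfsg

open Cfsg CfsgH3 CfsgH4 CfsgH1 CfsgL0 MonoidAlgebra

namespace Cfsg.Agent.S0950

/-- Let S be a Sylow 2-subgroup of the finite group G that is isomorphic to the quaternion group of order 8, and suppose S has no normal complement in G. Then any two subgroups of order 4 of S are conjugate by an element of the normalizer of S. -/
theorem result {G : Type*} [Group G] [Finite G] (S : Sylow 2 G) (e : (S : Subgroup G) ≃* QuaternionGroup 2) (hnc : ∀ N : Subgroup G, N.Normal → ¬ Subgroup.IsComplement' N (S : Subgroup G)) (A B : Subgroup G) (hA : A ≤ S) (hB : B ≤ S) (hA4 : Nat.card A = 4) (hB4 : Nat.card B = 4) : ∃ n ∈ Subgroup.normalizer ((S : Subgroup G) : Set G), B = A.map (MulAut.conj n).toMonoidHom := by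
  obtain ⟨a, b, h⟩ := gq_of_equiv (m := 1) le_rfl e
  have hS := CfsgH2.syl_top S
  have hN : ¬ CfsgH2.NPC 2 (⊤ : Subgroup G) := fun hN => by
    obtain ⟨N, h1, h2⟩ := (CfsgH2.exists_compl_iff_npc S).2 hN
    exact hnc N h1 h2
  have key : ∀ A : Subgroup G, A ≤ S → Nat.card A = 4 →
      ∃ n ∈ Subgroup.normalizer ((S : Subgroup G) : Set G),
        A = (Subgroup.zpowers a).map (MulAut.conj n).toMonoidHom := fun A hA h4 => by
    obtain ⟨x, rfl⟩ := CfsgH2.isCyclic_iff_zpowers.1 (h.cyclic_of_lt (lt_of_le_of_ne hA fun e => by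
      have := h.card
      rw [← e, h4] at this
      omega))
    rw [Nat.card_zpowers] at h4
    obtain ⟨n, hn, h5⟩ := h.q8_fusion hS hN (hA (Subgroup.mem_zpowers x)) fun h6 => by
      have := orderOf_dvd_of_pow_eq_one (x := x) (n := 2) (by rwa [pow_two])
      rw [h4] at this
      omega
    exact ⟨n, hn.2, by rw [MonoidHom.map_zpowers, ← h5]; rfl⟩
  obtain ⟨n, hn, rfl⟩ := key A hA hA4
  obtain ⟨m, hm, rfl⟩ := key B hB hB4
  refine ⟨m * n⁻¹, mul_mem hm (inv_mem hn), ?_⟩
  rw [Subgroup.map_map]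
  congr 1
  ext x; simp [mul_assoc]

end Cfsg.Agent.S0950
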