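import Cfsg.Statements.S0951
import Mathlib
import Cfsg.Agent.H4.ZS

set_option autoImplicit false
open Cfsg

open Cfsg CfsgH3 CfsgH4 CfsgH1 CfsgL0 MonoidAlgebra

namespace Cfsg.Agent.S0951

/-- Let S be a Sylow 2-subgroup of the finite group G isomorphic to the quaternion group of order 8. Suppose G has no nontrivial normal subgroup of odd order and G ≠ S. Then, relative to any maximal ideal M of the algebraic integers containing 2, the principal block of G consists of exactly 7 irreducible characters. -/
theorem result {G : Type*} [Group G] [Finite G] (M : Ideal Cfsg.AlgInt) (hM : Cfsg.IsPModular 2 M) (S : Sylow 2 G) (e : (S : Subgroup G) ≃* QuaternionGroup 2) (hO : ∀ N : Subgroup G, N.Normal → Odd (Nat.card N) → N = ⊥) (hG : (S : Subgroup G) ≠ ⊤) : Nat.card (Cfsg.principalBlock M G) = 7 := by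
  haveI : PMod 2 M := ⟨hM⟩
  obtain ⟨a, b, h⟩ := gq_of_equiv (m := 1) le_rfl e
  have hS := CfsgH2.syl_top S
  refine (h.q8_main hS fun hN => hG ?_).2
  have h1 := hN.sup_eq hS
  rwa [← CfsgH2.pPrimeCore_eq', hO _ inferInstance
    (Nat.coprime_two_right.1 (coprime_pPrimeCore 2)), bot_sup_eq] at h1

end Cfsg.Agent.S0951
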