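import Cfsg.Statements.S0952
import Mathlib
import Cfsg.Agent.H4.Sec

set_option autoImplicit false
open scoped ComplexConjugate
open Cfsg

open Cfsg CfsgH3 CfsgH4 CfsgH1 CfsgL0 MonoidAlgebra

namespace Cfsg.Agent.S0952

/-- Let χ and ψ be irreducible characters of the finite group G lying in different blocks relative to a maximal ideal M of the algebraic integers containing the prime p. Then the sum of χ x * conj (ψ x) over the elements x of order prime to p is zero. -/
theorem result {G : Type*} [Group G] [Finite G] (p : ℕ) [Fact p.Prime] (M : Ideal Cfsg.AlgInt) (hM : Cfsg.IsPModular p M) (χ ψ : Cfsg.IrrCharacter G) (h : ¬ Cfsg.SameBlock M (χ : G → ℂ) (ψ : G → ℂ)) : ∑ᶠ x ∈ {x : G | ¬ p ∣ orderOf x}, (χ : G → ℂ) x * conj ((ψ : G → ℂ) x) = 0 := by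
  haveI : PMod p M := ⟨hM⟩
  have := Fintype.ofFinite G
  have h1 := classInner_indicator_eq_zero (isPBlock_blockOf (M := M) χ.2).fB_mem psat_reg
    (mem_blockOf_self χ) (ψ := ψ) h
  rw [classInner, mul_eq_zero] at h1
  rw [finsum_mem_def, finsum_eq_sum_of_fintype, ← h1.resolve_left (inv_ne_zero (natCard_ne_zero G))]
  refine Finset.sum_congr rfl fun g _ => ?_
  by_cases hg : g ∈ {x : G | ¬ p ∣ orderOf x}
  · rw [Set.indicator_of_mem hg, Set.indicator_of_mem hg]
  · rw [Set.indicator_of_notMem hg, Set.indicator_of_notMem hg, zero_mul]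

end Cfsg.Agent.S0952
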