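import Cfsg.Statements.S0956
import Mathlib
import Cfsg.Agent.H4.Rob
import Cfsg.Agent.H4.First
import Cfsg.Agent.L0.G1
import Cfsg.Agent.H9.Syl

set_option autoImplicit false
open Cfsg

open Cfsg CfsgH4 CfsgH1 CfsgL0 MonoidAlgebra Function
open CfsgH3 hiding cj cj_cj
open scoped ComplexConjugate Pointwise

namespace Cfsg.Agent.S0956

theorem dvd_sum {D X : Type*} [Group D] [MulAction D X] [Fintype X] {m n : ℕ} (g : X → ℕ)
    (hg : ∀ (d : D) x, g (d • x) = g x) (h : ∀ x, g x ≠ 0 → m ∣ (MulAction.stabilizer D x).index ∧ n ∣ g x) :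
    m * n ∣ ∑ x, g x := by
  classical
  rw [show ∑ x, g x = _ from Finset.sum_comp id g]
  refine Finset.dvd_sum fun k hk => ?_
  obtain ⟨x, -, rfl⟩ := Finset.mem_image.1 hk
  by_cases e : g x = 0; · simp [e]
  refine mul_dvd_mul ?_ (h x e).2
  rw [← Set.ncard_coe_finset]
  exact dvd_ncard_of_orbits (D := D) (Finset.finite_toSet _) fun y hy => by
    simp only [Finset.coe_filter, Finset.mem_univ, true_and, Set.mem_setOf_eq] at hy ⊢
    exact ⟨fun d => (hg d y).trans hy, (h y (hy ▸ e)).1⟩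

theorem aux {G : Type*} [Group G] [Finite G] (p : ℕ) [hp : Fact p.Prime] (M : Ideal AlgInt) [PMod p M] (B : Bl M G) (D : Subgroup G) [hn : D.Normal] (hD : IsDefectGroup p M B.1 D) (S : Sylow p G) : ∃ x : G, ¬ p ∣ orderOf x ∧ IsSylowIn p D (Subgroup.centralizer {x}) ∧ (S : Subgroup G) ⊓ cj x S ≤ D := by
  classical
  have := Fintype.ofFinite G
  have := Fintype.ofFinite (ConjClasses G)
  have c0 : ∀ {y y' : G}, IsSylowIn p D (Subgroup.centralizer {y}) → IsConj y y' →
      IsSylowIn p D (Subgroup.centralizer {y'}) := fun h e => by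
    obtain ⟨k, rfl⟩ := isConj_iff.1 e
    have := h.smul k
    rwa [hn.conj_smul_eq_self, show MulAut.conj k • _ = cj k _ from rfl, cj_centralizer_singleton] at this
  have c1 : ∀ x : G, Subgroup.centralizer {x} = Subgroup.centralizer {x⁻¹} := fun x => by
    rw [← centralizer_zpowers, ← centralizer_zpowers, Subgroup.zpowers_inv]
  obtain ⟨z, hz, hz'⟩ := isDefectGroup_iff_sylow.1 hD
  have a : ∑ c : ConjClasses G, wB B (crep c) * ∑ B' : Bl M G, (eB M B'.1).coeff (crep c) * wB B' z ≠ 0 := by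
    simp only [Finset.mul_sum, ← mul_assoc]
    rw [Finset.sum_comm]
    simp only [← Finset.sum_mul]
    rw [Finset.sum_congr rfl fun B' _ => by rw [dual_fam (fun i j e => (isConj_crep_iff.1 e).trans
      (mk_crep _)) fun g _ _ => ⟨_, isConj_crep_iff.2 rfl⟩]]
    simpa [wB, red_eq_zero_iff (centralChar_mem_Loc B.rep.2 z)] using hz.2.2 _ B.rep_mem
  obtain ⟨c, -, hc⟩ := Finset.exists_ne_zero_of_sum_ne_zero a
  generalize crep c = y at hc
  obtain ⟨B', -, b⟩ := Finset.exists_ne_zero_of_sum_ne_zero (right_ne_zero_of_mul hc)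
  have hy := B'.reg_of_coeff (left_ne_zero_of_mul b)
  have hy' : IsSylowIn p D (Subgroup.centralizer {y}) := by
    obtain ⟨k, hk⟩ := B.le_of_wB hD (left_ne_zero_of_mul hc)
    rw [show cj k D = D from hn.conj_smul_eq_self k] at hk
    refine .of_card hk (hz'.card_eq.trans (congrArg _ (le_antisymm ?_ ((B'.fact_le_of_coeff
      (left_ne_zero_of_mul b)).trans (B'.fact_le_of_wB (right_ne_zero_of_mul b))))))
    rw [← hp.out.pow_dvd_iff_le_factorization Nat.card_pos.ne', ← hz'.card_eq]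
    exact Subgroup.card_dvd_of_le hk
  have d := rob_div (M := M) S y z
  rw [rpart_of_reg hy] at d
  have e : ¬ p ^ ((Nat.card G).factorization p - (Nat.card (Subgroup.centralizer {y})).factorization p) * p ∣
      robN S y z := fun ⟨k, hk⟩ => mul_ne_zero (natCast_res_ne S.not_dvd_index) (right_ne_zero_of_mul hc) (by
    rw [← d, hk, mul_assoc, Nat.mul_div_cancel_left _ (pow_pos hp.out.pos _)]; simp)
  by_contra! f
  letI := MulAction.compHom G (MulAut.conj.comp S.1.subtype : S →* MulAut G)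
  have hDS : D ≤ S := (isSylowIn_top S).ge_of_le_normalizer hz'.isPGroup le_top (by simp [Subgroup.normalizer_eq_top])
  have r : robN S y z = ∑ x, {w | IsConj y x ∧ IsConj z w ∧ w * x⁻¹ ∈ S.1}.ncard := by
    rw [robN, Nat.card_congr (Equiv.subtypeProdEquivSigmaSubtype fun x w => IsConj y x ∧ IsConj z w ∧
      w * x⁻¹ ∈ S.1), Nat.card_sigma]; rfl
  refine e (r ▸ dvd_sum (D := S) _ (fun s x => ?_) fun x hx => ?_)
  · have k : ∀ w : G, IsConj w (s • w) := fun w => isConj_iff.2 ⟨s, rfl⟩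
    symm
    refine Set.ncard_congr (fun w _ => s • w) (fun w hw => ⟨hw.1.trans (k x), hw.2.1.trans (k w), ?_⟩)
      (by simp) fun w hw => ⟨s⁻¹ • w, ⟨hw.1.trans (k x).symm, hw.2.1.trans (isConj_iff.2 ⟨s.1⁻¹, rfl⟩), ?_⟩,
        smul_inv_smul s w⟩
    · rw [show s • w * (s • x)⁻¹ = s.1 * (w * x⁻¹) * s.1⁻¹ by
        show s.1 * w * s.1⁻¹ * (s.1 * x * s.1⁻¹)⁻¹ = _; group]
      exact mul_mem (mul_mem s.2 hw.2.2) (inv_mem s.2)
    · rw [show s⁻¹ • w * x⁻¹ = s.1⁻¹ * (w * (s • x)⁻¹) * s.1 by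
        show s.1⁻¹ * w * s.1⁻¹⁻¹ * x⁻¹ = s.1⁻¹ * (w * (s.1 * x * s.1⁻¹)⁻¹) * s.1; group]
      exact mul_mem (mul_mem (inv_mem s.2) hw.2.2) s.2
  obtain ⟨w, hw, -⟩ := Set.nonempty_of_ncard_ne_zero hx
  have g := c0 hy' hw
  constructor
  · have : MulAction.stabilizer S x = D.subgroupOf S := by
      ext s
      refine (mul_inv_eq_iff_eq_mul.trans Subgroup.mem_centralizer_singleton_iff.symm).trans
        ⟨fun h => ?_, fun h => g.le h⟩
      exact g.ge_of_normal (by simp [Subgroup.normalizer_eq_top]) (S.2.to_inf_left (K := Subgroup.centralizer {x})) inf_le_right ⟨s.2, h⟩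
    rw [this, ← Subgroup.relIndex, ← Nat.mul_dvd_mul_iff_left (Nat.card_pos (α := D)), Subgroup.relIndex,
      ← Nat.card_congr (Subgroup.subgroupOfEquivOfLe hDS).toEquiv, Subgroup.card_mul_index,
      Nat.card_congr (Subgroup.subgroupOfEquivOfLe hDS).toEquiv, hy'.card_eq, ← pow_add, S.card_eq_multiplicity,
      fact_card_eq_add p (Subgroup.centralizer {y}), Nat.add_sub_cancel, add_comm]
  · letI := MulAction.compHom G (MulAut.conj.comp (S.1 ⊓ cj x⁻¹ S.1).subtype)
    refine dvd_ncard_of_orbits (D := (S.1 ⊓ cj x⁻¹ S.1 : Subgroup G)) (Set.toFinite _) fun w h =>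
      ⟨fun q => ⟨h.1, h.2.1.trans (isConj_iff.2 ⟨q, rfl⟩), ?_⟩, ?_⟩
    · rw [show q • w * x⁻¹ = q.1 * (w * x⁻¹) * (x⁻¹⁻¹ * q.1 * x⁻¹)⁻¹ by
        show q.1 * w * q.1⁻¹ * x⁻¹ = _; group]
      exact mul_mem (mul_mem q.2.1 h.2.2) (inv_mem (mem_cj.1 q.2.2))
    · obtain ⟨k, hk⟩ := (S.2.to_inf_left (K := cj x⁻¹ S.1)).index (MulAction.stabilizer _ w)
      rcases k with _ | k
      · refine absurd ((c0 hz' h.2.1).ge_of_normal (by simp [Subgroup.normalizer_eq_top]) S.2.to_inf_left fun q hq => ?_)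
          (f x⁻¹ (by obtain ⟨k, rfl⟩ := isConj_iff.1 hw; rwa [orderOf_inv, orderOf_conj]) (c1 x ▸ g))
        have := (Subgroup.index_eq_one.1 hk).ge (Subgroup.mem_top ⟨q, hq⟩)
        exact Subgroup.mem_centralizer_singleton_iff.2 (mul_inv_eq_iff_eq_mul.1 this)
      · exact hk ▸ dvd_pow_self p k.succ_ne_zero

/-- Let D be a defect group of a block of the finite group G (relative to a maximal ideal M of the algebraic integers containing the prime p) and P a Sylow p-subgroup containing D. Then there is an element x of order prime to p such that D is a Sylow p-subgroup of the centralizer of x and D = P ∩ x P x⁻¹. -/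
theorem result {G : Type*} [Group G] [Finite G] (p : ℕ) [Fact p.Prime] (M : Ideal Cfsg.AlgInt) (hM : Cfsg.IsPModular p M) (B : Set (Cfsg.IrrCharacter G)) (hB : Cfsg.IsPBlock M B) (D : Subgroup G) (hD : Cfsg.IsDefectGroup p M B D) (P : Sylow p G) (hDP : D ≤ P) : ∃ x : G, ¬ p ∣ orderOf x ∧ (∃ S : Sylow p (Subgroup.centralizer ({x} : Set G)), (S : Subgroup (Subgroup.centralizer ({x} : Set G))).map (Subgroup.centralizer ({x} : Set G)).subtype = D) ∧ (P : Subgroup G) ⊓ (P : Subgroup G).map (MulAut.conj x).toMonoidHom = D := by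
  haveI : PMod p M := ⟨hM⟩
  set N := Subgroup.normalizer (D : Set G)
  obtain ⟨b, hb, -, h, -⟩ := hB.exists_brauer_corr hD
  have hN : D ≤ N := Subgroup.le_normalizer
  obtain ⟨S, hS⟩ := (isPGroup_subgroupOf P.2 N).exists_le_sylow
  obtain ⟨x, a, c, d⟩ := aux p M ⟨b, hb⟩ (D.subgroupOf N) h S
  have e : IsSylowIn p D (Subgroup.centralizer {x.1}) := isSylowIn_of_normalizer (by
    convert c.map N.subtype using 1
    · exact (Subgroup.map_subgroupOf_eq_of_le hN).symm
    · ext g; simp [Subgroup.mem_centralizer_singleton_iff, Subtype.ext_iff, N])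
  refine ⟨x, by simpa using a, e.exists_sylow, ?_⟩
  have f : D ≤ P.1 ⊓ cj x P.1 := le_inf hDP fun g hg => mem_cj.2 (by
    rw [mul_assoc, Subgroup.mem_centralizer_singleton_iff.1 (e.le hg), inv_mul_cancel_left]; exact hDP hg)
  refine of_not_not fun n => (CfsgH9.lt_normalizer_inf P.2.to_inf_left (f.lt_of_ne' n)).not_ge fun g hg => ?_
  exact d (x := ⟨g, hg.1⟩) ⟨hS hg.2.1, mem_cj.2 (hS (mem_cj (G := G).1 hg.2.2))⟩

end Cfsg.Agent.S0956
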