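import Cfsg.Statements.S0957
import Mathlib
import Cfsg.Agent.H4.Rob

set_option autoImplicit false
open Cfsg

open Cfsg CfsgH3 CfsgH4 CfsgH1 CfsgL0 MonoidAlgebra Function
open scoped ComplexConjugate Pointwise

namespace Cfsg.Agent.S0957

/-- Let P be a Sylow p-subgroup of the finite group G, let g, h ∈ G and let p ^ d be the order of a Sylow p-subgroup of the centralizer of g. Then the number of pairs (y, z) with y conjugate to g, z conjugate to h and z * y⁻¹ ∈ P is divisible by the order of P divided by p ^ d. -/
theorem result {G : Type*} [Group G] [Finite G] (p : ℕ) [Fact p.Prime] (P : Sylow p G) (g h : G) (S : Sylow p (Subgroup.centralizer ({g} : Set G))) : Nat.card P / Nat.card S ∣ Nat.card {yz : G × G // IsConj g yz.1 ∧ IsConj h yz.2 ∧ yz.2 * yz.1⁻¹ ∈ (P : Subgroup G)} := by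
  obtain ⟨M, _⟩ := exists_pmod p
  have := rob_dvd (M := M) P g h
  rwa [P.card_eq_multiplicity, S.card_eq_multiplicity, Nat.pow_div
    (by rw [fact_card_eq_add p (Subgroup.centralizer {g})]; omega) (Fact.out : p.Prime).pos]

end Cfsg.Agent.S0957
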