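import Cfsg.Statements.S0959
import Mathlib
import Cfsg.Agent.H4.IndB

set_option autoImplicit false
open Cfsg

open Cfsg CfsgH3 CfsgH4 CfsgH1 CfsgL0 MonoidAlgebra

namespace Cfsg.Agent.S0959

/-- Let B be a block of the finite group G with defect group D (relative to a maximal ideal M of the algebraic integers containing the prime p), and let P be a p-subgroup. Then there is an element g whose idempotent coefficient for B is a local integer outside the local ideal at M and which has a conjugate centralizing P, if and only if some conjugate of P is contained in D. -/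
theorem result {G : Type*} [Group G] [Finite G] (p : ℕ) [Fact p.Prime] (M : Ideal Cfsg.AlgInt) (hM : Cfsg.IsPModular p M) (B : Set (Cfsg.IrrCharacter G)) (hB : Cfsg.IsPBlock M B) (D : Subgroup G) (hD : Cfsg.IsDefectGroup p M B D) (P : Subgroup G) (hP : IsPGroup p P) : (∃ g : G, Cfsg.MemLocalRing M (Cfsg.blockCoeff B g) ∧ ¬ Cfsg.MemLocalIdeal M (Cfsg.blockCoeff B g) ∧ ∃ c : G, IsConj g c ∧ c ∈ Subgroup.centralizer (P : Set G)) ↔ ∃ x : G, P.map (MulAut.conj x).toMonoidHom ≤ D := by
  haveI : PMod p M := ⟨hM⟩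
  rw [hB.isDefectGroup_iff] at hD
  constructor
  · rintro ⟨g, h1, h2, c, hc, hc'⟩
    obtain ⟨y, rfl⟩ := isConj_iff.1 hc
    obtain ⟨x, -, hx⟩ := hD.exists_cj_le le_top hP (br_ne_zero_iff.2 ⟨_, hc', by
      rwa [(inv_eB B).coeff_conj (Subgroup.mem_top y), coeff_eB, Ne, red_eq_zero_iff h1]⟩)
    exact ⟨x, hx⟩
  · rintro ⟨x, hx⟩
    obtain ⟨g, h1, h2⟩ := br_ne_zero_iff.1 (hD.br_ne_zero (inv_eB B) (Subgroup.mem_top x) hx)
    rw [coeff_eB, Ne, red_eq_zero_iff (hB.blockCoeff_mem g)] at h2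
    exact ⟨g, hB.blockCoeff_mem g, h2, g, IsConj.refl g, h1⟩

end Cfsg.Agent.S0959
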