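import Cfsg.Statements.S0960
import Mathlib
import Cfsg.Agent.H4.Cy7

set_option autoImplicit false
open Cfsg

open Cfsg CfsgH3 CfsgH4 CfsgH1 CfsgL0 MonoidAlgebra

namespace Cfsg.Agent.S0960

/-- Let p be an odd prime and G a finite group whose Sylow p-subgroup P has order p; let e be the index of C_G(P) in N_G(P) (a divisor of p − 1) and fix a maximal ideal M of the algebraic integers containing p. Then the principal block of G consists of exactly e + (p - 1) / e irreducible characters, and the degree d of each of them satisfies d ≡ 1, d ≡ -1, d ≡ e or d ≡ -e modulo p. -/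
theorem result {G : Type*} [Group G] [Finite G] (p : ℕ) [Fact p.Prime] (M : Ideal Cfsg.AlgInt) (hM : Cfsg.IsPModular p M) (hodd : p ≠ 2) (P : Sylow p G) (hP : Nat.card P = p) (e : ℕ) (he : (Subgroup.centralizer ((P : Subgroup G) : Set G)).relIndex (Subgroup.normalizer ((P : Subgroup G) : Set G)) = e) : Nat.card (Cfsg.principalBlock M G) = e + (p - 1) / e ∧ ∀ χ ∈ Cfsg.principalBlock M G, ((Cfsg.charDegree (χ : G → ℂ) : ℤ) ≡ 1 [ZMOD p] ∨ (Cfsg.charDegree (χ : G → ℂ) : ℤ) ≡ -1 [ZMOD p] ∨ (Cfsg.charDegree (χ : G → ℂ) : ℤ) ≡ (e : ℤ) [ZMOD p] ∨ (Cfsg.charDegree (χ : G → ℂ) : ℤ) ≡ -(e : ℤ) [ZMOD p]) := by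
  haveI : PMod p M := ⟨hM⟩
  have hm := maxPr_principal (M := M) (isSylowIn_top P)
  obtain ⟨u, hu, hP⟩ := exists_zpowers_eq hP
  rw [← hP] at hm he
  have := Fintype.ofFinite (Subgroup.centralizer (Subgroup.zpowers u : Set G))
  obtain ⟨β, e', Φ, X, y, ε, δ, h⟩ := hm.exists_d1 isPBlock_principal hu
  have he' := h.card_aut.trans he
  refine ⟨by rw [h.s.card_B, h.s.card_exc' h.d, he', h.card], fun χ hχ => ?_⟩
  rcases h.s.mem_iff.1 hχ with h1 | h1
  · have := h.prX_modEq h1
    rcases h.s.sgn χ with h2 | h2 <;> simp only [h2, neg_neg] at this <;> simp [this]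
  · have := h.prY_modEq h1
    rcases h.s.sgn' with h2 | h2 <;> simp only [h2, he, one_mul, neg_mul] at this <;> simp [this]

end Cfsg.Agent.S0960
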