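import Cfsg.Statements.S0965
import Mathlib
import Cfsg.Agent.H4.Cons

set_option autoImplicit false
open Cfsg

open Cfsg CfsgH3 CfsgH4 CfsgH1 CfsgL0 MonoidAlgebra

namespace Cfsg.Agent.S0965

/-- Let N be a normal subgroup of the finite group G and let B, b be blocks of G and of N relative to a maximal ideal M of the algebraic integers containing the prime p. Then some χ ∈ B has a constituent in b on restriction to N if and only if, for all χ ∈ B, θ ∈ b and n ∈ N, the central character of χ at n is congruent modulo the local ideal at M to the sum of θ m / θ 1 over the elements m ∈ N conjugate in G to n. -/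
theorem result {G : Type*} [Group G] [Fintype G] (p : ℕ) [Fact p.Prime] (M : Ideal Cfsg.AlgInt) (hM : Cfsg.IsPModular p M) (N : Subgroup G) [N.Normal] [Fintype N] (B : Set (Cfsg.IrrCharacter G)) (hB : Cfsg.IsPBlock M B) (b : Set (Cfsg.IrrCharacter N)) (hb : Cfsg.IsPBlock M b) : (∃ χ ∈ B, ∃ θ ∈ b, Cfsg.classInner (fun n : N => (χ : G → ℂ) n) (θ : N → ℂ) ≠ 0) ↔ ∀ χ ∈ B, ∀ θ ∈ b, ∀ n : N, Cfsg.MemLocalIdeal M (Cfsg.centralChar (χ : G → ℂ) (n : G) - Cfsg.inducedCentralChar N (θ : N → ℂ) (n : G)) := by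
  haveI : PMod p M := ⟨hM⟩
  rw [← covers_iff]
  have key : ∀ (χ : IrrCharacter G) (θ : IrrCharacter N) (n : N),
      MemLocalIdeal M (centralChar χ.1 n - inducedCentralChar N θ.1 n) ↔
        lam M χ.1 (csum (Res M) ⊤ n) = lam M θ.1 (pull N.subtype (csum (Res M) ⊤ n)) := by
    intro χ θ n
    rw [inducedCentralChar_eq, lam_csum χ.2, ← redG_csum,
      lam_pull_redG _ θ.2 (inv_csum _ _).top (csum_mem_LG _ _),
      red_eq_iff (centralChar_mem_Loc χ.2 _)
        (om_pull_mem_Loc _ θ.2 (inv_csum _ _).top (csum_mem_LG _ _))]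
  simp only [key]
  constructor
  · intro h χ hχ θ hθ n
    exact h.lam_eq hB hb hχ hθ (csum_mem_ZA (Subgroup.normalizer_eq_top N).ge n.2)
  · intro h
    obtain ⟨χ, hχ⟩ := hB.nonempty
    obtain ⟨θ, hθ⟩ := hb.nonempty
    exact (covers_iff_lam hB hb hχ hθ).2 fun z hz => eq_on_ZA_of_csum (lam M χ.1)
      (lam M θ.1 ∘ₗ pull N.subtype) (fun g hg => h χ hχ θ hθ ⟨g, hg⟩) hz

end Cfsg.Agent.S0965
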