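import Cfsg.Statements.S0967
import Mathlib
import Cfsg.Agent.H4.Cons

set_option autoImplicit false
open Cfsg

open Cfsg CfsgH3 CfsgH4 CfsgH1 CfsgL0 MonoidAlgebra

namespace Cfsg.Agent.S0967

/-- Let N be a normal subgroup of the finite group G of order prime to p and fix a maximal ideal M of the algebraic integers containing p. If χ is an irreducible character of G ⧸ N and ψ lies in the block of its inflation χ ∘ (quotient map), then ψ is itself inflated from an irreducible character ψ' of G ⧸ N lying in the block of χ. (Over a normal p'-subgroup, blocks of the quotient are whole blocks of G.) -/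
theorem result {G : Type*} [Group G] [Finite G] (p : ℕ) [Fact p.Prime] (M : Ideal Cfsg.AlgInt) (hM : Cfsg.IsPModular p M) (N : Subgroup G) [N.Normal] (hN : ¬ p ∣ Nat.card N) (χ : Cfsg.IrrCharacter (G ⧸ N)) (ψ : Cfsg.IrrCharacter G) (hψ : ψ ∈ Cfsg.blockOf M ((χ : G ⧸ N → ℂ) ∘ QuotientGroup.mk)) : ∃ ψ' : Cfsg.IrrCharacter (G ⧸ N), (ψ : G → ℂ) = (ψ' : G ⧸ N → ℂ) ∘ QuotientGroup.mk ∧ Cfsg.SameBlock M (χ : G ⧸ N → ℂ) (ψ' : G ⧸ N → ℂ) := by
  haveI : PMod p M := ⟨hM⟩
  have h1 := CfsgH4.Cfsg.SameBlock.ker hN (χ := irrComp _ (QuotientGroup.mk'_surjective N) χ) hψ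
    fun n hn => by rw [irrComp_apply, irrComp_apply, map_one,
      show QuotientGroup.mk' N n = 1 from (QuotientGroup.eq_one_iff n).2 hn]
  obtain ⟨ψ', -, h2, h3⟩ := ψ.2.isCharacter.exists_deflation N h1
  refine ⟨⟨ψ', h2 ψ.2⟩, funext fun g => (h3 g).symm, ?_⟩
  rw [← sameBlock_comp_iff_of_not_dvd (QuotientGroup.mk'_surjective N)
    (by rwa [QuotientGroup.ker_mk']) χ.2 (h2 ψ.2)]
  have : (fun g => ψ' (QuotientGroup.mk' N g)) = ψ.1 := funext h3
  rw [this]
  exact hψ

end Cfsg.Agent.S0967
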