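import Cfsg.Statements.S0969
import Mathlib
import Cfsg.Agent.H4.Quo

set_option autoImplicit false
open Cfsg

open Cfsg CfsgH3 CfsgH4 CfsgH1 CfsgL0 MonoidAlgebra

namespace Cfsg.Agent.S0969

/-- Let D be a central p-subgroup of the finite group G and χ an irreducible character with the exponent of p in χ(1) equal to the exponent of p in the index of D; fix a maximal ideal M of the algebraic integers containing p. Then D is a defect group of the block of χ, and χ g = 0 whenever the p-part of g does not lie in D. -/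
theorem result {G : Type*} [Group G] [Finite G] (p : ℕ) [Fact p.Prime] (M : Ideal Cfsg.AlgInt) (hM : Cfsg.IsPModular p M) (D : Subgroup G) (hD : IsPGroup p D) (hDZ : D ≤ Subgroup.center G) (χ : Cfsg.IrrCharacter G) (hdeg : (Cfsg.charDegree (χ : G → ℂ)).factorization p = D.index.factorization p) : Cfsg.IsDefectGroup p M (Cfsg.blockOf M (χ : G → ℂ)) D ∧ ∀ g x : G, Cfsg.IsPPart p g x → x ∉ D → (χ : G → ℂ) g = 0 := by
  haveI : PMod p M := ⟨hM⟩
  classical
  haveI := Fintype.ofFinite G
  haveI := Fintype.ofFinite D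
  haveI : D.Normal := ⟨fun n hn g => by
    rw [Subgroup.mem_center_iff.1 (hDZ hn) g, mul_inv_cancel_right]; exact hn⟩
  obtain ⟨n, hn, hn'⟩ := exists_int_mm (M := M) χ χ.2.isGen
  obtain ⟨k, hk⟩ := hD.exists_card_eq
  have h1 : (Nat.card G).factorization p - (charDegree χ.1).factorization p = k := by
    rw [hdeg, fact_card_eq_add p D, hk, Nat.Prime.factorization_pow Fact.out]; simp
  have hc : ∀ y : G, ¬ p ∣ orderOf y → y ∈ Subgroup.centralizer (D : Set G) := fun y _ u hu =>
    (Subgroup.mem_center_iff.1 (hDZ hu) y).symm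
  have h2 := sum_eq_sum_psub hD hc (fun g => if ppart p g ∈ D then ‖χ.1 g‖ ^ 2 else 0)
    (fun g hg => if_neg hg)
  have h3 : ∀ u : D, ∑ y : G with ¬ p ∣ orderOf y, (if ppart p ((u : G) * y) ∈ D then ‖χ.1 (u * y)‖ ^ 2 else 0) =
      ∑ y with ¬ p ∣ orderOf y, ‖χ.1 y‖ ^ 2 := by
    intro u
    refine Finset.sum_congr rfl fun y hy => ?_
    have hy' := (Finset.mem_filter.1 hy).2
    have hcm : Commute (u : G) y := hc y hy' u u.2
    rw [ppart_mul hcm (pelt_of_mem hD u.2) hy', if_pos u.2, hcm.eq]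
    have h4 := congrArg norm (χ.2.isCharacter.apply_mul_of_norm_eq
      (χ.2.norm_apply_of_mem_center (hDZ u.2)) y)
    rw [norm_mul, norm_mul, χ.2.norm_apply_of_mem_center (hDZ u.2), mul_comm] at h4
    rw [mul_right_cancel₀ (norm_ne_zero_iff.2 χ.2.apply_one_ne_zero) h4]
  rw [Finset.sum_congr rfl fun u _ => h3 u, Finset.sum_const, Finset.card_univ,
    ← Nat.card_eq_fintype_card, hk, nsmul_eq_mul] at h2
  have h5 : ((∑ y with ¬ p ∣ orderOf y, ‖χ.1 y‖ ^ 2 : ℝ) : ℂ) = Nat.card G * mm p χ.1 χ.1 := by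
    rw [card_mul_mm, Complex.ofReal_sum]
    exact Finset.sum_congr (by congr) fun y _ => by
      rw [Complex.mul_conj, Complex.normSq_eq_norm_sq]
  have h6 : ∑ g, (if ppart p g ∈ D then ‖χ.1 g‖ ^ 2 else 0) = Nat.card G * (n : ℝ) := by
    apply Complex.ofReal_injective
    rw [h2, Complex.ofReal_mul, h5]
    push_cast
    rw [← hn, h1]; ring
  have h7 : ∑ g, ‖χ.1 g‖ ^ 2 = Nat.card G := by
    have := classInner_self_re χ.1
    rw [χ.2.classInner_self, Complex.one_re, eq_comm,
      inv_mul_eq_iff_eq_mul₀ (Nat.cast_ne_zero.2 Nat.card_pos.ne'), mul_one] at this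
    exact this
  have hle : ∀ g ∈ Finset.univ, (if ppart p g ∈ D then ‖χ.1 g‖ ^ 2 else 0) ≤ ‖χ.1 g‖ ^ 2 := by
    intro g _; split_ifs; exacts [le_rfl, sq_nonneg _]
  have hG : (0 : ℝ) < Nat.card G := Nat.cast_pos.2 Nat.card_pos
  have h8 : n = 1 := by
    have a1 := Finset.sum_le_sum hle
    have a2 : 0 < ∑ g, (if ppart p g ∈ D then ‖χ.1 g‖ ^ 2 else 0) := by
      refine Finset.sum_pos' (fun g _ => by split_ifs; exacts [sq_nonneg _, le_rfl])
        ⟨1, Finset.mem_univ _, ?_⟩
      rw [ppart_one, if_pos D.one_mem]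
      exact pow_pos (norm_pos_iff.2 χ.2.apply_one_ne_zero) 2
    rw [h6] at a1 a2
    rw [h7] at a1
    have b1 : (n : ℝ) ≤ 1 := by nlinarith
    have b2 : (0 : ℝ) < n := by nlinarith
    have b3 : n ≤ 1 := by exact_mod_cast b1
    have b4 : 0 < n := by exact_mod_cast b2
    omega
  have hB := isPBlock_blockOf (M := M) χ.2
  constructor
  · have h9 : ¬ MemLocalIdeal M (om χ.1 (zrg p χ.1)) := by
      rw [← hn', h8]
      exact_mod_cast (Fact.out : p.Prime).not_dvd_one
    have h10 := ((hB.not_InP_om_zrg_iff (mem_blockOf_self χ) χ).1 h9).2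
    obtain ⟨E, hE⟩ := hB.exists_defectGroup
    have h11 := (hB.isDefectGroup_iff.1 hE).normal_le (eB_mem_ZA _) hB.eB_idem hD le_top
      Subgroup.le_normalizer_of_normal
    have h12 : D = E := by
      refine Subgroup.eq_of_le_of_card_ge h11 ?_
      rw [hE.card_eq hB, sub_fact_eq (M := M) (mem_blockOf_self χ), h10, h1, hk, zero_add]
    rwa [h12]
  · intro g x hx hxD
    rw [h8, Int.cast_one, mul_one, ← h7] at h6
    have := (Finset.sum_eq_sum_iff_of_le hle).1 h6 g (Finset.mem_univ g)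
    rw [← hx.eq_ppart, if_neg hxD] at this
    simpa using this.symm

end Cfsg.Agent.S0969
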