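import Cfsg.Statements.S0970
import Mathlib
import Cfsg.Agent.H4.Fong

set_option autoImplicit false
open Cfsg

open Cfsg CfsgH3 CfsgH4 CfsgH1 CfsgL0 MonoidAlgebra

namespace Cfsg.Agent.S0970

/-- Let N be a normal subgroup of the finite group G and fix a maximal ideal M of the algebraic integers containing the prime p. Let b be a block of N that is invariant under conjugation by G, and B a block of G covering b (some χ ∈ B has a constituent in b) whose defect is at least that of every block covering b. If P is a defect group of B, then p does not divide the index of P ⊔ N, the subgroup P ∩ N of N is a defect group of b, and the defect of B equals the defect of b plus the exponent of p in the index of N. -/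
theorem result {G : Type*} [Group G] [Fintype G] (p : ℕ) [Fact p.Prime] (M : Ideal Cfsg.AlgInt) (hM : Cfsg.IsPModular p M) (N : Subgroup G) [hN : N.Normal] [Fintype N] (b : Set (Cfsg.IrrCharacter N)) (hb : Cfsg.IsPBlock M b) (hinv : ∀ g : G, ∀ θ ∈ b, ∀ θ' : Cfsg.IrrCharacter N, (∀ n : N, (θ' : N → ℂ) n = (θ : N → ℂ) ⟨g * n * g⁻¹, hN.conj_mem n n.2 g⟩) → θ' ∈ b) (B : Set (Cfsg.IrrCharacter G)) (hB : Cfsg.IsPBlock M B) (hcov : ∃ χ ∈ B, ∃ θ ∈ b, Cfsg.classInner (fun n : N => (χ : G → ℂ) n) (θ : N → ℂ) ≠ 0) (hmax : ∀ B' : Set (Cfsg.IrrCharacter G), Cfsg.IsPBlock M B' → (∃ χ ∈ B', ∃ θ ∈ b, Cfsg.classInner (fun n : N => (χ : G → ℂ) n) (θ : N → ℂ) ≠ 0) → Cfsg.blockDefect p B' ≤ Cfsg.blockDefect p B) (P : Subgroup G) (hP : Cfsg.IsDefectGroup p M B P) : ¬ p ∣ (P ⊔ N).index ∧ Cfsg.IsDefectGroup p M b ((P ⊓ N).subgroupOf N) ∧ Cfsg.blockDefect p B = Cfsg.blockDefect p b + N.index.factorization p := by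
  haveI : PMod p M := ⟨hM⟩
  have hp : p.Prime := Fact.out
  have hi : Inv ⊤ (ie M N b) := fun x _ => (stab_irrCj_iff hb).1 (hinv x)
  have h1 := (covers_iff_eB_mul_ne hB.fB_mem hb.fB_mem).1 (covers_iff.2 hcov)
  have hc := hb.isBlk_ie.of_inv le_top hi
  obtain ⟨D, hD⟩ := hc.exists_isDef (p := p) le_top (top_le_norm N)
  obtain ⟨e, he, h2⟩ := exists_blk_br_mul_ne_zero (N := ⊤) le_rfl D hD.ne
  obtain ⟨B', hB', rfl⟩ := he.exists_eq_eB
  have h3 : Covers N B' b := (covers_iff_eB_mul_ne hB'.fB_mem hb.fB_mem).2 fun h => h2 (by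
    rw [← br_mul' hD.pgrp (inv_eB B').top hi.top, h, map_zero])
  obtain ⟨E, hE⟩ := hB'.exists_defectGroup
  have h4 := (hB'.isDefectGroup_iff.1 hE).card_le le_top hD.pgrp (left_ne_zero_of_mul h2)
  have hP' := hB.isDefectGroup_iff.1 hP
  have h5 : ie M N b * eB M B = eB M B := hB.isBlk.mul_eq_of_ne ⟨Supp.top _, hi⟩ hc.idem (by
    rwa [((inv_eB B).commute _).eq])
  have h6 : IsDef p ⊤ (ie M N b) P := hD.of_card_le le_top hP'.pgrp (fun h => hP'.ne (by
    rw [← h5, br_mul' hP'.pgrp hi.top (inv_eB B).top, h, zero_mul])) (h4.trans (by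
      rw [hE.card_eq hB', hP.card_eq hB]
      exact Nat.pow_le_pow_right hp.pos (hmax B' hB' (covers_iff.1 h3))))
  have h7 := hb.isBlk_ie.not_dvd_relIndex' le_top (top_le_norm N) hi h6
  rw [Subgroup.relIndex_top_right] at h7
  have h8 := (hb.isDefectGroup_ie_iff inf_le_right).2
    (hb.isBlk_ie.isDef_inf le_top (top_le_norm N) hi h6)
  refine ⟨h7, h8, ?_⟩
  have h0 : ∀ K : Subgroup G, N.relIndex K ≠ 0 := fun K => Subgroup.index_ne_zero_of_finite
  rw [← hP.fact_card hB, ← h8.fact_card hb, ← Subgroup.relIndex_mul_index (le_sup_right : N ≤ P ⊔ N),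
    Nat.factorization_mul (h0 _) (index_ne_zero' _), Finsupp.add_apply,
    Nat.factorization_eq_zero_of_not_dvd h7, add_zero, Subgroup.relIndex_sup_right,
    ← CfsgH1.card_inf_mul_relIndex N P, Nat.factorization_mul Nat.card_pos.ne'
      (h0 _), Finsupp.add_apply, inf_comm N P,
    Nat.card_congr (Subgroup.subgroupOfEquivOfLe (inf_le_right : P ⊓ N ≤ N)).toEquiv]

end Cfsg.Agent.S0970
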