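import Cfsg.Statements.S0971
import Mathlib
import Cfsg.Agent.H4.Cons

set_option autoImplicit false
open Cfsg

open Cfsg CfsgH3 CfsgH4 CfsgH1 CfsgL0 MonoidAlgebra

namespace Cfsg.Agent.S0971

/-- Let Q be a normal p-subgroup of the finite group G, let N = Q ⊔ C_G(Q) (a normal subgroup) and let b be a block of N relative to a maximal ideal M of the algebraic integers containing p. Then b induces some block of G, and every block B of G containing a character whose restriction to N has a constituent in b is induced by b. -/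
theorem result {G : Type*} [Group G] [Fintype G] (p : ℕ) [Fact p.Prime] (M : Ideal Cfsg.AlgInt) (hM : Cfsg.IsPModular p M) (Q : Subgroup G) [Q.Normal] (hQ : IsPGroup p Q) [Fintype ↥(Q ⊔ Subgroup.centralizer (Q : Set G))] (b : Set (Cfsg.IrrCharacter ↥(Q ⊔ Subgroup.centralizer (Q : Set G)))) (hb : Cfsg.IsPBlock M b) : Cfsg.InducedBlockDefined M (Q ⊔ Subgroup.centralizer (Q : Set G)) b ∧ ∀ B : Set (Cfsg.IrrCharacter G), Cfsg.IsPBlock M B → (∃ χ ∈ B, ∃ θ ∈ b, Cfsg.classInner (fun n : ↥(Q ⊔ Subgroup.centralizer (Q : Set G)) => (χ : G → ℂ) n) (θ : ↥(Q ⊔ Subgroup.centralizer (Q : Set G)) → ℂ) ≠ 0) → Cfsg.IsInducedBlock M (Q ⊔ Subgroup.centralizer (Q : Set G)) b B := by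
  haveI : PMod p M := ⟨hM⟩
  obtain ⟨B', hB'⟩ := (brLoc_sup hQ).exists_isInducedBlock hb
  refine ⟨⟨B', hB'⟩, fun B hB h => ?_⟩
  rw [← covers_iff] at h
  obtain ⟨χ, hχ⟩ := hB.nonempty
  obtain ⟨θ, hθ⟩ := hb.nonempty
  have h1 := supp_centralizer_of_idem hQ le_top
    (Subgroup.normalizer_eq_top _).ge (eB_mem_ZA B') hB'.2.1.eB_idem
  have h2 := h.lam_eq hB hb hχ hθ ⟨h1.mono le_sup_right, inv_eB B'⟩
  rw [hB'.indB.lam_eB hB'.2.1 hθ, ← hB'.2.1.mem_iff_lam] at h2
  rwa [hB.eq_of_mem hB'.2.1 hχ h2]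

end Cfsg.Agent.S0971
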