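import Cfsg.Statements.S0972
import Mathlib
import Cfsg.Agent.H4.Rey

set_option autoImplicit false
open Cfsg

open Cfsg CfsgH4 CfsgH1 CfsgL0 MonoidAlgebra Function
open CfsgH3 hiding cj cj_cj
open scoped ComplexConjugate Pointwise

namespace Cfsg.Agent.S0972

/-- Let B be a block of the finite group G (relative to a maximal ideal M of the algebraic integers containing the prime p) with a defect group P that is normal in G. Then P is commutative if and only if every member of B has height zero. -/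
theorem result {G : Type*} [Group G] [Finite G] (p : ℕ) [Fact p.Prime] (M : Ideal Cfsg.AlgInt) (hM : Cfsg.IsPModular p M) (B : Set (Cfsg.IrrCharacter G)) (hB : Cfsg.IsPBlock M B) (P : Subgroup G) [P.Normal] (hP : Cfsg.IsDefectGroup p M B P) : (∀ a ∈ P, ∀ c ∈ P, a * c = c * a) ↔ ∀ χ ∈ B, Cfsg.blockHeight p B (χ : G → ℂ) = 0 := by
  haveI : PMod p M := ⟨hM⟩
  obtain ⟨b, hb, hD'⟩ := hB.exists_root hP
  have hc := hb.covB_root hP
  have hG := sup_cent_subgroupOf P
  haveI := normal_of_sup_cent hG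
  haveI := normal_sup_cent (M := M) (p := p) P
  haveI : (P ⊔ Subgroup.centralizer (P : Set G)).subtype.range.Normal := by
    rw [Subgroup.range_subtype]; infer_instance
  obtain ⟨θ, hθ, hk⟩ := hb.1.exists_ker hD'.isPGroup
  obtain ⟨Y, hY', hY⟩ := hb.1.pc_structure hD' hG hθ hk
  constructor
  · intro h χ hχ
    obtain ⟨ψ, hψ, h1⟩ := hc.exists_under (Subgroup.subtype_injective _) hB hb.1 hχ
    rw [hb.height_root hP hχ hψ h1, (hY ψ hψ).2, charDegree_eq (n := 1)]
    · simp
    · rw [Nat.cast_one]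
      exact (Y ψ).2.apply_one_of_comm fun a c => Subtype.ext (Subtype.ext (h _ a.2 _ c.2))
  · intro h a ha c hc'
    have := comm_of_forall_lin (G := P.subgroupOf (P ⊔ Subgroup.centralizer (P : Set G)))
      (fun ζ hζ => ?_) ⟨⟨a, Subgroup.mem_sup_left ha⟩, ha⟩ ⟨⟨c, Subgroup.mem_sup_left hc'⟩, hc'⟩
    · exact congrArg (fun x => x.1.1) this
    obtain ⟨ψ, hψ, h1⟩ := hY'.surjOn (Set.mem_univ ⟨ζ, hζ⟩)
    obtain ⟨χ, hχ, h2⟩ := hc.exists_over (Subgroup.subtype_injective _) hB.fB_mem hb.1 hψ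
    have h3 := h χ hχ
    rw [hb.height_root hP hχ hψ h2, (hY ψ hψ).2, h1] at h3
    exact lin_of_pgroup hD'.isPGroup hζ fun h => by
      have := (Fact.out : p.Prime).factorization_pos_of_dvd (charDegree_ne_zero hζ) h
      exact this.ne' h3

end Cfsg.Agent.S0972
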