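import Cfsg.Statements.S0973
import Mathlib
import Cfsg.Agent.H4.First

set_option autoImplicit false
open Cfsg

open Cfsg CfsgH3 CfsgH4 CfsgH1 CfsgL0 MonoidAlgebra

namespace Cfsg.Agent.S0973

/-- Let B be a block of the finite group G with defect group P (relative to a maximal ideal M of the algebraic integers containing p), and let L = P ⊔ C_G(P). Then (i) some block b of L with defect group P (viewed in L) induces B, and (ii) if b and b' are blocks of L both inducing B, there is n ∈ N_G(P) carrying b to b': for every θ ∈ b there is θ' ∈ b' with θ' x = θ (n x n⁻¹) for all x ∈ L. -/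
theorem result {G : Type*} [Group G] [Finite G] (p : ℕ) [Fact p.Prime] (M : Ideal Cfsg.AlgInt) (hM : Cfsg.IsPModular p M) (B : Set (Cfsg.IrrCharacter G)) (hB : Cfsg.IsPBlock M B) (P : Subgroup G) (hP : Cfsg.IsDefectGroup p M B P) : (∃ b : Set (Cfsg.IrrCharacter ↥(P ⊔ Subgroup.centralizer (P : Set G))), Cfsg.IsDefectGroup p M b (P.subgroupOf (P ⊔ Subgroup.centralizer (P : Set G))) ∧ Cfsg.IsInducedBlock M (P ⊔ Subgroup.centralizer (P : Set G)) b B) ∧ ∀ b b' : Set (Cfsg.IrrCharacter ↥(P ⊔ Subgroup.centralizer (P : Set G))), Cfsg.IsInducedBlock M (P ⊔ Subgroup.centralizer (P : Set G)) b B → Cfsg.IsInducedBlock M (P ⊔ Subgroup.centralizer (P : Set G)) b' B → ∃ n ∈ Subgroup.normalizer (P : Set G), ∀ θ ∈ b, ∃ θ' ∈ b', ∀ x : ↥(P ⊔ Subgroup.centralizer (P : Set G)), ∀ hx : n * (x : G) * n⁻¹ ∈ P ⊔ Subgroup.centralizer (P : Set G), (θ' : ↥(P ⊔ Subgroup.centralizer (P : Set G)) → ℂ) x = (θ : ↥(P ⊔ Subgroup.centralizer (P : Set G)) → ℂ) ⟨n *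 (x : G) * n⁻¹, hx⟩ := by
  haveI : PMod p M := ⟨hM⟩
  have hl := brLoc_sup hP.isPGroup
  have hD := hB.isDefectGroup_iff.1 hP
  constructor
  · obtain ⟨b, hb⟩ := hB.exists_local hl hD.ne
    exact ⟨b, hb.isDefectGroup_local hP hl le_sup_left, hb⟩
  · intro b b' hb hb'
    have hn : Subgroup.normalizer (P : Set G) ≤
        Subgroup.normalizer ((P ⊔ Subgroup.centralizer (P : Set G) : Subgroup G) : Set G) := by
      intro x hx
      rw [mem_normalizer_iff_cj] at hx ⊢
      rw [cj_sup, cj_centralizer, hx]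
    have h1 := (hl.isInducedBlock_iff hb.1 hB).1 hb
    have h2 := (hl.isInducedBlock_iff_ne hb'.1 hB).1 hb'
    rw [ZA_comm le_rfl (hl.br_mem (inv_eB B).top) hb.1.isBlk_subtype.mem] at h1
    obtain ⟨x, hx, h3⟩ := (hB.isBlk.isBlk_br_norm hD).exists_cnj_eq le_rfl hl.le_norm
      hb.1.isBlk_subtype hb'.1.isBlk_subtype hn hn h1 h2
    refine ⟨x⁻¹, inv_mem hx, fun θ hθ => ?_⟩
    have k1 := fun k hk => CfsgL0.conj_mem_of_mem_normalizer (x := k) (hn hx) hk
    have k2 := fun k hk => CfsgL0.conj_mem_of_mem_normalizer' (x := k) (hn hx) hk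
    rw [cnj_inc_eB_eq_iff x k1 k2 hb.1 hb'.1] at h3
    obtain ⟨θ', rfl⟩ := exists_irrComp_eq _ (cjHom_bijective x k1 k2) θ
    refine ⟨θ', h3 ▸ hθ, fun y hy => ?_⟩
    rw [irrComp_apply]
    exact congrArg θ'.1 (Subtype.ext (by simp [coe_cjHom, mul_assoc]))

end Cfsg.Agent.S0973
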