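import Cfsg.Statements.S0986
import Cfsg.Agent.H3.Hv1

set_option autoImplicit false
open Cfsg

namespace Cfsg.Agent.S0986
open Subgroup CfsgH2 CfsgHv MulAction

/-- Let P and Q be distinct Sylow p-subgroups of a finite group G chosen so that the order of P ∩ Q is as large as possible among intersections of two distinct Sylow p-subgroups, and let N be the normalizer of P ∩ Q. Then N has more than one Sylow p-subgroup, any two distinct Sylow p-subgroups of N intersect exactly in P ∩ Q, and each Sylow p-subgroup of N lies in exactly one Sylow p-subgroup of G. -/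
theorem result {G : Type*} [Group G] [Finite G] (p : ℕ) [Fact p.Prime] (P Q : Sylow p G) (hPQ : P ≠ Q) (hmax : ∀ P' Q' : Sylow p G, P' ≠ Q' → Nat.card ↥((P' : Subgroup G) ⊓ (Q' : Subgroup G)) ≤ Nat.card ↥((P : Subgroup G) ⊓ (Q : Subgroup G))) : 1 < Nat.card (Sylow p ↥(Subgroup.normalizer (((P : Subgroup G) ⊓ (Q : Subgroup G) : Subgroup G) : Set G))) ∧ (∀ S T : Sylow p ↥(Subgroup.normalizer (((P : Subgroup G) ⊓ (Q : Subgroup G) : Subgroup G) : Set G)), S ≠ T → (S : Subgroup _) ⊓ (T : Subgroup _) = ((P : Subgroup G) ⊓ (Q : Subgroup G)).subgroupOf (Subgroup.normalizer (((P : Subgroup G) ⊓ (Q : Subgroup G) : Subgroup G) : Set G))) ∧ ∀ S : Sylow p ↥(Subgroup.normalizer (((P : Subgroup G) ⊓ (Q : Subgroup G) : Subgroup G) : Set G)), ∃! T : Sylow p G, (S : Subgroup _).map (Subgroup.normalizer (((P : Subgroup G) ⊓ (Q : Subgroup G) : Subgroup G) : Set G)).subtype ≤ (T : Subgroup G) := by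
  set D : Subgroup G := P ⊓ Q
  have hne : (P : Subgroup G) ≠ Q := fun h => hPQ (Sylow.ext h)
  have pD : PG[p, D] := P.isPGroup'.to_le inf_le_left
  have big : ∀ A B : Subgroup G, Syl p A ⊤ → Syl p B ⊤ → D < A ⊓ B → A = B := by
    intro A B hA hB hl
    obtain ⟨A', rfl⟩ := hA.exists_top
    obtain ⟨B', rfl⟩ := hB.exists_top
    by_contra h
    exact (hmax A' B' fun e => h (by rw [e])).not_gt (card_lt_of_lt hl)
  have hP := lt_inf_norm (nil_of_pg P.isPGroup') (syl_inf_lt (syl_top P) (syl_top Q) hne)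
  have hQ : D < (Q : Subgroup G) ⊓ N[D] := by
    have := syl_inf_lt (syl_top Q) (syl_top P) hne.symm
    rw [inf_comm] at this
    exact lt_inf_norm (nil_of_pg Q.isPGroup') this
  have hD : ∀ S, Syl p S N[D] → D < S := fun S hS =>
    lt_of_le_of_ne (hS.le_of_norm pD le_normalizer hS.le) fun e => by
      have := hS.card_le (P.isPGroup'.to_le (inf_le_left : (P : Subgroup G) ⊓ N[D] ≤ _)) inf_le_right
      rw [← e] at this
      exact (card_lt_of_lt hP).not_ge this
  refine ⟨?_, fun S T hST => ?_, fun S => ?_⟩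
  · by_contra h
    have : Subsingleton (Sylow p N[D]) := Finite.card_le_one_iff_subsingleton.1 (not_lt.1 h)
    obtain ⟨A, hA, h1⟩ := exists_syl_ge (P.isPGroup'.to_le (inf_le_left : (P : Subgroup G) ⊓ N[D] ≤ _)) inf_le_right
    obtain ⟨B, hB, h2⟩ := exists_syl_ge (Q.isPGroup'.to_le (inf_le_left : (Q : Subgroup G) ⊓ N[D] ≤ _)) inf_le_right
    obtain ⟨A', rfl⟩ := hA.exists_sub
    obtain ⟨B', rfl⟩ := hB.exists_sub
    obtain rfl : A' = B' := Subsingleton.elim _ _
    obtain ⟨T, hT, h3⟩ := exists_syl_ge hA.pg (le_top)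
    exact hne ((big _ _ (syl_top P) hT (hP.trans_le (le_inf inf_le_left (h1.trans h3)))).trans
      (big _ _ (syl_top Q) hT (hQ.trans_le (le_inf inf_le_left (h2.trans h3)))).symm)
  · apply map_injective N[D].subtype_injective
    rw [map_inf _ _ _ N[D].subtype_injective, subgroupOf_map_subtype, inf_eq_left.2 le_normalizer]
    by_contra h
    have hl : D < _ := lt_of_le_of_ne (le_inf (hD _ (syl_sub S)).le (hD _ (syl_sub T)).le) (Ne.symm h)
    obtain ⟨A, hA, h1⟩ := exists_syl_ge (syl_sub S).pg le_top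
    obtain ⟨B, hB, h2⟩ := exists_syl_ge (syl_sub T).pg le_top
    obtain rfl := big A B hA hB (hl.trans_le (inf_le_inf h1 h2))
    have e1 := (syl_sub S).eq_of_le (hA.pg.to_le (inf_le_left : A ⊓ N[D] ≤ A)) (le_inf h1 (syl_sub S).le) inf_le_right
    have e2 := (syl_sub T).eq_of_le (hA.pg.to_le (inf_le_left : A ⊓ N[D] ≤ A)) (le_inf h2 (syl_sub T).le) inf_le_right
    exact hST (Sylow.ext (map_injective N[D].subtype_injective (e1.symm.trans e2)))
  · obtain ⟨A, hA, h1⟩ := exists_syl_ge (syl_sub S).pg le_top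
    obtain ⟨A', rfl⟩ := hA.exists_top
    exact ⟨A', h1, fun B hB => Sylow.ext (big _ _ (syl_top B) hA ((hD _ (syl_sub S)).trans_le (le_inf hB h1)))⟩


end Cfsg.Agent.S0986
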