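import Cfsg.Statements.S0987
import Cfsg.Agent.H3.Hv1

set_option autoImplicit false
open Cfsg

namespace Cfsg.Agent.S0987
open Subgroup CfsgH2 CfsgHv MulAction
theorem step {G : Type*} [Group G] [Finite G] (M : Subgroup G) (p m : ℕ) (hp : p.Prime) (hM : o[M] = p * m)
    (h : ∀ q, q.Prime → q ∣ m → p < q) : o[O[{p}ᶜ, M]] = m := by
  haveI := Fact.mk hp
  have hm : ¬ p ∣ m := fun hd => (h p hp hd).false
  obtain ⟨P, hP, hc⟩ := exists_card_prime_le hp (hM ▸ Dvd.intro _ rfl : p ∣ o[M])
  have h1 := card_mul_relIndex hP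
  rw [hc, hM] at h1
  have h2 := Nat.eq_of_mul_eq_mul_left hp.pos h1
  have hS : Syl p P M := ⟨hP, isPGroup_of_card (n := 1) (by simpa using hc), h2 ▸ hm⟩
  have := isCyclic_of_card_prime hp hc
  have hn : NPC p M := hS.npc_of_abelian inferInstance (n := 1) (by simpa using hc) fun q k hq hne hd h0 h1 hk => by
    obtain rfl : k = 1 := by omega
    have := h q hq (((Nat.Prime.dvd_mul hq).1 (hM ▸ hd)).resolve_left fun h =>
      hne ((Nat.prime_dvd_prime_iff_eq hq hp).1 h))
    have := Nat.le_of_dvd (by have := hp.two_le; simp; omega) hk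
    simp at this; omega
  have h3 := Hall.card_mul (hall_singleton.2 hS) hn.hall
  rw [hc, hM] at h3
  exact Nat.eq_of_mul_eq_mul_left hp.pos h3

/-- If a finite group has order pqr for primes p < q < r, then its Sylow r-subgroups are normal. -/
theorem result {G : Type*} [Group G] [Finite G] (p q r : ℕ) (hp : p.Prime) (hq : q.Prime) [Fact r.Prime] (hpq : p < q) (hqr : q < r) (hG : Nat.card G = p * q * r) (R : Sylow r G) : (R : Subgroup G).Normal := by
  have hr : r.Prime := Fact.out
  have h1 := step (⊤ : Subgroup G) p (q * r) hp (by rw [card_top, hG, mul_assoc]) fun s hs hd => by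
    rcases (Nat.Prime.dvd_mul hs).1 hd with h | h
    · rw [(Nat.prime_dvd_prime_iff_eq hs hq).1 h]; exact hpq
    · rw [(Nat.prime_dvd_prime_iff_eq hs hr).1 h]; exact hpq.trans hqr
  have h2 := step _ q r hq h1 fun s hs hd => by rw [(Nat.prime_dvd_prime_iff_eq hs hr).1 hd]; exact hqr
  set L := O[{q}ᶜ, O[{p}ᶜ, (⊤ : Subgroup G)]]
  have hn : L.Normal := inferInstance
  have h3 := L.card_mul_index
  rw [h2, hG, mul_comm (p * q)] at h3
  have h4 := Nat.eq_of_mul_eq_mul_left hr.pos h3
  have hS : Syl r L ⊤ := ⟨le_top, isPGroup_of_card (n := 1) (by simpa using h2), by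
    rw [relIndex_top_right, h4]
    intro h
    rcases (Nat.Prime.dvd_mul hr).1 h with h | h
    · have := Nat.le_of_dvd hp.pos h; omega
    · have := Nat.le_of_dvd hq.pos h; omega⟩
  rw [hS.eq_of_norm (syl_top R) (top_le_norm_iff.2 hn)]; exact hn


end Cfsg.Agent.S0987
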