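import Cfsg.Statements.S0988
import Cfsg.Agent.H1.Misc1
import Cfsg.Agent.H2.BG0
import Cfsg.Agent.H1.Sm3

set_option autoImplicit false
open Cfsg

namespace Cfsg.Agent.S0988

section
open Subgroup CfsgH2
open CfsgH1 hiding card_inf_mul_relIndex card_lt_of_lt card_lt_of_ne_top card_map_mul_card_inf_ker card_mul_relIndex card_subgroupOf card_sup_dvd card_sup_mul_card_inf coprime_le_sup_cent exists_card_prime_le isNilpotent_map isNilpotent_of_le isPGroup_pCore isSolvable_map isSolvable_of_le le_pCore le_pPrimeCore relIndex_map_dvd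
open scoped CfsgH1
open scoped commutatorElement

theorem aux {G : Type*} [Group G] [Finite G] [IsSimpleGroup G] (p q r : ℕ) (hp : p.Prime) (hq : q.Prime) (hr : r.Prime) (hG : Nat.card G = p ^ 2 * q * r) (l : q ≤ r) :
    Nat.card G = 60 := by
  have p2 := hp.two_le; have q2 := hq.two_le; have r2 := hr.two_le
  have n := CfsgSm.nc (G := G) (by rw [hG]; exact Nat.not_prime_mul (by nlinarith) hr.ne_one)
  have t := fun a b => Sm.not_two n (a := a) (b := b) hp hq
  have t' := fun a b => Sm.not_two n (a := a) (b := b) hp hr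
  have qr : q ≠ r := fun e => t 2 2 (by rw [hG, ← e, sq q, mul_assoc])
  have pq : p ≠ q := fun e => t' 3 1 (by rw [hG, ← e, pow_one, pow_succ p 2])
  have pr : p ≠ r := fun e => t 3 1 (by rw [hG, ← e, pow_one, pow_succ p 2, mul_right_comm])
  have dv : ∀ s, s.Prime → s ∣ Nat.card G → s = p ∨ s = q ∨ s = r := fun s hs d => by
    rw [hG, hs.dvd_mul, hs.dvd_mul, hs.prime.dvd_pow_iff_dvd two_ne_zero, Nat.prime_dvd_prime_iff_eq hs hp, Nat.prime_dvd_prime_iff_eq hs hq, Nat.prime_dvd_prime_iff_eq hs hr, or_assoc] at d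
    exact d
  have k : ∀ s, s.Prime → ∀ a m, 0 < a → a ≤ 2 → Nat.card G = s ^ a * m → ¬ s ∣ m → ∃ t k, t.Prime ∧ t ≠ s ∧ t ∣ Nat.card G ∧ 0 < k ∧ k ≤ a ∧ t ∣ s ^ k - 1 :=
      fun s hs a m a0 a2 e d => by
    haveI := Fact.mk hs
    obtain ⟨P⟩ : Nonempty (Sylow s G) := inferInstance
    have c : Nat.card P = s ^ a := by rw [P.card_eq_multiplicity, CfsgSm.fact_eq hs e d]
    by_contra! x
    refine Sm.not_npc n (e ▸ (dvd_pow_self s a0.ne').mul_right m) ((syl_top P).npc_of_abelian ?_ c fun t k h1 h2 h3 => x t k h1 h2 (card_top (G := G) ▸ h3))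
    interval_cases a
    · exact isMulComm_of_cyclic (isCyclic_of_prime_card (c.trans (pow_one s)))
    · exact ⟨⟨IsPGroup.commutative_of_card_eq_prime_sq c⟩⟩
  have nd : ∀ {a b : ℕ}, a.Prime → b.Prime → a ≠ b → ¬ a ∣ b := fun ha hb n d => n ((Nat.prime_dvd_prime_iff_eq ha hb).1 d)
  obtain ⟨s, j, s1, s2, s3, j0, j1, s4⟩ := k q hq 1 (p ^ 2 * r) one_pos one_le_two (by rw [hG]; ring) fun d => ((Nat.Prime.dvd_mul hq).1 d).elim
    (fun d => nd hq hp pq.symm (hq.dvd_of_dvd_pow d)) (nd hq hr qr)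
  obtain rfl : j = 1 := by omega
  have l1 := Nat.le_of_dvd (by rw [pow_one]; omega) s4
  rw [pow_one] at l1
  have l2 : p < q := by rcases dv s s1 s3 with rfl | rfl | rfl <;> omega
  obtain ⟨s, j, s1, s2, s3, j0, j1, s4⟩ := k p hp 2 (q * r) two_pos le_rfl (by rw [hG]; ring) fun d => ((Nat.Prime.dvd_mul hp).1 d).elim
    (nd hp hq pq) (nd hp hr pr)
  have s5 : s ∣ p + 1 := by
    have l3 : p < s := by rcases dv s s1 s3 with rfl | rfl | rfl <;> omega
    have x : ¬ s ∣ p - 1 := fun d => by have := Nat.le_of_dvd (by omega) d; omega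
    interval_cases j
    · exact (x (pow_one p ▸ s4)).elim
    · rw [← one_pow 2, Nat.sq_sub_sq] at s4
      exact ((Nat.Prime.dvd_mul s1).1 s4).resolve_right x
  have l4 := Nat.le_of_dvd (by omega) s5
  have e : q = p + 1 := by rcases dv s s1 s3 with rfl | rfl | rfl <;> omega
  obtain rfl : p = 2 := (hp.eq_two_or_odd).resolve_right fun o => by have := hq.eq_two_or_odd; omega
  subst e
  haveI := Fact.mk hr
  have r5 : 5 ≤ r := by by_contra! x; interval_cases r <;> simp_all (config := {decide := true})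
  obtain ⟨m, rfl⟩ := Nat.exists_eq_add_of_le' (show 2 ≤ r by omega)
  rcases (CfsgSm.brc_small n (hG ▸ Dvd.intro_left _ rfl) (by rw [hG]; norm_num; nlinarith [Nat.mul_le_mul r5 r5])).2 with ⟨e, -⟩ | ⟨e, -⟩ <;> rw [hG] at e ⊢
  · rw [show (m + 2) ^ 2 - 1 = (m + 1) * (m + 3) from Nat.sub_eq_of_eq_add (by ring)] at e
    have : (m + 1) * (m + 3) = 24 := Nat.eq_of_mul_eq_mul_left (show 0 < m + 2 by omega) (by rw [← e]; ring)
    have : m < 4 := by nlinarith
    obtain rfl : m = 3 := by omega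
    rfl
  · rw [show m + 2 - 1 = m + 1 from rfl, Nat.add_sub_cancel] at e
    have : (m + 1) * m = 12 := Nat.eq_of_mul_eq_mul_left (show 0 < m + 2 by omega) (by rw [← mul_assoc, ← e]; ring)
    have : m < 4 := by nlinarith
    obtain rfl : m = 3 := by omega
    rfl

end

/-- If a finite simple group has order p^2 * q * r with p, q and r prime, then its order is 60. -/
theorem result {G : Type*} [Group G] [Finite G] [IsSimpleGroup G] (p q r : ℕ) (hp : p.Prime) (hq : q.Prime) (hr : r.Prime) (hG : Nat.card G = p ^ 2 * q * r) : Nat.card G = 60 := by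
  open Subgroup CfsgH2 in
  open CfsgH1 hiding card_inf_mul_relIndex card_lt_of_lt card_lt_of_ne_top card_map_mul_card_inf_ker card_mul_relIndex card_subgroupOf card_sup_dvd card_sup_mul_card_inf coprime_le_sup_cent exists_card_prime_le isNilpotent_map isNilpotent_of_le isPGroup_pCore isSolvable_map isSolvable_of_le le_pCore le_pPrimeCore relIndex_map_dvd in
  open scoped CfsgH1 in
  open scoped commutatorElement in
  · rcases le_total q r with l | l
    · exact aux p q r hp hq hr hG l
    · exact aux p r q hp hr hq (by rw [hG, mul_right_comm]) l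

end Cfsg.Agent.S0988
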