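import Cfsg.Statements.S0990
import Cfsg.Agent.H3.Hv1

set_option autoImplicit false
open Cfsg

namespace Cfsg.Agent.S0990
open Subgroup CfsgH2 CfsgHv MulAction

/-- Let p be an odd prime and P a Sylow p-subgroup of the symmetric group on a finite set with at least two elements. Then P is contained in the alternating group, and twice the order of the normalizer of P inside the alternating group equals the order of the normalizer of P in the symmetric group. -/
theorem result {α : Type*} [Fintype α] [DecidableEq α] (hα : 2 ≤ Fintype.card α) (p : ℕ) [Fact p.Prime] (hp : p ≠ 2) (P : Sylow p (Equiv.Perm α)) : (P : Subgroup (Equiv.Perm α)) ≤ alternatingGroup α ∧ 2 * Nat.card ↥(Subgroup.normalizer ((((P : Subgroup (Equiv.Perm α)).subgroupOf (alternatingGroup α) : Subgroup ↥(alternatingGroup α)) : Set ↥(alternatingGroup α)))) = Nat.card ↥(Subgroup.normalizer ((P : Subgroup (Equiv.Perm α)) : Set (Equiv.Perm α))) := by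
  have hp' : p.Prime := Fact.out
  have : Nontrivial α := Fintype.one_lt_card_iff_nontrivial.1 hα
  have hi : (alternatingGroup α).index = 2 := alternatingGroup.index_eq_two
  have h1 : (P : Subgroup (Equiv.Perm α)) ≤ alternatingGroup α := by
    refine le_of_coprime_relIndex (M := ⊤) le_top (top_le_norm_iff.2 inferInstance) ?_
    rw [relIndex_top_right, hi]
    exact coprime_of_pgroup P.isPGroup' fun h => hp ((Nat.prime_dvd_prime_iff_eq hp' Nat.prime_two).1 h)
  refine ⟨h1, ?_⟩
  rw [← subgroupOf_normalizer_eq h1, ← inf_subgroupOf_right, card_subgroupOf inf_le_right, inf_comm,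
    ← card_inf_mul_relIndex (alternatingGroup α) N[(P : Subgroup (Equiv.Perm α))], mul_comm]
  congr 1
  have h2 := ((syl_top P).mono h1 le_top).frattini_sup (M := ⊤) le_top (top_le_norm_iff.2 inferInstance)
  rw [top_inf_eq, sup_comm] at h2
  rw [← relIndex_sup_of_norm (le_top.trans (top_le_norm_iff.2 inferInstance)), h2, relIndex_top_right, hi]


end Cfsg.Agent.S0990
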