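import Cfsg.Statements.S0991


set_option autoImplicit false
open Cfsg

namespace Cfsg.Agent.S0991

/-- Embedding Theorem: if a non-abelian finite simple group has a proper subgroup of index n, then it is isomorphic to a subgroup of the alternating group of degree n. -/
theorem result {G : Type*} [Group G] [Finite G] [IsSimpleGroup G] (hG : ¬ IsMulCommutative G) (H : Subgroup G) (hH : H ≠ ⊤) : ∃ f : G →* ↥(alternatingGroup (Fin H.index)), Function.Injective f := by
  classical
  obtain ⟨e⟩ : Nonempty ((G ⧸ H) ≃ Fin H.index) := ⟨Finite.equivFinOfCardEq rfl⟩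
  let f : G →* Equiv.Perm (Fin H.index) := (e.permCongrHom : Equiv.Perm (G ⧸ H) →* _).comp (MulAction.toPermHom G (G ⧸ H))
  have hf : Function.Injective f := by
    refine e.permCongrHom.injective.comp ?_
    rw [← MonoidHom.ker_eq_bot_iff, ← Subgroup.normalCore_eq_ker]
    exact (H.normalCore_normal.eq_bot_or_eq_top).resolve_right (fun h => hH (top_le_iff.mp (h ▸ H.normalCore_le)))
  have hs : (Equiv.Perm.sign.comp f).ker = ⊤ := by
    refine (MonoidHom.normal_ker _).eq_bot_or_eq_top.resolve_left (fun h => hG ⟨⟨fun a b => ?_⟩⟩)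
    apply (MonoidHom.ker_eq_bot_iff _).mp h
    rw [map_mul, map_mul, mul_comm]
  refine ⟨f.codRestrict _ (fun g => (hs ▸ Subgroup.mem_top g : g ∈ (Equiv.Perm.sign.comp f).ker)), fun a b h => hf (congrArg Subtype.val h)⟩

end Cfsg.Agent.S0991
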