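import Cfsg.Statements.S0992
import Cfsg.Agent.H3.Hv1
import Cfsg.Agent.H8.Klein
import Cfsg.Agent.S0219

set_option autoImplicit false
open Cfsg

namespace Cfsg.Agent.S0992
open Subgroup CfsgH2 CfsgHv MulAction

/-- Let G be a non-abelian finite simple group of even order not divisible by 8, and T a Sylow 2-subgroup. Then T is a Klein four-group and the centralizer of T has index 3 in the normalizer of T. -/
theorem result {G : Type*} [Group G] [Finite G] [IsSimpleGroup G] (hG : ¬ IsMulCommutative G) (h2 : Even (Nat.card G)) (h8 : ¬ 8 ∣ Nat.card G) (T : Sylow 2 G) : IsKleinFour ↥(T : Subgroup G) ∧ (Subgroup.centralizer ((T : Subgroup G) : Set G)).relIndex (Subgroup.normalizer ((T : Subgroup G) : Set G)) = 3 := by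
  have hgt : 2 < Nat.card G := by
    by_contra h
    have h1 := Nat.le_of_dvd Nat.card_pos h2.two_dvd
    have := isCyclic_of_prime_card (p := 2) (show Nat.card G = 2 by omega)
    exact hG inferInstance
  obtain ⟨-, f2, f3⟩ := CfsgL0.simple_even_facts h2 hgt
  have nc : ¬ IsCyclic (T : Subgroup G) := fun h => by
    obtain ⟨H, hH⟩ := Cfsg.Agent.S0219.result h2 T h
    exact f2 H hH
  obtain ⟨k, hk⟩ := T.isPGroup'.exists_card_eq
  have hk3 : k < 3 := by
    by_contra h
    exact h8 ((pow_dvd_pow 2 (not_lt.1 h)).trans (hk ▸ card_subgroup_dvd_card _))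
  have h4 : o[(T : Subgroup G)] = 2 ^ 2 := by
    interval_cases k
    · exact absurd (by rw [card_eq_one.1 hk]; infer_instance) nc
    · exact absurd (isCyclic_of_card_prime Nat.prime_two hk) nc
    · exact hk
  have el := (elem_or_cyclic_of_card_sq h4).resolve_left nc
  have hK : IsKleinFour (T : Subgroup G) := klein_of h4 fun x hx => by rw [← pow_two]; exact el.2 x hx
  refine ⟨hK, ?_⟩
  have d6 : C[(T : Subgroup G)].relIndex N[(T : Subgroup G)] ∣ 6 := by
    rw [relIndex, ← normalizerMonoidHom_ker, index_ker]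
    exact (card_subgroup_dvd_card _).trans (CfsgH8.card_mulAut_klein _)
  have n2 := ((syl_top T).mono le_normalizer le_top).not_dvd_of_le (le_cent_self el.1)
  have n1 : C[(T : Subgroup G)].relIndex N[(T : Subgroup G)] ≠ 1 := fun h => by
    have hn := (syl_top T).npc_of_norm_le_cent (inf_le_right.trans (relIndex_eq_one.1 h))
    rcases IsSimpleGroup.eq_bot_or_eq_top_of_normal O[{2}ᶜ, (⊤ : Subgroup G)] inferInstance with e | e
    · have := hn.sup_eq (syl_top T)
      rw [e, bot_sup_eq] at this
      exact hG (isMulComm_top_iff.1 (this ▸ el.1))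
    · exact not_dvd_piCoreOf (M := ⊤) (by rw [e, card_top]; exact h2.two_dvd)
  have := Nat.le_of_dvd (by norm_num) d6
  generalize C[(T : Subgroup G)].relIndex N[(T : Subgroup G)] = n at *
  interval_cases n <;> simp_all


end Cfsg.Agent.S0992
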