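import Cfsg.Statements.S0995
import Cfsg.Agent.H3.Sc

set_option autoImplicit false
open Cfsg

open Cfsg CfsgSc CfsgH2 Function Subgroup

namespace Cfsg.Agent.S0995

/-- Let G be a finite perfect group containing an element z of prime order p whose centralizer is the cyclic group it generates. Let t be the number of conjugacy classes of elements of order p. Then t divides p - 1, the number of Sylow p-subgroups has the form 1 + n * p, and |G| * t = (p - 1) * p * (1 + n * p). -/
theorem result {G : Type*} [Group G] [Finite G] (hperf : commutator G = ⊤) (p : ℕ) [Fact p.Prime] (z : G) (hz : orderOf z = p) (hC : Subgroup.centralizer ({z} : Set G) = Subgroup.zpowers z) : ∃ n t : ℕ, t = Nat.card {c : ConjClasses G // ∃ g : G, ConjClasses.mk g = c ∧ orderOf g = p} ∧ t ∣ p - 1 ∧ Nat.card (Sylow p G) = 1 + n * p ∧ Nat.card G * t = (p - 1) * p * (1 + n * p) := by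
  have h : SC p z := ⟨hz, hC⟩
  have a : tc p G = Nat.card {c : ConjClasses G // ∃ g : G, ConjClasses.mk g = c ∧ orderOf g = p} := by
    simp only [tc, ConjClasses.mem_carrier_iff_mk_eq]
  have b := card_sylow_modEq_one p G
  have c : Nat.card (Sylow p G) = 1 + Nat.card (Sylow p G) / p * p := by
    rw [← Nat.mod_eq_of_lt (Fact.out : p.Prime).one_lt, ← b, Nat.mod_add_div']
  refine ⟨_, _, a, ⟨_, h.tc_mul.symm⟩, c, ?_⟩
  rw [← c, h.card_sylow, ← (zpowers z).index_mul_card, h.card, mul_right_comm, mul_comm _ (tc p G), h.count]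
  ring


end Cfsg.Agent.S0995
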