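import Cfsg.Statements.S0996
import Mathlib
import Cfsg.Agent.H4.Br4

set_option autoImplicit false
open Cfsg

open Cfsg CfsgH3 CfsgH4 CfsgH1 Function
open scoped ComplexConjugate Pointwise

namespace Cfsg.Agent.S0996

/-- Let G be a finite perfect group containing an element z of prime order p whose centralizer is the cyclic group it generates, and suppose the number 1 + n * p of Sylow p-subgroups satisfies n < (p + 3) / 2. Then p > 3 and G is isomorphic to the projective special linear group of dimension 2 over the field with p elements, or p - 1 is a power of 2 and G is isomorphic to that group over the field with p - 1 elements. -/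
theorem result {G : Type*} [Group G] [Finite G] (hperf : commutator G = ⊤) (p : ℕ) [Fact p.Prime] (z : G) (hz : orderOf z = p) (hC : Subgroup.centralizer ({z} : Set G) = Subgroup.zpowers z) (hn : 2 * Nat.card (Sylow p G) < (p + 1) * (p + 2)) : (∃ (F : Type) (_ : Field F) (_ : Fintype F), Fintype.card F = p ∧ 3 < p ∧ Nonempty (G ≃* Matrix.ProjectiveSpecialLinearGroup (Fin 2) F)) ∨ (∃ (m : ℕ) (F : Type) (_ : Field F) (_ : Fintype F), Fintype.card F = 2 ^ m ∧ p = 2 ^ m + 1 ∧ 3 < p ∧ Nonempty (G ≃* Matrix.ProjectiveSpecialLinearGroup (Fin 2) F)) := by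
  have hp : p.Prime := Fact.out
  have hZ := isPGroup_zpowers_of_pelt (p := p) (x := z) ⟨1, by simpa using hz⟩
  obtain ⟨P, hP⟩ := hZ.exists_le_sylow
  have : Nontrivial P := (Subgroup.nontrivial_iff_ne_bot _).2 fun e => hp.one_lt.ne' (by
    rw [← hz, (Subgroup.mem_bot (x := z)).1 (e ▸ hP (Subgroup.mem_zpowers z)), orderOf_one])
  have := P.isPGroup'.center_nontrivial
  obtain ⟨c, hc⟩ := exists_ne (1 : Subgroup.center P)
  have a : c.1.1 ∈ Subgroup.zpowers z := hC ▸ Subgroup.mem_centralizer_singleton_iff.2
    (congrArg Subtype.val (Subgroup.mem_center_iff.1 c.2 ⟨z, hP (Subgroup.mem_zpowers z)⟩)).symm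
  have b : Subgroup.zpowers z = P := le_antisymm hP fun x hx => by
    rw [← hC, ← centralizer_zpowers, ← zpowers_eq_of_mem hz a (by simpa using hc), centralizer_zpowers]
    exact Subgroup.mem_centralizer_singleton_iff.2
      (congrArg Subtype.val (Subgroup.mem_center_iff.1 c.2 ⟨x, hx⟩))
  have hs : ¬ p ∣ (Subgroup.zpowers z).index := by rw [b]; exact P.not_dvd_index
  obtain ⟨M, _⟩ := exists_pmod p
  obtain ⟨e, X, y, ε, δ, h⟩ := exists_pb (M := M) hz hs
  obtain ⟨n, hn'⟩ := h.exists_n
  rw [h.card_syl, hn'] at hn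
  have hF : ¬ BF p n := fun e => by nlinarith [Nat.mul_le_mul_right p e.le]
  refine (brc_of hz hs hperf ?_ hn' hF).2.psl
  have d := (brauer_quot hz hs hperf hn' hF).1
  rw [centralizer_zpowers, hC] at d
  rw [← inf_eq_left.2 d]
  exact Subgroup.inf_eq_bot_of_coprime (by rw [h.card]; exact coprime_pPrimeCore p)

end Cfsg.Agent.S0996
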