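import Cfsg.Statements.S1001
import Mathlib
import Cfsg.Agent.H4.BT

set_option autoImplicit false
open Cfsg

open Cfsg CfsgH3 CfsgH4 CfsgH1 CfsgL0 MonoidAlgebra

namespace Cfsg.Agent.S1001

/-- In a finite simple group whose order has the form p * 3^a * 2^b with p prime, the centralizer of any element of order p is the cyclic group it generates. -/
theorem result {G : Type*} [Group G] [Finite G] [IsSimpleGroup G] (p a b : ℕ) (hp : p.Prime) (hG : Nat.card G = p * 3 ^ a * 2 ^ b) (x : G) (hx : orderOf x = p) : Subgroup.centralizer ({x} : Set G) = Subgroup.zpowers x := by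
  by_cases h : p ∣ 3 ^ a * 2 ^ b
  · have : Group.IsSolvable G := by
      rcases (hp.dvd_mul.1 h).imp (fun h => (Nat.prime_dvd_prime_iff_eq hp Nat.prime_three).1
        (hp.dvd_of_dvd_pow h)) fun h => (Nat.prime_dvd_prime_iff_eq hp Nat.prime_two).1
        (hp.dvd_of_dvd_pow h) with rfl | rfl
      · exact burnside_paqb 3 2 (a + 1) b hp Nat.prime_two (by rw [hG, pow_succ'])
      · exact burnside_paqb 3 2 a (b + 1) Nat.prime_three hp (by rw [hG]; exact Dvd.intro_left 1 (by ring))
    let _ : CommGroup G := { (inferInstance : Group G) with mul_comm := IsSimpleGroup.comm_iff_isSolvable.2 this }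
    have := (IsSimpleGroup.eq_bot_or_eq_top_of_normal (Subgroup.zpowers x) inferInstance).resolve_left (by
      rw [Subgroup.zpowers_eq_bot, ← orderOf_eq_one_iff, hx]; exact hp.one_lt.ne')
    exact le_antisymm (this ▸ le_top) (Subgroup.zpowers_le.2 (Subgroup.mem_centralizer_singleton_iff.2 rfl))
  · exact cent_eq_zpowers_of_simple Nat.prime_three Nat.prime_two hp
      (by rw [hG, mul_assoc, mul_comm]) h hx

end Cfsg.Agent.S1001
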