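import Cfsg.Statements.S1003
import Cfsg.Agent.H1.G168

set_option autoImplicit false
open Cfsg

namespace Cfsg.Agent.S1003

/-- A simple group of order 168 has exactly 21 Sylow 2-subgroups, 28 Sylow 3-subgroups and 8 Sylow 7-subgroups. -/
theorem result {G : Type*} [Group G] [Finite G] [IsSimpleGroup G] (h : Nat.card G = 168) : Nat.card (Sylow 2 G) = 21 ∧ Nat.card (Sylow 3 G) = 28 ∧ Nat.card (Sylow 7 G) = 8 := by
  open Subgroup CfsgH2 CfsgH1.G168 in
  open CfsgH1 hiding card_inf_mul_relIndex card_lt_of_lt card_lt_of_ne_top card_map_mul_card_inf_ker card_mul_relIndex card_subgroupOf card_sup_dvd card_sup_mul_card_inf coprime_le_sup_cent exists_card_prime_le isNilpotent_map isNilpotent_of_le isPGroup_pCore isSolvable_map isSolvable_of_le le_pCore le_pPrimeCore relIndex_map_dvd in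
  open scoped CfsgH1 in
  open scoped commutatorElement in
  · obtain ⟨T⟩ : Nonempty (Sylow 2 G) := inferInstance
    have := (T : Subgroup G).card_mul_index
    rw [c8 h (syl_top T)] at this
    refine ⟨?_, n3 h, n7 h⟩
    rw [CfsgH1.Syl.card_sylow (syl_top T), nT h (syl_top T)]; omega

end Cfsg.Agent.S1003
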