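import Cfsg.Statements.S1006
import Cfsg.Agent.H1.G168

set_option autoImplicit false
open Cfsg

namespace Cfsg.Agent.S1006

/-- In a simple group of order 168 there are 56 elements of order 3, all conjugate; 42 elements of order 4, all conjugate; and 48 elements of order 7 falling into two conjugacy classes of size 24, an element of order 7 not being conjugate to its inverse. -/
theorem result {G : Type*} [Group G] [Finite G] [IsSimpleGroup G] (h : Nat.card G = 168) : Nat.card {g : G // orderOf g = 3} = 56 ∧ (∀ s t : G, orderOf s = 3 → orderOf t = 3 → IsConj s t) ∧ Nat.card {g : G // orderOf g = 4} = 42 ∧ (∀ s t : G, orderOf s = 4 → orderOf t = 4 → IsConj s t) ∧ Nat.card {g : G // orderOf g = 7} = 48 ∧ ∀ x : G, orderOf x = 7 → Nat.card {g : G // IsConj x g} = 24 ∧ ¬ IsConj x x⁻¹ := by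
  open Subgroup CfsgH2 CfsgH1.G168 in
  open CfsgH1 hiding card_inf_mul_relIndex card_lt_of_lt card_lt_of_ne_top card_map_mul_card_inf_ker card_mul_relIndex card_subgroupOf card_sup_dvd card_sup_mul_card_inf coprime_le_sup_cent exists_card_prime_le isNilpotent_map isNilpotent_of_le isPGroup_pCore isSolvable_map isSolvable_of_le le_pCore le_pPrimeCore relIndex_map_dvd in
  open scoped CfsgH1 in
  open scoped commutatorElement in
  · refine ⟨(count h).2.2.1, fun _ _ => conj3 h, (count h).2.2.2.1, fun _ _ => conj4 h, (count h).2.2.2.2, fun x o => ⟨?_, fun c => ?_⟩⟩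
    · have := (zpowers x).card_mul_index
      rw [Nat.card_zpowers, o] at this
      rw [CfsgH3.card_isConj_eq_index, c7 h o]; omega
    obtain ⟨g, e⟩ := isConj_iff.1 c
    have n : g ∈ N[zpowers x] := mem_norm_of_map_le (by rw [MonoidHom.map_zpowers, zpowers_le]; exact (e ▸ inv_mem (mem_zpowers x) : g * x * g⁻¹ ∈ _))
    have g1 : g ^ 21 = 1 := n21 h o ▸ congrArg Subtype.val (pow_card_eq_one' (x := (⟨g, n⟩ : N[zpowers x])))
    have h2 : g ^ 2 ∈ C1[x] := mem_centralizer_singleton_iff.2 (mul_inv_eq_iff_eq_mul.1 (by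
      rw [show g ^ 2 * x * (g ^ 2)⁻¹ = g * (g * x * g⁻¹) * g⁻¹ by simp [sq, mul_assoc], e, ← conj_inv, e, inv_inv]))
    have h3 : g ∈ C1[x] := by
      have := pow_mem h2 11
      rwa [← pow_mul, show 2 * 11 = 21 + 1 from rfl, pow_succ, g1, one_mul] at this
    rw [mem_centralizer_singleton_iff.1 h3, mul_inv_cancel_right] at e
    have : orderOf x ∣ 2 := orderOf_dvd_of_pow_eq_one (by rw [sq]; exact mul_eq_one_iff_eq_inv.2 e)
    rw [o] at this; omega

end Cfsg.Agent.S1006
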