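import Cfsg.Statements.S1008
import Cfsg.Agent.H1.G168

set_option autoImplicit false
open Cfsg

namespace Cfsg.Agent.S1008

/-- In a simple group of order 168 every maximal subgroup is either isomorphic to the symmetric group of degree 4 or non-abelian of order 21; the maximal subgroups of order 21 form one conjugacy class and those isomorphic to the symmetric group of degree 4 form exactly two conjugacy classes. -/
theorem result {G : Type*} [Group G] [Finite G] [IsSimpleGroup G] (h : Nat.card G = 168) : (∀ M : Subgroup G, IsCoatom M → Nonempty (↥M ≃* Equiv.Perm (Fin 4)) ∨ (Nat.card ↥M = 21 ∧ ¬ IsMulCommutative ↥M)) ∧ (∀ M M' : Subgroup G, IsCoatom M → IsCoatom M' → Nat.card ↥M = 21 → Nat.card ↥M' = 21 → ∃ g : G, M' = M.map (MulAut.conj g).toMonoidHom) ∧ ∃ M₁ M₂ : Subgroup G, IsCoatom M₁ ∧ IsCoatom M₂ ∧ Nonempty (↥M₁ ≃* Equiv.Perm (Fin 4)) ∧ Nonempty (↥M₂ ≃* Equiv.Perm (Fin 4)) ∧ (∀ g : G, M₂ ≠ M₁.map (MulAut.conj g).toMonoidHom) ∧ ∀ M : Subgroup G, IsCoatom M → Nonempty (↥M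 ≃* Equiv.Perm (Fin 4)) → ∃ g : G, M = M₁.map (MulAut.conj g).toMonoidHom ∨ M = M₂.map (MulAut.conj g).toMonoidHom := by
  open Subgroup CfsgH2 CfsgH1.G168 in
  open CfsgH1 hiding card_inf_mul_relIndex card_lt_of_lt card_lt_of_ne_top card_map_mul_card_inf_ker card_mul_relIndex card_subgroupOf card_sup_dvd card_sup_mul_card_inf coprime_le_sup_cent exists_card_prime_le isNilpotent_map isNilpotent_of_le isPGroup_pCore isSolvable_map isSolvable_of_le le_pCore le_pPrimeCore relIndex_map_dvd in
  open scoped CfsgH1 in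
  open scoped commutatorElement in
  · haveI : Fact (Nat.Prime 7) := ⟨by norm_num⟩
    haveI : Fact (Nat.Prime 3) := ⟨by norm_num⟩
    obtain ⟨T, hT⟩ := exists_syl (p := 2) (⊤ : Subgroup G)
    obtain ⟨U, W, ne, k⟩ := two4 h hT
    have kU := (k U).2 (Or.inl rfl)
    have kW := (k W).2 (Or.inr rfl)
    have nt : ∀ V : Subgroup G, IsKleinFour V → N[V] ≠ ⊤ := fun V k e => by have := (cV h k).2; rw [e, card_top] at this; omega
    have co : ∀ V : Subgroup G, IsKleinFour V → IsCoatom N[V] := fun V k => ⟨nt V k, fun H l => by_contra fun t => by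
      have := card_lt_of_lt l; have := (small h t).1; have := (cV h k).2; omega⟩
    have cl : ∀ M : Subgroup G, IsCoatom M → (∃ V : Subgroup G, IsKleinFour V ∧ M = N[V]) ∨ ∃ x, orderOf x = 7 ∧ M = N[zpowers x] := fun M hM => by
      have up : ∀ V : Subgroup G, IsKleinFour V → M ≤ N[V] → M = N[V] := fun V k l => (hM.le_iff.1 l |>.resolve_left (nt V k)).symm
      have m0 : M ≠ ⊥ := fun e => by have := (cV h kU.2).2; rw [← up U kU.2 (e ▸ bot_le), e, card_bot] at this; omega
      obtain ⟨a, b⟩ := small h hM.1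
      have so : Sol[M] := by
        by_cases c : 7 ∣ o[M]
        · by_cases d : 3 ∣ o[M]
          · exact CfsgH3.burnside_paqb 3 7 1 1 Fact.out Fact.out (by generalize o[M] = m at *; interval_cases m <;> omega)
          · exact CfsgH3.burnside_paqb 2 7 3 1 Fact.out Fact.out (by generalize o[M] = m at *; interval_cases m <;> omega)
        · exact CfsgH3.burnside_paqb 2 3 3 1 Fact.out Fact.out (by generalize o[M] = m at *; interval_cases m <;> omega)
      obtain ⟨p, _, A, l, a0, n, el, -⟩ := exists_min_norm so m0 le_normalizer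
      have e : M = N[A] := (hM.le_iff.1 n |>.resolve_left (norm_ne h a0 fun e => hM.1 (top_le_iff.1 (e ▸ l)))).symm
      have pp : p.Prime := Fact.out
      obtain ⟨⟨x, hx⟩, x1⟩ := ne_bot_iff_exists_ne_one.1 a0
      have o : orderOf x = p := orderOf_eq_prime (el.2 x hx) fun e => x1 (Subtype.ext e)
      have lc : A ≤ C1[x] := (le_cent_self el.1).trans (cent_le_cent1 hx)
      rcases (count h).1 x with o1 | o1 | o1 | o1 | o1
      · exact (pp.ne_one (o.symm.trans o1)).elim
      · have s := syl2 h o1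
        have d := c8 h s ▸ card_dvd_of_le lc
        have d2 := o1 ▸ Nat.card_zpowers x ▸ card_dvd_of_le (zpowers_le.2 hx)
        have sq : ∀ y ∈ A, y * y = 1 := fun y hy => by rw [← _root_.sq, ← o1, o]; exact el.2 y hy
        have := Nat.le_of_dvd (by norm_num) d
        have : o[A] = 2 ∨ o[A] = 4 ∨ o[A] = 8 := by generalize o[A] = m at *; interval_cases m <;> omega
        rcases this with c | c | c
        · obtain ⟨V, _, -, k'⟩ := two4 h s
          have kV := (k' V).2 (Or.inl rfl)
          rw [← eq_of_le_of_card_ge (zpowers_le.2 hx) (by rw [c, Nat.card_zpowers, o1]), norm_zp2 o1] at e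
          exact Or.inl ⟨V, kV.2, up V kV.2 (e ▸ le_norm_of_relIndex_two kV.1 (idx2 (c8 h s) kV.1 kV.2.card_four))⟩
        · exact Or.inl ⟨A, CfsgHv.klein_of c sq, e⟩
        · exact (nabT h s (eq_of_le_of_card_ge lc (by rw [c, c8 h s]) ▸ el.1)).elim
      · have eA : A = zpowers x := le_antisymm (c3 h o1 ▸ lc) (zpowers_le.2 hx)
        obtain ⟨⟨y, hy⟩, oy⟩ := exists_prime_orderOf_dvd_card' (G := N[U]) 3 (by rw [(cV h kU.2).2]; norm_num)
        rw [orderOf_mk] at oy
        obtain ⟨g, rfl⟩ := isConj_iff.1 (conj3 h oy o1)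
        have kV : IsKleinFour (U.map (cj g)) := CfsgHv.klein_of ((card_map_cj _ _).trans kU.2.card_four) (by
          rintro _ ⟨u, hu, rfl⟩; rw [← map_mul, CfsgHv.klein_sq kU.2 hu, map_one])
        have hx' : g * y * g⁻¹ ∈ N[U.map (cj g)] := normalizer_map_cj g U ▸ mem_map_of_mem _ hy
        generalize g * y * g⁻¹ = x at *
        generalize U.map (cj g) = V at *
        refine Or.inl ⟨V, kV, up V kV ?_⟩
        have s : Syl 3 (zpowers x) ⊤ := Syl.of_card le_top (by rw [card_top, CfsgSm.fact_eq (k := 1) (m := 56) Fact.out h (by norm_num), Nat.card_zpowers, o1]; rfl)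
        have i1 := N[zpowers x].card_mul_index
        rw [← CfsgH1.Syl.card_sylow s, n3 h] at i1
        have s' := s.mono (zpowers_le.2 hx') le_top
        have md := (syl_iff.2 s').relIndex_normalizer_modEq
        have i2 := card_inf_mul_relIndex N[zpowers x] N[V]
        have d := card_dvd_of_le (inf_le_left : N[zpowers x] ⊓ N[V] ≤ _)
        rw [(cV h kV).2] at i2
        rw [e, eA]
        refine inf_eq_left.1 (eq_of_le_of_card_ge inf_le_left ?_)
        rw [show o[N[zpowers x]] = 6 by omega] at d ⊢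
        have := Nat.le_of_dvd (by norm_num) d
        unfold Nat.ModEq at md
        generalize o[N[zpowers x] ⊓ N[V]] = m at *
        interval_cases m <;> omega
      · rw [o] at o1; norm_num [o1] at pp
      · exact Or.inr ⟨x, o1, le_antisymm (c7 h o1 ▸ lc) (zpowers_le.2 hx) ▸ e⟩
    have s7 : ∀ x : G, orderOf x = 7 → Syl 7 (zpowers x) ⊤ := fun x o =>
      Syl.of_card le_top (by rw [card_top, CfsgSm.fact_eq (k := 1) (m := 24) Fact.out h (by norm_num), Nat.card_zpowers, o]; rfl)
    have t7 : ∀ M : Subgroup G, IsCoatom M → o[M] = 21 → ∃ x, orderOf x = 7 ∧ M = N[zpowers x] := fun M hM c =>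
      (cl M hM).resolve_left fun ⟨V, k, e⟩ => by have := (cV h k).2; rw [← e] at this; omega
    refine ⟨fun M hM => (cl M hM).imp (fun ⟨V, k, e⟩ => e ▸ s4 h (cV h k).2) fun ⟨x, o, e⟩ => ⟨e ▸ n21 h o, fun a => by
        have := card_le_of_le ((le_cent_self (e ▸ a)).trans (cent_le_cent1 (le_normalizer (mem_zpowers x))))
        rw [n21 h o, c7 h o, Nat.card_zpowers] at this; omega⟩, fun M M' hM hM' c c' => ?_,
      N[U], N[W], co U kU.2, co W kW.2, s4 h (cV h kU.2).2, s4 h (cV h kW.2).2, fun g e => ne (nconj h hT kU.1 kW.1 kU.2 kW.2 (g := g) ?_), fun M hM f => ?_⟩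
    · obtain ⟨x, o, rfl⟩ := t7 M hM c
      obtain ⟨y, o', rfl⟩ := t7 M' hM' c'
      obtain ⟨g, -, e⟩ := (s7 x o).conj (s7 y o')
      exact ⟨g, e ▸ normalizer_map_cj _ _⟩
    · rw [cj_def, ← normalizer_map_cj] at e
      refine eq_of_le_of_card_ge ((cV h kW.2).1 ▸ le_centralizer_iff.1 fun w hw => ?_) (kW.2.card_four.trans ((card_map_cj _ _).trans kU.2.card_four).symm).le
      by_cases w1 : w = 1
      · exact w1 ▸ one_mem _
      have s := syl2 h (orderOf_eq_prime (by rw [sq, CfsgHv.klein_sq kW.2 hw]) w1)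
      have l : W ≤ C1[w] := (le_cent_self (CfsgHv.klein_ab kW.2)).trans (cent_le_cent1 hw)
      exact le_cent1_iff.1 (s.le_of_norm ((CfsgHv.klein_pg kU.2).map _) le_top (e ▸ le_norm_of_relIndex_two l (idx2 (c8 h s) l kW.2.card_four)))
    · obtain ⟨V, kV, rfl⟩ := (cl M hM).resolve_right fun ⟨x, o, e⟩ => by
        have := Nat.card_congr f.some.toEquiv
        rw [e, n21 h o, Nat.card_perm] at this; simp [Nat.factorial] at this
      obtain ⟨g, -, l⟩ := hT.exists_conj_le (CfsgHv.klein_pg kV) le_top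
      have kV' : IsKleinFour (V.map (cj g)) := CfsgHv.klein_of ((card_map_cj _ _).trans kV.card_four) (by
        rintro _ ⟨u, hu, rfl⟩; rw [← map_mul, CfsgHv.klein_sq kV hu, map_one])
      refine ⟨g⁻¹, ((k _).1 ⟨l, kV'⟩).imp (fun e => ?_) fun e => ?_⟩ <;> rw [cj_def, ← normalizer_map_cj, ← e, map_cj_cj, inv_mul_cancel, map_cj_one]

end Cfsg.Agent.S1008
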