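import Cfsg.Statements.S1009
import Cfsg.Agent.H3.Hv1

set_option autoImplicit false
open Cfsg

namespace Cfsg.Agent.S1009
open Subgroup CfsgH2 CfsgHv MulAction

/-- Brodkey's Theorem: if a finite group has abelian Sylow p-subgroups, then there are two Sylow p-subgroups whose intersection equals the intersection of all Sylow p-subgroups. -/
theorem result {G : Type*} [Group G] [Finite G] (p : ℕ) [Fact p.Prime] (hab : ∀ P : Sylow p G, IsMulCommutative ↥(P : Subgroup G)) : ∃ P Q : Sylow p G, (P : Subgroup G) ⊓ (Q : Subgroup G) = ⨅ R : Sylow p G, (R : Subgroup G) := by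
  obtain ⟨⟨P, Q⟩, hm⟩ := Finite.exists_min (α := Sylow p G × Sylow p G)
    (fun x => Nat.card ((x.1 : Subgroup G) ⊓ (x.2 : Subgroup G) : Subgroup G))
  refine ⟨P, Q, le_antisymm (le_iInf fun R => ?_) (le_inf (iInf_le _ P) (iInf_le _ Q))⟩
  set D : Subgroup G := P ⊓ Q
  have hP : Syl p (P : Subgroup G) C[D] := (syl_top P).mono (le_cent_of_comm (hab P) inf_le_left) le_top
  have hQ : (Q : Subgroup G) ≤ C[D] := le_cent_of_comm (hab Q) inf_le_right
  obtain ⟨n, hn, h1⟩ := hP.exists_conj_le (R.isPGroup'.to_le (inf_le_left : (R : Subgroup G) ⊓ C[D] ≤ R)) inf_le_right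
  obtain ⟨R', hR'⟩ := ((syl_top R).map_cj_mem (mem_top n)).exists_top
  have h2 : (R' : Subgroup G) ⊓ Q ≤ D := by
    refine le_inf (le_trans ?_ h1) inf_le_right
    rw [map_cj_inf, map_cj_of_mem hn, hR']
    exact inf_le_inf_left _ hQ
  have h3 := eq_of_le_of_card_le h2 (hm (R', Q))
  have h4 : D ≤ (R : Subgroup G).map (cj n) := by rw [← h3, hR']; exact inf_le_left
  rwa [le_map_cj_iff, map_cj_eq (cent_le_norm _ (C[D].inv_mem hn))] at h4


end Cfsg.Agent.S1009
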