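import Cfsg.Statements.S1010
import Mathlib
import Cfsg.Agent.H4.MH2

set_option autoImplicit false
open Cfsg

open Cfsg CfsgH4 CfsgH2 Subgroup

namespace Cfsg.Agent.S1010

/-- No finite group has exactly twenty-one Sylow 5-subgroups. -/
theorem result {G : Type*} [Group G] [Finite G] : Nat.card (Sylow 5 G) ≠ 21 := by
  have := Fact.mk Nat.prime_five
  exact card_sylow_ne_21 G

end Cfsg.Agent.S1010
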