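import Cfsg.Statements.S1014
import Cfsg.Agent.H3.Hv1
import Cfsg.Agent.H3.Sm1

set_option autoImplicit false
open Cfsg

namespace Cfsg.Agent.S1014
open CfsgSm CfsgH4

/-- No finite simple group has order 1104 = 2^4 * 3 * 23. -/
theorem result {G : Type*} [Group G] [Finite G] [IsSimpleGroup G] : Nat.card G ≠ 1104 := by
  intro h
  haveI : Fact (Nat.Prime 23) := ⟨by norm_num⟩
  obtain ⟨-, ⟨a, -⟩ | ⟨a, -⟩⟩ := brc_small (G := G) (p := 23) (nc (by rw [h]; norm_num)) (by rw [h]; norm_num)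
    (by rw [h]; norm_num) <;> rw [h] at a <;> norm_num at a


end Cfsg.Agent.S1014
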