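import Cfsg.Statements.S1015
import Cfsg.Agent.H1.Misc1
import Cfsg.Agent.H2.BG0
import Cfsg.Agent.H1.Sm3
import Cfsg.Agent.S0985

set_option autoImplicit false
open Cfsg

namespace Cfsg.Agent.S1015

/-- No finite simple group has order 1200 = 2^4 * 3 * 5^2. -/
theorem result {G : Type*} [Group G] [Finite G] [IsSimpleGroup G] : Nat.card G ≠ 1200 := by
  open Subgroup CfsgH2 in
  open CfsgH1 hiding card_inf_mul_relIndex card_lt_of_lt card_lt_of_ne_top card_map_mul_card_inf_ker card_mul_relIndex card_subgroupOf card_sup_dvd card_sup_mul_card_inf coprime_le_sup_cent exists_card_prime_le isNilpotent_map isNilpotent_of_le isPGroup_pCore isSolvable_map isSolvable_of_le le_pCore le_pPrimeCore relIndex_map_dvd in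
  open scoped CfsgH1 in
  open scoped commutatorElement in
  · intro h
    haveI : Fact (Nat.Prime 5) := ⟨by norm_num⟩
    have n := CfsgSm.nc (G := G) (by rw [h]; norm_num)
    have k : ∀ H : Subgroup G, H ≠ ⊤ → 10 ≤ H.index := fun H t => by
      have := CfsgL0.card_dvd_factorial_of_simple H t
      by_contra! l
      have := (this.trans (Nat.factorial_dvd_factorial (Nat.le_of_lt_succ l)))
      rw [h] at this; norm_num [Nat.factorial] at this
    have n1 := CfsgH8.card_sylow_ne_one_of_simple (G := G) (p := 5) (by rw [h]; norm_num) fun k e => Sm.not_two n (p := 5) (q := 5) (a := k) (b := 0) Fact.out Fact.out (by rw [e]; simp)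
    have d : Nat.card (Sylow 5 G) ∣ 48 := CfsgH8.card_sylow_dvd_of_card (k := 2) h
    obtain ⟨P, R, ne, l⟩ := S0985.result (G := G) 5 2 fun e => by
      have := Nat.le_of_dvd (by norm_num) d
      unfold Nat.ModEq at e
      generalize Nat.card (Sylow 5 G) = m at *
      interval_cases m <;> omega
    have c : ∀ P : Sylow 5 G, Nat.card P = 5 ^ 2 := fun P => by rw [P.card_eq_multiplicity, CfsgSm.fact_eq (k := 2) (m := 48) Fact.out h (by norm_num)]
    have a : ∀ P : Sylow 5 G, Ab[(P : Subgroup G)] := fun P => ⟨⟨IsPGroup.commutative_of_card_eq_prime_sq (c P)⟩⟩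
    have l1 : (P : Subgroup G) ≤ C[(R : Subgroup G) ⊓ P] := (le_cent_self (a P)).trans (cent_anti inf_le_right)
    have l2 : (R : Subgroup G) ≤ C[(R : Subgroup G) ⊓ P] := (le_cent_self (a R)).trans (cent_anti inf_le_left)
    have t : C[(R : Subgroup G) ⊓ P] ≠ ⊤ := fun e => by
      have x := card_inf_mul_relIndex (R : Subgroup G) P
      rcases (normal_of_top_le_norm (e.ge.trans (cent_le_norm _))).eq_bot_or_eq_top with b | b
      · rw [c] at x
        change relIndex _ _ ≤ 5 at l
        simp only [inf_comm (P : Subgroup G), b, card_bot] at x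
        omega
      · have := card_le_of_le (b.ge.trans inf_le_left)
        rw [card_top, c, h] at this; omega
    generalize C[(R : Subgroup G) ⊓ P] = H at *
    have h1 := (syl_top P).mono l1 le_top
    have m := (syl_iff.2 h1).relIndex_normalizer_modEq
    have i := card_mul_relIndex l1
    have j := relIndex_mul_relIndex (P : Subgroup G) (H ⊓ N[(P : Subgroup G)]) H (le_inf l1 le_normalizer) inf_le_left
    have x := H.card_mul_index
    have y := k H t
    rw [inf_relIndex_left] at j
    have z : N[(P : Subgroup G)].relIndex H ≠ 1 := fun e => ne (Sylow.ext (h1.eq_of_norm ((syl_top R).mono l2 le_top) (relIndex_eq_one.1 e)).symm)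
    rw [← i, ← j, c, h] at x
    unfold Nat.ModEq at m
    generalize N[(P : Subgroup G)].relIndex H = u at *
    generalize relIndex (P : Subgroup G) (H ⊓ N[(P : Subgroup G)]) = v at *
    have u6 : 6 ≤ u := by rcases u with _ | u; simp at x; omega
    have : 0 < v := Nat.pos_of_ne_zero (by rintro rfl; simp at x)
    nlinarith [Nat.mul_le_mul (Nat.mul_le_mul this u6) y]

end Cfsg.Agent.S1015
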