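import Cfsg.Statements.S1016
import Cfsg.Agent.H3.Hv1
import Cfsg.Agent.H3.Sm1

set_option autoImplicit false
open Cfsg

namespace Cfsg.Agent.S1016
open CfsgSm CfsgH4

/-- No finite simple group has order 1440 = 2^5 * 3^2 * 5. -/
theorem result {G : Type*} [Group G] [Finite G] [IsSimpleGroup G] : Nat.card G ≠ 1440 := by
  intro h
  haveI : Fact (Nat.Prime 5) := ⟨by norm_num⟩
  obtain ⟨M, _, u, e, X, y, ε, δ, n, H, h1, hC, h2, h3, h4, h5, h6⟩ := setup3 (p := 5) (a := 5) (b := 2)
    (nc (G := G) (by rw [h]; norm_num)) Nat.prime_two Nat.prime_three (by rw [h]; norm_num) (by norm_num)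
  have := Nat.le_of_dvd (by norm_num) h4
  interval_cases e <;> omega


end Cfsg.Agent.S1016
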