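import Cfsg.Statements.S1018
import Cfsg.Agent.H1.Misc1
import Cfsg.Agent.H2.BG0

set_option autoImplicit false
open Cfsg

namespace Cfsg.Agent.S1018

/-- Let P be a Sylow p-subgroup of order p of a finite group G, and consider the action of G on the left cosets of the normalizer N of P. Then every element of order p fixes exactly one coset, and an element of N that does not centralize P fixes at most as many cosets as there are orbits of P. -/
theorem result {G : Type*} [Group G] [Finite G] (p : ℕ) [Fact p.Prime] (P : Sylow p G) (hP : Nat.card ↥(P : Subgroup G) = p) : (∀ y : G, orderOf y = p → Nat.card (MulAction.fixedBy (G ⧸ Subgroup.normalizer ((P : Subgroup G) : Set G)) y) = 1) ∧ ∀ x : G, x ∈ Subgroup.normalizer ((P : Subgroup G) : Set G) → x ∉ Subgroup.centralizer ((P : Subgroup G) : Set G) → Nat.card (MulAction.fixedBy (G ⧸ Subgroup.normalizer ((P : Subgroup G) : Set G)) x) ≤ Nat.card (MulAction.orbitRel.Quotient ↥(P : Subgroup G) (G ⧸ Subgroup.normalizer ((P : Subgroup G)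 : Set G))) := by
  open Subgroup CfsgH2 in
  open CfsgH1 hiding card_inf_mul_relIndex card_lt_of_lt card_lt_of_ne_top card_map_mul_card_inf_ker card_mul_relIndex card_subgroupOf card_sup_dvd card_sup_mul_card_inf coprime_le_sup_cent exists_card_prime_le isNilpotent_map isNilpotent_of_le isPGroup_pCore isSolvable_map isSolvable_of_le le_pCore le_pPrimeCore relIndex_map_dvd in
  open scoped CfsgH1 in
  open scoped commutatorElement in
  · have pp : p.Prime := Fact.out
    have hS := syl_top P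
    generalize (P : Subgroup G) = Q at *
    have st : ∀ y g : G, (g : G ⧸ N[Q]) ∈ MulAction.fixedBy (G ⧸ N[Q]) y ↔ g⁻¹ * y * g ∈ N[Q] := fun y g => by
      rw [MulAction.mem_fixedBy, MulAction.Quotient.smul_mk, eq_comm, QuotientGroup.eq, smul_eq_mul, mul_assoc]
    have k : ∀ y ∈ Q, y ≠ 1 → ∀ a ∈ MulAction.fixedBy (G ⧸ N[Q]) y, a = ((1 : G) : G ⧸ N[Q]) := fun y hy y1 a ha => by
      obtain ⟨g, rfl⟩ := QuotientGroup.mk_surjective a
      have e := zpowers_eq_of_prime (hP ▸ pp) hy y1
      have o : (g⁻¹ * y * g⁻¹⁻¹) ^ p ^ 1 = 1 := by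
        have : y ^ o[Q] = 1 := congrArg Subtype.val (pow_card_eq_one' (x := (⟨y, hy⟩ : Q)))
        rw [conj_pow, pow_one, ← hP, this]; simp
      have l := hS.le_of_norm' (CfsgH2.isPGroup_zpowers o) le_top (zpowers_le.2 (by simpa using (st y g).1 ha))
      refine QuotientGroup.eq.2 (mul_mem (mem_norm_of_map_le ?_) (one_mem _))
      exact (map_mono e.ge).trans ((MonoidHom.map_zpowers _ y).le.trans l)
    have k1 : ∀ y ∈ N[Q], ((1 : G) : G ⧸ N[Q]) ∈ MulAction.fixedBy (G ⧸ N[Q]) y := fun y hy => (st y 1).2 (by simpa using hy)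
    refine ⟨fun y hy => ?_, fun x hx hc => ?_⟩
    · obtain ⟨g, -, l⟩ := hS.exists_conj_le (CfsgH2.isPGroup_zpowers (k := 1) (x := y) (by rw [pow_one, ← hy, pow_orderOf_eq_one])) le_top
      have m : g * y * g⁻¹ ∈ Q := l (mem_map_of_mem _ (mem_zpowers y))
      have y1 : g * y * g⁻¹ ≠ 1 := fun e => pp.one_lt.ne' (hy ▸ orderOf_eq_one_iff.2 (conj_eq_one_iff.1 e))
      refine Nat.card_eq_one_iff_exists.2 ⟨⟨((g⁻¹ : G) : G ⧸ N[Q]), (st _ _).2 (by simpa using le_normalizer m)⟩, fun ⟨a, ha⟩ => Subtype.ext ?_⟩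
      have := k _ m y1 (g • a) (by rw [MulAction.mem_fixedBy, mul_smul, inv_smul_smul, mul_smul, ha])
      rw [smul_eq_iff_eq_inv_smul] at this
      simpa using this
    · refine Nat.card_le_card_of_injective (fun a => Quotient.mk _ a.1) fun ⟨a, ha⟩ ⟨b, hb⟩ e => Subtype.ext ?_
      obtain ⟨⟨y, hy⟩, rfl⟩ := MulAction.orbitRel_apply.1 (Quotient.exact e)
      by_cases y1 : y = 1
      · subst y1; exact one_smul G b
      have m : y⁻¹ * (x * y * x⁻¹) ∈ Q := mul_mem (inv_mem hy) (conj_mem_of_norm hx hy)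
      have := k _ m (fun d => hc (by
        rw [← zpowers_eq_of_prime (hP ▸ pp) hy y1, cent_zpowers]
        exact mem_centralizer_singleton_iff.2 (mul_inv_eq_iff_eq_mul.1 (inv_mul_eq_one.1 d).symm))) b (by
        rw [MulAction.mem_fixedBy, mul_smul, mul_smul, inv_smul_eq_iff.2 (Eq.symm hb), mul_smul, inv_smul_eq_iff]; exact ha)
      exact (congrArg (y • ·) this).trans ((k1 y (le_normalizer hy)).trans this.symm)

end Cfsg.Agent.S1018
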