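import Cfsg.Statements.S1019
import Cfsg.Agent.H3.Hv1

set_option autoImplicit false
open Cfsg

namespace Cfsg.Agent.S1019
open Subgroup CfsgH2 CfsgHv MulAction

/-- Let H be a subgroup of a finite group G and x an element of H. In the action of G on the left cosets of H, the number of cosets fixed by x, multiplied by the size of the conjugacy class of x, equals the index of H multiplied by the number of conjugates of x that lie in H. -/
theorem result {G : Type*} [Group G] [Finite G] (H : Subgroup G) (x : G) (hx : x ∈ H) : Nat.card (MulAction.fixedBy (G ⧸ H) x) * Nat.card {g : G // IsConj x g} = H.index * Nat.card {g : G // IsConj x g ∧ g ∈ H} := by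
  have e1 : Nat.card {g : G // g⁻¹ * x * g ∈ H} = Nat.card (fixedBy (G ⧸ H) x) * Nat.card H := by
    refine CfsgL0.card_eq_of_fibers (fun g => ⟨(g.1 : G ⧸ H), by
      rw [mem_fixedBy, MulAction.Quotient.smul_mk, eq_comm, QuotientGroup.eq]
      simpa [mul_assoc] using g.2⟩) _ fun b => ?_
    · obtain ⟨b, hb⟩ := b
      induction b using QuotientGroup.induction_on with
      | _ c =>
      rw [mem_fixedBy, MulAction.Quotient.smul_mk, eq_comm, QuotientGroup.eq] at hb
      refine Nat.card_congr ⟨fun a => ⟨c⁻¹ * a.1.1, QuotientGroup.eq.1 (Subtype.ext_iff.1 a.2).symm⟩,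
        fun h => ⟨⟨c * h, ?_⟩, Subtype.ext (QuotientGroup.eq.2 (by simp))⟩, fun a => by simp, fun h => by simp⟩
      have := H.mul_mem (H.mul_mem (H.inv_mem h.2) hb) h.2
      simpa [mul_assoc] using this
  have e2 : Nat.card {g : G // g⁻¹ * x * g ∈ H} =
      Nat.card {g : G // IsConj x g ∧ g ∈ H} * Nat.card C1[x] := by
    refine CfsgL0.card_eq_of_fibers (fun g => ⟨g.1⁻¹ * x * g.1, isConj_iff.2 ⟨g.1⁻¹, by simp⟩, g.2⟩) _ fun b => ?_
    obtain ⟨b, hb, hb2⟩ := b
    obtain ⟨c, rfl⟩ := isConj_iff.1 hb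
    rw [← CfsgL0.card_conj_fiber x c]
    refine Nat.card_congr ⟨fun a => ⟨a.1.1⁻¹, by simpa using Subtype.ext_iff.1 a.2⟩,
      fun h => ⟨⟨h.1⁻¹, by simpa [h.2] using hb2⟩, Subtype.ext (by simpa using h.2)⟩, fun a => by simp, fun h => by simp⟩
  have e3 := CfsgL0.card_isConj_mul x
  have e4 := H.index_mul_card
  have p1 : 0 < Nat.card H := Nat.card_pos
  have p2 : 0 < Nat.card C1[x] := Nat.card_pos
  refine Nat.eq_of_mul_eq_mul_right (Nat.mul_pos p1 p2) ?_
  calc _ = (Nat.card (fixedBy (G ⧸ H) x) * Nat.card H) * (Nat.card {g : G // IsConj x g} * Nat.card C1[x]) := by ring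
    _ = (Nat.card {g : G // IsConj x g ∧ g ∈ H} * Nat.card C1[x]) * (H.index * Nat.card H) := by
      rw [← e1, e2, e3, e4]
    _ = _ := by ring


end Cfsg.Agent.S1019
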