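import Cfsg.Statements.S1022
import Cfsg.Agent.H3.Hv1
import Cfsg.Agent.H3.Sm2

set_option autoImplicit false
open Cfsg

namespace Cfsg.Agent.S1022
open CfsgSm CfsgH4 CfsgH3
set_option maxRecDepth 100000
theorem n1 : ∀ n ∈ Nat.divisors 24192, n % 19 = 1 → n = 1 ∨ n = 96 ∨ n = 1008 := by decide +kernel
theorem n2 : ∀ d ∈ cands 459648 12096, 38 ≤ d → (d % 19 = 1 → d = 96) ∧
    ((d + 1) % 19 = 0 → d = 56 ∨ d = 189 ∨ d = 1728) := by decide +kernel
theorem n3 : ∀ e ∈ [2, 3, 6, 9, 18], ∀ d ∈ cands 459648 (e * 96), 38 ≤ d →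
    ((d + 1) % 19 ≠ 0) ∧ (d % 19 = e → (d : ℤ) ≠ 1 + 96 * (e - 1)) := by decide +kernel
theorem n4 : ∀ e ∈ [2, 3, 6], ∀ d ∈ cands 459648 (e * 1008), 38 ≤ d →
    (d % 19 = e → d = 63 ∧ e = 6) ∧ ((d + e) % 19 = 0 → e = 2 ∧ d = 112 ∨ e = 3 ∧ (d = 54 ∨ d = 168) ∨
      e = 6 ∧ (d = 108 ∨ d = 336)) := by decide +kernel

/-- No finite simple group has order 459648 = 2^7 * 3^3 * 7 * 19. -/
theorem result {G : Type*} [Group G] [Finite G] [IsSimpleGroup G] : Nat.card G ≠ 459648 := by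
  classical
  intro h
  haveI : Fact (Nat.Prime 19) := ⟨by norm_num⟩
  haveI : Fact (Nat.Prime 7) := ⟨by norm_num⟩
  have hG := nc (G := G) (by rw [h]; norm_num)
  obtain ⟨M, _, u, e, X, y, ε, δ, n, c, H, h1, h2, h3, h4, h5, h6, h7⟩ := setup (p := 19) (m := 24192)
    hG (by rw [h]) (by norm_num)
  have le := Nat.le_of_dvd (by norm_num) h5
  have hn := (n1 n (Nat.mem_divisors.2 ⟨⟨e * c, by rw [← h3]; ring⟩, by norm_num⟩) h4).resolve_left (by omega)
  have hc : Nat.card (Subgroup.centralizer (Subgroup.zpowers u : Set G)) ≠ 19 := by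
    rw [h2]; rintro c1
    obtain rfl : c = 1 := by omega
    rcases hn with rfl | rfl <;> interval_cases e <;> omega
  obtain ⟨ψ, hψ⟩ := Finset.card_pos.1 H.pos'
  obtain ⟨b1, b2, b3, b4⟩ := dY hG H hψ
  have b5 := big hG H hc (H.memY hψ) (H.ne_oneY hψ)
  have r := rel' H hψ
  have ce := card_erase H
  have dx := fun χ (a : χ ∈ X.erase (irrOne G)) => dX hG H (Finset.mem_of_mem_erase a) (Finset.ne_of_mem_erase a)
  have bx := fun χ (a : χ ∈ X.erase (irrOne G)) =>
    big hG H hc (H.memX (Finset.mem_of_mem_erase a)) (Finset.ne_of_mem_erase a)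
  rw [h1] at dx b2
  rw [h] at b3 dx
  rcases hn with rfl | rfl
  · have he : e ∈ [2, 3, 6, 9, 18] := by interval_cases e <;> simp_all
    have : ∀ χ ∈ X.erase (irrOne G), ε χ * charDegree χ.1 = 96 := fun χ a => by
      obtain ⟨a1, a2, a3, a4⟩ := dx χ a
      rcases a4 with a4 | a4
      · rw [a4.1, (n2 _ (mem_cands a1 (a2.trans (by interval_cases e <;> simp_all)) a3) (bx χ a)).1 a4.2]; rfl
      · exact absurd a4.2 (n3 e he _ (mem_cands a1 a2 a3) (bx χ a)).1
    rw [Finset.sum_congr rfl this, Finset.sum_const, nsmul_eq_mul] at r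
    rcases b4 with b4 | b4 <;> rw [b4.1] at r
    · omega
    · exact (n3 e he _ (mem_cands b1 b2 b3) b5).2 b4.2 (by omega)
  have he : e ∈ [2, 3, 6] := by interval_cases e <;> simp_all <;> omega
  obtain ⟨M', _, u', e', X', y', ε', δ', n', c', H', -, -, -, -, -, h6', -⟩ := setup (p := 7) (m := 65664)
    hG (by rw [h]) (by norm_num)
  have dz : ∀ χ : IrrCharacter G, charDegree χ.1 = 56 ∨ charDegree χ.1 = 189 → χ ∉ principalBlock M' G :=
    fun χ a => not_principal_of_dz (p := 7) (by rw [h]; norm_num) (by rcases a with a | a <;> rw [h, a] <;> norm_num)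
  have op : ∀ χ ∈ X.erase (irrOne G), ∃ i, (ε χ * charDegree χ.1,
      if χ ∈ principalBlock M' G then ε χ * charDegree χ.1 else 0) =
      ![((96 : ℤ), (96 : ℤ)), (96, 0), (-56, 0), (-189, 0)] i := fun χ a => by
    obtain ⟨a1, a2, a3, a4⟩ := dx χ a
    have a5 := n2 _ (mem_cands a1 (a2.trans (by interval_cases e <;> simp_all)) a3) (bx χ a)
    rcases a4 with a4 | a4
    · rw [a4.1, a5.1 a4.2]
      split_ifs
      exacts [⟨0, rfl⟩, ⟨1, rfl⟩]
    · rcases a5.2 a4.2 with b | b | b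
      · rw [if_neg (dz χ (.inl b)), a4.1, b]; exact ⟨2, rfl⟩
      · rw [if_neg (dz χ (.inr b)), a4.1, b]; exact ⟨3, rfl⟩
      · rw [b] at a3; omega
  obtain ⟨a, s1, s2⟩ := sum_opts _ _ _ op
  simp only [Fin.sum_univ_four, Prod.ext_iff, Prod.fst_sum, Prod.snd_sum] at s1 s2
  simp at s2
  obtain ⟨s2, s3⟩ := s2
  have t := n4 e he _ (mem_cands b1 b2 b3) b5
  have hd : e = 6 ∧ δ = 1 ∧ charDegree ψ.1 = 108 ∧ a 0 ≤ 2 := by
    rcases b4 with b4 | b4 <;> rw [b4.1] at r
    · have := t.2 b4.2; omega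
    · have := t.1 b4.2; omega
  obtain ⟨rfl, rfl, hd, a0⟩ := hd
  have bt := bt3' (q := 7) (M' := M') H (by rw [h2, show c = 4 by omega]; norm_num) hψ
  have f7 : (Nat.card G).factorization 7 = 1 := fact_eq (m := 65664) Fact.out (by rw [h]; norm_num) (by norm_num)
  rw [f7, hd] at bt
  by_cases m : ψ ∈ principalBlock M' G
  · have m1 := cong hG H' m (by rw [hd]; norm_num) (by rw [hd]; norm_num)
    rw [if_pos m, Finset.sum_eq_zero fun χ b => if_neg fun m2 => ?_] at bt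
    · norm_num at bt
    obtain ⟨i, hi⟩ := op χ b
    rw [if_pos m2] at hi
    have e1 : charDegree χ.1 = 96 := by
      rcases H.sgn χ with s | s <;> rw [s] at hi <;> fin_cases i <;> simp at hi <;> omega
    have := H'.degY_eq m1 (cong hG H' m2 (by rw [e1]; norm_num) (by rw [e1]; norm_num))
    omega
  · rw [if_neg m] at bt
    simp only [s3] at bt
    omega


end Cfsg.Agent.S1022
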