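import Cfsg.Statements.S1026
import Cfsg.Agent.H6.GoodAll
import Cfsg.Agent.H6.Adj

set_option autoImplicit false
open Cfsg

namespace Cfsg.Agent.S1026

/-- Every element of `U` has a unique expression `∏_{r ∈ Φ⁺} x_r(t_r)`, the product over the positive roots in increasing index order (the coefficient family `t`, supported on the positive roots, exists and is unique); and conversely every such ordered product is the matrix of an element of `U`. -/
theorem result {F : Type*} [Field F] (D : Cfsg.Lie.ChevalleyDatum) (hD : D ∈ [Cfsg.Lie.chevG2, Cfsg.Lie.chevB2, Cfsg.Lie.chevD4, Cfsg.Lie.chevF4, Cfsg.Lie.chevE6, Cfsg.Lie.chevE7, Cfsg.Lie.chevE8]) :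
    (∀ g : GL D.Idx F, g ∈ D.posUnipotent F →
      ∃! t : ℕ → F, (∀ r, ¬ D.IsPosRoot r → t r = 0) ∧
        (g : Matrix D.Idx D.Idx F) = D.wordMat F (D.posRoots.map fun r => (r, t r))) ∧
    (∀ t : ℕ → F, ∃ g : GL D.Idx F, g ∈ D.posUnipotent F ∧
      (g : Matrix D.Idx D.Idx F) = D.wordMat F (D.posRoots.map fun r => (r, t r))) := by
  obtain ⟨G⟩ := CfsgH6.good_of_mem hD
  let L : List (Fin D.nroots) := (List.finRange D.nroots).filter fun r => decide (G.Pos r)
  have hL : ∀ s, s ∈ L ↔ s ∈ {r | G.Pos r} := fun s => by simp [L]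
  have hn : L.Nodup := (List.nodup_finRange _).filter _
  have hp : D.posRoots = L.map Fin.val := by
    rw [Cfsg.Lie.ChevalleyDatum.posRoots, ← List.map_coe_finRange_eq_range, List.filter_map]
    congr 1
    exact List.filter_congr fun r _ => by simp [G.isPosRoot_iff]
  have hw : ∀ t : ℕ → F, D.wordMat F (D.posRoots.map fun r => (r, t r)) =
      ((G.gl F).prodL L fun r => t r : GL D.Idx F) := fun t => by
    rw [← G.gl_word, hp]
    simp [CfsgH6.wordG, CfsgH6.Cover.prodL, Function.comp_def]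
  rw [G.posUnipotent_eq]
  refine ⟨fun g hg => ?_, fun t => ⟨_, (G.gl F).prodL_mem (fun s hs => (hL s).1 hs) _, (hw t).symm⟩⟩
  obtain ⟨t, rfl⟩ := (G.gl F).exists_prodL G.nil_pos hL hn hg
  refine ⟨fun r => if h : D.IsPosRoot r then t ⟨r, h.1⟩ else 0, ⟨fun r hr => dif_neg hr, ?_⟩, ?_⟩
  · rw [hw]
    exact congrArg _ ((G.gl F).prodL_congr fun s hs => by rw [dif_pos ((G.isPosRoot_iff s).2 ((hL s).1 hs))])
  · rintro t' ⟨h1, h2⟩
    rw [hw] at h2
    have := (G.gl F).prodL_inj G.nil_pos (fun s hs => (hL s).1 hs) hn (Units.ext h2)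
    ext r
    split_ifs with h
    · exact (this ⟨r, h.1⟩ ((hL _).2 ((G.isPosRoot_iff ⟨r, h.1⟩).1 h))).symm
    · exact h1 r h

end Cfsg.Agent.S1026
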