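import Cfsg.Statements.S1029
import Cfsg.Agent.H6.GoodAll
import Cfsg.Agent.H6.Adj

set_option autoImplicit false
open Cfsg

namespace Cfsg.Agent.S1029

/-- `U` is a nilpotent group (the subgroups generated by root subgroups of height at least `m` form a central series). -/
theorem result {F : Type*} [Field F] (D : Cfsg.Lie.ChevalleyDatum) (hD : D ∈ [Cfsg.Lie.chevG2, Cfsg.Lie.chevB2, Cfsg.Lie.chevD4, Cfsg.Lie.chevF4, Cfsg.Lie.chevE6, Cfsg.Lie.chevE7, Cfsg.Lie.chevE8]) : Group.IsNilpotent (D.posUnipotent F) := by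
  obtain ⟨G⟩ := CfsgH6.good_of_mem hD
  rw [G.posUnipotent_eq]
  exact (G.gl F).nilpotent_US G.nil_pos

end Cfsg.Agent.S1029
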