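import Cfsg.Statements.S1044
import Cfsg.Agent.H6.GoodAll
import Cfsg.Agent.H6.Adj

set_option autoImplicit false
open Cfsg

namespace Cfsg.Agent.S1044

/-- For a fundamental root `p` the set `B ∪ B n_p B` is (the carrier of) a subgroup of the general linear group. -/
theorem result {F : Type*} [Field F] (D : Cfsg.Lie.ChevalleyDatum) (hD : D ∈ [Cfsg.Lie.chevG2, Cfsg.Lie.chevB2, Cfsg.Lie.chevD4, Cfsg.Lie.chevF4, Cfsg.Lie.chevE6, Cfsg.Lie.chevE7, Cfsg.Lie.chevE8]) (i : ℕ) (hi : i < D.rank) (n : GL D.Idx F)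
    (hn : (n : Matrix D.Idx D.Idx F) = D.nMat F (D.simple i) 1) :
    ∃ P : Subgroup (GL D.Idx F), (P : Set (GL D.Idx F)) =
      (D.borelSubgroup F : Set (GL D.Idx F)) ∪ DoubleCoset.doubleCoset n (D.borelSubgroup F : Set (GL D.Idx F)) (D.borelSubgroup F) := by
  obtain ⟨G⟩ := CfsgH6.good_of_mem hD
  obtain rfl : n = (G.gl F).ν ⟨i, hi⟩ := Units.ext (by rw [G.gl_ν]; exact hn)
  rw [G.borel_eq]
  refine ⟨(G.gl F).PJ {⟨i, hi⟩}, ?_⟩
  ext g
  simp only [SetLike.mem_coe, Set.mem_union, DoubleCoset.mem_doubleCoset]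
  constructor
  · intro hg
    obtain ⟨u, hu, m, hm, w, hw, h, b, hb, rfl⟩ := (G.gl F).bruhat_PJ hg
    have : w = 1 ∨ w = G.σ ⟨i, hi⟩ := G.WJ_induction (p := fun w => w = 1 ∨ w = G.σ ⟨i, hi⟩) (Or.inl rfl) (by
      rintro j rfl w - (rfl | rfl)
      · simp
      · simp [G.σ_mul_self]) hw
    rcases this with rfl | rfl
    · exact Or.inl (mul_mem (mul_mem ((G.gl F).U_le_B hu) ((G.gl F).HH_le_B ((G.gl F).mem_HH_of_mon hm h))) hb)
    · exact Or.inr ⟨_, mul_mem ((G.gl F).U_le_B hu) ((G.gl F).HH_le_B ((G.gl F).mul_inv_mem_HH hm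
        ((G.gl F).ν_mem _) h ((G.gl F).mon_ν _))), b, hb, by group⟩
  · rintro (h | ⟨a, ha, b, hb, rfl⟩)
    · exact (G.gl F).B_le_PJ _ h
    · exact mul_mem (mul_mem ((G.gl F).B_le_PJ _ ha) ((G.gl F).ν_mem_PJ rfl)) ((G.gl F).B_le_PJ _ hb)

end Cfsg.Agent.S1044
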