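import Cfsg.Statements.S1045
import Cfsg.Agent.H6.GoodAll
import Cfsg.Agent.H6.Adj

set_option autoImplicit false
open Cfsg

namespace Cfsg.Agent.S1045

/-- For a fundamental root `p`, the subgroup `U_p` generated by the `X_s`, `s` positive and `s ≠ p`, is normalised by `X_p` and `X_{-p}`, and `U = U_p ⊔ X_p`. -/
theorem result {F : Type*} [Field F] (D : Cfsg.Lie.ChevalleyDatum) (hD : D ∈ [Cfsg.Lie.chevG2, Cfsg.Lie.chevB2, Cfsg.Lie.chevD4, Cfsg.Lie.chevF4, Cfsg.Lie.chevE6, Cfsg.Lie.chevE7, Cfsg.Lie.chevE8]) (i : ℕ) (hi : i < D.rank) :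
    D.rootSubgroup F (D.simple i) ⊔ D.rootSubgroup F (D.neg (D.simple i)) ≤
        Subgroup.normalizer (Subgroup.closure {g : GL D.Idx F | ∃ (s : ℕ) (t : F), D.IsPosRoot s ∧ s ≠ D.simple i ∧
          (g : Matrix D.Idx D.Idx F) = D.x F s t} : Set (GL D.Idx F)) ∧
      Subgroup.closure {g : GL D.Idx F | ∃ (s : ℕ) (t : F), D.IsPosRoot s ∧ s ≠ D.simple i ∧
          (g : Matrix D.Idx D.Idx F) = D.x F s t} ⊔ D.rootSubgroup F (D.simple i) = D.posUnipotent F := by
  obtain ⟨G⟩ := CfsgH6.good_of_mem hD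
  have h := G.closure_x F (fun s => D.IsPosRoot s ∧ s ≠ D.simple i) fun r h => h.1.1
  have hp : D.simple i = G.sm ⟨i, hi⟩ := (G.sm_val ⟨i, hi⟩).symm
  simp only [and_assoc] at h
  rw [h, hp, G.neg_val, G.rootSubgroup_eq, G.rootSubgroup_eq, G.posUnipotent_eq, ← CfsgH6.Cover.US_union,
    ← CfsgH6.Cover.US_union]
  simp only [G.isPosRoot_iff, ne_eq, Fin.val_inj]
  constructor
  · have key : ∀ g ∈ (G.gl F).US ({G.sm ⟨i, hi⟩} ∪ {(G.sm ⟨i, hi⟩).rev}),
        ∀ v ∈ (G.gl F).US {r | G.Pos r ∧ ¬ r = G.sm ⟨i, hi⟩},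
        g * v * g⁻¹ ∈ (G.gl F).US {r | G.Pos r ∧ ¬ r = G.sm ⟨i, hi⟩} := fun g hg => by
      refine (G.gl F).US_conj_mem ?_ ?_ hg
      · rintro r (rfl | rfl)
        · exact fun h => G.not_pos_sm_rev _ h.1
        · simp
      · intro r hr s hs k a b ha hb hk
        obtain ⟨j, hj, h1⟩ : ∃ j, j ≠ ⟨i, hi⟩ ∧ G.vec s j ≠ 0 := by
          by_contra h1
          push Not at h1
          rcases G.eq_sm_of_support h1 with e | e
          · exact hs.2 e
          · exact G.not_pos_sm_rev _ (e ▸ hs.1)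
        have h2 : G.vec r j = 0 := by rcases hr with rfl | rfl <;> simp [G.vec_rev, G.vec_sm, hj]
        have h3 : 0 < G.vec k j := by
          rw [hk, h2, mul_zero, zero_add]
          exact mul_pos (by exact_mod_cast hb) (lt_of_le_of_ne (hs.1 j) h1.symm)
        exact ⟨G.pos_of_lt h3, by rintro rfl; simp [G.vec_sm, hj] at h3⟩
    intro g hg
    exact Subgroup.mem_normalizer_iff.2 fun v => ⟨key g hg v, fun h => by
      simpa [mul_assoc] using key _ (inv_mem hg) _ h⟩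
  · refine congrArg _ (Set.ext fun r => ?_)
    simp only [Set.mem_union, Set.mem_ofPred_eq, Set.mem_singleton_iff]
    refine ⟨?_, fun h => by tauto⟩
    rintro (h | rfl)
    · exact h.1
    · exact G.pos_sm _

end Cfsg.Agent.S1045
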