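import Cfsg.Statements.S1053
import Cfsg.Agent.H6.GoodAll
import Cfsg.Agent.H6.Adj

set_option autoImplicit false
open Cfsg

namespace Cfsg.Agent.S1053

/-- There is `n₀ ∈ N` with `n₀ U n₀⁻¹ = V` (a representative of the longest element of the Weyl group). -/
theorem result {F : Type*} [Field F] (D : Cfsg.Lie.ChevalleyDatum) (hD : D ∈ [Cfsg.Lie.chevG2, Cfsg.Lie.chevB2, Cfsg.Lie.chevD4, Cfsg.Lie.chevF4, Cfsg.Lie.chevE6, Cfsg.Lie.chevE7, Cfsg.Lie.chevE8]) :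
    ∃ n ∈ D.monomialSubgroup F, (D.posUnipotent F).map (MulAut.conj n).toMonoidHom = D.negUnipotent F := by
  obtain ⟨G⟩ := CfsgH6.good_of_mem hD
  rw [G.monomial_eq, G.posUnipotent_eq, G.negUnipotent_eq]
  obtain ⟨m, hm, w, hw, h, hw'⟩ := (G.gl F).exists_n0
  refine ⟨m, hm, le_antisymm ?_ fun v hv => ⟨m⁻¹ * v * m, ?_, by simp [mul_assoc]⟩⟩
  · rintro _ ⟨u, hu, rfl⟩
    exact h.conj_mem (fun s hs => by simpa [hw'] using hs) hu
  · refine h.conj_mem' (fun s hs => ?_) hv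
    have := hw' (w⁻¹ s)
    rw [CfsgH6.perm_apply_inv] at this
    by_contra h1
    exact hs (this.2 h1)

end Cfsg.Agent.S1053
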