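import Cfsg.Statements.S1058
import Cfsg.Agent.S0247
import Cfsg.Agent.H5.Ch5

set_option autoImplicit false
open Cfsg

namespace Cfsg.Agent.S1058

open CfsgH5

/-- B₂(2) ≅ S₆. -/
theorem result {F : Type*} [Field F] [Fintype F] (hF : Fintype.card F = 2) :
    Nonempty (↥(Cfsg.Lie.chevB2.group F) ≃* Equiv.Perm (Fin 6)) := by
  obtain ⟨a, -⟩ := Ch.exists_iso_C4 (F := F)
  obtain ⟨b⟩ := Cfsg.Agent.S0247.result hF
  have c : Subgroup.center (Equiv.Perm (Fin 6)) = ⊥ := eq_bot_iff.2 fun σ h => Equiv.ext fun i => by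
    by_contra e
    obtain ⟨j, -, hj⟩ := Finset.exists_mem_notMem_of_card_lt_card (s := {i, σ i}) (t := Finset.univ)
      (Finset.card_le_two.trans_lt (by simp))
    simp only [Finset.mem_insert, Finset.mem_singleton, not_or] at hj
    have := DFunLike.congr_fun (Subgroup.mem_center_iff.1 h (Equiv.swap (σ i) j)) i
    exact hj.2 (by simpa [Equiv.swap_apply_of_ne_of_ne (show i ≠ σ i from Ne.symm e) (Ne.symm hj.1)] using this)
  exact ⟨a.trans ((quotCenterEquiv b).trans ((QuotientGroup.quotientMulEquivOfEq c).trans QuotientGroup.quotientBot))⟩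

end Cfsg.Agent.S1058
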