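import Cfsg.Statements.S1078
import Cfsg.Agent.H6.St
import Cfsg.Agent.H6.GoodAll
import Cfsg.Agent.H6.Smith

set_option autoImplicit false
open Cfsg

namespace Cfsg.Agent.S1078

/-- For G₂, F₄, E₈ the presented group has trivial centre (the universal and adjoint groups coincide). -/
theorem result {K : Type*} [Field K] (D : Cfsg.Lie.ChevalleyDatum) (hD : D ∈ [Cfsg.Lie.chevG2, Cfsg.Lie.chevF4, Cfsg.Lie.chevE8]) :
    Subgroup.center (D.SteinbergGroup K) = ⊥ := by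
  have h1 : Function.Injective (CfsgH6.pw Kˣ (CfsgH6.cartanM D)) ∧ Nonempty (CfsgH6.Good D) := by
    simp only [List.mem_cons, List.not_mem_nil, or_false] at hD
    rcases hD with rfl | rfl | rfl
    exacts [⟨CfsgH6.pw_inj_G2 _, ⟨CfsgH6.goodG2⟩⟩, ⟨CfsgH6.pw_inj_F4 _, ⟨CfsgH6.goodF4⟩⟩,
      ⟨CfsgH6.pw_inj_E8 _, ⟨CfsgH6.goodE8⟩⟩]
  obtain ⟨h1, ⟨G⟩⟩ := h1
  rw [(G.st K).center_eq (G.st_Gr K) (G.st_R3 K), (MonoidHom.ker_eq_bot_iff _).2 h1, Subgroup.map_bot]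

end Cfsg.Agent.S1078
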