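import Cfsg.Statements.S1095
import Cfsg.Agent.H6.GoodAll
import Cfsg.Agent.H6.Monomial

set_option autoImplicit false
open Cfsg

namespace Cfsg.Agent.S1095

/-- `n_p` (p = p_{i+1} fundamental) is the signed monomial matrix `h_{p_j} ↦ h_{p_j} - A_{p_j,p} h_p`, `e_s ↦ η_s e_{w_p(s)}`, with `η_s = ±1`, `η_p = η_{-p} = -1`, `η_s η_{w_p(s)} = (-1)^{A_{p,s}}`, `η_s η_{-s} = 1`. -/
theorem result {F : Type*} [Field F] (D : Cfsg.Lie.ChevalleyDatum) (hD : D ∈ [Cfsg.Lie.chevG2, Cfsg.Lie.chevB2, Cfsg.Lie.chevD4, Cfsg.Lie.chevF4, Cfsg.Lie.chevE6, Cfsg.Lie.chevE7, Cfsg.Lie.chevE8]) (i : ℕ) (hi : i < D.rank) :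
    ∃ η : ℕ → ℤ, (∀ s < D.nroots, η s = 1 ∨ η s = -1) ∧ η (D.simple i) = -1 ∧ η (D.neg (D.simple i)) = -1 ∧
      (∀ s < D.nroots, η s * η (D.reflectRoot i s) = (-1) ^ (D.cartan i s).natAbs ∧ η s * η (D.neg s) = 1) ∧
      D.nMat F (D.simple i) 1 = Matrix.of (fun (row col : D.Idx) =>
        Sum.elim
          (fun j' : Fin D.rank => Sum.elim
            (fun j : Fin D.rank => (if j' = j then (1 : F) else 0) - (if (j' : ℕ) = i then ((D.cartan j (D.simple i) : ℤ) : F) else 0))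
            (fun _ => (0 : F)) col)
          (fun s' : Fin D.nroots => Sum.elim
            (fun _ => (0 : F))
            (fun s : Fin D.nroots => if (s' : ℕ) = D.reflectRoot i s then ((η s : ℤ) : F) else 0) col)
          row) := by
  obtain ⟨G⟩ := CfsgH6.good_of_mem hD
  have hp : D.simple i = G.sm ⟨i, hi⟩ := (G.sm_val ⟨i, hi⟩).symm
  have hr : ∀ s : Fin D.nroots, D.reflectRoot i s = G.rf (G.sm ⟨i, hi⟩) s := fun s => by
    rw [G.rf_sm, G.σ_apply, G.refl_val]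
  refine ⟨fun s => if h : s < D.nroots then G.η (G.sm ⟨i, hi⟩) ⟨s, h⟩ else 1, fun s hs => ?_, ?_, ?_,
    fun s hs => ⟨?_, ?_⟩, ?_⟩
  · simpa [hs] using G.η_eq _ _
  · simp [hp, G.η_self]
  · simp only [hp, G.neg_val, Fin.is_lt, dif_pos, Fin.eta, G.η_rev, G.η_self]
  · have := G.η_rf (G.sm ⟨i, hi⟩) ⟨s, hs⟩
    rw [G.A_sm] at this
    simpa only [hr ⟨s, hs⟩, hs, dif_pos, Fin.is_lt, Fin.eta] using this
  · simpa only [G.neg_val ⟨s, hs⟩, hs, dif_pos, Fin.is_lt, Fin.eta] using G.η_mul_rev _ ⟨s, hs⟩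
  · rw [hp, G.nMat_eq]
    refine CfsgH6.Good.ext_cols (fun j => ?_) (fun s => ?_)
    · rw [G.nF_inl _ one_ne_zero, G.hv_sm]
      ext b
      cases b <;> simp [Pi.single_apply, Fin.ext_iff]
    · rw [G.nF_ev _ one_ne_zero]
      ext b
      cases b <;> simp [CfsgH6.ev, Pi.single_apply, hr, Fin.ext_iff]

end Cfsg.Agent.S1095
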