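import Cfsg.Statements.S1096
import Cfsg.Agent.H6.GoodAll
import Cfsg.Agent.H6.Monomial

set_option autoImplicit false
open Cfsg

namespace Cfsg.Agent.S1096

/-- `n_p h_{p_j}(t) n_p⁻¹ = h_{w_p(p_j)}(t)` for fundamental `p`, `p_j` and `t ≠ 0`, stated as `n_p h_{p_j}(t) = h_{w_p(p_j)}(t) n_p`. -/
theorem result {F : Type*} [Field F] (D : Cfsg.Lie.ChevalleyDatum) (hD : D ∈ [Cfsg.Lie.chevG2, Cfsg.Lie.chevB2, Cfsg.Lie.chevD4, Cfsg.Lie.chevF4, Cfsg.Lie.chevE6, Cfsg.Lie.chevE7, Cfsg.Lie.chevE8]) (i j : ℕ) (hi : i < D.rank) (hj : j < D.rank) (t : F) (ht : t ≠ 0) :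
    D.nMat F (D.simple i) 1 * D.hMat F (D.simple j) t = D.hMat F (D.reflectRoot i (D.simple j)) t * D.nMat F (D.simple i) 1 := by
  obtain ⟨G⟩ := CfsgH6.good_of_mem hD
  have hp : D.simple i = G.sm ⟨i, hi⟩ := (G.sm_val ⟨i, hi⟩).symm
  have hq : D.simple j = G.sm ⟨j, hj⟩ := (G.sm_val ⟨j, hj⟩).symm
  have hr : ∀ s : Fin D.nroots, D.reflectRoot i s = G.rf (G.sm ⟨i, hi⟩) s := fun s => by
    rw [G.rf_sm, G.σ_apply, G.refl_val]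
  rw [hq, hr, hp, G.nMat_eq, G.hMat_eq_hd _ ht, G.hMat_eq_hd _ ht]
  refine CfsgH6.Good.ext_cols (fun k => ?_) (fun s => ?_)
  · rw [← Matrix.mulVec_mulVec, ← Matrix.mulVec_mulVec, G.hd_inl, G.nF_inl _ one_ne_zero, Matrix.mulVec_sub,
      Matrix.mulVec_smul, G.hd_inl, G.hd_hv]
  · rw [← Matrix.mulVec_mulVec, ← Matrix.mulVec_mulVec, G.hd_ev, Matrix.mulVec_smul, G.nF_ev _ one_ne_zero,
      Matrix.mulVec_smul, G.hd_ev, G.chr_hc, G.chr_hc, CfsgH6.Good.A_W (G.rf_mem _), smul_comm]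

end Cfsg.Agent.S1096
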