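import Cfsg.Statements.S1100
import Cfsg.Agent.H6.Adj
import Cfsg.Agent.H6.GoodAll

set_option autoImplicit false
open Cfsg

namespace Cfsg.Agent.S1100

theorem key {F : Type*} [Field F] {D : Cfsg.Lie.ChevalleyDatum} (G : CfsgH6.Good D) {n : GL D.Idx F}
    {w : Equiv.Perm (Fin D.nroots)} (h : (G.gl F).Mon n w) :
    Subgroup.closure {x : GL D.Idx F | ∃ (r : ℕ) (t : F), D.IsPosRoot r ∧
      (D.rootSubgroup F r).map (MulAut.conj n).toMonoidHom ≤ D.negUnipotent F ∧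
        (x : Matrix D.Idx D.Idx F) = D.x F r t} = (G.gl F).US (G.invSet w) := by
  simp only [← and_assoc]
  rw [G.closure_x F _ fun r h => h.1.1]
  congr 1
  ext r
  rw [Set.mem_setOf, G.isPosRoot_iff, G.rootSubgroup_eq, G.negUnipotent_eq, Finset.mem_coe, G.mem_invSet]
  refine and_congr_right fun _ => ⟨fun e => ?_, fun e => ?_⟩
  · obtain ⟨c, hc, -⟩ := h.conj_n r
    have h1 : n * (G.gl F).x r 1 * n⁻¹ ∈ (G.gl F).V := e ⟨(G.gl F).x r 1, (G.gl F).x_mem (S := {r}) rfl 1, rfl⟩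
    rw [hc] at h1
    exact (G.gl F).mem_of_x_mem G.nil_neg (by simp) h1 rfl
  · rintro _ ⟨u, hu, rfl⟩
    exact h.conj_mem (fun s hs => by rwa [Set.mem_singleton_iff.1 hs]) hu

/-- Canonical form `g = b n_w u` (`b ∈ B`, `u ∈ U_w⁻ = ⟨X_r : r > 0, n_w X_r n_w⁻¹ ≤ V⟩`): such a decomposition exists for every element of the group; the coset `n_w H` is determined by `g`; and for a fixed representative `n_w` the factors `b`, `u` are unique. -/
theorem result {F : Type*} [Field F] (D : Cfsg.Lie.ChevalleyDatum) (hD : D ∈ [Cfsg.Lie.chevG2, Cfsg.Lie.chevB2, Cfsg.Lie.chevD4, Cfsg.Lie.chevF4, Cfsg.Lie.chevE6, Cfsg.Lie.chevE7, Cfsg.Lie.chevE8]) :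
    (∀ g ∈ D.group F, ∃ b ∈ D.borelSubgroup F, ∃ n ∈ D.monomialSubgroup F,
      ∃ u ∈ Subgroup.closure {x : GL D.Idx F | ∃ (r : ℕ) (t : F), D.IsPosRoot r ∧
            (D.rootSubgroup F r).map (MulAut.conj n).toMonoidHom ≤ D.negUnipotent F ∧ (x : Matrix D.Idx D.Idx F) = D.x F r t},
        g = b * n * u) ∧
    (∀ (b b' n n' u u' : GL D.Idx F), b ∈ D.borelSubgroup F → b' ∈ D.borelSubgroup F →
      n ∈ D.monomialSubgroup F → n' ∈ D.monomialSubgroup F →
      u ∈ Subgroup.closure {x : GL D.Idx F | ∃ (r : ℕ) (t : F), D.IsPosRoot r ∧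
            (D.rootSubgroup F r).map (MulAut.conj n).toMonoidHom ≤ D.negUnipotent F ∧ (x : Matrix D.Idx D.Idx F) = D.x F r t} →
      u' ∈ Subgroup.closure {x : GL D.Idx F | ∃ (r : ℕ) (t : F), D.IsPosRoot r ∧
            (D.rootSubgroup F r).map (MulAut.conj n').toMonoidHom ≤ D.negUnipotent F ∧ (x : Matrix D.Idx D.Idx F) = D.x F r t} →
      b * n * u = b' * n' * u' → n⁻¹ * n' ∈ D.diagonalSubgroup F ∧ (n = n' → b = b' ∧ u = u')) := by
  obtain ⟨G⟩ := CfsgH6.good_of_mem hD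
  rw [G.group_eq, G.borel_eq, G.monomial_eq, G.diagonal_eq]
  refine ⟨fun g hg => ?_, fun b b' n n' u u' hb hb' hn hn' hu hu' e => ?_⟩
  · obtain ⟨b, hb, m, hm, w, -, h, u, hu, e⟩ := (G.gl F).canonical hg
    exact ⟨b, hb, m, hm, u, by rwa [key G h], e⟩
  · obtain ⟨w, hw, h⟩ := (G.gl F).exists_mon hn
    obtain ⟨w', hw', h'⟩ := (G.gl F).exists_mon hn'
    rw [key G h] at hu
    rw [key G h'] at hu'
    refine ⟨?_, ?_⟩
    · have := (G.gl F).conj_HH' hn (inv_mem ((G.gl F).bruhat_unique hb hb' hn hn'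
        ((G.gl F).U_le_B ((G.gl F).invSet_le_U _ hu)) ((G.gl F).U_le_B ((G.gl F).invSet_le_U _ hu')) e))
      simpa [mul_assoc] using this
    · rintro rfl
      obtain rfl := h.unique h'
      obtain rfl := (G.gl F).canonical_unique hb hb' h hu hu' e
      exact ⟨mul_right_cancel (mul_right_cancel e), rfl⟩

end Cfsg.Agent.S1100
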