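import Cfsg.Statements.S1125
import Cfsg.Agent.H3.RO2

set_option autoImplicit false
open Cfsg

namespace Cfsg.Agent.S1125
open CfsgH3

/-- In the rank-one set-up (`G` finite and doubly transitive on `Ω`, `t` an involution moving `a`, `Q` normal in `G_a` with `G_a = Q D`, `Q ⊓ D = 1` for the two-point stabiliser `D = G_a ⊓ G_{t • a}`, `|Q|` even, `|D|` odd), let `X ⊆ D` fix at least three points of `Ω`. Then `C_G(X)` is doubly transitive on the fixed-point set of `X`, `|C_Q(X)|` is even, and `C_{G_a}(X) = C_Q(X) C_D(X)`. -/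
theorem result {G Ω : Type*} [Group G] [Finite G] [MulAction G Ω] {a : Ω} {t : G} {Q : Subgroup G}
    (hS : Cfsg.IsRankOneSetup G Ω a t Q)
    (X : Set G) (hX : X ⊆ ((MulAction.stabilizer G a ⊓ MulAction.stabilizer G (t • a)) : Set G))
    (h3 : ∃ b c d : Ω, b ≠ c ∧ b ≠ d ∧ c ≠ d ∧ ∀ x ∈ X, x • b = b ∧ x • c = c ∧ x • d = d) :
    (∀ b₁ b₂ c₁ c₂ : Ω, (∀ x ∈ X, x • b₁ = b₁ ∧ x • b₂ = b₂ ∧ x • c₁ = c₁ ∧ x • c₂ = c₂) →
        b₁ ≠ b₂ → c₁ ≠ c₂ → ∃ g ∈ Subgroup.centralizer X, g • b₁ = c₁ ∧ g • b₂ = c₂) ∧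
      Even (Nat.card ↥(Subgroup.centralizer X ⊓ Q)) ∧
      (Subgroup.centralizer X ⊓ Q) ⊔ (Subgroup.centralizer X ⊓ (MulAction.stabilizer G a ⊓ MulAction.stabilizer G (t • a))) = Subgroup.centralizer X ⊓ MulAction.stabilizer G a := by
  have h := CfsgRO.RO.of hS
  obtain ⟨c, c1, c2, c3⟩ := CfsgRO.RO.third (a := a) (t := t) h3
  have f1 : CfsgRO.Fx X a := fun x hx => (hX hx).1
  have f2 : CfsgRO.Fx X (t • a) := fun x hx => (hX hx).2
  refine ⟨fun b₁ b₂ c₁ c₂ hf n1 n2 => h.two_fix f1 f2 c1 c2 c3 (fun x hx => (hf x hx).1) (fun x hx => (hf x hx).2.1)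
    (fun x hx => (hf x hx).2.2.1) (fun x hx => (hf x hx).2.2.2) n1 n2, ?_, ?_⟩
  · obtain ⟨s, hs, hc⟩ := h.exists_inv_cent f1 f2 c1 c2 c3
    exact CfsgL0.even_card_iff.2 ⟨s, ⟨hc, h.I_Q hs⟩, CfsgRO.ord2 hs.2.1 hs.2.2⟩
  · refine le_antisymm (sup_le (inf_le_inf_left _ h.le) (inf_le_inf_left _ inf_le_left)) fun g hg => ?_
    obtain ⟨x, hx, d, hd, rfl⟩ := h.cent_dec hX hg.1 hg.2
    exact mul_mem (Subgroup.mem_sup_left hx) (Subgroup.mem_sup_right hd)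


end Cfsg.Agent.S1125
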