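import Cfsg.Statements.S1139
import Cfsg.Agent.H3.Hig3

set_option autoImplicit false
open Cfsg

namespace Cfsg.Agent.S1139
open CfsgH3

/-- A Suzuki 2-group `P` with `|P| = |Z(P)|²` is of type A: for some finite field `F` with `|F| = |Z(P)|` and some field automorphism `φ ≠ 1` of odd order, `P` is isomorphic to the group of lower unitriangular matrices with rows `(1,0,0)`, `(x,1,0)`, `(y, φ x, 1)`. -/
theorem result {P : Type*} [Group P] (hP : Cfsg.IsSuzukiTwoGroup P)
    (hcard : Nat.card P = Nat.card (Subgroup.center P) ^ 2) :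
    ∃ (F : Type) (_ : Field F) (_ : Fintype F) (φ : F ≃+* F), Fintype.card F = Nat.card (Subgroup.center P) ∧
      φ ≠ RingEquiv.refl F ∧ Odd (orderOf φ) ∧ Nonempty (P ≃* Cfsg.suzukiTypeA F (φ : F →+* F)) := by
  obtain ⟨X, _, _, i, K, hi, h, hn⟩ := CfsgRO.exists_sz hP
  obtain ⟨E, h⟩ := h.exists_E
  have key : (Subgroup.center P).map i = E := by
    rw [← h.center_eq hn]
    ext x
    constructor
    · rintro ⟨z, hz, rfl⟩
      refine ⟨⟨z, rfl⟩, ?_⟩
      rintro _ ⟨g, rfl⟩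
      rw [← map_mul, Subgroup.mem_center_iff.1 hz g, map_mul]
    · rintro ⟨⟨z, rfl⟩, hz⟩
      exact ⟨z, Subgroup.mem_center_iff.2 fun g => hi (by rw [map_mul, map_mul]; exact hz _ ⟨g, rfl⟩), rfl⟩
  have c1 : Nat.card (Subgroup.center P) = Nat.card E := by rw [← key, Subgroup.card_map_of_injective hi]
  obtain ⟨F, _, _, hF⟩ := h.exists_field
  haveI := h.charP hF
  have hir : CfsgRO.Ir K i.range E := h.ir_of_relIndex le_rfl h.le h.nE h.nP h.kE (by
    have := CfsgH2.card_mul_relIndex h.le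
    rw [← Nat.card_congr (MonoidHom.ofInjective hi).toEquiv, hcard, c1, pow_two] at this
    exact Nat.eq_of_mul_eq_mul_left (CfsgH2.card_pos' E) this)
  obtain ⟨c, m, cE, l, φ, h1, h2, h3, h4, -, h5⟩ := h.typeA hF le_rfl hir hn
  obtain ⟨e⟩ := CfsgRO.iso_typeA h1 h2 h.cent (φ : F →+* F) h5
  exact ⟨F, inferInstance, Fintype.ofFinite F, φ, by rw [Fintype.card_eq_nat_card, hF, c1], h3, h4,
    ⟨(MonoidHom.ofInjective hi).trans e⟩⟩


end Cfsg.Agent.S1139
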