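import Cfsg.Statements.S1141
import Cfsg.Agent.H8.U3e
import Cfsg.Agent.H5.Gr4

set_option autoImplicit false
open Cfsg

namespace Cfsg.Agent.S1141

open CfsgH5 CfsgH8

abbrev C {F : Type*} [Field F] (σ : F →+* F) := (Units.map (σ : F →* F)).eqLocus (MonoidHom.id _)

theorem fx {F : Type*} [Field F] {σ : F →+* F} (c : C σ) : σ c.1 = c.1 := congrArg Units.val c.2

def act {F : Type*} [Field F] {σ : F →+* F} (c : C σ) (a : Hs σ) : Hs σ :=
  ⟨c.1 * a.y, c.1 ^ 2 * a.z, by simp only [map_mul, map_pow, fx]; linear_combination (c.1 : F) ^ 2 * a.h⟩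

def ψ {F : Type*} [Field F] (σ : F →+* F) [hs : Fact (∀ a, σ (σ a) = a)] : C σ →* MulAut (Hs σ) :=
  MonoidHom.mk' (fun c => ⟨⟨act c, act c⁻¹, fun a => by ext <;> simp [act], fun a => by ext <;> simp [act]⟩,
    fun a b => by ext <;> simp [act, fx] <;> ring⟩) fun c d => MulEquiv.ext fun a => by
      ext <;> simp [act] <;> ring

/-- Let `q = 2^n ≥ 4` and `|F| = q²`. A Sylow 2-subgroup `S` of `PSU₃(q)` has order `q³`, its centre has order `q`, and `S` is a Suzuki 2-group. -/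
theorem result {F : Type*} [Field F] [Fintype F] {n : ℕ} (hn : 2 ≤ n)
    (hF : Fintype.card F = (2 ^ n) ^ 2) (S : Sylow 2 (Cfsg.PSU 3 F (2 ^ n))) :
    Nat.card S = (2 ^ n) ^ 3 ∧ Nat.card (Subgroup.center ↥(S : Subgroup (Cfsg.PSU 3 F (2 ^ n)))) = 2 ^ n ∧
      Cfsg.IsSuzukiTwoGroup ↥(S : Subgroup (Cfsg.PSU 3 F (2 ^ n))) := by
  obtain ⟨σ, H⟩ := exists_UF hF
  have h2 : (2 : F) = 0 := by
    have := FiniteField.cast_card_eq_zero F
    rw [hF] at this
    exact pow_eq_zero_iff (by omega : n ≠ 0) |>.1 (by simpa using this)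
  have := CharTwo.of_one_ne_zero_of_two_eq_zero one_ne_zero h2
  have := Fact.mk H.invol
  obtain ⟨α, hα⟩ := exists_alpha H.ne_id H.invol
  obtain ⟨e⟩ := sylow_PSU3_iso H S
  have := H.fin
  obtain ⟨l, l1, l2, l3⟩ := H.exists_fix_ne ((by norm_num : 3 ≤ 2 ^ 2).trans (Nat.pow_le_pow_right two_pos hn))
  have inv : ∀ x, e x * e x = 1 ↔ x * x = 1 := fun x => by rw [← map_mul, e.map_eq_one_iff]
  refine ⟨(Nat.card_congr e.toEquiv).trans (Hs.card_UF H), (Nat.card_congr (Subgroup.centerCongr e).toEquiv).trans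
    ((Hs.card_center hα).trans H.card_fix), inferInstance, S.2, ?_, ⟨e.symm (Hs.cen 1 (map_one σ)), e.symm (Hs.cen l l1),
      fun h => l3 (congrArg Hs.z (e.symm.injective h)).symm, fun h => one_ne_zero (congrArg Hs.z (e.symm.map_eq_one_iff.1 h)),
      (inv _).1 (Hs.sq_eq_one.2 (by simp [Hs.cen])), fun h => l2 (congrArg Hs.z (e.symm.map_eq_one_iff.1 h)),
      (inv _).1 (Hs.sq_eq_one.2 (by simp [Hs.cen]))⟩,
    ((MulAut.congr e.symm).toMonoidHom.comp (ψ σ)).range, isCyclic_of_surjective _ (MonoidHom.rangeRestrict_surjective _),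
    fun x y x1 x2 y1 y2 => ?_⟩
  · by_contra! h
    exact one_ne_zero ((Hs.mem_center hα (a := Hs.lift hα 1)).1 (Subgroup.mem_center_iff.2 fun b => by
      simpa using congrArg e (h (e.symm b) (e.symm (Hs.lift hα 1)))))
  have a1 := Hs.sq_eq_one.1 ((inv x).2 x2)
  have a2 := Hs.sq_eq_one.1 ((inv y).2 y2)
  have b1 : (e x).z ≠ 0 := fun h => x1 (e.map_eq_one_iff.1 (Hs.ext a1 h))
  have b2 : (e y).z ≠ 0 := fun h => y1 (e.map_eq_one_iff.1 (Hs.ext a2 h))
  obtain ⟨c, hc⟩ := exists_sq_of_two_eq_zero h2 ((e y).z / (e x).z)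
  have c0 : c ≠ 0 := by rintro rfl; exact div_ne_zero b2 b1 (by simp [← hc])
  have key : ∀ d : C σ, MulAut.congr e.symm (ψ σ d) x = y ↔ d.1 = c := fun d => by
    change e.symm (act d (e x)) = y ↔ _
    rw [e.symm_apply_eq, Hs.ext_iff]
    simp only [act, a1, a2, mul_zero, true_and, ← eq_div_iff b1, ← hc]
    exact ⟨Gr.sq_inj2 h2, fun h => by rw [h]⟩
  refine ⟨⟨_, ⟨Units.mk0 c c0, Units.ext (Gr.sq_inj2 h2 ?_)⟩, rfl⟩, (key _).2 rfl, ?_⟩
  · simp [← map_pow, hc, Hs.fix_of_y a1, Hs.fix_of_y a2]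
  · rintro ⟨_, d, rfl⟩ h
    exact Subtype.ext (congrArg ((MulAut.congr e.symm).toMonoidHom.comp (ψ σ)) (Subtype.ext (Units.ext ((key d).1 h))))

end Cfsg.Agent.S1141
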