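import Cfsg.Statements.S1142
import Mathlib
import Cfsg.Agent.H9.FH3

set_option autoImplicit false
open Cfsg

namespace Cfsg.Agent.S1142

/-- Feit–Higman: if a finite group has a (B,N)-pair of rank 2, its Weyl group `N/(B ⊓ N)` has order 4, 6, 8, 12 or 16. -/
theorem result {G : Type*} [Group G] [Finite G] (P : Cfsg.BNPair G)
    (h2 : P.rank = 2) :
    ((P.B ⊓ P.N).subgroupOf P.N).index ∈ ({4, 6, 8, 12, 16} : Set ℕ) := by
  open Subgroup CfsgH9 in
  classical
  haveI : Fintype G := Fintype.ofFinite G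
  obtain ⟨r, s, hrs, hu⟩ := Nat.card_eq_two_iff.1 h2
  have hS : ∀ t : P.S, t = r ∨ t = s := fun t => by
    have : t ∈ ({r, s} : Set P.S) := hu ▸ Set.mem_univ t
    simpa using this
  have hc := FH.card_W hrs hS
  change Nat.card (CfsgH6.BN.W P) ∈ _
  rw [hc]
  set m := orderOf (CfsgH6.BN.σ P r * CfsgH6.BN.σ P s) with hm
  have hm0 : 0 < m := orderOf_pos _
  have hm1 : m ≠ 1 := by
    intro h
    have h1 := orderOf_eq_one_iff.1 h
    have h3 := eq_inv_of_mul_eq_one_left h1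
    rw [CfsgH6.BN.σ_inv] at h3
    exact hrs (CfsgH6.BN.σ_inj P h3)
  simp only [Set.mem_insert_iff, Set.mem_singleton_iff]
  by_cases hm5 : m < 5
  · omega
  have hN : (0 : ℚ) < FH.nn P 1 := by exact_mod_cast FH.nn_pos 1
  have hNc : (FH.nn P 1 : ℂ) ≠ 0 := by exact_mod_cast (FH.nn_pos 1).ne'
  set a : ℚ := FH.nn P (CfsgH6.BN.σ P r) / FH.nn P 1 with ha
  set b : ℚ := FH.nn P (CfsgH6.BN.σ P s) / FH.nn P 1 with hb
  have ha1 : 1 < a := by rw [ha, one_lt_div hN]; exact_mod_cast FH.nn_lt r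
  have hb1 : 1 < b := by rw [hb, one_lt_div hN]; exact_mod_cast FH.nn_lt s
  have hac : (FH.nn P (CfsgH6.BN.σ P r) : ℂ) = (a : ℂ) * FH.nn P 1 := by
    rw [ha]; push_cast; field_simp
  have hbc : (FH.nn P (CfsgH6.BN.σ P s) : ℂ) = (b : ℂ) * FH.nn P 1 := by
    rw [hb]; push_cast; field_simp
  clear_value a b
  have ha0 : (a : ℂ) ≠ 0 := by exact_mod_cast (by linarith : a ≠ 0)
  have hb0 : (b : ℂ) ≠ 0 := by exact_mod_cast (by linarith : b ≠ 0)
  have ha2 : 1 + (a : ℂ) ≠ 0 := by exact_mod_cast (by linarith : 1 + a ≠ 0)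
  have hodd : m % 2 = 1 → a = b := by
    intro h
    obtain ⟨e1, e2⟩ := FH.nn_E hrs hS a b hac hbc m le_rfl
    have e3 : FH.E r s (m : ℤ) = FH.E r s (-(m : ℤ)) := by
      rw [← FH.E_per (-(m : ℤ)) 1, ← hm]; congr 1; ring
    rw [e3, e2, show (m + 1) / 2 = m / 2 + 1 by omega] at e1
    have e4 := mul_left_cancel₀ hNc e1
    have e5 : (a : ℂ) = b := by
      apply mul_left_cancel₀ (mul_ne_zero (pow_ne_zero (m / 2) ha0) (pow_ne_zero (m / 2) hb0))
      linear_combination e4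
    exact_mod_cast e5
  have hab0 : (0 : ℝ) < a * b := by
    have : (0 : ℚ) < a * b := by nlinarith
    exact_mod_cast this
  set ρ := Real.sqrt (a * b) with hρ
  have hρ0 : 0 < ρ := Real.sqrt_pos.2 hab0
  have hρ2 : ρ ^ 2 = a * b := Real.sq_sqrt hab0.le
  have key := FH.number a b m (by omega) ha1 hb1 hodd ρ hρ0 hρ2 (by
    intro j hj
    have hζ := Complex.isPrimitiveRoot_exp m hm0.ne'
    set z := Complex.exp (2 * Real.pi * Complex.I / m) ^ j with hz
    have hzc : z + z⁻¹ = ((2 * Real.cos (j * (2 * Real.pi / m)) : ℝ) : ℂ) := by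
      rw [hz, ← Complex.exp_nat_mul, ← Complex.exp_neg]
      push_cast
      rw [Complex.two_cos]
      congr 2 <;> ring
    obtain ⟨K, hK⟩ := FH.formula m a b ρ z ha0 ha2 (by exact_mod_cast hρ0.ne')
      (by exact_mod_cast hρ2) (by rw [hz, ← pow_mul, mul_comm j m, pow_mul, hζ.pow_eq_one, one_pow]) hm0
      (by rw [hz, ← pow_mul]; exact hζ.pow_ne_one_of_pos_of_lt (by omega) (by omega))
      (by
        intro h
        have e := hodd h
        have : ρ = a := by
          rw [hρ, ← e]; exact Real.sqrt_mul_self (by exact_mod_cast (by linarith : 0 ≤ a))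
        exact_mod_cast this)
      (fun F Ψ μ h1 h2 h3 h4 h5 h0 => FH.dih_core hrs hS a b ha2 hac hbc F Ψ μ h1 h2 h3 h4 h5 h0)
    refine ⟨K, ?_⟩
    rw [hzc] at hK
    apply Complex.ofReal_injective
    push_cast at hK ⊢
    linear_combination hK)
  omega

end Cfsg.Agent.S1142
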