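import Mathlib
import Cfsg.Statements.S1147
import Cfsg.Agent.H8.Za11

set_option autoImplicit false
open Cfsg

namespace Cfsg.Agent.S1147

open CfsgH8 CfsgH8.Za CfsgH2 CfsgH1 CfsgH3

/-- Let a finite simple Zassenhaus group `G` on `Ω` have a normal subgroup `U` of `G_a`, regular on `Ω` minus `a`, which is a non-abelian 2-group. Then `|Ω| = 2^(2n) + 1` with `n` odd, `n > 1`, a two-point stabiliser `G_a ⊓ G_b` is cyclic of order `2^n - 1`, and `U` is isomorphic to the type-A group over a field with `2^n` elements for some field automorphism `φ`. -/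
theorem result {G Ω : Type*} [Group G] [Finite G] [MulAction G Ω] [Finite Ω]
    (hZ : Cfsg.IsZassenhausGroup G Ω) [IsSimpleGroup G] {a b : Ω} (hab : a ≠ b)
    (U : Subgroup G) (hUle : U ≤ MulAction.stabilizer G a)
    (hUn : ∀ h ∈ MulAction.stabilizer G a, ∀ u ∈ U, h * u * h⁻¹ ∈ U)
    (hreg : ∀ c d : Ω, c ≠ a → d ≠ a → ∃! u : U, (u : G) • c = d)
    (hU2 : IsPGroup 2 U) (hUna : ∃ u ∈ U, ∃ v ∈ U, u * v ≠ v * u) :
    ∃ n : ℕ, Odd n ∧ 1 < n ∧ Nat.card Ω = 2 ^ (2 * n) + 1 ∧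
      IsCyclic ↥(MulAction.stabilizer G a ⊓ MulAction.stabilizer G b) ∧
      Nat.card ↥(MulAction.stabilizer G a ⊓ MulAction.stabilizer G b) = 2 ^ n - 1 ∧
      ∃ (F : Type) (_ : Field F) (_ : Fintype F) (φ : F ≃+* F), Fintype.card F = 2 ^ n ∧
        Nonempty (U ≃* Cfsg.suzukiTypeA F (φ : F →+* F)) := by
  have h := ZK.of_reg (ZT.of hZ) hab hUle hUn hreg
  have nab : ¬ IsMulCommutative U := fun e => by
    obtain ⟨u, hu, v, hv, h1⟩ := hUna
    exact h1 (comm_of_isMulComm e hu hv)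
  obtain ⟨F, _, _, n, hn, h1, h2, -, φ, h3⟩ := suzuki hZ h hU2 nab
  have := hn.hm
  have he : Even (Nat.card U) := by rw [h1, hn.hF]; exact (Nat.even_pow.2 ⟨Nat.even_pow.2 ⟨even_two, by omega⟩, by omega⟩)
  obtain ⟨w, hw⟩ := h.zi_of_even (HH_ne hZ hab) he
  refine ⟨2 * n + 1, odd_two_mul_add_one n, by omega, by rw [h.card_Ω', h1, hn.hF, ← pow_mul, mul_comm],
    h.cyc_of_comm (isMulComm_of_inverted hw.inv), ?_, F, _, _, φ, hn.hF, h3⟩
  rw [← hn.hF, ← h2]; rfl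

end Cfsg.Agent.S1147
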