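import Cfsg.Statements.S1151
import Cfsg.Agent.H6.Ree5

set_option autoImplicit false
open Cfsg

namespace Cfsg.Agent.S1151

open CfsgH6 CfsgH2 Subgroup

/-- In the small Ree group ²G₂(q), q = 3^(2m+1), realised as G¹ inside the Chevalley group G₂ over the field with q elements (θ the 3^m-th power map), with H¹ = G¹ ∩ H and U¹ = G¹ ∩ U the intersections with the ambient diagonal and positive unipotent subgroups: `H¹` has exactly `(q - 1)/2` elements of odd order, and each non-identity one centralises no non-identity element of `U¹`. -/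
theorem result {K : Type*} [Field K] [Fintype K] {m : ℕ} (hK : Fintype.card K = 3 ^ (2 * m + 1)) :
    2 * Nat.card {h : ↥(Cfsg.Lie.chevG2.diagonalSubgroup K ⊓ Cfsg.Lie.twistedG2 K (3 ^ m)) // Odd (orderOf h)} = 3 ^ (2 * m + 1) - 1 ∧
      ∀ h ∈ (Cfsg.Lie.chevG2.diagonalSubgroup K ⊓ Cfsg.Lie.twistedG2 K (3 ^ m)), h ≠ 1 → Odd (orderOf h) →
        (Cfsg.Lie.chevG2.posUnipotent K ⊓ Cfsg.Lie.twistedG2 K (3 ^ m)) ⊓ Subgroup.centralizer {h} = ⊥ := by
  obtain ⟨X, h1, h2, -⟩ := exists_ree' hK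
  haveI := X.finite
  refine ⟨?_, fun h hh h0 ho => eq_bot_iff.2 fun u hu => by_contra fun e => ?_⟩
  · obtain ⟨h3, j, h4⟩ := card_oddPart (T := X.h.range) inferInstance
    have h5 := (Ree.NN_kk m 0).2.1
    rw [card_inf_sub h2 Odd, show Nat.card {g // g ∈ X.h.range ∧ Odd (orderOf g)} = Ree.kk m 0 from
      eq_of_odd_pow h3 (Ree.NN_kk m 0).1 (h4.symm.trans (X.card_H.trans h5)), mul_comm]
    exact h5.symm
  · obtain ⟨a, ha⟩ := (h2 ⟨h, hh.2⟩).1 hh.1
    have := X.comm_B (one_mem _) (a := a) ((h1 ⟨u, hu.1.2⟩).1 hu.1.1) (fun e' => e (congrArg Subtype.val e'))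
      (by rw [one_mul, ha]; exact Subtype.ext (mem_centralizer_singleton_iff.1 hu.2).symm)
    obtain rfl := congrArg Subtype.val ha
    rcases this with rfl | rfl
    · exact h0 (by simp)
    · rw [orderOf_coe] at ho
      exact absurd (X.order_z ▸ ho) (by decide)

end Cfsg.Agent.S1151
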