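import Cfsg.Statements.S1160
import Cfsg.Agent.H3.Hig0

set_option autoImplicit false
open Cfsg

namespace Cfsg.Agent.S1160
open CfsgH3

/-- Let `p ≠ 2` be prime and `P` a finite `p`-group acting faithfully by additive automorphisms on a finite elementary abelian `q`-group `E` (`q` prime), such that `|P_a|` is the same for all `a ≠ 0`. Then `P` is cyclic and every non-identity element of `P` fixes only `0`. -/
theorem result {P E : Type*} [Group P] [Finite P]
    [AddCommGroup E] [Finite E] [DistribMulAction P E] [FaithfulSMul P E]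
    {p q : ℕ} [Fact p.Prime] (hp2 : p ≠ 2) (hP : IsPGroup p P) (hq : q.Prime) (hE : ∀ e : E, q • e = 0)
    (hconst : ∀ a b : E, a ≠ 0 → b ≠ 0 →
      Nat.card (MulAction.stabilizer P a) = Nat.card (MulAction.stabilizer P b)) :
    IsCyclic P ∧ ∀ g : P, g ≠ 1 → ∀ a : E, g • a = a → a = 0 := by
  obtain ⟨X, _, _, i, j, hi, hj, hij, h1, h2, h3⟩ := CfsgRO.exists_amb_add (D := P) (E := E)
  have st : ∀ a : E, j.range ⊓ Subgroup.centralizer {i (Multiplicative.ofAdd a)} = (MulAction.stabilizer P a).map j := by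
    intro a
    ext x
    constructor
    · rintro ⟨⟨d, rfl⟩, hd⟩
      refine ⟨d, ?_, rfl⟩
      have := hij d a
      rw [CfsgRO.mc1.1 hd, mul_inv_cancel_right] at this
      exact (hi this).symm
    · rintro ⟨d, hd, rfl⟩
      refine ⟨⟨d, rfl⟩, CfsgRO.mc1.2 ?_⟩
      rw [← mul_inv_eq_iff_eq_mul, hij, show d • a = a from hd]
  have hc : ∀ a ∈ i.range, a ≠ 1 → ∀ b ∈ i.range, b ≠ 1 →
      Nat.card ↥(j.range ⊓ Subgroup.centralizer {a}) = Nat.card ↥(j.range ⊓ Subgroup.centralizer {b}) := by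
    rintro _ ⟨a, rfl⟩ a1 _ ⟨b, rfl⟩ b1
    have := hconst a.toAdd b.toAdd (fun e => a1 (by rw [show a = 1 from e, map_one]))
      (fun e => b1 (by rw [show b = 1 from e, map_one]))
    rw [← Subgroup.card_map_of_injective hj, ← Subgroup.card_map_of_injective hj, ← st, ← st] at this
    exact this
  have hC := CfsgRO.hup_lem' hp2 h3 hq (by
    rintro _ ⟨a, rfl⟩
    rw [← map_pow, show a ^ q = 1 from hE a.toAdd, map_one]) (hP.of_surjective _ j.rangeRestrict_surjective) h1 h2 hc
  refine ⟨isCyclic_of_surjective _ (MonoidHom.ofInjective hj).symm.surjective, fun g hg a ha => ?_⟩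
  have := CfsgRO.fpf_of_cyc hC h2 hc (g := j g) ⟨g, rfl⟩ (fun e => hg (hj (e.trans (map_one j).symm)))
  have h4 : i (Multiplicative.ofAdd a) ∈ i.range ⊓ Subgroup.centralizer {j g} := ⟨⟨_, rfl⟩, CfsgRO.mc1.2 (by
    rw [eq_comm, ← mul_inv_eq_iff_eq_mul, hij, ha])⟩
  rw [this, Subgroup.mem_bot] at h4
  exact hi (h4.trans (map_one i).symm)


end Cfsg.Agent.S1160
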