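import Cfsg.Statements.S1161
import Cfsg.Agent.H3.Hig0

set_option autoImplicit false
open Cfsg

namespace Cfsg.Agent.S1161
open CfsgH3

/-- Let `D` be a finite group of odd order acting faithfully by additive automorphisms on a finite elementary abelian `q`-group `E ≠ 0` (`q` prime), transitively on `E ∖ {0}`. Then the Fitting subgroup `F(D)` is cyclic, its non-identity elements fix only `0`, and `D/F(D)` is abelian (the derived subgroup lies in `F(D)`). -/
theorem result {D E : Type*} [Group D] [Finite D]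
    [AddCommGroup E] [Finite E] [Nontrivial E] [DistribMulAction D E] [FaithfulSMul D E]
    (hodd : Odd (Nat.card D)) {q : ℕ} (hq : q.Prime) (hE : ∀ e : E, q • e = 0)
    (htrans : ∀ a b : E, a ≠ 0 → b ≠ 0 → ∃ d : D, d • a = b) :
    IsCyclic ↥(Cfsg.fittingSubgroup D) ∧
      (∀ g ∈ Cfsg.fittingSubgroup D, g ≠ 1 → ∀ a : E, g • a = a → a = 0) ∧
      commutator D ≤ Cfsg.fittingSubgroup D := by
  obtain ⟨X, _, _, i, j, hi, hj, hij, h1, h2, h3⟩ := CfsgRO.exists_amb_add (D := D) (E := E)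
  obtain ⟨a1, a2, a3, -⟩ := CfsgRO.hup h3 hq (by
    rintro _ ⟨a, rfl⟩
    rw [← map_pow, show a ^ q = 1 from hE a.toAdd, map_one])
    (by rwa [← Nat.card_congr (MonoidHom.ofInjective hj).toEquiv]) h1 h2 (by
      rintro _ ⟨a, rfl⟩ a1 _ ⟨b, rfl⟩ b1
      obtain ⟨d, hd⟩ := htrans a.toAdd b.toAdd (fun e => a1 (by rw [show a = 1 from e, map_one]))
        (fun e => b1 (by rw [show b = 1 from e, map_one]))
      exact ⟨j d, ⟨d, rfl⟩, (hij d a.toAdd).trans (by rw [hd]; rfl)⟩)
  rw [MonoidHom.range_eq_map, CfsgH2.inj_fit hj, CfsgH2.fit_top] at a1 a2 a3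
  refine ⟨isCyclic_of_surjective _ (Subgroup.equivMapOfInjective _ j hj).symm.surjective, fun g hg g1 a ha => ?_, ?_⟩
  · have := a2 (j g) ⟨g, hg, rfl⟩ (fun e => g1 (hj (e.trans (map_one j).symm)))
    have h4 : i (Multiplicative.ofAdd a) ∈ i.range ⊓ Subgroup.centralizer {j g} := ⟨⟨_, rfl⟩, CfsgRO.mc1.2 (by
      rw [eq_comm, ← mul_inv_eq_iff_eq_mul, hij, ha])⟩
    rw [this, Subgroup.mem_bot] at h4
    exact hi (h4.trans (map_one i).symm)
  · rw [← Subgroup.map_commutator, Subgroup.map_le_map_iff_of_injective hj] at a3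
    exact a3


end Cfsg.Agent.S1161
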