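import Mathlib
import Cfsg.Statements.S1167
import Cfsg.Agent.H8.Za11

set_option autoImplicit false
open Cfsg

namespace Cfsg.Agent.S1167

open CfsgH8 CfsgH8.Za CfsgH2 CfsgRO

/-- Let `G` be a finite simple Zassenhaus group on `Ω`, `U` a normal subgroup of `G_a` regular on `Ω` minus `a` which is an abelian 2-group, and `v` an involution with `v • a ≠ a`. Then there is a unique `u₀ ∈ U`, `u₀ ≠ 1`, with `v u₀ v = u₀ v u₀`. -/
theorem result {G Ω : Type*} [Group G] [Finite G] [MulAction G Ω] [Finite Ω]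
    (hZ : Cfsg.IsZassenhausGroup G Ω) [IsSimpleGroup G] {a : Ω}
    (U : Subgroup G) (hUle : U ≤ MulAction.stabilizer G a)
    (hUn : ∀ h ∈ MulAction.stabilizer G a, ∀ u ∈ U, h * u * h⁻¹ ∈ U)
    (hreg : ∀ c d : Ω, c ≠ a → d ≠ a → ∃! u : U, (u : G) • c = d)
    (hU2 : IsPGroup 2 U) (hUab : ∀ u ∈ U, ∀ u' ∈ U, u * u' = u' * u)
    (v : G) (hv1 : v ≠ 1) (hv2 : v * v = 1) (hva : v • a ≠ a) :
    ∃! u₀ : G, u₀ ∈ U ∧ u₀ ≠ 1 ∧ v * u₀ * v = u₀ * v * u₀ := by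
  have h := ZK.of_reg (ZT.of hZ) hva.symm hUle hUn hreg
  have h0 := HH_ne hZ hva.symm
  have he : Even (Nat.card U) := by
    obtain ⟨k, hk⟩ := IsPGroup.iff_card.1 hU2
    refine hk ▸ Nat.even_pow.2 ⟨even_two, ?_⟩
    rintro rfl
    exact h.ker_ne h0 (Subgroup.card_eq_one.1 hk)
  have el := elem_of_ab_even hZ h (isMulComm_iff.2 hUab) he
  have ro := h.ro hv2 he
  have hi : ZI a (v • a) U v := ⟨h, h.odd_H he, h0, rfl, ro.tta, hv2, h.inv_of_even he hv2 rfl ro.tta⟩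
  obtain ⟨s, hs, r, hr, e⟩ := ro.exists_str
  obtain rfl := ro.str_eq (hi.r2 he) hs ((ro.mem_Q0 (hi.r2 he)).2 ⟨hUle hr, el r hr⟩) e
  refine ⟨r, ⟨hr, hs.2.1, by rwa [inv_of_sq hs.2.2] at e⟩, fun u hu => ?_⟩
  exact (ro.str_unique ⟨hUle hu.1, hu.2.1, el u hu.1⟩ hu.1 hs hr (by rw [inv_of_sq (el u hu.1)]; exact hu.2.2) e).1

end Cfsg.Agent.S1167
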