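import Cfsg.Statements.S1176
import Mathlib
import Cfsg.Agent.H9.Card

set_option autoImplicit false
open Cfsg

namespace Cfsg.Agent.S1176

/-- Let x₀ be an involution of the finite group G and D its conjugacy class. Assume (a) for each x ∈ D the subgroup W(x) generated by the members of D commuting with x is a 2-group of nilpotency class at most 2, and (b) the product of two distinct commuting members of D again lies in D. Then for all x, y ∈ D, if xy has even order greater than 2, its order is 4. -/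
theorem result {G : Type*} [Group G] [Finite G] (x₀ : G) (hx₀ : orderOf x₀ = 2) (ha : ∀ x : G, IsConj x₀ x → IsPGroup 2 ↥(Subgroup.closure {y : G | IsConj x₀ y ∧ Commute y x}) ∧ ⁅⁅Subgroup.closure {y : G | IsConj x₀ y ∧ Commute y x}, Subgroup.closure {y : G | IsConj x₀ y ∧ Commute y x}⁆, Subgroup.closure {y : G | IsConj x₀ y ∧ Commute y x}⁆ = ⊥) (hb : ∀ x y : G, IsConj x₀ x → IsConj x₀ y → x ≠ y → Commute x y → IsConj x₀ (x * y)) (x y : G) (hx : IsConj x₀ x) (hy : IsConj x₀ y) (heven : Even (orderOf (x * y))) (hgt : 2 < orderOf (x * y)) : orderOf (x * y) = 4 := by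
  open Subgroup CfsgH9 in
  have sq : ∀ {a}, IsConj x₀ a → a * a = 1 := fun {a} ⟨c, hc⟩ => by
    have : x₀ * x₀ = 1 := by rw [← pow_two, ← hx₀, pow_orderOf_eq_one]
    rw [show a = c * x₀ * (c : G)⁻¹ from eq_mul_inv_of_mul_eq hc.symm, conj_mul, this, mul_one,
      mul_inv_cancel]
  have ix := inv_eq_of_mul_eq_one_right (sq hx)
  have iy := inv_eq_of_mul_eq_one_right (sq hy)
  obtain ⟨r, hr⟩ : ∃ r, r = x * y := ⟨_, rfl⟩
  rw [← hr] at heven hgt ⊢
  have hxr : x * r * x⁻¹ = r⁻¹ := by
    rw [hr, mul_inv_rev, ix, iy, ← mul_assoc, sq hx, one_mul]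
  have hk : ∀ k : ℕ, x * r ^ k = (r ^ k)⁻¹ * x := fun k => by
    rw [← inv_pow, ← hxr, conj_pow, inv_mul_cancel_right]
  obtain ⟨m, hm⟩ := heven
  have z2 : r ^ m * r ^ m = 1 := by rw [← pow_add, ← hm, pow_orderOf_eq_one]
  have cx : Commute x (r ^ m) := by rw [commute_iff_eq, hk, inv_eq_of_mul_eq_one_right z2]
  have ey : y = x * r := by rw [hr, ← mul_assoc, sq hx, one_mul]
  have cy : Commute y (r ^ m) := ey ▸ cx.mul_left ((Commute.refl r).pow_right m)
  have hxz : IsConj x₀ (x * r ^ m) := by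
    rcases Nat.even_or_odd' m with ⟨k, e | e⟩
    · refine hx.trans (isConj_iff.2 ⟨(r ^ k)⁻¹, ?_⟩)
      rw [inv_inv, ← hk, e, two_mul, pow_add, mul_assoc]
    · refine hy.trans (isConj_iff.2 ⟨(r ^ k)⁻¹, ?_⟩)
      rw [inv_inv, ey, ← mul_assoc, ← hk, e, two_mul, pow_succ, pow_add, mul_assoc, mul_assoc,
        mul_assoc, ← pow_succ', ← pow_succ]
  have hz : IsConj x₀ (r ^ m) := by
    have := hb x _ hx hxz (fun e => ?_) ((Commute.refl x).mul_right cx)
    · rwa [← mul_assoc, sq hx, one_mul] at this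
    · have := Nat.le_of_dvd (by omega) (orderOf_dvd_of_pow_eq_one (left_eq_mul.1 e))
      omega
  have h := (ha _ hz).2
  have mx := subset_closure (k := {y : G | IsConj x₀ y ∧ Commute y (r ^ m)}) ⟨hx, cx⟩
  have my := subset_closure (k := {y : G | IsConj x₀ y ∧ Commute y (r ^ m)}) ⟨hy, cy⟩
  have c := commutator_mem_commutator (commutator_mem_commutator mx my) mx
  rw [h, mem_bot, commutatorElement_eq_one_iff_mul_comm, commutatorElement_def, ix, iy,
    show x * y * x * y = r ^ 2 by rw [hr, pow_two, mul_assoc], hk, mul_left_inj,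
    eq_inv_iff_mul_eq_one, ← pow_add] at c
  have d := orderOf_dvd_of_pow_eq_one c
  have := Nat.le_of_dvd (by norm_num) d
  omega

end Cfsg.Agent.S1176
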