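import Cfsg.Statements.S1177
import Mathlib
import Cfsg.Agent.L0.Conj

set_option autoImplicit false
open Cfsg

namespace Cfsg.Agent.S1177

/-- Let A be a nontrivial elementary abelian 2-subgroup of a finite group G which is a T.I. set (each conjugate of A meets A trivially or equals A) and which does not commute elementwise with any conjugate of A other than A itself. Then for every a ∈ A, a ≠ 1, every conjugate of A contained in C_G(a) is equal to A (A is weakly closed in C_G(a)). -/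
theorem result {G : Type*} [Group G] [Finite G] (A : Subgroup G) (hA : Cfsg.IsElementaryAbelian 2 A) (hA1 : A ≠ ⊥) (hTI : ∀ g : G, A.map (MulAut.conj g).toMonoidHom ⊓ A = ⊥ ∨ A.map (MulAut.conj g).toMonoidHom = A) (hb : ∀ g : G, (∀ a ∈ A, ∀ b ∈ A.map (MulAut.conj g).toMonoidHom, a * b = b * a) → A.map (MulAut.conj g).toMonoidHom = A) (a : G) (ha : a ∈ A) (ha1 : a ≠ 1) (g : G) (hg : A.map (MulAut.conj g).toMonoidHom ≤ Subgroup.centralizer ({a} : Set G)) : A.map (MulAut.conj g).toMonoidHom = A := by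
  by_contra hne
  set B := CfsgL0.cj g A with hB
  have hAB : B ⊓ A = ⊥ := (hTI g).resolve_right hne
  have ti : ∀ k y : G, y ≠ 1 → y ∈ A → k * y * k⁻¹ ∈ A → k ∈ Subgroup.normalizer (A : Set G) := by
    intro k y hy1 hy hk
    refine CfsgL0.mem_normalizer_iff_cj.2 ((hTI k).resolve_left fun h => hy1 ?_)
    have : k * y * k⁻¹ ∈ CfsgL0.cj k A ⊓ A := ⟨CfsgL0.conj_mem_cj.2 hy, hk⟩
    rw [h] at this
    simpa using this
  have hBN : ∀ b ∈ B, b ∈ Subgroup.normalizer (A : Set G) := fun b hb' =>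
    ti b a ha1 ha (by rw [Subgroup.mem_centralizer_singleton_iff.1 (hg hb')]; simpa using ha)
  have h0 : ∀ x ∈ A, ∀ b ∈ B, b ≠ 1 → Commute x b → ∀ c ∈ B, x * c = c * x := by
    intro x hx b hb' hb1 hc c hc'
    have hxN : x ∈ Subgroup.normalizer (B : Set G) := by
      rw [hB, ← CfsgL0.cj_normalizer, CfsgL0.mem_cj]
      refine ti _ (g⁻¹ * b * g) (fun h => hb1 (by
        calc b = g * (g⁻¹ * b * g) * g⁻¹ := by group
          _ = 1 := by rw [h]; group)) (CfsgL0.mem_cj.1 hb') ?_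
      have : g⁻¹ * x * g * (g⁻¹ * b * g) * (g⁻¹ * x * g)⁻¹ = g⁻¹ * (x * b * x⁻¹) * g := by group
      rw [this, hc.eq, mul_inv_cancel_right]; exact CfsgL0.mem_cj.1 hb'
    have : x * c * x⁻¹ * c⁻¹ ∈ B ⊓ A :=
      ⟨B.mul_mem (CfsgL0.conj_mem_of_mem_normalizer hxN hc') (B.inv_mem hc'), by
        have := A.mul_mem hx (CfsgL0.conj_mem_of_mem_normalizer (hBN c hc') (A.inv_mem hx))
        show _ ∈ A
        simpa only [mul_assoc] using this⟩
    rw [hAB, Subgroup.mem_bot, mul_inv_eq_one, mul_inv_eq_iff_eq_mul] at this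
    exact this
  refine hne (hb g fun x hx c hc => ?_)
  by_contra hxc
  have hx1 : x ≠ 1 := by rintro rfl; simp at hxc
  have hinj : Function.Injective (fun b : B => (⟨b.1 * x * b.1⁻¹,
      CfsgL0.conj_mem_of_mem_normalizer (hBN b.1 b.2) hx⟩ : A)) := by
    rintro ⟨b, hb1⟩ ⟨b', hb2⟩ e
    simp only [Subtype.mk.injEq] at e ⊢
    by_contra hbb
    refine hxc (h0 x hx (b'⁻¹ * b) (B.mul_mem (B.inv_mem hb2) hb1)
      (fun h => hbb (inv_mul_eq_one.1 h).symm) ?_ c hc)
    calc x * (b'⁻¹ * b) = b'⁻¹ * (b' * x * b'⁻¹) * b := by group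
      _ = b'⁻¹ * b * x := by rw [← e]; group
  obtain ⟨b, hb'⟩ := (hinj.bijective_of_nat_card_le (CfsgL0.card_cj g A).ge).2 1
  exact hx1 (by simpa using congrArg Subtype.val hb')

end Cfsg.Agent.S1177
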