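import Cfsg.Statements.S1178
import Mathlib
import Cfsg.Agent.L0.Conj

set_option autoImplicit false
open Cfsg

namespace Cfsg.Agent.S1178

/-- Let A be a subgroup of a Sylow 2-subgroup S of the finite group G which is weakly closed in S. If a conjugate g A g⁻¹ commutes elementwise with A, then g A g⁻¹ = A. -/
theorem result {G : Type*} [Group G] [Finite G] (S : Sylow 2 G) (A : Subgroup G) (hW : Cfsg.IsWeaklyClosed A (S : Subgroup G)) (g : G) (hc : ∀ a ∈ A, ∀ b ∈ A.map (MulAut.conj g).toMonoidHom, a * b = b * a) : A.map (MulAut.conj g).toMonoidHom = A := by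
  have hA : IsPGroup 2 A := S.isPGroup'.to_le hW.1
  have hn : CfsgL0.cj g A ≤ Subgroup.normalizer (A : Set G) := fun b hb =>
    Subgroup.centralizer_le_normalizer _ (fun a ha => hc a ha b hb)
  obtain ⟨k, hk⟩ := CfsgL0.exists_cj_le_sylow S
    (CfsgL0.isPGroup_sup_of_le_normalizer (CfsgL0.isPGroup_cj hA g) hA hn)
  rw [CfsgL0.cj_sup, sup_le_iff, CfsgL0.cj_cj] at hk
  have h1 : CfsgL0.cj (k * g) A = A := hW.2 _ hk.1
  have h2 : CfsgL0.cj k A = A := hW.2 _ hk.2
  apply CfsgL0.cj_injective k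
  rw [CfsgL0.cj_cj, h1, h2]

end Cfsg.Agent.S1178
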