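import Cfsg.Statements.S1181
import Mathlib
import Cfsg.Agent.L0.Isolated

set_option autoImplicit false
open Cfsg

namespace Cfsg.Agent.S1181

/-- Let z be an isolated involution of the finite group G and N a normal subgroup with z ∉ N. Then the centralizer of zN in G/N is the image of C_G(z), and zN is an isolated involution of G/N. -/
theorem result {G : Type*} [Group G] [Finite G] (z : G) (hz : Cfsg.IsIsolatedInvolution z) (N : Subgroup G) [N.Normal] (hzN : z ∉ N) : Subgroup.centralizer ({(QuotientGroup.mk z : G ⧸ N)} : Set (G ⧸ N)) = (Subgroup.centralizer ({z} : Set G)).map (QuotientGroup.mk' N) ∧ Cfsg.IsIsolatedInvolution (QuotientGroup.mk z : G ⧸ N) := by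
  have h1 := CfsgL0.inv_mul_self hz.1
  have hz2 : orderOf (QuotientGroup.mk z : G ⧸ N) = 2 := by
    refine CfsgL0.orderOf_two_iff.2 ⟨by rw [← QuotientGroup.mk_mul, h1]; rfl, ?_⟩
    rwa [Ne, QuotientGroup.eq_one_iff]
  refine ⟨?_, hz2, ?_⟩
  · ext x
    obtain ⟨g, rfl⟩ := QuotientGroup.mk_surjective x
    rw [Subgroup.mem_centralizer_singleton_iff]
    constructor
    · intro h
      obtain ⟨k, hk⟩ := CfsgL0.isolated_exists_pow_conj hz (isConj_iff.2 ⟨g, rfl⟩) (IsConj.refl z)
      have hN : g * z * g⁻¹ * z ∈ N := by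
        rw [← QuotientGroup.eq_one_iff]
        simp only [QuotientGroup.mk_mul, QuotientGroup.mk_inv]
        rw [h, mul_inv_cancel_right, CfsgL0.inv_mul_self hz2]
      refine ⟨(g * z * g⁻¹ * z) ^ k * g, ?_, ?_⟩
      · rw [SetLike.mem_coe, Subgroup.mem_centralizer_singleton_iff]
        generalize (g * z * g⁻¹ * z) ^ k = c at hk
        calc c * g * z = c * (g * z * g⁻¹) * c⁻¹ * (c * g) := by group
          _ = _ := by rw [hk]
      · simp only [QuotientGroup.mk'_apply, QuotientGroup.mk_mul]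
        rw [(QuotientGroup.eq_one_iff _).2 (N.pow_mem hN k), one_mul]
    · rintro ⟨c, hc, h⟩
      rw [← h, QuotientGroup.mk'_apply, ← QuotientGroup.mk_mul, ← QuotientGroup.mk_mul,
        Subgroup.mem_centralizer_singleton_iff.1 hc]
  · intro x hc
    obtain ⟨g, rfl⟩ := QuotientGroup.mk_surjective x
    have ho := (CfsgL0.isolated_odd hz (IsConj.refl z) (isConj_iff.2 ⟨g, rfl⟩)).of_dvd_nat
      (orderOf_map_dvd (QuotientGroup.mk' N) _)
    have h2 := CfsgL0.inv_mul_self hz2
    have h3 := CfsgL0.eq_one_of_odd_of_mul_self ho (by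
      simp only [map_mul, map_inv, QuotientGroup.mk'_apply]
      rw [← pow_two, hc.mul_pow, pow_two, pow_two, h2, CfsgL0.conj_mul_self h2, one_mul])
    simp only [map_mul, map_inv, QuotientGroup.mk'_apply] at h3
    rw [eq_inv_of_mul_eq_one_right h3, CfsgL0.inv_inv_eq hz2]

end Cfsg.Agent.S1181
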