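import Cfsg.Statements.S1182
import Mathlib
import Cfsg.Agent.L0.Isolated

set_option autoImplicit false
open Cfsg

namespace Cfsg.Agent.S1182

/-- Let z be an isolated involution of the finite group G and H a subgroup normalized by z. If x, y ∈ H both commute with z and y = h x h⁻¹ for some h ∈ H, then y = c x c⁻¹ for some c ∈ H commuting with z. -/
theorem result {G : Type*} [Group G] [Finite G] (z : G) (hz : Cfsg.IsIsolatedInvolution z) (H : Subgroup G) (hzH : z ∈ Subgroup.normalizer (H : Set G)) (x y : G) (hx : x ∈ H) (hy : y ∈ H) (hxz : Commute x z) (hyz : Commute y z) (h : G) (hh : h ∈ H) (hconj : h * x * h⁻¹ = y) : ∃ c ∈ H, Commute c z ∧ c * x * c⁻¹ = y := by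
  obtain ⟨k, hk⟩ := CfsgL0.isolated_exists_pow_conj hz (IsConj.refl z)
    (isConj_iff.2 ⟨h⁻¹, rfl⟩)
  rw [inv_inv] at hk
  have hH : z * (h⁻¹ * z * h) ∈ H := by
    have := CfsgL0.conj_mem_of_mem_normalizer hzH (H.inv_mem hh)
    rw [CfsgL0.inv_inv_eq hz.1] at this
    simpa only [mul_assoc] using H.mul_mem this hh
  have hc : Commute (z * (h⁻¹ * z * h)) x := by
    refine hxz.symm.mul_left ?_
    have := hyz.symm.map (MulAut.conj h⁻¹)
    simp only [MulAut.conj_apply, inv_inv, ← hconj] at this
    simpa [mul_assoc] using this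
  set c := (z * (h⁻¹ * z * h)) ^ k with hcdef
  refine ⟨h * c, H.mul_mem hh (H.pow_mem hH k), ?_, ?_⟩
  · calc h * c * z = h * (c * z * c⁻¹) * c := by group
      _ = z * (h * c) := by rw [hk]; group
  · have : Commute c x := hc.pow_left k
    rw [← hconj, mul_assoc h c, this.eq]; group

end Cfsg.Agent.S1182
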