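import Cfsg.Statements.S1183
import Mathlib
import Cfsg.Agent.H4.ZS2

set_option autoImplicit false
open Cfsg

open Cfsg CfsgH2 CfsgH4 Subgroup

namespace Cfsg.Agent.S1183

/-- Let z be an isolated involution of the finite group G and C = C_G(z). Then the subgroup of G generated by its elements of odd order is all of G if and only if the subgroup of C generated by its elements of odd order is all of C. -/
theorem result {G : Type*} [Group G] [Finite G] (z : G) (hz : Cfsg.IsIsolatedInvolution z) : Cfsg.pResidual 2 G = ⊤ ↔ Cfsg.pResidual 2 ↥(Subgroup.centralizer ({z} : Set G)) = ⊤ := by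
  have h1 := (inZStar_of_isolated hz).sup_eq ⟨1, hz.1⟩
  have h2 : pPrimeCore 2 G ≤ piRes {2} ⊤ :=
    le_piRes le_top ((piN_compl_singleton Nat.prime_two).2 not_dvd_pPrimeCore)
  have h3 : pResidual 2 C1[z] = ⊤ ↔ piRes {2} C1[z] = C1[z] := by
    rw [← map_pResidual, ← map_subtype_inj, ← MonoidHom.range_eq_map, range_subtype]
  rw [h3, pResidual_eq]
  refine ⟨fun h => le_antisymm piRes_le fun x hx => ?_, fun h => ?_⟩
  · have h7 : C1[z].map (QuotientGroup.mk' (pPrimeCore 2 G)) =
        (⊤ : Subgroup G).map (QuotientGroup.mk' (pPrimeCore 2 G)) := by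
      rw [← h1, Subgroup.map_sup,
        (Subgroup.map_eq_bot_iff _).2 (QuotientGroup.ker_mk' _).ge, bot_sup_eq]
    have h8 := mem_map_of_mem (QuotientGroup.mk' (pPrimeCore 2 G))
      (show x ∈ piRes {2} ⊤ by rw [h]; trivial)
    rw [map_piRes, ← h7, ← map_piRes] at h8
    obtain ⟨y, hy, h9⟩ := h8
    have h10 : y⁻¹ * x ∈ pPrimeCore 2 G := QuotientGroup.eq.1 h9
    have h11 := mem_piRes (π := {2}) (mul_mem (inv_mem (piRes_le hy)) hx)
      ((piN_compl_singleton Nat.prime_two).2 fun e => not_dvd_pPrimeCore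
        (e.trans (orderOf_dvd_natCard _ h10)))
    simpa using mul_mem hy h11
  · have h4 : piRes {2} C1[z] ≤ piRes {2} ⊤ := piRes_mono le_top
    rw [h] at h4
    exact eq_top_iff.2 (h1.ge.trans (sup_le h2 h4))

end Cfsg.Agent.S1183
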