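import Cfsg.Statements.S1184
import Mathlib
import Cfsg.Agent.L0.Isolated

set_option autoImplicit false
open Cfsg

namespace Cfsg.Agent.S1184

/-- Let z be an isolated involution of the finite group G. If s and t are distinct conjugates of z, then st does not commute with z. -/
theorem result {G : Type*} [Group G] [Finite G] (z : G) (hz : Cfsg.IsIsolatedInvolution z) (g h : G) (hne : g * z * g⁻¹ ≠ h * z * h⁻¹) : ¬ Commute (g * z * g⁻¹ * (h * z * h⁻¹)) z := by
  intro hc
  have hs : IsConj z (g * z * g⁻¹) := isConj_iff.2 ⟨g, rfl⟩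
  have ht : IsConj z (h * z * h⁻¹) := isConj_iff.2 ⟨h, rfl⟩
  generalize g * z * g⁻¹ = s at *
  generalize h * z * h⁻¹ = t at *
  have hs2 : orderOf s = 2 := (CfsgL0.orderOf_isConj hs).trans hz.1
  have ht2 : orderOf t = 2 := (CfsgL0.orderOf_isConj ht).trans hz.1
  have hinv := CfsgL0.left_inverts_mul (CfsgL0.inv_mul_self hs2) (CfsgL0.inv_mul_self ht2)
  have ho := CfsgL0.isolated_odd hz hs ht
  set r := s * t
  obtain ⟨k, hk⟩ := CfsgL0.isolated_exists_pow_conj hz (IsConj.refl z) hs
  have hzC : z ∈ Subgroup.centralizer (Subgroup.zpowers r : Set G) := by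
    rintro _ ⟨n, rfl⟩; exact (hc.zpow_left n).eq
  have hsN : s ∈ Subgroup.normalizer (Subgroup.zpowers r : Set G) := by
    rw [CfsgL0.mem_normalizer_iff_cj, CfsgL0.cj_zpowers, hinv, Subgroup.zpowers_inv]
  have hkN := CfsgL0.mem_normalizer_iff_cj.1 (Subgroup.pow_mem _ (Subgroup.mul_mem _
    (Subgroup.centralizer_le_normalizer _ hzC) hsN) k)
  have : s ∈ Subgroup.centralizer (Subgroup.zpowers r : Set G) := by
    rw [← hkN, ← CfsgL0.cj_centralizer]
    have := CfsgL0.conj_mem_cj (g := (z * s) ^ k).2 hzC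
    rwa [hk] at this
  have h2 : r * s = s * r := this r (Subgroup.mem_zpowers r)
  rw [← h2, mul_inv_cancel_right] at hinv
  have h3 := CfsgL0.eq_one_of_odd_of_mul_self ho (by nth_rewrite 1 [hinv]; exact inv_mul_cancel r)
  apply hne
  rw [eq_inv_of_mul_eq_one_left h3, CfsgL0.inv_inv_eq ht2]

end Cfsg.Agent.S1184
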