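import Cfsg.Statements.S1185
import Mathlib
import Cfsg.Agent.L0.Isolated

set_option autoImplicit false
open Cfsg

namespace Cfsg.Agent.S1185

/-- Let z be an isolated involution of the finite group G with centralizer C. Then for every g ∈ G there is exactly one element k in the coset gC that has odd order and is inverted by z. -/
theorem result {G : Type*} [Group G] [Finite G] (z : G) (hz : Cfsg.IsIsolatedInvolution z) (g : G) : ∃! k : G, (Odd (orderOf k) ∧ z * k * z⁻¹ = k⁻¹) ∧ g⁻¹ * k ∈ Subgroup.centralizer ({z} : Set G) := by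
  have hv : IsConj z (g * z * g⁻¹) := isConj_iff.2 ⟨g, rfl⟩
  obtain ⟨k, hk⟩ := CfsgL0.isolated_exists_pow_conj hz (IsConj.refl z) hv
  have h1 := CfsgL0.inv_mul_self hz.1
  have key : ∀ k : G, (Odd (orderOf k) ∧ z * k * z⁻¹ = k⁻¹) ∧ g⁻¹ * k ∈ Subgroup.centralizer ({z} : Set G) →
      k * k = g * z * g⁻¹ * z⁻¹ := by
    rintro k ⟨⟨-, h2⟩, h3⟩
    rw [Subgroup.mem_centralizer_singleton_iff] at h3
    have h4 : k * z * k⁻¹ = g * z * g⁻¹ := by
      calc k * z * k⁻¹ = g * (g⁻¹ * k * z) * k⁻¹ := by group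
        _ = g * (z * (g⁻¹ * k)) * k⁻¹ := by rw [h3]
        _ = _ := by group
    rw [← h4, ← h2]
    calc k * k = k * (z * z) * k * (z * z)⁻¹ := by rw [h1]; group
      _ = _ := by group
  have hex : (Odd (orderOf ((z * (g * z * g⁻¹)) ^ k)) ∧ z * (z * (g * z * g⁻¹)) ^ k * z⁻¹ = ((z * (g * z * g⁻¹)) ^ k)⁻¹) ∧
      g⁻¹ * (z * (g * z * g⁻¹)) ^ k ∈ Subgroup.centralizer ({z} : Set G) := by
    refine ⟨⟨CfsgL0.odd_orderOf_pow (CfsgL0.isolated_odd hz (IsConj.refl z) hv) k,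
      CfsgL0.conj_pow_of_inverts (CfsgL0.left_inverts_mul h1 (CfsgL0.conj_mul_self h1 g)) k⟩, ?_⟩
    rw [Subgroup.mem_centralizer_singleton_iff]
    generalize (z * (g * z * g⁻¹)) ^ k = c at hk
    calc g⁻¹ * c * z = g⁻¹ * (c * z * c⁻¹) * c := by group
      _ = _ := by rw [hk]; group
  refine ⟨_, hex, fun k' hk' => ?_⟩
  exact CfsgL0.eq_of_sq_eq_of_odd hk'.1.1 hex.1.1 ((key _ hk').trans (key _ hex).symm)

end Cfsg.Agent.S1185
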