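import Cfsg.Statements.S1186
import Mathlib
import Cfsg.Agent.H4.ZS2

set_option autoImplicit false
open Cfsg

open Cfsg CfsgH2 CfsgH4 Subgroup

namespace Cfsg.Agent.S1186

/-- Let z be an isolated involution of the finite group G, C = C_G(z), K the set of elements of odd order inverted by z, and s an involution of C. Then |G| = |C| · |C_K(sz)| · |C_K(s)|. -/
theorem result {G : Type*} [Group G] [Finite G] (z : G) (hz : Cfsg.IsIsolatedInvolution z) (s : G) (hs : orderOf s = 2) (hsz : Commute s z) : Nat.card G = Nat.card (Subgroup.centralizer ({z} : Set G)) * Nat.card {k : G // Odd (orderOf k) ∧ z * k * z⁻¹ = k⁻¹ ∧ Commute k (s * z)} * Nat.card {k : G // Odd (orderOf k) ∧ z * k * z⁻¹ = k⁻¹ ∧ Commute k s} := by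
  have z2 := CfsgL0.inv_mul_self hz.1
  have s2 := CfsgL0.inv_mul_self hs
  have e1 : ∀ a, Commute z a → Nat.card {k : G // Odd (orderOf k) ∧ z * k * z⁻¹ = k⁻¹ ∧ Commute k a}
      = Nat.card {t : G // IsConj z t ∧ Commute t a} := fun a ha => by
    have := card_conj_eq_card_inv hz (mem_centralizer_singleton_iff.2 ha)
    simp only [mem_centralizer_singleton_iff] at this
    exact this.symm
  rw [e1 _ (hsz.symm.mul_right (Commute.refl z)), e1 _ hsz.symm, ← CfsgL0.card_isConj_mul z,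
    mul_comm, mul_assoc]
  congr 1
  by_cases hc : IsConj z s
  · obtain rfl := CfsgL0.isolated_eq_of_commute hz hc (IsConj.refl z) hsz
    have : Nat.card {t : G // IsConj s t ∧ Commute t s} = 1 := Nat.card_eq_one_iff_exists.2
      ⟨⟨s, IsConj.refl s, Commute.refl s⟩, fun t => Subtype.ext
        (CfsgL0.isolated_eq_of_commute hz t.2.1 (IsConj.refl s) t.2.2)⟩
    simp only [this, z2, mul_one, Commute.one_right, and_true]
  have key : ∀ t, IsConj z t → ∃ u, (IsConj z u ∧ Commute u s) ∧ Commute t (s * u) ∧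
      ∀ v, IsConj z v → Commute v s → Commute t (s * v) → v = u := fun t ht => by
    have t2 := CfsgL0.inv_mul_self ((CfsgL0.orderOf_isConj ht).trans hz.1)
    obtain ⟨j, hj⟩ := CfsgL0.isolated_order_of_not_conj hz ht hs hc
    obtain ⟨a1, a2, a3⟩ := CfsgL0.half_power s2 t2 (by omega) hj
    refine ⟨s * (s * t) ^ (2 * j + 1), ⟨ht.trans (isConj_iff.2 ⟨((s * t) ^ j)⁻¹, by
      rw [inv_inv, CfsgL0.conj_right_of_odd s2 t2]⟩), (Commute.refl s).mul_left a2⟩,
      by rw [← mul_assoc, s2, one_mul]; exact a3.symm, fun v hv h1 h2 => ?_⟩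
    have v2 := CfsgL0.inv_mul_self ((CfsgL0.orderOf_isConj hv).trans hz.1)
    have h3 : Commute (s * v) (v * t) := ((h1.symm.mul_left (Commute.refl v))).mul_right h2.symm
    have h4 : s * t = s * v * (v * t) := by rw [mul_assoc, ← mul_assoc v, v2, one_mul]
    have h5 : s * v * (s * v) = 1 := by rw [h1.mul_mul_mul_comm, s2, v2, one_mul]
    have h6 : ((v * t) ^ (2 * j + 1)) = 1 := by
      refine CfsgL0.eq_one_of_odd_of_mul_self
        (CfsgL0.odd_orderOf_pow (CfsgL0.isolated_odd hz hv ht) _) ?_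
      have := pow_orderOf_eq_one (s * t)
      rwa [hj, h4, h3.mul_pow, pow_mul, pow_two, h5, one_pow, one_mul, two_mul, pow_add] at this
    rw [h4, h3.mul_pow, h6, mul_one, pow_succ, pow_mul, pow_two, h5, one_pow, one_mul, ← mul_assoc,
      s2, one_mul]
  choose f hf using key
  rw [mul_comm]
  refine CfsgL0.card_eq_of_fibers (fun t : {y // IsConj z y} =>
    (⟨f t t.2, (hf t t.2).1⟩ : {t : G // IsConj z t ∧ Commute t s})) _ fun u => ?_
  obtain ⟨k, hk, h1⟩ := exists_conj_in hz (mem_centralizer_singleton_iff.2 hsz.symm)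
    (mem_centralizer_singleton_iff.2 u.2.2) u.2.1
  have h2 : k * (s * z) * k⁻¹ = s * u := by
    rw [← h1, ← mul_assoc, mem_centralizer_singleton_iff.1 hk]; group
  refine Nat.card_congr ⟨fun t => ⟨k⁻¹ * t.1.1 * k, t.1.2.trans (isConj_iff.2 ⟨k⁻¹, by simp⟩), ?_⟩,
    fun t => ⟨⟨k * t * k⁻¹, t.2.1.trans (isConj_iff.2 ⟨k, rfl⟩)⟩, Subtype.ext
      ((hf _ _).2.2 u u.2.1 u.2.2 (h2 ▸ t.2.2.conj k)).symm⟩,
    fun t => Subtype.ext (Subtype.ext (by simp [mul_assoc])), fun t => Subtype.ext (by simp [mul_assoc])⟩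
  have h3 := (hf t.1.1 t.1.2).2.1
  rw [show f t.1.1 t.1.2 = u from congrArg Subtype.val t.2, ← h2] at h3
  simpa [mul_assoc] using h3.conj k⁻¹

end Cfsg.Agent.S1186
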