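import Cfsg.Statements.S1187
import Mathlib
import Cfsg.Agent.H4.ZS2

set_option autoImplicit false
open Cfsg

open Cfsg CfsgH2 CfsgH4 Subgroup

namespace Cfsg.Agent.S1187

/-- Let z be an isolated involution of the finite group G and p a prime. If Q is a p-subgroup normalized by z that is maximal among p-subgroups normalized by z, then Q is a Sylow p-subgroup of G. -/
theorem result {G : Type*} [Group G] [Finite G] (z : G) (hz : Cfsg.IsIsolatedInvolution z) {p : ℕ} [Fact p.Prime] (Q : Subgroup G) (hQ : IsPGroup p Q) (hzQ : z ∈ Subgroup.normalizer (Q : Set G)) (hmax : ∀ R : Subgroup G, IsPGroup p R → z ∈ Subgroup.normalizer (R : Set G) → Q ≤ R → R = Q) : ∃ P : Sylow p G, (P : Subgroup G) = Q := by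
  by_cases hp : p = 2
  · subst hp
    have h1 : IsPGroup 2 (Q ⊔ zpowers z : Subgroup G) := isPGroup_sup hQ
      (isPGroup_zpowers_of_pelt ⟨1, hz.1⟩) (Or.inr (zpowers_le.2 hzQ))
    obtain ⟨P, hP⟩ := h1.exists_le_sylow
    exact ⟨P, hmax P P.2 (le_normalizer (hP (mem_sup_right (mem_zpowers z))))
      (le_sup_left.trans hP)⟩
  obtain ⟨R, hR⟩ := exists_syl (p := p) C1[(⟨z, hzQ⟩ : N[Q])]
  obtain ⟨P, h1, -, h3⟩ := exists_invariant_syl (isolated_subgroup hz hzQ) hp hR
  have h4 : Syl p (P.map (N[Q]).subtype) N[Q] := by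
    simpa [← MonoidHom.range_eq_map] using h1.map (N[Q]).subtype
  have h5 := hmax _ h4.pg (le_normalizer_map _ (mem_map_of_mem (N[Q]).subtype h3))
    (h4.le_of_norm hQ le_normalizer h4.le)
  rw [h5] at h4
  exact (Syl.of_norm le_top (by rwa [top_inf_eq])).exists_top

end Cfsg.Agent.S1187
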