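import Cfsg.Statements.S1222
import Cfsg.Agent.H3.RO11

set_option autoImplicit false
open Cfsg

namespace Cfsg.Agent.S1222
open CfsgH3
open CfsgRO

/-- Let G be a finite simple group with a strongly embedded subgroup H such that H permutes transitively the cosets gH with g ∉ H, and H has a normal subgroup Q acting regularly on those cosets (transitively, with only the identity fixing any of them). Then G is isomorphic to PSL(2,F) with F of characteristic 2 and at least 4 elements, or is simple with the order of a Suzuki group, or is isomorphic to PSU(3) over a field with q² elements, q ≥ 4 a power of 2. -/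
theorem result {G : Type*} [Group G] [Finite G] [IsSimpleGroup G] (H : Subgroup G) (hH : Cfsg.IsStronglyEmbedded H) (Q : Subgroup G) (hQH : Q ≤ H) (hQn : (Q.subgroupOf H).Normal) (htrans : ∀ g₁ g₂ : G, g₁ ∉ H → g₂ ∉ H → ∃ u ∈ Q, g₂⁻¹ * (u * g₁) ∈ H) (hreg : ∀ g : G, g ∉ H → ∀ u ∈ Q, g⁻¹ * (u * g) ∈ H → u = 1) : (∃ (F : Type) (_ : Field F) (_ : Fintype F), CharP F 2 ∧ 4 ≤ Fintype.card F ∧ Nonempty (G ≃* Matrix.ProjectiveSpecialLinearGroup (Fin 2) F)) ∨ Cfsg.IsSuzuki G ∨ (∃ (F : Type) (_ : Field F) (_ : Fintype F) (q : ℕ), Fintype.card F = q ^ 2 ∧ Even q ∧ 4 ≤ q ∧ Nonempty (G ≃* Cfsg.PSU 3 F q)) := by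
  have hn : H ≤ Subgroup.normalizer (Q : Set G) := (Subgroup.normal_subgroupOf_iff_le_normalizer hQH).1 hQn
  rcases tri_of_se hH hQH hn htrans hreg with ⟨F, _, _, ⟨n, hn, h1⟩, h2⟩ | h1 | ⟨F, _, _, n, hn, h1, h2⟩
  · refine Or.inl ⟨F, inferInstance, inferInstance, ?_, ?_, h2⟩
    · have : Fact (Nat.Prime 2) := ⟨Nat.prime_two⟩
      exact charP_of_card_eq_prime_pow h1
    · rw [h1]; exact Nat.pow_le_pow_right (show 0 < 2 by omega) hn
  · exact Or.inr (Or.inl h1.2)
  · refine Or.inr (Or.inr ⟨F, _, _, 2 ^ n, h1, Nat.even_pow.2 ⟨even_two, by omega⟩, ?_, h2⟩)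
    exact Nat.pow_le_pow_right (show 0 < 2 by omega) hn


end Cfsg.Agent.S1222
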