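import Cfsg.Statements.S1224
import Mathlib
import Cfsg.Agent.L0.StrEmb

set_option autoImplicit false
open Cfsg

namespace Cfsg.Agent.S1224

theorem card_coset {G : Type*} [Group G] [Finite G] (H : Subgroup G) (hH : Cfsg.IsStronglyEmbedded H)
    (g : G) (hg : g ∉ H) : Nat.card {i : G // orderOf i = 2 ∧ g⁻¹ * i ∈ H} = Nat.card {t : G // orderOf t = 2 ∧ t ∈ H} := by
  obtain ⟨t, ht, ho⟩ := (CfsgL0.se_iff.1 hH).2.1
  refine Nat.card_eq_of_bijective (fun i => ⟨g⁻¹ * i.1 * t * (g⁻¹ * i.1)⁻¹,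
    by rw [CfsgL0.orderOf_conj, ho], H.mul_mem (H.mul_mem i.2.2 ht) (H.inv_mem i.2.2)⟩) ⟨?_, ?_⟩
  · rintro ⟨v, hv, hv'⟩ ⟨w, hw, hw'⟩ e
    simp only [Subtype.mk.injEq] at e ⊢
    have hvH : v ∉ H := fun h => hg (by simpa using H.inv_mem ((H.mul_mem_cancel_right h).1 hv'))
    refine CfsgL0.se_unique_invol hH ht ho hvH hv hw ?_
    nth_rewrite 1 [← CfsgL0.inv_inv_eq hv]
    calc v⁻¹ * w * t = v⁻¹ * g * (g⁻¹ * w * t * (g⁻¹ * w)⁻¹) * (g⁻¹ * w) := by group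
      _ = t * (v⁻¹ * w) := by rw [← e]; group
  · rintro ⟨s, hs, hsH⟩
    have h1 : g * s * g⁻¹ ∉ H := fun h => hg (CfsgL0.se_mem hH hsH hs h)
    have h2 : orderOf (g * s * g⁻¹) = 2 := by rw [CfsgL0.orderOf_conj, hs]
    obtain ⟨v, hv, hvs, -⟩ := CfsgL0.exists_invol_conj_of_odd ho h2 (CfsgL0.se_odd hH ht ho h1 h2)
    have e : g⁻¹ * v * t * (g⁻¹ * v)⁻¹ = s := by
      calc g⁻¹ * v * t * (g⁻¹ * v)⁻¹ = g⁻¹ * (v * t * v⁻¹) * g := by group
        _ = s := by rw [hvs]; group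
    exact ⟨⟨v, hv, CfsgL0.se_mem hH ht ho (e ▸ hsH)⟩, Subtype.ext e⟩

/-- Let H be a strongly embedded subgroup of the finite group G and x ≠ y two cosets in G/H. Then the number of involutions i of G with i • x = y equals the number of involutions lying in H. -/
theorem result {G : Type*} [Group G] [Finite G] (H : Subgroup G) (hH : Cfsg.IsStronglyEmbedded H) (x y : G ⧸ H) (hxy : x ≠ y) : Nat.card {i : G // orderOf i = 2 ∧ i • x = y} = Nat.card {t : G // orderOf t = 2 ∧ t ∈ H} := by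
  obtain ⟨a, rfl⟩ := QuotientGroup.mk_surjective x
  obtain ⟨b, rfl⟩ := QuotientGroup.mk_surjective y
  rw [← card_coset H hH (a⁻¹ * b) (fun h => hxy (QuotientGroup.eq.2 h))]
  refine Nat.card_congr (Equiv.subtypeEquiv (MulAut.conj a⁻¹).toEquiv fun i => ?_)
  refine and_congr (by rw [← (MulAut.conj a⁻¹).orderOf_eq i]; rfl) ?_
  rw [MulAction.Quotient.smul_mk, smul_eq_mul, eq_comm, QuotientGroup.eq]
  simp [mul_assoc]

end Cfsg.Agent.S1224
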