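import Cfsg.Statements.S1226
import Mathlib
import Cfsg.Agent.L0.StrEmb
import Cfsg.Agent.S0231

set_option autoImplicit false
open Cfsg

namespace Cfsg.Agent.S1226

theorem eq_centralizer {G : Type*} [Group G] [Finite G] (T : Sylow 2 G) (hb : (T : Subgroup G) ≠ ⊥) (hC : ∀ t : G, orderOf t = 2 → IsMulCommutative (Subgroup.centralizer ({t} : Set G)) ∧ ∀ c ∈ Subgroup.centralizer ({t} : Set G), c ^ 2 = 1) (t : G) (ht : t ∈ (T : Subgroup G)) (h1 : t ≠ 1) :
    orderOf t = 2 ∧ Subgroup.centralizer ({t} : Set G) = T := by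
  haveI : Nontrivial (T : Subgroup G) := (Subgroup.nontrivial_iff_ne_bot _).2 hb
  have hZ := T.isPGroup'.center_nontrivial
  obtain ⟨z, hz, hzo⟩ := CfsgL0.exists_orderOf_prime_of_ne_bot (p := 2)
    (X := Subgroup.center (T : Subgroup G)) (T.isPGroup'.to_subgroup _)
    ((Subgroup.nontrivial_iff_ne_bot _).1 hZ)
  have hzo' : orderOf (z : G) = 2 := by rw [Subgroup.orderOf_coe, hzo]
  have hT : (T : Subgroup G) ≤ Subgroup.centralizer ({(z : G)} : Set G) := fun x hx =>
    Subgroup.mem_centralizer_singleton_iff.2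
      (congrArg Subtype.val (Subgroup.mem_center_iff.1 hz ⟨x, hx⟩))
  have ho : orderOf t = 2 := orderOf_eq_prime ((hC z hzo').2 t (hT ht)) h1
  refine ⟨ho, T.is_maximal' (CfsgL0.isPGroup_of_forall fun x hx => ⟨1, (hC t ho).2 x hx⟩) ?_⟩
  intro x hx
  exact Subgroup.mem_centralizer_singleton_iff.2
    (congrArg Subtype.val ((hC z hzo').1.1.1 ⟨x, hT hx⟩ ⟨t, hT ht⟩))

theorem ti {G : Type*} [Group G] [Finite G] (T : Sylow 2 G) (hb : (T : Subgroup G) ≠ ⊥) (hC : ∀ t : G, orderOf t = 2 → IsMulCommutative (Subgroup.centralizer ({t} : Set G)) ∧ ∀ c ∈ Subgroup.centralizer ({t} : Set G), c ^ 2 = 1) (g : G) (hg : CfsgL0.cj g T ≠ T) : CfsgL0.cj g T ⊓ T = ⊥ := by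
  rw [eq_bot_iff]
  rintro x ⟨h1, h2⟩
  by_contra hx
  apply hg
  have a := (eq_centralizer (g • T) (by rwa [CfsgL0.coe_smul_sylow, Ne, CfsgL0.cj_eq_bot_iff]) hC x h1 hx).2
  exact a.symm.trans (eq_centralizer T hb hC x h2 hx).2

/-- Let G be a finite group with a Sylow 2-subgroup T that is neither cyclic nor normal, such that the centralizer of every involution is an elementary abelian 2-group. Then N_G(T) is a strongly embedded subgroup of G. -/
theorem result {G : Type*} [Group G] [Finite G] (T : Sylow 2 G) (hnc : ¬ IsCyclic (T : Subgroup G)) (hnn : ¬ (T : Subgroup G).Normal) (hC : ∀ t : G, orderOf t = 2 → IsMulCommutative (Subgroup.centralizer ({t} : Set G)) ∧ ∀ c ∈ Subgroup.centralizer ({t} : Set G), c ^ 2 = 1) : Cfsg.IsStronglyEmbedded (Subgroup.normalizer ((T : Subgroup G) : Set G)) := by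
  exact Cfsg.Agent.S0231.se T hnn (ti T (fun h => hnn (h ▸ inferInstance)) hC)

end Cfsg.Agent.S1226
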