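import Mathlib
import Cfsg.Statements.S1228
import Cfsg.Agent.H8.Za4

set_option autoImplicit false
open Cfsg

namespace Cfsg.Agent.S1228

open CfsgH8.Za CfsgH2 Subgroup

/-- Let G be a finite group with a Sylow 2-subgroup T that is neither cyclic nor normal, such that the centralizer of every involution is an elementary abelian 2-group; put H = N_G(T), let u be an involution outside H and D = H ∩ uHu⁻¹. Then N_G(D) = D ⊔ ⟨u⟩, and a coset gH is fixed by every element of D exactly when gH = H or gH = uH. -/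
theorem result {G : Type*} [Group G] [Finite G] (T : Sylow 2 G) (hnc : ¬ IsCyclic (T : Subgroup G)) (hnn : ¬ (T : Subgroup G).Normal) (hC : ∀ t : G, orderOf t = 2 → IsMulCommutative (Subgroup.centralizer ({t} : Set G)) ∧ ∀ c ∈ Subgroup.centralizer ({t} : Set G), c ^ 2 = 1) (u : G) (hu : orderOf u = 2) (huH : u ∉ Subgroup.normalizer ((T : Subgroup G) : Set G)) : Subgroup.normalizer ((Subgroup.normalizer ((T : Subgroup G) : Set G) ⊓ (Subgroup.normalizer ((T : Subgroup G) : Set G)).map (MulAut.conj u).toMonoidHom : Subgroup G) : Set G) = (Subgroup.normalizer ((T : Subgroup G) : Set G) ⊓ (Subgroup.normalizer ((T : Subgroup G) : Set G)).map (MulAut.conj u).toMonoidHom) ⊔ Subgroup.zpowers u ∧ ∀ g : G, ((∀ d ∈ Subgroup.normalizer ((T : Subgroup G) : Set G) ⊓ (Subgroup.normalizer ((T : Subgroup G) : Set G)).map (MulAut.conj u).toMonoidHom, d • (QuotientGroup.mk g : G ⧸ Subgroup.normalizer ((T : Subgroup G) : Set G)) = QuotientGroup.mk g) ↔ (QuotientGroup.mk g : G ⧸ Subgroup.normalizer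 ((T : Subgroup G) : Set G)) = QuotientGroup.mk 1 ∨ (QuotientGroup.mk g : G ⧸ Subgroup.normalizer ((T : Subgroup G) : Set G)) = QuotientGroup.mk u) := by
  obtain ⟨z, y, h, hy, oy, yz, h2⟩ := tc_of_elem T hnc hnn hC
  rw [cj_def, ← TC.HH_eq]
  have F := h.frob hy oy yz hu huH
  have Z := h.zk hy oy yz hu huH
  have h0 := F.comp_ne
  rw [← TC.HH_eq] at h0
  have u1 : u • ((1 : G) : G ⧸ N[(T : Subgroup G)]) = u := by rw [TC.smul_mk, mul_one]
  have u2 : u • (u : G ⧸ N[(T : Subgroup G)]) = (1 : G) := by rw [TC.smul_mk, sq_of_ord hu]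
  refine ⟨le_antisymm (fun g hg => ?_) (sup_le le_normalizer (zpowers_le.2 (swap_norm u1 u2))),
    fun g => ⟨fun e => ?_, ?_⟩⟩
  · rcases Z.toZT.mem_norm Z.ne le_rfl h0 hg with e | e
    · exact mem_sup_left e
    · rw [← mul_inv_cancel_left u g]
      exact mul_mem (mem_sup_right (mem_zpowers u)) (mem_sup_left (swap_swap u1 u2 e.1 e.2))
  · obtain ⟨⟨d, hd⟩, d1⟩ := ne_bot_iff_exists_ne_one.1 h0
    exact Z.toZT.fix_H Z.ne hd (fun e => d1 (Subtype.ext e)) (e d hd)
  · rintro (e | e) d hd <;> rw [e]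
    exacts [hd.1, hd.2]

end Cfsg.Agent.S1228
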