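import Mathlib
import Cfsg.Statements.S1229
import Cfsg.Agent.H8.Za4

set_option autoImplicit false
open Cfsg

namespace Cfsg.Agent.S1229

open CfsgH8.Za CfsgH2 Subgroup

/-- Let G be a finite group with a Sylow 2-subgroup T that is neither cyclic nor normal, such that the centralizer of every involution is an elementary abelian 2-group; put H = N_G(T) and X = G/H. Then G is triply transitive on X, an element fixing three distinct points of X is the identity, and T acts regularly on X minus the point H. -/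
theorem result {G : Type*} [Group G] [Finite G] (T : Sylow 2 G) (hnc : ¬ IsCyclic (T : Subgroup G)) (hnn : ¬ (T : Subgroup G).Normal) (hC : ∀ t : G, orderOf t = 2 → IsMulCommutative (Subgroup.centralizer ({t} : Set G)) ∧ ∀ c ∈ Subgroup.centralizer ({t} : Set G), c ^ 2 = 1) : (∀ x₁ x₂ x₃ y₁ y₂ y₃ : G ⧸ Subgroup.normalizer ((T : Subgroup G) : Set G), x₁ ≠ x₂ → x₁ ≠ x₃ → x₂ ≠ x₃ → y₁ ≠ y₂ → y₁ ≠ y₃ → y₂ ≠ y₃ → ∃ g : G, g • x₁ = y₁ ∧ g • x₂ = y₂ ∧ g • x₃ = y₃) ∧ (∀ g : G, ∀ x₁ x₂ x₃ : G ⧸ Subgroup.normalizer ((T : Subgroup G) : Set G), x₁ ≠ x₂ → x₁ ≠ x₃ → x₂ ≠ x₃ → g • x₁ = x₁ → g • x₂ = x₂ → g • x₃ = x₃ → g = 1) ∧ (∀ x y : G ⧸ Subgroup.normalizer ((T : Subgroup G) : Set G), x ≠ QuotientGroup.mk 1 → y ≠ QuotientGroup.mk 1 → ∃! t : G, t ∈ T ∧ t • x = y) := by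
  obtain ⟨z, y, h, hy, oy, yz, h2⟩ := tc_of_elem T hnc hnn hC
  obtain ⟨u, hu, huH⟩ := h.exists_out
  have Z := h.zk hy oy yz hu huH
  have s := Z.s3_of_card (by rw [TC.HH_eq, h.card_D hu huH, TC.card_elem h2])
  refine ⟨s.tri, fun g a b c h1 h2 h3 => s.three g a b c h1 h3 h2, fun x y hx hy => ?_⟩
  obtain ⟨t, ht, e⟩ := Z.tr' hx hy
  exact ⟨t, ⟨ht, e⟩, fun k hk => Z.inj hk.1 ht hx (hk.2.trans e.symm)⟩

end Cfsg.Agent.S1229
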