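import Cfsg.Statements.S1231
import Mathlib
import Cfsg.Agent.L0.StrEmb

set_option autoImplicit false
open Cfsg

namespace Cfsg.Agent.S1231

theorem rank_mono {G H : Type*} [Group G] [Group H] {p k : ℕ} (f : G →* H)
    (hf : Function.Injective f) (h : Cfsg.PRankLE p k H) : Cfsg.PRankLE p k G := by
  intro A hA hp
  rw [← Subgroup.card_map_of_injective hf]
  refine h _ inferInstance ?_
  rintro _ ⟨a, ha, rfl⟩
  rw [← map_pow, hp a ha, map_one]

/-- Let H be a subgroup of the finite group G, p a prime, k ≥ 1, and P a Sylow p-subgroup of H whose p-rank is at least k. Then N_G(X) ≤ H for every subgroup X of P of p-rank at least k if and only if H ∩ gHg⁻¹ has p-rank less than k for every g ∉ H. -/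
theorem result {G : Type*} [Group G] [Finite G] {p : ℕ} [Fact p.Prime] (k : ℕ) (hk : 1 ≤ k) (H : Subgroup G) (P : Sylow p ↥H) (hP : ¬ Cfsg.PRankLE p (k - 1) ↥(P : Subgroup ↥H)) : (∀ X : Subgroup G, X ≤ (P : Subgroup ↥H).map H.subtype → ¬ Cfsg.PRankLE p (k - 1) ↥X → Subgroup.normalizer (X : Set G) ≤ H) ↔ (∀ g : G, g ∉ H → Cfsg.PRankLE p (k - 1) ↥(H ⊓ H.map (MulAut.conj g).toMonoidHom)) := by
  constructor
  · intro h g hg A hA hAp
    by_contra hlt
    apply hg
    let B := A.map (H ⊓ H.map (MulAut.conj g).toMonoidHom).subtype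
    have hB : B ≤ H ⊓ CfsgL0.cj g H := Subgroup.map_subtype_le _
    have hBp : IsPGroup p B := CfsgL0.isPGroup_of_forall (by
      rintro _ ⟨a, ha, rfl⟩
      exact ⟨1, by rw [pow_one, ← map_pow, hAp a ha, map_one]⟩)
    have hBr : ¬ Cfsg.PRankLE p (k - 1) B := fun hr => hlt (by
      have := rank_mono (A.equivMapOfInjective _ (Subgroup.subtype_injective _)).toMonoidHom
        (MulEquiv.injective _) hr ⊤ ⟨⟨fun a b => Subtype.ext (hA.1.1 a.1 b.1)⟩⟩
        (fun a _ => Subtype.ext (hAp a.1 a.2))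
      rwa [Subgroup.card_top] at this)
    have := CfsgL0.mem_of_normalizers_le (Subgroup.map_subtype_le _) (P.isPGroup'.map _)
      (CfsgL0.sylow_map_max P) (fun X => ¬ Cfsg.PRankLE p (k - 1) X)
      (fun g X hX hr => hX (rank_mono (CfsgL0.cjEquiv g X).toMonoidHom (MulEquiv.injective _) hr))
      (fun X Y hXY hX hY => hX (rank_mono _ (Subgroup.inclusion_injective hXY) hY)) h
      hBp hBr (hB.trans inf_le_left) (g := g⁻¹)
      (by rw [CfsgL0.cj_le_iff_le_cj, inv_inv]; exact hB.trans inf_le_right)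
    simpa using this
  · intro h X hX hr g hg
    by_contra hn
    have hXH : X ≤ H := hX.trans (Subgroup.map_subtype_le _)
    refine hr (rank_mono _ (Subgroup.inclusion_injective (le_inf hXH ?_)) (h g hn))
    rw [← CfsgL0.mem_normalizer_iff_cj.1 hg]
    exact CfsgL0.cj_mono g hXH

end Cfsg.Agent.S1231
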