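import Cfsg.Statements.S1243
import Mathlib
import Cfsg.Agent.L0.Conj

set_option autoImplicit false
open Cfsg

namespace Cfsg.Agent.S1243

/-- Let T be a Sylow p-subgroup of the finite group G and W ≤ T a subgroup weakly closed in T. If d and g d g⁻¹ both centralize W, then g d g⁻¹ = h d h⁻¹ for some h ∈ N_G(W). -/
theorem result {G : Type*} [Group G] [Finite G] {p : ℕ} [Fact p.Prime] (T : Sylow p G) (W : Subgroup G) (hW : Cfsg.IsWeaklyClosed W (T : Subgroup G)) (d g : G) (hd : d ∈ Subgroup.centralizer (W : Set G)) (hgd : g * d * g⁻¹ ∈ Subgroup.centralizer (W : Set G)) : ∃ h ∈ Subgroup.normalizer (W : Set G), h * d * h⁻¹ = g * d * g⁻¹ := by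
  have hWp : IsPGroup p W := T.isPGroup'.to_le hW.1
  set C := Subgroup.centralizer ({g * d * g⁻¹} : Set G) with hC
  have h1 : W ≤ C := fun w hw => Subgroup.mem_centralizer_singleton_iff.2 (hgd w hw)
  have h2 : CfsgL0.cj g W ≤ C := by
    rw [hC, ← CfsgL0.cj_centralizer_singleton]
    exact CfsgL0.cj_mono g fun w hw => Subgroup.mem_centralizer_singleton_iff.2 (hd w hw)
  obtain ⟨P, hWP, hPC, hP, hmax⟩ := CfsgL0.exists_max_pgroup h1 hWp
  obtain ⟨c, hc, hc'⟩ := CfsgL0.exists_cj_le_of_max hPC hP hmax h2 (CfsgL0.isPGroup_cj hWp g)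
  obtain ⟨k, hk⟩ := CfsgL0.exists_cj_le_sylow T hP
  have a1 : CfsgL0.cj k W = W := hW.2 k ((CfsgL0.cj_mono k hWP).trans hk)
  have a2 : CfsgL0.cj (k * (c * g)) W = W := hW.2 _ (by
    show CfsgL0.cj _ _ ≤ _
    rw [← CfsgL0.cj_cj, ← CfsgL0.cj_cj]; exact (CfsgL0.cj_mono k hc').trans hk)
  refine ⟨c * g, CfsgL0.mem_normalizer_iff_cj.2 (CfsgL0.cj_injective k ?_), ?_⟩
  · rw [CfsgL0.cj_cj, a2, a1]
  · have := Subgroup.mem_centralizer_singleton_iff.1 hc
    calc c * g * d * (c * g)⁻¹ = c * (g * d * g⁻¹) * c⁻¹ := by group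
      _ = _ := by rw [this]; group

end Cfsg.Agent.S1243
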