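import Cfsg.Statements.S1244
import Cfsg.Agent.H1.Misc1
import Cfsg.Agent.H2.BG0
import Cfsg.Agent.H2.Trace

set_option autoImplicit false
open Cfsg

namespace Cfsg.Agent.S1244

/-- Let G be a finite group with no subgroup of index 2 whose Sylow 2-subgroup S is commutative, and let R ≤ S be a subgroup whose 2-rank is exactly one less than the 2-rank r of S. Then every involution of S is conjugate, by an element of N_G(S), to an element of R. -/
theorem result {G : Type*} [Group G] [Finite G] (hG : ∀ H : Subgroup G, H.index ≠ 2) (S : Sylow 2 G) (hS : IsMulCommutative (S : Subgroup G)) (r : ℕ) (hr1 : 1 ≤ r) (hSr : Cfsg.PRankLE 2 r (S : Subgroup G) ∧ ¬ Cfsg.PRankLE 2 (r - 1) (S : Subgroup G)) (R : Subgroup G) (hRS : R ≤ S) (hRr : Cfsg.PRankLE 2 (r - 1) R ∧ (r = 1 ∨ ¬ Cfsg.PRankLE 2 (r - 2) R)) (t : G) (ht : orderOf t = 2) (htS : t ∈ S) : ∃ n ∈ Subgroup.normalizer ((S : Subgroup G) : Set G), n * t * n⁻¹ ∈ R := by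
  open Subgroup CfsgH2 in
  open CfsgH1 hiding card_inf_mul_relIndex card_lt_of_lt card_lt_of_ne_top card_map_mul_card_inf_ker card_mul_relIndex card_subgroupOf card_sup_dvd card_sup_mul_card_inf coprime_le_sup_cent exists_card_prime_le isNilpotent_map isNilpotent_of_le isPGroup_pCore isSolvable_map isSolvable_of_le le_pCore le_pPrimeCore relIndex_map_dvd in
  open scoped CfsgH1 in
  open scoped commutatorElement in
  · classical
    have hP := syl_top S
    have h1 : piRes {2} (⊤ : Subgroup G) = ⊤ := by_contra fun c => by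
      haveI := normal_of_top_le_norm (le_norm_piRes (π := {2}) (M := (⊤ : Subgroup G)))
      haveI := QuotientGroup.nontrivial_iff.2 c
      have : IsPGroup 2 (G ⧸ piRes {2} ⊤) := isPGroup_iff_piN.2 (by rw [← index_eq_card, ← relIndex_top_right]; exact piN_relIndex_piRes)
      obtain ⟨L, -, -, -, h⟩ := exists_maximal_sub (this.to_subgroup ⊤) bot_lt_top
      exact hG _ ((index_comap_of_surjective L (QuotientGroup.mk'_surjective _)).trans (relIndex_top_right L ▸ h))
    have h2 := hP.piRes_inf_abelian hS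
    have h3 := (hall_singleton.2 (hP.mono le_normalizer le_top)).comm_inf_cent hS
    rw [h1, top_inf_eq, top_inf_eq] at h2
    rw [inf_eq_left.2 (h2.le.trans (commutator_mono le_normalizer le_rfl))] at h3
    by_contra! c
    have t2 : t ^ 2 = 1 := ht ▸ pow_orderOf_eq_one t
    have tR : t ∉ R := by simpa using c 1 (one_mem _)
    have hi : (R.subgroupOf (omegaOne 2 S)).index = 2 := by
      obtain ⟨E, e1, e2⟩ := exists_el_of_le (p := 2) (n := r - 1) (H := R) (hRr.2.elim (by omega) fun h => by rw [prankLE_iff] at h; omega)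
      have a1 := card_le_of_prk_le (prankLE_iff.1 hSr.1) (elem_omegaOne hS) omegaOne_le
      have a2 := card_le_of_le (le_inf e1 (elem_le_omegaOne e2.1 (e1.trans hRS)))
      have a3 := card_inf_mul_relIndex R (omegaOne 2 S)
      have a4 : R.relIndex (omegaOne 2 S) ≠ 1 := fun h => tR (relIndex_eq_one.1 h (mem_omegaOne htS t2))
      have a5 := relIndex_pos R (omegaOne 2 S)
      rw [e2.2] at a2
      rw [show r = r - 1 + 1 by omega, pow_succ] at a1
      change R.relIndex _ = 2
      by_contra a6
      have : 3 ≤ R.relIndex (omegaOne 2 S) := by omega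
      nlinarith [Nat.two_pow_pos (r - 1)]
    letI : CommGroup S := { (inferInstance : Group S) with mul_comm := mul_comm' }
    let F : G → S := fun g => if h : g * t * g⁻¹ ∈ S.1 then ⟨_, h⟩ else 1
    have hF : ∀ g ∈ N[S.1], (F g : G) = g * t * g⁻¹ := fun g hg => by simp only [F, dif_pos (conj_mem_of_norm hg htS)]
    have hu : trc N[S.1] C1[t] F = 1 := Subtype.ext (mem_bot.1 (h3 ▸ ⟨(trc _ _ F).2, fun h hh => by
      have e1 := map_trc (H := N[S.1]) (M := C1[t]) (F := F) (S.1.normalizerMonoidHom ⟨h, hh⟩).toMonoidHom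
      replace e1 := (e1.trans (trc_congr (F' := fun g => F (h * g)) fun g hg => Subtype.ext (by
        rw [hF _ (mul_mem hh hg)]; change h * F g * h⁻¹ = _; rw [hF g hg]; group))).trans (trc_shift (fun g hg m hm h1 => Subtype.ext (by
          rw [hF _ (mul_mem hg hm), hF g hg, mul_assoc g m, mem_centralizer_singleton_iff.1 h1]; group)) hh)
      exact mul_inv_eq_iff_eq_mul.1 (congrArg Subtype.val e1)⟩))
    refine absurd ((map_trc (H := N[S.1]) (M := C1[t]) (F := F) (QuotientGroup.mk' (R.subgroupOf S))).trans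
      (trc_congr (F' := fun _ => QuotientGroup.mk' (R.subgroupOf S) ⟨t, htS⟩) fun g hg => QuotientGroup.eq.2 ?_)) fun e2 => ?_
    swap
    · rw [hu, map_one, trc_const, ← map_pow, eq_comm] at e2
      exact tR (mem_of_pow_mem_coprime (mem_subgroupOf.1 ((QuotientGroup.eq_one_iff _).1 e2)) (ht.symm ▸ (Nat.prime_two.coprime_iff_not_dvd.2
        ((hP.mono le_normalizer le_top).not_dvd_of_le (le_cent1_iff.2 (le_cent_self hS htS))))))
    have := (mul_mem_iff_of_index_two hi (a := ⟨_, inv_mem (mem_omegaOne (conj_mem_of_norm hg htS) (by simp [t2]))⟩) (b := ⟨t, mem_omegaOne htS t2⟩)).2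
      (iff_of_false (fun h => c g hg (inv_mem_iff.1 h)) tR)
    change (F g : G)⁻¹ * t ∈ R
    rwa [hF g hg]

end Cfsg.Agent.S1244
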