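import Cfsg.Statements.S1246
import Mathlib
import Cfsg.Agent.H9.Om

set_option autoImplicit false
open Cfsg

namespace Cfsg.Agent.S1246

/-- Let V ≤ U be p-subgroups of the finite group G. If the generalized Fitting subgroup of C_G(V) is a p-group, then so is that of C_G(U). -/
theorem result {G : Type*} [Group G] [Finite G] {p : ℕ} [Fact p.Prime] (U V : Subgroup G) (hVU : V ≤ U) (hU : IsPGroup p U) (hV : IsPGroup p ↥(Cfsg.generalizedFittingSubgroup ↥(Subgroup.centralizer (V : Set G)))) : IsPGroup p ↥(Cfsg.generalizedFittingSubgroup ↥(Subgroup.centralizer (U : Set G))) := by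
  open Subgroup CfsgH9 in
  have k : ∀ {V U : Subgroup G}, Sn V U → IsPGroup p U → ChP p (centralizer (V : Set G)) →
      ChP p (centralizer (U : Set G)) := fun {V U} h => by
    induction h with
    | refl => exact fun _ h => h
    | @step V W U a b c ih =>
      intro pU h
      have pW := pU.to_le c.le
      have s : Sn (centralizer (V : Set G)) (normalizer (V : Set G)) :=
        Sn.of_normal (centralizer_le_normalizer _) (le_normalizer_centralizer le_rfl)
      have v : V ≤ Op p (normalizer (V : Set G)) := le_Op (Sn.of_normal le_normalizer le_rfl) (pW.to_le a)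
      obtain ⟨h1, h2⟩ := chP_iff.1 h
      have n : ChP p (normalizer (V : Set G)) := chP_iff.2 ⟨eq_bot_iff.2 ((Lay_le_Lay_of_le
        (comm_bot_iff.1 (comm_bot_mono (Lay_comm_Op p _) le_rfl v)) s.le).trans h1.le), by
          rw [Opp_of_sn s, inf_eq_left.2 (comm_bot_iff'.1 (comm_bot_mono (Op_commutator_Opp _) v le_rfl))] at h2
          exact h2⟩
      have := n.inf_centralizer pW b
      rw [inf_eq_right.2 ((centralizer_anti a).trans s.le)] at this
      exact ih pU this
  exact (isPGroup_map_iff (subtype_injective _)).2 (chP_iff_isPGroup.1 (k (sn_of_isPGroup hU hVU) hU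
    (chP_iff_isPGroup.2 ((isPGroup_map_iff (subtype_injective _)).1 hV))))

end Cfsg.Agent.S1246
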