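import Mathlib
import Cfsg.Statements.S1248
import Cfsg.Agent.H8.U3e

set_option autoImplicit false
open Cfsg

namespace Cfsg.Agent.S1248

open CfsgH8 CfsgH5
open scoped commutatorElement

/-- Let F be a field with 16 elements and S a Sylow 2-subgroup of PSU(3) over F (the unitary group U₃(4)). Then |S| = 64; the centre Z(S) is a Klein four-group and coincides with the subgroup generated by the involutions of S and with the derived subgroup; and every element of S ⧸ Z(S) squares to the identity, S ⧸ Z(S) having order 16. -/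
theorem result {F : Type*} [Field F] [Fintype F] (hF : Fintype.card F = 16) (S : Sylow 2 (Cfsg.PSU 3 F 4)) : Nat.card S = 64 ∧ IsKleinFour (Subgroup.center (S : Subgroup (Cfsg.PSU 3 F 4))) ∧ Subgroup.center (S : Subgroup (Cfsg.PSU 3 F 4)) = Subgroup.closure {x : (S : Subgroup (Cfsg.PSU 3 F 4)) | orderOf x = 2} ∧ Subgroup.center (S : Subgroup (Cfsg.PSU 3 F 4)) = commutator (S : Subgroup (Cfsg.PSU 3 F 4)) ∧ Nat.card ((S : Subgroup (Cfsg.PSU 3 F 4)) ⧸ Subgroup.center (S : Subgroup (Cfsg.PSU 3 F 4))) = 16 ∧ ∀ x : (S : Subgroup (Cfsg.PSU 3 F 4)) ⧸ Subgroup.center (S : Subgroup (Cfsg.PSU 3 F 4)), x ^ 2 = 1 := by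
  haveI : CharP F 2 := charP_of_card_eq_prime_pow (p := 2) (f := 4) hF
  obtain ⟨σ, H⟩ := exists_UF (F := F) (q := 2 ^ 2) hF
  haveI hs : Fact (∀ a, σ (σ a) = a) := ⟨H.invol⟩
  obtain ⟨α, hα⟩ := exists_alpha H.ne_id hs.out
  obtain ⟨e⟩ := sylow_PSU3_iso H S
  change (S : Subgroup (Cfsg.PSU 3 F 4)) ≃* Hs σ at e
  generalize (S : Subgroup (Cfsg.PSU 3 F 4)) = T at e ⊢
  have h2 : (2 : F) = 0 := CharTwo.two_eq_zero
  have hc : Nat.card T = 64 := by rw [Nat.card_congr e.toEquiv, Hs.card_UF H]; norm_num
  have hz : ∀ x : T, x ∈ Subgroup.center T ↔ (e x).y = 0 := by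
    intro x
    rw [← Hs.mem_center hα, Subgroup.mem_center_iff, Subgroup.mem_center_iff]
    constructor
    · intro h g
      obtain ⟨g, rfl⟩ := e.surjective g
      rw [← map_mul, h, map_mul]
    · intro h g
      apply e.injective
      rw [map_mul, h, map_mul]
  have hsq : ∀ x : T, x * x = 1 ↔ x ∈ Subgroup.center T := by
    intro x
    rw [hz, ← Hs.sq_eq_one, ← map_mul, MulEquiv.map_eq_one_iff]
  have hzc : Nat.card (Subgroup.center T) = 4 := by
    rw [Nat.card_congr (Subgroup.centerCongr e).toEquiv, Hs.card_center hα, H.card_fix]; norm_num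
  refine ⟨hc, ⟨hzc, ?_⟩, le_antisymm (fun x hx => ?_) ?_, le_antisymm (fun x hx => ?_) ?_, ?_, fun x => ?_⟩
  · haveI : Finite (Subgroup.center T) := Nat.finite_of_card_ne_zero (by omega)
    haveI : Nontrivial (Subgroup.center T) := Finite.one_lt_card_iff_nontrivial.1 (by omega)
    rw [Monoid.exponent_eq_prime_iff Nat.prime_two]
    intro g hg
    exact orderOf_eq_prime (by rw [pow_two]; exact Subtype.ext ((hsq g.1).2 g.2)) hg
  · by_cases h : x = 1
    · rw [h]; exact one_mem _
    · exact Subgroup.subset_closure (orderOf_eq_prime (by rw [pow_two]; exact (hsq x).2 hx) h)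
  · rw [Subgroup.closure_le]
    intro x hx
    have hx : orderOf x = 2 := hx
    exact (hsq x).1 (by rw [← pow_two, ← hx, pow_orderOf_eq_one])
  · have h1 := (hz x).1 hx
    have h3 := Hs.fix_of_y h1
    have : x = ⁅e.symm (Hs.lift hα 1), e.symm (Hs.lift hα ((e x).z * α))⁆ := by
      apply e.injective
      rw [map_commutatorElement, e.apply_symm_apply, e.apply_symm_apply, commutatorElement_def]
      ext
      · simp [h1]
      · simp [Hs.lift, h3, H.invol]
        grind
    rw [this]
    exact Subgroup.commutator_mem_commutator (Subgroup.mem_top _) (Subgroup.mem_top _)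
  · rw [commutator_def, Subgroup.commutator_le]
    intro a _ b _
    rw [hz, map_commutatorElement, commutatorElement_def]
    simp
  · have := Subgroup.card_eq_card_quotient_mul_card_subgroup (Subgroup.center T)
    rw [hc, hzc] at this
    omega
  · obtain ⟨x, rfl⟩ := QuotientGroup.mk_surjective x
    rw [← QuotientGroup.mk_pow, QuotientGroup.eq_one_iff, hz, pow_two, map_mul, Hs.sq_y]

end Cfsg.Agent.S1248
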