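import Cfsg.Statements.S1253
import Mathlib
import Cfsg.Agent.H4.ZS2
import Cfsg.Agent.H1.Prod

set_option autoImplicit false
open Cfsg

open Cfsg CfsgH2 CfsgH4 Subgroup

namespace Cfsg.Agent.S1253

/-- Let z be an isolated involution of the finite group G with centralizer C, p an odd prime and P a Sylow p-subgroup of G normalized by z. Then P ∩ C has p-power-free index in C (it is a Sylow p-subgroup of C), and |P : C_P(z)| equals the number of elements x ∈ P with z x z⁻¹ = x⁻¹. -/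
theorem result {G : Type*} [Group G] [Finite G] (z : G) (hz : Cfsg.IsIsolatedInvolution z) {p : ℕ} [Fact p.Prime] (hp : p ≠ 2) (P : Sylow p G) (hzP : z ∈ Subgroup.normalizer ((P : Subgroup G) : Set G)) : ¬ p ∣ ((P : Subgroup G) ⊓ Subgroup.centralizer ({z} : Set G)).relIndex (Subgroup.centralizer ({z} : Set G)) ∧ ((P : Subgroup G) ⊓ Subgroup.centralizer ({z} : Set G)).relIndex (P : Subgroup G) = Nat.card {x : G // x ∈ P ∧ z * x * z⁻¹ = x⁻¹} := by
  have h1 := syl_inf_cent hz hp (syl_top P) hzP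
  refine ⟨h1.nd, ?_⟩
  have h2 : z ∈ (P : Subgroup G) ⊔ zpowers z := mem_sup_right (mem_zpowers z)
  have h3 := card_conj_mul hz h2
  have h4 := (CfsgH1.fac_sup_of_le_normalizer (zpowers_le.2 hzP)).mono le_rfl
    (le_inf le_sup_right (zpowers_le.2 (mem_centralizer_singleton_iff.2 rfl : z ∈ C1[z])))
    le_sup_left inf_le_left
  rw [← card_mul_relIndex (inf_le_left : ((P : Subgroup G) ⊔ zpowers z) ⊓ C1[z] ≤ _), mul_comm,
    Nat.mul_left_cancel_iff Nat.card_pos, ← h4.relIndex_eq, ← inf_relIndex_right, inf_right_comm,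
    inf_eq_right.2 (le_sup_left : (P : Subgroup G) ≤ _), card_conj_eq_card_inv hz h2] at h3
  rw [← h3]
  refine Nat.card_congr (Equiv.subtypeEquivRight fun k => ⟨fun h => ⟨?_, h.2.1⟩,
    fun h => ⟨?_, h.2, mem_sup_left h.1⟩⟩)
  · obtain ⟨m, hm⟩ := CfsgL0.exists_eq_sq_pow h.1
    rw [hm]
    refine pow_mem (show k * k ∈ (P : Subgroup G) from ?_) m
    obtain ⟨a, ha, j, rfl⟩ := (mem_sup_zpowers hzP).1 h.2.2
    have a1 : z ^ j * z ^ j = 1 := by
      rw [← (Commute.refl z).mul_zpow, CfsgL0.inv_mul_self hz.1, one_zpow]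
    have := mul_mem ha ((mem_normalizer_iff.1 (zpow_mem hzP j) a).1 ha)
    rwa [inv_eq_of_mul_eq_one_right a1, ← mul_assoc, ← mul_assoc, mul_assoc _ a] at this
  · obtain ⟨j, hj⟩ := pelt_of_mem P.2 h.1
    rw [hj]; exact ((Fact.out : p.Prime).odd_of_ne_two hp).pow

end Cfsg.Agent.S1253
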