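import Cfsg.Statements.S1258
import Mathlib
import Cfsg.Agent.H9.Comp2

set_option autoImplicit false
open Cfsg

namespace Cfsg.Agent.S1258

/-- If the central quotient of a finite group X is non-abelian simple, then X = X' Z(X) and the commutator subgroup X' is quasisimple. -/
theorem result {X : Type*} [Group X] [Finite X] (hs : IsSimpleGroup (X ⧸ Subgroup.center X)) (hna : ¬ IsMulCommutative (X ⧸ Subgroup.center X)) : commutator X ⊔ Subgroup.center X = ⊤ ∧ Cfsg.IsQuasisimple ↥(commutator X) := by
  open Subgroup CfsgH9 in
  have hq : QS ((⊤ : Subgroup X).map (QuotientGroup.mk' (center X))) := by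
    rw [map_top_of_surjective _ (QuotientGroup.mk'_surjective _)]
    exact qs_of_simple hna
  have e : (_root_.commutator X).map (QuotientGroup.mk' (center X)) =
      (⊤ : Subgroup X).map (QuotientGroup.mk' (center X)) := by
    rw [_root_.commutator, map_commutator, hq.perf]
  have e1 : _root_.commutator X ⊔ center X = ⊤ := by
    rw [map_mk_eq_map_mk_iff] at e; rw [e, top_sup_eq]
  refine ⟨e1, qs_iff.1 (QS.of_map (QuotientGroup.mk' (center X)) ?_ ?_ (e ▸ hq))⟩
  · have := commutator_sup_central (N := _root_.commutator X) (Z := center X)
      (commutator_center_left _) (commutator_center_left _)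
    rw [e1] at this
    exact this.symm
  · rw [QuotientGroup.ker_mk']
    exact comm_bot_mono (commutator_center_left ⊤) inf_le_left le_top

end Cfsg.Agent.S1258
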