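import Cfsg.Statements.S1264
import Mathlib
import Cfsg.Agent.H9.Comp2

set_option autoImplicit false
open Cfsg

namespace Cfsg.Agent.S1264

/-- Let G be finite, C = C_G(F(G)) the centralizer of the Fitting subgroup, and N a solvable subgroup of C normalized by C. Then N ≤ Z(F(G)). -/
theorem result {G : Type*} [Group G] [Finite G] (N : Subgroup G) (hN : N ≤ Subgroup.centralizer (Cfsg.fittingSubgroup G : Set G)) (hnorm : Subgroup.centralizer (Cfsg.fittingSubgroup G : Set G) ≤ Subgroup.normalizer (N : Set G)) (hsolv : Group.IsSolvable ↥N) : N ≤ (Subgroup.center ↥(Cfsg.fittingSubgroup G)).map (Cfsg.fittingSubgroup G).subtype := by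
  open Subgroup CfsgH9 in
  rw [map_subtype_center]
  refine le_inf ?_ hN
  rw [← Fit_top] at *
  have h1 : Sn N ⊤ := (Sn.of_normal hN hnorm).trans (by
    have := sn_inf_centralizer (H := (⊤ : Subgroup G)) (le_normalizer_Fit le_normalizer)
    rwa [top_inf_eq] at this)
  exact le_Fit_of_comm_Fit_of_solvable h1 (comm_bot_iff.2 hN) hsolv

end Cfsg.Agent.S1264
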