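import Cfsg.Statements.S1267
import Mathlib
import Cfsg.Agent.H9.Comp2

set_option autoImplicit false
open Cfsg

namespace Cfsg.Agent.S1267

/-- Let G be finite and P ≤ O_p(G). Then E(N_G(P)) = E(G). -/
theorem result {G : Type*} [Group G] [Finite G] (p : ℕ) [Fact p.Prime] (P : Subgroup G) (hP : P ≤ Cfsg.pCore p G) : (Cfsg.layer ↥(Subgroup.normalizer ((P : Subgroup G) : Set G))).map (Subgroup.normalizer ((P : Subgroup G) : Set G)).subtype = Cfsg.layer G := by
  open Subgroup CfsgH9 in
  change Lay _ = _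
  rw [← Lay_top, ← Op_top] at *
  have h1 : Lay ⊤ ≤ centralizer (P : Set G) :=
    comm_bot_iff.1 (comm_bot_mono (Lay_comm_Op p ⊤) le_rfl hP)
  apply le_antisymm _ (Lay_le_Lay_of_le (h1.trans (centralizer_le_normalizer _)) le_top)
  have hPp : IsPGroup p P := (Op_isPGroup p ⊤).to_le hP
  have h2 := Lay_sup_Opp_comm (K := normalizer (P : Set G)) (Op_isPGroup p ⊤)
    (le_normalizer_Op (le_top.trans le_normalizer))
    (le_Op (.of_normal le_normalizer le_rfl) hPp) (inf_le_right.trans (centralizer_le_normalizer _))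
  have h3 : Sn (⊤ ⊓ centralizer (Op p (⊤ : Subgroup G) : Set G)) ⊤ :=
    sn_inf_centralizer (le_normalizer_Op le_normalizer)
  refine (Lay_le_Lay_of_le ?_ ?_).trans (Lay_mono h3)
  · exact le_inf le_top (comm_bot_iff.1 (comm_bot_mono h2 le_sup_left le_rfl))
  · exact inf_le_right.trans ((centralizer_anti hP).trans (centralizer_le_normalizer _))

end Cfsg.Agent.S1267
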