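import Cfsg.Statements.S1271
import Mathlib
import Cfsg.Agent.H9.Bal2

set_option autoImplicit false
open Cfsg

namespace Cfsg.Agent.S1271

/-- Let G be finite with O_{p'}(G) = 1. Suppose that for every component L of G and every subgroup H ≥ L in which L is normal, the quotient H / C_H(L) is balanced for the prime p. Then G is balanced for p. -/
theorem result {G : Type*} [Group G] [Finite G] (p : ℕ) [Fact p.Prime] (hO : Cfsg.pPrimeCore p G = ⊥) (h : ∀ L : Subgroup G, Cfsg.IsComponent L → ∀ H : Subgroup G, L ≤ H → (L.subgroupOf H).Normal → ∀ [((Subgroup.centralizer (L : Set G)).subgroupOf H).Normal], Cfsg.IsBalancedFor p (↥H ⧸ (Subgroup.centralizer (L : Set G)).subgroupOf H)) : Cfsg.IsBalancedFor p G := by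
  open Subgroup CfsgH9 in
  intro x hx
  rw [hO, le_bot_iff, centralizerPPrimeCore_eq]
  rw [← Opp_top] at hO
  refine eq_bot_of_comm_comp hO hx (mem_top x) le_rfl fun L hL => ?_
  by_cases hne : ⁅L, zpowers x⁆ = L
  swap
  · exact hL.comm_Opp_centralizer hO hx (mem_top x) hne
  obtain ⟨h1, h2⟩ := hL.commutator_zpowers_eq hne
  set Y := Opp p (⊤ ⊓ centralizer ({x} : Set G)) with hY
  have hYN : Y ≤ normalizer (L : Set G) := Opp_centralizer_le_normalizer_comp hO hx (mem_top x) hL
  set H := L ⊔ (zpowers x ⊔ Y) with hH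
  have hHN : H ≤ normalizer (L : Set G) := sup_le le_normalizer (sup_le (zpowers_le.2 h1) hYN)
  have hxH : x ∈ H := mem_sup_right (mem_sup_left (mem_zpowers x))
  haveI : ((centralizer (L : Set G)).subgroupOf H).Normal :=
    normal_subgroupOf_of_le_normalizer (le_normalizer_centralizer hHN)
  have h3 := h L (comp_top_iff.1 hL) H le_sup_left
    (normal_subgroupOf_of_le_normalizer hHN)
  let f := QuotientGroup.mk' ((centralizer (L : Set G)).subgroupOf H)
  have hk : kr f ≤ centralizer (L : Set G) := by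
    rw [kr_mk', subgroupOf_map_subtype]; exact inf_le_left
  have ht : im f H = ⊤ := im_top (QuotientGroup.mk'_surjective _)
  have h4 := h3 (f ⟨x, hxH⟩) (orderOf_im_eq_prime f hxH hx fun e => h2 (hk e))
  have h5 := hL.im_Opp_centralizer_le (f := f) hO hx (mem_top x) h1 hk le_rfl hxH
    (sup_le_sup_left (le_inf (le_inf le_top (sup_le (zpowers_le.2 (mem_centralizer_singleton_iff.2 rfl))
      ((Opp_le p _).trans inf_le_right))) (sup_le (zpowers_le.2 h1) hYN)) _)
  rw [inf_eq_left.2 (le_sup_of_le_right le_sup_right), ht, ← centralizerPPrimeCore_eq p (f ⟨x, hxH⟩)] at h5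
  refine hL.2.comm_of_im_le_Opp (f := f) (hL.dvd_card hO) (.of_normal le_sup_left hHN) le_rfl hk
    (le_sup_of_le_right le_sup_right) ?_
  rw [ht, Opp_top]
  exact h5.trans h4

end Cfsg.Agent.S1271
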