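import Cfsg.Statements.S1272
import Mathlib
import Cfsg.Agent.H9.PLay

set_option autoImplicit false
open Cfsg

namespace Cfsg.Agent.S1272

/-- Let X be finite and Q = X / O_{p'}(X). For every component Kbar of Q there is a unique p-component K of X whose image in Q is Kbar; and the image of the p-layer L_{p'}(X) in Q is E(Q). -/
theorem result {X : Type*} [Group X] [Finite X] (p : ℕ) [Fact p.Prime] : (∀ Kbar : Subgroup (X ⧸ Cfsg.pPrimeCore p X), Cfsg.IsComponent Kbar → ∃! K : Subgroup X, Cfsg.IsPComponent p K ∧ K.map (QuotientGroup.mk' (Cfsg.pPrimeCore p X)) = Kbar) ∧ (Cfsg.pLayer p X).map (QuotientGroup.mk' (Cfsg.pPrimeCore p X)) = Cfsg.layer (X ⧸ Cfsg.pPrimeCore p X) := by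
  open Subgroup CfsgH9 in
  have hk : kr (tp (QuotientGroup.mk' (pPrimeCore p X))) ⊓ ⊤ = Opp p ⊤ := by
    rw [kr_tp_mk', Opp_top, inf_top_eq]
  have ht := im_top (tp_surjective (QuotientGroup.mk'_surjective (pPrimeCore p X)))
  refine ⟨fun Kbar hK => ?_, ?_⟩
  · rw [← comp_top_iff] at hK
    obtain ⟨h1, h2⟩ := pcomp_of_comp_im (p := p) le_rfl (hk ▸ Opp_coprime p ⊤) (ht ▸ hK)
      (hK.dvd_card (by rw [Opp_top, pPrimeCore_quotient_pPrimeCore]))
    rw [im_tp] at h2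
    generalize Oupp p (pre (tp (QuotientGroup.mk' (pPrimeCore p X))) Kbar ⊓ ⊤) = K at h1 h2
    refine ⟨_, ⟨pcomp_top_iff.1 h1, h2⟩, fun L hL => ?_⟩
    have h3 := hL.2.trans h2.symm
    rw [map_mk_eq_map_mk_iff, ← Opp_top] at h3
    rw [← (pcomp_top_iff.2 hL.1).Oupp_sup_Opp, h3, h1.Oupp_sup_Opp]
  · have := im_PLay le_rfl hk
    rwa [ht, im_tp, PLay_top, Lay_top] at this

end Cfsg.Agent.S1272
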