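import Cfsg.Statements.S1273
import Mathlib
import Cfsg.Agent.H9.PLay

set_option autoImplicit false
open Cfsg

namespace Cfsg.Agent.S1273

/-- Let K be a p-component of the finite group X and N a normal subgroup of K whose index in K is prime to p. Then N = K. -/
theorem result {X : Type*} [Group X] [Finite X] (p : ℕ) [Fact p.Prime] (K : Subgroup X) (hK : Cfsg.IsPComponent p K) (N : Subgroup ↥K) [N.Normal] (hidx : (N.index).Coprime p) : N = ⊤ := by
  open Subgroup CfsgH9 in
  have h := (pcomp_top_iff.2 hK).2
  apply map_injective K.subtype_injective
  rw [map_subtype_top]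
  refine le_antisymm (map_subtype_le _) (h.res.symm.le.trans (Oupp_le_of_normal
    (le_normalizer_map_subtype N) ?_))
  rwa [relIndex_map_subtype]

end Cfsg.Agent.S1273
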