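import Cfsg.Statements.S1277
import Mathlib
import Cfsg.Agent.H9.PLay

set_option autoImplicit false
open Cfsg

namespace Cfsg.Agent.S1277

/-- For a finite group X with core O(X): the image of E(X) in X / O(X) is all of E(X / O(X)) if and only if every 2-component of X is a component, i.e. L_{2'}(X) ≤ E(X). -/
theorem result {X : Type*} [Group X] [Finite X] : (Cfsg.layer X).map (QuotientGroup.mk' (Cfsg.oddCore X)) = Cfsg.layer (X ⧸ Cfsg.oddCore X) ↔ Cfsg.pLayer 2 X ≤ Cfsg.layer X := by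
  open Subgroup CfsgH9 in
  haveI : Fact (Nat.Prime 2) := ⟨Nat.prime_two⟩
  have hk : kr (tp (QuotientGroup.mk' (pPrimeCore 2 X))) ⊓ ⊤ = Opp 2 ⊤ := by
    rw [kr_tp_mk', Opp_top, inf_top_eq]
  have ht := im_top (tp_surjective (QuotientGroup.mk'_surjective (pPrimeCore 2 X)))
  have h1 := im_PLay le_rfl hk
  rw [ht, im_tp, Lay_top] at h1
  rw [← h1, map_mk_eq_map_mk_iff, ← PLay_top, ← Lay_top]
  change _ ⊔ pPrimeCore 2 X = _ ⊔ pPrimeCore 2 X ↔ _
  rw [← Opp_top]
  constructor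
  · intro h
    rw [← Oupp_Lbar, Lbar_eq, ← h]
    exact Oupp_sup_Opp_le (sn_Lay ⊤)
  · intro h
    exact le_antisymm (sup_le (Lbar_eq (p := 2) (⊤ : Subgroup X) ▸ Lay_le_Lbar ⊤) le_sup_right)
      (sup_le_sup_right h _)

end Cfsg.Agent.S1277
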