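import Cfsg.Statements.S1278
import Mathlib
import Cfsg.Agent.H9.PLay

set_option autoImplicit false
open Cfsg

namespace Cfsg.Agent.S1278

/-- Let K ≠ L be 2-components of the finite group X. Then ⁅K, L⁆ ≤ O(K) ⊓ O(L), and if K is quasisimple then ⁅K, L⁆ = 1. -/
theorem result {X : Type*} [Group X] [Finite X] (K L : Subgroup X) (hK : Cfsg.IsPComponent 2 K) (hL : Cfsg.IsPComponent 2 L) (hne : K ≠ L) : ⁅K, L⁆ ≤ ((Cfsg.oddCore ↥K).map K.subtype) ⊓ ((Cfsg.oddCore ↥L).map L.subtype) ∧ (Cfsg.IsQuasisimple ↥K → ⁅K, L⁆ = ⊥) := by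
  open Subgroup CfsgH9 in
  haveI : Fact (Nat.Prime 2) := ⟨Nat.prime_two⟩
  have h1 := pcomp_top_iff.2 hK
  have h := h1.comm_le_of_ne (pcomp_top_iff.2 hL) hne
  refine ⟨h, fun hq => comm_bot_symm (comm_bot_of_perfect h1.2.perf ?_)⟩
  rw [commutator_comm L K]
  exact comm_bot_mono (comm_bot_symm (h1.2.qs_iff.1 (qs_iff.2 hq))) (h.trans inf_le_left) le_rfl

end Cfsg.Agent.S1278
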