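import Cfsg.Statements.S1279
import Mathlib
import Cfsg.Agent.H9.Sig

set_option autoImplicit false
open Cfsg

namespace Cfsg.Agent.S1279

/-- Let A be a noncyclic elementary abelian p-subgroup of the finite group G such that C_G(a) is solvable for every non-identity a ∈ A. Then a ↦ O_{p'}(C_G(a)) is a solvable A-signalizer functor on G. -/
theorem result {G : Type*} [Group G] [Finite G] (p : ℕ) [Fact p.Prime] (A : Subgroup G) (hA : Cfsg.IsElementaryAbelian p A) (hA2 : p ^ 2 ≤ Nat.card ↥A) (hsolv : ∀ a ∈ A, a ≠ 1 → Group.IsSolvable ↥(Subgroup.centralizer ({a} : Set G))) : Cfsg.IsSolvableSignalizerFunctor p A (fun a => Cfsg.centralizerPPrimeCore p a) := by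
  open Subgroup CfsgH9 in
  refine (sf_iff hA).1 ⟨hA, fun a _ _ => Opp_le p _, fun a _ _ => Opp_coprime p _, fun a ha _ => ?_,
    fun a ha ha1 b hb hb1 => ?_, fun a ha ha1 => isSolvable_of_le (Opp_le p _) (hsolv a ha ha1)⟩
  · exact le_normalizer_Opp ((ea_le_centralizer_singleton hA ha).trans le_normalizer)
  · exact Opp_centralizer_inf_le (ea_orderOf hA ha ha1) (ea_le_centralizer_singleton hA hb ha)
      (PLay_eq_bot_of_solvable (hsolv b hb hb1))

end Cfsg.Agent.S1279
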