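import Cfsg.Statements.S1285
import Mathlib
import Cfsg.Agent.H9.Sig

set_option autoImplicit false
open Cfsg

namespace Cfsg.Agent.S1285

/-- Let θ be a solvable A-signalizer functor on the finite group G with A elementary abelian of rank at least 3, and suppose that for some prime q every θ a (a ∈ A non-identity) is a q-group. Then θ is complete. -/
theorem result {G : Type*} [Group G] [Finite G] (p : ℕ) [Fact p.Prime] (A : Subgroup G) (hA : Cfsg.IsElementaryAbelian p A) (hA3 : p ^ 3 ≤ Nat.card ↥A) (θ : G → Subgroup G) (hθ : Cfsg.IsSolvableSignalizerFunctor p A θ) (q : ℕ) [Fact q.Prime] (hq : ∀ a ∈ A, a ≠ 1 → IsPGroup q ↥(θ a)) : Cfsg.IsCompleteSignalizerFunctor p A θ := by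
  open Subgroup CfsgH9 in
  have h := (sf_iff hA).2 hθ
  obtain ⟨Q, hQ, -⟩ := (mem_bot' (p := p) (A := A) (θ := θ)).exists_maxQ (q := q) IsPGroup.of_bot
  refine ⟨hθ.1, Q, le_normalizer_iff_forall.1 hQ.mem.inv, coprime_iff_not_dvd.1 hQ.mem.cop,
    fun a ha ha1 => ?_⟩
  have := h.syl_theta hA3 hQ ha ha1
  exact (this.eq_of_le (hq a ha ha1) this.le le_rfl).symm

end Cfsg.Agent.S1285
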