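import Cfsg.Statements.S1286
import Mathlib
import Cfsg.Agent.H9.Comp2
import Cfsg.Agent.H9.EA

set_option autoImplicit false
open Cfsg

namespace Cfsg.Agent.S1286

section
open Subgroup CfsgH9
open scoped commutatorElement

abbrev P5 := Equiv.Perm (Fin 5)
def s : P5 := Equiv.swap 0 1
def t : P5 := Equiv.swap 2 3
def c : P5 := Equiv.swap 2 3 * Equiv.swap 3 4
def d : P5 := Equiv.swap 0 1 * Equiv.swap 1 4

def A : Subgroup P5 where
  carrier := {g | g = 1 ∨ g = s ∨ g = t ∨ g = s * t}
  one_mem' := Or.inl rfl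
  mul_mem' := by
    rintro a b (rfl | rfl | rfl | rfl) (rfl | rfl | rfl | rfl) <;>
      simp only [Set.mem_setOf_eq] <;> decide +kernel
  inv_mem' := by
    rintro a (rfl | rfl | rfl | rfl) <;> simp only [Set.mem_setOf_eq] <;> decide +kernel

theorem mem_A {g : P5} : g ∈ A ↔ g = 1 ∨ g = s ∨ g = t ∨ g = s * t := Iff.rfl

theorem mem3 {x g : P5} (h : orderOf x = 3) (hg : g ∈ zpowers x) : g = 1 ∨ g = x ∨ g = x * x := by
  rw [mem_zpowers_iff_mem_range_orderOf, h, Finset.mem_image] at hg
  obtain ⟨k, hk, rfl⟩ := hg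
  rw [Finset.mem_range] at hk
  interval_cases k <;> simp [pow_two]

theorem oc : orderOf c = 3 :=
  haveI : Fact (Nat.Prime 3) := ⟨Nat.prime_three⟩
  orderOf_eq_prime (by decide +kernel) (by decide +kernel)

theorem od : orderOf d = 3 :=
  haveI : Fact (Nat.Prime 3) := ⟨Nat.prime_three⟩
  orderOf_eq_prime (by decide +kernel) (by decide +kernel)

def θ (a : P5) : Subgroup P5 := if a = s then zpowers c else if a = t then zpowers d else ⊥

theorem θs : θ s = zpowers c := if_pos rfl
theorem θt : θ t = zpowers d := (if_neg (by decide +kernel)).trans (if_pos rfl)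
theorem θst : θ (s * t) = ⊥ := (if_neg (by decide +kernel)).trans (if_neg (by decide +kernel))

theorem nrm {x b : P5} (h : b * x * b⁻¹ = x ∨ b * x * b⁻¹ = x * x) {y : P5} (hy : y ∈ zpowers x) :
    b * y * b⁻¹ ∈ zpowers x := by
  obtain ⟨k, rfl⟩ := hy
  simp only [← conj_zpow]
  rcases h with h | h <;> rw [h]
  · exact zpow_mem (mem_zpowers x) k
  · exact zpow_mem (mul_mem (mem_zpowers x) (mem_zpowers x)) k

theorem bal {x b : P5} (h : orderOf x = 3) (h1 : x * b ≠ b * x) (h2 : x * x * b ≠ b * (x * x))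
    (Y : Subgroup P5) : zpowers x ⊓ centralizer {b} ≤ Y := by
  intro y hy
  have := mem_centralizer_singleton_iff.1 (mem_inf.1 hy).2
  rcases mem3 h (mem_inf.1 hy).1 with rfl | rfl | rfl
  · exact Y.one_mem
  · exact (h1 this).elim
  · exact (h2 this).elim

end

/-- There exist a finite group X, an elementary abelian subgroup A of order 4 and a solvable A-signalizer functor θ on X for the prime 2 which is not complete. -/
theorem result : ∃ (X : Type) (_ : Group X) (_ : Finite X) (A : Subgroup X) (θ : X → Subgroup X), Cfsg.IsElementaryAbelian 2 A ∧ Nat.card ↥A = 4 ∧ Cfsg.IsSolvableSignalizerFunctor 2 A θ ∧ ¬ Cfsg.IsCompleteSignalizerFunctor 2 A θ := by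
  open Subgroup CfsgH9 in
  refine ⟨P5, inferInstance, inferInstance, A, θ, ea_iff.2 ⟨comm_bot_iff_forall.2 ?_, ?_⟩, ?_,
    ⟨⟨?_, ?_, ?_, ?_⟩, ?_⟩, ?_⟩
  · rintro a (rfl | rfl | rfl | rfl) b (rfl | rfl | rfl | rfl) <;> decide +kernel
  · rintro a (rfl | rfl | rfl | rfl) <;> decide +kernel
  · change Nat.card {g : P5 // g = 1 ∨ g = s ∨ g = t ∨ g = s * t} = 4
    rw [Nat.card_eq_fintype_card]
    decide +kernel
  · rintro a (rfl | rfl | rfl | rfl) h
    · exact (h rfl).elim
    · rw [θs, zpowers_le, mem_centralizer_singleton_iff]; decide +kernel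
    · rw [θt, zpowers_le, mem_centralizer_singleton_iff]; decide +kernel
    · rw [θst]; exact bot_le
  · rintro a (rfl | rfl | rfl | rfl) h
    · exact (h rfl).elim
    · rw [θs, Nat.card_zpowers, oc]; decide
    · rw [θt, Nat.card_zpowers, od]; decide
    · rw [θst, card_bot]; decide
  · rintro a (rfl | rfl | rfl | rfl) h b hb x hx
    · exact (h rfl).elim
    · rw [θs] at hx ⊢
      refine nrm ?_ hx
      rcases hb with rfl | rfl | rfl | rfl <;> decide +kernel
    · rw [θt] at hx ⊢
      refine nrm ?_ hx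
      rcases hb with rfl | rfl | rfl | rfl <;> decide +kernel
    · rw [θst, mem_bot] at hx ⊢
      simp [hx]
  · rintro a (rfl | rfl | rfl | rfl) h b (rfl | rfl | rfl | rfl) h'
    all_goals first
      | exact (h rfl).elim
      | exact (h' rfl).elim
      | exact inf_le_left
      | (rw [θs]; exact bal oc (by decide +kernel) (by decide +kernel) _)
      | (rw [θt]; exact bal od (by decide +kernel) (by decide +kernel) _)
      | (rw [θst]; exact inf_le_left.trans bot_le)
  · rintro a (rfl | rfl | rfl | rfl) h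
    · exact (h rfl).elim
    · rw [θs]; exact isSolvable_of_comm_bot (zpowers_comm _)
    · rw [θt]; exact isSolvable_of_comm_bot (zpowers_comm _)
    · rw [θst]; infer_instance
  · rintro ⟨-, X, -, h1, h2⟩
    have a : c ∈ X := (mem_inf.1 (((h2 s (Or.inr (Or.inl rfl)) (by decide +kernel)).trans θs).ge
      (mem_zpowers c))).1
    have b : d ∈ X := (mem_inf.1 (((h2 t (Or.inr (Or.inr (Or.inl rfl))) (by decide +kernel)).trans θt).ge
      (mem_zpowers d))).1
    haveI : Fact (Nat.Prime 2) := ⟨Nat.prime_two⟩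
    have e : orderOf (c * c * d * c * d) = 2 := orderOf_eq_prime (by decide +kernel) (by decide +kernel)
    have m := X.mul_mem (X.mul_mem (X.mul_mem (X.mul_mem a a) b) a) b
    exact h1 (by rw [← e, ← orderOf_mk _ m]; exact orderOf_dvd_natCard _)

end Cfsg.Agent.S1286
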