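import Cfsg.Statements.S1288
import Mathlib
import Cfsg.Agent.H9.Sig

set_option autoImplicit false
open Cfsg

namespace Cfsg.Agent.S1288

/-- Let A be a noncyclic elementary abelian p-subgroup of a finite group H normalizing a solvable subgroup K of order prime to p, q a prime dividing |K|, and U ≤ K a subgroup of order prime to q such that ⁅U, C_K(B)⁆ has order prime to q for every subgroup B of index p in A. Then U ≤ O_{q'}(K). -/
theorem result {H : Type*} [Group H] [Finite H] (p : ℕ) [Fact p.Prime] (A K : Subgroup H) (hA : Cfsg.IsElementaryAbelian p A) (hA2 : p ^ 2 ≤ Nat.card ↥A) (hK : ¬ p ∣ Nat.card ↥K) (hKs : Group.IsSolvable ↥K) (hAK : A ≤ Subgroup.normalizer (K : Set H)) (q : ℕ) [Fact q.Prime] (hqK : q ∣ Nat.card ↥K) (U : Subgroup H) (hU : U ≤ K) (hUq : ¬ q ∣ Nat.card ↥U) (hcomm : ∀ B : Subgroup H, B ≤ A → B.relIndex A = p → ¬ q ∣ Nat.card ↥⁅U, K ⊓ Subgroup.centralizer (B : Set H)⁆) : U ≤ (Cfsg.pPrimeCore q ↥K).map K.subtype := by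
  open Subgroup CfsgH9 in
  change U ≤ Opp q K
  have hn : ∀ {W : Subgroup H}, W ≤ K → W ≤ normalizer (Opp q K : Set H) :=
    fun h => le_normalizer_Opp (h.trans le_normalizer)
  refine le_Opp_of_comm_Oppp (PLay_eq_bot_of_solvable hKs) hU (coprime_iff_not_dvd.2 hUq) ?_
  rw [commutator_comm]
  refine commutator_le_of_le_Cmod (hn hU) (ea_le_of_hyp hA (ne_bot_of_pow_le two_ne_zero hA2)
    (le_normalizer_Oppp hAK) (coprime_of_le (Oppp_le K) (coprime_iff_not_dvd.2 hK)) fun B hB => ?_)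
  rw [le_Cmod_iff (hn (inf_le_left.trans (Oppp_le K))) (hn hU), commutator_comm]
  refine le_Opp_of_le_Oppp ((commutator_mono le_rfl inf_le_left).trans (commutator_le_right_of
    (le_normalizer_Oppp (hU.trans le_normalizer)))) (coprime_of_le (commutator_mono le_rfl
      (inf_le_inf_right _ (Oppp_le K))) (coprime_iff_not_dvd.2 (hcomm B hB.1 (hyp_iff.1 hB).2)))

end Cfsg.Agent.S1288
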