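import Cfsg.Statements.S1300
import Mathlib
import Cfsg.Agent.H9.Bal2

set_option autoImplicit false
open Cfsg

namespace Cfsg.Agent.S1300

/-- For a finite group G, balance in the sense of commuting involutions is the same as 1-balance for the prime 2. -/
theorem result {G : Type*} [Group G] [Finite G] : Cfsg.IsBalanced G ↔ Cfsg.IsKBalanced 2 1 G := by
  open Subgroup CfsgH9 in
  haveI : Fact (Nat.Prime 2) := ⟨Nat.prime_two⟩
  constructor
  · intro h A hA hc b hb hab
    obtain ⟨a, ha, ha1⟩ := exists_ne_one_of_ne_bot (ne_bot_of_pow_le one_ne_zero hc.ge)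
    rintro x ⟨h1, h2⟩
    have h3 : x ∈ centralizerPPrimeCore 2 a ⊓ centralizer {b} := ⟨mem_signalizerDelta.1 h1 a ha ha1, h2⟩
    rw [h a b (ea_orderOf hA ha ha1) hb (hab a ha)] at h3
    exact h3.1
  · intro h
    have key : ∀ x y : G, orderOf x = 2 → orderOf y = 2 → x * y = y * x →
        centralizerPPrimeCore 2 x ⊓ centralizer {y} ≤ centralizerPPrimeCore 2 y ⊓ centralizer {x} := by
      intro x y hx hy hxy
      refine le_inf (le_trans ?_ (h (zpowers x) (ea_zpowers_of_orderOf hx)
        (by rw [Nat.card_zpowers, hx, pow_one]) y hy (fun a ha =>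
          mem_centralizer_singleton_iff.1 (zpowers_le.2 (mem_centralizer_singleton_iff.2 hxy) ha))))
        (inf_le_left.trans (Opp_le 2 _))
      refine inf_le_inf_right _ fun z hz => mem_signalizerDelta.2 fun a ha ha1 => ?_
      rw [centralizer_singleton_eq_of_mem hx ha ha1]
      exact hz
    exact fun x y hx hy hxy => le_antisymm (key x y hx hy hxy) (key y x hy hx hxy.symm)

end Cfsg.Agent.S1300
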