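import Cfsg.Statements.S1299
import Mathlib
import Cfsg.Agent.H9.Bal3

set_option autoImplicit false
open Cfsg

namespace Cfsg.Agent.S1299

/-- Let G be finite and k-balanced for the prime p (k ≥ 1), A an elementary abelian p-subgroup of order at least p^(k+2) such that O_{p'}(C_G(a)) is solvable for every non-identity a ∈ A. For a ∈ A put θ a = the subgroup generated by the Δ_G(D) ∩ C_G(a) over the subgroups D ≤ A of order p^k. Then θ is an A-signalizer functor. -/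
theorem result {G : Type*} [Group G] [Finite G] (p k : ℕ) [Fact p.Prime] (hk : 1 ≤ k) (hbal : Cfsg.IsKBalanced p k G) (A : Subgroup G) (hA : Cfsg.IsElementaryAbelian p A) (hAk : p ^ (k + 2) ≤ Nat.card ↥A) (hsolv : ∀ a ∈ A, a ≠ 1 → Group.IsSolvable ↥(Cfsg.centralizerPPrimeCore p a)) : Cfsg.IsSignalizerFunctor p A (fun a => ⨆ D : {D : Subgroup G // D ≤ A ∧ Nat.card ↥D = p ^ k}, Cfsg.signalizerDelta p (D : Subgroup G) ⊓ Subgroup.centralizer {a}) := by
  open Subgroup CfsgH9 in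
  have k0 : ∀ {B : Subgroup G}, p ^ k ≤ Nat.card B → B ≠ ⊥ := fun h => ne_bot_of_pow_le (by omega) h
  have a0 : A ≠ ⊥ := ne_bot_of_pow_le (by omega) hAk
  have bal : ∀ B ≤ A, p ^ k ≤ Nat.card B → ∀ a ∈ A, a ≠ 1 →
      Cfsg.signalizerDelta p B ⊓ centralizer {a} ≤ Opp p (centralizer ({a} : Set G)) := fun B h1 h2 a a1 a2 => by
    obtain ⟨D, d1, d2⟩ := exists_le_card_pow (ea_isPGroup (ea_of_le hA h1)) h2
    exact (inf_le_inf_right _ (delta_anti d1)).trans (hbal D (ea_of_le hA (d1.trans h1)) d2 a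
      (ea_orderOf hA a1 a2) fun b hb => ea_mul_comm hA (h1 (d1 hb)) a1)
  have nD : ∀ B ≤ A, A ≤ normalizer (Cfsg.signalizerDelta p B : Set G) := fun B h =>
    (ea_le_centralizer_of_le hA h).trans centralizer_le_normalizer_delta
  have nC : ∀ a ∈ A, A ≤ normalizer (centralizer ({a} : Set G) : Set G) := fun a h =>
    (ea_le_centralizer_singleton hA h).trans le_normalizer
  obtain ⟨θ, hθ⟩ : ∃ θ : G → Subgroup G, θ = fun a => ⨆ D : {D : Subgroup G // D ≤ A ∧ Nat.card D = p ^ k},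
    Cfsg.signalizerDelta p (D : Subgroup G) ⊓ centralizer {a} := ⟨_, rfl⟩
  rw [← hθ]
  have t1 : ∀ a ∈ A, a ≠ 1 → θ a ≤ Opp p (centralizer ({a} : Set G)) := fun a a1 a2 => by
    rw [hθ]; exact iSup_le fun D => bal D D.2.1 D.2.2.ge a a1 a2
  have t2 : ∀ a ∈ A, A ≤ normalizer (θ a : Set G) := fun a a1 => le_normalizer_iff_cj.2 fun g hg => by
    rw [hθ, cj, Subgroup.map_iSup]
    exact iSup_mono fun D => le_normalizer_iff_cj.1 (le_normalizer_inf (nD D D.2.1) (nC a a1)) g hg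
  have t3 : ∀ a, ∀ B ≤ A, p ^ k ≤ Nat.card B → Cfsg.signalizerDelta p B ⊓ centralizer {a} ≤ θ a :=
    fun a B h1 h2 => by
      obtain ⟨D, d1, d2⟩ := exists_le_card_pow (ea_isPGroup (ea_of_le hA h1)) h2
      rw [hθ]
      exact le_iSup_of_le ⟨D, d1.trans h1, d2⟩ (inf_le_inf_right _ (delta_anti d1))
  refine ⟨fun a a1 a2 => (t1 a a1 a2).trans (Opp_le p _), fun a a1 a2 => coprime_iff_not_dvd.1
    (coprime_of_le (t1 a a1 a2) (Opp_coprime p _)), fun a a1 _ => le_normalizer_iff_forall.1 (t2 a a1),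
    fun a a1 a2 b b1 b2 => ?_⟩
  obtain ⟨X, hX⟩ : ∃ X, X = Opp p (centralizer ({a} : Set G)) := ⟨_, rfl⟩
  have x1 : X ≤ centralizer {a} := hX ▸ Opp_le p _
  have cX : (Nat.card X).Coprime p := hX ▸ Opp_coprime p _
  have nX : A ≤ normalizer (X : Set G) := hX ▸ le_normalizer_Opp (nC a a1)
  have hy : ∀ B, Hyp p B A → B ≤ A ∧ p ^ k ≤ Nat.card B := fun B h =>
    ⟨h.1, (Nat.pow_le_pow_right (Fact.out : p.Prime).pos (Nat.le_succ k)).trans (h.pow_le hAk)⟩
  have bb : ∀ B C, B ≤ A ∧ p ^ k ≤ Nat.card B → C ≤ A → Cfsg.signalizerDelta p B ⊓ X ⊓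
      centralizer (C : Set G) ≤ Cfsg.signalizerDelta p C ⊓ X := fun B C h h' => le_inf (le_delta
    fun c c1 c2 => (inf_le_inf inf_le_left (centralizer_le_centralizer_singleton c1)).trans
      (bal B h.1 h.2 c (h' c1) c2)) (inf_le_left.trans inf_le_right)
  have g := glue_hyp hA a0 (fun B => B ≤ A ∧ p ^ k ≤ Nat.card B) hy
    (fun B C h h' => ⟨inf_le_left.trans h.1, h.card_inf hA h' hAk⟩) X
    (fun B => Cfsg.signalizerDelta p B ⊓ X) (hX ▸ hsolv a a1 a2) cX nX
    (fun B _ => le_inf inf_le_right (inf_le_left.trans delta_le_centralizer))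
    (fun B h => le_normalizer_inf (nD B h.1) nX)
    (fun B _ => le_normalizer_inf (inf_le_right.trans centralizer_le_normalizer_delta)
      (inf_le_left.trans le_normalizer)) fun B C h h' => bb B C h h'.1
  have t4 : θ a ≤ ⨆ B : {B // Hyp p B A}, Cfsg.signalizerDelta p B ⊓ X := by
    rw [hθ]
    refine iSup_le fun D => ea_le_of_hyp hA a0 (le_normalizer_inf (nD D D.2.1) (nC a a1))
      (coprime_of_le inf_le_left (delta_coprime (k0 D.2.2.ge))) fun E hE => le_iSup_of_le ⟨E, hE⟩ ?_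
    exact (inf_le_inf_right _ (le_inf inf_le_left (hX ▸ bal D D.2.1 D.2.2.ge a a1 a2))).trans
      (bb D E ⟨D.2.1, D.2.2.ge⟩ hE.1)
  refine ea_le_of_hyp hA a0 (le_normalizer_inf (t2 a a1) (nC b b1)) (coprime_of_le
    (inf_le_left.trans (t1 a a1 a2)) (Opp_coprime p _)) fun E hE => ?_
  exact (le_inf (((inf_le_inf_right _ (inf_le_left.trans t4)).trans (g E hE)).trans inf_le_left)
    (inf_le_left.trans inf_le_right)).trans (t3 b E hE.1 (hy E hE).2)

end Cfsg.Agent.S1299
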