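import Mathlib
import Cfsg.Statements.S1303
import Cfsg.Agent.S2427
import Cfsg.Agent.L0.PCon
import Cfsg.Agent.H1.Cores

set_option autoImplicit false
open Cfsg

namespace Cfsg.Agent.S1303


/-- The group X = SL(2, 3): it is 2-constrained, O_{2'}(X) = 1, its centre A = Z(X) contains every involution of X = C_X(A), and X has a subgroup of order 3 (normalized by A) not contained in O_{2'}(X). -/
theorem result : Cfsg.IsPConstrained 2 (Matrix.SpecialLinearGroup (Fin 2) (ZMod 3)) ∧ Cfsg.pPrimeCore 2 (Matrix.SpecialLinearGroup (Fin 2) (ZMod 3)) = ⊥ ∧ (∀ t : Matrix.SpecialLinearGroup (Fin 2) (ZMod 3), orderOf t = 2 → t ∈ Subgroup.center (Matrix.SpecialLinearGroup (Fin 2) (ZMod 3))) ∧ ∃ Q : Subgroup (Matrix.SpecialLinearGroup (Fin 2) (ZMod 3)), Nat.card ↥Q = 3 ∧ ¬ (Q ≤ Cfsg.pPrimeCore 2 (Matrix.SpecialLinearGroup (Fin 2) (ZMod 3))) := by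
  obtain ⟨c, cz, cc, -, -, h⟩ := S2427.result
  haveI := Fact.mk Nat.prime_three
  have b : Cfsg.pPrimeCore 2 (Matrix.SpecialLinearGroup (Fin 2) (ZMod 3)) = ⊥ := by
    have := CfsgH1.not_dvd_card_pPrimeCore (G := Matrix.SpecialLinearGroup (Fin 2) (ZMod 3)) 2
    rcases h (Cfsg.pPrimeCore 2 _) inferInstance with e | e | e | e
    · exact e
    · rw [e, Subgroup.card_top, c] at this; omega
    · rw [e, cz] at this; omega
    · rw [e, cc] at this; omega
  have z := CfsgH1.le_pCore (N := Subgroup.center _) (IsPGroup.of_card (p := 2) (n := 1) cz)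
  have k := CfsgH1.le_pCore (N := commutator _) (IsPGroup.of_card (p := 2) (n := 3) cc)
  refine ⟨(CfsgL0.pcon_iff_of_bot b).2 (CfsgH2.con_top_iff.1 ?_), b, fun t ht => ?_, ?_⟩
  · rcases h (Subgroup.centralizer (pCore 2 _ : Subgroup (Matrix.SpecialLinearGroup (Fin 2) (ZMod 3)))) inferInstance with e | e | e | e
    · simp [e]
    · have := Subgroup.card_le_of_le (k.trans (Subgroup.centralizer_eq_top_iff_subset.1 e))
      omega
    · exact e ▸ z
    · exact e ▸ k
  · have : ∀ t : Matrix.SpecialLinearGroup (Fin 2) (ZMod 3), t ^ 2 = 1 → ∀ g, g * t = t * g := by decide +kernel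
    exact Subgroup.mem_center_iff.2 (this t (orderOf_dvd_iff_pow_eq_one.1 ht.dvd))
  · obtain ⟨Q, hQ⟩ := Sylow.exists_subgroup_card_pow_prime (G := Matrix.SpecialLinearGroup (Fin 2) (ZMod 3)) 3 (n := 1)
      (by rw [c]; norm_num)
    exact ⟨Q, hQ, fun e => by simp [le_bot_iff.1 (b ▸ e)] at hQ⟩

end Cfsg.Agent.S1303
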