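import Cfsg.Statements.S1304
import Mathlib
import Cfsg.Agent.H9.Sn

set_option autoImplicit false
open Cfsg

namespace Cfsg.Agent.S1304

/-- Let X be a perfect group and α an automorphism of X with α(x) x⁻¹ central for every x. Then α is the identity. -/
theorem result {X : Type*} [Group X] (hperf : commutator X = ⊤) (α : X ≃* X) (h : ∀ x : X, α x * x⁻¹ ∈ Subgroup.center X) : ∀ x : X, α x = x := by
  open Subgroup CfsgH9 in
  intro x
  let f : X →* Subgroup.center X :=
    { toFun := fun x => ⟨α x * x⁻¹, h x⟩
      map_one' := by ext; simp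
      map_mul' := fun a b => by
        ext
        have hb := Subgroup.mem_center_iff.1 (h b) a⁻¹
        simp only [map_mul, mul_inv_rev, Subgroup.coe_mul]
        calc α a * α b * (b⁻¹ * a⁻¹) = α a * (α b * b⁻¹ * a⁻¹) := by group
          _ = α a * (a⁻¹ * (α b * b⁻¹)) := by rw [hb]
          _ = _ := by group }
  have h1 : _root_.commutator X ≤ f.ker := by
    rw [_root_.commutator, commutator_le]
    intro a _ b _
    rw [MonoidHom.mem_ker, map_commutatorElement, commutatorElement_eq_one_iff_mul_comm]
    ext
    exact (Subgroup.mem_center_iff.1 (f b).2 (f a))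
  have h2 : f x = 1 := h1 (hperf ▸ mem_top x)
  have h3 : α x * x⁻¹ = 1 := congrArg Subtype.val h2
  exact mul_inv_eq_one.1 h3

end Cfsg.Agent.S1304
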