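import Cfsg.Statements.S1305
import Mathlib
import Cfsg.Agent.H9.Pump
import Cfsg.Agent.H9.Kill

set_option autoImplicit false
open Cfsg

namespace Cfsg.Agent.S1305

section
open Subgroup CfsgH9
open scoped commutatorElement

theorem zp2 {G : Type*} [Group G] [Finite G] {t x : G} (ht : orderOf t = 2) (hx : x ∈ zpowers t) :
    x = 1 ∨ x = t := by
  obtain ⟨k, hk⟩ := (mem_powers_iff_mem_zpowers.2 hx)
  simp only at hk
  rw [← pow_mod_orderOf, ht] at hk
  rcases Nat.mod_two_eq_zero_or_one k with h | h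
  · rw [h, pow_zero] at hk; exact Or.inl hk.symm
  · rw [h, pow_one] at hk; exact Or.inr hk.symm

end

/-- Let G be a finite group of component type with the B-property and no nontrivial normal subgroup of odd order. Let a be an involution and K a component of C_G(a) such that (a) |K| is maximal among the orders of components of centralizers of involutions of G, (b) subject to (a) the 2-rank of the centralizer of K in C_G(a) is as large as possible, and (c) K has 2-rank at least 2. If B is an elementary abelian 2-subgroup of that centralizer of the largest possible order, then K is a component of C_G(b) for every non-identity b ∈ B. -/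
theorem result {G : Type*} [Group G] [Finite G] (hO : Cfsg.oddCore G = ⊥) (hB : Cfsg.HasBProperty G) (hct : Cfsg.IsComponentType G) (a : G) (ha : orderOf a = 2) (K : Subgroup G) (hKa : K ≤ Subgroup.centralizer ({a} : Set G)) (hK : Cfsg.IsComponent (K.subgroupOf (Subgroup.centralizer ({a} : Set G)))) (hmax : ∀ y : G, orderOf y = 2 → ∀ K' : Subgroup G, K' ≤ Subgroup.centralizer ({y} : Set G) → Cfsg.IsComponent (K'.subgroupOf (Subgroup.centralizer ({y} : Set G))) → Nat.card ↥K' ≤ Nat.card ↥K ∧ (Nat.card ↥K' = Nat.card ↥K → ∀ k : ℕ, Cfsg.PRankLE 2 k ↥(Subgroup.centralizer ({a} : Set G) ⊓ Subgroup.centralizer (K : Set G)) → Cfsg.PRankLE 2 k ↥(Subgroup.centralizer ({y} : Set G) ⊓ Subgroup.centralizer (K' : Set G)))) (hrk : ¬ Cfsg.PRankLE 2 1 ↥K) (B : Subgroup G) (hBle : B ≤ Subgroup.centralizer ({a} : Set G) ⊓ Subgroup.centralizer (K : Set G)) (hBel : Cfsg.IsElementaryAbelian 2 B) (hBmax : ∀ B' : Subgroup G, B' ≤ Subgroup.centralizer ({a} : Set G) ⊓ Subgroup.centralizer (K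 : Set G) → Cfsg.IsElementaryAbelian 2 B' → Nat.card ↥B' ≤ Nat.card ↥B) (b : G) (hb : b ∈ B) (hb1 : b ≠ 1) : K ≤ Subgroup.centralizer ({b} : Set G) ∧ Cfsg.IsComponent (K.subgroupOf (Subgroup.centralizer ({b} : Set G))) := by
  open Subgroup CfsgH9 in
  haveI : Fact (Nat.Prime 2) := ⟨Nat.prime_two⟩
  have cK : Comp K (centralizer ({a} : Set G)) := (comp_iff_subgroupOf hKa).2 hK
  have hBa : B ≤ centralizer ({a} : Set G) := hBle.trans inf_le_left
  have hBK : B ≤ centralizer (K : Set G) := hBle.trans inf_le_right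
  have hbo := ea_orderOf hBel hb hb1
  have hKb : K ≤ centralizer ({b} : Set G) := mem_centralizer_iff_le.1 (hBK hb)
  refine ⟨hKb, (comp_iff_subgroupOf hKb).1 ?_⟩
  have aa : a * a = 1 := by rw [← pow_two, ← ha, pow_orderOf_eq_one]
  have haK : a ∈ centralizer (K : Set G) := mem_centralizer_iff_le.2 hKa
  have haB : a ∈ B := by
    by_contra h
    have h1 := hBmax (B ⊔ zpowers a) (sup_le hBle (zpowers_le.2
      ⟨mem_centralizer_singleton_iff.2 rfl, haK⟩))
      (ea_sup hBel (ea_zpowers_of_orderOf ha) (comm_zpowers_iff.2 hBa))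
    rw [card_sup_zpowers ha h (centralizer_le_normalizer _ (mem_centralizer_iff_le.2 hBa))] at h1
    have := Nat.card_pos (α := B)
    omega
  have hBH : B ≤ centralizer ({b} : Set G) := ea_le_centralizer_singleton hBel hb
  have hPL : PLay 2 (centralizer ({b} : Set G)) ≤ Lay (centralizer ({b} : Set G)) := by
    have h1 := hB b hbo
    rw [hO, Subgroup.map_commutator, le_bot_iff] at h1
    exact PLay_le_iff.2 fun L hL => (hL.comp_of_comm (comm_bot_mono h1 hL.le_PLay le_rfl)).le_Lay
  have hmb := hmax b hbo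
  generalize centralizer ({b} : Set G) = H at *
  have hT : IsPGroup 2 (zpowers a) := IsPGroup.of_card (n := 1) (by rw [Nat.card_zpowers, ha]; rfl)
  have haH : zpowers a ≤ H := zpowers_le.2 (hBH haB)
  have cK' : Comp K (H ⊓ centralizer ({a} : Set G)) := cK.mono (le_inf hKb hKa) inf_le_right
  have hc : PComp 2 K (H ⊓ centralizer (zpowers a : Set G)) := by
    rw [centralizer_zpowers]; exact cK'.pcomp_two
  have hL := ((lb_two H).le_PLay hT haH hc).trans hPL
  obtain ⟨D, hD, hne, hM⟩ := hc.exists_ncl (haH.trans le_normalizer) hL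
  obtain ⟨m1, m2⟩ := hmb D hD.le ((comp_iff_subgroupOf hD.le).1 hD)
  by_cases hn : a ∈ normalizer (D : Set G)
  · have h1 : K ≤ D := hM.trans (ncl_le le_rfl (zpowers_le.2 hn))
    rwa [Subgroup.eq_of_le_of_card_ge h1 m1]
  exfalso
  have haN : a ∈ normalizer (H : Set G) := le_normalizer (hBH haB)
  obtain ⟨π, p1, p2, p3, p4, -, -, p7⟩ := hD.exists_diag (p := 2) (k := 1) (x := a)
    (by simpa using ha) haN (by rw [pow_two, aa]; exact one_mem _) hn
  have hMH : ncl (zpowers a) D ≤ H := ncl_le hD.le (zpowers_le.2 haN)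
  have hKπ : K = π.range :=
    (cK.mono (le_inf hM hKa) inf_le_right).eq_of_le p4 (p7 K (le_inf hM hKa) cK.perf)
  have hcard : Nat.card D = Nat.card K := le_antisymm m1 (by
    rw [hKπ]; exact Nat.card_le_card_of_surjective _ π.rangeRestrict_surjective)
  have hinj : Function.Injective π := by
    have := ((Nat.bijective_iff_surjective_and_card π.rangeRestrict).2
      ⟨π.rangeRestrict_surjective, hKπ ▸ hcard⟩).1
    exact fun x y h => this (Subtype.ext h)
  have hcomm : ⁅cj a D, D⁆ = ⊥ := (hD.cj_eq_or_comm haN).resolve_left fun e => hn (cj_eq_iff.1 e)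
  have h0 : ⁅B ⊓ normalizer (D : Set G), D⁆ = ⊥ := by
    refine comm_bot_of_perfect hD.perf (comm_bot_iff.2 (Subgroup.commutator_le.2 ?_))
    rintro y ⟨hy, hy'⟩ l hl
    have h3 := (mem_normalizer_iff.1 (normalizer_le_normalizer_centralizer D hy') _).1
      (p2 ⟨l⁻¹, inv_mem hl⟩)
    have h4 : π ⟨l⁻¹, inv_mem hl⟩ * y = y * π ⟨l⁻¹, inv_mem hl⟩ :=
      mem_centralizer_iff.1 (hBK hy) _ (by rw [hKπ]; exact ⟨_, rfl⟩)
    have := mul_mem h3 (inv_mem (p2 ⟨l⁻¹, inv_mem hl⟩))
    convert this using 1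
    have h6 : π ⟨l⁻¹, inv_mem hl⟩ * y⁻¹ = y⁻¹ * π ⟨l⁻¹, inv_mem hl⟩ := (Commute.inv_right h4).eq
    simp only [mul_inv_rev, inv_inv, mul_assoc, commutatorElement_def]
    rw [← mul_assoc (π _) y⁻¹, h6]
    group
  have haB0 : a ∈ normalizer ((B ⊓ normalizer (D : Set G) : Subgroup G) : Set G) :=
    ea_le_normalizer hBel inf_le_left haB
  have h0' : ⁅B ⊓ normalizer (D : Set G), cj a D⁆ = ⊥ := by
    rw [← cj_eq_of_mem_normalizer haB0, ← cj_commutator, h0, cj_bot]
  have h1 : B ≤ B ⊓ normalizer (D : Set G) ⊔ zpowers a := fun y hy => by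
    rcases hD.eq_cj_or_comm (hD.cj_of_mem (le_normalizer (hBH hy))) (zpowers_le.2 haN) with
      ⟨z, hz, e⟩ | e
    · rcases zp2 ha hz with rfl | rfl
      · rw [cj_one] at e
        exact mem_sup_left ⟨hy, cj_eq_iff.1 e⟩
      · have h2 : y * z ∈ B ⊓ normalizer (D : Set G) := ⟨mul_mem hy haB, cj_eq_iff.1 (by
          rw [ea_mul_comm hBel hy haB, ← cj_cj, e, cj_cj, aa, cj_one])⟩
        have := mul_mem_sup h2 (mem_zpowers z)
        rwa [mul_assoc, aa, mul_one] at this
    · have h2 := comm_bot_mono e le_rfl hM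
      rw [← cj_eq_of_mem_normalizer (centralizer_le_normalizer _ (hBK hy)), ← cj_commutator,
        cj_eq_bot] at h2
      exact absurd h2 hne
  have h2 := card_le_of_le h1
  rw [card_sup_zpowers (A := B ⊓ normalizer (D : Set G)) ha (fun h => hn h.2) haB0] at h2
  obtain ⟨E, hE, eE, cE⟩ := not_pRankLE_iff.1 fun h => hrk (pRankLE_of_equiv
    ((cjEquiv a D).symm.trans ((MonoidHom.ofInjective hinj).trans
      (MulEquiv.subgroupCongr hKπ.symm))) h)
  have h3 : (B ⊓ normalizer (D : Set G)) ⊓ E = ⊥ := by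
    rw [eq_bot_iff]
    rintro z ⟨⟨hz, -⟩, hzE⟩
    have h4 := ea_mul_comm hBel hz haB
    have h5 : z ∈ D := by
      have := mem_cj.1 (hE hzE)
      rwa [mul_assoc, h4, inv_mul_cancel_left] at this
    have h6 : π ⟨z, h5⟩ = 1 := by
      rw [p1]
      show (z * a) ^ 2 * (a ^ 2)⁻¹ = 1
      rw [Commute.mul_pow h4, (ea_iff.1 hBel).2 z hz, one_mul, mul_inv_cancel]
    exact congrArg Subtype.val ((injective_iff_map_eq_one π).1 hinj _ h6)
  have h4 := comm_bot_mono h0' le_rfl hE
  have h5 := card_sup_mul_card_inf (le_normalizer_of_commutator_eq_bot h4)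
  rw [h3, Subgroup.card_bot, mul_one] at h5
  obtain ⟨k, hk⟩ := (ea_isPGroup hBel).exists_card_eq
  have h6 := pRankLE_iff.1 (m2 hcard k (pRankLE_iff.2 fun A hA eA => hk ▸ hBmax A hA eA))
    (B ⊓ normalizer (D : Set G) ⊔ E) (sup_le (le_inf (inf_le_left.trans hBH) (comm_bot_iff.1 h0))
      (hE.trans (le_inf (cj_le_of_mem (hBH haB) hD.le) (comm_bot_iff.1 hcomm))))
    (ea_sup (ea_of_le hBel inf_le_left) eE h4)
  rw [h5, ← hk] at h6
  have h7 := Nat.card_pos (α := (B ⊓ normalizer (D : Set G) : Subgroup G))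
  have h8 := (Nat.mul_le_mul_left _ cE).trans (h6.trans h2)
  omega

end Cfsg.Agent.S1305
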