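import Cfsg.Statements.S1306
import Mathlib
import Cfsg.Agent.H9.Conn

set_option autoImplicit false
open Cfsg

namespace Cfsg.Agent.S1306

/-- Let G be finite, x an involution and L ≤ C_G(x) a component of C_G(x). Suppose L is a component of C_G(y) for every involution y ∈ C_G(L), and ⁅L, g L g⁻¹⁆ ≠ 1 whenever g L g⁻¹ ≠ L. Then L is a standard subgroup of G. -/
theorem result {G : Type*} [Group G] [Finite G] (x : G) (hx : orderOf x = 2) (L : Subgroup G) (hLx : L ≤ Subgroup.centralizer ({x} : Set G)) (hL : Cfsg.IsComponent (L.subgroupOf (Subgroup.centralizer ({x} : Set G)))) (hne : ∀ y : G, orderOf y = 2 → y ∈ Subgroup.centralizer (L : Set G) → L ≤ Subgroup.centralizer ({y} : Set G) ∧ Cfsg.IsComponent (L.subgroupOf (Subgroup.centralizer ({y} : Set G)))) (hnc : ∀ g : G, L.map (MulAut.conj g).toMonoidHom ≠ L → ⁅L, L.map (MulAut.conj g).toMonoidHom⁆ ≠ ⊥) : Cfsg.IsStandardSubgroup L := by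
  open Subgroup CfsgH9 in
  haveI : Fact (Nat.Prime 2) := ⟨Nat.prime_two⟩
  have hxL : x ∈ centralizer (L : Set G) := mem_centralizer_iff_le.2 hLx
  have key : ∀ g y : G, orderOf y = 2 → y ∈ centralizer (L : Set G) →
      y ∈ cj g (centralizer (L : Set G)) → g ∈ normalizer (L : Set G) := by
    intro g y hy h1 h2
    have a := hne y hy h1
    have b := hne (g⁻¹ * y * g⁻¹⁻¹) (by rw [orderOf_conj, hy]) (by simpa using mem_cj.1 h2)
    have c := ((comp_iff_subgroupOf b.1).2 b.2).cj g
    rw [cj_centralizer_singleton] at c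
    simp only [inv_inv, mul_assoc, mul_inv_cancel, mul_one, mul_inv_cancel_left] at c
    rw [← cj_eq_iff]
    by_contra e
    exact hnc g e (((comp_iff_subgroupOf a.1).2 a.2).comm_of_ne c (Ne.symm e))
  refine ⟨qs_iff.1 ((comp_iff_subgroupOf hLx).2 hL).2, ⟨?_, fun g hg => ?_⟩, hnc, ?_⟩
  · rw [even_iff_two_dvd, ← hx]; exact orderOf_dvd_natCard _ hxL
  · rw [odd_iff_coprime_two]
    exact coprime_of_forall_orderOf fun y hy hy2 =>
      hg (normalizer_le_normalizer_centralizer L (key g y hy2 hy.1 hy.2))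
  · exact le_antisymm (normalizer_le_normalizer_centralizer L) fun g hg =>
      key g x hx hxL (by rwa [cj_eq_of_mem_normalizer hg])

end Cfsg.Agent.S1306
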