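import Cfsg.Statements.S1307
import Mathlib
import Cfsg.Agent.H9.Loc
import Cfsg.Agent.H4.ZS2
import Cfsg.Agent.H9.QS
import Cfsg.Agent.H9.EA

set_option autoImplicit false
open Cfsg

namespace Cfsg.Agent.S1307

section
open Subgroup Cfsg CfsgH2 Function
open scoped commutatorElement

theorem aux {X : Type*} [Group X] [Finite X] (hq : IsQuasisimple X) (hev : Even (Nat.card X))
    (hrk : PRankLE 2 1 X) : ∃ t : X, orderOf t = 2 ∧ t ∈ center X ∧ ∃ S : Sylow 2 X, ∃ n : ℕ,
      Nonempty (↥(S : Subgroup X) ≃* QuaternionGroup (2 ^ (n + 1))) := by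
  haveI : Fact (Nat.Prime 2) := ⟨Nat.prime_two⟩
  have hd : 2 ∣ Nat.card X := even_iff_two_dvd.1 hev
  have qs := CfsgH9.qs_top.2 hq
  obtain ⟨t, ht⟩ := exists_prime_orderOf_dvd_card' (G := X) 2 hd
  have hiso : IsIsolatedInvolution t := by
    refine ⟨ht, fun g hg => ?_⟩
    have ho : orderOf (g * t * g⁻¹) = 2 := by
      rw [← ht]; exact (MulAut.conj g).orderOf_eq t
    have h1 := CfsgH9.mem_zpowers_of_rank_one (T := ⊤) (CfsgH9.pRankLE_top_subgroup.2 hrk)
      (mem_top (g * t * g⁻¹)) (mem_top t) (by rw [← ho]; exact pow_orderOf_eq_one _) ht hg.symm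
    obtain ⟨k, hk⟩ := (mem_powers_iff_mem_zpowers.2 h1)
    simp only at hk
    rw [← pow_mod_orderOf, ht] at hk
    rcases Nat.mod_two_eq_zero_or_one k with h | h
    · rw [h, pow_zero] at hk
      rw [← hk, orderOf_one] at ho
      omega
    · rw [h, pow_one] at hk
      exact hk.symm
  have hz := CfsgH4.inZStar_of_isolated hiso
  have hO : ⁅pPrimeCore 2 X, (⊤ : Subgroup X)⁆ = ⊥ := by
    refine (qs.norm _ le_top le_normalizer_of_normal).resolve_left fun h => ?_
    have := CfsgH2.not_dvd_pPrimeCore (p := 2) (G := X)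
    rw [h, Subgroup.card_top] at this
    exact this hd
  have h2 : ⁅zpowers t, (⊤ : Subgroup X)⁆ ≤ pPrimeCore 2 X := by
    refine Subgroup.commutator_le.2 fun a ha g _ => ?_
    have h3 := inv_mem (CfsgH4.inZStar_of_mem_zpowers hz ha g)
    rw [commutatorElement_def]
    convert h3 using 1
    group
  have h4 : ⁅zpowers t, (⊤ : Subgroup X)⁆ = ⊥ :=
    CfsgH9.comm_bot_of_perfect qs.perf (CfsgH9.comm_bot_mono hO h2 le_rfl)
  refine ⟨t, ht, mem_center_iff.2 fun g =>
    (CfsgH9.comm_bot_iff_forall.1 h4 t (mem_zpowers t) g (mem_top g)).symm, ?_⟩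
  obtain ⟨S⟩ := (Sylow.nonempty : Nonempty (Sylow 2 X))
  rcases CfsgH9.cyc_or_quat_of_rank_one S.isPGroup' (CfsgH9.pRankLE_of_top hrk _) with
    hc | ⟨-, n, hn, e⟩
  · exfalso
    have hm : (Nat.card X).minFac = 2 := (Nat.minFac_eq_two_iff _).2 hd
    have hcp := hc.isComplement' hm
    set f := MonoidHom.transferSylow S (hc.normalizer_le_centralizer hm)
    have hk : f.ker = ⊤ := by
      rw [eq_top_iff, ← qs.perf]
      refine Subgroup.commutator_le.2 fun a _ b _ => ?_
      rw [MonoidHom.mem_ker, map_commutatorElement, commutatorElement_eq_one_iff_mul_comm]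
      exact hc.commutative.is_comm.comm _ _
    rw [hk] at hcp
    have hb : (S : Subgroup X) = ⊥ := by
      have := hcp.disjoint
      rwa [top_disjoint] at this
    have := S.not_dvd_index
    rw [hb, Subgroup.index_bot] at this
    exact this hd
  · exact ⟨S, n - 1, by rwa [Nat.sub_add_cancel hn]⟩

end

/-- Let G be finite, x an involution and L ≤ C_G(x) a component of C_G(x) of even order and 2-rank 1, such that L is a component of C_G(y) for every involution y ∈ C_G(L). Then some involution of L is a classical involution of G. -/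
theorem result {G : Type*} [Group G] [Finite G] (x : G) (hx : orderOf x = 2) (L : Subgroup G) (hLx : L ≤ Subgroup.centralizer ({x} : Set G)) (hL : Cfsg.IsComponent (L.subgroupOf (Subgroup.centralizer ({x} : Set G)))) (heven : Even (Nat.card ↥L)) (hrk : Cfsg.PRankLE 2 1 ↥L) (hne : ∀ y : G, orderOf y = 2 → y ∈ Subgroup.centralizer (L : Set G) → L ≤ Subgroup.centralizer ({y} : Set G) ∧ Cfsg.IsComponent (L.subgroupOf (Subgroup.centralizer ({y} : Set G)))) : ∃ t ∈ L, Cfsg.IsClassicalInvolution t := by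
  open Subgroup Cfsg CfsgH2 Function in
  open scoped commutatorElement in
  have hq : IsQuasisimple L :=
    (CfsgH9.isQuasisimple_congr (Subgroup.subgroupOfEquivOfLe hLx)).1 hL.2
  obtain ⟨t, ht, hc, S, n, e⟩ := aux hq heven hrk
  have ho : orderOf (t : G) = 2 := by rw [Subgroup.orderOf_coe, ht]
  have hc' : (t : G) ∈ centralizer (L : Set G) := mem_centralizer_iff.2 fun g hg =>
    congrArg Subtype.val (mem_center_iff.1 hc ⟨g, hg⟩)
  obtain ⟨h1, h2⟩ := hne t ho hc'
  exact ⟨t, t.2, ho, L, h1, t.2, h2.1, S, n, e⟩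

end Cfsg.Agent.S1307
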