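import Cfsg.Statements.S1314
import Mathlib
import Cfsg.Agent.H9.Comp2

set_option autoImplicit false
open Cfsg

namespace Cfsg.Agent.S1314

/-- Let x be an involution of a group G and L a perfect subgroup with ⁅L, x L x⁻¹⁆ = 1. Then l ↦ l (x l x⁻¹) is a group homomorphism π from L to G whose kernel is central in L and whose image lies in C_G(x); and the commutator subgroup of C_{L ⊔ xLx⁻¹}(x) equals the image of π. -/
theorem result {G : Type*} [Group G] [Finite G] (x : G) (hx : orderOf x = 2) (L : Subgroup G) (hperf : ⁅L, L⁆ = L) (hcomm : ⁅L, L.map (MulAut.conj x).toMonoidHom⁆ = ⊥) : ∃ π : ↥L →* G, (∀ l : ↥L, π l = (l : G) * (x * (l : G) * x⁻¹)) ∧ π.ker ≤ Subgroup.center ↥L ∧ π.range ≤ Subgroup.centralizer ({x} : Set G) ∧ ⁅(L ⊔ L.map (MulAut.conj x).toMonoidHom) ⊓ Subgroup.centralizer ({x} : Set G), (L ⊔ L.map (MulAut.conj x).toMonoidHom) ⊓ Subgroup.centralizer ({x} : Set G)⁆ = π.range := by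
  open Subgroup CfsgH9 in
  have hxx : x * x = 1 := by rw [← pow_two, ← hx, pow_orderOf_eq_one]
  have hxi : x⁻¹ = x := inv_eq_of_mul_eq_one_right hxx
  have hc : ∀ a ∈ L, ∀ b ∈ L, a * (x * b * x⁻¹) = (x * b * x⁻¹) * a := fun a ha b hb =>
    comm_bot_iff_forall.1 hcomm a ha _ (conj_mem_cj x hb)
  let π : L →* G :=
    { toFun := fun l => (l : G) * (x * l * x⁻¹)
      map_one' := by simp
      map_mul' := fun a b => by
        simp only [Subgroup.coe_mul]
        calc (a : G) * b * (x * (a * b) * x⁻¹) = a * (b * (x * a * x⁻¹)) * (x * b * x⁻¹) := by group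
          _ = _ := by rw [hc b b.2 a a.2]; group }
  have hπ : ∀ l : L, π l = (l : G) * (x * l * x⁻¹) := fun _ => rfl
  have hr : π.range ≤ centralizer ({x} : Set G) := by
    rintro _ ⟨l, rfl⟩
    rw [mem_centralizer_singleton_iff, hπ, hc l l.2 l l.2]
    calc x * l * x⁻¹ * l * x = x * (l * (x * l * x⁻¹)) := by rw [hxi]; group
      _ = _ := by rw [hc l l.2 l l.2]
  have hrl : π.range ≤ L ⊔ cj x L := by
    rintro _ ⟨l, rfl⟩
    exact mul_mem_sup l.2 (conj_mem_cj x l.2)
  refine ⟨π, hπ, ?_, hr, ?_⟩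
  · intro l hl
    rw [Subgroup.mem_center_iff]
    intro g
    have h1 : (l : G) * (x * l * x⁻¹) = 1 := hl
    have h2 : (l : G) = x * (l⁻¹ : L) * x⁻¹ := by
      calc (l : G) = (x * l * x⁻¹)⁻¹ := mul_eq_one_iff_eq_inv.1 h1
        _ = _ := by simp [mul_assoc]
    ext
    simp only [Subgroup.coe_mul]
    rw [h2]
    exact hc g g.2 _ (l⁻¹).2
  · set M := L ⊔ cj x L with hM
    set Z := M ⊓ centralizer (M : Set G) with hZ
    have hP : ⁅π.range, π.range⁆ = π.range := by
      have : ⁅(⊤ : Subgroup L), (⊤ : Subgroup L)⁆ = ⊤ := by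
        apply map_injective L.subtype_injective
        rw [map_commutator, map_subtype_top, hperf]
      rw [MonoidHom.range_eq_map, ← map_commutator, this]
    apply le_antisymm _ (hP.symm.le.trans (commutator_mono (le_inf hrl hr) (le_inf hrl hr)))
    have hle : M ⊓ centralizer ({x} : Set G) ≤ π.range ⊔ Z := by
      rintro y ⟨hy, hyx⟩
      obtain ⟨a, ha, _, ⟨b, hb, rfl⟩, rfl⟩ :=
        (mem_sup_of_le_normalizer (le_normalizer_of_commutator_eq_bot hcomm)).1 hy
      have hyx' : a * (x * b * x⁻¹) * x = x * (a * (x * b * x⁻¹)) :=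
        mem_centralizer_singleton_iff.1 hyx
      have e1 : a * (x * b * x⁻¹) = b * (x * a * x⁻¹) := by
        rw [hc b hb a ha]
        calc a * (x * b * x⁻¹) = x⁻¹ * (x * (a * (x * b * x⁻¹))) := by group
          _ = x⁻¹ * (x * (a * (x * b * x⁻¹))) * (x * x) := by rw [hxx, mul_one]
          _ = x⁻¹ * x * (a * (x * b * x⁻¹) * x) * x := by group
          _ = x⁻¹ * x * (x * (a * (x * b * x⁻¹))) * x := by rw [hyx']
          _ = x * a * (x * b) := by group
          _ = _ := by rw [hxi]; group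
      have e2 : b⁻¹ * a = x * (a * b⁻¹) * x⁻¹ := by
        calc b⁻¹ * a = b⁻¹ * (a * (x * b * x⁻¹)) * (x * b⁻¹ * x⁻¹) := by group
          _ = _ := by rw [e1]; group
      have hz : b⁻¹ * a ∈ Z := by
        refine ⟨mem_sup_left (mul_mem (inv_mem hb) ha), ?_⟩
        rw [hM, centralizer_sup]
        refine ⟨?_, comm_bot_iff.1 hcomm (mul_mem (inv_mem hb) ha)⟩
        rw [e2]
        exact comm_bot_iff'.1 hcomm (conj_mem_cj x (mul_mem ha (inv_mem hb)))
      have e3 : a * (x * b * x⁻¹) = π ⟨b, hb⟩ * (b⁻¹ * a) := by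
        rw [hπ]
        have := hc _ (mul_mem (inv_mem hb) ha) b hb
        calc a * (x * b * x⁻¹) = b * (b⁻¹ * a * (x * b * x⁻¹)) := by group
          _ = _ := by rw [this]; group
      change a * (x * b * x⁻¹) ∈ _
      rw [e3]
      exact mul_mem_sup ⟨_, rfl⟩ hz
    refine (commutator_mono hle hle).trans ?_
    rw [commutator_sup_central (comm_bot_iff.2 (inf_le_right.trans (centralizer_anti hrl)))
      (center_comm_self M), hP]

end Cfsg.Agent.S1314
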