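import Cfsg.Statements.S1316
import Mathlib
import Cfsg.Agent.H9.Comp2

set_option autoImplicit false
open Cfsg

namespace Cfsg.Agent.S1316

/-- For a finite group X, E(X) equals the intersection of the derived series of F*(X) (its last term). -/
theorem result {X : Type*} [Group X] [Finite X] : (⨅ n : ℕ, (derivedSeries ↥(Cfsg.generalizedFittingSubgroup X) n).map (Cfsg.generalizedFittingSubgroup X).subtype) = Cfsg.layer X := by
  open Subgroup CfsgH9 in
  have key : ∀ n, (derivedSeries (generalizedFittingSubgroup X) n).map
      (generalizedFittingSubgroup X).subtype = Lay ⊤ ⊔ (derivedSeries (Fit (⊤ : Subgroup X)) n).map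
        (Fit (⊤ : Subgroup X)).subtype := by
    intro n
    induction n with
    | zero => rw [derivedSeries_zero, derivedSeries_zero, map_subtype_top, map_subtype_top,
        ← Fs_eq, Fs_top]
    | succ n ih =>
      rw [derivedSeries_succ, derivedSeries_succ, map_commutator, map_commutator, ih,
        commutator_sup_of_commute (comm_bot_mono (Lay_comm_Fit ⊤) le_rfl (map_subtype_le _)),
        Lay_perfect]
  simp only [key, ← Lay_top]
  apply le_antisymm _ (le_iInf fun n => le_sup_left)
  have : Group.IsSolvable (Fit (⊤ : Subgroup X)) := have := Fit_nilpotent (⊤ : Subgroup X); inferInstance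
  obtain ⟨n, hn⟩ := this
  refine (iInf_le _ n).trans ?_
  rw [hn, Subgroup.map_bot, sup_bot_eq]

end Cfsg.Agent.S1316
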