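import Cfsg.Statements.S1318
import Mathlib
import Cfsg.Agent.H9.Comp2

set_option autoImplicit false
open Cfsg

namespace Cfsg.Agent.S1318

/-- Let X be finite and S ≤ F*(X) a subgroup subnormal in F*(X). Then F(S) = F(X) ∩ S (inside X) and S = F(S)E(S). -/
theorem result {X : Type*} [Group X] [Finite X] (S : Subgroup X) (hS : S ≤ Cfsg.generalizedFittingSubgroup X) (hsn : (S.subgroupOf (Cfsg.generalizedFittingSubgroup X)).IsSubnormal) : (Cfsg.fittingSubgroup ↥S).map S.subtype = Cfsg.fittingSubgroup X ⊓ S ∧ Cfsg.fittingSubgroup ↥S ⊔ Cfsg.layer ↥S = ⊤ := by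
  open Subgroup CfsgH9 in
  rw [← sn_iff_subgroupOf hS, ← Fs_top] at hsn
  refine ⟨?_, ?_⟩
  · rw [← Fit_top (G := X)]; exact Fit_of_sn (hsn.trans (sn_Fs ⊤))
  · apply map_injective S.subtype_injective
    rw [map_subtype_top, sup_comm]
    exact Fs_eq_self_of_sn hsn

end Cfsg.Agent.S1318
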