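import Cfsg.Statements.S1319
import Mathlib
import Cfsg.Agent.H9.Comp2

set_option autoImplicit false
open Cfsg

namespace Cfsg.Agent.S1319

/-- Let A be a subnormal subgroup of the finite group X with E(A) = A. Then A ≤ E(X) and A is normal in E(X). -/
theorem result {X : Type*} [Group X] [Finite X] (A : Subgroup X) (hsn : A.IsSubnormal) (hA : Cfsg.layer ↥A = ⊤) : A ≤ Cfsg.layer X ∧ (A.subgroupOf (Cfsg.layer X)).Normal := by
  open Subgroup CfsgH9 in
  have e : Lay A = A := by rw [Lay, hA, map_subtype_top]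
  have h1 : A ≤ layer X := by rw [← Lay_top, ← e]; exact Lay_mono (sn_top_iff.2 hsn)
  refine ⟨h1, (normal_subgroupOf_iff_le_normalizer h1).2 ?_⟩
  have := Lay_le_normalizer_Lay_of_sn (sn_top_iff.2 hsn)
  rwa [e, Lay_top] at this

end Cfsg.Agent.S1319
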