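import Cfsg.Statements.S1321
import Mathlib
import Cfsg.Agent.H9.Comp2

set_option autoImplicit false
open Cfsg

namespace Cfsg.Agent.S1321

/-- Let X be finite and U ≤ X. Then E(X) is generated by C_{E(X)}(U) together with ⁅E(X), U⁆ (indeed it is their product, ⁅E(X), U⁆ being normal in E(X)). -/
theorem result {X : Type*} [Group X] [Finite X] (U : Subgroup X) : Cfsg.layer X = (Cfsg.layer X ⊓ Subgroup.centralizer (U : Set X)) ⊔ ⁅Cfsg.layer X, U⁆ ∧ ⁅Cfsg.layer X, U⁆ ≤ Cfsg.layer X := by
  open Subgroup CfsgH9 in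
  rw [← Lay_top]
  exact ⟨Lay_eq_centralizer_sup_commutator (le_top.trans le_normalizer),
    commutator_le_left_of (le_normalizer_Lay (le_top.trans le_normalizer))⟩

end Cfsg.Agent.S1321
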