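import Cfsg.Statements.S1326
import Mathlib
import Cfsg.Agent.H9.Comp2

set_option autoImplicit false
open Cfsg

namespace Cfsg.Agent.S1326

/-- For a finite group X: the Fitting subgroup contains its centralizer if and only if the layer of X is trivial. -/
theorem result {X : Type*} [Group X] [Finite X] : Subgroup.centralizer (Cfsg.fittingSubgroup X : Set X) ≤ Cfsg.fittingSubgroup X ↔ Cfsg.layer X = ⊥ := by
  open Subgroup CfsgH9 in
  rw [← Lay_top, ← Fit_top, ← Fs_eq_Fit_iff]
  constructor
  · intro h
    rw [Fs_eq]
    exact sup_eq_right.2 ((comm_bot_iff.1 (Lay_comm_Fit ⊤)).trans h)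
  · intro h
    have := centralizer_Fs_le_Fit (⊤ : Subgroup X)
    rwa [h, top_inf_eq] at this

end Cfsg.Agent.S1326
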