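import Cfsg.Statements.S1328
import Mathlib
import Cfsg.Agent.H9.Bal2

set_option autoImplicit false
open Cfsg

namespace Cfsg.Agent.S1328

/-- Let G be finite, H ≤ G with O(H) = 1, t an involution of G normalizing H, and Y a nontrivial subgroup of O(C_H(t)). Then some component E of H is normalized by t and by Y and centralized by neither t nor Y. -/
theorem result {G : Type*} [Group G] [Finite G] (H : Subgroup G) (hO : Cfsg.oddCore ↥H = ⊥) (t : G) (ht : orderOf t = 2) (htH : t ∈ Subgroup.normalizer (H : Set G)) (Y : Subgroup G) (hY1 : Y ≠ ⊥) (hY : Y ≤ (Cfsg.oddCore ↥(H ⊓ Subgroup.centralizer ({t} : Set G))).map (H ⊓ Subgroup.centralizer ({t} : Set G)).subtype) : ∃ E : Subgroup ↥H, Cfsg.IsComponent E ∧ (E.map H.subtype).map (MulAut.conj t).toMonoidHom = E.map H.subtype ∧ Y ≤ Subgroup.normalizer ((E.map H.subtype : Subgroup G) : Set G) ∧ ¬ (t ∈ Subgroup.centralizer ((E.map H.subtype : Subgroup G) : Set G)) ∧ ¬ (Y ≤ Subgroup.centralizer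 ((E.map H.subtype : Subgroup G) : Set G)) := by
  open Subgroup CfsgH9 in
  haveI : Fact (Nat.Prime 2) := ⟨Nat.prime_two⟩
  set M := H ⊔ zpowers t with hM
  have hMH : M ≤ normalizer (H : Set G) := sup_le le_normalizer (zpowers_le.2 htH)
  have hs : Sn H M := .of_normal le_sup_left hMH
  have hO1 : Opp 2 H = ⊥ := by rw [Opp, show pPrimeCore 2 H = ⊥ from hO, Subgroup.map_bot]
  have hup : Oup 2 M ≤ H := Oup_le_sup_of_isPGroup (isPGroup_zpowers_of_prime ht)
    (zpowers_le.2 htH) (sup_comm H (zpowers t)).le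
  have hO2 : Opp 2 M = ⊥ := by
    rw [Opp_of_sn hs, inf_eq_left.2 ((le_Oup (Opp_le 2 M) (Opp_coprime 2 M)).trans hup)] at hO1
    exact hO1
  have htM : t ∈ M := mem_sup_right (mem_zpowers t)
  have hY2 : Y ≤ Opp 2 (M ⊓ centralizer ({t} : Set G)) := hY.trans (Opp_mono (hs.inf_right _))
  have : ¬ ∀ L, Comp L M → ⁅L, Y⁆ = ⊥ := fun h => hY1 (eq_bot_of_comm_comp hO2 ht htM hY2 h)
  push Not at this
  obtain ⟨L, hL, hLY⟩ := this
  have hLH : L ≤ H := (Oup_eq_self_of_perfect (p := 2) hL.perf).symm.le.trans ((Oup_mono hL.le).trans hup)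
  have h1 : ⁅L, zpowers t⁆ = L := by
    by_contra hne
    exact hLY (comm_bot_mono (hL.comm_Opp_centralizer hO2 ht htM hne) le_rfl hY2)
  obtain ⟨h2, h3⟩ := hL.commutator_zpowers_eq h1
  refine ⟨L.subgroupOf H, (comp_iff_subgroupOf hLH).1 (hL.mono hLH le_sup_left), ?_⟩
  rw [map_subgroupOf_eq_of_le hLH]
  exact ⟨cj_eq_iff.2 h2, hY2.trans (Opp_centralizer_le_normalizer_comp hO2 ht htM hL), h3,
    fun e => hLY (comm_bot_iff'.2 e)⟩

end Cfsg.Agent.S1328
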