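import Cfsg.Statements.S1329
import Mathlib
import Cfsg.Agent.H9.Gold
import Cfsg.Agent.H9.Gl2

set_option autoImplicit false
open Cfsg

namespace Cfsg.Agent.S1329

/-- Let A be an abelian 2-subgroup of the finite group G, B ≤ A, and Y a subgroup of odd order normalized by A with ⁅Y, A⁆ = Y. Then Y ∩ C_G(B) is generated by the subgroups Y ∩ C_G(B) ∩ ⁅Y ∩ C_G(B₀), A⁆, B₀ ranging over the subgroups of B with B / B₀ cyclic. -/
theorem result {G : Type*} [Group G] [Finite G] (A B Y : Subgroup G) (hA2 : IsPGroup 2 ↥A) (hAc : IsMulCommutative ↥A) (hB : B ≤ A) (hYodd : Odd (Nat.card ↥Y)) (hAY : A ≤ Subgroup.normalizer (Y : Set G)) (hYA : ⁅Y, A⁆ = Y) : Y ⊓ Subgroup.centralizer (B : Set G) = ⨆ B₀ : {B₀ : Subgroup G // B₀ ≤ B ∧ ∀ [(B₀.subgroupOf B).Normal], IsCyclic (↥B ⧸ B₀.subgroupOf B)}, Y ⊓ Subgroup.centralizer (B : Set G) ⊓ ⁅Y ⊓ Subgroup.centralizer ((B₀ : Subgroup G) : Set G), A⁆ := by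
  open Subgroup CfsgH9 in
  haveI : Fact (Nat.Prime 2) := ⟨Nat.prime_two⟩
  have hc := Nat.coprime_two_right.2 hYodd
  refine le_antisymm (gold hA2 (isMulCommutative_iff_comm.1 hAc) hB (solvable_of_odd hc) hc hAY hYA
    fun D d1 ⟨b, b1, b2⟩ => le_iSup_of_le ⟨D, d1, fun {_} => ?_⟩ (le_inf (le_inf (inf_le_left.trans
      ((commutator_mono inf_le_left le_rfl).trans hYA.le)) inf_le_right) inf_le_left))
    (iSup_le fun D => inf_le_left)
  refine isCyclic_iff_exists_zpowers_eq_top.2 ⟨QuotientGroup.mk' _ ⟨b, b1⟩, ?_⟩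
  have := im_mono (f := QuotientGroup.mk' (D.subgroupOf B)) b2
  rw [im_top (QuotientGroup.mk'_surjective _), im_sup d1 (zpowers_le.2 b1), im_zpowers b1,
    (im_eq_bot_iff d1).2 (kr_mk'_subgroupOf d1).ge, bot_sup_eq] at this
  exact eq_top_iff.2 this

end Cfsg.Agent.S1329
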