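import Cfsg.Statements.S1330
import Mathlib
import Cfsg.Agent.H9.Gold
import Cfsg.Agent.H9.Gl2
import Cfsg.Agent.H9.PT
import Cfsg.Agent.H9.Pump2

set_option autoImplicit false
open Cfsg

namespace Cfsg.Agent.S1330

section
open Subgroup CfsgH9
open scoped commutatorElement

local instance : Fact (Nat.Prime 2) := ⟨Nat.prime_two⟩

theorem loc {Q : Type*} [Group Q] [Finite Q] {L W D : Subgroup Q} {a : Q}
    (hO : Opp 2 (⊤ : Subgroup Q) = ⊥) (ha : orderOf a = 2) (hL : Comp L ⊤)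
    (hW : W ≤ Opp 2 (⊤ ⊓ centralizer ({a} : Set Q))) (hD : D ≤ normalizer (W : Set Q))
    (h : ⁅L, zpowers a⁆ = ⊥ ∨ D ≤ centralizer (L : Set Q) ⊔ zpowers a) : ⁅L, ⁅W, D⁆⁆ = ⊥ := by
  by_cases e : ⁅L, zpowers a⁆ = L
  · have h1 := h.resolve_left fun e' => hL.ne_bot (e.symm.trans e')
    have h2 := le_normalizer_centralizer
      (hW.trans (Opp_centralizer_le_normalizer_comp hO ha (mem_top a) hL))
    refine comm_bot_iff'.2 ((commutator_mono le_rfl h1).trans (commutator_sup_le' le_normalizer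
      (le_normalizer_centralizer (zpowers_le.2 (hL.commutator_zpowers_eq e).1))
      (commutator_le_right_of h2) ?_))
    rw [comm_zpowers_iff.2 (hW.trans ((Opp_le 2 _).trans inf_le_right))]
    exact bot_le
  · exact comm_bot_mono (hL.comm_Opp_centralizer hO ha (mem_top a) e) le_rfl
      ((commutator_le_left_of hD).trans hW)

variable {G : Type*} [Group G] [Finite G] {A₁ A₂ : Subgroup G}

theorem im_le {a c : G} (ha : orderOf a = 2) (hac : a ∈ centralizer ({c} : Set G)) :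
    im (qpp 2 (centralizer ({c} : Set G)))
      (Opp 2 (centralizer ({a} : Set G)) ⊓ centralizer ({c} : Set G)) ≤
      Opp 2 (⊤ ⊓ centralizer ({qpp 2 (centralizer ({c} : Set G)) ⟨a, hac⟩} : Set _)) := by
  have hk : ∀ K : Subgroup G, (Nat.card (kr (qpp 2 (centralizer ({c} : Set G))) ⊓ K :
      Subgroup G)).Coprime 2 := fun K => coprime_of_le inf_le_left (by rw [kr_qpp]; exact Opp_coprime 2 _)
  rw [← im_qpp_self 2, ← im_inf_centralizer_singleton (k := 1) ha hac le_rfl (le_normalizer hac) (hk _),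
    ← im_Opp inf_le_left (hk _)]
  refine im_mono (le_trans (le_inf inf_le_left (le_inf inf_le_right (inf_le_left.trans (Opp_le 2 _))))
    (Opp_inf_le_Opp (inf_le_right.trans le_normalizer)))

theorem ord_im {a c : G} (ha : orderOf a = 2) (hac : a ∈ centralizer ({c} : Set G)) :
    orderOf (qpp 2 (centralizer ({c} : Set G)) ⟨a, hac⟩) = 2 :=
  orderOf_im_eq_prime _ hac ha fun e => by
    rw [kr_qpp] at e
    have := coprime_of_le (zpowers_le.2 e) (Opp_coprime 2 _)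
    rw [Nat.card_zpowers, ha] at this
    norm_num at this

theorem kill {a c : G} (ha : orderOf a = 2) (hac : a ∈ centralizer ({c} : Set G)) {X : Subgroup G}
    (hX : X ≤ Opp 2 (centralizer ({a} : Set G)) ⊓ centralizer ({c} : Set G))
    (h : ∀ K, PComp 2 K (centralizer ({c} : Set G)) → ⁅im (qpp 2 (centralizer ({c} : Set G))) K,
      im (qpp 2 (centralizer ({c} : Set G))) X⁆ = ⊥) : X ≤ Opp 2 (centralizer ({c} : Set G)) := by
  rw [← kr_qpp, ← im_eq_bot_iff (hX.trans inf_le_right)]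
  refine eq_bot_of_comm_comp (Opp_quotient _) (ord_im ha hac) (mem_top _)
    ((im_mono hX).trans (im_le ha hac)) fun L hL => ?_
  obtain ⟨K, k1, rfl⟩ := exists_pcomp_of_comp hL
  exact h K k1

omit [Finite G] in
theorem symm (h : IsCoreSeparated A₁ A₂) : IsCoreSeparated A₂ A₁ := by
  obtain ⟨a, b, c, d, e, f, g, k⟩ := h
  exact ⟨b, a, d, c, e.symm, by rwa [inf_comm], fun x hx y hy => (g y hy x hx).symm,
    fun x hx h1 E hE => (k x (by rwa [sup_comm]) h1 E hE).symm⟩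

omit [Finite G] in
theorem ea (h : IsCoreSeparated A₁ A₂) : IsElementaryAbelian 2 (A₁ ⊔ A₂) :=
  ea_sup h.1 h.2.1 (comm_bot_iff_forall.2 h.2.2.2.2.2.2.1)

theorem sep (h : IsCoreSeparated A₁ A₂) {c : G} (hc : c ∈ A₁ ⊔ A₂) (h1 : c ≠ 1) {K : Subgroup G}
    (hK : PComp 2 K (centralizer ({c} : Set G))) :
    ⁅im (qpp 2 (centralizer ({c} : Set G))) K, im (qpp 2 (centralizer ({c} : Set G))) A₁⁆ = ⊥ ∨
    ⁅im (qpp 2 (centralizer ({c} : Set G))) K, im (qpp 2 (centralizer ({c} : Set G))) A₂⁆ = ⊥ := by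
  have := h.2.2.2.2.2.2.2 c hc h1 _ ((pcomp_iff_subgroupOf hK.le).1 hK)
  have e := ea_le_centralizer_singleton (ea h) hc
  rwa [map_subgroupOf_eq_of_le hK.le, im_comm_bot_iff hK.le (le_sup_left.trans e),
    im_comm_bot_iff hK.le (le_sup_right.trans e), kr_qpp] at *

theorem k2 (h : IsCoreSeparated A₁ A₂) {a c : G} (ha : a ∈ A₁ ⊔ A₂) (a1 : a ≠ 1) (hc : c ∈ A₁)
    (c1 : c ≠ 1) : ⁅Opp 2 (centralizer ({a} : Set G)) ⊓ centralizer ({c} : Set G), A₁⁆ ≤
      Opp 2 (centralizer ({c} : Set G)) := by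
  have e := ea h
  have eC := ea_le_centralizer_singleton e (mem_sup_left hc)
  have ao := ea_orderOf e ha a1
  have n1 : A₁ ≤ normalizer ((Opp 2 (centralizer ({a} : Set G)) ⊓ centralizer ({c} : Set G) :
      Subgroup G) : Set G) := le_sup_left.trans (le_normalizer_inf (le_normalizer_Opp
        ((ea_le_centralizer_singleton e ha).trans le_normalizer)) (eC.trans le_normalizer))
  refine kill ao (eC ha) (commutator_le_left_of n1) fun K hK => ?_
  rw [im_commutator inf_le_right (le_sup_left.trans eC)]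
  refine loc (Opp_quotient _) (ord_im ao (eC ha)) hK.comp_qpp (im_le ao (eC ha))
    (im_le_normalizer n1) ?_
  rcases sep h (mem_sup_left hc) c1 hK with h1 | h1
  · exact Or.inr (le_sup_of_le_left (comm_bot_iff'.1 h1))
  have cc : zpowers c ≤ centralizer ({c} : Set G) := zpowers_le.2 (eC (mem_sup_left hc))
  have h2 : ⁅im (qpp 2 (centralizer ({c} : Set G))) K,
      im (qpp 2 (centralizer ({c} : Set G))) (A₂ ⊔ zpowers c)⁆ = ⊥ := by
    rw [im_sup (le_sup_right.trans eC) cc]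
    refine comm_bot_sup_right h1 ((im_comm_bot_iff hK.le cc).2 ?_)
    rw [comm_zpowers_iff.2 hK.le]; exact bot_le
  have hl : A₂ ⊔ zpowers c ≤ A₁ ⊔ A₂ := sup_le le_sup_right (zpowers_le.2 (mem_sup_left hc))
  rw [← im_zpowers (eC ha)]
  by_cases h3 : a ∈ A₂ ⊔ zpowers c
  · exact Or.inl (comm_bot_mono h2 le_rfl (im_mono (zpowers_le.2 h3)))
  have h4 : Hyp 2 (A₂ ⊔ zpowers c) (A₁ ⊔ A₂) := by
    refine ⟨hl, ?_⟩
    have := card_sup_mul_card_inf (le_sup_left.trans (ea_le_normalizer e le_sup_right))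
    rw [h.2.2.2.2.2.1, card_bot, h.2.2.1, h.2.2.2.1] at this
    rw [card_sup_zpowers (ea_orderOf h.1 hc c1) (fun e' => c1 (mem_bot.1 (h.2.2.2.2.2.1.le
      (mem_inf.2 ⟨hc, e'⟩)))) (ea_le_normalizer e le_sup_right (mem_sup_left hc)), h.2.2.2.1]
    omega
  refine Or.inr ((im_mono (le_sup_left.trans (h4.sup_zpowers' ha h3).ge)).trans ?_)
  rw [im_sup (hl.trans eC) (zpowers_le.2 (eC ha))]
  exact sup_le_sup_right (comm_bot_iff'.1 h2) _

/-- one factor of the functor -/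
def th (A : Subgroup G) (a : G) : Subgroup G := ⁅Opp 2 (centralizer ({a} : Set G)), A⁆ ⊔
  (Opp 2 (centralizer ({a} : Set G)) ⊓ Opp 2 (centralizer (A : Set G)))

theorem k3 (h : IsCoreSeparated A₁ A₂) {a : G} (ha : a ∈ A₁ ⊔ A₂) (a1 : a ≠ 1) :
    th A₁ a ≤ Opp 2 (centralizer ({a} : Set G)) ∧ A₁ ⊔ A₂ ≤ normalizer (th A₁ a : Set G) ∧
      th A₁ a ⊓ centralizer (A₁ : Set G) ≤ Opp 2 (centralizer (A₁ : Set G)) := by
  have e := ea h
  have n0 := le_normalizer_Opp (p := 2) ((ea_le_centralizer_singleton e ha).trans le_normalizer)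
  have n1 := le_sup_left.trans n0
  have l1 := commutator_le_left_of n1
  refine ⟨sup_le l1 inf_le_left, le_normalizer_sup (le_normalizer_commutator n0
    (ea_le_normalizer e le_sup_left)) (le_normalizer_inf n0 (le_normalizer_Opp
      ((ea_le_centralizer_of_le e le_sup_left).trans le_normalizer))), ?_⟩
  rw [th, sup_comm, inf_sup_of_le_normalizer (inf_le_left.trans (le_normalizer_comm_left _ _))
    (inf_le_right.trans (Opp_le 2 _))]
  have hc := coprime_of_le l1 (Opp_coprime 2 _)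
  refine sup_le inf_le_right (gold (ea_isPGroup h.1) (ea_comm h.1) le_rfl (solvable_of_odd hc) hc
    (le_normalizer_comm_right _ _) (comm_comm_of_splits n1
      (coprime_sup_centralizer (ea_isPGroup h.1) (Opp_coprime 2 _) n1).ge) fun D d1 ⟨b, b1, b2⟩ => ?_)
  obtain ⟨c, c1, c2⟩ := exists_ne_one_of_ne_bot (A := D) fun e' => by
    rw [e', bot_sup_eq] at b2
    exact not_isCyclic_of_ea h.1 h.2.2.1.ge (isCyclic_of_le b2)
  exact (inf_le_inf_right _ ((commutator_mono (inf_le_inf l1 (centralizer_le_centralizer_singleton c1))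
    le_rfl).trans (k2 h ha a1 (d1 c1) c2))).trans (Opp_inf_le_Opp
      ((centralizer_le_centralizer_singleton (d1 c1)).trans le_normalizer))

theorem k4 (h : IsCoreSeparated A₁ A₂) {a b : G} (ha : a ∈ A₁ ⊔ A₂) (a1 : a ≠ 1) (hb : b ∈ A₁ ⊔ A₂)
    {X : Subgroup G} (x1 : X ≤ th A₁ a) (x2 : X ≤ centralizer ({b} : Set G))
    (x3 : A₁ ≤ normalizer (X : Set G)) :
    (∀ K, PComp 2 K (centralizer ({b} : Set G)) → ⁅im (qpp 2 (centralizer ({b} : Set G))) K,
      im (qpp 2 (centralizer ({b} : Set G))) A₁⁆ = ⊥ → ⁅im (qpp 2 (centralizer ({b} : Set G))) K,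
        im (qpp 2 (centralizer ({b} : Set G))) X⁆ = ⊥) ∧
    (X ≤ Opp 2 (centralizer ({b} : Set G)) → X ≤ th A₁ b) := by
  have e := ea h
  obtain ⟨t1, -, t3⟩ := k3 h ha a1
  have s := (coprime_sup_centralizer (ea_isPGroup h.1) (coprime_of_le (x1.trans t1) (Opp_coprime 2 _))
    x3).ge
  have s2 := (inf_le_inf_right _ x1).trans t3
  refine ⟨fun K hK hc => ?_, fun hX => s.trans (sup_le_sup (commutator_mono hX le_rfl)
    (le_inf (inf_le_left.trans hX) s2))⟩
  have eC := ea_le_centralizer_singleton e hb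
  have e1 := le_sup_left.trans eC
  have ao := ea_orderOf e ha a1
  refine comm_bot_mono ?_ le_rfl (im_mono s)
  rw [im_sup ((commutator_le_left_of x3).trans x2) (inf_le_left.trans x2), im_commutator x2 e1]
  refine comm_bot_sup_right (loc (Opp_quotient _) (ord_im ao (eC ha)) hK.comp_qpp
    ((im_mono (le_inf (x1.trans t1) x2)).trans (im_le ao (eC ha))) (im_le_normalizer x3)
    (Or.inr (le_sup_of_le_left (comm_bot_iff'.1 hc)))) ?_
  have hk : ∀ K : Subgroup G, (Nat.card (kr (qpp 2 (centralizer ({b} : Set G))) ⊓ K :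
      Subgroup G)).Coprime 2 := fun K => coprime_of_le inf_le_left (by rw [kr_qpp]; exact Opp_coprime 2 _)
  have c1 := hK.comp_qpp.mono (le_inf le_top (comm_bot_iff.1 hc)) le_top
  refine comm_bot_mono (c1.comm_Opp c1.qs.two_dvd) le_rfl ?_
  rw [← im_qpp_self 2, ← im_inf_centralizer_p (ea_isPGroup h.1) e1 le_rfl (e1.trans le_normalizer)
    (hk _), ← im_Opp inf_le_left (hk _)]
  exact im_mono ((le_inf s2 (inf_le_inf_right _ x2)).trans
    (Opp_inf_le_Opp (inf_le_right.trans le_normalizer)))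

end

/-- Let A₁, A₂ be core-separated four-subgroups of the finite group G and A = A₁A₂. For a ∈ G put O_a = O(C_G(a)) and θ a = ⋂_{i=1,2} ( ⁅O_a, A_i⁆ · (O_a ∩ O(C_G(A_i))) ). Then θ is an A-signalizer functor for the prime 2. -/
theorem result {G : Type*} [Group G] [Finite G] (A₁ A₂ : Subgroup G) (hcs : Cfsg.IsCoreSeparated A₁ A₂) : Cfsg.IsSignalizerFunctor 2 (A₁ ⊔ A₂) (fun a => (⁅Cfsg.centralizerPPrimeCore 2 a, A₁⁆ ⊔ (Cfsg.centralizerPPrimeCore 2 a ⊓ ((Cfsg.oddCore ↥(Subgroup.centralizer ((A₁ : Subgroup G) : Set G))).map (Subgroup.centralizer ((A₁ : Subgroup G) : Set G)).subtype))) ⊓ (⁅Cfsg.centralizerPPrimeCore 2 a, A₂⁆ ⊔ (Cfsg.centralizerPPrimeCore 2 a ⊓ ((Cfsg.oddCore ↥(Subgroup.centralizer ((A₂ : Subgroup G) : Set G))).map (Subgroup.centralizer ((A₂ : Subgroup G) : Set G)).subtype)))) := by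
  open Subgroup CfsgH9 in
  haveI : Fact (Nat.Prime 2) := ⟨Nat.prime_two⟩
  change Cfsg.IsSignalizerFunctor 2 (A₁ ⊔ A₂) fun a => th A₁ a ⊓ th A₂ a
  have h' := symm hcs
  have sw : ∀ {a}, a ∈ A₁ ⊔ A₂ → a ∈ A₂ ⊔ A₁ := fun h => by rwa [sup_comm]
  have n : ∀ a ∈ A₁ ⊔ A₂, a ≠ 1 → A₁ ⊔ A₂ ≤ normalizer ((th A₁ a ⊓ th A₂ a : Subgroup G) : Set G) :=
    fun a ha a1 => le_normalizer_inf (k3 hcs ha a1).2.1 (sup_comm A₁ A₂ ▸ (k3 h' (sw ha) a1).2.1)
  refine ⟨fun a ha a1 => inf_le_left.trans ((k3 hcs ha a1).1.trans (Opp_le 2 _)), fun a ha a1 =>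
    coprime_iff_not_dvd.1 (coprime_of_le (inf_le_left.trans (k3 hcs ha a1).1) (Opp_coprime 2 _)),
    fun a ha a1 => le_normalizer_iff_forall.1 (n a ha a1), fun a ha a1 b hb b1 => ?_⟩
  have eC := ea_le_centralizer_singleton (ea hcs) hb
  have x3 := le_normalizer_inf (n a ha a1) (eC.trans le_normalizer)
  obtain ⟨p1, q1⟩ := k4 hcs ha a1 hb (inf_le_left.trans inf_le_left) inf_le_right (le_sup_left.trans x3)
  obtain ⟨p2, q2⟩ := k4 h' (sw ha) a1 (sw hb) (inf_le_left.trans inf_le_right) inf_le_right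
    (le_sup_right.trans x3)
  have := kill (ea_orderOf (ea hcs) ha a1) (eC ha) (inf_le_inf_right _ (inf_le_left.trans
    (k3 hcs ha a1).1)) fun K hK => (sep hcs hb b1 hK).elim (p1 K hK) (p2 K hK)
  exact le_inf (q1 this) (q2 this)

end Cfsg.Agent.S1330
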