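import Cfsg.Statements.S1336
import Mathlib
import Cfsg.Agent.H9.Conn

set_option autoImplicit false
open Cfsg

namespace Cfsg.Agent.S1336

/-- Let G be finite and p prime. Then G has a proper subgroup H with p ∣ |H| and p ∤ |H ∩ gHg⁻¹| for every g ∉ H (a strongly p-embedded subgroup) if and only if G is not 1-connected for p. -/
theorem result {G : Type*} [Group G] [Finite G] (p : ℕ) [Fact p.Prime] : (∃ H : Subgroup G, H ≠ ⊤ ∧ p ∣ Nat.card ↥H ∧ ∀ g : G, g ∉ H → ¬ p ∣ Nat.card ↥(H ⊓ H.map (MulAut.conj g).toMonoidHom)) ↔ ¬ Cfsg.IsKConnected p 1 G := by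
  open Subgroup CfsgH9 in
  rw [isKConnected_iff]
  constructor
  · rintro ⟨H, h1, h2, h3⟩ hc
    obtain ⟨x, hx, hxp⟩ := exists_orderOf_prime_of_dvd h2
    obtain ⟨g, -, hg⟩ := exists_not_mem_of_card_lt (card_lt_of_lt (lt_top_iff_ne_top.2 h1))
    have h4 : cj g (zpowers x) ≤ H := (hc _ _ (eak_one_zpowers hxp) (EAk.cj g _ (eak_one_zpowers hxp))).induct
      (P := fun X => X ≤ H) (zpowers_le.2 hx) fun X Y hX hY hXY h b hb => by
        by_contra hbH
        obtain ⟨a, ha, ha1⟩ := exists_ne_one_of_ne_bot (ne_bot_of_pow_le one_ne_zero hX.2)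
        refine h3 b hbH (ea_orderOf hX.1 ha ha1 ▸ orderOf_dvd_natCard _ ⟨h ha, mem_cj.2 ?_⟩)
        rw [mul_assoc, comm_bot_iff_forall.1 hXY a ha b hb, inv_mul_cancel_left]
        exact h ha
    refine h3 g hg ?_
    rw [← hxp, ← orderOf_conj g x]
    exact orderOf_dvd_natCard _ ⟨h4 (conj_mem_cj g (mem_zpowers x)), conj_mem_cj g hx⟩
  · intro h
    push Not at h
    obtain ⟨E, E', hE, hE', hn⟩ := h
    have hE0 := ne_bot_of_pow_le one_ne_zero hE.2
    obtain ⟨S, hS, hES⟩ := exists_syl_ge (ea_isPGroup hE.1) le_top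
    obtain ⟨z, -, hz, hSz⟩ := exists_central_prime hS.pg le_rfl le_normalizer
      (fun e => hE0 (eq_bot_iff.2 (e ▸ hES)))
    have hz' := eak_one_zpowers hz
    have c1 : ∀ X, EAk p 1 X → X ≤ S → Conn (EAk p 1) X (zpowers z) := fun X h1 h2 =>
      Conn.single h1 hz' (comm_zpowers_iff.2 (h2.trans hSz))
    have c2 : ∀ X, EAk p 1 X → ∀ g, cj g X ≤ S → Conn (EAk p 1) X (cj g⁻¹ E) := fun X h1 g h2 => by
      have := ((c1 _ (EAk.cj g _ h1) h2).trans (c1 E hE hES).symm).cj EAk.cj g⁻¹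
      rwa [cj_inv_cj] at this
    set H := connStab (EAk p 1) EAk.cj E with hH
    have hSH : S ≤ H := (hSz.trans ((centralizer_zpowers z).ge.trans (centralizer_le_normalizer _))).trans
      (normalizer_le_connStab (c1 E hE hES))
    have c3 : ∀ x ∈ H, orderOf x = p → Conn (EAk p 1) (zpowers x) E := fun x hx hxp => by
      obtain ⟨g, hg, e⟩ := (hS.of_le hSH le_top).exists_cj_le (isPGroup_zpowers_of_prime hxp)
        (zpowers_le.2 hx)
      exact (c2 _ (eak_one_zpowers hxp) g e).trans (mem_connStab.1 (inv_mem hg)).symm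
    refine ⟨H, fun e => hn ?_, ?_, fun g hg hd => hg ?_⟩
    · obtain ⟨g, -, e2⟩ := hS.exists_cj_le (ea_isPGroup hE'.1) le_top
      exact (mem_connStab.1 (e ▸ mem_top g⁻¹ : g⁻¹ ∈ H)).trans (c2 _ hE' g e2).symm
    · obtain ⟨a, ha, ha1⟩ := exists_ne_one_of_ne_bot hE0
      exact ea_orderOf hE.1 ha ha1 ▸ orderOf_dvd_natCard _ (hSH (hES ha))
    · obtain ⟨x, hx, hxp⟩ := exists_orderOf_prime_of_dvd hd
      have h1 := (c3 _ (mem_cj.1 hx.2) (by simpa using (orderOf_conj g⁻¹ x).trans hxp)).cj EAk.cj g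
      rw [cj_zpowers] at h1
      simp only [mul_assoc, mul_inv_cancel, mul_one, mul_inv_cancel_left] at h1
      exact (c3 x hx.1 hxp).symm.trans h1

end Cfsg.Agent.S1336
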