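import Cfsg.Statements.S1337
import Mathlib
import Cfsg.Agent.H9.Conn
import Cfsg.Agent.H2.MaxCl2

set_option autoImplicit false
open Cfsg

namespace Cfsg.Agent.S1337

section
open Subgroup CfsgH9
open scoped commutatorElement

theorem main {P : Type*} [Group P] [Finite P] {p : ℕ} [hp : Fact p.Prime] (hP : IsPGroup p P)
    (hrk : ¬ PRankLE p 2 P) : ∃ U : Subgroup P, U.Normal ∧ IsElementaryAbelian p U ∧
      Nat.card U = p ^ 2 ∧ ∀ X : Subgroup P, EAk p 2 X →
        (Conn (EAk p 2) X U ↔ ¬ PRankLE p 2 (centralizer (X : Set P))) := by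
  obtain ⟨U, -, u1, u2⟩ : ∃ U ≤ (⊤ : Subgroup P), ⊤ ≤ normalizer (U : Set P) ∧ CfsgH2.El p 2 U := by
    by_contra hc
    push Not at hc
    rw [CfsgH2.prankLE_top_iff] at hrk
    rcases CfsgH2.cyc_or_mc' (hP.to_subgroup ⊤) hc with h | ⟨rfl, a, b, m, h⟩
    · have := CfsgH2.prk_le_one_of_cyclic (p := p) h
      omega
    · have h1 := CfsgH2.prk_le_of_relIndex (p := 2) (n := 1) h.toCy2.relIndex.dvd
      have h2 := CfsgH2.prk_le_one_of_cyclic (p := 2)
        (isCyclic_of_le (inf_le_right : ⊤ ⊓ zpowers a ≤ zpowers a))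
      omega
  have hU : EAk p 2 U := ⟨u2.el, u2.card.ge⟩
  have big : ∀ A : Subgroup P, IsElementaryAbelian p A → p ^ 3 ≤ Nat.card A →
      EAk p 2 (A ⊓ centralizer (U : Set P)) := by
    intro A a b
    refine ⟨ea_of_le a inf_le_left, Nat.le_of_mul_le_mul_right ?_ hp.1.pos⟩
    rw [← pow_succ, inf_comm]
    refine b.trans ((card_inf_mul_relIndex (centralizer (U : Set P)) A).ge.trans
      (Nat.mul_le_mul_left _ (Nat.le_of_dvd hp.1.pos ?_)))
    exact CfsgH2.relIndex_cent_dvd_of_card_sq (ea_isPGroup a) (le_top.trans u1) u2.card.dvd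
  have step : ∀ X Y : Subgroup P, EAk p 2 X → EAk p 2 Y → ⁅X, Y⁆ = ⊥ →
      X = Y ∨ ¬ PRankLE p 2 (centralizer (Y : Set P)) := by
    intro X Y a b c
    by_contra h
    rw [not_or, not_not] at h
    have := pRankLE_iff.1 h.2 _ (sup_le (comm_bot_iff.1 c) (ea_le_centralizer b.1)) (ea_sup a.1 b.1 c)
    exact h.1 ((eq_of_le_of_card_ge le_sup_left (this.trans a.2)).trans
      (eq_of_le_of_card_ge le_sup_right (this.trans b.2)).symm)
  refine ⟨U, normal_of_top_le u1, u2.el, u2.card, fun X hX => ⟨fun h => ?_, fun h => ?_⟩⟩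
  · refine h.symm.induct (P := fun X => ¬ PRankLE p 2 (centralizer (X : Set P))) ?_
      fun X Y a b c d => (step X Y a b c).elim (fun e => e ▸ d) id
    obtain ⟨A, a, b⟩ := not_pRankLE_top_iff.1 hrk
    refine (step _ U (big A a b) hU (comm_bot_iff.2 inf_le_right)).elim (fun e => ?_) id
    exact not_pRankLE_iff.2 ⟨A, ea_le_centralizer_of_le a (e.ge.trans inf_le_left), a, b⟩
  · obtain ⟨A, c, a, b⟩ := not_pRankLE_iff.1 h
    exact (Conn.single hX (big A a b) (comm_bot_iff'.2 (inf_le_left.trans c))).trans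
      (Conn.single (big A a b) hU (comm_bot_iff.2 inf_le_right))

end

/-- Let P be a finite p-group of p-rank greater than 2. Then P has a normal elementary abelian subgroup U of order p², and for every elementary abelian X ≤ P with |X| ≥ p²: X is joined to U by a chain of pairwise commuting elementary abelian subgroups of order ≥ p² if and only if C_P(X) has p-rank greater than 2. -/
theorem result {P : Type*} [Group P] [Finite P] (p : ℕ) [Fact p.Prime] (hP : IsPGroup p P) (hrk : ¬ Cfsg.PRankLE p 2 P) : ∃ U : Subgroup P, U.Normal ∧ Cfsg.IsElementaryAbelian p U ∧ Nat.card ↥U = p ^ 2 ∧ ∀ X : Subgroup P, Cfsg.IsElementaryAbelian p X → p ^ 2 ≤ Nat.card ↥X → (Relation.ReflTransGen (fun A B : Subgroup P => Cfsg.IsElementaryAbelian p A ∧ p ^ 2 ≤ Nat.card ↥A ∧ Cfsg.IsElementaryAbelian p B ∧ p ^ 2 ≤ Nat.card ↥B ∧ ∀ a ∈ A, ∀ b ∈ B, a * b = b * a) X U ↔ ¬ Cfsg.PRankLE p 2 ↥(Subgroup.centralizer (X : Set P))) := by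
  open Subgroup CfsgH9 in
  obtain ⟨U, a, b, c, d⟩ := main hP hrk
  refine ⟨U, a, b, c, fun X h1 h2 => ?_⟩
  rw [conn_iff_of (V := EAk p 2) fun A B => by simp only [EAk, and_assoc]]
  exact d X ⟨h1, h2⟩

end Cfsg.Agent.S1337
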