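import Cfsg.Statements.S1338
import Mathlib
import Cfsg.Agent.H9.JK
import Cfsg.Agent.S1337

set_option autoImplicit false
open Cfsg

namespace Cfsg.Agent.S1338

section
open Subgroup CfsgH9
open scoped commutatorElement

theorem cube {G : Type*} [Group G] [Finite G] {E : Subgroup G} (hE : IsElementaryAbelian 3 E) {x : G}
    (hx : x ∈ normalizer (E : Set G)) (h3 : x ^ 3 = 1) :
    Nat.card E ≤ Nat.card (E ⊓ centralizer ({x} : Set G) : Subgroup G) ^ 3 := by
  letI : CommGroup E := { (inferInstance : Group E) with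
    mul_comm := fun a b => Subtype.ext (ea_mul_comm hE a.2 b.2) }
  let σ : E →* E := (E.normalizerMonoidHom ⟨x, hx⟩).toMonoidHom
  have hσ : ∀ e : E, (σ e : G) = x * e * x⁻¹ := fun e => rfl
  have h1 : ∀ e, σ (σ (σ e)) = e := fun e => Subtype.ext (by
    rw [hσ, hσ, hσ]
    calc _ = x ^ 3 * e * (x ^ 3)⁻¹ := by simp only [pow_succ, pow_zero, one_mul, mul_inv_rev, mul_assoc]
      _ = e := by rw [h3]; group)
  let φ : E →* E := σ / MonoidHom.id E
  have hφ : ∀ e, φ e = σ e / e := fun e => rfl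
  have h2 : ∀ e, φ (φ (φ e)) = 1 := fun e => by
    have e3 : ∀ a : E, a ^ 3 = 1 := fun a => Subtype.ext ((ea_iff.1 hE).2 a a.2)
    simp only [hφ, map_div, h1]
    calc _ = σ e ^ 3 / σ (σ e) ^ 3 := by
          apply Additive.ofMul.injective
          simp only [ofMul_div, ofMul_pow]
          abel
      _ = 1 := by rw [e3, e3, div_one]
  have h4 : Nat.card φ.ker = Nat.card (E ⊓ centralizer ({x} : Set G) : Subgroup G) := by
    rw [inf_comm, ← card_subgroupOf]
    congr 2
    ext e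
    rw [MonoidHom.mem_ker, hφ, div_eq_one, Subtype.ext_iff, hσ, mem_subgroupOf,
      mem_centralizer_singleton_iff, mul_inv_eq_iff_eq_mul, eq_comm]
  have h5 : ∀ W : Subgroup E, Nat.card W ≤ Nat.card (W.map φ) * Nat.card φ.ker := fun W => by
    rw [← card_map_mul_card_inf_ker φ W]
    exact Nat.mul_le_mul_left _ (card_le_of_le inf_le_left)
  have h6 : (((⊤ : Subgroup E).map φ).map φ).map φ = ⊥ := by
    rw [eq_bot_iff]
    rintro _ ⟨_, ⟨_, ⟨e, -, rfl⟩, rfl⟩, rfl⟩
    exact h2 e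
  have a := h5 ⊤
  have b := h5 ((⊤ : Subgroup E).map φ)
  have c := h5 (((⊤ : Subgroup E).map φ).map φ)
  rw [h6, card_bot, one_mul] at c
  rw [card_top] at a
  rw [← h4]
  calc _ ≤ _ := a
    _ ≤ Nat.card φ.ker * Nat.card φ.ker * Nat.card φ.ker :=
      Nat.mul_le_mul_right _ (b.trans (Nat.mul_le_mul_right _ c))
    _ = _ := by ring

end

/-- A finite 3-group of 3-rank at least 4 is 2-connected for the prime 3: its commuting graph on elementary abelian subgroups of order ≥ 9 is connected. -/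
theorem result {P : Type*} [Group P] [Finite P] (hP : IsPGroup 3 P) (hrk : ¬ Cfsg.PRankLE 3 3 P) : Cfsg.IsKConnected 3 2 P := by
  open Subgroup CfsgH9 in
  haveI : Fact (Nat.Prime 3) := ⟨Nat.prime_three⟩
  obtain ⟨A, a1, a2⟩ := not_pRankLE_top_iff.1 hrk
  obtain ⟨B, b1, b2⟩ := exists_le_card_pow (ea_isPGroup a1) a2
  obtain ⟨E, -, e1, e2, e3⟩ := jk_main (by norm_num) ⊤ (hP.to_subgroup ⊤) ⊤ (hP.to_subgroup ⊤)
    le_normalizer ⟨B, le_top, ea_of_le a1 b1, b2⟩
  obtain ⟨U, -, -, -, hU⟩ := Cfsg.Agent.S1337.main hP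
    (not_pRankLE_top_iff.2 ⟨A, a1, le_trans (by norm_num) a2⟩)
  obtain ⟨z, z1, z2, z3⟩ := exists_central_prime (hP.to_subgroup ⊤) le_top e1
    (ne_bot_of_pow_le (by norm_num) e3.ge)
  have key : ∀ X : Subgroup P, EAk 3 2 X → Conn (EAk 3 2) X U := by
    intro X hX
    obtain ⟨x, x1, x2⟩ := exists_not_mem_of_card_lt (A := X) (B := zpowers z)
      (by rw [Nat.card_zpowers, z2]; exact lt_of_lt_of_le (by norm_num) hX.2)
    have x3 := ea_orderOf hX.1 x1 fun e => x2 (e ▸ one_mem _)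
    have zc : ∀ Y : Subgroup P, ⁅Y, zpowers z⁆ = ⊥ := fun Y => comm_zpowers_iff.2 (le_top.trans z3)
    have hB : EAk 3 2 (zpowers z ⊔ zpowers x) := ⟨ea_sup (ea_zpowers_of_orderOf z2)
      (ea_zpowers_of_orderOf x3) (comm_bot_symm (zc _)), by
        rw [card_sup_zpowers x3 x2 (zpowers_le.1 (le_normalizer_of_commutator_eq_bot (zc _))),
          Nat.card_zpowers, z2]; norm_num⟩
    refine (Conn.single hX hB (comm_bot_sup_right (zc _) (comm_zpowers_iff.2
      (ea_le_centralizer_singleton hX.1 x1)))).trans ((hU _ hB).2 (not_pRankLE_iff.2 ?_))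
    rw [centralizer_sup, centralizer_zpowers, centralizer_zpowers, inf_eq_right.2 (le_top.trans z3)]
    by_cases h : x ∈ E
    · exact ⟨E, ea_le_centralizer_singleton e2 h, e2, le_trans (by norm_num) e3.ge⟩
    have h1 := cube e2 (e1 (mem_top x)) (by rw [← x3, pow_orderOf_eq_one])
    have h2 := ea_of_le e2 (inf_le_left : E ⊓ centralizer ({x} : Set P) ≤ E)
    have h3 : ⁅E ⊓ centralizer ({x} : Set P), zpowers x⁆ = ⊥ := comm_zpowers_iff.2 inf_le_right
    refine ⟨_, sup_le inf_le_right (comm_zpowers_iff.1 (zpowers_comm x)),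
      ea_sup h2 (ea_zpowers_of_orderOf x3) h3, ?_⟩
    rw [card_sup_zpowers x3 (fun e => h (mem_inf.1 e).1)
      (zpowers_le.1 (le_normalizer_of_commutator_eq_bot (comm_bot_symm h3)))]
    obtain ⟨n, hn⟩ := IsPGroup.iff_card.1 (ea_isPGroup h2)
    rw [hn, e3, ← pow_mul, Nat.pow_le_pow_iff_right (by norm_num)] at h1
    rw [hn, ← pow_succ, Nat.pow_le_pow_iff_right (by norm_num)]
    omega
  exact isKConnected_iff.2 fun X Y a b => (key X a).trans (key Y b).symm

end Cfsg.Agent.S1338
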