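import Cfsg.Statements.S1341
import Mathlib
import Cfsg.Agent.H9.Sig

set_option autoImplicit false
open Cfsg

namespace Cfsg.Agent.S1341

/-- Let X be finite and T a Sylow 2-subgroup of L_{2'}(X) O_{2',2}(X). Then L*_{2'}(X) = L_{2'}(X) ⊔ O(X) ⊔ O(C_X(T)). -/
theorem result {X : Type*} [Group X] [Finite X] (T : Sylow 2 ↥(Cfsg.pLayer 2 X ⊔ Cfsg.pPrimePCore 2 X)) : Cfsg.extendedTwoLayer X = Cfsg.pLayer 2 X ⊔ Cfsg.oddCore X ⊔ ((Cfsg.oddCore ↥(Subgroup.centralizer (((T : Subgroup ↥(Cfsg.pLayer 2 X ⊔ Cfsg.pPrimePCore 2 X)).map (Cfsg.pLayer 2 X ⊔ Cfsg.pPrimePCore 2 X).subtype : Subgroup X) : Set X))).map (Subgroup.centralizer (((T : Subgroup ↥(Cfsg.pLayer 2 X ⊔ Cfsg.pPrimePCore 2 X)).map (Cfsg.pLayer 2 X ⊔ Cfsg.pPrimePCore 2 X).subtype : Subgroup X) : Set X)).subtype) := by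
  open Subgroup CfsgH9 in
  haveI : Fact (Nat.Prime 2) := ⟨Nat.prime_two⟩
  haveI := pLayer_normal (G := X) (p := 2)
  refine le_antisymm (sup_le le_sup_left (iSup_le fun T' => ?_))
    (sup_le le_sup_left (le_sup_of_le_right (le_iSup_of_le T le_rfl)))
  have hT := syl_of_sylow T
  obtain ⟨g, hg, e⟩ := hT.conj (syl_of_sylow T')
  change Opp 2 _ ≤ _ ⊔ Opp 2 _
  rw [← e, ← cj_centralizer, ← cj_Opp]
  generalize (T : Subgroup ↥(pLayer 2 X ⊔ pPrimePCore 2 X)).map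
    (pLayer 2 X ⊔ pPrimePCore 2 X).subtype = R at hT
  have hO : Sn (Oppp 2 ⊤) (pLayer 2 X ⊔ pPrimePCore 2 X) :=
    (sn_Oppp ⊤).mono (Oppp_top (G := X) (p := 2) ▸ le_sup_right) le_top
  have h1 : pLayer 2 X ⊔ pPrimePCore 2 X ≤ (pLayer 2 X ⊔ oddCore X) ⊔ R := by
    refine sup_le (le_sup_of_le_left le_sup_left) ?_
    rw [← Oppp_top, ← syl_Oppp_sup (hT.inf_sn hO), Opp_top]
    exact sup_le (le_sup_of_le_right inf_le_left) (le_sup_of_le_left le_sup_right)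
  refine cj_le_of_mem_normalizer (le_trans h1 (sup_le
    (le_sup_left.trans le_normalizer) (le_normalizer_sup le_normalizer_of_normal
      (le_normalizer_Opp (le_normalizer_centralizer le_normalizer)))) hg) le_sup_right

end Cfsg.Agent.S1341
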