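import Cfsg.Statements.S1342
import Mathlib
import Cfsg.Agent.H9.Sig

set_option autoImplicit false
open Cfsg

namespace Cfsg.Agent.S1342

/-- For a finite group X, L*_{2'}(X) is normal in X. -/
theorem result {X : Type*} [Group X] [Finite X] : (Cfsg.extendedTwoLayer X).Normal := by
  open Subgroup CfsgH9 in
  haveI : Fact (Nat.Prime 2) := ⟨Nat.prime_two⟩
  haveI := pLayer_normal (G := X) (p := 2)
  haveI : (pPrimePCore 2 X).Normal := normal_of_top_le (Oppp_top (G := X) (p := 2) ▸
    le_normalizer_Oppp le_normalizer)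
  refine normal_of_top_le (le_normalizer_sup le_normalizer_of_normal ?_)
  rw [le_normalizer_iff_cj]
  intro g _
  rw [cj, Subgroup.map_iSup]
  refine iSup_le fun T => ?_
  obtain ⟨T', hT'⟩ := ((syl_of_sylow T).cj_of_mem (g := g)
    (le_normalizer_of_normal (mem_top g))).exists_sylow
  refine le_iSup_of_le T' ?_
  change cj g (Opp 2 _) ≤ Opp 2 _
  rw [cj_Opp, cj_centralizer, hT']

end Cfsg.Agent.S1342
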