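import Cfsg.Statements.S1343
import Mathlib
import Cfsg.Agent.H9.Conn
import Cfsg.Agent.S1341

set_option autoImplicit false
open Cfsg

namespace Cfsg.Agent.S1343

/-- Let X be finite. Then L*_{2'}(X) = L_{2'}(X) ⊔ F for some subgroup F of odd order normalized by a Sylow 2-subgroup of X. -/
theorem result {X : Type*} [Group X] [Finite X] : ∃ F : Subgroup X, Odd (Nat.card ↥F) ∧ (∃ S : Sylow 2 X, (S : Subgroup X) ≤ Subgroup.normalizer (F : Set X)) ∧ Cfsg.extendedTwoLayer X = Cfsg.pLayer 2 X ⊔ F := by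
  open Subgroup CfsgH9 in
  haveI : Fact (Nat.Prime 2) := ⟨Nat.prime_two⟩
  haveI := pLayer_normal (G := X) (p := 2)
  haveI : (pPrimePCore 2 X).Normal := normal_of_top_le (Oppp_top (G := X) (p := 2) ▸
    le_normalizer_Oppp le_normalizer)
  let S : Sylow 2 X := default
  obtain ⟨T, hT⟩ := ((syl_sylow S).inf_normal (K := pLayer 2 X ⊔ pPrimePCore 2 X) le_top
    le_normalizer_of_normal).exists_sylow
  rw [Cfsg.Agent.S1341.result T, hT, sup_assoc]
  refine ⟨_, odd_iff_coprime_two.2 ?_, ⟨S, le_normalizer_sup le_normalizer_of_normal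
    (le_normalizer_Opp (le_normalizer_centralizer (le_normalizer_inf le_normalizer
      le_normalizer_of_normal)))⟩, rfl⟩
  rw [sup_comm]
  exact coprime_sup le_normalizer_of_normal (Opp_coprime 2 _) (pPrimeCore_coprime 2)

end Cfsg.Agent.S1343
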