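import Cfsg.Statements.S1344
import Mathlib
import Cfsg.Agent.H9.Conn

set_option autoImplicit false
open Cfsg

namespace Cfsg.Agent.S1344

/-- Let K be a 2-component of the finite group X. Then K ≤ L*_{2'}(X) and K is normal in L*_{2'}(X). -/
theorem result {X : Type*} [Group X] [Finite X] (K : Subgroup X) (hK : Cfsg.IsPComponent 2 K) : K ≤ Cfsg.extendedTwoLayer X ∧ (K.subgroupOf (Cfsg.extendedTwoLayer X)).Normal := by
  open Subgroup CfsgH9 in
  haveI : Fact (Nat.Prime 2) := ⟨Nat.prime_two⟩
  have h := pcomp_top_iff.2 hK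
  have h1 : K ≤ pLayer 2 X := PLay_top (G := X) (p := 2) ▸ h.le_PLay
  have h2 : K ≤ extendedTwoLayer X := le_sup_of_le_left (le_sup_of_le_left h1)
  refine ⟨h2, (normal_subgroupOf_iff_le_normalizer h2).2 (sup_le ?_ (iSup_le fun T => ?_))⟩
  · have := h.Lbar_le_normalizer
    rwa [Lbar_eq, PLay_top, Opp_top] at this
  · have h3 := (syl_of_sylow T).inf_sn (h.1.mono (le_sup_of_le_left h1) le_top)
    intro g hg
    exact h.mem_normalizer_of_centralizes h3 (le_normalizer (mem_top g))
      (centralizer_le_normalizer _ (centralizer_anti inf_le_left (Opp_le 2 _ hg)))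

end Cfsg.Agent.S1344
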