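import Cfsg.Statements.S1346
import Mathlib
import Cfsg.Agent.H9.Pump

set_option autoImplicit false
open Cfsg

namespace Cfsg.Agent.S1346

/-- Let G be a finite group all of whose 2-local subgroups have known non-abelian composition factors, and x, y commuting involutions. Then the extended 2-layer of L*_{2'}(C_G(x)) ∩ C_G(y) (as a group) is contained in L*_{2'}(C_G(y)). -/
theorem result {G : Type*} [Group G] [Finite G] (hK : ∀ T : Subgroup G, IsPGroup 2 ↥T → T ≠ ⊥ → Cfsg.IsCompositionKGroup ↥(Subgroup.normalizer (T : Set G))) (x y : G) (hx : orderOf x = 2) (hy : orderOf y = 2) (hxy : x * y = y * x) : (Cfsg.extendedTwoLayer ↥((Cfsg.extendedTwoLayer ↥(Subgroup.centralizer ({x} : Set G))).map (Subgroup.centralizer ({x} : Set G)).subtype ⊓ Subgroup.centralizer ({y} : Set G))).map ((Cfsg.extendedTwoLayer ↥(Subgroup.centralizer ({x} : Set G))).map (Subgroup.centralizer ({x} : Set G)).subtype ⊓ Subgroup.centralizer ({y} : Set G)).subtype ≤ (Cfsg.extendedTwoLayer ↥(Subgroup.centralizer ({y} : Set G))).map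 (Subgroup.centralizer ({y} : Set G)).subtype := by
  open Subgroup CfsgH9 in
  rw [map_Ext, map_Ext, map_Ext]
  obtain ⟨Y, hY⟩ : ∃ Y, Y = Ext (centralizer ({x} : Set G)) ⊓ centralizer ({y} : Set G) := ⟨_, rfl⟩
  rw [← hY]
  have h1 : zpowers x ≤ centralizer ({y} : Set G) :=
    zpowers_le.2 (mem_centralizer_singleton_iff.2 hxy)
  have h2 := isPGroup_zpowers_of_prime (p := 2) hx
  have h3 : Sn Y (centralizer ({y} : Set G) ⊓ centralizer (zpowers x : Set G)) := by
    rw [hY, centralizer_zpowers, inf_comm (centralizer ({y} : Set G))]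
    exact (Sn.of_normal (Ext_le _) (le_normalizer_Ext _)).inf_right _
  refine sup_le (sup_le ?_ ((Opp_mono h3).trans (core_bal h2 h1))) (sSup_le ?_)
  · exact ((PLay_mono h3).trans ((lb_two _).centralizer h2 h1)).trans
      (le_sup_of_le_left le_sup_left)
  · rintro _ ⟨T, hT, rfl⟩
    have h4 := hT.le.trans ((sup_le (PLay_le Y) (Oppp_le Y)).trans h3.le)
    have h5 := h3.inf_right (centralizer (T : Set G))
    rw [inf_assoc, ← centralizer_sup] at h5
    exact (Opp_mono h5).trans (core_bal (isPGroup_sup (le_normalizer_of_commutator_eq_bot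
      (comm_bot_iff'.2 (h4.trans inf_le_right))) h2 hT.pg) (sup_le h1 (h4.trans inf_le_left)))

end Cfsg.Agent.S1346
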