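import Cfsg.Statements.S1347
import Mathlib
import Cfsg.Agent.H9.Pump
import Cfsg.Agent.H9.Resid

set_option autoImplicit false
open Cfsg

namespace Cfsg.Agent.S1347

section
open Subgroup CfsgH9
open scoped commutatorElement

theorem zp2 {G : Type*} [Group G] [Finite G] {t x : G} (ht : orderOf t = 2) (hx : x ∈ zpowers t) :
    x = 1 ∨ x = t := by
  obtain ⟨k, hk⟩ := (mem_powers_iff_mem_zpowers.2 hx)
  simp only at hk
  rw [← pow_mod_orderOf, ht] at hk
  rcases Nat.mod_two_eq_zero_or_one k with h | h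
  · rw [h, pow_zero] at hk; exact Or.inl hk.symm
  · rw [h, pow_one] at hk; exact Or.inr hk.symm

end

/-- Let A be a standard subgroup of the finite group G with O(G) = 1, and t an involution of C_G(A). Then (i) A is normal in G; or (ii) there is a non-abelian simple subgroup X ≅ A with X and tXt⁻¹ commuting, meeting trivially and generating E(G), and C_G(A) = ⟨t⟩; or (iii) A ≤ E(G) and E(G) is non-abelian simple. -/
theorem result {G : Type*} [Group G] [Finite G] (A : Subgroup G) (hA : Cfsg.IsStandardSubgroup A) (hO : Cfsg.oddCore G = ⊥) (t : G) (ht : orderOf t = 2) (htA : t ∈ Subgroup.centralizer (A : Set G)) : A.Normal ∨ (∃ X : Subgroup G, IsSimpleGroup ↥X ∧ ¬ IsMulCommutative ↥X ∧ Nonempty (↥X ≃* ↥A) ∧ (∀ a ∈ X, ∀ b ∈ X.map (MulAut.conj t).toMonoidHom, a * b = b * a) ∧ X ⊓ X.map (MulAut.conj t).toMonoidHom = ⊥ ∧ X ⊔ X.map (MulAut.conj t).toMonoidHom = Cfsg.layer G ∧ Subgroup.centralizer (A : Set G) = Subgroup.zpowers t) ∨ (A ≤ Cfsg.layer G ∧ IsSimpleGroup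 ↥(Cfsg.layer G) ∧ ¬ IsMulCommutative ↥(Cfsg.layer G)) := by
  open Subgroup CfsgH9 in
  haveI : Fact (Nat.Prime 2) := ⟨Nat.prime_two⟩
  have qs : QS A := qs_iff.2 hA.1
  have hCN : ∀ s : G, orderOf s = 2 → s ∈ centralizer (A : Set G) →
      centralizer ({s} : Set G) ≤ normalizer (A : Set G) := fun s hs hsA y hy => by
    by_contra h
    rw [hA.2.2.2] at h
    have h1 := hA.2.1.2 y h
    have h2 : s ∈ centralizer (A : Set G) ⊓
        (centralizer (A : Set G)).map (MulAut.conj y).toMonoidHom :=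
      ⟨hsA, s, hsA, by simp [mem_centralizer_singleton_iff.1 hy]⟩
    have h3 := orderOf_dvd_natCard _ h2
    rw [hs] at h3
    exact (Nat.not_even_iff_odd.2 h1) (even_iff_two_dvd.2 h3)
  have tt : t * t = 1 := by rw [← pow_two, ← ht, pow_orderOf_eq_one]
  have hAt : A ≤ centralizer ({t} : Set G) := fun a ha =>
    mem_centralizer_singleton_iff.2 (mem_centralizer_iff.1 htA a ha)
  have hT : IsPGroup 2 (zpowers t) := IsPGroup.of_card (n := 1) (by rw [Nat.card_zpowers, ht]; rfl)
  have hO' : Opp 2 (⊤ : Subgroup G) = ⊥ := by rw [Opp_top]; exact hO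
  have hc : PComp 2 A (⊤ ⊓ centralizer (zpowers t : Set G)) := by
    rw [top_inf_eq, centralizer_zpowers]
    exact Comp.pcomp_two ⟨Sn.of_normal hAt (hCN t ht htA), qs⟩
  have hL := hc.le_Lay_two hO' hT le_top
  have nt : ∀ X : Subgroup G, X ≤ normalizer ((⊤ : Subgroup G) : Set G) := fun X =>
    le_top.trans le_normalizer
  obtain ⟨D, hD, hne, hM⟩ := hc.exists_ncl (nt _) hL
  by_cases hDA : D ≤ normalizer (A : Set G)
  · left
    have h1 := (hD.le_or_comm_of_normalizes le_top hDA).resolve_right hne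
    have h2 : A ≤ D := hM.trans (ncl_le le_rfl (zpowers_le.2 (centralizer_le_normalizer _
      (mem_centralizer_iff.2 fun d hd => mem_centralizer_iff.1 htA d (h1 hd)))))
    obtain rfl := le_antisymm h1 h2
    refine normal_of_top_le fun g _ => cj_eq_iff.1 ?_
    by_contra h
    exact hA.2.2.1 g h (comm_bot_symm ((hD.cj_eq_or_comm (nt _ (mem_top g))).resolve_left h))
  right
  have hodd : ¬ 2 ∣ Nat.card (centralizer (ncl (zpowers t) D : Set G)) := fun h => by
    obtain ⟨s, hs⟩ := exists_prime_orderOf_dvd_card' 2 h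
    rw [← Subgroup.orderOf_coe] at hs
    refine hDA (le_trans (fun d hd => ?_) (hCN s hs (centralizer_anti hM s.2)))
    exact mem_centralizer_singleton_iff.2 (mem_centralizer_iff.1 s.2 d (le_ncl _ _ hd))
  have hall : ∀ K, Comp K (⊤ : Subgroup G) → K = D ∨ K = cj t D := fun K hK => by
    rcases hD.eq_cj_or_comm hK (nt (zpowers t)) with ⟨y, hy, rfl⟩ | h
    · rcases zp2 ht hy with rfl | rfl
      · exact Or.inl (cj_one _)
      · exact Or.inr rfl
    · exact absurd (hK.qs.two_dvd.trans (card_dvd_of_le (comm_bot_iff.1 h))) hodd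
  have hME : ncl (zpowers t) D = layer G := by
    rw [← Lay_top]
    refine le_antisymm (hD.ncl_le_Lay (nt _)) (Lay_le_iff.2 fun K hK => ?_)
    rcases hall K hK with rfl | rfl
    · exact le_ncl _ _
    · exact cj_le_ncl (mem_zpowers t)
  have hMD : layer G = D ⊔ cj t D := by
    refine le_antisymm ?_ (hME ▸ sup_le (le_ncl _ _) (cj_le_ncl (mem_zpowers t)))
    rw [← Lay_top]
    refine Lay_le_iff.2 fun K hK => ?_
    rcases hall K hK with rfl | rfl
    · exact le_sup_left
    · exact le_sup_right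
  haveI := layer_normal (G := G)
  have hC : centralizer (layer G : Set G) = ⊥ := by
    rw [hME] at hodd
    rw [eq_bot_iff, ← hO']
    exact le_Opp (Sn.of_normal_top _) ((Nat.Prime.coprime_iff_not_dvd Nat.prime_two).2 hodd).symm
  by_cases hn : t ∈ normalizer (D : Set G)
  · right
    rw [cj_eq_of_mem_normalizer hn, sup_idem] at hMD
    refine ⟨hME ▸ hM, ?_⟩
    rw [hMD] at hC ⊢
    exact ⟨hD.qs.isSimpleGroup (by rw [hC, inf_bot_eq]), hD.qs.not_isMulCommutative⟩
  left
  have hcomm : ⁅cj t D, D⁆ = ⊥ :=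
    (hD.cj_eq_or_comm (nt _ (mem_top t))).resolve_left fun e => hn (cj_eq_iff.1 e)
  have hZ : D ⊓ centralizer (D : Set G) = ⊥ := by
    rw [eq_bot_iff, ← hC, hMD, CfsgH9.centralizer_sup]
    exact le_inf inf_le_right (inf_le_left.trans (comm_bot_iff'.1 hcomm))
  have hZ' : ∀ x ∈ D, x ∈ centralizer (D : Set G) → x = 1 := fun x h1 h2 =>
    mem_bot.1 (hZ ▸ (⟨h1, h2⟩ : x ∈ D ⊓ centralizer (D : Set G)))
  obtain ⟨π, p1, p2, p3, p4, -, -, p7⟩ := hD.exists_diag (p := 2) (k := 1) (x := t) (by simpa using ht)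
    (nt _ (mem_top t)) (by rw [pow_two, tt]; exact one_mem _) hn
  have hAπ : A = π.range := by
    have h1 : Comp A (ncl (zpowers t) D ⊓ centralizer ({t} : Set G)) :=
      ⟨Sn.of_normal (le_inf hM hAt) (inf_le_right.trans (hCN t ht htA)), qs⟩
    exact h1.eq_of_le p4 (p7 A (le_inf hM hAt) qs.perf)
  have hinj : Function.Injective π := (injective_iff_map_eq_one π).2 fun l hl => by
    have := p2 l
    rw [hl, mul_one] at this
    exact Subtype.ext (inv_eq_one.1 (hZ' _ (inv_mem l.2) this))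
  have hk : ∀ k ∈ centralizer (A : Set G), cj k D = D → k = 1 := fun k hk e => by
    have h1 := cj_eq_iff.1 e
    have h2 : k ∈ centralizer (D : Set G) := mem_centralizer_iff.2 fun l hl => by
      have h3 := (mem_normalizer_iff.1 (normalizer_le_normalizer_centralizer D h1) _).1 (p2 ⟨l, hl⟩)
      have h4 : π ⟨l, hl⟩ * k = k * π ⟨l, hl⟩ :=
        mem_centralizer_iff.1 hk _ (by rw [hAπ]; exact ⟨_, rfl⟩)
      have h5 := hZ' ((k * l * k⁻¹)⁻¹ * l) (mul_mem (inv_mem ((mem_normalizer_iff.1 h1 l).1 hl)) hl)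
        (by
          have := mul_mem h3 (inv_mem (p2 ⟨l, hl⟩))
          convert this using 1
          have h6 : π ⟨l, hl⟩ * k⁻¹ = k⁻¹ * π ⟨l, hl⟩ := (Commute.inv_right h4).eq
          simp only [mul_inv_rev, inv_inv, mul_assoc]
          rw [← mul_assoc (π _) k⁻¹, h6]
          group)
      rw [inv_mul_eq_one] at h5
      exact (mul_inv_eq_iff_eq_mul.1 h5).symm
    have h3 : cj t D ≤ D ⊔ A := by
      rintro _ ⟨l, hl, rfl⟩
      have h4 : π ⟨l, hl⟩ ∈ A := by rw [hAπ]; exact ⟨_, rfl⟩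
      have h5 := mul_mem (inv_mem (mem_sup_left (T := A) hl)) (mem_sup_right (S := D) h4)
      convert h5 using 1
      rw [p1]
      simp [dg, pow_two, mul_assoc]
    rw [← mem_bot, ← hC]
    refine centralizer_anti (hMD.le.trans (sup_le le_sup_left h3)) ?_
    rw [CfsgH9.centralizer_sup]
    exact ⟨h2, hk⟩
  refine ⟨D, hD.qs.isSimpleGroup hZ, hD.qs.not_isMulCommutative,
    ⟨(MonoidHom.ofInjective hinj).trans (MulEquiv.subgroupCongr hAπ.symm)⟩,
    comm_bot_iff_forall.1 (comm_bot_symm hcomm), ?_, hMD.symm,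
    le_antisymm (fun k hk' => ?_) (zpowers_le.2 htA)⟩
  · rw [eq_bot_iff, ← hZ]
    exact inf_le_inf_left _ (comm_bot_iff.1 hcomm)
  · rcases hall _ (hD.cj_of_mem (nt _ (mem_top k))) with e | e
    · rw [hk k hk' e]; exact one_mem _
    · have := hk (t * k) (mul_mem htA hk') (by rw [← cj_cj, e, cj_cj, tt, cj_one])
      rw [eq_inv_of_mul_eq_one_right this]
      exact inv_mem (mem_zpowers t)

end Cfsg.Agent.S1347
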