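import Cfsg.Statements.S1348
import Cfsg.Agent.H5.Ct1

set_option autoImplicit false
open Cfsg

namespace Cfsg.Agent.S1348

open Matrix CfsgH5.Ct CfsgH9

/-- Let F be a finite field of odd order, n ≥ 7 odd, and t ∈ SL(n, F) the diagonal matrix with entries −1, …, −1, 1. Then E(C(t)) is a standard subgroup of SL(n, F). -/
theorem result {F : Type*} [Field F] [Fintype F] [DecidableEq F] (hF : Odd (Fintype.card F)) (n : ℕ) (hn : 7 ≤ n) (hodd : Odd n) (t : Matrix.SpecialLinearGroup (Fin n) F) (ht : (t : Matrix (Fin n) (Fin n) F) = Matrix.diagonal (fun i : Fin n => if (i : ℕ) + 1 = n then (1 : F) else -1)) : Cfsg.IsStandardSubgroup ((Cfsg.layer ↥(Subgroup.centralizer ({t} : Set (Matrix.SpecialLinearGroup (Fin n) F)))).map (Subgroup.centralizer ({t} : Set (Matrix.SpecialLinearGroup (Fin n) F))).subtype) := by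
  obtain ⟨m, rfl⟩ : ∃ m, n = m + 1 := ⟨n - 1, by omega⟩
  have hm : Even m := by simpa [Nat.odd_add_one] using hodd
  have h2 := two_ne hF
  have hne : (-1 : F) ≠ 1 := fun e => h2 (by linear_combination -e)
  haveI : Fact (Nat.Prime 2) := ⟨Nat.prime_two⟩
  let i0 : Fin m := ⟨0, by omega⟩
  have ht' : t.1 = blk (-1) 1 := by
    rw [ht]
    refine ext' ?_ (fun j => ?_) (fun j => ?_) fun i j => ?_
    · simp
    · simp [(Fin.castSucc_ne_last j).symm]
    · simp [Fin.castSucc_ne_last j]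
    · have := i.2.ne
      simp [diagonal_apply, one_apply, apply_ite, this]
  set C := Subgroup.centralizer ({t} : Set (SpecialLinearGroup (Fin (m + 1)) F)) with hC
  have mC : ∀ g : SpecialLinearGroup (Fin (m + 1)) F, g ∈ C ↔ blk (-1) 1 * g.1 = g.1 * blk (-1) 1 := fun g => by
    rw [hC, Subgroup.mem_centralizer_singleton_iff, eq_comm, ← ht']; exact Subtype.ext_iff
  have dec : ∀ g ∈ C, ∃ A B c d, g.1 = blk A c ∧ g⁻¹.1 = blk B d ∧ A * B = 1 ∧ c * d = 1 := fun g hg => by
    obtain ⟨A, c, hA⟩ := of_comm h2 ((mC _).1 hg)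
    obtain ⟨B, d, hB⟩ := of_comm h2 ((mC _).1 (inv_mem hg))
    have e : blk A c * blk B d = blk 1 1 := by
      rw [← hA, ← hB, blk_one]; exact congrArg Subtype.val (mul_inv_cancel g)
    rw [blk_mul] at e
    exact ⟨A, B, c, d, hA, hB, blk_inj e⟩
  let L := (φ F m).range
  have mL : ∀ (g : SpecialLinearGroup (Fin (m + 1)) F) A, g.1 = blk A 1 → g ∈ L := fun g A h =>
    ⟨⟨A, by have := g.2; rwa [h, det_blk, mul_one] at this⟩, Subtype.ext h.symm⟩
  have LC : L ≤ C := by rintro _ ⟨a, rfl⟩; exact (mC _).2 (comm_t _ _)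
  have CN : C ≤ Subgroup.normalizer (L : Set _) := fun g hg => by
    refine Subgroup.mem_normalizer_fintype ?_
    rintro _ ⟨a, rfl⟩
    obtain ⟨A, B, c, d, hA, hB, e1, e2⟩ := dec g hg
    refine mL _ (A * a.1 * B) ?_
    change g.1 * blk a.1 1 * g⁻¹.1 = _
    rw [hA, hB, blk_mul, blk_mul, mul_one, e2]
  have qs : QS L := by
    change QS (φ F m).range
    rw [MonoidHom.range_eq_map]; exact (QS.map_iff φ_inj).2 (qs_SL (by omega) (.inl (by omega)))
  have hL : Lay C = L := by
    refine le_antisymm (Lay_le_iff.2 fun K hK => ?_) (Comp.mk (Sn.of_normal LC CN) qs).le_Lay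
    rw [← hK.perf, Subgroup.commutator_le]
    intro g hg h hh
    obtain ⟨A, B, c, d, hA, hB, e1, e2⟩ := dec g (hK.le hg)
    obtain ⟨A', B', c', d', hA', hB', e1', e2'⟩ := dec h (hK.le hh)
    refine mL _ (A * A' * B * B') ?_
    change g.1 * h.1 * g⁻¹.1 * h⁻¹.1 = _
    rw [hA, hB, hA', hB', blk_mul, blk_mul, blk_mul]
    congr 1
    linear_combination c' * d' * e2 + e2'
  change Cfsg.IsStandardSubgroup (Lay C)
  rw [hL]
  have tL : t ∈ L := mL _ _ ht'
  set K := Subgroup.centralizer (L : Set (SpecialLinearGroup (Fin (m + 1)) F)) with hK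
  have KC : K ≤ C := Subgroup.centralizer_le (by simpa using tL)
  have mK : ∀ g ∈ K, ∃ a c, g.1 = blk (scalar _ a) c := fun g hg => by
    obtain ⟨A, c, hA⟩ := of_comm h2 ((mC _).1 (KC hg))
    obtain ⟨a, rfl⟩ : A ∈ Set.range (scalar (Fin m)) := mem_range_scalar_of_commute_transvectionStruct fun s => by
      have := congrArg Subtype.val (hg _ ⟨⟨s.toMatrix, by simp⟩, rfl⟩)
      change blk s.toMatrix 1 * g.1 = g.1 * blk s.toMatrix 1 at this
      rw [hA, blk_mul, blk_mul] at this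
      exact (blk_inj this).1
    exact ⟨a, c, hA⟩
  have tK : t ∈ K := fun g hg => ((Subgroup.mem_centralizer_singleton_iff).1 (LC hg))
  have t2 : orderOf t = 2 := orderOf_eq_prime (Subtype.ext (by simp [ht', sq, blk_mul, blk_one])) fun e => by
    have := congrArg (fun u : SpecialLinearGroup (Fin (m + 1)) F => u.1 i0.castSucc i0.castSucc) e
    simp [ht', hne] at this
  have uniq : ∀ s ∈ K, orderOf s = 2 → s = t := fun s hs o => by
    obtain ⟨a, c, h⟩ := mK s hs
    have e : blk (scalar (Fin m) a) c * blk (scalar _ a) c = blk 1 1 := by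
      rw [← h, blk_one]
      exact congrArg Subtype.val (show s * s = 1 by rw [← sq, ← o, pow_orderOf_eq_one])
    rw [blk_mul] at e
    have a2 : a * a = 1 := by simpa using congrFun (congrFun (blk_inj e).1 i0) i0
    have d := s.2
    rw [h, det_blk, scalar_apply, det_diagonal, Finset.prod_const, Finset.card_univ, Fintype.card_fin] at d
    obtain ⟨k, hk⟩ := hm
    rw [hk, ← two_mul, pow_mul, sq, a2, one_pow, one_mul] at d
    rcases mul_self_eq_one_iff.1 a2 with rfl | rfl
    · have : s = 1 := Subtype.ext (by rw [h, d, map_one, blk_one]; rfl)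
      simp [this] at o
    · exact Subtype.ext (by rw [h, d, ht', map_neg, map_one])
  have NC : ∀ g : SpecialLinearGroup (Fin (m + 1)) F, g * t * g⁻¹ ∈ K → g ∈ C := fun g hg => by
    have := uniq _ hg (by rw [← t2]; exact (MulAut.conj g).orderOf_eq t)
    rw [hC, Subgroup.mem_centralizer_singleton_iff, ← mul_inv_eq_iff_eq_mul, this]
  have NN : Subgroup.normalizer (L : Set _) ≤ Subgroup.normalizer (K : Set (SpecialLinearGroup (Fin (m + 1)) F)) :=
    fun g hg => Subgroup.mem_normalizer_fintype fun x hx y hy => by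
      have := hx _ ((Subgroup.mem_normalizer_iff.1 (inv_mem hg) y).1 hy)
      calc y * (g * x * g⁻¹) = g * (g⁻¹ * y * g⁻¹⁻¹ * x) * g⁻¹ := by group
        _ = _ := by rw [this]; group
  refine ⟨qs_iff.1 qs, ⟨even_iff_two_dvd.2 (t2 ▸ Subgroup.orderOf_dvd_natCard _ tK), fun g hg => ?_⟩, fun g _ e => ?_,
    le_antisymm NN fun g hg => CN (NC g ((Subgroup.mem_normalizer_iff.1 hg t).1 tK))⟩
  · rw [← Nat.not_even_iff_odd, even_iff_two_dvd]
    intro k
    obtain ⟨⟨s, hs1, hs2⟩, o⟩ := exists_prime_orderOf_dvd_card' 2 k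
    rw [← Subgroup.orderOf_coe] at o
    obtain rfl := uniq s hs1 o
    exact hg (NN (CN (inv_mem_iff.1 (NC g⁻¹ (by simpa using mem_cj.1 hs2)))))
  · have h1 : cj g L ≤ K := comm_bot_iff'.1 e
    refine (qs.cj g).comm_ne_bot (comm_bot_mono (comm_bot_iff_forall.2 fun a ha b hb => ?_) h1 h1)
    obtain ⟨x, c, hx⟩ := mK a ha
    obtain ⟨y, d, hy⟩ := mK b hb
    refine Subtype.ext ?_
    change a.1 * b.1 = b.1 * a.1
    rw [hx, hy, blk_mul, blk_mul, ← map_mul, ← map_mul, mul_comm, mul_comm c]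

end Cfsg.Agent.S1348
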