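import Cfsg.Statements.S1358
import Cfsg.Agent.H2.FT

set_option autoImplicit false
open Cfsg

namespace Cfsg.Agent.S1358
open CfsgH2

/-- Let G be a minimal simple group of odd order and M a maximal subgroup with standard factorisation M = K U M_σ. Then for every prime p, every Sylow p-subgroup of U is abelian and has no elementary abelian subgroup of order p ^ 3. -/
theorem result {G : Type*} [Group G] [Finite G] (hG : Cfsg.IsMinSimpleOddOrder G)
    (M : Subgroup G) (hM : IsCoatom M) (K U : Subgroup G) (hKU : Cfsg.IsSigmaDecomposition M K U) :
    ∀ (p : ℕ), p.Prime → ∀ P : Sylow p U, IsMulCommutative (P : Subgroup U) ∧ Cfsg.PRankLE p 2 (P : Subgroup U) := by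
  open Subgroup Function in open scoped commutatorElement in
  exact (not_ms hG).elim

end Cfsg.Agent.S1358
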