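import Mathlib
import Cfsg.Statements.S1366
import Cfsg.Agent.H8.BG14

set_option autoImplicit false
open Cfsg

namespace Cfsg.Agent.S1366

open CfsgH2 CfsgB14 Subgroup

/-- Let G be a minimal simple group of odd order, M a maximal subgroup with standard factorisation M = K U M_σ, K ≠ 1, and K* = M_σ ∩ C_G(K). Then there is exactly one maximal subgroup M* of G such that K = M*_σ ∩ C_G(K*) and K* is a Hall κ(M*)-subgroup of M* (in particular κ(M*) is nonempty). -/
theorem result {G : Type*} [Group G] [Finite G] (hG : Cfsg.IsMinSimpleOddOrder G)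
    (M : Subgroup G) (hM : IsCoatom M) (K U : Subgroup G) (hKU : Cfsg.IsSigmaDecomposition M K U) (hK1 : K ≠ ⊥) :
    ∃! Mstar : Subgroup G, IsCoatom Mstar ∧ K = Cfsg.sigmaCore Mstar ⊓ Subgroup.centralizer ((Cfsg.sigmaCore M ⊓ Subgroup.centralizer (K : Set G)) : Set G) ∧
        Cfsg.IsPiHallOf (Cfsg.kappa Mstar) (Cfsg.sigmaCore M ⊓ Subgroup.centralizer (K : Set G)) Mstar := by
  haveI : MS G := ⟨hG⟩
  have hK := hall_iff.1 hKU.hall
  obtain ⟨S, h⟩ := exists_Ptn hM hK hK1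
  exact ⟨S, ⟨h.hS, h.eq.symm, hall_iff.2 h.hall⟩, fun T a =>
    h.uniq ⟨hM, hK, hK1, a.1, a.2.1.symm, hall_iff.1 a.2.2⟩⟩

end Cfsg.Agent.S1366
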