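import Mathlib
import Cfsg.Statements.S1370
import Cfsg.Agent.H8.BG14

set_option autoImplicit false
open Cfsg

namespace Cfsg.Agent.S1370

open CfsgH2 CfsgB14 Subgroup

/-- Let G be a minimal simple group of odd order, M a maximal subgroup with standard factorisation M = K U M_σ, K ≠ 1, K* = M_σ ∩ C_G(K) and Z the subgroup generated by K and K*. Then the set of elements of Z lying in neither K nor K* is a TI-subset of G, and its set-normalizer in G is exactly Z. -/
theorem result {G : Type*} [Group G] [Finite G] (hG : Cfsg.IsMinSimpleOddOrder G)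
    (M : Subgroup G) (hM : IsCoatom M) (K U : Subgroup G) (hKU : Cfsg.IsSigmaDecomposition M K U) (hK1 : K ≠ ⊥) :
    Cfsg.IsTISubset ((↑(K ⊔ (Cfsg.sigmaCore M ⊓ Subgroup.centralizer (K : Set G))) : Set G) \ ((K : Set G) ∪ ↑(Cfsg.sigmaCore M ⊓ Subgroup.centralizer (K : Set G)))) ∧ Subgroup.normalizer ((↑(K ⊔ (Cfsg.sigmaCore M ⊓ Subgroup.centralizer (K : Set G))) : Set G) \ ((K : Set G) ∪ ↑(Cfsg.sigmaCore M ⊓ Subgroup.centralizer (K : Set G)))) = K ⊔ (Cfsg.sigmaCore M ⊓ Subgroup.centralizer (K : Set G)) := by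
  haveI : MS G := ⟨hG⟩
  have hK := hall_iff.1 hKU.hall
  have e : normalizer (Zh K Ks[M, K]) = K ⊔ Ks[M, K] := by
    obtain ⟨z, hz⟩ := Zh_nonempty hM hK hK1
    exact le_antisymm (fun g hg => Zh_ti hM hK hK1 hz ((CfsgH3.mem_norm_set.1 hg z).1 hz))
      fun g hg => CfsgH3.mem_norm_set_of fun x hx => (Zh_iff hM hK hK1 hx).2 hg
  exact ⟨fun g hg x a b => (hg (e.ge (Zh_ti hM hK hK1 a b))).elim, e⟩

end Cfsg.Agent.S1370
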