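import Mathlib
import Cfsg.Statements.S1371
import Cfsg.Agent.H8.BG14

set_option autoImplicit false
open Cfsg

namespace Cfsg.Agent.S1371

open CfsgH2 CfsgB14 Subgroup

/-- Let G be a minimal simple group of odd order, M a maximal subgroup with standard factorisation M = K U M_σ, K ≠ 1, K* = M_σ ∩ C_G(K), and Ẑ the set of elements of K K* outside K ∪ K*. Then the union of the M-conjugates of Ẑ equals A₀(M) with A(M) removed, and it is a TI-subset of G. -/
theorem result {G : Type*} [Group G] [Finite G] (hG : Cfsg.IsMinSimpleOddOrder G)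
    (M : Subgroup G) (hM : IsCoatom M) (K U : Subgroup G) (hKU : Cfsg.IsSigmaDecomposition M K U) (hK1 : K ≠ ⊥) :
    {a : G | ∃ m ∈ M, ∃ z ∈ ((↑(K ⊔ (Cfsg.sigmaCore M ⊓ Subgroup.centralizer (K : Set G))) : Set G) \ ((K : Set G) ∪ ↑(Cfsg.sigmaCore M ⊓ Subgroup.centralizer (K : Set G)))), a = m * z * m⁻¹} = Cfsg.sigmaA0 M K \ Cfsg.sigmaA M U ∧
      Cfsg.IsTISubset (Cfsg.sigmaA0 M K \ Cfsg.sigmaA M U) := by
  haveI : MS G := ⟨hG⟩
  have h := KC.of_sd hM hKU
  have hK := h.hK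
  have e : {a : G | ∃ m ∈ M, ∃ z ∈ Zh K Ks[M, K], a = m * z * m⁻¹} =
      Cfsg.sigmaA0 M K \ Cfsg.sigmaA M U := by
    ext a
    constructor
    · rintro ⟨m, hm, z, hz, rfl⟩
      obtain ⟨x, hx, y, hy, x0, y0, c, rfl⟩ := Zh_dec le_cent_Ks hz
      have h1 : m * (x * y) * m⁻¹ ∈ Cfsg.sigmaHat M :=
        ⟨mul_mem (mul_mem hm (Z_le hK hz.1)) (inv_mem hm), m * y * m⁻¹,
          conj_mem_of_norm (le_norm_Ms hm) hy.1, by simpa using y0,
          ((c.mul_left (.refl y)).conj m).eq⟩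
      refine ⟨⟨h1, ?_⟩, fun b => ?_⟩
      · rintro ⟨k, hk, -, n, -, e⟩
        have := piN_sigma' (piN_orderOf hK.pi hk)
        rw [← orderOf_conj' n, ← e, orderOf_conj'] at this
        exact y0 (mem_bot.1 (inf_eq_bot_of_piN piN_Ms (piN_card_zpowers this) ▸ mem_inf.2
          ⟨hy.1, part_mem c.symm (piN_ord_Ms hy.1) (piN_sigma' (piN_orderOf hK.pi hx))
            (c.eq ▸ mem_zpowers _)⟩))
      · have b : x * y ∈ U ⊔ Ms[M] := by
          simpa [mul_assoc] using conj_mem_of_norm' (h.norm hM hm) b.2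
        exact x0 (mem_bot.1 (inf_eq_bot_of_piN hK.pi (h.hall' hM).pi ▸ mem_inf.2
          ⟨hx, (Subgroup.mul_mem_cancel_right _ (mem_sup_right hy.1)).1 b⟩))
    · rintro ⟨⟨h1, h2⟩, h3⟩
      have h3 : a ∉ U ⊔ Ms[M] := fun b => h3 ⟨h1, b⟩
      obtain ⟨b, hb, c, hc, e, d1, d2⟩ := exists_pi_parts κ[M] a
      have b0 : b ≠ 1 := by
        rintro rfl
        exact h3 ((h.hall' hM).mem_of_norm (h.norm hM) h1.1 (by rwa [e, one_mul]))
      obtain ⟨g, hg, l⟩ := hK.exists_conj_le (mx_sol hM) (piN_card_zpowers d1)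
        (zpowers_le.2 (zpowers_le.2 h1.1 hb))
      have h4 : g * a * g⁻¹ ∈ K ⊔ Ks[M, K] := by
        rw [← cent1_K hM hK (l (conj_mem_map_cj (mem_zpowers b))) (by simpa using b0),
          centralizer_conj]
        exact ⟨M.mul_mem (M.mul_mem hg h1.1) (M.inv_mem hg), conj_mem_map_cj
          (mem_centralizer_singleton_iff.2 (commute_of_mem_zpowers (mem_zpowers a) hb))⟩
      refine ⟨g⁻¹, inv_mem hg, _, mem_Zh.2 ⟨h4, fun k => h2 ⟨_, k, ?_, g⁻¹, inv_mem hg, by group⟩,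
        fun k => h3 (mem_sup_right ?_)⟩, by group⟩
      · rintro e1
        exact h3 (by rw [show a = 1 by simpa using e1]; exact one_mem _)
      · simpa [mul_assoc] using conj_mem_of_norm' (le_norm_Ms hg) k.1
  refine ⟨e, ?_⟩
  rw [← e]
  rintro g hg _ ⟨m, hm, z, hz, rfl⟩ ⟨n, hn, w, hw, e1⟩
  have : n⁻¹ * g * m ∈ M := Z_le hK (Zh_ti hM hK hK1 hz (by
    convert hw using 1
    calc _ = n⁻¹ * (g * (m * z * m⁻¹) * g⁻¹) * n := by group
      _ = _ := by rw [e1]; group))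
  have gM : g ∈ M := by simpa [mul_assoc] using mul_mem (mul_mem hn this) (inv_mem hm)
  refine (hg (CfsgH3.mem_norm_set_of ?_)).elim
  rintro _ ⟨m, hm, z, hz, rfl⟩
  exact ⟨g * m, mul_mem gM hm, z, hz, by group⟩

end Cfsg.Agent.S1371
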