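import Mathlib
import Cfsg.Statements.S1374
import Cfsg.Agent.H8.BG14

set_option autoImplicit false
open Cfsg

namespace Cfsg.Agent.S1374

open CfsgH2 CfsgB14 Subgroup

/-- Let G be a minimal simple group of odd order, M a maximal subgroup and x a non-identity element of M_σ. Then C_M(x) has order coprime to its index in C_G(x), and C_G(x) has a normal subgroup R complementing C_M(x) such that for every conjugate gMg⁻¹ containing x there is exactly one r ∈ R with rMr⁻¹ = gMg⁻¹. -/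
theorem result {G : Type*} [Group G] [Finite G] (hG : Cfsg.IsMinSimpleOddOrder G)
    (M : Subgroup G) (hM : IsCoatom M) (x : G) (hx : x ∈ Cfsg.sigmaCore M) (hx1 : x ≠ 1) :
    (Nat.card ↥(M ⊓ Subgroup.centralizer ({x} : Set G))).Coprime ((M ⊓ Subgroup.centralizer ({x} : Set G)).relIndex (Subgroup.centralizer ({x} : Set G))) ∧
      ∃ R : Subgroup G, Subgroup.centralizer ({x} : Set G) ≤ Subgroup.normalizer (R : Set G) ∧ Cfsg.IsComplIn (M ⊓ Subgroup.centralizer ({x} : Set G)) R (Subgroup.centralizer ({x} : Set G)) ∧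
        ∀ g : G, x ∈ M.map (MulAut.conj g).toMonoidHom → ∃! r : G, r ∈ R ∧ M.map (MulAut.conj r).toMonoidHom = M.map (MulAut.conj g).toMonoidHom := by
  haveI : MS G := ⟨hG⟩
  have k : ∀ g : G, x ∈ M:^g → x ∈ Ms[M:^g] := fun g a => mem_Ms (mx_map_cj hM g) a
    (by rw [sigma_map_cj]; exact piN_ord_Ms hx)
  by_cases hc : C1[x] ≤ M
  · rw [inf_eq_right.2 hc]
    refine ⟨by simp, ⊥, le_top.trans norm_bot.ge, CfsgH3.complIn_of (sup_bot_eq _) (inf_bot_eq _)
      (.inr bot_le), fun g a => ⟨1, ⟨one_mem _, (map_cj_one M).trans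
        (sigma_uniq hM hx hx1 hc (mx_map_cj hM g) (k g a)).symm⟩, fun r b => mem_bot.1 b.1⟩⟩
  obtain ⟨N, h⟩ := exists_Sg hM hx hx1 hc
  have n : C1[x] ≤ N[Ms[N] ⊓ C1[x]] := le_norm_inf (le_norm_Ms' h.le) le_normalizer
  have s := h.sup
  rw [sup_comm] at s
  have hall : Hall σ[N]ᶜ (M ⊓ C1[x]) C1[x] := Hall.of_compl inf_le_right
    (piN_of_le h.hall.pi (inf_le_inf_left _ h.le))
    (by rw [compl_compl]; exact piN_of_le piN_Ms inf_le_left) (.inl (inf_le_right.trans n)) s
  exact ⟨hall.coprime, _, n, CfsgH3.complIn_of s (le_bot_iff.1 (h.inf ▸ le_inf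
    (inf_le_right.trans inf_le_left) (inf_le_left.trans inf_le_left))) (.inl (inf_le_right.trans n)),
    fun g a => h.trans (mx_map_cj hM g) (k g a)⟩

end Cfsg.Agent.S1374
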