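import Mathlib
import Cfsg.Statements.S1375
import Cfsg.Agent.H8.BG14

set_option autoImplicit false
open Cfsg

namespace Cfsg.Agent.S1375

open CfsgH2 CfsgB14 Subgroup

/-- Let G be a minimal simple group of odd order, M a maximal subgroup, x ≠ 1 in M_σ with C_G(x) not contained in M. Then exactly one maximal subgroup N contains C_G(x); for it N_σ = N_F, C_{N_σ}(x) is a normal subgroup of C_G(x) complementing C_M(x), M ∩ N is a complement to N_σ in N, and for every standard factorisation N = K' U' N_σ one has U' ≠ 1 and x ∈ A(N) with x ∉ N_σ. -/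
theorem result {G : Type*} [Group G] [Finite G] (hG : Cfsg.IsMinSimpleOddOrder G)
    (M : Subgroup G) (hM : IsCoatom M) (x : G) (hx : x ∈ Cfsg.sigmaCore M) (hx1 : x ≠ 1) (hxM : ¬ Subgroup.centralizer ({x} : Set G) ≤ M) :
    ∃ N : Subgroup G, (IsCoatom N ∧ Subgroup.centralizer ({x} : Set G) ≤ N) ∧ (∀ L : Subgroup G, IsCoatom L → Subgroup.centralizer ({x} : Set G) ≤ L → L = N) ∧
        Cfsg.sigmaCore N = Cfsg.fittingHallOf N ∧
        Subgroup.centralizer ({x} : Set G) ≤ Subgroup.normalizer ((Cfsg.sigmaCore N ⊓ Subgroup.centralizer ({x} : Set G) : Subgroup G) : Set G) ∧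
        Cfsg.IsComplIn (M ⊓ Subgroup.centralizer ({x} : Set G)) (Cfsg.sigmaCore N ⊓ Subgroup.centralizer ({x} : Set G)) (Subgroup.centralizer ({x} : Set G)) ∧
        Cfsg.IsComplIn (M ⊓ N) (Cfsg.sigmaCore N) N ∧
        ∀ K' U' : Subgroup G, Cfsg.IsSigmaDecomposition N K' U' → U' ≠ ⊥ ∧ x ∈ Cfsg.sigmaA N U' ∧ x ∉ Cfsg.sigmaCore N := by
  haveI : MS G := ⟨hG⟩
  obtain ⟨N, h⟩ := exists_Sg hM hx hx1 hxM
  have n : C1[x] ≤ N[Ms[N] ⊓ C1[x]] := le_norm_inf (le_norm_Ms' h.le) le_normalizer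
  have s := h.sup
  rw [sup_comm] at s
  refine ⟨N, ⟨h.hN, h.le⟩, h.mu.eq, (MF_eq_Ms h.hN h.nil).symm, n, CfsgH3.complIn_of s
    (le_bot_iff.1 (h.inf ▸ le_inf (inf_le_right.trans inf_le_left) (inf_le_left.trans inf_le_left)))
    (.inl (inf_le_right.trans n)), compl_of_hall h.hN h.hall, fun K U a => ?_⟩
  have b := KC.of_sd h.hN a
  obtain ⟨y, hy, y0⟩ := exists_ne_one h.ne_bot
  exact ⟨mt b.eq_bot_iff.1 h.not_P1, ⟨⟨h.mem.2, y, hy.1, y0,
    (mem_centralizer_singleton_iff.1 hy.2).symm⟩, (b.hall' h.hN).mem_of_norm (b.norm h.hN) h.mem.2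
      (h.tau2.mono fun _ c d => kappa_not_tau2 d c)⟩,
    fun c => ne_bot_of_mem (mem_inf.2 ⟨c, h.mem.1⟩) hx1 h.inf⟩

end Cfsg.Agent.S1375
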