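import Cfsg.Statements.S1386
import Cfsg.Agent.H3.PF8

set_option autoImplicit false
open Cfsg

namespace Cfsg.Agent.S1386
open CfsgH3

/-- Let G be a finite group, W₁, W₂ subgroups forming a self-normalizing cyclic pair, S a subgroup with W₂ ≤ S and W₁ a complement to S' in S, and (W₁, U, W₂') type-P data for S. Then W₂' = W₂ (that is, C_{S'}(W₁) = W₂). -/
theorem result {G : Type*} [Group G] [Finite G] (W₁ W₂ S U W₂' : Subgroup G) (hW : Cfsg.IsSelfNormalizingCyclic W₁ W₂)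
    (hSW : Cfsg.IsComplIn ⁅S, S⁆ W₁ S) (hW₂S : W₂ ≤ S) (hP : Cfsg.IsTypePWith S W₁ U W₂') :
    W₂' = W₂ := by
  exact CfsgH3.Cfsg.IsTypePWith.eq_of_snc hP hW hW₂S


end Cfsg.Agent.S1386
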