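import Cfsg.Statements.S1388
import Cfsg.Agent.H3.PF8

set_option autoImplicit false
open Cfsg

namespace Cfsg.Agent.S1388
open CfsgH3

/-- Let M be a subgroup of a finite group G with type-P data (W₁, U, W₂) and H = M_F. Then the derived subgroup of U centralizes H, and if U ≠ 1 then U does not centralize H. -/
theorem result {G : Type*} [Group G] [Finite G] (M W₁ U W₂ : Subgroup G) (hP : Cfsg.IsTypePWith M W₁ U W₂) :
    ⁅U, U⁆ ≤ Subgroup.centralizer (Cfsg.fittingHallOf M : Set G) ∧ (U ≠ ⊥ → ¬ U ≤ Subgroup.centralizer (Cfsg.fittingHallOf M : Set G)) := by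
  exact ⟨CfsgH3.Cfsg.IsTypePWith.der_U_le hP, CfsgH3.Cfsg.IsTypePWith.not_le_cent hP⟩


end Cfsg.Agent.S1388
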