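import Cfsg.Statements.S1396
import Cfsg.Agent.H2.BGW

set_option autoImplicit false
open Cfsg

namespace Cfsg.Agent.S1396
open CfsgH2

/-- Let G be a minimal simple group of odd order, p a prime dividing the order of G and A an abelian p-subgroup. Suppose either (1) A consists exactly of the elements x of C_G(A) with x^p = 1, and every proper subgroup of G has p-length at most one, or (2) A is normal and self-centralizing in some Sylow p-subgroup of G and has rank at least 2. Then A satisfies the transitivity hypothesis. -/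
theorem result {G : Type*} [Group G] [Finite G] (hG : Cfsg.IsMinSimpleOddOrder G)
    (p : ℕ) [Fact p.Prime] (hp : p ∣ Nat.card G) (A : Subgroup G) (hAp : IsPGroup p A) (hAc : IsMulCommutative A)
    (h : (∀ x ∈ Subgroup.centralizer (A : Set G), x ^ p = 1 ↔ x ∈ A) ∧ (∀ H : Subgroup G, H ≠ ⊤ → Cfsg.PLengthLE p 1 H) ∨
      ∃ P : Sylow p G, Cfsg.IsSCN (P : Subgroup G) A ∧ ¬ Cfsg.PRankLE p 1 A) :
    Cfsg.TransitivityHypothesis A := by
  open Subgroup Function in open scoped commutatorElement in
  haveI : MS G := ⟨hG⟩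
  have key : NCon {p} A := by
    rcases h with ⟨h1, h2⟩ | ⟨P, h1, h2⟩
    · have e : ∀ x ∈ A, x ^ p = 1 := fun x a => (h1 x (le_cent_self hAc a)).2 a
      refine bg7_5a ?_ (maxEl_of_mem le_top ⟨hAc, e⟩ fun x _ a b => (h1 x a).1 b)
        fun H a => pl1_sub_iff.1 (h2 H a)
      rintro rfl
      obtain ⟨x, a⟩ := exists_prime_orderOf_dvd_card' p hp
      have := (h1 x (by rw [cent_bot]; trivial)).1 (a ▸ pow_orderOf_eq_one x)
      rw [mem_bot.1 this, orderOf_one] at a
      exact (Fact.out : p.Prime).one_lt.ne a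
    · exact bg7_5b (syl_top P) h1 (not_cyc_of_prk (p := p) (lt_prk h2))
  exact ncon_iff.2 (key.congr fun r a => ⟨fun b => b ▸ dvd_card_of_pgroup hAp key.ne,
    key.pi r a⟩)

end Cfsg.Agent.S1396
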