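import Cfsg.Statements.S1405
import Cfsg.Agent.H2.BGW
import Cfsg.Agent.H9.BG50

set_option autoImplicit false
open Cfsg

namespace Cfsg.Agent.S1405
open CfsgH2

/-- Let G be a minimal simple group of odd order and M a maximal subgroup, α(M) the set of primes p with M of p-rank at least 3, and M_α = O_{α(M)}(M). Then M_α is a Hall α(M)-subgroup of M and of G, M_α ≤ M_σ, the quotient M/M_α has no elementary abelian subgroup of order p ^ 3 for any prime p, and the image of M' in M/M_α is nilpotent. -/
theorem result {G : Type*} [Group G] [Finite G] (hG : Cfsg.IsMinSimpleOddOrder G)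
    (M : Subgroup G) (hM : IsCoatom M) :
    Cfsg.IsPiHallOf (Cfsg.alpha M) (Cfsg.alphaCore M) M ∧ Cfsg.IsPiHall (Cfsg.alpha M) (Cfsg.alphaCore M) ∧
      Cfsg.alphaCore M ≤ Cfsg.sigmaCore M ∧ Cfsg.RankLE 2 (↥M ⧸ Cfsg.piCore (Cfsg.alpha M) ↥M) ∧
      Group.IsNilpotent ↥((commutator ↥M).map (QuotientGroup.mk' (Cfsg.piCore (Cfsg.alpha M) ↥M))) := by
  open Subgroup Function in open scoped commutatorElement in
  haveI : MS G := ⟨hG⟩
  have o : Odd (Nat.card M) := ms_odd M
  have s : Group.IsSolvable M := mx_sol hM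
  have r : rk (⊤ : Subgroup (M ⧸ Cfsg.piCore (Cfsg.alpha M) M)) ≤ 2 := by
    refine rk_le_of fun p hp => ?_
    by_cases a : p ∈ Cfsg.alpha M
    · rw [prk_eq_zero]; exact Nat.zero_le _
      intro d
      refine (Ma_hall hM).pi' p hp.out ?_ a
      rw [card_top, ← Subgroup.index] at d
      rwa [Cfsg.piCoreOf, Subgroup.relIndex, subgroupOf, comap_map_eq_self_of_injective
        M.subtype_injective]
    · obtain ⟨P, hP⟩ := exists_syl (p := p) (⊤ : Subgroup M)
      have := hP.map (QuotientGroup.mk' (Cfsg.piCore (Cfsg.alpha M) M))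
      rw [map_mk_top] at this
      rw [← this.prk_eq]
      have e : prk p (⊤ : Subgroup M) ≤ 2 := by
        rw [← inj_prk M.subtype_injective, map_subtype_top]; exact not_mem_alpha.1 a
      have i : Injective ((QuotientGroup.mk' (Cfsg.piCore (Cfsg.alpha M) M)).comp P.subtype) := by
        rw [← MonoidHom.ker_eq_bot_iff, ← MonoidHom.comap_ker, QuotientGroup.ker_mk', eq_bot_iff]
        intro x hx
        have : (x : M) ∈ P ⊓ Cfsg.piCore (Cfsg.alpha M) M := ⟨x.2, hx⟩
        rw [inf_eq_bot_of_coprime' (coprime_of_pgroup hP.pg fun d => a (piN_piCore p hp.out d))] at this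
        exact Subtype.ext this
      have j := inj_prk (p := p) (H := ⊤) i
      rw [← map_map, map_subtype_top] at j
      rw [j, ← inj_prk P.subtype_injective, map_subtype_top, hP.prk_eq]
      exact e
  refine ⟨hall_iff.2 (Ma_hall hM), hall_top_iff.2 (Ma_hall_top hM), Ma_le_Ms hM,
    rankLE_top_iff.2 r, ?_⟩
  rw [commutator_def, map_commutator, map_mk_top]
  refine isNilpotent_of_le fit_nil (CfsgBG.bg4_20a (isSolvable_top_iff.2 inferInstance) ?_
    ((rk_mono le_top).trans r))
  rw [card_top]
  exact o.of_dvd_nat (card_quotient_dvd_card _)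

end Cfsg.Agent.S1405
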