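import Cfsg.Statements.S1411
import Cfsg.Agent.H2.BGW

set_option autoImplicit false
open Cfsg

namespace Cfsg.Agent.S1411
open CfsgH2

/-- Let G be a minimal simple group of odd order, p a prime, P a Sylow p-subgroup of G and V a complement to P in its normalizer N_G(P). Then P equals the commutator subgroup [P, V], and P is contained in the derived subgroup of N_G(P). -/
theorem result {G : Type*} [Group G] [Finite G] (hG : Cfsg.IsMinSimpleOddOrder G) (p : ℕ) [Fact p.Prime] (P : Sylow p G)
    (V : Subgroup G) (hV : Cfsg.IsComplIn (P : Subgroup G) V (Subgroup.normalizer ((P : Subgroup G) : Set G))) :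
    (P : Subgroup G) = ⁅(P : Subgroup G), V⁆ ∧
      (P : Subgroup G) ≤ ⁅Subgroup.normalizer ((P : Subgroup G) : Set G), Subgroup.normalizer ((P : Subgroup G) : Set G)⁆ := by
  open Subgroup Function in open scoped commutatorElement in
  haveI : MS G := ⟨hG⟩
  refine ⟨(bg10_7a' (syl_top P) (complIn_sup hV) fun d => ?_).symm, bg10_7a (syl_top P)⟩
  have e := card_sup_of_disj (.inr hV.2.1) hV.2.2.1
  rw [complIn_sup hV, ← card_mul_relIndex hV.1] at e
  exact ((syl_top P).mono hV.1 le_top).nd (Nat.eq_of_mul_eq_mul_left (card_pos' _) e ▸ d)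

end Cfsg.Agent.S1411
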