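import Cfsg.Statements.S1415
import Cfsg.Agent.H2.BGW

set_option autoImplicit false
open Cfsg

namespace Cfsg.Agent.S1415
open CfsgH2

/-- Let G be a minimal simple group of odd order, M a maximal subgroup and E a complement to M_σ in M. Then the derived subgroup E' is nilpotent; every Hall τ₁(M)-subgroup of E is cyclic; and every Hall τ₃(M)-subgroup E₃ of E is cyclic, contained in E' and normal in E. -/
theorem result {G : Type*} [Group G] [Finite G] (hG : Cfsg.IsMinSimpleOddOrder G)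
    (M : Subgroup G) (hM : IsCoatom M) (E : Subgroup G) (hE : Cfsg.IsComplIn E (Cfsg.sigmaCore M) M) :
    Group.IsNilpotent ↥⁅E, E⁆ ∧
      (∀ E₁ : Subgroup G, Cfsg.IsPiHallOf (Cfsg.tau1 M) E₁ E → IsCyclic E₁) ∧
      ∀ E₃ : Subgroup G, Cfsg.IsPiHallOf (Cfsg.tau3 M) E₃ E → IsCyclic E₃ ∧ E₃ ≤ ⁅E, E⁆ ∧ E ≤ Subgroup.normalizer (E₃ : Set G) := by
  open Subgroup Function in open scoped commutatorElement in
  haveI : MS G := ⟨hG⟩
  replace hE := hall_of_complIn hM hE
  refine ⟨bg12_1a hM hE, fun E₁ a => tau13_cyc hM ((hall_iff.1 a).le.trans hE.le)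
    (.inl (hall_iff.1 a).pi), fun E₃ a => ?_⟩
  have b := hall_iff.1 a
  exact ⟨tau13_cyc hM (b.le.trans hE.le) (.inr b.pi), tau3_le_der' hM hE b.le b.pi, norm_tau3 hM hE b⟩

end Cfsg.Agent.S1415
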