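import Cfsg.Statements.S1441
import Cfsg.Agent.H2.BG6

set_option autoImplicit false
open Cfsg

namespace Cfsg.Agent.S1441
open CfsgH2

/-- Let G be a finite group, H a solvable subgroup and A a subgroup normalizing H. Suppose there is a chain H = H₀ ≥ H₁ ≥ ⋯ ≥ H_n = 1 of subgroups normal in H and normalized by A such that A acts trivially on each factor H_{i-1}/H_i (that is, [H_{i-1}, A] ≤ H_i). Then every prime dividing the index of C_A(H) in A divides the order of H. -/
theorem result {G : Type*} [Group G] [Finite G] (H A : Subgroup G) (hH : Group.IsSolvable H) (hA : (A ≤ Subgroup.normalizer (H : Set G)))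
    (n : ℕ) (c : Fin (n + 1) → Subgroup G) (hc0 : c 0 = H) (hcn : c (Fin.last n) = ⊥) (hanti : Antitone c)
    (hcN : ∀ i, H ≤ Subgroup.normalizer ((c i : Subgroup G) : Set G)) (hcA : ∀ i, A ≤ Subgroup.normalizer ((c i : Subgroup G) : Set G))
    (htriv : ∀ i : Fin n, ⁅c i.castSucc, A⁆ ≤ c i.succ) :
    ∀ p : ℕ, p.Prime → p ∣ (A ⊓ Subgroup.centralizer (H : Set G)).relIndex A → p ∣ Nat.card H := by
  open Subgroup Function in open scoped commutatorElement in
  intro p hp d
  by_contra h
  haveI := Fact.mk hp
  obtain ⟨x, a, b, e⟩ := exists_pelem_not_mem hp d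
  have px : IsPGroup p (zpowers x) := isPGroup_iff_piN.2 (piN_card_zpowers b)
  have l := zpowers_le.2 a
  have le : ∀ i, c i ≤ H := fun i => hc0 ▸ hanti (Fin.zero_le i)
  have key : ∀ i : Fin (n + 1), zpowers x ≤ Subgroup.centralizer (c i : Set G) := 
    Fin.reverseInduction (by rw [hcn, cent_bot]; exact le_top) fun m ih =>
      coprime_le_cent_of_stable (l.trans (hcA _)) (coprime_of_pgroup px
        fun j => h (j.trans (card_dvd_of_le (le _)))) (.inr (isSolvable_of_le hH (le _)))
        ((commutator_mono le_rfl l).trans (htriv m)) ih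
  exact e ⟨a, zpowers_le.1 (hc0 ▸ key 0)⟩

end Cfsg.Agent.S1441
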