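import Cfsg.Statements.S1443
import Cfsg.Agent.H2.BG6

set_option autoImplicit false
open Cfsg

namespace Cfsg.Agent.S1443
open CfsgH2

/-- Let G be a finite group, p an odd prime, H a p-subgroup, E an elementary abelian subgroup of H, and A a subgroup of order coprime to p normalizing H. If A centralizes every element of order p in H ∩ C_G(E), then A centralizes H. -/
theorem result {G : Type*} [Group G] [Finite G] (p : ℕ) [Fact p.Prime] (hp : p ≠ 2) (H E A : Subgroup G) (hH : IsPGroup p H) (hE : E ≤ H) (hEe : Cfsg.IsElementaryAbelian p E)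
    (hA : (A ≤ Subgroup.normalizer (H : Set G))) (hcop : (Nat.card A).Coprime p)
    (hfix : ∀ x ∈ (H ⊓ Subgroup.centralizer (E : Set G)), orderOf x = p → A ≤ Subgroup.centralizer ({x} : Set G)) :
    A ≤ Subgroup.centralizer (H : Set G) := by
  open Subgroup Function in open scoped commutatorElement in
  refine coprime_odd_cent_elem hp hH (le_inf hE (le_cent_self hEe.1)) hEe.2 hA
    ((coprime_iff_not_dvd Fact.out).1 hcop) fun x a b c => ?_
  by_cases e : x = 1
  · exact e ▸ one_mem _
  · exact le_cent1_iff.1 (hfix x ⟨a, b⟩ (orderOf_eq_of_pow Fact.out c e))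

end Cfsg.Agent.S1443
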