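import Cfsg.Statements.S1450
import Mathlib
import Cfsg.Agent.H9.BG43

set_option autoImplicit false
open Cfsg

namespace Cfsg.Agent.S1450

/-- Let G be a solvable group of odd order, p a prime dividing its order with G having no elementary abelian subgroup of order p ^ 3. Then every prime dividing the index of O_{p'}(G) is at most p; if p = 3 or p is the smallest prime divisor of #G then G has a normal p-complement; the derived subgroup G' has a normal p-complement; every subgroup of G' of order coprime to p lies in O_{p'}(G'); and G/O_{p',p}(G) is abelian of order coprime to p. -/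
theorem result {G : Type*} [Group G] [Finite G] [Group.IsSolvable G] (hodd : Odd (Nat.card G)) (p : ℕ) [Fact p.Prime] (hpG : p ∣ Nat.card G) (hr : Cfsg.PRankLE p 2 G) :
    (∀ q : ℕ, q.Prime → q ∣ (Cfsg.pPrimeCore p G).index → q ≤ p) ∧
      ((p = 3 ∨ ∀ q : ℕ, q.Prime → q ∣ Nat.card G → p ≤ q) → Cfsg.HasNormalPComplement p G) ∧
      Cfsg.HasNormalPComplement p ↥(commutator G) ∧
      (∀ L : Subgroup ↥(commutator G), (Nat.card L).Coprime p → L ≤ Cfsg.pPrimeCore p ↥(commutator G)) ∧
      commutator G ≤ Cfsg.pPrimePCore p G ∧ ((Cfsg.pPrimePCore p G).index).Coprime p := by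
  open Subgroup Cfsg CfsgH2 CfsgBG in
  have hs : Sol[(⊤ : Subgroup G)] := inferInstance
  have ho : Odd o[(⊤ : Subgroup G)] := by rwa [card_top]
  have hr' := prankLE_top_iff.1 hr
  obtain ⟨h1, h2⟩ := bg4_18c hs ho hr'
  have h3 := npc_iff.2 h1
  refine ⟨fun q hq hd => bg4_18a hs ho hr' hq (by rwa [relIndex_top_right, ← pPrimeCore_eq']),
    fun h => npc_top_iff.2 (bg4_18b hs ho hr' (by rwa [card_top])), h3, fun L hL => ?_, ?_, ?_⟩
  · rw [pPrimeCore_eq']
    exact (npc_top_iff.1 h3).le le_top ((CfsgH2.coprime_iff_not_dvd Fact.out).1 hL)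
  · rw [← Opp_top]
    exact le_Opp le_top le_norm_comm_left h1
  · rw [← Opp_top, ← relIndex_top_right]
    exact (CfsgH2.coprime_iff_not_dvd Fact.out).2 (pl1_iff.1 h2)

end Cfsg.Agent.S1450
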