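import Cfsg.Statements.S1451
import Mathlib
import Cfsg.Agent.H9.BG43

set_option autoImplicit false
open Cfsg

namespace Cfsg.Agent.S1451

/-- Let G be a solvable group of odd order such that G, or its Fitting subgroup, has no elementary abelian subgroup of order q ^ 3 for any prime q. Then G' is nilpotent; for every Sylow subgroup S of G, every characteristic subgroup T of S with T ≤ [S, S] is normal in G; and for every prime p, G has a characteristic subgroup that is a Hall subgroup for the set of primes greater than p. -/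
theorem result {G : Type*} [Group G] [Finite G] [Group.IsSolvable G] (hodd : Odd (Nat.card G)) (hr : Cfsg.RankLE 2 G ∨ Cfsg.RankLE 2 (Cfsg.fittingSubgroup G)) :
    Group.IsNilpotent ↥(commutator G) ∧
      (∀ (q : ℕ) [Fact q.Prime] (S : Sylow q G) (T : Subgroup ↥(S : Subgroup G)), T.Characteristic → T.map (S : Subgroup G).subtype ≤ ⁅(S : Subgroup G), (S : Subgroup G)⁆ →
        (T.map (S : Subgroup G).subtype).Normal) ∧
      ∀ p : ℕ, ∃ N : Subgroup G, N.Characteristic ∧ Cfsg.IsPiHall {q | q.Prime ∧ p < q} N := by
  open Subgroup Cfsg CfsgH2 CfsgBG in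
  have hs : Sol[(⊤ : Subgroup G)] := inferInstance
  have ho : Odd o[(⊤ : Subgroup G)] := by rwa [card_top]
  have hr' : rk F[(⊤ : Subgroup G)] ≤ 2 := by
    rcases hr with hr | hr
    · exact (rk_mono le_top).trans (rankLE_top_iff.1 hr)
    · rw [fit_top]
      exact rankLE_iff.1 hr
  refine ⟨isNilpotent_of_le fit_nil (bg4_20a hs ho hr'), fun q _ S T hT h => ?_, fun p => ?_⟩
  · exact normal_of_top_le_norm (bg4_20b hs ho hr' (syl_top S) h
      (inf_le_right.trans (norm_le_norm_map_subtype T)))
  · have h := bg4_20c hs ho hr' (p + 1)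
    rw [piCoreOf_top] at h
    exact ⟨_, inferInstance, hall_top_iff.2 (h.congr fun q hq _ => by simp [hq, Nat.succ_le_iff])⟩

end Cfsg.Agent.S1451
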