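import Cfsg.Statements.S1454
import Mathlib
import Cfsg.Agent.H9.BG43

set_option autoImplicit false
open Cfsg

namespace Cfsg.Agent.S1454

/-- Let G be a finite group, p an odd prime, R a narrow p-subgroup and A a solvable subgroup of odd order normalizing R with A ∩ C_G(R) = 1. Then [A, A] ≤ O_p(A) and the index of O_p(A) in A is coprime to p; if R has an elementary abelian subgroup of order p ^ 3 then the order of every element of A of order coprime to p divides p − 1; and if the order of A is a prime not dividing p(p − 1), then 2·#A divides p + 1, and if in addition [R, A] = R and R is non-abelian then #R = p ^ 3. -/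
theorem result {G : Type*} [Group G] [Finite G] (p : ℕ) [Fact p.Prime] (hp : p ≠ 2) (R A : Subgroup G) (hR : IsPGroup p R) (hRn : Cfsg.IsNarrow p R)
    (hA : (A ≤ Subgroup.normalizer (R : Set G))) (hAs : Group.IsSolvable A) (hAodd : Odd (Nat.card A)) (hfaith : A ⊓ Subgroup.centralizer (R : Set G) = ⊥) :
    (commutator ↥A ≤ Cfsg.pCore p ↥A ∧ ((Cfsg.pCore p ↥A).index).Coprime p) ∧
      (¬ Cfsg.PRankLE p 2 R → ∀ a ∈ A, (orderOf a).Coprime p → orderOf a ∣ p - 1) ∧
      ((Nat.card A).Prime → ¬ Nat.card A ∣ p * (p - 1) →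
        2 * Nat.card A ∣ p + 1 ∧ (⁅R, A⁆ = R → ¬ IsMulCommutative R → Nat.card R = p ^ 3)) := by
  open Subgroup Cfsg CfsgH2 CfsgBG in
  have hn := (nar_iff hp hR).1 hRn
  have hi := subtype_injective A
  refine ⟨?_, fun hr a ha hc => ?_, fun hq hd => ?_⟩
  · obtain ⟨-, D, d1, d2, d3, d4, d5⟩ := bg5_5a hp hR hn hA hAs hAodd
    have h1 : D ≤ O[{p}, A] := le_pCoreOf d1 d2 (isPGroup_of_piRes (by
      rw [le_bot_iff.1 ((le_inf (piRes_le.trans d1) d3).trans hfaith.le)]
      exact IsPGroup.of_bot))
    constructor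
    · rw [← map_le_map_iff_of_injective hi, map_pCore_subtype, map_subtype_commutator]
      exact d4.trans h1
    · rw [← relIndex_top_right, ← relIndex_map_map_of_injective _ _ hi, map_pCore_subtype,
        map_subtype_top]
      exact (CfsgH2.coprime_iff_not_dvd Fact.out).2 fun h => d5 (h.trans
        (relIndex_dvd_of_le_left _ h1))
  · exact orderOf_dvd_iff_pow_eq_one.2 (mem_bot.1 (hfaith ▸ mem_inf.2 ⟨pow_mem ha _, bg5_5b' hp hR
      hn (not_le.1 (mt prankLE_iff.2 hr)) (hA ha) ((CfsgH2.coprime_iff_not_dvd Fact.out).1 hc)⟩))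
  · exact bg5_5c hp hR hn hA hq (fun e => by rw [e] at hAodd; exact absurd hAodd (by decide)) rfl (fun h =>
      ne_bot_of_card_prime hq (le_bot_iff.1 (hfaith ▸ le_inf le_rfl h))) hd

end Cfsg.Agent.S1454
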