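import Cfsg.Statements.S1458
import Mathlib
import Cfsg.Agent.L0.PCon

set_option autoImplicit false
open Cfsg

namespace Cfsg.Agent.S1458

open Cfsg Subgroup CfsgH2 CfsgL0

/-- Let G be a solvable group of odd order, p a prime and S a Sylow p-subgroup of G. Then the subgroup generated by the centre of the Thompson subgroup of S and O_{p'}(G) is normal in G. -/
theorem result {G : Type*} [Group G] [Finite G] [Group.IsSolvable G] (hodd : Odd (Nat.card G)) (p : ℕ) [Fact p.Prime] (S : Sylow p G) :
    (Cfsg.centerThompsonOf p (S : Subgroup G) ⊔ Cfsg.pPrimeCore p G).Normal := by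
  by_cases hp2 : p = 2
  · subst hp2
    have : (S : Subgroup G) = ⊥ := eq_bot_of_pgroup_of_not_dvd S.isPGroup' fun h =>
      (Nat.not_even_iff_odd.2 hodd) (even_iff_two_dvd.2 (h.trans (card_subgroup_dvd_card _)))
    rw [ZJ_eq, le_bot_iff.1 (le_trans inf_le_left (J_le.trans this.le)), bot_sup_eq]
    infer_instance
  have hs : Sol[(⊤ : Subgroup (G ⧸ pPrimeCore p G))] := inferInstance
  rw [ZJ_eq]
  refine sup_core'_normal (core'_sup_ZJe hp2 (syl_top S) (nst_of_pst (pst_of_odd hs ?_))
    (con_of_core' hs core'_quot))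
  rw [card_top]
  exact Odd.of_dvd_nat hodd (card_quotient_dvd_card _)

end Cfsg.Agent.S1458
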