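import Cfsg.Statements.S1459
import Cfsg.Agent.H2.BG6

set_option autoImplicit false
open Cfsg

namespace Cfsg.Agent.S1459
open CfsgH2

/-- Let G be a finite solvable group. (a) If H is a normal subgroup of order coprime to its index, K is a complement to H, and H ≤ G', then H = [H, K] and H ∩ C_G(K) ≤ [H, H]. (b) If G' is nilpotent and has prime index in G, then the order of G' is coprime to its index and G' = [G, K] (the subgroup generated by commutators of elements of G with elements of K) for every complement K of G'. -/
theorem result {G : Type*} [Group G] [Finite G] [Group.IsSolvable G] :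
    (∀ (H K : Subgroup G), H.Normal → (Nat.card H).Coprime H.index → Subgroup.IsComplement' H K → H ≤ commutator G →
        H = ⁅H, K⁆ ∧ H ⊓ Subgroup.centralizer (K : Set G) ≤ ⁅H, H⁆) ∧
      (Group.IsNilpotent ↥(commutator G) → (commutator G).index.Prime →
        (Nat.card ↥(commutator G)).Coprime (commutator G).index ∧
        ∀ K : Subgroup G, Subgroup.IsComplement' (commutator G) K → commutator G = ⁅(⊤ : Subgroup G), K⁆) := by
  open Subgroup Function in open scoped commutatorElement in
  have s : ∀ H : Subgroup G, Group.IsSolvable H := fun H => inferInstance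
  have key : ∀ (H K : Subgroup G), H.Normal → (Nat.card H).Coprime H.index →
      Subgroup.IsComplement' H K → H ≤ commutator G →
        H = ⁅H, K⁆ ∧ H ⊓ Subgroup.centralizer (K : Set G) ≤ ⁅H, H⁆ := fun H K a b c d => by
    obtain ⟨e, f⟩ := coprime_der_comm (s H) (K := K) (by rw [normalizer_eq_top]; exact le_top)
      (c.symm.index_eq_card ▸ b.symm) (by rw [c.sup_eq_top]; exact d)
    exact ⟨e.symm, f⟩
  refine ⟨key, fun a b => ?_⟩
  have c : (Nat.card ↥(commutator G)).Coprime (commutator G).index := by
    have := coprime_der_of_prime (M := (⊤ : Subgroup G)) a (by rw [relIndex_top_right]; exact b)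
    rwa [relIndex_top_right] at this
  exact ⟨c, fun K d => le_antisymm ((key _ K inferInstance c d le_rfl).1.le.trans
    (commutator_mono le_top le_rfl)) (commutator_mono le_rfl le_top)⟩

end Cfsg.Agent.S1459
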