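import Cfsg.Statements.S1461
import Cfsg.Agent.H2.BG6

set_option autoImplicit false
open Cfsg

namespace Cfsg.Agent.S1461
open CfsgH2

/-- Let G be a finite solvable group, p a prime with G = O_{p',p,p'}(G), and S a Sylow p-subgroup. Then: if S ≤ G' then S ≤ [N_G(S), N_G(S)]; if Y ⊆ S and xYx⁻¹ ⊆ S then x = g c for some g ∈ N_G(S) and c centralizing Y; and for every p-subgroup Q there is x ∈ C_G(Q ∩ S) with xQx⁻¹ ≤ S. -/
theorem result {G : Type*} [Group G] [Finite G] [Group.IsSolvable G] (p : ℕ) [Fact p.Prime] (hpl : Cfsg.PLengthLE p 1 G) (S : Sylow p G) :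
    ((S : Subgroup G) ≤ commutator G → (S : Subgroup G) ≤ ⁅Subgroup.normalizer ((S : Subgroup G) : Set G), Subgroup.normalizer ((S : Subgroup G) : Set G)⁆) ∧
      (∀ (Y : Set G) (x : G), Y ⊆ (S : Subgroup G) → (fun y => x * y * x⁻¹) '' Y ⊆ (S : Subgroup G) →
        ∃ g ∈ Subgroup.normalizer ((S : Subgroup G) : Set G), ∃ c ∈ Subgroup.centralizer Y, g * c = x) ∧
      ∀ Q : Subgroup G, IsPGroup p Q → ∃ x ∈ Subgroup.centralizer ((Q ⊓ (S : Subgroup G) : Subgroup G) : Set G), Q.map (MulAut.conj x).toMonoidHom ≤ (S : Subgroup G) := by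
  open Subgroup Function in open scoped commutatorElement in
  have h := pl1_top_iff.1 hpl
  refine ⟨fun a => ?_, fun Y x a b => ?_, fun Q a => ?_⟩
  · have := h.le_der_norm (syl_top S)
    rw [top_inf_eq] at this
    exact ((le_inf le_rfl a).trans this.le).trans inf_le_right
  · obtain ⟨g, c, d, e, rfl⟩ := h.trans (syl_top S) ((closure_le _).2 a) (mem_top x) (by
      rw [MonoidHom.map_closure]; exact (closure_le _).2 b)
    exact ⟨g, c.2, d, centralizer_le Subgroup.subset_closure e.2, rfl⟩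
  · obtain ⟨x, b, c⟩ := h.exists_conj_le (syl_top S) a le_top
    exact ⟨x, b.2, c⟩

end Cfsg.Agent.S1461
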