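import Cfsg.Statements.S1463
import Mathlib
import Cfsg.Agent.L0.Quad2

set_option autoImplicit false
open scoped MatrixGroups
open Cfsg

namespace Cfsg.Agent.S1463

open Cfsg Subgroup CfsgH2 CfsgL0 Matrix
open scoped MatrixGroups

theorem two_ker {F : Type*} [Field F] {A : Matrix (Fin 2) (Fin 2) F} {v w : Fin 2 → F} (h0 : v ≠ 0)
    (hw : w ∉ Submodule.span F {v}) (h1 : A *ᵥ v = 0) (h2 : A *ᵥ w = 0) : A = 0 := by
  have d : v 0 * w 1 - v 1 * w 0 ≠ 0 := fun d => hw (Submodule.mem_span_singleton.2 (by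
    by_cases c : v 0 = 0
    · have c1 : v 1 ≠ 0 := fun c1 => h0 (funext fun i => by fin_cases i; exacts [c, c1])
      refine ⟨w 1 / v 1, funext fun i => ?_⟩
      fin_cases i <;> simp <;> field_simp
      linear_combination d
    · refine ⟨w 0 / v 0, funext fun i => ?_⟩
      fin_cases i <;> simp <;> field_simp
      linear_combination -d))
  ext i j
  have a := congrFun h1 i
  have b := congrFun h2 i
  simp only [mulVec, dotProduct, Fin.sum_univ_two, Pi.zero_apply] at a b
  refine mul_right_cancel₀ d ?_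
  fin_cases j <;> simp
  · left; exact mul_right_cancel₀ d (by linear_combination w 1 * a - v 1 * b)
  · left; exact mul_right_cancel₀ d (by linear_combination v 0 * b - w 0 * a)

/-- Let F be a field of odd characteristic p and H a finite subgroup of odd order of GL(2, F) that leaves no 1-dimensional subspace of F² invariant. Then p does not divide the order of H. -/
theorem result {F : Type*} [Field F] (p : ℕ) [Fact p.Prime] [CharP F p] (hp : p ≠ 2)
    (H : Subgroup (GL (Fin 2) F)) [Finite H] (hodd : Odd (Nat.card H))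
    (hirr : ∀ v : Fin 2 → F, v ≠ 0 → ∃ g ∈ H, (g : Matrix (Fin 2) (Fin 2) F).mulVec v ∉ Submodule.span F {v}) :
    ¬ p ∣ Nat.card H := by
  intro hd
  obtain ⟨x, hx⟩ := exists_prime_orderOf_dvd_card' p hd
  let m : H →* Matrix (Fin 2) (Fin 2) F := (Units.coeHom _).comp H.subtype
  have q : ∀ y : H, y ^ p = 1 → (m y - 1) * (m y - 1) = 0 ∧ m y 0 0 + m y 1 1 = 2 := fun y hy => by
    have h1 : (m y).det = 1 := by
      have : (m y).det ^ p = 1 ^ p := by rw [← det_pow, ← map_pow, hy, map_one, det_one, one_pow]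
      exact frobenius_inj F p this
    let M : SL(2, F) := ⟨m y, h1⟩
    have h2 : M ^ p ^ 1 = 1 := Subtype.ext (by
      rw [sl_pow, pow_one]; exact (map_pow m _ _).symm.trans (by rw [hy, map_one]; rfl))
    exact ⟨sl_quad h2, sl_trace h2⟩
  have xp : x ^ p = 1 := hx ▸ pow_orderOf_eq_one x
  have a0 : m x - 1 ≠ 0 := fun e => (Fact.out : p.Prime).one_lt.ne' (hx.symm.trans
    (orderOf_eq_one_iff.2 (Subtype.ext (Units.ext (sub_eq_zero.1 e)))))
  obtain ⟨v, v0, hv⟩ := (exists_mulVec_eq_zero_iff (M := m x - 1)).2 (by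
    simpa using congrArg det (q x xp).1)
  obtain ⟨g, hg, g1⟩ := hirr v v0
  lift g to H using hg
  obtain ⟨qa, ta⟩ := q x xp
  obtain ⟨qb, tb⟩ := q (g * x * g⁻¹) (by rw [conj_pow, xp]; simp)
  have eb : (m (g * x * g⁻¹) - 1) * m g = m g * (m x - 1) := by
    rw [sub_mul, ← map_mul, inv_mul_cancel_right, map_mul, mul_sub]; simp
  generalize g * x * g⁻¹ = y at *
  let W := AddSubgroup.closure (Set.range fun h : H => m h *ᵥ v)
  haveI : Finite W := AddCommGroup.finite_of_fg_torsion _ fun w =>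
    isOfFinAddOrder_iff_nsmul_eq_zero.2 ⟨p, (Fact.out : p.Prime).pos, Subtype.ext (by ext; simp)⟩
  let S : Subring (Matrix (Fin 2) (Fin 2) F) := {
    carrier := {A | ∀ w ∈ W, A *ᵥ w ∈ W}
    mul_mem' := fun a b w hw => by rw [← mulVec_mulVec]; exact a _ (b w hw)
    one_mem' := fun w hw => by rwa [one_mulVec]
    add_mem' := fun a b w hw => by rw [add_mulVec]; exact add_mem (a w hw) (b w hw)
    zero_mem' := fun w _ => by rw [zero_mulVec]; exact zero_mem _
    neg_mem' := fun a w hw => by rw [neg_mulVec]; exact neg_mem (a w hw) }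
  let r : S →+* AddMonoid.End W := {
    toFun := fun A => (((mulVecLin A.1).toAddMonoidHom.comp W.subtype).codRestrict W fun w => A.2 _ w.2)
    map_one' := AddMonoidHom.ext fun w => Subtype.ext (one_mulVec _)
    map_mul' := fun A B => AddMonoidHom.ext fun w => Subtype.ext (mulVec_mulVec w.1 A.1 B.1).symm
    map_zero' := AddMonoidHom.ext fun w => Subtype.ext (zero_mulVec w.1)
    map_add' := fun A B => AddMonoidHom.ext fun w => Subtype.ext (add_mulVec A.1 B.1 w.1) }
  let ρ : H →* AddMonoid.End W := r.toMonoidHom.comp (m.codRestrict S fun h =>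
    (AddSubgroup.closure_le (W.comap (mulVecLin (m h)).toAddMonoidHom)).2 (by
      rintro _ ⟨k, rfl⟩
      exact AddSubgroup.subset_closure ⟨h * k, by
        change m (h * k) *ᵥ v = m h *ᵥ m k *ᵥ v; rw [map_mul, mulVec_mulVec]⟩))
  have hρ : ∀ h w, ((ρ h - 1) w).1 = (m h - 1) *ᵥ w.1 := fun h w => by rw [sub_mulVec, one_mulVec]; rfl
  have qq : ∀ h, (m h - 1) * (m h - 1) = 0 → (ρ h - 1) * (ρ h - 1) = 0 := fun h e =>
    AddMonoidHom.ext fun w => Subtype.ext ((hρ h _).trans ((congrArg _ (hρ h w)).trans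
      (by rw [mulVec_mulVec, e, zero_mulVec]; rfl)))
  have ez : (m x - 1) * (m y - 1) + (m y - 1) * (m x - 1) = ((m x - 1) * (m y - 1)).trace • 1 := by
    ext i j
    fin_cases i <;> fin_cases j <;> simp [mul_apply, trace_fin_two]
    · linear_combination (m x 1 1 - 1) * tb - (m y 0 0 - 1) * ta + (1 - m y 0 0) * ta + (m x 0 0 - 1) * tb
        + 2 * (m y 0 0 - 1) * ta - (m x 0 0 + m x 1 1 - 2) * tb - (m x 1 1 - 1) * tb + (m y 0 0 - 1) * ta
    · linear_combination m y 0 1 * ta + m x 0 1 * tb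
    · linear_combination m y 1 0 * ta + m x 1 0 * tb
    · linear_combination (m y 1 1 - 1) * ta - (m x 0 0 - 1) * tb
  obtain ⟨K, _, _, _, l, ι, l0, i1, i2, i3⟩ := exists_plane_fin (p := p) (W := W)
    (fun w => Subtype.ext (by ext; simp)) (qq x qa) (qq y qb) fun ⟨n, hn⟩ => by
      have k : ∀ (n : ℕ) w, ((((ρ x - 1) * (ρ y - 1) + (ρ y - 1) * (ρ x - 1)) ^ n) w).1 =
          ((m x - 1) * (m y - 1)).trace ^ n • w.1 := fun n => by
        induction n with
        | zero => simp
        | succ n ih =>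
          intro w
          rw [pow_succ, emul, ih, pow_succ, mul_smul]
          refine congrArg _ ((congrArg₂ (· + ·) ((hρ x _).trans (congrArg _ (hρ y w)))
            ((hρ y _).trans (congrArg _ (hρ x w)))).trans ?_)
          simp only [mulVec_mulVec, ← add_mulVec, ez, smul_mulVec, one_mulVec]
      have k1 := k n ⟨v, AddSubgroup.subset_closure ⟨1, by simp⟩⟩
      rw [hn] at k1
      rw [eq_zero_of_pow_eq_zero ((smul_eq_zero.1 k1.symm).resolve_right v0), zero_smul] at ez
      have k2 := congrArg (· *ᵥ v) ez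
      simp only [add_mulVec, ← mulVec_mulVec, hv, mulVec_zero, add_zero, zero_mulVec] at k2
      obtain ⟨t, ht⟩ := Submodule.mem_span_singleton.1 (by_contra fun c => a0 (two_ker v0 c hv k2))
      have k3 := congrArg ((m y - 1) *ᵥ ·) ht
      simp only [mulVec_smul, mulVec_mulVec, qb, zero_mulVec] at k3
      rw [← ht, smul_smul, smul_eq_zero, or_iff_left v0, mul_self_eq_zero] at k3
      rw [k3, zero_smul] at ht
      rw [two_ker v0 g1 ht.symm (by
        change _ *ᵥ m g *ᵥ v = 0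
        rw [mulVec_mulVec, eb, ← mulVec_mulVec, hv, mulVec_zero]), zero_mul] at eb
      refine a0 ?_
      have := congrArg (m g⁻¹ * ·) eb
      simp only [← mul_assoc, ← map_mul, inv_mul_cancel, map_one, one_mul, mul_zero] at this
      exact this.symm
  have f1 : ∀ v, ρ x (ι v) = ι ((uT l).1 *ᵥ v) := fun v => by
    rw [uT_mulVec, map_add]; exact sub_eq_iff_eq_add'.1 (i2 v)
  have f2 : ∀ v, ρ y (ι v) = ι ((lT 1).1 *ᵥ v) := fun v => by
    rw [lT_mulVec, map_add, one_mul]; exact sub_eq_iff_eq_add'.1 (i3 v)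
  obtain ⟨φ, hφ⟩ := exists_hom_of_plane ρ (s := {x, y}) (fun g _ h _ => ρ.map_mul g h) ρ.map_one i1 (by
    rintro _ (rfl | rfl); exacts [⟨_, f1⟩, ⟨_, f2⟩])
  obtain ⟨_, ⟨a, rfl⟩, _, ⟨b, rfl⟩, κ, k1, k2, k3⟩ := exists_prime_plane (Γ := φ.range) hp l0 one_ne_zero
    ⟨⟨x, subset_closure (by simp)⟩, sl_ext i1 fun v => (hφ _ v).symm.trans (f1 v)⟩
    ⟨⟨y, subset_closure (by simp)⟩, sl_ext i1 fun v => (hφ _ v).symm.trans (f2 v)⟩
  have e1 : ∀ v, (φ (a * b * a)).1 *ᵥ κ v = κ ((uT (-1 : ZMod p) * lT 1 * uT (-1)).1 *ᵥ v) := fun v => by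
    simp only [map_mul, sl_mul, ← mulVec_mulVec, k2, k3]
  have e2 : ∀ (n : ℕ) v, (φ ((a * b * a) ^ n)).1 *ᵥ κ v = κ (((uT (-1 : ZMod p) * lT 1 * uT (-1)) ^ n).1 *ᵥ v) :=
    fun n => by
      induction n with
      | zero => simp [sl_one]
      | succ n ih => intro v; rw [pow_succ, pow_succ, map_mul, sl_mul, sl_mul, ← mulVec_mulVec, e1, ih,
          mulVec_mulVec]
  have e3 : (uT (-1 : ZMod p) * lT 1 * uT (-1)) ^ Nat.card H = 1 := sl_ext k1 fun v => by
    rw [← e2, show (a * b * a) ^ Nat.card H = 1 from Subtype.ext (pow_card_eq_one'), map_one, sl_one,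
      sl_one, one_mulVec, one_mulVec]
  have e4 : uT (-1 : ZMod p) * lT 1 * uT (-1) = wS2 :=
    Subtype.ext (by simp only [sl_mul, uT_coe, lT_coe, mul_fin_two, wS2]; simp)
  have e5 : (wS2 : SL(2, ZMod p)) ^ 4 = 1 := Subtype.ext (by
    change (!![0, -1; 1, 0] : Matrix (Fin 2) (Fin 2) (ZMod p)) ^ 4 = 1
    simp only [pow_succ, pow_zero, one_mul, mul_fin_two, one_fin_two]; simp)
  rw [e4] at e3
  have := orderOf_eq_one_iff.1 (Nat.eq_one_of_dvd_coprimes ((Nat.coprime_two_right.2 hodd).pow_right 2)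
    (orderOf_dvd_of_pow_eq_one e3) (orderOf_dvd_of_pow_eq_one e5))
  exact zero_ne_one (congrArg (fun M : SL(2, ZMod p) => M.1 0 0) this)

end Cfsg.Agent.S1463
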