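import Cfsg.Statements.S1464
import Mathlib
import Cfsg.Agent.L0.PCon

set_option autoImplicit false
open Cfsg

namespace Cfsg.Agent.S1464

open Cfsg Subgroup CfsgH2 CfsgL0

/-- Let p be an odd prime and G a solvable group of odd order, P a p-subgroup with O_{p'}(G)P normal in G, and A a p-subgroup of N_G(P) with [[P, A], A] = 1. Then the image of A in the quotient N_G(P)/C_G(P) is contained in the p-core of that quotient. -/
theorem result {G : Type*} [Group G] [Finite G] [Group.IsSolvable G] (hodd : Odd (Nat.card G)) (p : ℕ) [Fact p.Prime] (hp : p ≠ 2) (P A : Subgroup G) (hP : IsPGroup p P) (hPn : (Cfsg.pPrimeCore p G ⊔ P).Normal)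
    (hA : IsPGroup p A) (hAN : A ≤ Subgroup.normalizer (P : Set G)) (hquad : ⁅⁅P, A⁆, A⁆ = ⊥) :
    (A.subgroupOf (Subgroup.normalizer (P : Set G))).map
        (QuotientGroup.mk' ((Subgroup.centralizer (P : Set G)).subgroupOf (Subgroup.normalizer (P : Set G))))
      ≤ Cfsg.pCore p _ := by
  have h := pst_top_iff.2 (pst_of_odd (p := p) (M := (⊤ : Subgroup G)) inferInstance (by rwa [card_top]))
  rintro _ ⟨a, ha, rfl⟩
  exact h P hP a a.2 (le_bot_iff.1 (hquad ▸ commutator_mono (commutator_mono le_rfl (zpowers_le.2 ha))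
    (zpowers_le.2 ha)))

end Cfsg.Agent.S1464
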