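import Cfsg.Statements.S1465
import Mathlib
import Cfsg.Agent.L0.Puig

set_option autoImplicit false
open Cfsg

namespace Cfsg.Agent.S1465

open Cfsg Subgroup CfsgH2 CfsgL0

/-- Let p be an odd prime, G a solvable group of odd order, P a normal p-subgroup of G, and X the subgroup generated by a family of abelian p-subgroups of G each normalized by P. Then the image of X in G/C_G(P) lies in O_p(G/C_G(P)); and if O_{p'}(G) = 1 and O_p(G) ∩ C_G(P) ≤ P then X ≤ O_p(G). -/
theorem result {G : Type*} [Group G] [Finite G] [Group.IsSolvable G] (hodd : Odd (Nat.card G)) (p : ℕ) [Fact p.Prime] (hp : p ≠ 2) (P : Subgroup G) [P.Normal] (hP : IsPGroup p P)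
    (S : Set (Subgroup G)) (hS : ∀ B ∈ S, IsMulCommutative B ∧ IsPGroup p B ∧ P ≤ Subgroup.normalizer (B : Set G)) :
    (sSup S).map (QuotientGroup.mk' (Subgroup.centralizer (P : Set G))) ≤ Cfsg.pCore p (G ⧸ Subgroup.centralizer (P : Set G)) ∧
      (Cfsg.pPrimeCore p G = ⊥ → Cfsg.pCore p G ⊓ Subgroup.centralizer (P : Set G) ≤ P → sSup S ≤ Cfsg.pCore p G) := by
  have hs : Sol[(⊤ : Subgroup G)] := inferInstance
  obtain ⟨D, d1, d2, d3, d4⟩ := exists_quad_core (p := p) hs (by rwa [card_top]) le_top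
    le_normalizer_of_normal hP
  have h : sSup S ≤ D := sSup_le fun B b => d4 B le_top (quad_of_ab (hS B b).1 (hS B b).2.2)
  haveI := normal_of_top_le_norm d2
  refine ⟨(map_mono h).trans ?_, fun h0 h1 => h.trans ?_⟩
  · haveI := Normal.map this _ (QuotientGroup.mk'_surjective C[P])
    exact le_pCore ((isPGroup_map_iff_piRes _).2 (by rwa [QuotientGroup.ker_mk']))
  · rw [pPrimeCore_eq'] at h0
    rw [pCore_eq'] at h1 ⊢
    exact le_core_of_cent (con_of_core' hs h0) h0 hs le_normalizer_of_normal h1 d1 d2 d3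

end Cfsg.Agent.S1465
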