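import Cfsg.Statements.S1466
import Mathlib
import Cfsg.Agent.L0.Puig

set_option autoImplicit false
open Cfsg

namespace Cfsg.Agent.S1466

open Cfsg Subgroup CfsgH2 CfsgL0

/-- Let p be a prime and R a nontrivial finite p-group. Then for every i > 0, Z(R) ≤ C_R(L_i(R)) ≤ L_i(R); likewise Z(R) ≤ C_R(L_*(R)) ≤ L_*(R) and Z(R) ≤ C_R(L(R)) ≤ L(R); and L(R) ≠ 1, L_*(R) ≠ 1. -/
theorem result {R : Type*} [Group R] [Finite R] (p : ℕ) [Fact p.Prime] (hR : IsPGroup p R) [Nontrivial R] :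
    (∀ i : ℕ, 0 < i → Subgroup.center R ≤ Subgroup.centralizer ((Cfsg.puigSeq R i : Subgroup R) : Set R) ∧
        Subgroup.centralizer ((Cfsg.puigSeq R i : Subgroup R) : Set R) ≤ Cfsg.puigSeq R i) ∧
      (Subgroup.center R ≤ Subgroup.centralizer ((Cfsg.puigLower R : Subgroup R) : Set R) ∧ Subgroup.centralizer ((Cfsg.puigLower R : Subgroup R) : Set R) ≤ Cfsg.puigLower R) ∧
      (Subgroup.center R ≤ Subgroup.centralizer ((Cfsg.puigSubgroup R : Subgroup R) : Set R) ∧ Subgroup.centralizer ((Cfsg.puigSubgroup R : Subgroup R) : Set R) ≤ Cfsg.puigSubgroup R) ∧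
      Cfsg.puigSubgroup R ≠ ⊥ ∧ Cfsg.puigLower R ≠ ⊥ := by
  have hT : PG[p, (⊤ : Subgroup R)] := isPGroup_top_iff.2 hR
  have a := cent_pL_le hT
  have b := cent_pU_le hT
  rw [top_inf_eq, pL_top] at a
  rw [top_inf_eq, pU_top] at b
  have z : center R ≠ ⊥ := by
    haveI := hR.center_nontrivial
    exact (nontrivial_iff_ne_bot _).1 this
  refine ⟨fun i hi => ⟨center_le_centralizer _, ?_⟩, ⟨center_le_centralizer _, a⟩,
    ⟨center_le_centralizer _, b⟩, fun e => z (le_bot_iff.1 (e ▸ (center_le_centralizer _).trans b)),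
    fun e => z (le_bot_iff.1 (e ▸ (center_le_centralizer _).trans a))⟩
  obtain ⟨i, rfl⟩ := Nat.exists_eq_succ_of_ne_zero hi.ne'
  have := cent_ps_le (n := i) hT
  rwa [top_inf_eq, ps_top] at this

end Cfsg.Agent.S1466
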