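import Cfsg.Statements.S1469
import Mathlib
import Cfsg.Agent.L0.Puig

set_option autoImplicit false
open Cfsg

namespace Cfsg.Agent.S1469

open Cfsg Subgroup CfsgH2 CfsgL0

/-- Let p be an odd prime, G a solvable group of odd order and S a Sylow p-subgroup, and let Z be the centre of the Puig subgroup L(S), viewed inside G. Then G is generated by O_{p'}(G) and N_G(Z); and if O_{p'}(G) = 1 then Z is normal in G. -/
theorem result {G : Type*} [Group G] [Finite G] [Group.IsSolvable G] (hodd : Odd (Nat.card G)) (p : ℕ) [Fact p.Prime] (hp : p ≠ 2) (S : Sylow p G) :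
    Cfsg.pPrimeCore p G ⊔ Subgroup.normalizer ((((Subgroup.center ↥(Cfsg.puigSubgroup ↥(S : Subgroup G))).map (Cfsg.puigSubgroup ↥(S : Subgroup G)).subtype).map (S : Subgroup G).subtype : Subgroup G) : Set G) = ⊤ ∧
      (Cfsg.pPrimeCore p G = ⊥ → (((Subgroup.center ↥(Cfsg.puigSubgroup ↥(S : Subgroup G))).map (Cfsg.puigSubgroup ↥(S : Subgroup G)).subtype).map (S : Subgroup G).subtype).Normal) := by
  have e : ((center (puigSubgroup (S : Subgroup G))).map (puigSubgroup (S : Subgroup G)).subtype).map
      (S : Subgroup G).subtype = Z[pU (S : Subgroup G)] := by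
    rw [map_center_subtype, ← map_pU, inj_inf_cent (subtype_injective _)]
  rw [e]
  have : pPrimeCore p G ⊔ N[Z[pU (S : Subgroup G)]] = ⊤ := by
    refine core'_sup_norm (S.isPGroup'.to_le (inf_le_left.trans pU_le)) ?_
    have hs : Sol[(⊤ : Subgroup (G ⧸ pPrimeCore p G))] := inferInstance
    have := puig_center hs (by rw [card_top]; exact Odd.of_dvd_nat hodd (card_quotient_dvd_card _))
      core'_quot (map_mk_top (pPrimeCore p G) ▸ (syl_top S).map _)
    have hi : Function.Injective ((QuotientGroup.mk' (pPrimeCore p G)).comp (S : Subgroup G).subtype) := by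
      rw [← MonoidHom.ker_eq_bot_iff, ← MonoidHom.comap_ker, ← subgroupOf, subgroupOf_eq_bot,
        disjoint_iff, inf_comm]
      exact inf_ker_eq_bot _ nd_ker_mk S.isPGroup'
    rw [← map_subtype_top (S : Subgroup G), inj_pU (subtype_injective _), inj_inf_cent (subtype_injective _),
      map_map]
    rwa [← map_subtype_top (S : Subgroup G), map_map, inj_pU hi, inj_inf_cent hi] at this
  exact ⟨this, fun h => by rwa [h, bot_sup_eq, normalizer_eq_top_iff] at this⟩

end Cfsg.Agent.S1469
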