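import Cfsg.Statements.S1475
import Cfsg.Agent.H3.CN2

set_option autoImplicit false
open Cfsg

namespace Cfsg.Agent.S1475
open CfsgH3

/-- Let G be a finite solvable group such that the order of every element is a prime power (1 included). Then at most two distinct primes divide the order of G. -/
theorem result {G : Type*} [Group G] [Finite G] [Group.IsSolvable G] (h : ∀ g : G, IsPrimePow (orderOf g) ∨ g = 1) :
    (Nat.card G).primeFactors.card ≤ 2 := by
  rcases subsingleton_or_nontrivial G with _ | _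
  · simp [Nat.card_of_subsingleton (1 : G)]
  obtain ⟨V, p, hV, V0, -, hp, -, pV, -⟩ := CfsgH1.exists_elementary_normal_le (⊤ : Subgroup G) top_ne_bot
  haveI := Fact.mk hp
  obtain ⟨E, hE⟩ := CfsgH1.exists_hallIn {p}ᶜ (⊤ : Subgroup G)
  replace hE := CfsgH1.hall_iff'.1 hE
  have key : ∀ x y : G, x ≠ 1 → y ≠ 1 → x * y = y * x → ¬ (orderOf x).Coprime (orderOf y) := by
    intro x y x1 y1 hc hco
    have h1 := Commute.orderOf_mul_eq_mul_orderOf_of_coprime hc hco
    rcases h (x * y) with h2 | h2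
    · rw [h1] at h2
      rcases (Nat.Coprime.isPrimePow_dvd_mul hco h2).1 dvd_rfl with h3 | h3
      · exact y1 (orderOf_eq_one_iff.1 (Nat.eq_one_of_dvd_coprimes hco
          ((Dvd.intro_left _ rfl).trans h3) dvd_rfl))
      · exact x1 (orderOf_eq_one_iff.1 (Nat.eq_one_of_dvd_coprimes hco dvd_rfl
          ((Dvd.intro _ rfl).trans h3)))
    · rw [h2, orderOf_one] at h1
      exact x1 (orderOf_eq_one_iff.1 (Nat.eq_one_of_mul_eq_one_right h1.symm))
  have pE : ¬ p ∣ Nat.card E := (CfsgH2.piN_compl_singleton hp).1 hE.pi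
  have dE : ∀ r ∈ (Nat.card G).primeFactors, r ≠ p → r ∣ Nat.card E := fun r hr hne =>
    hE.dvd_card (CfsgH2.PiN.of_prime (Nat.prime_of_mem_primeFactors hr) hne)
      (by simpa using Nat.dvd_of_mem_primeFactors hr)
  obtain ⟨q, hq⟩ : ∃ q : ℕ, ∀ r : ℕ, r.Prime → r ∣ Nat.card E → r = q := by
    by_cases E0 : E = ⊥
    · exact ⟨0, fun r hr hd => absurd (by simpa [E0] using hd) hr.one_lt.ne'⟩
    have hF : CfsgH1.Frob V E (V ⊔ E) := ⟨by rw [Subgroup.normalizer_eq_top]; exact le_top, rfl, V0,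
      E0, fun a ha a1 => eq_bot_iff.2 fun v hv => by
        by_contra v1
        refine key v a v1 a1 (Subgroup.mem_centralizer_singleton_iff.1 hv.2) ?_
        exact ((CfsgH2.coprime_of_pgroup pV pE).coprime_dvd_left (CfsgH2.orderOf_dvd_of_mem hv.1)).coprime_dvd_right
          (CfsgH2.orderOf_dvd_of_mem ha)⟩
    obtain ⟨q, hq, hd⟩ := CfsgH2.exists_prime_dvd_card hF.center_ne_bot
    obtain ⟨z, hz, ho⟩ := CfsgH2.exists_prime_order_mem hq hd
    refine ⟨q, fun r hr hd' => ?_⟩
    obtain ⟨y, hy, ho'⟩ := CfsgH2.exists_prime_order_mem hr hd'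
    by_contra hne
    refine key y z (fun e => hr.one_lt.ne' (by rw [← ho', e, orderOf_one]))
      (fun e => hq.one_lt.ne' (by rw [← ho, e, orderOf_one])) (CfsgH2.mem_cent_iff.1 hz.2 y hy) ?_
    rw [ho, ho']
    exact (Nat.coprime_primes hr hq).2 hne
  refine (Finset.card_le_card (t := {p, q}) fun r hr => ?_).trans Finset.card_le_two
  by_cases e : r = p
  · simp [e]
  · simp [hq r (Nat.prime_of_mem_primeFactors hr) (dE r hr e)]


end Cfsg.Agent.S1475
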