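import Cfsg.Statements.S1476
import Cfsg.Agent.H3.CN2
import Cfsg.Agent.S0016

set_option autoImplicit false
open Cfsg

namespace Cfsg.Agent.S1476
open CfsgH3
open CfsgH1 CfsgH2 in
theorem aux {G : Type*} [Group G] [Finite G] {K E : Subgroup G} (h : Frob K E ⊤)
    (hE : Group.IsNilpotent E) : IsCyclic E ∨ ∃ C Q : Subgroup G, C ⊔ Q = E ∧
      (∀ a ∈ C, ∀ b ∈ Q, a * b = b * a) ∧ IsCyclic C ∧ Odd (Nat.card C) ∧
          ∃ n : ℕ, Nonempty (↥Q ≃* QuaternionGroup (2 ^ n)) := by
  haveI := Fact.mk Nat.prime_two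
  obtain ⟨Q, hQ⟩ := exists_syl 2 E
  have hn := (npc_of_nilpotent (p := 2) hE).sup_eq hQ
  have hc : piCoreOf {2}ᶜ E ≤ C[Q] := le_cent_of_coprime_of_nilpotent hE piCoreOf_le hQ.le
    (coprime_of_pgroup hQ.pg not_dvd_piCoreOf).symm
  have h1 : IsMulCommutative (piCoreOf {2}ᶜ E) := by
    refine isMulComm_of_nilpotent_of_sylow (isNilpotent_of_le piCoreOf_le) fun r hr P hP => ?_
    haveI := Fact.mk hr
    by_cases e : r = 2
    · subst e
      rw [eq_bot_of_pgroup_of_not_dvd hP.pg fun hd =>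
        not_dvd_piCoreOf (hd.trans (Subgroup.card_dvd_of_le hP.le))]
      infer_instance
    · exact (h.isCyclic_of_odd hr e (hP.le.trans piCoreOf_le) hP.pg).isMulCommutative
  rcases Cfsg.Agent.S0016.result 2 hQ.pg (fun A B hA hB => Subgroup.map_injective Q.subtype_injective
    (h.unique_prime hQ.le hQ.pg (Subgroup.map_subtype_le A) (Subgroup.map_subtype_le B)
      (by rw [Subgroup.card_map_of_injective Q.subtype_injective, hA])
      (by rw [Subgroup.card_map_of_injective Q.subtype_injective, hB]))) with h2 | ⟨-, h2⟩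
  · exact Or.inl (h.isCyclic_of_comm le_rfl (hn ▸ isMulComm_sup h1 h2.isMulCommutative hc))
  · refine Or.inr ⟨_, Q, hn, fun a ha b hb => (mem_cent_iff.1 (hc ha) b hb).symm,
      h.isCyclic_of_comm piCoreOf_le h1, ?_, h2⟩
    rw [← Nat.not_even_iff_odd, even_iff_two_dvd]
    exact not_dvd_piCoreOf

/-- Let G be a finite solvable group in which every non-identity element has nilpotent centralizer. Then either G is nilpotent; or G has a normal subgroup K with a Frobenius complement E (K E = G, K ∩ E = 1, E meets its conjugates by outside elements trivially) such that E is cyclic or E is generated by two elementwise-commuting subgroups, one cyclic of odd order and one isomorphic to a generalized quaternion group; or G is a three-step group with respect to some prime p. -/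
theorem result {G : Type*} [Group G] [Finite G] [Group.IsSolvable G] (hCN : Cfsg.IsCNGroup G) :
    Group.IsNilpotent G ∨
      (∃ K E : Subgroup G, K.Normal ∧ Subgroup.IsComplement' K E ∧ Cfsg.IsFrobeniusComplement E ∧
        (IsCyclic E ∨ ∃ C Q : Subgroup G, C ⊔ Q = E ∧ (∀ a ∈ C, ∀ b ∈ Q, a * b = b * a) ∧ IsCyclic C ∧ Odd (Nat.card C) ∧
          ∃ n : ℕ, Nonempty (↥Q ≃* QuaternionGroup (2 ^ n)))) ∨
      ∃ p : ℕ, p.Prime ∧ Cfsg.IsThreeStepGroup p G := by
  by_cases hn : Group.IsNilpotent G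
  · exact Or.inl hn
  right
  rcases subsingleton_or_nontrivial G with _ | _
  · exact absurd (inferInstance : Group.IsNilpotent G) hn
  obtain ⟨V, p, hV, V0, -, hp, -, pV, -⟩ := CfsgH1.exists_elementary_normal_le (⊤ : Subgroup G) top_ne_bot
  haveI := Fact.mk hp
  have c0 : Cfsg.piCoreOf {p} (⊤ : Subgroup G) ≠ ⊥ := fun e => V0 (le_bot_iff.1 (e ▸
    CfsgH2.le_pCoreOf le_top (CfsgH2.top_le_norm_iff.2 hV) pV))
  obtain ⟨S, hS⟩ := CfsgH2.exists_syl p (⊤ : Subgroup G)
  by_cases e : ⊤ ≤ Subgroup.normalizer (S : Set G)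
  · haveI := CfsgH2.normal_of_top_le_norm e
    obtain ⟨E, h1, h2⟩ := cn_frob hCN hn fun e' =>
      c0 (le_bot_iff.1 (e' ▸ hS.pCoreOf_le.trans (syl_le_fittingHall hS)))
    exact Or.inl ⟨_, E, inferInstance, h1.isComplement', h1.isFrobeniusComplement, aux h1 h2⟩
  · obtain ⟨A, -, a1, a2, a3, a4, a5, a6, a7, -, a8, a9⟩ := three_step hCN inferInstance hS e c0
    rw [← CfsgH2.pCore_eq'] at c0 a5 a6 a7 a8 a9
    refine Or.inr ⟨p, hp, c0, A, a1, a2, a3, (CfsgH2.coprime_iff_not_dvd hp).2 a4,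
      CfsgH2.normal_of_top_le_norm a5, fun e => a6 e.ge, ?_, a8, fun x hx => a9 x trivial hx⟩
    rw [Subgroup.relIndex_top_right] at a7
    exact (CfsgH2.piN_singleton hp (CfsgH2.index_pos _).ne').1 a7


end Cfsg.Agent.S1476
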