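import Cfsg.Statements.S1480
import Cfsg.Agent.H2.Tt1

set_option autoImplicit false
open Cfsg

namespace Cfsg.Agent.S1480
open CfsgH2

/-- Let G be a finite group and p a prime such that the normalizer of every nontrivial p-subgroup of G is p-constrained; if p = 2 assume also that the Sylow 2-subgroups of G have nilpotency class at most 2. Let E be an abelian p-subgroup containing an elementary abelian subgroup of order p ^ 3 and containing every element of p-power order of C_G(E). Then for every prime q ≠ p, any two maximal E-invariant q-subgroups of G are conjugate by an element of O_{p'}(C_G(E)). -/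
theorem result {G : Type*} [Group G] [Finite G] (p : ℕ) [Fact p.Prime]
    (hloc : ∀ T : Subgroup G, IsPGroup p T → T ≠ ⊥ → Cfsg.IsPConstrained p ↥(Subgroup.normalizer (T : Set G)))
    (h2 : p = 2 → ∀ S : Sylow p G, Group.IsNilpotent (S : Subgroup G) ∧ Group.nilpotencyClass (S : Subgroup G) ≤ 2)
    (E : Subgroup G) (hEp : IsPGroup p E) (hEc : IsMulCommutative E) (hE3 : ¬ Cfsg.PRankLE p 2 E)
    (hEfull : ∀ x ∈ Subgroup.centralizer (E : Set G), IsPGroup p (Subgroup.zpowers x) → x ∈ E)
    (q : ℕ) [Fact q.Prime] (hqp : q ≠ p) :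
    ∀ Q₁ ∈ Cfsg.maxInvSubgroups ⊤ E {q}, ∀ Q₂ ∈ Cfsg.maxInvSubgroups ⊤ E {q},
        ∃ k ∈ Cfsg.piCoreOf (Cfsg.primesNotDvd p) (Subgroup.centralizer (E : Set G)), Q₂ = Q₁.map (MulAut.conj k).toMonoidHom := by
  open Subgroup Function in open scoped commutatorElement in
  · open CfsgH2 Subgroup in open scoped commutatorElement in
    have hp : p.Prime := Fact.out
    have hf : ∀ S : Subgroup G, IsPGroup p S → S ⊓ C[E] ≤ E := fun S a x hx =>
      hEfull x hx.2 (a.to_le (zpowers_le.2 hx.1))
    have h2' : p = 2 → ∀ S : Subgroup G, IsPGroup p S → ⁅S, S⁆ ≤ C[S] := fun e S a => by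
      obtain ⟨T, hT⟩ := a.exists_le_sylow
      haveI := (h2 e T).1
      have := map_le_cent_map (T : Subgroup G).subtype (der_le_center (h2 e T).2)
      rw [map_commutator, map_subtype_top] at this
      exact ((commutator_mono hT hT).trans this).trans (cent_anti hT)
    rw [show Cfsg.piCoreOf (Cfsg.primesNotDvd p) C[E] = Cfsg.piCoreOf {p}ᶜ C[E] from
      piCoreOf_congr fun r h => ⟨fun a e => a.2 (Set.mem_singleton_iff.1 e ▸ dvd_rfl),
        fun a => ⟨h, fun d => a ((Nat.prime_dvd_prime_iff_eq h hp).1 d)⟩⟩]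
    refine CfsgH2.tr_iff.2 (Tt.trans hqp hEp hEc (lt_prk hE3) hf fun x hx x1 Y a b c => ?_)
    exact Tt.le_core (hloc _ (hEp.to_le (zpowers_le.2 hx)) (zpowers_eq_bot.not.2 x1)) hEp
      (le_norm_of_le_cent (le_cent_of_comm hEc (zpowers_le.2 hx))) hf h2' a
      (le_norm_of_le_cent (by rwa [cent_zpowers])) c

end Cfsg.Agent.S1480
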