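import Cfsg.Statements.S1481
import Mathlib
import Cfsg.Agent.H2.BG0
import Cfsg.Agent.H1.Coprime

set_option autoImplicit false
open Cfsg

namespace Cfsg.Agent.S1481

/-- Let G be a finite group and H a local subgroup (the normalizer of a nontrivial subgroup of prime-power order) not properly contained in any local subgroup; let F = F(H), suppose at least two primes divide #F, put X = H ∩ C_G(F), let M ≤ F with F ∩ C_G(M) ≤ M, and let R be a solvable subgroup normalized by M and by X. Then for every prime q not dividing #F there is exactly one maximal M-invariant q-subgroup of R, and it is a Sylow q-subgroup of the largest normal subgroup of R of order coprime to #F. -/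
theorem result {G : Type*} [Group G] [Finite G] (H : Subgroup G) (hH : Cfsg.IsLocalSubgroup H) (hHmax : ∀ L : Subgroup G, Cfsg.IsLocalSubgroup L → H ≤ L → L = H)
    (hF2 : 2 ≤ (Nat.card (Cfsg.fittingOf H)).primeFactors.card)
    (M : Subgroup G) (hM : M ≤ Cfsg.fittingOf H) (hCM : Cfsg.fittingOf H ⊓ Subgroup.centralizer (M : Set G) ≤ M)
    (R : Subgroup G) (hR : Group.IsSolvable R) (hMR : M ≤ Subgroup.normalizer (R : Set G))
    (hXR : H ⊓ Subgroup.centralizer (Cfsg.fittingOf H : Set G) ≤ Subgroup.normalizer (R : Set G))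
    (q : ℕ) [Fact q.Prime] (hq : ¬ q ∣ Nat.card (Cfsg.fittingOf H)) :
    ∃! Q : Subgroup G, Q ∈ Cfsg.maxInvSubgroups R M {q} ∧
      (∀ Q' : Subgroup G, Q' ∈ Cfsg.maxInvSubgroups R M {q} →
        Q' ≤ Cfsg.piCoreOf (Cfsg.primesNotDvd (Nat.card (Cfsg.fittingOf H))) R ∧
        ¬ q ∣ Q'.relIndex (Cfsg.piCoreOf (Cfsg.primesNotDvd (Nat.card (Cfsg.fittingOf H))) R)) := by
  open Subgroup Cfsg CfsgH2 Function in
  open scoped commutatorElement in
  classical
  set F := F[H] with hF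
  set n := o[F] with hn
  set K := O[primesNotDvd n, R] with hK
  have hFH : F ≤ H := fit_le
  have hHF : H ≤ N[F] := le_norm_fit
  have hMH : M ≤ H := hM.trans hFH
  -- (A)
  have A : ∀ (p : ℕ) [Fact p.Prime], p ∣ n → ∃ Z : Subgroup G, PG[p, Z] ∧ Z ≤ M ∧ M ≤ C[Z] ∧
      H ≤ N[Z] ∧ C[Z] ≤ H ∧ o[Z] ∣ n := by
    intro p hp hd
    have hne : O[{p}, F] ⊓ C[F] ≠ ⊥ :=
      nil_inf_cent_ne_bot fit_nil piCoreOf_le le_norm_piCoreOf ((nil_syl_core fit_nil).ne_bot hd)
    have hpg : PG[p, O[{p}, F] ⊓ C[F]] := isPGroup_piCoreOf.to_le inf_le_left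
    have hN : H ≤ N[O[{p}, F] ⊓ C[F]] :=
      le_norm_inf (le_norm_piCoreOf' hHF) (le_norm_cent hHF)
    have hZF : O[{p}, F] ⊓ C[F] ≤ F := inf_le_left.trans piCoreOf_le
    refine ⟨_, hpg, ?_, ?_, hN, ?_, card_dvd_of_le hZF⟩
    · exact (le_inf hZF (inf_le_right.trans (cent_anti hM))).trans hCM
    · exact hM.trans (le_centralizer_iff.1 inf_le_right)
    · have := hHmax _ ⟨p, _, hp.out, hpg, hne, rfl⟩ hN
      exact (cent_le_norm _).trans this.le
  -- (B)
  have B0 : R ⊓ (H ⊓ C[F]) ≤ F := by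
    have hs : Sol[R ⊓ (H ⊓ C[F])] := CfsgH1.isSolvable_of_le inf_le_left
    have h1 : F[R ⊓ (H ⊓ C[F])] ≤ F[H ⊓ C[F]] :=
      fit_le_of_norm inf_le_right (le_norm_inf hXR le_normalizer)
    have h2 : F[H ⊓ C[F]] ≤ F :=
      fit_le_of_norm inf_le_left (le_norm_inf le_normalizer (le_norm_cent hHF))
    refine le_trans ?_ ((cent_fit_le hs).trans (h1.trans h2))
    exact le_inf le_rfl ((inf_le_right.trans inf_le_right).trans (cent_anti (h1.trans h2)))
  have B : ∀ D : Subgroup G, D ≤ H → D ≤ R → M ≤ N[D] → o[D].Coprime n → D = ⊥ := by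
    intro D h1 h2 h3 h4
    have hDF : D ⊓ F = ⊥ := inf_eq_bot_of_coprime' h4
    have h5 : M ≤ C[D] := by
      rw [← comm_eq_bot_iff, eq_bot_iff, ← hDF]
      refine le_inf (comm_le_right h3) ?_
      exact (commutator_mono hM le_rfl).trans (comm_le_left (h1.trans hHF))
    have h6 : D ≤ C[F] := by
      refine coprime_nil_cent fit_nil (h1.trans hHF) h4 ?_
      exact ((inf_le_inf_left _ (cent_anti (le_inf hM h5))).trans hCM).trans h5
    have h7 : D ≤ F := (le_inf h2 (le_inf h1 h6)).trans B0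
    rw [← hDF]; exact (inf_eq_left.2 h7).symm
  have hKR : K ≤ R := piCoreOf_le
  have hRK : R ≤ N[K] := le_norm_piCoreOf
  have hMK : M ≤ N[K] := le_norm_piCoreOf' hMR
  have hKs : Sol[K] := CfsgH1.isSolvable_of_le hKR
  have hKn : o[K].Coprime n := by
    refine Nat.coprime_of_dvd fun k hk h1 h2 => ?_
    exact (piN_piCoreOf k hk h1).2 h2
  have two : ∀ r : ℕ, ∃ p, p.Prime ∧ p ∣ n ∧ p ≠ r := by
    intro r
    obtain ⟨p, hp, hpr⟩ := Finset.exists_mem_ne (lt_of_lt_of_le one_lt_two hF2) r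
    exact ⟨p, Nat.prime_of_mem_primeFactors hp, Nat.dvd_of_mem_primeFactors hp, hpr⟩
  -- (C)
  have C0 : ∀ Q : Subgroup G, Q ≤ R → PG[q, Q] → M ≤ N[Q] → Q ≤ K := by
    intro Q h1 h2 h3
    have hQn : o[Q].Coprime n := coprime_of_pgroup h2 hq
    have hQK : Q ≤ N[K] := h1.trans hRK
    have hpi : PiN (primesNotDvd n)ᶜ o[F[qt K R]] := by
      apply fit_piN
      rw [compl_compl]; exact piCoreOf_qt_self
    have key : F[qt K R] ≤ C[qt K Q] := by
      refine fit_le_of_cores fun r hr hd => ?_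
      have hrn : r ∣ n := by
        by_contra h
        exact hpi r hr.out hd ⟨hr.out, h⟩
      obtain ⟨p, hp, hpn, hpr⟩ := two r
      haveI := Fact.mk hp
      obtain ⟨Zr, r1, r2, r3, r4, r5, r6⟩ := A r hrn
      obtain ⟨Zp, p1, p2, p3, p4, p5, p6⟩ := A p hpn
      set U := O[{r}, qt K R] with hU
      have hMU : qt K M ≤ N[U] := le_norm_piCoreOf' (qt_le_norm hMR)
      have hUp : PG[r, U] := isPGroup_piCoreOf
      have hcop : ∀ W : Subgroup (Qt K), PG[r, W] → W ⊓ qt K Zp = ⊥ := by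
        intro W hW
        refine inf_eq_bot_of_coprime' (coprime_of_pgroup hW fun h => ?_)
        have := isPGroup_iff_piN.1 (isPGroup_qt (K := K) p1) r hr.out h
        exact hpr this.symm
      have hT : qt K Zp ≤ C[U] := by
        refine CfsgH1.thompson_p_times_q (p := r) (P := qt K Zr) (isPGroup_qt r1) ?_ hUp
          (qt_le_cent (r2.trans p3)) ((qt_mono r2).trans hMU) ((qt_mono p2).trans hMU) ?_
        · refine coprime_of_pgroup (isPGroup_qt p1) fun h => ?_
          exact hpr ((Nat.prime_dvd_prime_iff_eq hp hr.out).1 h)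
        · have e : qt K (qc K U ⊓ C[Zr]) = U ⊓ C[qt K Zr] := by
            rw [coprime_qt_cent (r2.trans hMK) qc_le_norm le_qc
              (Nat.Coprime.coprime_dvd_left r6 hKn.symm) (Or.inr hKs), qt_qc]
          refine le_cent_of_inf_eq_bot ?_ ?_ (hcop _ (hUp.to_le inf_le_left))
          · rw [← e]
            exact qt_le_norm ((inf_le_right.trans r5).trans p4)
          · exact le_norm_inf ((qt_mono p2).trans hMU)
              (le_norm_cent (le_norm_of_le_cent (qt_le_cent (p2.trans r3))))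
      have hQZ : Q ⊓ C[Zp] = ⊥ :=
        B _ (inf_le_right.trans p5) (inf_le_left.trans h1)
          (le_norm_inf h3 (le_norm_cent (hMH.trans p4)))
          (Nat.Coprime.coprime_dvd_left (card_dvd_of_le inf_le_left) hQn)
      have hQc : ⁅Q, Zp⁆ = Q := by
        have := coprime_comm_sup_cent (p2.trans h3)
          (Nat.Coprime.coprime_dvd_left p6 hQn.symm) (Or.inr (CfsgH1.isSolvable_of_le h1))
        rwa [hQZ, sup_bot_eq] at this
      rw [le_centralizer_iff, ← hQc, qt_commutator hQK (p2.trans hMK)]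
      refine (commutator_mono le_rfl hT).trans (comm_le_right ?_)
      exact le_norm_cent ((qt_mono h1).trans le_norm_piCoreOf)
    have h4 : qt K Q ≤ F[qt K R] :=
      (le_inf (qt_mono h1) (le_centralizer_iff.1 key)).trans (cent_fit_le (isSolvable_qt hR))
    rw [← qt_eq_bot hQK]
    refine eq_bot_of_pgroup_of_not_dvd (isPGroup_qt h2) fun h => ?_
    exact hpi q Fact.out (h.trans (card_dvd_of_le h4)) ⟨Fact.out, hq⟩
  -- (D)
  have hc : o[M].Coprime o[K] := Nat.Coprime.coprime_dvd_left (card_dvd_of_le hM) hKn.symm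
  have D1 : ∀ Q', Q' ∈ maxInvSubgroups R M {q} → Syl q Q' K ∧ M ≤ N[Q'] := by
    rintro Q' ⟨⟨h1, h2, h3⟩, h4⟩
    have hp : PG[q, Q'] := isPGroup_iff_piN.2 h2
    obtain ⟨P, s1, s2, s3⟩ := exists_inv_syl_ge hMK hc (Or.inr hKs) (C0 Q' h1 hp h3) hp h3
    have := h4 P ⟨s1.le.trans hKR, isPGroup_iff_piN.1 s1.pg, s2⟩ s3
    exact ⟨this ▸ s1, h3⟩
  obtain ⟨Q0, s1, s2⟩ := exists_inv_syl q hMK hc (Or.inr hKs)
  have hQ0 : Q0 ∈ maxInvSubgroups R M {q} := by
    refine ⟨⟨s1.le.trans hKR, isPGroup_iff_piN.1 s1.pg, s2⟩, ?_⟩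
    rintro Q' ⟨h1, h2, h3⟩ h4
    have hp : PG[q, Q'] := isPGroup_iff_piN.2 h2
    exact s1.eq_of_le hp h4 (C0 Q' h1 hp h3)
  have hKC : K ⊓ C[M] = ⊥ := by
    obtain ⟨p, hp, hpn, -⟩ := two 0
    haveI := Fact.mk hp
    obtain ⟨Zp, p1, p2, p3, p4, p5, p6⟩ := A p hpn
    exact B _ ((inf_le_right.trans (cent_anti p2)).trans p5) (inf_le_left.trans hKR)
      (le_norm_inf hMK (le_norm_cent le_normalizer))
      (Nat.Coprime.coprime_dvd_left (card_dvd_of_le inf_le_left) hKn)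
  refine ⟨Q0, ⟨hQ0, fun Q' h => ⟨(D1 Q' h).1.le, (D1 Q' h).1.nd⟩⟩, fun Q' h => ?_⟩
  obtain ⟨c, hc1, hc2⟩ := inv_syl_conj hMK hc (Or.inr hKs) (D1 Q' h.1).1 s1 (D1 Q' h.1).2 s2
  rw [hKC, mem_bot] at hc1
  rw [← hc2, hc1, map_cj_of_mem (one_mem _)]

end Cfsg.Agent.S1481
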