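import Cfsg.Statements.S1494
import Cfsg.Agent.H3.Apps

set_option autoImplicit false
open Cfsg

namespace Cfsg.Agent.S1494
open CfsgH3

/-- Let χ be a generalized character of the finite group G, p a prime, x an element of order p and y an element commuting with x. Then χ(x * y) − χ(y) = (1 − ε) * ω for some algebraic integer ω, where ε = exp(2πi/p). -/
theorem result {G : Type*} [Group G] [Finite G] (χ : G → ℂ) (hχ : Cfsg.IsGeneralizedCharacter G χ) (p : ℕ) (hp : p.Prime) (x y : G) (hx : orderOf x = p) (hxy : x * y = y * x) : ∃ ω : ℂ, IsIntegral ℤ ω ∧ χ (x * y) - χ y = (1 - Complex.exp (2 * Real.pi * Complex.I / p)) * ω := by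
  set ε := Complex.exp (2 * Real.pi * Complex.I / p) with hε
  have hprim : IsPrimitiveRoot ε p := Complex.isPrimitiveRoot_exp p hp.ne_zero
  let I : AddSubgroup ℂ :=
    { carrier := {z | ∃ ω : ℂ, IsIntegral ℤ ω ∧ z = (1 - ε) * ω}
      zero_mem' := ⟨0, isIntegral_zero, by simp⟩
      add_mem' := by
        rintro _ _ ⟨a, ha, rfl⟩ ⟨b, hb, rfl⟩
        exact ⟨a + b, ha.add hb, by ring⟩
      neg_mem' := by
        rintro _ ⟨a, ha, rfl⟩
        exact ⟨-a, ha.neg, by ring⟩ }
  refine hχ.sub_mem_of_commute I ?_ hxy fun ζ hζ => ?_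
  · rintro a ha _ ⟨b, hb, rfl⟩
    exact ⟨a * b, ha.mul hb, by ring⟩
  · have := NeZero.mk hp.ne_zero
    rw [hx] at hζ
    obtain ⟨j, -, rfl⟩ := hprim.eq_pow_of_pow_eq_one hζ
    refine ⟨-∑ i ∈ Finset.range j, ε ^ i, (IsIntegral.sum _ fun i _ =>
      (hprim.isIntegral hp.pos).pow i).neg, ?_⟩
    rw [← geom_sum_mul]
    ring


end Cfsg.Agent.S1494
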