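import Cfsg.Statements.S1495
import Cfsg.Agent.H3.Apps

set_option autoImplicit false
open Cfsg

namespace Cfsg.Agent.S1495
open CfsgH3

/-- Let p be a prime, ε = exp(2πi/p), and n an integer such that n = (1 − ε) * ω for some algebraic integer ω. Then p divides n. -/
theorem result (p : ℕ) (hp : p.Prime) (n : ℤ) (ω : ℂ) (hω : IsIntegral ℤ ω) (h : (n : ℂ) = (1 - Complex.exp (2 * Real.pi * Complex.I / p)) * ω) : (p : ℤ) ∣ n := by
  obtain ⟨M, hM⟩ := exists_isPModular hp
  have : CfsgH4.PMod p M := ⟨hM⟩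
  have hprim := Complex.isPrimitiveRoot_exp p hp.ne_zero
  have h1 := CfsgH4.InP_sub_one_of_pow (M := M) (k := 1) (by rw [pow_one]; exact hprim.pow_eq_one)
  have h2 := CfsgH4.InP.mul_right (CfsgH4.InP.symm h1) (CfsgH4.mem_Loc_of_isIntegral hω)
  rwa [← h, CfsgH4.InP_intCast_iff] at h2


end Cfsg.Agent.S1495
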