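import Cfsg.Statements.S1497
import Cfsg.Agent.H3.Dade

set_option autoImplicit false
open Cfsg

namespace Cfsg.Agent.S1497
open CfsgH3

/-- Let A be a nonempty subset of the finite group G not containing 1 and L a subgroup. Then A is a TI-subset whose normaliser is L if and only if the Dade hypothesis holds for A, L and the constant choice H(a) = ⊥. -/
theorem result {G : Type*} [Group G] [Finite G] (A : Set G) (hA : A.Nonempty) (h1 : (1 : G) ∉ A) (L : Subgroup G) : (Cfsg.IsTISubset A ∧ Subgroup.normalizer A = L) ↔ Cfsg.DadeHypothesis A L (fun _ => ⊥) := by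
  constructor
  · rintro ⟨hTI, rfl⟩
    have key : ∀ a ∈ A, ∀ g : G, g * a * g⁻¹ ∈ A → g ∈ Subgroup.normalizer A := by
      intro a ha g hg
      by_contra h
      exact h1 (hTI g h a ha hg ▸ ha)
    refine ⟨h1, fun a ha => key a ha a (by simpa using ha), fun x hx a ha => (hx a).1 ha,
      fun a ha g hg => ⟨g, key a ha g hg, rfl⟩, fun _ _ => bot_le, fun a _ c _ u hu => ?_,
      fun _ _ => bot_inf_eq _, fun a ha => ?_, fun _ _ _ _ => by simp⟩
    · rw [Subgroup.mem_bot.1 hu]; simp
    · rw [bot_sup_eq, inf_eq_right]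
      intro c hc
      refine key a ha c ?_
      rwa [Subgroup.mem_centralizer_singleton_iff.1 hc, mul_inv_cancel_right]
  · intro hD
    have key : ∀ a ∈ A, ∀ g : G, g * a * g⁻¹ ∈ A → g ∈ L := by
      intro a ha g hg
      obtain ⟨x, hx, h⟩ := hD.fusion a ha g hg
      have h2 := hD.sup_eq a ha
      rw [bot_sup_eq, inf_eq_right] at h2
      have h3 : x⁻¹ * g ∈ L := by
        refine h2 (Subgroup.mem_centralizer_singleton_iff.2 ?_)
        calc x⁻¹ * g * a = x⁻¹ * (g * a * g⁻¹) * g := by group
          _ = a * (x⁻¹ * g) := by rw [← h]; group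
      simpa using L.mul_mem hx h3
    have hL : Subgroup.normalizer A = L := by
      refine le_antisymm (fun g hg => ?_) fun g hg a => ⟨hD.conj_mem g hg a, fun h => ?_⟩
      · obtain ⟨a, ha⟩ := hA
        exact key a ha g ((hg a).1 ha)
      · simpa [mul_assoc] using hD.conj_mem _ (L.inv_mem hg) _ h
    exact ⟨fun g hg x hx h => absurd (hL ▸ key x hx g h) hg, hL⟩


end Cfsg.Agent.S1497
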