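import Cfsg.Statements.S1507
import Cfsg.Agent.H3.CTI2

set_option autoImplicit false
open Cfsg

namespace Cfsg.Agent.S1507
open CfsgH3
theorem aux {I J : Type*} [Fintype I] [Fintype J] (r : I → ℂ) (c : J → ℂ)
    (hIJ : Fintype.card I + 2 ≤ Fintype.card J)
    (h : Nat.card {p : I × J // r p.1 + c p.2 ≠ 0} < 2 * Fintype.card I) :
    (∃ j₀ a, ∀ i j, (j = j₀ → r i + c j = a) ∧ (j ≠ j₀ → r i + c j = 0)) ∨
    (∃ i₀ a, ∀ i j, (i = i₀ → r i + c j = a) ∧ (i ≠ i₀ → r i + c j = 0)) := by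
  classical
  rw [Nat.card_eq_fintype_card, Fintype.card_subtype] at h
  set S := Finset.univ.filter fun p : I × J => r p.1 + c p.2 ≠ 0
  obtain ⟨i₁⟩ : Nonempty I := Fintype.card_pos_iff.1 (by omega)
  obtain ⟨j₁⟩ : Nonempty J := Fintype.card_pos_iff.1 (by omega)
  by_cases hr : ∀ i i', r i = r i'
  · left
    by_cases h0 : ∃ j₀, r i₁ + c j₀ ≠ 0
    · obtain ⟨j₀, h0⟩ := h0
      refine ⟨j₀, r i₁ + c j₀, fun i j => ⟨fun h1 => by rw [h1, hr i i₁], fun h1 => ?_⟩⟩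
      by_contra h2
      have : (Finset.univ : Finset I) ×ˢ ({j, j₀} : Finset J) ⊆ S := by
        rintro ⟨x, y⟩ hp
        simp only [Finset.mem_product, Finset.mem_univ, true_and, Finset.mem_insert,
          Finset.mem_singleton] at hp
        rcases hp with rfl | rfl
        · simpa [S, hr x i] using h2
        · simpa [S, hr x i₁] using h0
      have h3 := Finset.card_le_card this
      rw [Finset.card_product, Finset.card_pair h1, Finset.card_univ] at h3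
      omega
    · push Not at h0
      exact ⟨j₁, 0, fun i j => by simp [hr i i₁, h0]⟩
  by_cases hc : ∀ j j', c j = c j'
  · right
    by_cases h0 : ∃ i₀, r i₀ + c j₁ ≠ 0
    · obtain ⟨i₀, h0⟩ := h0
      refine ⟨i₀, r i₀ + c j₁, fun i j => ⟨fun h1 => by rw [h1, hc j j₁], fun h1 => ?_⟩⟩
      by_contra h2
      have : ({i, i₀} : Finset I) ×ˢ (Finset.univ : Finset J) ⊆ S := by
        rintro ⟨x, y⟩ hp
        simp only [Finset.mem_product, Finset.mem_univ, and_true, Finset.mem_insert,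
          Finset.mem_singleton] at hp
        rcases hp with rfl | rfl
        · simpa [S, hc y j] using h2
        · simpa [S, hc y j₁] using h0
      have h3 := Finset.card_le_card this
      rw [Finset.card_product, Finset.card_pair h1, Finset.card_univ] at h3
      omega
    · push Not at h0
      exact ⟨i₁, 0, fun i j => by simp [hc j j₁, h0]⟩
  exfalso
  push Not at hr hc
  obtain ⟨i, i', hi⟩ := hr
  obtain ⟨j, j', hj⟩ := hc
  have h1 := Finset.card_filter_add_card_filter_not (s := S) (fun p => p.1 ∈ ({i, i'} : Finset I))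
  have h2 : (Finset.univ : Finset J).card ≤ (S.filter fun p => p.1 ∈ ({i, i'} : Finset I)).card := by
    refine Finset.card_le_card_of_surjOn Prod.snd fun y _ => ?_
    by_cases h3 : r i + c y = 0
    · exact ⟨(i', y), by simpa [S] using fun h4 => hi (by linear_combination h3 - h4), rfl⟩
    · exact ⟨(i, y), by simpa [S] using h3, rfl⟩
  have h3 : (Finset.univ \ {i, i'} : Finset I).card ≤
      (S.filter fun p => ¬ p.1 ∈ ({i, i'} : Finset I)).card := by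
    refine Finset.card_le_card_of_surjOn Prod.fst fun x hx => ?_
    have hx' : x ∉ ({i, i'} : Finset I) := (Finset.mem_sdiff.1 hx).2
    by_cases h3 : r x + c j = 0
    · exact ⟨(x, j'), by
        simpa [S, -Finset.mem_insert, hx'] using fun h4 => hj (by linear_combination h3 - h4), rfl⟩
    · exact ⟨(x, j), by simpa [S, -Finset.mem_insert, hx'] using h3, rfl⟩
  rw [Finset.card_univ_diff] at h3
  have := Finset.card_le_two (a := i) (b := i')
  rw [Finset.card_univ] at h2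
  omega


open Classical in
/-- Let W₁, W₂ ≤ G form a self-normalising cyclic subgroup W = W₁ ⊔ W₂ of odd order with Nat.card W₁ < Nat.card W₂, and χ an orthonormal family of irreducible characters of G up to sign, indexed by the linear characters ω of W, with χ_1 = 1, χ_ω = ω on W outside W₁ ∪ W₂, and the induction identity for (1 − φ)(1 − ψ). Let θ be a class function of G vanishing on W outside W₁ ∪ W₂, and suppose fewer than 2 · Nat.card W₁ linear characters ω of W have ⟨θ, χ ω⟩ ≠ 0. Then one of: all ⟨θ, χ ω⟩ vanish; or there are ψ₀ and a with ⟨θ, χ ω⟩ = a when ω ψ₀⁻¹ is trivial on W₂ and 0 otherwise; or there are φ₀ and a with ⟨θ, χ ω⟩ = a when ω φ₀⁻¹ is trivial on W₁ and 0 otherwise. -/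
theorem result {G : Type*} [Group G] [Fintype G] (W₁ W₂ : Subgroup G) (hW : Cfsg.IsSelfNormalizingCyclic W₁ W₂) (hodd : Odd (Nat.card ↥(W₁ ⊔ W₂))) (χ : (↥(W₁ ⊔ W₂) →* ℂˣ) → (G → ℂ)) (hχ : Cfsg.IsCyclicTIFamily W₁ W₂ χ) (hlt : Nat.card W₁ < Nat.card W₂) (θ : G → ℂ) (hθ : Cfsg.IsClassFunction G θ) (hθV : ∀ w : ↥(W₁ ⊔ W₂), (w : G) ∉ W₁ → (w : G) ∉ W₂ → θ w = 0) (hfew : Nat.card {ω : ↥(W₁ ⊔ W₂) →* ℂˣ // Cfsg.classInner θ (χ ω) ≠ 0} < 2 * Nat.card W₁) : (∀ ω, Cfsg.classInner θ (χ ω) = 0) ∨ (∃ (ψ₀ : ↥(W₁ ⊔ W₂) →* ℂˣ) (a : ℂ), ∀ ω, Cfsg.classInner θ (χ ω) = if (∀ w : ↥(W₁ ⊔ W₂), (w : G) ∈ W₂ → (ω * ψ₀⁻¹) w = 1) then a else 0) ∨ (∃ (φ₀ : ↥(W₁ ⊔ W₂) →* ℂˣ) (a : ℂ), ∀ ω, Cfsg.classInner θ (χ ω) = if (∀ w : ↥(W₁ ⊔ W₂), (w : G) ∈ W₁ → (ω * φ₀⁻¹) w = 1) then a else 0) := by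
  have := Fintype.ofFinite (↥(W₁ ⊔ W₂) →* ℂˣ)
  let Φ := {φ : ↥(W₁ ⊔ W₂) →* ℂˣ // TrivOn W₂ φ}
  let Ψ := {φ : ↥(W₁ ⊔ W₂) →* ℂˣ // TrivOn W₁ φ}
  have hI : Fintype.card Φ = Nat.card W₁ := by rw [← hW.card_trivOn₂, Nat.card_eq_fintype_card]
  have hJ : Fintype.card Ψ = Nat.card W₂ := by rw [← hW.card_trivOn₁, Nat.card_eq_fintype_card]
  rw [card_sup_of_commute hW.2.2.1 hW.2.2.2.1, Nat.odd_mul] at hodd
  obtain ⟨⟨k, hk⟩, ⟨l, hl⟩⟩ := hodd
  have key : ∀ (φ : Φ) (ψ : Ψ), Cfsg.classInner θ (χ φ.1) +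
      (Cfsg.classInner θ (χ ψ.1) - Cfsg.classInner θ (χ 1)) = Cfsg.classInner θ (χ (φ.1 * ψ.1)) := by
    intro φ ψ
    have h1 := hχ.rel hW hθ hθV 1 φ.2 ψ.2
    simp only [uh_one_mul] at h1
    linear_combination -h1
  have h := aux (fun φ : Φ => Cfsg.classInner θ (χ φ.1))
    (fun ψ : Ψ => Cfsg.classInner θ (χ ψ.1) - Cfsg.classInner θ (χ 1)) (by omega) (by
      rw [hI]
      refine lt_of_le_of_lt (Nat.card_le_card_of_injective
        (fun p => ⟨p.1.1.1 * p.1.2.1, key _ _ ▸ p.2⟩) fun p q h => ?_) hfew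
      have := (trivOn_mul_eq_mul_iff p.1.1.2 q.1.1.2 p.1.2.2 q.1.2.2).1 (congrArg Subtype.val h)
      exact Subtype.ext (Prod.ext (Subtype.ext this.1) (Subtype.ext this.2)))
  simp only [key] at h
  right
  rcases h with ⟨ψ₀, a, h⟩ | ⟨φ₀, a, h⟩
  · refine Or.inl ⟨ψ₀.1, a, fun ω => ?_⟩
    obtain ⟨φ, ψ, hφ, hψ, rfl⟩ := exists_trivOn_decomp hW.2.2.1 hW.2.2.2.1 ω
    split_ifs with h1
    · refine (h ⟨φ, hφ⟩ ⟨ψ, hψ⟩).1 (Subtype.ext ?_)
      exact ((trivOn_mul_eq_mul_iff hφ h1 hψ ψ₀.2).1 (uh_mul_inv_eq_iff.1 rfl)).2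
    · refine (h ⟨φ, hφ⟩ ⟨ψ, hψ⟩).2 ?_
      rintro rfl
      exact h1 fun w hw => by simp [hφ w hw]
  · refine Or.inr ⟨φ₀.1, a, fun ω => ?_⟩
    obtain ⟨φ, ψ, hφ, hψ, rfl⟩ := exists_trivOn_decomp hW.2.2.1 hW.2.2.2.1 ω
    split_ifs with h1
    · refine (h ⟨φ, hφ⟩ ⟨ψ, hψ⟩).1 (Subtype.ext ?_)
      exact ((trivOn_mul_eq_mul_iff hφ φ₀.2 hψ h1).1
        ((uh_mul_inv_eq_iff.1 rfl).trans (uh_mul_comm _ _))).1
    · refine (h ⟨φ, hφ⟩ ⟨ψ, hψ⟩).2 ?_
      rintro rfl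
      exact h1 fun w hw => by simp [hψ w hw]


end Cfsg.Agent.S1507
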