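import Cfsg.Statements.S1508
import Cfsg.Agent.H3.CTI2

set_option autoImplicit false
open Cfsg

namespace Cfsg.Agent.S1508
open CfsgH3

/-- Let W₁, W₂ ≤ G form a self-normalising cyclic subgroup W = W₁ ⊔ W₂ of odd order and χ an orthonormal family of irreducible characters of G up to sign, indexed by the linear characters ω of W, with χ_1 = 1, χ_ω = ω on W outside W₁ ∪ W₂, and the induction identity for (1 − φ)(1 − ψ). Let ω be a linear character of W and g an element of G whose order is coprime to the order of ω. Then χ ω g is an integer. -/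
theorem result {G : Type*} [Group G] [Fintype G] (W₁ W₂ : Subgroup G) (hW : Cfsg.IsSelfNormalizingCyclic W₁ W₂) (hodd : Odd (Nat.card ↥(W₁ ⊔ W₂))) (χ : (↥(W₁ ⊔ W₂) →* ℂˣ) → (G → ℂ)) (hχ : Cfsg.IsCyclicTIFamily W₁ W₂ χ) (ω : ↥(W₁ ⊔ W₂) →* ℂˣ) (g : G) (hg : Nat.Coprime (orderOf g) (orderOf ω)) : ∃ n : ℤ, χ ω g = n := by
  have hgen := (hχ.sIrr ω).isGen
  refine exists_int_of_fixed (hgen.isIntegral g) fun σ => ?_
  have hn : orderOf g ≠ 0 := (orderOf_pos g).ne'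
  have ha : orderOf ω ≠ 0 := (orderOf_pos ω).ne'
  obtain ⟨k, hk, h1⟩ := exists_pow_of_ringHom (σ : ℂ →+* ℂ) hn
  obtain ⟨j, hj1, hj2⟩ := Nat.chineseRemainder hg k 1
  have hj : j.Coprime (orderOf g * orderOf ω) := by
    refine Nat.Coprime.mul_right ?_ ?_
    · rw [Nat.Coprime, hj1.gcd_eq]; exact hk
    · rw [Nat.Coprime, hj2.gcd_eq]; simp
  obtain ⟨τ, hτ⟩ := exists_ringEquiv_pow (mul_ne_zero hn ha) hj
  have h2 : (fun x => (τ : ℂ →+* ℂ) (χ ω x)) = χ ω := by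
    refine hχ.eq_of_eq_on hW hodd ((hχ.sIrr ω).map _) fun w h3 h4 => ?_
    have h5 : (ω w : ℂ) ^ orderOf ω = 1 := by
      rw [← Units.val_pow_eq_pow_val, ← MonoidHom.pow_apply, pow_orderOf_eq_one]; rfl
    rw [hχ.eq_on ω w h3 h4]
    refine (hτ _ (by rw [mul_comm, pow_mul, h5, one_pow])).trans ?_
    rw [pow_eq_pow_of_modEq hj2 h5, pow_one]
  refine (hgen.map_apply_eq_pow (σ : ℂ →+* ℂ) h1 dvd_rfl).trans ?_
  rw [← congrFun h2 g, hgen.map_apply_eq_pow (τ : ℂ →+* ℂ) hτ (dvd_mul_right _ _),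
    pow_eq_pow_iff_modEq.2 hj1]


end Cfsg.Agent.S1508
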