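import Cfsg.Statements.S1511
import Cfsg.Agent.H3.PF4

set_option autoImplicit false
open Cfsg

namespace Cfsg.Agent.S1511
open CfsgH3

/-- Let L be a finite group with K normal with complement W₁ ≠ 1 a cyclic Hall subgroup, and W₂ ≠ 1 a cyclic subgroup of K equal to C_K(x) for every non-identity x ∈ W₁, with W₁W₂ of odd order. Then there are a map μ from the linear characters of W = W₁ ⊔ W₂ to irreducible characters of L, injective, and a sign δ(ω) ∈ {1, −1} depending only on the values of ω on W₂, such that: for ω, ω' agreeing on W₂, the function induced to L from ω − ω' equals δ(ω) • (μ ω − μ ω'); μ ω x = δ(ω) ω x for x ∈ W outside W₂; every irreducible character of L not of the form μ ω vanishes on W outside W₂; and μ ω 1 − δ(ω) is an integer multiple of Nat.card W₁. -/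
theorem result {L : Type*} [Group L] [Fintype L] (K W₁ W₂ : Subgroup L) [hK : K.Normal] (hKW₁ : K ⊓ W₁ = ⊥) (hKW₁' : K ⊔ W₁ = ⊤) (hW₁ : W₁ ≠ ⊥) (hW₁c : IsCyclic W₁) (hHall : Nat.Coprime (Nat.card W₁) W₁.index) (hW₂ : W₂ ≠ ⊥) (hW₂c : IsCyclic W₂) (hW₂K : W₂ ≤ K) (hC : ∀ x ∈ W₁, x ≠ 1 → K ⊓ Subgroup.centralizer ({x} : Set L) = W₂) (hodd : Odd (Nat.card ↥(W₁ ⊔ W₂))) : ∃ (μ : (↥(W₁ ⊔ W₂) →* ℂˣ) → (L → ℂ)) (δ : (↥(W₁ ⊔ W₂) →* ℂˣ) → ℂ), Function.Injective μ ∧ (∀ ω, Cfsg.IsIrrCharacter L (μ ω)) ∧ (∀ ω, δ ω = 1 ∨ δ ω = -1) ∧ (∀ ω ω' : ↥(W₁ ⊔ W₂) →* ℂˣ, (∀ w : ↥(W₁ ⊔ W₂), (w : L) ∈ W₂ → ω w = ω' w) → δ ω = δ ω' ∧ Cfsg.indFun (W₁ ⊔ W₂) (fun w => (ω w : ℂ) - (ω' w : ℂ)) = δ ω • (μ ω - μ ω')) ∧ (∀ ω, ∀ w : ↥(W₁ ⊔ W₂), (w : L) ∉ W₂ → μ ω w = δ ω * (ω w : ℂ)) ∧ (∀ θ : L → ℂ, Cfsg.IsIrrCharacter L θ → (∀ ω, θ ≠ μ ω) → ∀ w : ↥(W₁ ⊔ W₂), (w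 : L) ∉ W₂ → θ w = 0) ∧ (∀ ω, ∃ n : ℤ, μ ω 1 - δ ω = n * (Nat.card W₁ : ℂ)) := by
  have h : PF4 K W₁ W₂ := ⟨hK, hKW₁, hKW₁', hW₁, hW₁c, hHall, hW₂, hW₂c, hW₂K, hC⟩
  obtain ⟨μ, δ, h1, h2, h3, h4, h5, h6⟩ := h.exists_family
  refine ⟨μ, δ, h1, h2, h3, fun ω ω' h7 => ?_, h5, fun θ hθ h7 => h6 θ hθ.isClassFunction
    fun ω => hθ.classInner_of_ne (h2 ω) (h7 ω), fun ω => ?_⟩
  · have := h4 ω (ω⁻¹ * ω') fun w hw => by simp [h7 w hw]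
    rwa [uh_mul_inv_cancel_left] at this
  · have h8 : Cfsg.IsGeneralizedCharacter W₁
        (δ ω • fun w => (ω (Subgroup.inclusion le_sup_left w) : ℂ)) :=
      ((isIrr_of_unitsHom (ω.comp (Subgroup.inclusion le_sup_left))).sIrr.smul_sign (h3 ω)).isGen
    simpa using (((h2 ω).isGen.restrict W₁).sub h8).exists_eq_mul_card fun w hw =>
      sub_eq_zero.2 (h5 ω (Subgroup.inclusion le_sup_left w)
        fun h' => hw (Subtype.ext (h.disj.le ⟨w.2, h'⟩)))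


end Cfsg.Agent.S1511
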