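import Cfsg.Statements.S1512
import Cfsg.Agent.H3.Misc2

set_option autoImplicit false
open Cfsg

namespace Cfsg.Agent.S1512
open CfsgH3

/-- Let K be a normal subgroup of the finite group L and x a non-identity element whose order is coprime to the order of K, such that K ⊓ C_L(y) = W₂ for every non-identity element y of the cyclic group generated by x. Then the number of conjugacy classes of K mapped to themselves by conjugation by x is at most Nat.card W₂. -/
theorem result {L : Type*} [Group L] [Finite L] (K W₂ : Subgroup L) [hK : K.Normal] (x : L) (hx1 : x ≠ 1) (hx : Nat.Coprime (orderOf x) (Nat.card K)) (hC : ∀ y ∈ Subgroup.zpowers x, y ≠ 1 → K ⊓ Subgroup.centralizer ({y} : Set L) = W₂) : Nat.card {C : ConjClasses K // ConjClasses.map (MulEquiv.toMonoidHom ((MulAut.conjNormal x : MulAut K))) C = C} ≤ Nat.card W₂ := by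
  have hW := hC x (Subgroup.mem_zpowers x) hx1
  have hWK : W₂ ≤ K := hW ▸ inf_le_left
  let f : W₂ → ConjClasses K := fun w => ConjClasses.mk ⟨w, hWK w.2⟩
  refine le_trans (Nat.card_le_card_of_injective (β := Set.range f) (fun C => ⟨C.1, ?_⟩)
    fun a b h => Subtype.ext (Subtype.mk.inj h)) (Finite.card_range_le f)
  obtain ⟨C, hC⟩ := C
  obtain ⟨n, rfl⟩ := ConjClasses.mk_surjective C
  obtain ⟨y, hy⟩ := isConj_iff.1 (ConjClasses.mk_eq_mk_iff_isConj.1 hC)
  obtain ⟨z, hz, h⟩ := exists_conj_commute_of_fixed (H := K) (g := x)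
    (by rw [Subgroup.normalizer_eq_top]; trivial) hx y.2 (congrArg Subtype.val hy)
  refine ⟨⟨z * n * z⁻¹, hW.le (Subgroup.mem_inf.2 ⟨hK.conj_mem _ n.2 _,
    Subgroup.mem_centralizer_singleton_iff.2 h.eq.symm⟩)⟩, ?_⟩
  exact ConjClasses.mk_eq_mk_iff_isConj.2 (isConj_iff.2 ⟨(⟨z, hz⟩ : K), rfl⟩).symm


end Cfsg.Agent.S1512
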