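import Cfsg.Statements.S1513
import Cfsg.Agent.H3.PF4

set_option autoImplicit false
open Cfsg

namespace Cfsg.Agent.S1513
open CfsgH3
theorem sub_sum {G : Type*} [Group G] [Fintype G] {χ : G → ℂ} (hχ : Cfsg.IsCharacter G χ)
    (C : Finset (G → ℂ)) (h : ∀ μ ∈ C, Cfsg.IsIrrCharacter G μ ∧ Cfsg.classInner χ μ ≠ 0) :
    Cfsg.IsCharacter G (χ - ∑ μ ∈ C, μ) := by
  classical
  refine isCharacter_of_inner_nat (hχ.isClassFunction.sub
    (isClassFunction_sum _ _ fun μ hμ => (h μ hμ).1.isClassFunction)) fun φ hφ => ?_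
  obtain ⟨n, hn⟩ := hχ.exists_nat_classInner hφ.isCharacter
  rw [classInner_sub_left, classInner_sum_left,
    Finset.sum_congr rfl fun μ hμ => (h μ hμ).1.classInner_eq_ite hφ, Finset.sum_ite_eq', hn]
  split_ifs with h1
  · obtain ⟨m, rfl⟩ := Nat.exists_eq_succ_of_ne_zero (n := n)
      (by rintro rfl; exact (h φ h1).2 (by simpa using hn))
    exact ⟨m, by simp⟩
  · exact ⟨n, by simp⟩


/-- Let L be a finite group with K normal with complement W₁ ≠ 1 a cyclic Hall subgroup, and W₂ ≠ 1 a cyclic subgroup of K equal to C_K(x) for every non-identity x ∈ W₁, with W₁W₂ of odd order. For an irreducible character θ of K: if θ is not fixed under conjugation by some element of W₁, then the function induced from θ to L is an irreducible character of L; and the irreducible characters of K fixed by all of W₁ are exactly Nat.card W₂ in number, each inducing to the sum of Nat.card W₁ pairwise distinct irreducible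 characters of L. -/
theorem result {L : Type*} [Group L] [Fintype L] (K W₁ W₂ : Subgroup L) [hK : K.Normal] (hKW₁ : K ⊓ W₁ = ⊥) (hKW₁' : K ⊔ W₁ = ⊤) (hW₁ : W₁ ≠ ⊥) (hW₁c : IsCyclic W₁) (hHall : Nat.Coprime (Nat.card W₁) W₁.index) (hW₂ : W₂ ≠ ⊥) (hW₂c : IsCyclic W₂) (hW₂K : W₂ ≤ K) (hC : ∀ x ∈ W₁, x ≠ 1 → K ⊓ Subgroup.centralizer ({x} : Set L) = W₂) (hodd : Odd (Nat.card ↥(W₁ ⊔ W₂))) : (∀ θ : K → ℂ, Cfsg.IsIrrCharacter K θ → (∃ x ∈ W₁, (fun k : K => θ ⟨x * k * x⁻¹, hK.conj_mem (k : L) k.2 x⟩) ≠ θ) → Cfsg.IsIrrCharacter L (Cfsg.indFun K θ)) ∧ Nat.card {θ : Cfsg.IrrCharacter K // ∀ x ∈ W₁, (fun k : K => (θ : K → ℂ) ⟨x * k * x⁻¹, hK.conj_mem (k : L) k.2 x⟩) = θ} = Nat.card W₂ ∧ (∀ θ : K → ℂ, Cfsg.IsIrrCharacter K θ → (∀ x ∈ W₁, (fun k : K => θ ⟨x * k * x⁻¹, hK.conj_mem (k : L) k.2 x⟩) = θ) → ∃ C : Finset (L → ℂ), C.card = Nat.card W₁ ∧ (∀ μ ∈ C, Cfsg.IsIrrCharacter L μ) ∧ Cfsg.indFun K θ = ∑ μ ∈ C,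 μ) := by
  classical
  have h : PF4 K W₁ W₂ := ⟨hK, hKW₁, hKW₁', hW₁, hW₁c, hHall, hW₂, hW₂c, hW₂K, hC⟩
  have hW := h.isSelfNormalizingCyclic
  obtain ⟨μ, δ, h1, h2, h3, h4, -, -⟩ := h.exists_family
  have := Fintype.ofFinite K
  have := Fintype.ofFinite (↥(W₁ ⊔ W₂) →* ℂˣ)
  have hidx : K.index = Nat.card W₁ := h.isComplement.symm.index_eq_card
  have ha : ∀ ω φ, TrivOn W₂ φ → (fun k : K => μ (ω * φ) k) = fun k : K => μ ω k := by
    intro ω φ hφ
    ext k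
    have h5 := congrFun (h4 ω φ hφ).2 k
    rw [indFun_eq_zero_of_forall] at h5
    · rcases h3 ω with h6 | h6 <;> simpa [h6, sub_eq_zero, eq_comm] using h5
    · intro x hx
      simp [hφ ⟨_, hx⟩ (h.mem_of_mem_K hx (by simpa using hK.conj_mem _ k.2 x⁻¹))]
  let C : (↥(W₁ ⊔ W₂) →* ℂˣ) → Finset (L → ℂ) := fun ω =>
    (Finset.univ.filter (TrivOn W₂)).image fun φ => μ (ω * φ)
  have hCc : ∀ ω, (C ω).card = Nat.card W₁ := by
    intro ω
    rw [Finset.card_image_of_injective _ fun a b hab => mul_left_cancel (a := ω) (h1 hab),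
      ← hW.card_trivOn₂, Nat.card_eq_fintype_card, Fintype.card_subtype]
  have hCm : ∀ ω, ∀ ν ∈ C ω, ∃ φ, TrivOn W₂ φ ∧ μ (ω * φ) = ν := fun ω ν hν => by
    simpa [C] using hν
  have hb : ∀ ω, Cfsg.IsIrrCharacter K (fun k : K => μ ω k) ∧
      Cfsg.indFun K (fun k : K => μ ω k) = ∑ ν ∈ C ω, ν := by
    intro ω
    obtain ⟨θ, hθ, h5⟩ := (h2 ω).exists_irr_under (H := K)
    have h6 := sub_sum hθ.isCharacter.ind (C ω) fun ν hν => by
      obtain ⟨φ, hφ, rfl⟩ := hCm ω ν hν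
      refine ⟨h2 _, ?_⟩
      rw [classInner_indFun_left _ (h2 _).isClassFunction, ha ω φ hφ]
      exact mt classInner_eq_zero_comm.1 h5
    have h7 := ((h2 ω).isCharacter.restrict K).sub_of_constituent hθ h5
    obtain ⟨m, hm⟩ := h6.exists_nat_apply_one
    obtain ⟨n, hn⟩ := h7.exists_nat_apply_one
    have h8 : (∑ ν ∈ C ω, ν) 1 = Nat.card W₁ * μ ω 1 := by
      rw [Finset.sum_apply, Finset.sum_congr rfl (g := fun _ => μ ω 1) fun ν hν => by
        obtain ⟨φ, hφ, rfl⟩ := hCm ω ν hν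
        exact congrFun (ha ω φ hφ) 1, Finset.sum_const, hCc, nsmul_eq_mul]
    have h9 : (m : ℂ) + Nat.card W₁ * n = 0 := by
      rw [← hm, ← hn, Pi.sub_apply, Pi.sub_apply, indFun_apply_one, h8, hidx]
      simp; ring
    have h10 : m + Nat.card W₁ * n = 0 := by exact_mod_cast h9
    have h11 := Nat.card_pos (α := W₁)
    have h12 := sub_eq_zero.1 (h7.eq_zero_of_apply_one (by
      rw [hn, show n = 0 by nlinarith, Nat.cast_zero]))
    rw [h12]
    exact ⟨hθ, sub_eq_zero.1 (h6.eq_zero_of_apply_one (by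
      rw [hm, show m = 0 by omega, Nat.cast_zero]))⟩
  have hc : ∀ P : (K → ℂ) → Prop, (∀ ω, P fun k : K => μ ω k) → ∀ x ∈ W₁, x ≠ 1 →
      (∀ θ, P θ → cj x θ = θ) → Nat.card {θ : Cfsg.IrrCharacter K // P θ} = Nat.card W₂ ∧
      ∀ θ, Cfsg.IsIrrCharacter K θ → P θ → ∃ ω, θ = fun k : K => μ ω k := by
    intro P hP x hx hx1 hPx
    let f : {ψ : ↥(W₁ ⊔ W₂) →* ℂˣ // TrivOn W₁ ψ} → {θ : Cfsg.IrrCharacter K // P θ} :=
      fun ψ => ⟨⟨_, (hb ψ).1⟩, hP ψ⟩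
    have hf : Function.Injective f := by
      intro ψ ψ' h5
      have h6 : (fun k : K => μ ψ k) = fun k : K => μ ψ' k :=
        congrArg Subtype.val (congrArg Subtype.val h5)
      have h7 : Cfsg.classInner (∑ ν ∈ C ψ', ν) (μ ψ) ≠ 0 := by
        rw [← (hb ψ').2, classInner_indFun_left _ (h2 _).isClassFunction, ← h6,
          (hb ψ).1.classInner_self]
        exact one_ne_zero
      rw [classInner_sum_left] at h7
      obtain ⟨ν, hν, h8⟩ := Finset.exists_ne_zero_of_sum_ne_zero h7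
      obtain ⟨φ, hφ, rfl⟩ := hCm _ ν hν
      have h9 := h1 ((h2 _).eq_of_classInner_ne_zero (h2 _) h8)
      rw [uh_mul_comm, ← uh_one_mul ψ.1, trivOn_mul_eq_mul_iff hφ (trivOn_one _) ψ'.2 ψ.2] at h9
      exact Subtype.ext h9.2.symm
    have h5 : Nat.card {θ : Cfsg.IrrCharacter K // P θ} ≤ Nat.card W₂ := by
      rw [← hC x hx hx1]
      refine le_trans (Nat.card_le_card_of_injective _
        (Subtype.map_injective (f := id) (fun θ hθ => hPx θ.1 hθ) Function.injective_id)) (card_fixed_classes_le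
          (h.coprime.coprime_dvd_left (CfsgH1.orderOf_dvd_card_of_mem hx)))
    have h6 := (Nat.bijective_iff_injective_and_card f).2 ⟨hf,
      le_antisymm (Nat.card_le_card_of_injective f hf) (hW.card_trivOn₁ ▸ h5)⟩
    refine ⟨by rw [← Nat.card_eq_of_bijective f h6, hW.card_trivOn₁], fun θ hθ hPθ => ?_⟩
    obtain ⟨ψ, hψ⟩ := h6.2 ⟨⟨θ, hθ⟩, hPθ⟩
    exact ⟨ψ, (congrArg Subtype.val (congrArg Subtype.val hψ)).symm⟩
  obtain ⟨x₀, hx₀, hx₁⟩ := (Subgroup.bot_or_exists_ne_one W₁).resolve_left hW₁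
  have hd := hc (fun θ => ∀ x ∈ W₁, cj x θ = θ)
    (fun ω x _ => cj_restrict (h2 ω).isClassFunction x) x₀ hx₀ hx₁ fun θ hθ => hθ x₀ hx₀
  refine ⟨fun θ hθ ⟨y, hy, hyθ⟩ => isIrr_indFun_of_inertia_le hθ fun g hg => ?_, hd.1,
    fun θ hθ h5 => ?_⟩
  · obtain ⟨n, hn, w, hw, rfl⟩ := CfsgH1.mem_sup_normal_left.1 (hKW₁'.ge (Subgroup.mem_top g))
    by_cases hw1 : w = 1
    · simpa [hw1] using hn
    have h5 : w ∈ inertia θ := by
      simpa using (inertia θ).mul_mem ((inertia θ).inv_mem (le_inertia hθ.isClassFunction hn)) hg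
    obtain ⟨ω, rfl⟩ := (hc (fun θ => cj w θ = θ)
      (fun ω => cj_restrict (h2 ω).isClassFunction w) w hw hw1 fun θ hθ => hθ).2 θ hθ h5
    exact absurd (cj_restrict (h2 ω).isClassFunction y) hyθ
  · obtain ⟨ω, rfl⟩ := hd.2 θ hθ h5
    refine ⟨C ω, hCc ω, fun ν hν => ?_, (hb ω).2⟩
    obtain ⟨φ, -, rfl⟩ := hCm ω ν hν
    exact h2 _


end Cfsg.Agent.S1513
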