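import Cfsg.Statements.S1518
import Cfsg.Agent.H3.Dade

set_option autoImplicit false
open Cfsg

namespace Cfsg.Agent.S1518
open CfsgH3

/-- Under the Dade hypothesis for (A, L, H): if χ is an irreducible character of L vanishing at every non-identity element of L outside A, then the Dade image of χ − conj χ equals μ − conj μ for some irreducible character μ of G. -/
theorem result {G : Type*} [Group G] [Fintype G] (A : Set G) (L : Subgroup G) [Fintype L] (H : G → Subgroup G) (hD : Cfsg.DadeHypothesis A L H) (χ : L → ℂ) (hχ : Cfsg.IsIrrCharacter L χ) (hsupp : ∀ x : L, x ≠ 1 → (x : G) ∉ A → χ x = 0) : ∃ μ : G → ℂ, Cfsg.IsIrrCharacter G μ ∧ Cfsg.dadeIsometry A L H (χ - Cfsg.conjFun χ) = μ - Cfsg.conjFun μ := by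
  classical
  by_cases h : χ = Cfsg.conjFun χ
  · refine ⟨fun _ => 1, isIrr_one, ?_⟩
    rw [← h, sub_self, dade_zero]
    ext; simp [Cfsg.conjFun]
  have hc : Cfsg.IsIrrCharacter L (Cfsg.conjFun χ) := hχ.conj
  have hg := hχ.isGen.sub hc.isGen
  have h0 : ∀ x : L, (x : G) ∉ A → (χ - Cfsg.conjFun χ) x = 0 := by
    intro x hx
    by_cases h1 : x = 1
    · obtain ⟨n, -, hn⟩ := hχ.exists_pos_apply_one
      simp [h1, Cfsg.conjFun, hn]
    · simp [Cfsg.conjFun, hsupp x h1 hx]
  obtain ⟨a, b, ha, hb, hab, h1⟩ := (hD.isGen hg h0).exists_sub_of_norm_two (by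
    rw [hD.classInner_dade hg.isClassFunction h0 hg.isClassFunction, classInner_sub_sub hχ hc hχ hc]
    simp [h, Ne.symm h]; norm_num) (hD.dade_apply_one _)
  have h2 : Cfsg.conjFun a - Cfsg.conjFun b = b - a := by
    have h3 := dade_map (A := A) (H := H) (starRingEnd ℂ) (map_zero _) (χ - Cfsg.conjFun χ)
    have h4 : (fun x => starRingEnd ℂ ((χ - Cfsg.conjFun χ) x)) = -(χ - Cfsg.conjFun χ) := by
      ext; simp [Cfsg.conjFun]
    rw [h4, dade_neg, h1, neg_sub] at h3
    rw [h3]; ext; simp [Cfsg.conjFun]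
  refine ⟨a, ha, ?_⟩
  have ha' : Cfsg.IsIrrCharacter G (Cfsg.conjFun a) := ha.conj
  have hb' : Cfsg.IsIrrCharacter G (Cfsg.conjFun b) := hb.conj
  have h5 := congrArg (Cfsg.classInner · b) h2
  simp only [classInner_sub_left, ha'.classInner_eq_ite hb, hb'.classInner_eq_ite hb,
    hb.classInner_self, ha.classInner_of_ne hb hab] at h5
  rw [h1]
  by_cases h6 : Cfsg.conjFun a = b
  · rw [h6]
  · rw [if_neg h6] at h5
    split_ifs at h5 <;> norm_num at h5


end Cfsg.Agent.S1518
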