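import Cfsg.Statements.S1524
import Cfsg.Agent.H3.Coh8

set_option autoImplicit false
open Cfsg

namespace Cfsg.Agent.S1524
open CfsgH3

/-- Let G be a finite group and H ≤ L subgroups with L of odd order, H ≠ ⊥ nilpotent and normal in L with a nontrivial complement W₁ in L (H ⊓ W₁ = ⊥, H ⊔ W₁ = L) acting on H without non-identity fixed points (L is a Frobenius group with kernel H), and suppose the underlying set of H is a TI-subset of G whose normaliser is L. Let S be the set of functions on L induced from the non-principal irreducible characters of H. Then (S, L minus 1, induction to G) is coherent. -/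
theorem result {G : Type*} [Group G] [Fintype G] (H L W₁ : Subgroup G) [Fintype L] (hodd : Odd (Nat.card L)) (hHL : H ≤ L) (hW₁L : W₁ ≤ L) (hH1 : H ≠ ⊥) (hW1 : W₁ ≠ ⊥) (hnil : Group.IsNilpotent H) (hHn : ∀ x ∈ L, ∀ h ∈ H, x * h * x⁻¹ ∈ H) (hinf : H ⊓ W₁ = ⊥) (hsup : H ⊔ W₁ = L) (hfpf : ∀ w ∈ W₁, w ≠ 1 → ∀ h ∈ H, w * h = h * w → h = 1) (hTI : Cfsg.IsTISubset (H : Set G)) (hN : Subgroup.normalizer (H : Set G) = L) : Cfsg.IsCoherent (Cfsg.inducedIrrAbove (H.subgroupOf L) ⊥) {1}ᶜ (fun α : L → ℂ => Cfsg.indFun L α) := by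
  have hn : (H.subgroupOf L).Normal := ⟨fun n hn g => hHn g g.2 n hn⟩
  have hc := fun k => centralizer_le_of_fpf (K := H.subgroupOf L) (H := W₁.subgroupOf L) (k := k)
    (by rw [← Subgroup.subgroupOf_sup hHL hW₁L, hsup, Subgroup.subgroupOf_self])
    fun w hw h1 k hk h2 => Subtype.ext (hfpf w hw (fun h => h1 (Subtype.ext h)) k hk
      (congrArg Subtype.val h2))
  exact (tif_of_local hHL hHn (hN ▸ hTI) fun h hh h1 x hx => hc ⟨h, hHL hh⟩ hh
    (fun h2 => h1 (congrArg Subtype.val h2)) (x := ⟨x, hx.1⟩)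
    (Subgroup.mem_centralizer_singleton_iff.2 (Subtype.ext
      (Subgroup.mem_centralizer_singleton_iff.1 hx.2)))).coherent_of_odd hodd hH1


end Cfsg.Agent.S1524
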