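import Cfsg.Statements.S1525
import Cfsg.Agent.H3.Dade

set_option autoImplicit false
open Cfsg

namespace Cfsg.Agent.S1525
open CfsgH3

/-- Under the Dade hypothesis for (A, L, H), let χ be a class function of G and let ψ be a function on L whose value at each a ∈ A is the average of χ over the coset a·H(a). Then (1/|G|) Σ |χ g|² over the elements g of G conjugate into some coset a·H(a) with a ∈ A is at least (1/|L|) Σ_{a ∈ A ∩ L} |ψ a|². -/
theorem result {G : Type*} [Group G] [Fintype G] (A : Set G) (L : Subgroup G) [Fintype L] (H : G → Subgroup G) (hD : Cfsg.DadeHypothesis A L H) (χ : G → ℂ) (hχ : Cfsg.IsClassFunction G χ) (ψ : L → ℂ) (hψ : ∀ a : L, (a : G) ∈ A → ψ a = (Nat.card (H a) : ℂ)⁻¹ * ∑ᶠ u ∈ (H a : Set G), χ (a * u)) : (Nat.card L : ℝ)⁻¹ * ∑ᶠ a ∈ {a : L | (a : G) ∈ A}, ‖ψ a‖ ^ 2 ≤ (Nat.card G : ℝ)⁻¹ * ∑ᶠ g ∈ {g : G | ∃ a ∈ A, ∃ u ∈ H a, ∃ x : G, x * g * x⁻¹ = a * u}, ‖χ g‖ ^ 2 := by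
  classical
  obtain ⟨Ψ, h1, h2, h3⟩ := hD.exists_average hχ
  set α : L → ℂ := fun x => if (x : G) ∈ A then Ψ x else 0 with hα
  have hαc : Cfsg.IsClassFunction L α := by
    intro x y
    have : ((y * x * y⁻¹ : L) : G) ∈ A ↔ (x : G) ∈ A :=
      ⟨fun h => by simpa [mul_assoc] using hD.conj_mem _ (L.inv_mem y.2) _ h,
        hD.conj_mem _ y.2 _⟩
    simp only [hα, this, h1.restrict L x y]
  have hαA : ∀ x : L, (x : G) ∉ A → α x = 0 := fun x hx => if_neg hx
  set D := {g : G | ∃ a ∈ A, ∃ u ∈ H a, ∃ x : G, x * g * x⁻¹ = a * u} with hDd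
  set χ' : G → ℂ := fun g => if g ∈ D then χ g else 0 with hχ'
  set τ := Cfsg.dadeIsometry A L H α
  have h4 : Cfsg.classInner τ τ = Cfsg.classInner α α := hD.classInner_dade hαc hαA hαc
  have h5 : Cfsg.classInner τ χ' = Cfsg.classInner α α := by
    rw [classInner_congr_right (γ := χ) fun g hg => if_pos (by
      by_contra h
      exact hg (dade_eq_zero α h)), h3 α hαc hαA]
    refine classInner_congr_right fun x hx => (if_pos ?_).symm
    by_contra h
    exact hx (hαA x h)
  have h6 := classInner_self_re_nonneg (χ' - τ)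
  rw [classInner_sub_left, classInner_sub_right, classInner_sub_right, h4, h5,
    ← conj_classInner τ χ', h5] at h6
  simp only [Complex.sub_re, Complex.conj_re, sub_self, sub_zero, sub_nonneg,
    classInner_self_re] at h6
  rw [finsum_mem_eq_finite_toFinset_sum _ (Set.toFinite _),
    finsum_mem_eq_finite_toFinset_sum _ (Set.toFinite _)]
  convert h6 using 2
  · rw [Set.Finite.toFinset_setOf, Finset.sum_filter]
    refine Finset.sum_congr rfl fun x _ => ?_
    simp only [hα]
    split_ifs with h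
    · rw [hψ x h, h2 _ h]
    · simp
  · rw [Set.Finite.toFinset_setOf, Finset.sum_filter]
    refine Finset.sum_congr rfl fun x _ => ?_
    simp only [hχ', hDd, Set.mem_setOf_eq]
    split_ifs <;> simp


end Cfsg.Agent.S1525
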