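import Cfsg.Statements.S1527
import Cfsg.Agent.H3.Misc2

set_option autoImplicit false
open Cfsg

namespace Cfsg.Agent.S1527
open CfsgH3

/-- Let G be a finite group and H i (i in a finite index type) subgroups of pairwise coprime orders, each of whose underlying sets is a TI-subset of G, such that every non-identity element of G is conjugate to an element of some H i. Then Nat.card G − 1 = Σ_i [G : N_G(H i)] · (Nat.card (H i) − 1). -/
theorem result {G : Type*} [Group G] [Finite G] {ι : Type*} [Fintype ι] (H : ι → Subgroup G) (hcop : ∀ i j, i ≠ j → Nat.Coprime (Nat.card (H i)) (Nat.card (H j))) (hTI : ∀ i, Cfsg.IsTISubset (H i : Set G)) (hcover : ∀ g : G, g ≠ 1 → ∃ i, ∃ x : G, x * g * x⁻¹ ∈ H i) : Nat.card G - 1 = ∑ i, (Subgroup.normalizer (H i : Set G)).index * (Nat.card (H i) - 1) := by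
  classical
  have := Fintype.ofFinite G
  have h1 : ∀ i, Nat.card {g : G // ∃ x, x * g * x⁻¹ ∈ ((H i : Set G) \ {1})} =
      (Subgroup.normalizer (H i : Set G)).index * (Nat.card (H i) - 1) := by
    intro i
    rw [card_conj_tiset (N := Subgroup.normalizer (H i : Set G)) (S := (H i : Set G) \ {1})
      (fun x hx => Subgroup.le_normalizer hx.1)
      (fun n hn s hs => ⟨CfsgH1.conj_mem_of_mem_normalizer hn hs.1, by simpa using hs.2⟩)
      (fun g hg s hs h => hs.2 (hTI i g hg s hs.1 h.1))]
    congr 1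
    exact Set.ncard_diff_singleton_of_mem (H i).one_mem
  simp_rw [← h1]
  rw [← Nat.card_sigma]
  have h2 : Nat.card G - 1 = Nat.card {g : G // g ≠ 1} := by
    simp [Nat.card_eq_fintype_card]
  rw [h2]
  symm
  refine Nat.card_congr (Equiv.ofBijective (fun y => ⟨y.2.1, ?_⟩) ⟨?_, ?_⟩)
  · obtain ⟨x, hx⟩ := y.2.2
    simpa using hx.2
  · rintro ⟨i, g, x, hx⟩ ⟨j, g', y, hy⟩ h
    obtain rfl : g = g' := congrArg Subtype.val h
    obtain rfl : i = j := by
      by_contra hij
      have h3 := CfsgH1.orderOf_dvd_card_of_mem hx.1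
      have h4 := CfsgH1.orderOf_dvd_card_of_mem hy.1
      rw [orderOf_conj'] at h3 h4
      have := Nat.eq_one_of_dvd_coprimes (hcop i j hij) h3 h4
      rw [orderOf_eq_one_iff] at this
      exact hx.2 (by simp [this])
    rfl
  · rintro ⟨g, hg⟩
    obtain ⟨i, x, hx⟩ := hcover g hg
    exact ⟨⟨i, g, x, hx, by simpa using hg⟩, rfl⟩


end Cfsg.Agent.S1527
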