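import Cfsg.Statements.S1531
import Cfsg.Agent.H3.Coh3

set_option autoImplicit false
open Cfsg

namespace Cfsg.Agent.S1531
open CfsgH3

/-- Let N be a subgroup of the finite group G, S a set of irreducible characters of N, and α a linear isometry on the integer combinations of S vanishing at 1 with values virtual characters of G vanishing at 1. Let X, Y ⊆ S be disjoint, each with at least two members, and σ, τ linear isometries on ℤ[X], ℤ[Y] into virtual characters agreeing with α on the members vanishing at 1. Then ⟨σ χ, τ η⟩ = 0 for χ ∈ X, η ∈ Y; and if for some χ₀ ∈ X, η₀ ∈ Y with degrees c = χ₀ 1, e = η₀ 1 one has α (c • η₀ − e • χ₀) = c • τ η₀ − e • σ χ₀, then (X ∪ Y, N minus 1, α) is coherent. -/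
theorem result {G : Type*} [Group G] [Fintype G] (N : Subgroup G) [Fintype N] (S X Y : Set (N → ℂ)) (hirr : ∀ ξ ∈ S, Cfsg.IsIrrCharacter N ξ) (hXS : X ⊆ S) (hYS : Y ⊆ S) (hXY : Disjoint X Y) (hX2 : ∃ a ∈ X, ∃ b ∈ X, a ≠ b) (hY2 : ∃ a ∈ Y, ∃ b ∈ Y, a ≠ b) (α : (N → ℂ) → (G → ℂ)) (hα : Cfsg.IsLinearIsometryOn (Cfsg.zspanOn S {1}ᶜ) α) (hα1 : ∀ θ ∈ Cfsg.zspanOn S {1}ᶜ, α θ 1 = 0) (σ τ : (N → ℂ) → (G → ℂ)) (hσ : Cfsg.IsLinearIsometryOn (Cfsg.zspan X) σ) (hσα : ∀ θ ∈ Cfsg.zspanOn X {1}ᶜ, σ θ = α θ) (hτ : Cfsg.IsLinearIsometryOn (Cfsg.zspan Y) τ) (hτα : ∀ θ ∈ Cfsg.zspanOn Y {1}ᶜ, τ θ = α θ) : (∀ χ ∈ X, ∀ η ∈ Y, Cfsg.classInner (σ χ) (τ η) = 0) ∧ ((∃ χ₀ ∈ X, ∃ η₀ ∈ Y, α (χ₀ 1 • η₀ - η₀ 1 • χ₀) = χ₀ 1 • τ η₀ - η₀ 1 • σ χ₀) → Cfsg.IsCoherent (X ∪ Y) {1}ᶜ α) := by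
  obtain ⟨A, hA, heA⟩ := hα.exists_linear
  obtain ⟨σ', hσ', heσ⟩ := hσ.exists_linear
  obtain ⟨T, hT, heT⟩ := hτ.exists_linear
  obtain ⟨h1, h2⟩ := isCoherent_union_of_ext hirr hXS hYS hXY hX2 hY2 hA
    (fun θ hθ => by rw [heA θ hθ, hα1 θ hθ]) hσ'
    (fun θ hθ => by rw [heσ θ hθ.1, hσα θ hθ, heA θ (zspanOn_mono hXS hθ)]) hT
    (fun θ hθ => by rw [heT θ hθ.1, hτα θ hθ, heA θ (zspanOn_mono hYS hθ)])
  refine ⟨fun χ hχ η hη => ?_, fun ⟨χ₀, hχ₀, η₀, hη₀, h⟩ => (h2 χ₀ hχ₀ η₀ hη₀ ?_).congr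
    fun θ hθ => heA θ (zspanOn_mono (Set.union_subset hXS hYS) hθ)⟩
  · rw [← heσ χ (Submodule.subset_span hχ), ← heT η (Submodule.subset_span hη), h1 χ hχ η hη]
  · rw [heσ _ (Submodule.subset_span hχ₀), heT _ (Submodule.subset_span hη₀), ← h,
      heA _ (deg_smul_mem_zspanOn (hYS hη₀) (hXS hχ₀) (hirr _ (hYS hη₀)).isCharacter
        (hirr _ (hXS hχ₀)).isCharacter)]


end Cfsg.Agent.S1531
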