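import Cfsg.Statements.S1532
import Cfsg.Agent.H3.Coh8

set_option autoImplicit false
open Cfsg

namespace Cfsg.Agent.S1532
open CfsgH3

/-- Let G be a finite group, p an odd prime and P a Sylow p-subgroup that is non-abelian, whose underlying set is a TI-subset of G, with P properly contained in its set normaliser N and C_G(x) ≤ P for every non-identity x ∈ P. Let Z be a nontrivial subgroup of the centre of P normalised by N. Then the set of irreducible characters χ of N with χ z ≠ χ 1 for some z ∈ Z is coherent for the map induced by induction from N to G. -/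
theorem result {G : Type*} [Group G] [Fintype G] (p : ℕ) [Fact p.Prime] (hp : p ≠ 2) (P : Sylow p G) (hna : ¬ IsMulCommutative (P : Subgroup G)) (hTI : Cfsg.IsTISubset ((P : Subgroup G) : Set G)) (hlt : (P : Subgroup G) < Subgroup.normalizer ((P : Subgroup G) : Set G)) (hC : ∀ k ∈ (P : Subgroup G), k ≠ 1 → Subgroup.centralizer ({k} : Set G) ≤ (P : Subgroup G)) [Fintype ↥(Subgroup.normalizer ((P : Subgroup G) : Set G))] (Z : Subgroup G) (hZ1 : Z ≠ ⊥) (hZP : ∀ z ∈ Z, z ∈ (P : Subgroup G) ∧ ∀ y ∈ (P : Subgroup G), z * y = y * z) (hZn : ∀ x ∈ Subgroup.normalizer ((P : Subgroup G) : Set G), ∀ z ∈ Z, x * z * x⁻¹ ∈ Z) : Cfsg.IsCoherent {χ : ↥(Subgroup.normalizer ((P : Subgroup G) : Set G)) → ℂ | Cfsg.IsIrrCharacter ↥(Subgroup.normalizer ((P : Subgroup G) : Set G)) χ ∧ ∃ z : ↥(Subgroup.normalizer ((P : Subgroup G) : Set G)), (z : G) ∈ Z ∧ χ z ≠ χ 1} {1}ᶜ (fun α => Cfsg.indFun (Subgroup.normalizer ((P : Subgroup G) : Set G)) α) := by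
  have h := tif_normalizer hTI hC
  have := h.normal
  have := P.isPGroup'.isNilpotent
  have := CfsgH1.isNilpotent_subgroupOf (P : Subgroup G)
    (Subgroup.normalizer ((P : Subgroup G) : Set G))
  have hP : (P : Subgroup G) ≠ ⊥ := fun h1 => hZ1 (eq_bot_iff.2 fun z hz => h1 ▸ (hZP z hz).1)
  have hodd := h.odd_of_not_comm P.isPGroup' hp hna
  obtain ⟨R, hS⟩ := h.exists_system hodd hP
  have h1 := CfsgH1.commutator_self_lt (h.subgroupOf_ne_bot hP)
  have : (Z.subgroupOf (Subgroup.normalizer ((P : Subgroup G) : Set G))).Normal :=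
    ⟨fun n hn g => hZn g g.2 n hn⟩
  have h2 := hS.diff_coherent hodd h1 (fun k a b x => mem_of_commutator_mem h1.le h.cent' a b)
    (Z := Z.subgroupOf _) (by
      rwa [Ne, Subgroup.subgroupOf_eq_bot, disjoint_iff,
        inf_eq_left.2 fun z hz => h.le (hZP z hz).1]) (fun z hz => (hZP z hz).1)
    (fun z hz k hk => Subtype.ext ((hZP z hz).2 k hk)) fun χ hχ => h.irr hχ.1
  rwa [iia_diff_eq (Z := Z.subgroupOf _) (fun z hz => (hZP z hz).1) fun χ hχ => h.irr hχ.1] at h2


end Cfsg.Agent.S1532
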