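import Cfsg.Statements.S1536
import Cfsg.Agent.H3.Misc2

set_option autoImplicit false
open Cfsg

namespace Cfsg.Agent.S1536
open CfsgH3

/-- Let H be a normal subgroup of the finite group M whose order is coprime to its index. For x ∈ M: some non-principal irreducible character of H is unchanged under h ↦ θ(x h x⁻¹) if and only if some non-identity element of H commutes with x. -/
theorem result {M : Type*} [Group M] [Finite M] (H : Subgroup M) [hN : H.Normal] (hHall : Nat.Coprime (Nat.card H) H.index) (x : M) : (∃ θ : H → ℂ, Cfsg.IsIrrCharacter H θ ∧ θ ≠ (fun _ => 1) ∧ (fun h : H => θ ⟨x * h * x⁻¹, hN.conj_mem h h.2 x⟩) = θ) ↔ ∃ h ∈ H, h ≠ 1 ∧ x * h = h * x := by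
  classical
  constructor
  · rintro ⟨θ, hθ, h1, h2⟩
    by_contra hcon
    push Not at hcon
    refine h1 (eq_one_of_cj_eq (g := x) (fun n hn y hy h => ?_) hθ h2)
    obtain ⟨a, b, e, ha, hb⟩ := exists_pow_decomp x hHall (by
      rw [H.card_mul_index]; exact pow_card_eq_one')
    have ha' : x ^ a = 1 := by
      by_contra h'
      exact hcon _ (CfsgH1.mem_of_orderOf_coprime_index
        (hHall.coprime_dvd_left (orderOf_dvd_of_pow_eq_one ha))) h' (Commute.self_pow x a)
    rw [ha', one_mul] at e
    obtain ⟨z, hz, h3⟩ := exists_conj_commute_of_fixed (H := H) (g := x)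
      (by rw [Subgroup.normalizer_eq_top]; trivial)
      (hHall.symm.coprime_dvd_left (e ▸ orderOf_dvd_of_pow_eq_one hb)) hy h
    by_contra h4
    exact hcon _ (hN.conj_mem n hn z) (by simpa using h4) h3
  · rintro ⟨h, hh, h1, h2⟩
    have h3 := card_irr_fixed_cj (N := H) x
    have h4 : ∀ n : H, x * n = n * x → ∀ m : H, ConjClasses.mk m = ConjClasses.mk n →
        IsConj (MulAut.conjNormal x m) m := by
      intro n hn m hm
      have h5 := ConjClasses.mk_eq_mk_iff_isConj.1 hm
      have h6 : MulAut.conjNormal x n = n := Subtype.ext (by simp [hn])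
      have := (MulAut.conjNormal x : MulAut H).toMonoidHom.map_isConj h5
      simp only [MulEquiv.coe_toMonoidHom, h6] at this
      exact this.trans h5.symm
    have h7 : Nontrivial {C : ConjClasses H // ∀ n : H, ConjClasses.mk n = C →
        IsConj (MulAut.conjNormal x n) n} :=
      ⟨⟨⟨_, h4 ⟨h, hh⟩ h2⟩, ⟨_, h4 1 (by simp)⟩, fun h => h1 (by
        have := ConjClasses.mk_eq_mk_iff_isConj.1 (congrArg Subtype.val h)
        exact congrArg Subtype.val (isConj_one_left.1 this))⟩⟩
    rw [← Finite.one_lt_card_iff_nontrivial, ← h3, Finite.one_lt_card_iff_nontrivial] at h7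
    obtain ⟨θ, hθ⟩ := exists_ne (⟨⟨fun _ => 1, isIrr_one⟩, rfl⟩ :
      {θ : Cfsg.IrrCharacter H // cj x (θ : H → ℂ) = θ})
    exact ⟨θ.1.1, θ.1.2, fun h => hθ (Subtype.ext (Subtype.ext h)), θ.2⟩


end Cfsg.Agent.S1536
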