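import Cfsg.Statements.S1546
import Cfsg.Agent.H3.Basic

set_option autoImplicit false
open Cfsg

namespace Cfsg.Agent.S1546
open CfsgH3

/-- Let p and q be odd primes and N = (p ^ q − 1) / (p − 1) = 1 + p + ⋯ + p^(q−1). Then N is odd; if p ≡ 1 (mod q) then q ∣ N; and if p is not ≡ 1 (mod q) then N is coprime to p − 1 and every divisor of N is ≡ 1 (mod q). -/
theorem result (p q : ℕ) (hp : p.Prime) (hq : q.Prime) (hp2 : p ≠ 2) (hq2 : q ≠ 2) : Odd ((p ^ q - 1) / (p - 1)) ∧ (p % q = 1 → q ∣ (p ^ q - 1) / (p - 1)) ∧ (p % q ≠ 1 → Nat.Coprime ((p ^ q - 1) / (p - 1)) (p - 1) ∧ ∀ x : ℕ, x ∣ (p ^ q - 1) / (p - 1) → x % q = 1) := by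
  have e : (p ^ q - 1) / (p - 1) = ∑ i ∈ Finset.range q, p ^ i :=
    (Nat.geomSum_eq hp.two_le q).symm
  have e2 : (∑ i ∈ Finset.range q, p ^ i) * (p - 1) + 1 = p ^ q := by
    have := geom_sum_mul_add (p - 1) q
    rwa [Nat.sub_add_cancel hp.one_le] at this
  rw [e]
  have hmod : ∀ r : ℕ, r ∣ p - 1 → ∑ i ∈ Finset.range q, p ^ i ≡ q [MOD r] := by
    intro r hr
    have h1 : p ≡ 1 [MOD r] := ((Nat.modEq_iff_dvd' hp.one_le).2 hr).symm
    have := Nat.ModEq.sum (s := Finset.range q) (f := fun i => p ^ i) (g := fun _ => 1)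
      fun i _ => by simpa using h1.pow i
    simpa using this
  have hp1 : ∀ r : ℕ, 1 < r → (p % r = 1 ↔ r ∣ p - 1) := fun r hr => by
    rw [← Nat.modEq_iff_dvd' hp.one_le, Nat.ModEq, Nat.mod_eq_of_lt hr, eq_comm]
  refine ⟨?_, fun h => ?_, fun h => ?_⟩
  · have h1 := hmod 2 ((hp1 2 one_lt_two).1 (Nat.odd_iff.1 (hp.odd_of_ne_two hp2)))
    rw [Nat.odd_iff, h1]
    exact Nat.odd_iff.1 (hq.odd_of_ne_two hq2)
  · exact ((hmod q ((hp1 q hq.one_lt).1 h)).dvd_iff dvd_rfl).2 dvd_rfl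
  · have hc : Nat.Coprime (∑ i ∈ Finset.range q, p ^ i) (p - 1) := by
      refine Nat.coprime_of_dvd fun r hr h1 h2 => h ((hp1 q hq.one_lt).2 ?_)
      have := ((hmod r h2).dvd_iff dvd_rfl).1 h1
      rwa [← (Nat.prime_dvd_prime_iff_eq hr hq).1 this]
    refine ⟨hc, fun x => ?_⟩
    induction x using induction_on_primes with
    | zero =>
      intro h
      rw [Nat.eq_zero_of_zero_dvd h] at e2
      have := Nat.one_lt_pow hq.ne_zero hp.one_lt
      omega
    | one => exact fun _ => Nat.mod_eq_of_lt hq.one_lt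
    | prime_mul r a hr ih =>
      intro h
      have h1 := ih (Dvd.dvd.trans (Dvd.intro_left _ rfl) h)
      have h2 : r ∣ ∑ i ∈ Finset.range q, p ^ i := Dvd.dvd.trans (Dvd.intro _ rfl) h
      have := Fact.mk hr
      have := Fact.mk hq
      have h3 : (p : ZMod r) ^ q = 1 := by
        rw [← Nat.cast_pow, ← e2, Nat.cast_add, Nat.cast_mul, (ZMod.natCast_eq_zero_iff _ _).2 h2]
        simp
      have h4 : (p : ZMod r) ≠ 1 := by
        intro h4
        have : r ∣ p - 1 := (Nat.modEq_iff_dvd' hp.one_le).1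
          ((ZMod.natCast_eq_natCast_iff _ _ _).1 (by simpa using h4.symm))
        exact hr.one_lt.ne' (Nat.eq_one_of_dvd_coprimes hc h2 this)
      have h5 : (p : ZMod r) ≠ 0 := by
        intro h5
        rw [h5, zero_pow hq.ne_zero] at h3
        exact zero_ne_one h3
      have h6 := ZMod.orderOf_dvd_card_sub_one h5
      rw [orderOf_eq_prime h3 h4] at h6
      have h7 : r % q = 1 := by
        rw [← Nat.modEq_iff_dvd' hr.one_le, Nat.ModEq, Nat.mod_eq_of_lt hq.one_lt] at h6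
        exact h6.symm
      rw [Nat.mul_mod, h1, h7]
      exact Nat.mod_eq_of_lt hq.one_lt


end Cfsg.Agent.S1546
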