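import Cfsg.Statements.S1550
import Mathlib
import Cfsg.Agent.H7.Gol.Tr2

set_option autoImplicit false
open scoped Pointwise
open Cfsg

namespace Cfsg.Agent.S1550

open CfsgH7 CfsgH7.Gol MulAction
open scoped Pointwise

/-- Every 4-element set of the 24 points is a tetrad of exactly one sextet, and the sextets number 1771. -/
theorem result : (∀ t : Finset Cfsg.GolayPt, t.card = 4 → ∃! S : Finset (Finset Cfsg.GolayPt), S ∈ Cfsg.sextets ∧ t ∈ S) ∧ Cfsg.sextets.ncard = 1771 := by
  refine ⟨fun t ht => ?_, FX.ncard_univ⟩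
  obtain ⟨c, rfl⟩ := sets4 ht
  have h : c • S 0x800007 ∈ c • xpt 1194 := Finset.smul_mem_smul_finset (by rw [X0_eq]; simp)
  exact ⟨_, ⟨(msext c).2 sext0, h⟩, fun Y hY => sext_unique hY.1 ((msext c).2 sext0) hY.2 h⟩

end Cfsg.Agent.S1550
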