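import Cfsg.Statements.S1551
import Cfsg.Agent.H1.Mi

set_option autoImplicit false
open scoped Pointwise
open Cfsg

namespace Cfsg.Agent.S1551

section
open CfsgH1.Mg CfsgH1.Mc CfsgH1.Mh CfsgH1.Mi CfsgH7 CfsgH7.Gol MulAction
open scoped commutatorElement

def V : List (List Nat) := [[1,5,0,0,0,2,1,1,1,4,0],[0,5,1,1,4,0,5,5,0,4,1,1,5],[4,0,5,0,0,4,1,5,0,5,0,4,4],[2,0,0,0,4,4,0,5,0,0,2,5,5],[1,1,2,4,0,2,4,0,2,1,5,0,5],[2,0,5,1,1,4,1,4,1,1,2,1,4,4]]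

theorem cN : Nat.card (genW gm V) = 64 :=
  le_antisymm (card_le_list hf24 (closed_list P24 V [0xbdab49ca307b9ac5a928398a418820, 0x140c93b0765149243e8b9d5cd8dc01, 0xbc269ac9d65448c5be8831c6d28820, 0xbc2af9ac76a14889254c399cd88820, 0xb92a99b0ad50e1243e8b39a3670820, 0xc2a99a2365388b63e92398ad182e2, 0x90d43b22d7ba124292b9d4b6182e2, 0x158f4330b078db24292bace2475c01, 0x158ca3a2304b9ab651f29d4a41dc01, 0x134d43c9c47c6cc5a9289d4702dc01, 0x58d43ac70795a89292c9d5c488457, 0x36a99c864516cc5be88399d088457, 0xbda6aaacb048da8951ec31e2470820, 0xbb674ab064796d24292b31dd088820, 0xda74aa1d07c5ab6293231c64282e2, 0xb4e9331c4546d243e8bacc70282e2, 0xbb6aa9a1c44c6cb651f23987028820, 0xdaaa9b070495b2451eb399c4882e2, 0xb4cf3a064a16cb625529d5d0882e2, 0xb6b49aca478ec89292c39a30702e2, 0xd8c93c8b050dac5be889d624702e2, 0xbb4c93ae2453ac893e8c9d4b018820, 0x140ef321d6a448b62552acc6d2dc01, 0x110e934a2d53a0c5be88accb61dc01,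 0x40e932cb650c8893e8cace2d70457, 0x1274ac8ad78e0c5a92831e3670457, 0x110cf3acada0e089254c9d63675c01, 0x40cf3ca36a388c5a5489d4ad18457, 0x12aa9ae2d4ba08951ec398b618457, 0x10c93a1cd5460b63e929d47628457, 0x42b49b1d67c4924292b3986d28457, 0x112b49a06d7960b62932399d68dc01, 0xb926faa22da3a0b6255231cb618820, 0xc26fab0b6a0c924254b31e2d702e2, 0x90ea320ad48e0b651f2ace36702e2, 0x9269aac6d5160893e8c31dd6882e2, 0xc0f4348767948c5a928acdcd882e2, 0xb90f432dcd7c6089292cacc7628820, 0x92af9c9cda460c5a54839876282e2, 0xc0ca3add64c488951ec9d46d282e2, 0xb90ca3c86d4960c5d1e89d5d688820, 0xbc0d43a0b678c8b629329d62d70820, 0x134ea32c64496c8951ecacdd08dc01, 0x58ea349d04c5ac5d1e8acc6428457, 0x366faadc4a46c89254c31c7028457, 0x34f4322247bacb62932accb018457, 0x5a69ab230539b243e8b31ca418457, 0x13669aa0a450ecb63e9231e3075c01, 0x34ca3b0a448ed2451eb9d63070457, 0x5aaf9a0b0a0dab6255239a2470457, 0x136af9b224a3ad24254b398b01dc01,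 0x15aa99add0545a893e8c398642dc01, 0xb66aaca244bacc5d1e831cb0182e2, 0xd8ef32e30a39a89254cacca4182e2, 0xbb4ef348a4a0ecc5a548ace3070820, 0xbd8e932070515ab63e92acdc488820, 0xbd8cf3b1d0a45b24254b9d46428820, 0x10ef3306da16124254bacdd688457, 0x426aaa0764948b651f231dcd88457, 0x1126aab1cd4c612451eb31c762dc01, 0x14274aae367b8889292c31cad1dc01, 0x142aa9c8b648c8c5d1e839a2d75c01, 0xbc0ea332364b892451ebaccad18820, 0x15a6fac870a15ac5a54831dc48dc01] (by decide +kernel)))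
    (RP.card_geS I.inj V [⟨0, [[0],[8]], [0,1], 4⟩,
  ⟨3, [[2],[4]], [0,1], 4⟩,
  ⟨4, [[8,10],[2,4,6]], [0,1], 4⟩] 5 (by decide +kernel))

theorem full : ∀ e : Equiv.Perm (xpt 1194), ∃ x ∈ KX, ∀ a : xpt 1194, (open Pointwise in x • (a : Finset GolayPt)) = e a :=
  tt_perm (fun _ h => mem_stabilizer_iff.1 h) (tt_chain (fam_msk [0x24028, 0x41900, 0x108600, 0x2800c0, 0x412010, 0x800007] (by decide +kernel)
    (A := xpt 1194) (by rw [X0_eq]; simp [eq_comm])) (rep_msk WX _ [(Net.cons (nat_lit 1) (nat_lit 0x5) Net.nil),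
  (Net.cons (nat_lit 4) (nat_lit 0x2) (Net.cons (nat_lit 2) (nat_lit 0x3) (Net.cons (nat_lit 1) (nat_lit 0x14) (Net.cons (nat_lit 2) (nat_lit 0x2) Net.nil)))),
  (Net.cons (nat_lit 2) (nat_lit 0x2) (Net.cons (nat_lit 1) (nat_lit 0x4) (Net.cons (nat_lit 2) (nat_lit 0x2) Net.nil)))] (by decide +kernel)) (Rb.all _ _)
    (mem_sub memX) (fun _ h => ⟨h, trivial⟩) [⟨0, [[0],[2]], [0,1,1,1,0], 6⟩,
  ⟨1, [[0,3]], [0,0,0,0], 5⟩,
  ⟨2, [[0,3,4]], [0,0,0], 4⟩,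
  ⟨3, [[0,3,4,3,4,0]], [0,0], 3⟩,
  ⟨4, [[3,0,3,4,2,0,2]], [0], 2⟩,
  ⟨5, [], [], 1⟩] (pre := []) trivial (by decide +kernel)) sext0.1.symm

end

/-- Structure of a sextet stabiliser: it induces every permutation of the six tetrads, the subgroup fixing each tetrad setwise has order 192, and there is a normal subgroup of order 64 consisting of elements squaring to the identity. -/
theorem result (S : Finset (Finset Cfsg.GolayPt)) (hS : S ∈ Cfsg.sextets) : (∀ e : Equiv.Perm ↥S, ∃ g ∈ MulAction.stabilizer Cfsg.M24 S, ∀ t : ↥S, (g : Equiv.Perm Cfsg.GolayPt) • (t : Finset Cfsg.GolayPt) = ((e t : ↥S) : Finset Cfsg.GolayPt)) ∧ Nat.card {g : ↥(MulAction.stabilizer Cfsg.M24 S) // ∀ t ∈ S, ((g : Cfsg.M24) : Equiv.Perm Cfsg.GolayPt) • t = t} = 192 ∧ ∃ N : Subgroup ↥(MulAction.stabilizer Cfsg.M24 S), N.Normal ∧ Nat.card N = 64 ∧ ∀ x ∈ N, x * x = 1 := by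
  open CfsgH1.Mg CfsgH1.Mc CfsgH1.Mh CfsgH1.Mi CfsgH7 CfsgH7.Gol MulAction in
  open scoped commutatorElement in
  · obtain ⟨c, rfl⟩ := sext_tr hS
    have h := cj_perm c full
    refine ⟨h, ?_, ?_⟩
    · have := card_ker_of (h := fun _ h => mem_stabilizer_iff.1 h) h
      rw [(Cj.stab c _).card, cardX, hS.1] at this
      refine Eq.trans ?_ (Nat.eq_of_mul_eq_mul_left (Nat.factorial_pos 6) this)
      exact Nat.card_congr (Equiv.subtypeEquivRight fun x => (ind_ker (h := fun _ h => mem_stabilizer_iff.1 h) (x := x)).symm)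
    have := normal_cert P24 hf24 genX (V := V) rfl [[],[0],[2],[4],[6],[8],[10],[0,2],[0,4],[0,6],[0,8],[0,10],[2,4],[2,6],[2,8],[2,10],[4,6],[4,8],[4,10],[6,8],[6,10],[8,10],[0,2,4],[0,2,6],[0,2,8],[0,2,10],[0,4,6],[0,4,8],[0,4,10],[0,6,8],[0,6,10],[0,8,10],[2,4,6],[2,4,8],[2,4,10],[2,6,8],[2,6,10],[2,8,10],[4,6,8],[4,6,10],[4,8,10],[6,8,10],[0,2,4,6],[0,2,4,8],[0,2,4,10],[0,2,6,8],[0,2,6,10],[0,2,8,10],[0,4,6,8],[0,4,6,10],[0,4,8,10],[0,6,8,10],[2,4,6,8],[2,4,6,10],[2,4,8,10],[2,6,8,10],[4,6,8,10],[0,2,4,6,8],[0,2,4,6,10],[0,2,4,8,10],[0,2,6,8,10],[0,4,6,8,10],[2,4,6,8,10],[0,2,4,6,8,10]] (by decide +kernel)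
    obtain ⟨M, hM, ⟨e⟩, -⟩ := normal_congr (Cj.stab c (xpt 1194)).equiv ((genW gm V).subgroupOf KX)
    refine ⟨M, hM, by rw [← Nat.card_congr e.toEquiv, card_subOf (genW_le.2 (RX.mem_stab (by decide +kernel))), cN],
      fun x hx => (sq x).symm.trans (sq_congr e (fun x hx => (sq x).trans (Subtype.ext ?_)) x hx)⟩
    exact sq_of_gens (base7.satP RP (by decide) (by decide +kernel)) _ hx

end Cfsg.Agent.S1551
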