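import Cfsg.Statements.S1552
import Mathlib
import Cfsg.Agent.H7.Gol.Tr2

set_option autoImplicit false
open scoped Pointwise
open Cfsg

namespace Cfsg.Agent.S1552

open CfsgH7 CfsgH7.Gol MulAction
open scoped Pointwise

/-- A sextet stabiliser has four orbits on the 1771 sextets, of sizes 1, 90, 240, 1440; and the stabiliser is a maximal proper subgroup. -/
theorem result (S : Finset (Finset Cfsg.GolayPt)) (hS : S ∈ Cfsg.sextets) : ∃ X₁ ∈ Cfsg.sextets, ∃ X₂ ∈ Cfsg.sextets, ∃ X₃ ∈ Cfsg.sextets, (MulAction.orbit ↥(MulAction.stabilizer Cfsg.M24 S) X₁).ncard = 90 ∧ (MulAction.orbit ↥(MulAction.stabilizer Cfsg.M24 S) X₂).ncard = 240 ∧ (MulAction.orbit ↥(MulAction.stabilizer Cfsg.M24 S) X₃).ncard = 1440 ∧ Cfsg.sextets = {S} ∪ MulAction.orbit ↥(MulAction.stabilizer Cfsg.M24 S) X₁ ∪ MulAction.orbit ↥(MulAction.stabilizer Cfsg.M24 S) X₂ ∪ MulAction.orbit ↥(MulAction.stabilizer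 Cfsg.M24 S) X₃ ∧ IsCoatom (MulAction.stabilizer Cfsg.M24 S) := by
  obtain ⟨c, rfl⟩ := sext_tr hS
  obtain ⟨a, ha, b, hb, d, hd, h1, h2, h3, h4⟩ := ((FX.dec RX genX (Rb.all _ _) [⟨1194, [], 1⟩,
    ⟨52, [0,1,0,2,0,1,0,1,0,2,0,1], 90⟩,
    ⟨13, [1,0,2,0,1,0,1,0,1,0,2,0,1,0,1,0], 240⟩,
    ⟨0, [0,1,0,1,0,2,0,1,0,1,0,2,0,1,0,2,0,1,0], 1440⟩] 11 (by decide +kernel) (A := Cfsg.sextets) (fun y => by simp)).conj (Cj.stab c _) fun y => msext c).three' le_rfl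
  exact ⟨a, ha, b, hb, d, hd, h1, h2, h3, h4, (Cj.stab c _).coatom maxX.coatom⟩

end Cfsg.Agent.S1552
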