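import Cfsg.Statements.S1553
import Cfsg.Agent.H1.Mc

set_option autoImplicit false
open scoped Pointwise
open Cfsg

namespace Cfsg.Agent.S1553

/-- The stabiliser of an octad in the group of the length-24 code induces on the octad exactly its alternating group. -/
theorem result (o : Finset Cfsg.GolayPt) (ho : o ∈ Cfsg.octads) : {e : Equiv.Perm ↥o | ∃ g : Equiv.Perm Cfsg.GolayPt, g ∈ Cfsg.M24 ∧ ∃ h : (∀ x, g x ∈ o ↔ x ∈ o), g.subtypePerm h = e} = (alternatingGroup ↥o : Set (Equiv.Perm ↥o)) := by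
  open CfsgH1.Mg CfsgH1.Mc CfsgH7 CfsgH7.Gol MulAction in
  open scoped commutatorElement in
  · obtain ⟨c, rfl⟩ := oct_tr ho
    have h := range_alt (K := stabilizer M24 (open Pointwise in c • S 0x82402f)) (h := fun _ h => mem_stabilizer_iff.1 h) (by
      rw [ker_card, ((Cj.stab c _).inf (cj_fix c _)).card, (Cj.stab c _).card, cardO, ho.2,
        show KO ⊓ fixingSubgroup M24 (S 0x82402f : Set GolayPt) = K18 from ?_, card18]
      · rfl
      ext x
      rw [mem_K18]
      exact ⟨fun h p hp => h.2 ⟨p, hp⟩, fun h => ⟨Finset.ext fun p => by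
        rw [Finset.mem_smul_finset]
        exact ⟨fun ⟨q, a, b⟩ => b ▸ (h q a).symm ▸ a, fun a => ⟨p, a, h p a⟩⟩, fun p => h p p.2⟩⟩)
    rw [← h]
    ext e
    constructor
    · rintro ⟨g, hg, h1, rfl⟩
      refine ⟨⟨⟨g, hg⟩, Finset.ext fun p => ?_⟩, rfl⟩
      rw [← Finset.inv_smul_mem_iff, ← h1]
      exact iff_of_eq (congrArg (· ∈ _) (g.apply_symm_apply p))
    · rintro ⟨x, rfl⟩
      exact ⟨_, x.1.2, fun p => (iff_of_eq (congrArg (_ ∈ ·) (mem_stabilizer_iff.1 x.2).symm)).trans (mem_smul x.1), rfl⟩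

end Cfsg.Agent.S1553
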