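import Cfsg.Statements.S1554
import Cfsg.Agent.H1.Mc

set_option autoImplicit false
open scoped Pointwise
open Cfsg

namespace Cfsg.Agent.S1554

/-- An octad stabiliser is a split extension: the joint stabiliser of the octad and a point outside it is a complement to the pointwise stabiliser of the octad, and is isomorphic to the alternating group of degree 8. -/
theorem result (o : Finset Cfsg.GolayPt) (ho : o ∈ Cfsg.octads) (p : Cfsg.GolayPt) (hp : p ∉ o) : (Cfsg.M24 ⊓ fixingSubgroup (Equiv.Perm Cfsg.GolayPt) (o : Set Cfsg.GolayPt)) ⊓ (Cfsg.M24 ⊓ MulAction.stabilizer (Equiv.Perm Cfsg.GolayPt) o ⊓ MulAction.stabilizer (Equiv.Perm Cfsg.GolayPt) p) = ⊥ ∧ (Cfsg.M24 ⊓ fixingSubgroup (Equiv.Perm Cfsg.GolayPt) (o : Set Cfsg.GolayPt)) ⊔ (Cfsg.M24 ⊓ MulAction.stabilizer (Equiv.Perm Cfsg.GolayPt) o ⊓ MulAction.stabilizer (Equiv.Perm Cfsg.GolayPt) p) = (Cfsg.M24 ⊓ MulAction.stabilizer (Equiv.Perm Cfsg.GolayPt) o) ∧ Nonempty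 (↥(Cfsg.M24 ⊓ MulAction.stabilizer (Equiv.Perm Cfsg.GolayPt) o ⊓ MulAction.stabilizer (Equiv.Perm Cfsg.GolayPt) p) ≃* alternatingGroup (Fin 8)) := by
  open CfsgH1.Mg CfsgH1.Mc CfsgH7 CfsgH7.Gol MulAction in
  open scoped commutatorElement in
  · obtain ⟨c, rfl, rfl⟩ := opt_out ho hp
    have f0 : ∀ x ∈ KQ, (∀ a ∈ S 0x82402f, x • a = a) → x = 1 := fun x hx h => base7 x trivial (by
      simp only [List.mem_cons, List.not_mem_nil, or_false, forall_eq_or_imp, forall_eq]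
      exact ⟨hx.2, h _ (by decide +kernel), h _ (by decide +kernel), h _ (by decide +kernel), h _ (by decide +kernel),
        h _ (by decide +kernel), h _ (by decide +kernel)⟩)
    have cj := (Cj.stab c (S 0x82402f)).inf (Cj.stab c (px 4))
    have f1 := faith_conj cj f0
    refine ⟨eq_bot_iff.2 fun x hx => congrArg Subtype.val (f1 ⟨x, hx.1.1⟩ ⟨hx.2.1.2, hx.2.2⟩ fun a ha => hx.1.2 ⟨a, ha⟩),
      le_antisymm (sup_le (fun x hx => ⟨hx.1, Finset.ext fun p => ?_⟩) inf_le_left) fun x hx => ?_, ?_⟩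
    · rw [Finset.mem_smul_finset]
      exact ⟨fun ⟨q, a, b⟩ => b ▸ (show x • q = q from hx.2 ⟨q, a⟩).symm ▸ a, fun a => ⟨p, a, hx.2 ⟨p, a⟩⟩⟩
    · obtain ⟨a1, a2⟩ := hx
      have a3 : (open Pointwise in (⟨x, a1⟩ : M24) • c • S 0x82402f = c • S 0x82402f) := a2
      obtain ⟨k, hk, e⟩ := I.fam.tr RP mem18 (I.rb_mem 0x82402f).not [0,1,2,3] 4 rfl (by decide +kernel)
        (c⁻¹ • (⟨x, a1⟩ : M24) • c • px 4) trivial (by
          rw [Finset.inv_smul_mem_iff]
          exact fun h => hp ((mem_smul _).1 (a3.symm ▸ h)))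
      have h1 := (cj_fix c (S 0x82402f) k).1 fun a => mem_K18.1 hk a a.2
      have h2 : (c * k * c⁻¹) ∈ stabilizer M24 (open Pointwise in c • S 0x82402f) := (Cj.stab c _ k).1
        ((gen18 ▸ genW_le.2 (I.mem_stab RP (by decide +kernel)) : K18 ≤ KO) hk)
      have h3 := Subgroup.mul_mem _ (Subgroup.inv_mem _ h2) (mem_stabilizer_iff.2 a3)
      have h4 : ((c * k * c⁻¹)⁻¹ * ⟨x, a1⟩) • c • px 4 = c • px 4 := by
        rw [mul_smul, inv_smul_eq_iff, mul_smul, mul_smul, inv_smul_smul, e, smul_inv_smul]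
      have key : ∀ u y : M24, u ∈ fixingSubgroup M24 ((open Pointwise in c • S 0x82402f : Finset GolayPt) : Set GolayPt) →
          y ∈ stabilizer M24 (open Pointwise in c • S 0x82402f) → y • c • px 4 = c • px 4 → (u * y).1 ∈ _ ⊔ _ :=
        fun u y b1 b2 b3 => Subgroup.mul_mem_sup
          (S := M24 ⊓ fixingSubgroup (Equiv.Perm GolayPt) ((open Pointwise in c • S 0x82402f : Finset GolayPt) : Set GolayPt))
          (T := M24 ⊓ stabilizer (Equiv.Perm GolayPt) (open Pointwise in c • S 0x82402f) ⊓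
            stabilizer (Equiv.Perm GolayPt) (c • px 4)) ⟨u.2, b1⟩ ⟨⟨y.2, b2⟩, b3⟩
      have := key _ _ h1 h3 h4
      rwa [mul_inv_cancel_left] at this
    · refine iso_alt ?_ ?_ ho.2 ?_
      · exact fun x hx => hx.1.2
      · exact fun x hx h => congrArg Subtype.val (f1 ⟨x, hx.1.1⟩ ⟨hx.1.2, hx.2⟩ h)
      refine (congrArg (· * 2) ((card_down ?_).trans (cj.card.trans cardQ))).trans rfl
      exact fun x => ⟨fun h => ⟨h.1.1, h.1.2, h.2⟩, fun ⟨a, b, d⟩ => ⟨⟨a, b⟩, d⟩⟩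

end Cfsg.Agent.S1554
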