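import Cfsg.Statements.S1555
import Mathlib
import Cfsg.Agent.H7.Gol.Tr2

set_option autoImplicit false
open scoped Pointwise
open Cfsg

namespace Cfsg.Agent.S1555

open CfsgH7 CfsgH7.Gol MulAction
open scoped Pointwise

/-- Bottom row of the Leech triangle: an octad is met in a prescribed pair of its points by exactly 16 octads and in a prescribed 4-subset by exactly 4 octads. -/
theorem result (o : Finset Cfsg.GolayPt) (ho : o ∈ Cfsg.octads) (s : Finset Cfsg.GolayPt) (hs : s ⊆ o) : (s.card = 2 → {o' : Finset Cfsg.GolayPt | o' ∈ Cfsg.octads ∧ o ∩ o' = s}.ncard = 16) ∧ (s.card = 4 → {o' : Finset Cfsg.GolayPt | o' ∈ Cfsg.octads ∧ o ∩ o' = s}.ncard = 4) := by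
  constructor
  · intro h
    obtain ⟨c, rfl, rfl⟩ := osets to2 (by decide) ho hs h
    exact FC.ncard_tr ((rbW 8).and ((rbS 0x800001).and (rbI 0x82402f 2))) c (fun y => by
      rw [Set.mem_setOf_eq, moct, inter_eq_iff hs, h, sub_smul, card_inter_smul, mem_oct, and_assoc]; rfl) 12
      (by decide +kernel)
  · intro h
    obtain ⟨c, rfl, rfl⟩ := osets to4 (by decide) ho hs h
    exact FC.ncard_tr ((rbW 8).and ((rbS 0x800007).and (rbI 0x82402f 4))) c (fun y => by
      rw [Set.mem_setOf_eq, moct, inter_eq_iff hs, h, sub_smul, card_inter_smul, mem_oct, and_assoc]; rfl) 12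
      (by decide +kernel)

end Cfsg.Agent.S1555
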