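import Cfsg.Statements.S1556
import Mathlib
import Cfsg.Agent.H7.Gol.Tr2

set_option autoImplicit false
open scoped Pointwise
open Cfsg

namespace Cfsg.Agent.S1556

open CfsgH7 CfsgH7.Gol MulAction
open scoped Pointwise

/-- Two octads meeting a fixed octad in equally many points are in the same orbit of its stabiliser. -/
theorem result (o o' o'' : Finset Cfsg.GolayPt) (ho : o ∈ Cfsg.octads) (ho' : o' ∈ Cfsg.octads) (ho'' : o'' ∈ Cfsg.octads) (h : (o ∩ o').card = (o ∩ o'').card) : ∃ g : Equiv.Perm Cfsg.GolayPt, g ∈ Cfsg.M24 ∧ g • o = o ∧ g • o' = o'' := by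
  obtain ⟨c, rfl⟩ := oct_tr ho
  obtain ⟨y, rfl⟩ := ex_smul c o'
  obtain ⟨z, rfl⟩ := ex_smul c o''
  rw [moct] at ho' ho''
  rw [card_inter_smul, card_inter_smul] at h
  obtain ⟨k, hk, e⟩ := oct_pair_tr _ (Nat.lt_succ_of_le ((Finset.card_le_card Finset.inter_subset_right).trans
    ho'.2.le)) y ho'.1 z ho''.1 ⟨ho'.2, rfl⟩ ⟨ho''.2, h.symm⟩
  exact ⟨_, (c * k * c⁻¹).2, cj_smul c hk, cj_smul c e⟩

end Cfsg.Agent.S1556
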