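import Cfsg.Statements.S1558
import Cfsg.Agent.H1.Mi

set_option autoImplicit false
open scoped Pointwise
open Cfsg

namespace Cfsg.Agent.S1558

section
open CfsgH1.Mg CfsgH1.Mc CfsgH1.Mh CfsgH1.Mi CfsgH7 CfsgH7.Gol MulAction
open scoped commutatorElement

noncomputable abbrev K1 : Subgroup M24 := KT ⊓ stabilizer M24 (S 0x82402f)

def W1 : List (List Nat) := [[4,0,0,0,4,4],[5,0,4,1,1,1,2,1]]

theorem mem1 : ∀ w ∈ W1, wprod gm w ∈ K1 := mem_inf' (RT.mem_stab (by decide +kernel)) (I.mem_stab RP (by decide +kernel))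

theorem card1 : Nat.card K1 = 21504 :=
  RC.card_stab FC.inj genT cardT ⟨47, [2,0], 3⟩ 12 (cpt_at 47 0x82402f (by decide +kernel)) (by decide +kernel)

theorem gen1 : genW gm W1 = K1 :=
  RP.gen_of I.inj mem1 card1 [⟨4, [[0],[2]], [0,1,0,1,0,0,0], 16⟩,
  ⟨0, [[0,0,2],[0,2,0]], [0,0,1,0,0], 8⟩,
  ⟨8, [[0,3,1,2],[1,2,0,3,3]], [0,1,0,0], 8⟩,
  ⟨1, [[0,0,3,1,3,3,0,3]], [0,0,0,0,0,0], 7⟩,
  ⟨2, [[1,1,3,3,0,3,1,2,2]], [0,0], 3⟩] 5 (by decide +kernel)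

noncomputable abbrev K2a : Subgroup M24 := K1 ⊓ stabilizer M24 (S 0x149f00)

def W2a : List (List Nat) := [[5,0,4,1,1,1,2,1],[0,4,1,1,4,1,4,0,4,0]]

theorem mem2a : ∀ w ∈ W2a, wprod gm w ∈ K2a := mem_inf' (mem_inf' (RT.mem_stab (by decide +kernel)) (I.mem_stab RP (by decide +kernel))) (I.mem_stab RP (by decide +kernel))

theorem card2a : Nat.card K2a = 10752 :=
  RC.card_stab FC.inj gen1 card1 ⟨3840, [0], 2⟩ 12 (cpt_at 3840 0x149f00 (by decide +kernel)) (by decide +kernel)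

theorem gen2a : genW gm W2a = K2a :=
  RP.gen_of I.inj mem2a card2a [⟨0, [[0],[2]], [0,1,0,0,0], 8⟩,
  ⟨4, [[1,2],[1,3]], [0,0,1,0,0], 8⟩,
  ⟨8, [[1,2,1,3],[2,1,2,0,2]], [0,1,0,0,1], 8⟩,
  ⟨1, [[1,1,2,0,0,2,0]], [0,0,0,0,0,0], 7⟩,
  ⟨2, [[1,2,1,3,1,1,2,0,3,1,2]], [0,0], 3⟩] 5 (by decide +kernel)

noncomputable abbrev K3a : Subgroup M24 := K2a ⊓ stabilizer M24 (xpt 252)

def W3a : List (List Nat) := [[0,4,4,0,2,1,1,4,4,0],[2,5,1,1,5,0,0,2,1,4,0],[1,2,0,4,1,2,0,5,5,1,5]]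

theorem mem3a : ∀ w ∈ W3a, wprod gm w ∈ K3a := mem_inf' (mem_inf' (mem_inf' (RT.mem_stab (by decide +kernel)) (I.mem_stab RP (by decide +kernel))) (I.mem_stab RP (by decide +kernel))) (RX.mem_stab (by decide +kernel))

theorem card3a : Nat.card K3a = 1536 :=
  RX.card_stab FX.inj gen2a card2a ⟨252, [0,0,1,0,0], 7⟩ 11 rfl (by decide +kernel)

theorem gen3a : genW gm W3a = K3a :=
  RP.gen_of I.inj mem3a card3a [⟨0, [[0],[4]], [0,1,0,0,1], 8⟩,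
  ⟨4, [[0,3],[0,0,2]], [0,1,0,0,1,0], 8⟩,
  ⟨8, [[0,2,1,2],[0,0,4,2,5]], [0,1,0,1], 8⟩,
  ⟨1, [[0,2,5,1,2,5]], [0,0], 3⟩] 5 (by decide +kernel)

noncomputable abbrev K4 : Subgroup M24 := K3a ⊓ stabilizer M24 (xpt 725)

def W4 : List (List Nat) := [[0,4,1,1,4,1,4,0,4,0],[1,2,0,4,1,2,0,5,5,1,5],[4,4,1,4,1,1,1,4,1,4,1,4,4],[2,1,1,4,4,1,2,0,5,5,0,0,2],[2,1,5,0,0,0,0,5,1,1,5,1,5,5],[1,5,5,1,5,0,0,4,1,1,1,4,1,5]]

theorem mem4 : ∀ w ∈ W4, wprod gm w ∈ K4 := mem_inf' (mem_inf' (mem_inf' (mem_inf' (RT.mem_stab (by decide +kernel)) (I.mem_stab RP (by decide +kernel))) (I.mem_stab RP (by decide +kernel))) (RX.mem_stab (by decide +kernel))) (RX.mem_stab (by decide +kernel))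

theorem card4 : Nat.card K4 = 256 :=
  RX.card_stab FX.inj gen3a card3a ⟨725, [0,0,1,0], 6⟩ 11 rfl (by decide +kernel)

theorem gen4 : genW gm W4 = K4 :=
  RP.gen_of I.inj mem4 card4 [⟨0, [[2],[8]], [0,1,0,0], 8⟩,
  ⟨4, [[4],[10],[0,0]], [0,1,2], 8⟩,
  ⟨8, [[0,2,4,2],[0,6,2,10]], [0,1], 4⟩] 5 (by decide +kernel)

noncomputable abbrev K5 : Subgroup M24 := K4 ⊓ stabilizer M24 (xpt 1033)

def W5 : List (List Nat) := [[5,1,1,1,4,1,4,1,5,1,4,4],[0,0,5,0,0,0,4,1,4,0,2,4,1],[0,0,4,0,4,4,1,5,1,2,0,0,4],[4,4,1,4,1,1,1,4,1,4,1,4,4],[2,1,1,4,4,1,2,0,5,5,0,0,2],[2,1,5,0,5,5,1,5,5,0,4,0,0,5]]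

theorem mem5 : ∀ w ∈ W5, wprod gm w ∈ K5 := mem_inf' (mem_inf' (mem_inf' (mem_inf' (mem_inf' (RT.mem_stab (by decide +kernel)) (I.mem_stab RP (by decide +kernel))) (I.mem_stab RP (by decide +kernel))) (RX.mem_stab (by decide +kernel))) (RX.mem_stab (by decide +kernel))) (RX.mem_stab (by decide +kernel))

theorem card5 : Nat.card K5 = 64 :=
  RX.card_stab FX.inj gen4 card4 ⟨1033, [0,1], 4⟩ 11 rfl (by decide +kernel)

theorem gen5 : genW gm W5 = K5 :=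
  RP.gen_of I.inj mem5 card5 [⟨0, [[2],[4],[10]], [0,1,2], 8⟩,
  ⟨4, [[0],[6],[2,4,8]], [0,1,2], 8⟩] 5 (by decide +kernel)

theorem full : ∀ e : Equiv.Perm (tpt 291), ∃ x ∈ KT, ∀ a : tpt 291, (open Pointwise in x • (a : Finset GolayPt)) = e a :=
  tt_perm (fun _ h => mem_stabilizer_iff.1 h) (tt_chain (fam_msk [0x149f00, 0x6920d0, 0x82402f] (by decide +kernel)
    (A := tpt 291) (by
      rw [show tpt 291 = _ from I.ppt_eq (ms := [(0x149f00, 8), (0x6920d0, 4), (0x82402f, 0)]) (by decide +kernel)]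
      simp [eq_comm])) (rep_msk WT _ [(Net.cons (nat_lit 1) (nat_lit 0x1) Net.nil),
  Net.nil,
  (Net.cons (nat_lit 2) (nat_lit 0x3) (Net.cons (nat_lit 1) (nat_lit 0x4) (Net.cons (nat_lit 2) (nat_lit 0x2) Net.nil)))] (by decide +kernel)) (Rb.all _ _)
    (mem_sub memT) (fun _ h => ⟨h, trivial⟩) [⟨0, [[4]], [0,0], 3⟩,
  ⟨1, [[0,5]], [0], 2⟩,
  ⟨2, [], [], 1⟩] (pre := []) trivial (by decide +kernel)) trio0.1.symm

theorem hom : ∃ ψ : KT →* GL (Fin 3) (ZMod 2) × Equiv.Perm (Fin 3), ψ.ker = K5.subgroupOf KT := by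
  obtain ⟨ψ, -, h, -⟩ := (RX.onList WT [252,725,1033,1112,1194,1259,1325] 7 [(Net.cons (nat_lit 4) (nat_lit 0x5) (Net.cons (nat_lit 2) (nat_lit 0x33) (Net.cons (nat_lit 1) (nat_lit 0x41) (Net.cons (nat_lit 2) (nat_lit 0x22) Net.nil)))),
  (Net.cons (nat_lit 4) (nat_lit 0x3) (Net.cons (nat_lit 2) (nat_lit 0x22) (Net.cons (nat_lit 1) (nat_lit 0x41) (Net.cons (nat_lit 2) (nat_lit 0x22) Net.nil)))),
  (Net.cons (nat_lit 4) (nat_lit 0xc) (Net.cons (nat_lit 2) (nat_lit 0x12) (Net.cons (nat_lit 1) (nat_lit 0x44) (Net.cons (nat_lit 2) (nat_lit 0x22) (Net.cons (nat_lit 4) (nat_lit 0xa) Net.nil)))))] (by decide +kernel)).hom'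
    (rep_list ([⟨!![1, 0, 1; 1, 1, 1; 0, 0, 1], !![1, 0, 1; 1, 1, 0; 0, 0, 1], by decide, by decide⟩, ⟨!![1, 1, 1; 0, 0, 1; 0, 1, 1], !![1, 0, 1; 0, 1, 1; 0, 1, 0], by decide, by decide⟩, ⟨!![0, 1, 0; 1, 1, 0; 0, 0, 1], !![1, 1, 0; 1, 0, 0; 0, 0, 1], by decide, by decide⟩] : List (GL (Fin 3) (ZMod 2)))
      ([![0, 0, 1], ![0, 1, 0], ![1, 0, 0], ![1, 1, 1], ![1, 1, 0], ![1, 0, 1], ![0, 1, 1]] : List (Fin 3 → ZMod 2)) 0 _
      (by decide +kernel) (by decide +kernel)) (inj_nth FX.inj _ _ (by decide +kernel)) (by decide +kernel)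
    (gl_faith (by decide +kernel)) (gen_sub gm genT)
  refine ⟨ψ.prod (((tpt 291).equivFinOfCardEq trio0.1).permCongrHom.toMonoidHom.comp
    (CfsgH1.Mg.ind KT (tpt 291) fun _ h => mem_stabilizer_iff.1 h)), ker_eq _ fun x => ?_⟩
  rw [MonoidHom.prod_apply, Prod.mk_eq_one, h, MonoidHom.comp_apply, MulEquiv.coe_toMonoidHom, EmbeddingLike.map_eq_one_iff,
    ← MonoidHom.mem_ker, ind_ker]
  refine ⟨fun ⟨a, b⟩ => ⟨⟨⟨⟨⟨x.2, b _ (by rw [T0_eq]; simp)⟩, b _ (by rw [T0_eq]; simp)⟩, a 0 (by norm_num)⟩,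
    a 1 (by norm_num)⟩, a 2 (by norm_num)⟩, fun a => ⟨fun i hi => ?_, ?_⟩⟩
  · exact (gen5 ▸ genW_le.2 (RX.mem_stab (by revert i; decide +kernel)) : K5 ≤ stabilizer M24 _) a
  · have a1 := mem_stabilizer_iff.1 a.1.1.1.1.2
    have a2 := mem_stabilizer_iff.1 a.1.1.1.2
    rw [T0_eq]
    simp only [Finset.mem_insert, Finset.mem_singleton, forall_eq_or_imp, forall_eq]
    exact ⟨a1, a2, by rw [smul_compl, Finset.smul_finset_union, a1, a2]⟩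

end

/-- Structure of a trio stabiliser: every permutation of the three octads is induced, and there is a normal subgroup of order 64 of elements squaring to the identity whose quotient is isomorphic to the product of GL(3, 2) with the symmetric group of degree 3. -/
theorem result (T : Finset (Finset Cfsg.GolayPt)) (hT : T ∈ Cfsg.trios) : (∀ e : Equiv.Perm ↥T, ∃ g ∈ MulAction.stabilizer Cfsg.M24 T, ∀ o : ↥T, (g : Equiv.Perm Cfsg.GolayPt) • (o : Finset Cfsg.GolayPt) = ((e o : ↥T) : Finset Cfsg.GolayPt)) ∧ ∃ (N : Subgroup ↥(MulAction.stabilizer Cfsg.M24 T)) (_ : N.Normal), Nat.card N = 64 ∧ (∀ x ∈ N, x * x = 1) ∧ Nonempty (↥(MulAction.stabilizer Cfsg.M24 T) ⧸ N ≃* GL (Fin 3) (ZMod 2) × Equiv.Perm (Fin 3)) := by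
  open CfsgH1.Mg CfsgH1.Mc CfsgH1.Mh CfsgH1.Mi CfsgH7 CfsgH7.Gol MulAction in
  open scoped commutatorElement in
  · obtain ⟨c, rfl⟩ := trio_tr hT
    refine ⟨cj_perm c full, ?_⟩
    obtain ⟨ψ, h⟩ := hom
    have h1 : Nat.card ψ.ker = 64 := by rw [h, card_subOf (H := K5) fun _ a => a.1.1.1.1.1, card5]
    obtain ⟨e1⟩ := quot_iso ψ (range_top ψ (a := 1008) cardT h1 (by norm_num) (by
      rw [Nat.card_prod, Matrix.card_GL_field, Nat.card_perm]; simp [Fin.prod_univ_succ]; rfl))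
    obtain ⟨M, hM, ⟨e⟩, ⟨e2⟩⟩ := normal_congr (Cj.stab c (tpt 291)).equiv ψ.ker
    refine ⟨M, hM, by rw [← Nat.card_congr e.toEquiv, h1],
      fun x hx => (sq x).symm.trans (sq_congr e (fun x hx => (sq x).trans (Subtype.ext ?_)) x hx), ⟨e2.symm.trans e1⟩⟩
    rw [h, ← gen5] at hx
    exact sq_of_gens (base7.satP RP (by decide) (by decide +kernel)) _ hx

end Cfsg.Agent.S1558
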