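import Cfsg.Statements.S1559
import Mathlib
import Cfsg.Agent.H7.Gol.Tr2

set_option autoImplicit false
open scoped Pointwise
open Cfsg

namespace Cfsg.Agent.S1559

open CfsgH7 CfsgH7.Gol MulAction
open scoped Pointwise

/-- A trio stabiliser has five orbits on the 3795 trios, of sizes 1, 42, 56, 1008, 2688; and the stabiliser is a maximal proper subgroup. -/
theorem result (T : Finset (Finset Cfsg.GolayPt)) (hT : T ∈ Cfsg.trios) : ∃ X₁ ∈ Cfsg.trios, ∃ X₂ ∈ Cfsg.trios, ∃ X₃ ∈ Cfsg.trios, ∃ X₄ ∈ Cfsg.trios, (MulAction.orbit ↥(MulAction.stabilizer Cfsg.M24 T) X₁).ncard = 42 ∧ (MulAction.orbit ↥(MulAction.stabilizer Cfsg.M24 T) X₂).ncard = 56 ∧ (MulAction.orbit ↥(MulAction.stabilizer Cfsg.M24 T) X₃).ncard = 1008 ∧ (MulAction.orbit ↥(MulAction.stabilizer Cfsg.M24 T) X₄).ncard = 2688 ∧ Cfsg.trios = {T} ∪ MulAction.orbit ↥(MulAction.stabilizer Cfsg.M24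 T) X₁ ∪ MulAction.orbit ↥(MulAction.stabilizer Cfsg.M24 T) X₂ ∪ MulAction.orbit ↥(MulAction.stabilizer Cfsg.M24 T) X₃ ∪ MulAction.orbit ↥(MulAction.stabilizer Cfsg.M24 T) X₄ ∧ IsCoatom (MulAction.stabilizer Cfsg.M24 T) := by
  obtain ⟨c, rfl⟩ := trio_tr hT
  obtain ⟨a, ha, b, hb, d, hd, e, he, h1, h2, h3, h4, h5⟩ := ((FT.dec RT genT (Rb.all _ _) [⟨291, [], 1⟩,
    ⟨21, [0,1,2,0,1,0,0,1,0], 42⟩,
    ⟨123, [0,1,2,0,2,1,2,1], 56⟩,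
    ⟨9, [0,1,2,0,1,2,0,1,0,2,0,1,0,2,0], 1008⟩,
    ⟨0, [0,1,2,0,1,0,2,1,0,2,0,1,0,2,0,1,1], 2688⟩] 12 (by decide +kernel) (A := Cfsg.trios) (fun y => by simp)).conj (Cj.stab c _) fun y => mtrio c).four' le_rfl
  exact ⟨a, ha, b, hb, d, hd, e, he, h1, h2, h3, h4, h5, (Cj.stab c _).coatom maxT.coatom⟩

end Cfsg.Agent.S1559
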