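import Cfsg.Statements.S1561
import Mathlib
import Cfsg.Agent.H7.Gol.Tr2

set_option autoImplicit false
open scoped Pointwise
open Cfsg

namespace Cfsg.Agent.S1561

open CfsgH7 CfsgH7.Gol MulAction
open scoped Pointwise

/-- Two dodecads meeting a fixed dodecad in equally many points lie in one orbit of its stabiliser. -/
theorem result (d d' d'' : Finset Cfsg.GolayPt) (hd : d ∈ Cfsg.dodecads) (hd' : d' ∈ Cfsg.dodecads) (hd'' : d'' ∈ Cfsg.dodecads) (h : (d ∩ d').card = (d ∩ d'').card) : ∃ g : Equiv.Perm Cfsg.GolayPt, g ∈ Cfsg.M24 ∧ g • d = d ∧ g • d' = d'' := by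
  obtain ⟨c, rfl⟩ := dod_tr hd
  obtain ⟨y, rfl⟩ := ex_smul c d'
  obtain ⟨z, rfl⟩ := ex_smul c d''
  rw [mdod] at hd' hd''
  rw [card_inter_smul, card_inter_smul] at h
  obtain ⟨k, hk, e⟩ := dod_pair_tr _ (Nat.lt_succ_of_le ((Finset.card_le_card Finset.inter_subset_right).trans
    hd'.2.le)) y hd'.1 z hd''.1 ⟨hd'.2, rfl⟩ ⟨hd''.2, h.symm⟩
  exact ⟨_, (c * k * c⁻¹).2, cj_smul c hk, cj_smul c e⟩

end Cfsg.Agent.S1561
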