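import Cfsg.Statements.S1562
import Mathlib
import Cfsg.Agent.H7.Gol.Tr2

set_option autoImplicit false
open scoped Pointwise
open Cfsg

namespace Cfsg.Agent.S1562

open CfsgH7 CfsgH7.Gol MulAction
open scoped Pointwise

abbrev r1 := rb_disj (P := P3) rfl 2024 0x800003

abbrev r2 := rb_exOct (P := P3) rfl 2024 0x800003 [0x8ea003, 0xe0900b, 0xc12017, 0x82402f, 0xd40063, 0x907083, 0xa800c7, 0xb30103, 0x8081b3, 0x821253, 0x85028b, 0xc84303, 0xa44413, 0x891423, 0x80254b, 0x908607, 0x98081b, 0x81c843, 0x841907, 0xa02a23, 0xc20c83] (oct_list _ _ (by decide +kernel))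

/-- Orbits of a triad stabiliser on the triads disjoint from it: the 210 triads inside a common octad with it form one orbit and the remaining 1120 another. -/
theorem result (T : Finset Cfsg.GolayPt) (hT : T.card = 3) : {U : Finset Cfsg.GolayPt | U.card = 3 ∧ Disjoint T U ∧ (∃ o ∈ Cfsg.octads, T ∪ U ⊆ o)}.ncard = 210 ∧ {U : Finset Cfsg.GolayPt | U.card = 3 ∧ Disjoint T U ∧ ¬ (∃ o ∈ Cfsg.octads, T ∪ U ⊆ o)}.ncard = 1120 ∧ ∀ U U' : Finset Cfsg.GolayPt, U.card = 3 → U'.card = 3 → Disjoint T U → Disjoint T U' → ((∃ o ∈ Cfsg.octads, T ∪ U ⊆ o) ↔ (∃ o ∈ Cfsg.octads, T ∪ U' ⊆ o)) → ∃ g : Equiv.Perm Cfsg.GolayPt, g ∈ Cfsg.M24 ∧ g • T = T ∧ g • U = U' := by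
  obtain ⟨c, rfl⟩ := sets3 hT
  refine ⟨F3.ncard_tr (r1.and r2) c (fun y => ?_) 11 (by decide +kernel),
    F3.ncard_tr (r1.andn r2) c (fun y => ?_) 11 (by decide +kernel), fun y z hy hz h1 h2 h3 => ?_⟩
  · rw [Set.mem_setOf_eq, Finset.card_smul_finset, disj_smul, ← Finset.smul_finset_union, exOct_smul]; rfl
  · rw [Set.mem_setOf_eq, Finset.card_smul_finset, disj_smul, ← Finset.smul_finset_union, exOct_smul]; rfl
  obtain ⟨y, rfl⟩ := ex_smul c y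
  obtain ⟨z, rfl⟩ := ex_smul c z
  rw [Finset.card_smul_finset] at hy hz
  rw [disj_smul] at h1 h2
  simp only [← Finset.smul_finset_union, exOct_smul] at h3
  by_cases h : ∃ o ∈ octads, S 0x800003 ∪ y ⊆ o
  · obtain ⟨k, hk, e⟩ := F3.tr2 R3 mem3 (r1.and r2) [0,0,1,0,0,1,0,0,1,0,0,1,0,0,1,0] 14 (by decide +kernel) y hy z hz ⟨h1, h⟩ ⟨h2, h3.1 h⟩
    exact ⟨_, (c * k * c⁻¹).2, cj_smul c hk, cj_smul c e⟩
  · obtain ⟨k, hk, e⟩ := F3.tr2 R3 mem3 (r1.andn r2) [0,0,1,0,0,1,0,0,1,0,0,1,0,0,1,0,0,1,0,0,1,0,0,1] 3 (by decide +kernel) y hy z hz ⟨h1, h⟩ ⟨h2, mt h3.2 h⟩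
    exact ⟨_, (c * k * c⁻¹).2, cj_smul c hk, cj_smul c e⟩

end Cfsg.Agent.S1562
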