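import Cfsg.Statements.S1565
import Mathlib
import Cfsg.Agent.H7.Gol.Tr2

set_option autoImplicit false
open scoped Pointwise
open Cfsg

namespace Cfsg.Agent.S1565

open CfsgH7 CfsgH7.Gol MulAction
open scoped Pointwise

/-- The stabiliser of an octad is a maximal proper subgroup of the group of the length-24 code. -/
theorem result (o : Finset Cfsg.GolayPt) (ho : o ∈ Cfsg.octads) : IsCoatom (MulAction.stabilizer Cfsg.M24 o) := by
  obtain ⟨c, rfl⟩ := oct_tr ho
  exact (Cj.stab c _).coatom maxO.coatom

end Cfsg.Agent.S1565
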