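import Cfsg.Statements.S1568
import Mathlib
import Cfsg.Agent.H7.Lee.Mono

set_option autoImplicit false
open Cfsg

namespace Cfsg.Agent.S1568

open Cfsg CfsgH7 CfsgH7.Gol CfsgH7.Lee MulAction
open scoped Pointwise

attribute [-simp] Fintype.sum_option

theorem cex (a : ℤ) {c : Nat} (h : c + (cntW (cnt2 (T8.filter fun t => |t| ≠ a) 48 0) +
    cntW (cnt2 (T8.filter fun t => |t| ≠ a) 48 1)) = 16773120) :
    {x : V | x ∈ Λ ∧ sqNorm x = 48 ∧ ∃ i, |x i| = a}.ncard = c := by
  rw [← count ((show T8.Nodup by decide).filter _) (fun t ht =>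
    (show ∀ t ∈ T8, -8 ≤ t ∧ t ≤ 8 by decide) t (List.mem_filter.1 ht).1), ← n48,
    ← Set.ncard_inter_add_ncard_diff_eq_ncard {x : V | x ∈ Λ ∧ sqNorm x = 48} {x : V | ∃ i, |x i| = a}
      ((finite_norm 48).subset fun _ h => h.2)] at h
  have e : {x : V | x ∈ Λ ∧ sqNorm x = (48 : Nat) ∧ ∀ i, x i ∈ T8.filter fun t => |t| ≠ a} =
      {x : V | x ∈ Λ ∧ sqNorm x = 48} \ {x : V | ∃ i, |x i| = a} := by
    ext x
    simp only [Set.mem_setOf_eq, Set.mem_diff, List.mem_filter, decide_eq_true_eq, not_exists, and_assoc]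
    refine and_congr_right fun _ => and_congr_right fun hn => forall_congr' fun i => ⟨fun h => h.2, fun h => ⟨?_, h⟩⟩
    have := sq_le x i
    have : x i ≤ 8 ∧ -8 ≤ x i := by constructor <;> push_cast at hn <;> nlinarith
    simp only [T8, List.mem_cons, List.not_mem_nil]
    omega
  rw [e, Nat.add_right_cancel_iff] at h
  rw [h]
  congr 1
  ext x
  simp [and_assoc]

/-- Shape census of the lattice vectors of sum of squares 48 (customary norm 6): the four families (2^12, 0^12), (±3^3, ±1^21), (±4, ±2^8, 0^15) and (±5, ±1^23) have 5275648, 8290304, 3108864 and 98304 members. -/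
theorem result : {x : Cfsg.GolayPt → ℤ | x ∈ Cfsg.leechLattice ∧ Cfsg.sqNorm x = 48 ∧ ∀ i, x i = 0 ∨ x i = 2 ∨ x i = -2}.ncard = 5275648 ∧ {x : Cfsg.GolayPt → ℤ | x ∈ Cfsg.leechLattice ∧ Cfsg.sqNorm x = 48 ∧ ∃ i j k, i ≠ j ∧ j ≠ k ∧ i ≠ k ∧ |x i| = 3 ∧ |x j| = 3 ∧ |x k| = 3}.ncard = 8290304 ∧ {x : Cfsg.GolayPt → ℤ | x ∈ Cfsg.leechLattice ∧ Cfsg.sqNorm x = 48 ∧ ∃ i, |x i| = 4}.ncard = 3108864 ∧ {x : Cfsg.GolayPt → ℤ | x ∈ Cfsg.leechLattice ∧ Cfsg.sqNorm x = 48 ∧ ∃ i, |x i| = 5}.ncard = 98304 := by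
  refine ⟨?_, ?_, ?_, ?_⟩
  · refine Eq.trans ?_ ((count (T := [0, 2, -2]) (by decide) (by decide) 48).trans (by decide +kernel))
    simp
  · refine Eq.trans ?_ ((count (T := [1, -1, 3, -3]) (by decide) (by decide) 48).trans (by decide +kernel))
    congr 1
    ext x
    refine and_congr_right fun hx => and_congr_right fun hn => ?_
    have hn : sqNorm x = 48 := hn
    have h1 := (mem_iff.1 hx).1
    simp only [List.mem_cons, List.not_mem_nil, or_false]
    constructor
    · rintro ⟨i, j, k, a1, a2, a3, b1, b2, b3⟩ l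
      by_contra hc
      have d1 := (abs_eq (by norm_num)).1 b1
      have d2 := (abs_eq (by norm_num)).1 b2
      have d3 := (abs_eq (by norm_num)).1 b3
      have := h1 i
      have := h1 l
      have c1 : l ≠ i := by rintro rfl; omega
      have c2 : l ≠ j := by rintro rfl; omega
      have c3 : l ≠ k := by rintro rfl; omega
      have h2 : ∑ p ∈ ({l, i, j, k} : Finset GolayPt), x p ^ 2 ≤ sqNorm x :=
        Finset.sum_le_sum_of_subset_of_nonneg (Finset.subset_univ _) fun _ _ _ => sq_nonneg _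
      rw [Finset.sum_insert (by simp [*]), Finset.sum_insert (by simp [*]), Finset.sum_pair a2, ← sq_abs (x i),
        ← sq_abs (x j), ← sq_abs (x k), b1, b2, b3] at h2
      have : x l ≤ -5 ∨ 5 ≤ x l := by omega
      rcases this with h | h <;> nlinarith
    · intro h
      have h2 : sqNorm x = 24 + 8 * ((Finset.univ.filter fun i => |x i| = 3).card : ℤ) := by
        rw [sqNorm, Finset.card_filter, Nat.cast_sum, Finset.mul_sum,
          show (24 : ℤ) = ∑ _i : GolayPt, 1 by simp [cardP], ← Finset.sum_add_distrib]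
        exact Finset.sum_congr rfl fun i _ => by rcases h i with e | e | e | e <;> rw [e] <;> rfl
      obtain ⟨i, j, k, a1, a2, a3, e⟩ := Finset.card_eq_three.1
        (show (Finset.univ.filter fun i => |x i| = 3).card = 3 by omega)
      have h3 : ∀ p ∈ ({i, j, k} : Finset GolayPt), |x p| = 3 := fun p hp =>
        (Finset.mem_filter.1 (e.symm.subset hp)).2
      exact ⟨i, j, k, a1, a3, a2, h3 _ (by simp), h3 _ (by simp), h3 _ (by simp)⟩
  · exact cex 4 (by decide +kernel)
  · exact cex 5 (by decide +kernel)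

end Cfsg.Agent.S1568
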