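import Cfsg.Statements.S1569
import Mathlib
import Cfsg.Agent.H7.Lee.Mono

set_option autoImplicit false
open scoped Pointwise
open Cfsg

namespace Cfsg.Agent.S1569

open Cfsg CfsgH7 CfsgH7.Gol CfsgH7.Lee MulAction
open scoped Pointwise

attribute [-simp] Fintype.sum_option

/-- The cross through a lattice vector of customary norm 8 has exactly 48 members. -/
theorem result (x : Cfsg.GolayPt → ℤ) (hx : x ∈ Cfsg.leechLattice) (hxn : Cfsg.sqNorm x = 64) : (Cfsg.cross x).ncard = 48 := by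
  rw [← shortL.2 ⟨x, hx⟩ hxn, ← Set.ncard_image_of_injective _ Subtype.val_injective]
  congr 1
  ext y
  constructor
  · rintro ⟨h1, h2, h3⟩
    exact ⟨⟨y, h1⟩, ⟨h2.trans hxn, cong_iff.2 h3⟩, rfl⟩
  · rintro ⟨y, h, rfl⟩
    exact ⟨y.2, h.1.trans hxn.symm, cong_iff.1 h.2⟩

end Cfsg.Agent.S1569
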