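import Cfsg.Statements.S1573
import Mathlib
import Cfsg.Agent.H7.Lee.Cfg

set_option autoImplicit false
open Cfsg

namespace Cfsg.Agent.S1573

open CfsgH7 CfsgH7.Lee

/-- Census of minimal vectors by inner product with a fixed minimal vector: 4600 have customary inner product −2, 47104 have −1, and 93150 are orthogonal. -/
theorem result (v : Cfsg.GolayPt → ℤ) (hv : v ∈ Cfsg.leechLattice) (hvn : Cfsg.sqNorm v = 32) : {w : Cfsg.GolayPt → ℤ | w ∈ Cfsg.leechLattice ∧ Cfsg.sqNorm w = 32 ∧ Cfsg.dotInt v w = -16}.ncard = 4600 ∧ {w : Cfsg.GolayPt → ℤ | w ∈ Cfsg.leechLattice ∧ Cfsg.sqNorm w = 32 ∧ Cfsg.dotInt v w = -8}.ncard = 47104 ∧ {w : Cfsg.GolayPt → ℤ | w ∈ Cfsg.leechLattice ∧ Cfsg.sqNorm w = 32 ∧ Cfsg.dotInt v w = 0}.ncard = 93150 := by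
  obtain ⟨c, h⟩ := tr32 nU (y := ⟨v, hv⟩) hvn
  obtain rfl : v = ((c • uU : Λ) : V) := by rw [h]
  have key : ∀ d : ℤ, {w : V | w ∈ Λ ∧ sqNorm w = 32 ∧ dotInt ((c • uU : Λ) : V) w = d}.ncard =
      {x : Λ | x ∈ Mn ∧ dotInt (uU : V) (x : V) = d}.ncard := fun d =>
    (ncard_L fun w => sqNorm w = 32 ∧ dotInt ((c • uU : Λ) : V) w = d).symm.trans
      (ncard_smul_eq c fun y => by simp only [Set.mem_setOf_eq, g_norm, g_dot]; rfl)
  exact ⟨(key _).trans ctU16, (key _).trans ctU8, (key _).trans ctU0⟩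

end Cfsg.Agent.S1573
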