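import Cfsg.Statements.S1578
import Mathlib
import Cfsg.Agent.H7.Lee.Cfg

set_option autoImplicit false
open Cfsg

namespace Cfsg.Agent.S1578

open CfsgH7 CfsgH7.Lee

/-- A lattice vector of customary norm 6 is the sum of an unordered pair of minimal vectors in exactly 276 ways (552 ordered summands). -/
theorem result (u : ↥Cfsg.leechLattice) (hu : Cfsg.sqNorm (u : Cfsg.GolayPt → ℤ) = 48) : {v : ↥Cfsg.leechLattice | Cfsg.sqNorm (v : Cfsg.GolayPt → ℤ) = 32 ∧ Cfsg.sqNorm ((u - v) : Cfsg.GolayPt → ℤ) = 32}.ncard = 552 := by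
  obtain ⟨c, rfl⟩ := tr48 hu
  refine (ncard_smul_eq c fun y => ?_).trans ctV24
  refine (and_congr_right fun h => sub48 hu h).trans ?_
  simp only [Set.mem_setOf_eq, g_norm, g_dot]; rfl

end Cfsg.Agent.S1578
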