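import Cfsg.Statements.S1581
import Mathlib
import Cfsg.Agent.H7.Lee.Cfg

set_option autoImplicit false
open Cfsg

namespace Cfsg.Agent.S1581

open CfsgH7 CfsgH7.Lee

/-- The McLaughlin group acts with rank 3 and subdegrees 1, 112, 162 on its 275 points: the point stabiliser has two orbits on the remaining points, distinguished by customary inner product 1 or 2 with the fixed point. -/
theorem result (u v x : ↥Cfsg.leechLattice) (hu : Cfsg.sqNorm (u : Cfsg.GolayPt → ℤ) = 48) (hv : Cfsg.sqNorm (v : Cfsg.GolayPt → ℤ) = 32 ∧ Cfsg.sqNorm ((u - v) : Cfsg.GolayPt → ℤ) = 32) (hx : x ∈ {x : ↥Cfsg.leechLattice | Cfsg.sqNorm (x : Cfsg.GolayPt → ℤ) = 32 ∧ Cfsg.sqNorm ((u - x) : Cfsg.GolayPt → ℤ) = 32 ∧ Cfsg.dotInt (v : Cfsg.GolayPt → ℤ) (x : Cfsg.GolayPt → ℤ) = 16}) : {y : ↥Cfsg.leechLattice | y ∈ {x : ↥Cfsg.leechLattice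 | Cfsg.sqNorm (x : Cfsg.GolayPt → ℤ) = 32 ∧ Cfsg.sqNorm ((u - x) : Cfsg.GolayPt → ℤ) = 32 ∧ Cfsg.dotInt (v : Cfsg.GolayPt → ℤ) (x : Cfsg.GolayPt → ℤ) = 16} ∧ Cfsg.dotInt (x : Cfsg.GolayPt → ℤ) (y : Cfsg.GolayPt → ℤ) = 8}.ncard = 112 ∧ {y : ↥Cfsg.leechLattice | y ∈ {x : ↥Cfsg.leechLattice | Cfsg.sqNorm (x : Cfsg.GolayPt → ℤ) = 32 ∧ Cfsg.sqNorm ((u - x) : Cfsg.GolayPt → ℤ) = 32 ∧ Cfsg.dotInt (v : Cfsg.GolayPt → ℤ) (x : Cfsg.GolayPt → ℤ) = 16} ∧ y ≠ x ∧ Cfsg.dotInt (x : Cfsg.GolayPt → ℤ) (y : Cfsg.GolayPt → ℤ) = 16}.ncard = 162 ∧ ∀ y ∈ {x : ↥Cfsg.leechLattice | Cfsg.sqNorm (x : Cfsg.GolayPt → ℤ) = 32 ∧ Cfsg.sqNorm ((u - x) : Cfsg.GolayPt → ℤ) = 32 ∧ Cfsg.dotInt (v : Cfsg.GolayPt → ℤ) (x : Cfsg.GolayPt → ℤ) = 16}, ∀ y' ∈ {x : ↥Cfsg.leechLattice | Cfsg.sqNorm (x : Cfsg.GolayPt → ℤ) = 32 ∧ Cfsg.sqNorm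 ((u - x) : Cfsg.GolayPt → ℤ) = 32 ∧ Cfsg.dotInt (v : Cfsg.GolayPt → ℤ) (x : Cfsg.GolayPt → ℤ) = 16}, y ≠ x → y' ≠ x → Cfsg.dotInt (x : Cfsg.GolayPt → ℤ) (y : Cfsg.GolayPt → ℤ) = Cfsg.dotInt (x : Cfsg.GolayPt → ℤ) (y' : Cfsg.GolayPt → ℤ) → ∃ g : ↥Cfsg.Co0, g • u = u ∧ g • v = v ∧ g • x = x ∧ g • y = y' := by
  rw [XM_eq hu] at hx ⊢
  obtain ⟨c, rfl, rfl⟩ := cfgM hu hv
  obtain ⟨x, rfl⟩ := ex_smul c x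
  rw [XS_smul, XM0] at hx
  obtain ⟨k, h1, rfl⟩ := trM xM mM x hx
  rw [← KM_eq] at h1
  rw [← show k • uV = uV from h1.1, ← show k • -uU = -uU from h1.2, ← mul_smul, ← mul_smul, ← mul_smul]
  generalize c * k = c
  refine ⟨(ncard_smul_eq c fun y => ?_).trans cM1, (ncard_smul_eq c fun y => ?_).trans cM2, fun y hy z hz a b e => ?_⟩
  · simp only [Set.mem_setOf_eq, XS_smul, XM0, g_dot]
  · simp only [Set.mem_setOf_eq, XS_smul, XM0, g_dot, ne_eq, smul_left_cancel_iff]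
    exact and_congr_right fun h => ⟨fun a => (dM y h).2 a.2, fun a => ⟨a.1, (dM y h).1 a⟩⟩
  obtain ⟨y, rfl⟩ := ex_smul c y
  obtain ⟨z, rfl⟩ := ex_smul c z
  rw [XS_smul, XM0] at hy hz
  rw [g_dot, g_dot] at e
  obtain ⟨k, ⟨h1, h3⟩, h2⟩ := tM y hy z hz (fun e => a (by rw [e])) (fun e => b (by rw [e])) (by rw [e])
  rw [← KM_eq] at h1
  exact ⟨_, (fix2 h1).1, (fix2 h1).2, cj_smul c h3, cj_smul c h2⟩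

end Cfsg.Agent.S1581
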