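import Cfsg.Statements.S1584
import Mathlib
import Cfsg.Agent.H7.Lee.Cfg

set_option autoImplicit false
open Cfsg

namespace Cfsg.Agent.S1584

open CfsgH7 CfsgH7.Lee

/-- The Higman–Sims group acts with rank 3 and subdegrees 1, 22, 77 on its 100 points, the orbits of a point stabiliser being distinguished by customary inner product 1 with the fixed point. -/
theorem result (v w x : ↥Cfsg.leechLattice) (hv : Cfsg.sqNorm (v : Cfsg.GolayPt → ℤ) = 48) (hw : Cfsg.sqNorm (w : Cfsg.GolayPt → ℤ) = 48) (hvw : Cfsg.dotInt (v : Cfsg.GolayPt → ℤ) (w : Cfsg.GolayPt → ℤ) = -32) (hx : x ∈ {x : ↥Cfsg.leechLattice | Cfsg.sqNorm (x : Cfsg.GolayPt → ℤ) = 32 ∧ Cfsg.dotInt (v : Cfsg.GolayPt → ℤ) (x : Cfsg.GolayPt → ℤ) = 24 ∧ Cfsg.dotInt (w : Cfsg.GolayPt → ℤ) (x : Cfsg.GolayPt → ℤ) = -24}) : {y : ↥Cfsg.leechLattice |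 y ∈ {x : ↥Cfsg.leechLattice | Cfsg.sqNorm (x : Cfsg.GolayPt → ℤ) = 32 ∧ Cfsg.dotInt (v : Cfsg.GolayPt → ℤ) (x : Cfsg.GolayPt → ℤ) = 24 ∧ Cfsg.dotInt (w : Cfsg.GolayPt → ℤ) (x : Cfsg.GolayPt → ℤ) = -24} ∧ Cfsg.dotInt (x : Cfsg.GolayPt → ℤ) (y : Cfsg.GolayPt → ℤ) = 8}.ncard = 22 ∧ {y : ↥Cfsg.leechLattice | y ∈ {x : ↥Cfsg.leechLattice | Cfsg.sqNorm (x : Cfsg.GolayPt → ℤ) = 32 ∧ Cfsg.dotInt (v : Cfsg.GolayPt → ℤ) (x : Cfsg.GolayPt → ℤ) = 24 ∧ Cfsg.dotInt (w : Cfsg.GolayPt → ℤ) (x : Cfsg.GolayPt → ℤ) = -24} ∧ y ≠ x ∧ Cfsg.dotInt (x : Cfsg.GolayPt → ℤ) (y : Cfsg.GolayPt → ℤ) ≠ 8}.ncard = 77 ∧ ∀ y ∈ {x : ↥Cfsg.leechLattice | Cfsg.sqNorm (x : Cfsg.GolayPt → ℤ) = 32 ∧ Cfsg.dotInt (v : Cfsg.GolayPt → ℤ) (x : Cfsg.GolayPt → ℤ) = 24 ∧ Cfsg.dotInt (w : Cfsg.GolayPt → ℤ) (x : Cfsg.GolayPt → ℤ) = -24}, ∀ y' ∈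 {x : ↥Cfsg.leechLattice | Cfsg.sqNorm (x : Cfsg.GolayPt → ℤ) = 32 ∧ Cfsg.dotInt (v : Cfsg.GolayPt → ℤ) (x : Cfsg.GolayPt → ℤ) = 24 ∧ Cfsg.dotInt (w : Cfsg.GolayPt → ℤ) (x : Cfsg.GolayPt → ℤ) = -24}, y ≠ x → y' ≠ x → (Cfsg.dotInt (x : Cfsg.GolayPt → ℤ) (y : Cfsg.GolayPt → ℤ) = 8 ↔ Cfsg.dotInt (x : Cfsg.GolayPt → ℤ) (y' : Cfsg.GolayPt → ℤ) = 8) → ∃ g : ↥Cfsg.Co0, g • v = v ∧ g • w = w ∧ g • x = x ∧ g • y = y' := by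
  have e0 : {x : Λ | sqNorm (x : V) = 32 ∧ dotInt (v : V) (x : V) = 24 ∧ dotInt (w : V) (x : V) = -24} =
    XS v w 24 (-24) := rfl
  rw [e0] at hx ⊢
  clear e0
  obtain ⟨c, rfl, rfl⟩ := cfgH hv hw hvw
  obtain ⟨x, rfl⟩ := ex_smul c x
  rw [XS_smul, XH0] at hx
  obtain ⟨k, h1, rfl⟩ := trH xH mH x hx
  rw [← KH_eq] at h1
  rw [← show k • uV = uV from h1.1, ← show k • (-uW - k • uV) = -uW - k • uV from by rw [h1.1]; exact h1.2,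
    show k • uV = uV from h1.1, ← show k • uV = uV from h1.1, ← mul_smul, show k • uV = uV from h1.1,
    ← mul_smul, ← mul_smul]
  generalize c * k = c
  refine ⟨(ncard_smul_eq c fun y => ?_).trans cH1, (ncard_smul_eq c fun y => ?_).trans cH2, fun y hy z hz a b e => ?_⟩
  · simp only [Set.mem_setOf_eq, XS_smul, XH0, g_dot]
  · simp only [Set.mem_setOf_eq, XS_smul, XH0, g_dot, ne_eq, smul_left_cancel_iff]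
  obtain ⟨y, rfl⟩ := ex_smul c y
  obtain ⟨z, rfl⟩ := ex_smul c z
  rw [XS_smul, XH0] at hy hz
  rw [g_dot, g_dot] at e
  obtain ⟨k, ⟨h1, h3⟩, h2⟩ := tH y hy z hz (fun e => a (by rw [e])) (fun e => b (by rw [e])) e
  rw [← KH_eq] at h1
  exact ⟨_, (fix2 h1).1, (fix2 h1).2, cj_smul c h3, cj_smul c h2⟩

end Cfsg.Agent.S1584
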