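import Mathlib
import Cfsg.Statements.S1590
import Cfsg.Agent.H8.TG

set_option autoImplicit false
open Cfsg

namespace Cfsg.Agent.S1590

open CfsgH8.TG
set_option maxRecDepth 100000

/-- The length-12 ternary code has 729 words with weight distribution 0^1 6^264 9^440 12^24. -/
theorem result : Nat.card ↥Cfsg.ternaryGolayCode = 729 ∧ (∀ x ∈ Cfsg.ternaryGolayCode, x ≠ 0 → (Cfsg.ternarySupport x).card = 6 ∨ (Cfsg.ternarySupport x).card = 9 ∨ (Cfsg.ternarySupport x).card = 12) ∧ {x : Cfsg.ArrayPt → ZMod 3 | x ∈ Cfsg.ternaryGolayCode ∧ (Cfsg.ternarySupport x).card = 6}.ncard = 264 ∧ {x : Cfsg.ArrayPt → ZMod 3 | x ∈ Cfsg.ternaryGolayCode ∧ (Cfsg.ternarySupport x).card = 9}.ncard = 440 ∧ {x : Cfsg.ArrayPt → ZMod 3 | x ∈ Cfsg.ternaryGolayCode ∧ (Cfsg.ternarySupport x).card = 12}.ncard = 24 := by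
  refine ⟨?_, fun x hx h0 => ?_, ?_, ?_, ?_⟩
  · rw [← Nat.card_congr (Equiv.ofBijective (fun v => (⟨W v, W_mem v⟩ : ternaryGolayCode))
      ⟨fun a b h => W_inj (congrArg Subtype.val h), fun x => ⟨_, Subtype.ext (eq_W x.2).symm⟩⟩)]
    simp
  · obtain ⟨v, rfl⟩ := mem_iff.1 hx
    refine (wt v).resolve_left ?_
    rintro rfl
    exact h0 (by decide +kernel)
  all_goals rw [ncard_eq]; decide +kernel

end Cfsg.Agent.S1590
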