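import Mathlib
import Cfsg.Statements.S1591
import Cfsg.Agent.H8.TG

set_option autoImplicit false
open Cfsg

namespace Cfsg.Agent.S1591

open CfsgH8.TG
set_option maxRecDepth 100000

theorem sq0 : ∀ v : V, ∑ p, W v p * W v p = 0 := by decide +kernel

/-- Any two words of the length-12 ternary code have dot product zero. -/
theorem result (x y : Cfsg.ArrayPt → ZMod 3) (hx : x ∈ Cfsg.ternaryGolayCode) (hy : y ∈ Cfsg.ternaryGolayCode) : ∑ p, x p * y p = 0 := by
  have h : ∀ z ∈ ternaryGolayCode, ∑ p, z p * z p = 0 := fun z hz => by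
    obtain ⟨v, rfl⟩ := mem_iff.1 hz
    exact sq0 v
  have h1 := h _ (ternaryGolayCode.add_mem hx hy)
  have h2 : ∑ p, (x + y) p * (x + y) p = ∑ p, x p * x p + ∑ p, y p * y p - ∑ p, x p * y p := by
    rw [← Finset.sum_add_distrib, ← Finset.sum_sub_distrib]
    refine Finset.sum_congr rfl fun p _ => ?_
    have t3 : (3 : ZMod 3) = 0 := rfl
    rw [Pi.add_apply]
    linear_combination (x p * y p) * t3
  rw [h2, h x hx, h y hy] at h1
  simpa using h1

end Cfsg.Agent.S1591
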