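import Mathlib
import Cfsg.Statements.S1592
import Cfsg.Agent.H8.TG

set_option autoImplicit false
open Cfsg

namespace Cfsg.Agent.S1592

open CfsgH8.TG
set_option maxRecDepth 100000
set_option synthInstance.maxSize 100000
set_option synthInstance.maxHeartbeats 200000

def L : List (ℕ × V) := [(4032, 0, 0, 0, 0, 0, 1), (3504, 0, 0, 0, 0, 1, 0), (2800, 0, 0, 0, 0, 1, 1), (1904, 0, 0, 0, 0, 1, 2), (1960, 0, 0, 0, 1, 0, 0), (2920, 0, 0, 0, 1, 0, 1), (3304, 0, 0, 0, 1, 0, 2), (3640, 0, 0, 0, 1, 1, 0), (504, 0, 0, 0, 1, 1, 2), (2968, 0, 0, 0, 1, 2, 0), (1752, 0, 0, 0, 1, 2, 1), (3416, 0, 0, 0, 1, 2, 2), (3748, 0, 0, 1, 0, 0, 0), (996, 0, 0, 1, 0, 0, 1), (3428, 0, 0, 1, 0, 0, 2), (1940, 0, 0, 1, 0, 1, 0), (3668, 0, 0, 1, 0, 1, 1), (2516, 0, 0, 1, 0, 1, 2), (2868, 0, 0, 1, 0, 2, 0), (1268, 0, 0, 1, 0, 2, 2), (3852, 0, 0,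 1, 1, 0, 0), (1484, 0, 0, 1, 1, 0, 1), (2764, 0, 0, 1, 1, 0, 2), (700, 0, 0, 1, 1, 1, 0), (2172, 0, 0, 1, 1, 2, 1), (2476, 0, 0, 1, 2, 0, 0), (1644, 0, 0, 1, 2, 0, 1), (1340, 0, 0, 1, 2, 1, 0), (3228, 0, 0, 1, 2, 2, 0), (860, 0, 0, 1, 2, 2, 2), (2978, 0, 1, 0, 0, 0, 0), (3682, 0, 1, 0, 0, 0, 1), (1506, 0, 1, 0, 0, 0, 2), (3858, 0, 1, 0, 0, 1, 0), (978, 0, 1, 0, 0, 1, 1), (3282, 0, 1, 0, 0, 1, 2), (1714, 0, 1, 0, 0, 2, 0), (2418, 0, 1, 0, 0, 2, 2), (3722, 0, 1, 0, 1, 0, 0), (2506, 0, 1, 0, 1, 0, 1), (1866, 0, 1, 0, 1, 0, 2), (1146, 0, 1, 0, 1, 1, 1), (826, 0, 1, 0, 1, 2, 0), (3370, 0, 1, 0, 2, 0, 0), (746, 0, 1, 0, 2, 0, 2), (2234, 0, 1, 0, 2, 1, 0), (1434, 0, 1, 0, 2, 2, 0), (2650, 0, 1, 0, 2, 2, 1), (1830, 0, 1, 1, 0, 0, 0), (2278, 0, 1, 1, 0, 0, 1), (630, 0, 1, 1, 0, 1, 2), (2710, 0, 1, 1, 0, 2, 0), (1366, 0, 1,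 1, 0, 2, 1), (1198, 0, 1, 1, 1, 0, 0), (2334, 0, 1, 1, 1, 1, 0), (910, 0, 1, 1, 2, 0, 0), (3150, 0, 1, 1, 2, 0, 2), (3462, 0, 1, 2, 0, 0, 0), (1734, 0, 1, 2, 0, 0, 1), (2886, 0, 1, 2, 0, 0, 2), (438, 0, 1, 2, 0, 1, 0), (3126, 0, 1, 2, 0, 2, 0), (2606, 0, 1, 2, 1, 0, 0), (222, 0, 1, 2, 1, 2, 2), (366, 0, 1, 2, 2, 0, 1), (1566, 0, 1, 2, 2, 1, 0), (3873, 1, 0, 0, 0, 0, 0), (2529, 1, 0, 0, 0, 0, 1), (1761, 1, 0, 0, 0, 0, 2), (3729, 1, 0, 0, 0, 1, 0), (1489, 1, 0, 0, 0, 1, 1), (2897, 1, 0, 0, 0, 1, 2), (945, 1, 0, 0, 0, 2, 0), (3185, 1, 0, 0, 0, 2, 1), (3465, 1, 0, 0, 1, 0, 0), (3657, 1, 0, 0, 1, 0, 1), (969, 1, 0, 0, 1, 0, 2), (2361, 1, 0, 0, 1, 1, 0), (1209, 1, 0, 0, 1, 2, 0), (2729, 1, 0, 0, 2, 0, 0), (1385, 1, 0, 0, 2, 0, 2), (633, 1, 0, 0, 2, 1, 1), (1817, 1, 0, 0, 2, 2, 0), (2265, 1, 0, 0, 2, 2, 2), (1445, 1, 0,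 1, 0, 0, 0), (2661, 1, 0, 1, 0, 0, 2), (2229, 1, 0, 1, 0, 1, 0), (3349, 1, 0, 1, 0, 2, 0), (725, 1, 0, 1, 0, 2, 1), (813, 1, 0, 1, 1, 0, 0), (1117, 1, 0, 1, 1, 1, 2), (1677, 1, 0, 1, 2, 0, 0), (2381, 1, 0, 1, 2, 0, 1), (2949, 1, 0, 2, 0, 0, 0), (1861, 1, 0, 2, 0, 0, 1), (3269, 1, 0, 2, 0, 0, 2), (1589, 1, 0, 2, 0, 1, 0), (373, 1, 0, 2, 0, 2, 2), (237, 1, 0, 2, 1, 0, 1), (2589, 1, 0, 2, 1, 2, 0), (3117, 1, 0, 2, 2, 0, 0), (413, 1, 0, 2, 2, 1, 0), (3235, 1, 1, 0, 0, 0, 0), (867, 1, 1, 0, 0, 0, 1), (1331, 1, 1, 0, 0, 1, 0), (2451, 1, 1, 0, 0, 2, 0), (1619, 1, 1, 0, 0, 2, 2), (2155, 1, 1, 0, 1, 0, 2), (667, 1, 1, 0, 1, 1, 0), (2827, 1, 1, 0, 2, 0, 0), (1227, 1, 1, 0, 2, 0, 1), (3591, 1, 1, 1, 0, 0, 0), (455, 1, 1, 1, 0, 0, 2), (63, 1, 1, 1, 2, 2, 0), (679, 1, 1, 2, 0, 0, 0), (2135, 1, 1, 2, 0, 1, 1), (1295, 1, 1, 2,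 1, 0, 0), (1923, 1, 2, 0, 0, 0, 0), (2755, 1, 2, 0, 0, 0, 1), (3395, 1, 2, 0, 0, 0, 2), (243, 1, 2, 0, 0, 1, 2), (2611, 1, 2, 0, 0, 2, 0), (1579, 1, 2, 0, 1, 0, 0), (347, 1, 2, 0, 1, 2, 1), (427, 1, 2, 0, 2, 0, 0), (3099, 1, 2, 0, 2, 1, 0), (1127, 1, 2, 1, 0, 0, 1), (791, 1, 2, 1, 0, 1, 0), (2191, 1, 2, 1, 1, 0, 0), (2343, 1, 2, 2, 0, 0, 0), (1175, 1, 2, 2, 0, 2, 0), (591, 1, 2, 2, 2, 0, 2)]

def tb (m : ℕ) (p : ArrayPt) : Bool := m.testBit (3 * p.1.val + p.2.val)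

theorem h1 : ∀ q ∈ L, (ternarySupport (W q.2)).card = 6 ∧ ∀ p, tb q.1 p = true ↔ W q.2 p ≠ 0 := by decide +kernel

theorem h2 : ∀ v : V, (ternarySupport (W v)).card = 6 → ∃ q ∈ L, q.2 = v ∨ q.2 = -v := by decide +kernel

theorem h3 : ∀ v : V, ∀ p, W (-v) p = -W v p := by decide +kernel

theorem h4a : (List.range 4096).all (fun n => (Finset.univ.filter fun p => tb n p = true).card != 5 ||
    (L.filter fun q => Nat.land n q.1 == n).length == 1) = true := by decide +kernel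

def pt (i : Fin 12) : ArrayPt := (Fin.ofNat 4 (i / 3), (Fin.ofNat 3 i : Fin 3))

theorem h4 (s : Finset ArrayPt) (hs : s.card = 5) : ∃ q ∈ L, (∀ p ∈ s, tb q.1 p = true) ∧
    ∀ q' ∈ L, (∀ p ∈ s, tb q'.1 p = true) → q' = q := by
  let n := Nat.ofBits fun i : Fin 12 => decide (pt i ∈ s)
  have hn : n < 2 ^ 12 := Nat.ofBits_lt_two_pow _
  have e1 : ∀ p : ArrayPt, ∃ h : 3 * p.1.val + p.2.val < 12, pt ⟨_, h⟩ = p := by decide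
  have e2 : ∀ i : Fin 12, 3 * (pt i).1.val + (pt i).2.val = i := by decide
  have e3 : ∀ p, tb n p = true ↔ p ∈ s := fun p => by
    obtain ⟨h, h'⟩ := e1 p
    simp [tb, n, Nat.testBit_ofBits, h, h']
  have e4 : ∀ m, (Nat.land n m == n) = true ↔ ∀ p ∈ s, tb m p = true := fun m => by
    rw [beq_iff_eq]
    constructor
    · intro h p hp
      have := (e3 p).2 hp
      rw [← h, tb] at this
      exact (Bool.and_eq_true_iff.1 ((Nat.testBit_and _ _ _).symm.trans this)).2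
    · intro h
      refine Nat.eq_of_testBit_eq fun i => (Nat.testBit_and _ _ _).trans ?_
      by_cases hi : i < 12
      · have a := e3 (pt ⟨i, hi⟩)
        have b := h (pt ⟨i, hi⟩)
        rw [tb, e2] at a b
        cases c : n.testBit i
        · rfl
        · exact b (a.1 c)
      · rw [Nat.testBit_eq_false_of_lt (hn.trans_le (Nat.pow_le_pow_right two_pos (not_lt.1 hi)))]; rfl
  have e5 := List.all_eq_true.1 h4a n (List.mem_range.2 hn)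
  have e6 : (Finset.univ.filter fun p => tb n p = true) = s := by ext p; simp [e3]
  rw [e6, hs, bne_self_eq_false, Bool.false_or, beq_iff_eq, List.length_eq_one_iff] at e5
  obtain ⟨q, hq⟩ := e5
  have e7 : ∀ r, r ∈ L ∧ (∀ p ∈ s, tb r.1 p = true) ↔ r = q := fun r => by
    rw [← e4, ← List.mem_singleton (a := r), ← hq, List.mem_filter]
  exact ⟨q, ((e7 q).2 rfl).1, ((e7 q).2 rfl).2, fun r a b => (e7 r).1 ⟨a, b⟩⟩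

theorem h5 : L.Nodup ∧ L.length = 132 :=
  ⟨List.Nodup.of_map Prod.fst (by decide +kernel), rfl⟩

theorem eqL : {h : Finset ArrayPt | ∃ x ∈ ternaryGolayCode, ternarySupport x = h ∧ h.card = 6} =
    (fun q : ℕ × V => ternarySupport (W q.2)) '' {q | q ∈ L} := by
  ext h
  constructor
  · rintro ⟨x, hx, rfl, h6⟩
    obtain ⟨v, rfl⟩ := mem_iff.1 hx
    obtain ⟨q, hq, h | h⟩ := h2 v h6
    · exact ⟨q, hq, by simp only [h]⟩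
    · exact ⟨q, hq, by simp [h, ternarySupport, h3]⟩
  · rintro ⟨q, hq, rfl⟩
    exact ⟨_, W_mem _, rfl, (h1 q hq).1⟩

theorem sub {q : ℕ × V} (hq : q ∈ L) (s : Finset ArrayPt) :
    s ⊆ ternarySupport (W q.2) ↔ ∀ p ∈ s, tb q.1 p = true := by
  simp [Finset.subset_iff, ternarySupport, (h1 q hq).2]

/-- The supports of the weight-6 words of the length-12 ternary code form a Steiner system S(5, 6, 12) with 132 blocks. -/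
theorem result : Cfsg.IsSteinerSystem 5 6 {h : Finset Cfsg.ArrayPt | ∃ x ∈ Cfsg.ternaryGolayCode, Cfsg.ternarySupport x = h ∧ h.card = 6} ∧ {h : Finset Cfsg.ArrayPt | ∃ x ∈ Cfsg.ternaryGolayCode, Cfsg.ternarySupport x = h ∧ h.card = 6}.ncard = 132 := by
  refine ⟨⟨fun b ⟨_, _, _, h⟩ => h, fun s hs => ?_⟩, ?_⟩
  · rw [eqL]
    obtain ⟨q, hq, a, b⟩ := h4 s hs
    refine ⟨_, ⟨⟨q, hq, rfl⟩, (sub hq s).2 a⟩, ?_⟩
    rintro _ ⟨⟨q', hq', rfl⟩, h⟩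
    rw [b q' hq' ((sub hq' s).1 h)]
  · rw [eqL, Set.InjOn.ncard_image, ← List.coe_toFinset, Set.ncard_coe_finset, List.toFinset_card_of_nodup h5.1, h5.2]
    intro q hq q' hq' (h : ternarySupport (W q.2) = ternarySupport (W q'.2))
    obtain ⟨s, hs, hs'⟩ := Finset.exists_subset_card_eq (s := ternarySupport (W q.2)) (n := 5) (by rw [(h1 q hq).1]; norm_num)
    obtain ⟨r, -, -, b⟩ := h4 s hs'
    rw [b q hq ((sub hq s).1 hs), b q' hq' ((sub hq' s).1 (h ▸ hs))]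

end Cfsg.Agent.S1592
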