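import Mathlib
import Cfsg.Statements.S1593
import Cfsg.Agent.H8.TG

set_option autoImplicit false
open Cfsg

namespace Cfsg.Agent.S1593

open CfsgH8.TG CfsgH8.Mono
set_option maxRecDepth 100000

theorem cov : ∀ p : ArrayPt, ∃ v ∈ ([(1, 0, 0, 0, 0, 0), (0, 1, 0, 0, 0, 0), (0, 0, 1, 0, 0, 0), (0, 0, 0, 1, 0, 0),
    (0, 0, 0, 0, 1, 0), (0, 0, 0, 1, 0, 1), (0, 0, 0, 1, 0, 2)] : List V),
    (Finset.univ.filter fun i => W v i ≠ 0).card = 6 ∧ W v (1, 2) ≠ 0 ∧ W v p ≠ 0 := by decide +kernel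

theorem const (c : ArrayPt → (ZMod 3)ˣ) (h : Pres ternaryGolayCode 1 c) (i j : ArrayPt) : c i = c j := by
  have key : ∀ p, c (1, 2) = c p := fun p => by
    obtain ⟨v, -, h1, h2, h3⟩ := cov p
    refine diag (d := 6) (fun x hx h0 => ?_) h (W_mem v) h1 h2 h3
    obtain ⟨v, rfl⟩ := mem_iff.1 hx
    rcases wt v with rfl | h | h | h
    · exact absurd (by decide +kernel) h0
    all_goals exact le_of_le_of_eq (by norm_num) h.symm
  rw [← key i, ← key j]

/-- The only sign changes preserving the length-12 ternary code are the identity and negation of all coordinates. -/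
theorem result (c : Cfsg.ArrayPt → (ZMod 3)ˣ) (h : (∀ x ∈ Cfsg.ternaryGolayCode, Cfsg.monomialMap 1 c x ∈ Cfsg.ternaryGolayCode)) : (∀ p, c p = 1) ∨ (∀ p, c p = -1) := by
  have h2 : ∀ u : (ZMod 3)ˣ, u = 1 ∨ u = -1 := by decide
  exact (h2 (c (0, 0))).imp (fun e p => (const c h _ _).trans e) fun e p => (const c h _ _).trans e

end Cfsg.Agent.S1593
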