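import Mathlib
import Cfsg.Statements.S1594
import Cfsg.Agent.H8.TG
import Cfsg.Agent.S1592
import Cfsg.Agent.S1593
import Cfsg.Agent.S0425

set_option autoImplicit false
open Cfsg

namespace Cfsg.Agent.S1594

open CfsgH8.TG CfsgH8.Mono Equiv
set_option maxRecDepth 100000

def fn (l : List ℕ) (p : ArrayPt) : ArrayPt :=
  (Fin.ofNat 4 (l.getD (3 * p.1.val + p.2.val) 0 / 3), (Fin.ofNat 3 (l.getD (3 * p.1.val + p.2.val) 0) : Fin 3))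

def sg (l : List ℕ) (p : ArrayPt) : (ZMod 3)ˣ := if l.getD (3 * p.1.val + p.2.val) 0 = 1 then 1 else -1

def g1 : Perm ArrayPt := ⟨fn [1, 7, 0, 6, 8, 2, 9, 3, 4, 11, 5, 10], fn [2, 0, 5, 7, 8, 10, 3, 1, 4, 6, 11, 9],
  by decide +kernel, by decide +kernel⟩
def g2 : Perm ArrayPt := ⟨fn [9, 0, 7, 4, 3, 1, 5, 10, 6, 8, 2, 11], fn [1, 5, 10, 4, 3, 6, 8, 2, 9, 0, 7, 11],
  by decide +kernel, by decide +kernel⟩

theorem pres {σ : Perm ArrayPt} {c : ArrayPt → (ZMod 3)ˣ}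
    (h : ∀ v : V, ∀ p, monomialMap σ c (W v) p = W (pr (monomialMap σ c (W v))) p) : σ ∈ PP ternaryGolayCode :=
  ⟨c, fun x hx => by
    obtain ⟨v, rfl⟩ := mem_iff.1 hx
    exact mem_of (h v)⟩

theorem p1 : g1 ∈ PP ternaryGolayCode := pres (c := sg [1, 1, 2, 2, 2, 1, 1, 2, 1, 1, 2, 2]) (by decide +kernel)
theorem p2 : g2 ∈ PP ternaryGolayCode := pres (c := sg [1, 2, 1, 2, 2, 2, 1, 2, 2, 2, 1, 2]) (by decide +kernel)

def B : Set (Finset ArrayPt) := {h | ∃ x ∈ ternaryGolayCode, ternarySupport x = h ∧ h.card = 6}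

open scoped Pointwise in
theorem le : PP ternaryGolayCode ≤ setSystemAut B := by
  rintro σ ⟨c, h⟩
  have e : ∀ x, ternarySupport (monomialMap σ c x) = σ • ternarySupport x := fun x => by
    ext p
    simp [ternarySupport, monomialMap, ← Finset.inv_smul_mem_iff, Perm.inv_def]
  rw [MulAction.mem_stabilizer_iff]
  ext b
  constructor
  · rintro ⟨_, ⟨x, hx, rfl, h6⟩, rfl⟩
    exact ⟨_, h x hx, e x, by simpa using h6⟩
  · rintro ⟨x, hx, rfl, h6⟩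
    obtain ⟨z, hz, rfl⟩ := h.surj x hx
    exact ⟨_, ⟨z, hz, rfl, by simpa [e] using h6⟩, (e z).symm⟩

theorem eq : PP ternaryGolayCode = setSystemAut B := by
  have hg : ∀ g ∈ [g1, g2], g ∈ PP ternaryGolayCode := by simp [p1, p2]
  refine le_antisymm le fun σ hσ => ?_
  refine sift le hg [] (0, 0) [[], [0], [1, 0, 0, 1], [0, 0, 0], [0, 1, 1], [0, 0, 0, 1], [1, 1, 1], [0, 0], [1, 1], [1], [0, 0, 1], [0, 1]]
    (by decide) (by decide +kernel) ?_ σ hσ (by simp)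
  refine sift le hg _ (0, 1) [[], [1, 1, 0, 0, 1, 0, 1], [1, 1, 0, 0, 0, 1], [0, 1, 0, 1, 0, 0, 1, 1, 1], [0, 1, 0, 0, 1], [0, 1, 1, 0, 0], [1, 0, 0, 1, 0, 0, 1], [0, 0, 0, 1, 0, 0], [0, 0, 0, 0, 0, 1], [1, 0], [0, 0, 1, 1, 1, 1]]
    (by decide) (by decide +kernel) ?_
  refine sift le hg _ (0, 2) [[], [0, 0, 1, 1, 1, 1, 1, 0], [1, 0, 1, 1, 1, 0, 1, 0, 1, 1], [0, 0, 1, 0, 1, 1, 1, 0, 1, 1], [1, 1, 0, 1, 1, 1, 1, 0, 0], [0, 1, 1, 0, 1, 0, 0, 1, 0, 1], [0, 0, 1, 0, 1, 1, 1, 1, 1, 0, 1, 1], [0, 1, 0, 1, 0, 1], [0, 1, 1, 1, 0, 0, 0, 0, 1], [1, 0, 1, 0]]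
    (by decide) (by decide +kernel) ?_
  refine sift le hg _ (1, 0) [[], [0, 1, 0, 0, 1, 1, 0, 1, 0, 1, 0], [1, 0, 1, 0, 0, 1, 0, 0, 1, 1, 0], [0, 0, 1, 0, 1, 0, 1, 1], [1, 0, 1, 1, 1, 0, 0, 0, 1, 1, 0, 0, 0, 0], [1, 0, 1, 0, 0, 1, 0, 1, 0, 1], [0, 0, 1, 1, 0, 0, 1, 1, 0, 1, 0, 0, 1], [0, 0, 1, 0, 1, 0, 0, 0, 1, 0, 1, 1, 1], [1, 1, 1, 1, 0, 0, 1, 0, 1, 1, 1]]
    (by decide) (by decide +kernel) ?_
  refine sift le hg _ (1, 1) [[], [0, 1, 1, 1, 0, 0, 0, 0, 0, 1, 0, 1, 1, 0, 1, 1], [1, 1, 0, 1, 0, 0, 0, 1, 1, 0, 0, 0, 1, 0, 0, 1], [1, 1, 1, 0, 0, 0, 0, 0, 1, 0, 0, 1, 1, 1, 0, 1, 0, 0], [0, 1, 0, 0, 1, 0, 0, 0, 1, 0, 1, 0, 1, 0, 0, 1, 0], [0, 0, 0, 1, 1, 1, 1, 1, 0, 1, 0, 0, 0, 1, 1, 1, 1, 1], [0, 1, 0, 0, 1, 0, 1, 0, 1, 0, 1, 1, 0], [0, 0, 0, 1, 0, 0, 1, 1, 1, 1, 0, 0, 0, 0, 1, 1]]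
    (by decide) (by decide +kernel) ?_
  intro τ hτ h
  have := (S0425.result (α := ArrayPt) (B := B) rfl S1592.result.1).2.2 ⟨![(1, 1), (1, 0), (0, 2), (0, 1), (0, 0)], by decide⟩
  have h1 : (⟨τ, hτ⟩ : setSystemAut B) = 1 := by
    rw [← Subgroup.mem_bot, ← this, MulAction.mem_stabilizer_iff]
    ext1 i
    exact h _ (by fin_cases i <;> simp)
  rw [show τ = 1 from congrArg Subtype.val h1]
  exact one_mem _

/-- The monomial automorphism group of the length-12 ternary code has order 190080 and its permutation parts are exactly the automorphisms of its hexad system. -/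
theorem result : Nat.card {f : Equiv.Perm Cfsg.ArrayPt × (Cfsg.ArrayPt → (ZMod 3)ˣ) // (∀ x ∈ Cfsg.ternaryGolayCode, Cfsg.monomialMap f.1 f.2 x ∈ Cfsg.ternaryGolayCode)} = 190080 ∧ {σ : Equiv.Perm Cfsg.ArrayPt | ∃ c : Cfsg.ArrayPt → (ZMod 3)ˣ, (∀ x ∈ Cfsg.ternaryGolayCode, Cfsg.monomialMap σ c x ∈ Cfsg.ternaryGolayCode)} = (Cfsg.setSystemAut {h : Finset Cfsg.ArrayPt | ∃ x ∈ Cfsg.ternaryGolayCode, Cfsg.ternarySupport x = h ∧ h.card = 6} : Set (Equiv.Perm Cfsg.ArrayPt)) := by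
  refine ⟨?_, congrArg SetLike.coe eq⟩
  rw [card_M, eq, card_diag S1593.const]
  have : Nat.card (setSystemAut B) = 95040 := (S0425.result (α := ArrayPt) rfl S1592.result.1).1.2
  rw [this, Nat.card_units]
  simp

end Cfsg.Agent.S1594
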