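import Cfsg.Statements.S1597
import Cfsg.Agent.H1.Qt

set_option autoImplicit false
open scoped Pointwise
open Cfsg

namespace Cfsg.Agent.S1597

/-- A dodecad has 220 quartets and its stabiliser is transitive on them. -/
theorem result (d : Finset Cfsg.GolayPt) (hd : d ∈ Cfsg.dodecads) : (Cfsg.quartets d).ncard = 220 ∧ ∀ Q ∈ Cfsg.quartets d, ∀ Q' ∈ Cfsg.quartets d, ∃ g : Equiv.Perm Cfsg.GolayPt, g ∈ Cfsg.M24 ∧ g • d = d ∧ g • Q = Q' := by
  open CfsgH1.Mg CfsgH1.Mc CfsgH1.Mh CfsgH1.Mi CfsgH1.Qt CfsgH7 CfsgH7.Gol MulAction in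
  open scoped commutatorElement in
  · refine ⟨?_, fun Q h Q' h' => ?_⟩
    · obtain ⟨c, rfl⟩ := dod_tr hd
      exact (ncard_smul_eq c fun _ => mquar c).trans FQ.ncard_univ
    obtain ⟨a, h1, h2⟩ := quar_tr hd h
    obtain ⟨b, h3, h4⟩ := quar_tr hd h'
    exact ⟨_, (b * a⁻¹).2, div_smul' h1 h3, div_smul' h2 h4⟩

end Cfsg.Agent.S1597
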