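import Cfsg.Statements.S1598
import Cfsg.Agent.H1.Qt

set_option autoImplicit false
open scoped Pointwise
open Cfsg

namespace Cfsg.Agent.S1598

section
open CfsgH1.Mg CfsgH1.Mc CfsgH1.Mh CfsgH1.Mi CfsgH1.Qt CfsgH7 CfsgH7.Gol MulAction
open scoped commutatorElement

theorem hom : ∃ ψ : KU →* GL (Fin 2) (ZMod 3), ψ.range = ⊤ := by
  have P := pt_sub P24 W12 [0xbba8ab116d7c52899d90286a219a40, 0xbccb5585c87da098d1ac508f2190c0, 0xa556e2b6e453d2089c72b0a700a186, 0x89ed72a16475241abda2502704986c] (by decide +kernel)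
  have R := rep_list ([⟨!![2, 1; 2, 0], !![0, 2; 1, 2], by decide, by decide⟩, ⟨!![2, 0; 0, 1], !![2, 0; 0, 1], by decide, by decide⟩] : List (GL (Fin 2) (ZMod 3)))
    ([![0, 1], ![0, 2], ![1, 0], ![2, 0], ![2, 2], ![1, 1], ![1, 2], ![2, 1]] : List (Fin 2 → ZMod 3)) 0 [(Net.cons (nat_lit 4) (nat_lit 0x3) (Net.cons (nat_lit 2) (nat_lit 0x3) Net.nil)),
  (Net.cons (nat_lit 2) (nat_lit 0x30) (Net.cons (nat_lit 1) (nat_lit 0x4) Net.nil))] (by decide +kernel) (by decide +kernel)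
  obtain ⟨ψ, h, -⟩ := (rep_cw P hf24 WU [[0,3,0,2,0,2,2,1],[0,3,3,1,3,1,2,1],[0,2,0,3,1,3,1,2,0,3,3,1],[0,2,2,1,3,0,2,0,2,1,3,1],[2,0,2,0,3,3,0,2,1,3],[2,0,3,1,2,2,1,3,1,3],[1,2,0,3,3,1,2,2,2,0,2,1],[0,3,1,3,3,3,0,2,2,1,3,0]] _ (by decide +kernel)).hom R
    (inj_cw P I.inj _ (by decide +kernel)) (gl_faith (by decide +kernel)) (gensW WU.length)
  have := R.gen_of (by decide +kernel) (mem_top' (gensW WU.length)) (m := 48) (by
    have : Fact (Nat.Prime 3) := ⟨by norm_num⟩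
    rw [Subgroup.card_top, Matrix.card_GL_field]; simp [Fin.prod_univ_two]) [⟨0, [[0],[2]], [0,0,1,0,0,1], 8⟩,
  ⟨2, [[2],[0,2,0,2,1]], [0,1,0], 6⟩] 3 (by decide +kernel)
  rw [← gen_sub g12 genU]
  exact ⟨ψ, h.trans this⟩

end

/-- A quartet stabiliser inside the dodecad stabiliser has order 432, a normal subgroup of order 9 with quotient GL(2, 3), and is transitive on the dodecad. -/
theorem result (d : Finset Cfsg.GolayPt) (hd : d ∈ Cfsg.dodecads) (Q : Finset (Finset Cfsg.GolayPt)) (hQ : Q ∈ Cfsg.quartets d) : Nat.card ↥(MulAction.stabilizer Cfsg.M24 d ⊓ MulAction.stabilizer Cfsg.M24 Q) = 432 ∧ (∃ (N : Subgroup ↥(MulAction.stabilizer Cfsg.M24 d ⊓ MulAction.stabilizer Cfsg.M24 Q)) (_ : N.Normal), Nat.card N = 9 ∧ Nonempty (↥(MulAction.stabilizer Cfsg.M24 d ⊓ MulAction.stabilizer Cfsg.M24 Q) ⧸ N ≃* GL (Fin 2) (ZMod 3))) ∧ ∀ p ∈ d, ∀ q ∈ d, ∃ g ∈ (MulAction.stabilizer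 Cfsg.M24 d ⊓ MulAction.stabilizer Cfsg.M24 Q), ((g : ↥Cfsg.M24) : Equiv.Perm Cfsg.GolayPt) p = q := by
  open CfsgH1.Mg CfsgH1.Mc CfsgH1.Mh CfsgH1.Mi CfsgH1.Qt CfsgH7 CfsgH7.Gol MulAction in
  open scoped commutatorElement in
  · obtain ⟨c, rfl, rfl⟩ := quar_tr hd hQ
    have cj := (Cj.stab c (S 0x5335f)).inf (Cj.stab c (qpt 216))
    refine ⟨cj.card.trans cardU, ?_, fun p hp q hq => ?_⟩
    · obtain ⟨ψ, h⟩ := hom
      obtain ⟨e1⟩ := quot_iso ψ h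
      obtain ⟨M, hM, ⟨e⟩, ⟨e2⟩⟩ := normal_congr cj.equiv ψ.ker
      refine ⟨M, hM, ?_, ⟨e2.symm.trans e1⟩⟩
      have := card_range_mul ψ
      have h3 : Fact (Nat.Prime 3) := ⟨by norm_num⟩
      rw [h, Subgroup.card_top, Matrix.card_GL_field, cardU, Nat.card_congr e.toEquiv] at this
      simp [Fin.prod_univ_two] at this
      omega
    obtain ⟨p, rfl⟩ := ex_smul c p
    obtain ⟨q, rfl⟩ := ex_smul c q
    obtain ⟨k, hk, e⟩ := I.fam.tr2 R12 memU (I.rb_mem 0x5335f) [0,0,1,0,1,0] 0 (by decide +kernel) p trivial q trivial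
      ((mem_smul c).1 hp) ((mem_smul c).1 hq)
    exact ⟨_, (cj k).1 hk, cj_smul c e⟩

end Cfsg.Agent.S1598
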