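import Cfsg.Statements.S1600
import Mathlib
import Cfsg.Agent.H7.Gol.Tr2

set_option autoImplicit false
open scoped Pointwise
open Cfsg

namespace Cfsg.Agent.S1600

open CfsgH7 CfsgH7.Gol MulAction
open scoped Pointwise

/-- The pointwise stabiliser of three points of a dodecad inside the dodecad stabiliser (order 72) is transitive on the complementary dodecad. -/
theorem result (d : Finset Cfsg.GolayPt) (hd : d ∈ Cfsg.dodecads) (p q r : Cfsg.GolayPt) (hp : p ∈ d) (hq : q ∈ d) (hr : r ∈ d) (hpq : p ≠ q) (hpr : p ≠ r) (hqr : q ≠ r) : Nat.card ↥(MulAction.stabilizer Cfsg.M24 d ⊓ MulAction.stabilizer Cfsg.M24 p ⊓ MulAction.stabilizer Cfsg.M24 q ⊓ MulAction.stabilizer Cfsg.M24 r) = 72 ∧ ∀ x ∉ d, ∀ y ∉ d, ∃ g ∈ (MulAction.stabilizer Cfsg.M24 d ⊓ MulAction.stabilizer Cfsg.M24 p ⊓ MulAction.stabilizer Cfsg.M24 q ⊓ MulAction.stabilizer Cfsg.M24 r), ((g : ↥Cfsg.M24) : Equiv.Perm Cfsg.GolayPt)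 x = y := by
  obtain ⟨c, rfl, rfl, rfl, rfl⟩ := dpts3 hd hp hq hr hpq hpr hqr
  have h := (((Cj.stab c (S 0x5335f)).inf (Cj.stab c (px 0))).inf (Cj.stab c (px 1))).inf (Cj.stab c (px 2))
  refine ⟨h.card.trans card9, fun y hy z hz => ?_⟩
  obtain ⟨y, rfl⟩ := ex_smul c y
  obtain ⟨z, rfl⟩ := ex_smul c z
  rw [mem_smul] at hy hz
  obtain ⟨k, hk, e⟩ := I.fam.tr2 RP mem9 (I.rb_mem 0x5335f).not [0,1,0,0,1,0] 5 (by decide +kernel) y trivial z trivial hy hz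
  exact ⟨_, (h k).1 hk, cj_smul c e⟩

end Cfsg.Agent.S1600
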