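import Cfsg.Statements.S1601
import Cfsg.Agent.H1.Mi
import Cfsg.Agent.S0498

set_option autoImplicit false
open scoped Pointwise
open Cfsg

namespace Cfsg.Agent.S1601

section
open CfsgH1.Mg CfsgH1.Mc CfsgH1.Mh CfsgH1.Mi CfsgH7 CfsgH7.Gol MulAction
open scoped commutatorElement

noncomputable abbrev KB : Subgroup M24 := K11 ⊓ stabilizer M24 (px 23)

def WB : List (List Nat) := [[1,5,1,1,1,4,0,4,4,0],[0,2,1,5,1,5,1,2,5,1]]

theorem memB : ∀ w ∈ WB, wprod gm w ∈ KB := mem_inf' (mem_inf' (I.mem_stab RP (by decide +kernel)) (RP.mem_stab (by decide +kernel))) (RP.mem_stab (by decide +kernel))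

theorem cardB : Nat.card KB = 660 :=
  RP.card_stab I.inj gen11 card11 ⟨23, [1,1,0,0,1,0,1,0], 12⟩ 5 rfl (by decide +kernel)

theorem genB : genW gm WB = KB :=
  RP.gen_of I.inj memB cardB [⟨1, [[0],[2]], [0,0,1,0,0,1], 11⟩,
  ⟨2, [[0,0,2,0,2,0,0],[0,0,2,1,1,2,1]], [0,1,1,0,1], 10⟩,
  ⟨4, [[2],[0,2,0,0,2,0,2,0,0,2,1]], [0,1,0], 6⟩] 5 (by decide +kernel)

noncomputable abbrev KC : Subgroup M24 := KB ⊓ stabilizer M24 (px 1)

def WC : List (List Nat) := [[1,5,5,1,5,0,0,0,4,0,5,5],[2,1,5,5,1,5,0,0,0,4,0,2,4]]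

theorem memC : ∀ w ∈ WC, wprod gm w ∈ KC := mem_inf' (mem_inf' (mem_inf' (I.mem_stab RP (by decide +kernel)) (RP.mem_stab (by decide +kernel))) (RP.mem_stab (by decide +kernel))) (RP.mem_stab (by decide +kernel))

theorem cardC : Nat.card KC = 60 :=
  RP.card_stab I.inj genB cardB ⟨1, [0,0,1,0,0,1], 11⟩ 5 rfl (by decide +kernel)

theorem simp : IsSimpleGroup KB :=
  RP.simple I.inj base7 (RP.maxIn' I.inj genB ⟨1, [0,0,1,0,0,1], 11⟩ 5 rfl memC [⟨2, [0], [1,0,1,0,1,0], [0,0,1,0,2]⟩] (by decide +kernel))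
    (fun x _ h => fx_one (fun i hi hb => core_orb h _ (((RP.ob_rb' I.inj genB ⟨1, [0,0,1,0,0,1], 11⟩ 5 rfl (by decide +kernel)) i hi).1 hb))
      [[0x34200f, 0xc12017, 0x67016, 0xb067, 0xc504b, 0x4b18a, 0xa53042, 0xd241a]] (by decide +kernel)) memB cardC cardB [0,2] 11 [[],[0]] [⟨1, [[0]], [0,0,0,0,0,0,0,0,0,0], 11⟩,
  ⟨2, [[0,0,0,3],[1,1,2,0]], [0,0,0,1,0,0], 10⟩,
  ⟨4, [[0,2,0,2,2],[0,2,2,2,2]], [0,1,0], 6⟩] 5 (by decide +kernel)

end

/-- In the 3-transitive action of the smallest Mathieu group on the complementary dodecad, a point stabiliser is isomorphic to PSL(2, 11). -/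
theorem result (d : Finset Cfsg.GolayPt) (hd : d ∈ Cfsg.dodecads) (p q : Cfsg.GolayPt) (hp : p ∈ d) (hq : q ∉ d) : Nonempty (↥(MulAction.stabilizer Cfsg.M24 d ⊓ MulAction.stabilizer Cfsg.M24 p ⊓ MulAction.stabilizer Cfsg.M24 q) ≃* Matrix.ProjectiveSpecialLinearGroup (Fin 2) (ZMod 11)) := by
  open CfsgH1.Mg CfsgH1.Mc CfsgH1.Mh CfsgH1.Mi CfsgH7 CfsgH7.Gol MulAction in
  open scoped commutatorElement in
  · obtain ⟨c, rfl, rfl, e⟩ := epts te1 hd hp [q] rfl (by simp) (by simpa using hq)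
    obtain rfl : c • px 23 = q := by simpa using e
    have := simp
    have : Fact (Nat.Prime 11) := ⟨by norm_num⟩
    obtain ⟨e1⟩ := S0498.result (G := KB) 11 (Or.inl rfl) (by rw [cardB]; rfl) (F := ZMod 11) (ZMod.card 11)
    exact ⟨(((Cj.stab c _).inf (Cj.stab c _)).inf (Cj.stab c _)).equiv.symm.trans e1⟩

end Cfsg.Agent.S1601
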