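import Cfsg.Statements.S1602
import Cfsg.Agent.H1.Mc

set_option autoImplicit false
open scoped Pointwise
open Cfsg

namespace Cfsg.Agent.S1602

section
open CfsgH1.Mg CfsgH1.Mc CfsgH7 CfsgH7.Gol MulAction
open scoped commutatorElement

noncomputable abbrev KA : Subgroup M24 := K11 ⊓ stabilizer M24 (S 0x800020)

def WA : List (List Nat) := [[5,1,5,5,1,5,0,0,0,4,0],[4,1,5,1,1,1,1,4,1,1,2,1,1,4,1]]

theorem memA : ∀ w ∈ WA, wprod gm w ∈ KA := mem_inf' (mem_inf' (I.mem_stab RP (by decide +kernel)) (RP.mem_stab (by decide +kernel))) (I.mem_stab RP (by decide +kernel))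

theorem cardA : Nat.card KA = 120 :=
  R2.card_stab F2.inj gen11 card11 ⟨153, [0,1,0,1,0,1,0,1,0,1,0,0], 66⟩ 9 (I.fpt_eq' (P := P2) (i := 153) (a := 0x800020) (by decide +kernel)) (by decide +kernel)

theorem genA : genW gm WA = KA :=
  RP.gen_of I.inj memA cardA [⟨7, [[0],[2]], [0,1,0,1,0], 10⟩,
  ⟨1, [[1,2,1,3],[1,2,2,2]], [0,1,0], 6⟩,
  ⟨2, [[0,3,0,3]], [0], 2⟩] 5 (by decide +kernel)

end

/-- In the 12-point action of the smallest Mathieu group the setwise stabiliser of a pair is isomorphic to the symmetric group of degree 5. -/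
theorem result (d : Finset Cfsg.GolayPt) (hd : d ∈ Cfsg.dodecads) (p q q' : Cfsg.GolayPt) (hp : p ∈ d) (hq : q ∉ d) (hq' : q' ∉ d) (hqq' : q ≠ q') : Nonempty (↥(MulAction.stabilizer Cfsg.M24 d ⊓ MulAction.stabilizer Cfsg.M24 p ⊓ MulAction.stabilizer Cfsg.M24 ({q, q'} : Finset Cfsg.GolayPt)) ≃* Equiv.Perm (Fin 5)) := by
  open CfsgH1.Mg CfsgH1.Mc CfsgH7 CfsgH7.Gol MulAction in
  open scoped commutatorElement in
  · obtain ⟨c, rfl, rfl, e⟩ := epts te2 hd hp [q', q] rfl (by simp [hqq'.symm]) (by simp [hq, hq'])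
    simp only [List.map_cons, List.map_nil, List.cons.injEq, and_true] at e
    obtain ⟨e1⟩ := iso_perm (K := KA) (s := S 0x43018) (genA ▸ fun _ h => genW_le.2 (I.mem_stab RP (by decide +kernel)) h)
      (faith_base (RP.base_of I.inj memA cardA [⟨3, [[2],[0,2]], [0,0,1,0], 5⟩,
    ⟨4, [[0],[2,0,3]], [0,0,1], 4⟩,
    ⟨12, [[0,2,0,3]], [0,0], 3⟩,
    ⟨13, [[0,2,2,2]], [0], 2⟩] 5 (by decide +kernel))
        (by decide +kernel)) (n := 5) (by decide +kernel) cardA
    rw [show ({q, q'} : Finset GolayPt) = (open Pointwise in c • S 0x800020) by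
      rw [show S 0x800020 = {px 23, px 5} by decide +kernel, Finset.smul_finset_insert, Finset.smul_finset_singleton,
        e.1, e.2]]
    exact ⟨(((Cj.stab c _).inf (Cj.stab c _)).inf (Cj.stab c _)).equiv.symm.trans e1⟩

end Cfsg.Agent.S1602
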