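import Cfsg.Statements.S1604
import Mathlib
import Cfsg.Agent.H7.Gol.Tr2

set_option autoImplicit false
open scoped Pointwise
open Cfsg

namespace Cfsg.Agent.S1604

open CfsgH7 CfsgH7.Gol MulAction
open scoped Pointwise

def W : List (List Nat) := [[1,5,1,5,1,5],[1,5,0,4,4,1,4,4]]

theorem mem : ∀ w ∈ W, wprod gm w ∈ K22 ⊓ stabilizer M24 (S 0x82402f) :=
  mem_inf' (mem_inf' (RP.mem_stab (by decide +kernel)) (RP.mem_stab (by decide +kernel))) (I.mem_stab RP (by decide +kernel))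

/-- A hexad stabiliser in the two-point stabiliser has orbits of sizes 1, 16, 60 on the 77 hexads: the 16 hexads disjoint from it and the 60 meeting it in two points. -/
theorem result (p q : Cfsg.GolayPt) (hpq : p ≠ q) (o o' o'' : Finset Cfsg.GolayPt) (ho : o ∈ Cfsg.octads) (ho' : o' ∈ Cfsg.octads) (ho'' : o'' ∈ Cfsg.octads) (hp : p ∈ o ∧ p ∈ o' ∧ p ∈ o'') (hq : q ∈ o ∧ q ∈ o' ∧ q ∈ o'') (h : (o ∩ o').card = (o ∩ o'').card) : {x : Finset Cfsg.GolayPt | x ∈ Cfsg.octads ∧ p ∈ x ∧ q ∈ x ∧ (o ∩ x).card = 2}.ncard = 16 ∧ {x : Finset Cfsg.GolayPt | x ∈ Cfsg.octads ∧ p ∈ x ∧ q ∈ x ∧ (o ∩ x).card = 4}.ncard = 60 ∧ ∃ g : Equiv.Perm Cfsg.GolayPt, g ∈ Cfsg.M24 ∧ g p = p ∧ g q = q ∧ g • o = o ∧ g • o' = o'' := by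
  obtain ⟨c, rfl, rfl, rfl⟩ := opts2 ho hp.1 hq.1 hpq
  have r := fun k => (rbW 8).and ((rbP (j := 23) (by norm_num)).and ((rbP (j := 0) (by norm_num)).and (rbI 0x82402f k)))
  refine ⟨FC.ncard_tr (r 2) c (fun y => ?_) 12 (by decide +kernel),
    FC.ncard_tr (r 4) c (fun y => ?_) 12 (by decide +kernel), ?_⟩
  · rw [Set.mem_setOf_eq, moct, mem_smul, mem_smul, card_inter_smul, mem_oct, and_assoc]
  · rw [Set.mem_setOf_eq, moct, mem_smul, mem_smul, card_inter_smul, mem_oct, and_assoc]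
  obtain ⟨y, rfl⟩ := ex_smul c o'
  obtain ⟨z, rfl⟩ := ex_smul c o''
  simp only [moct, mem_smul, card_inter_smul] at *
  obtain ⟨k, hk, e⟩ := FC.trK RC mem r 9 [0,0,81,0,1,0,0,0,47] [[],[],[1,0,1,1,0,1,1,0],[],[1,1,0,1,0,1,0,1,1,0,1,0,1,0,1,1],[],[],[],[]] (by decide +kernel) _
    (Nat.lt_succ_of_le ((Finset.card_le_card Finset.inter_subset_right).trans ho'.2.le)) y ho'.1 z ho''.1
    ⟨ho'.2, hp.2.1, hq.2.1, rfl⟩ ⟨ho''.2, hp.2.2, hq.2.2, h.symm⟩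
  exact ⟨_, (c * k * c⁻¹).2, cj_smul c hk.1.1, cj_smul c hk.1.2, cj_smul c hk.2, cj_smul c e⟩

end Cfsg.Agent.S1604
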