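import Cfsg.Statements.S1605
import Mathlib
import Cfsg.Agent.H7.Gol.Tr2

set_option autoImplicit false
open scoped Pointwise
open Cfsg

namespace Cfsg.Agent.S1605

open CfsgH7 CfsgH7.Gol MulAction
open scoped Pointwise

def W : List (List Nat) := [[0,0,4,0,4,0,4],[0,4,1,4,4,1,4]]

theorem mem : ∀ w ∈ W, wprod gm w ∈ KQ ⊓ stabilizer M24 (px 23) :=
  mem_inf' (mem_inf' (I.mem_stab RP (by decide +kernel)) (RP.mem_stab (by decide +kernel))) (RP.mem_stab (by decide +kernel))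

/-- The two-point stabiliser acts on the 176 octads through the first point avoiding the second with rank 3 and subdegrees 1, 70, 105 (intersections 8, 2, 4). -/
theorem result (p q : Cfsg.GolayPt) (hpq : p ≠ q) : {x : Finset Cfsg.GolayPt | (x ∈ Cfsg.octads ∧ p ∈ x ∧ q ∉ x)}.ncard = 176 ∧ (∀ o o' : Finset Cfsg.GolayPt, (o ∈ Cfsg.octads ∧ p ∈ o ∧ q ∉ o) → (o' ∈ Cfsg.octads ∧ p ∈ o' ∧ q ∉ o') → ∃ g : Equiv.Perm Cfsg.GolayPt, g ∈ Cfsg.M24 ∧ g p = p ∧ g q = q ∧ g • o = o') ∧ ∀ o : Finset Cfsg.GolayPt, (o ∈ Cfsg.octads ∧ p ∈ o ∧ q ∉ o) → {x : Finset Cfsg.GolayPt | (x ∈ Cfsg.octads ∧ p ∈ x ∧ q ∉ x) ∧ (o ∩ x).card = 2}.ncard = 70 ∧ {x : Finset Cfsg.GolayPt | (x ∈ Cfsg.octads ∧ p ∈ x ∧ q ∉ x) ∧ (o ∩ x).card = 4}.ncard = 105 ∧ ∀ o' o'' : Finset Cfsg.GolayPt, (o' ∈ Cfsg.octads ∧ p ∈ o' ∧ q ∉ o') → (o'' ∈ Cfsg.octads ∧ p ∈ o'' ∧ q ∉ o'') → (o ∩ o').card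 = (o ∩ o'').card → ∃ g : Equiv.Perm Cfsg.GolayPt, g ∈ Cfsg.M24 ∧ g p = p ∧ g q = q ∧ g • o = o ∧ g • o' = o'' := by
  have tr : ∀ o : Finset GolayPt, o ∈ octads ∧ p ∈ o ∧ q ∉ o → ∃ c : M24, c • S 0x82402f = o ∧ c • px 4 = q ∧ c • px 23 = p :=
    fun o ho => by simpa using qpts tq1 ho.1 ho.2.2 [p] rfl (by simp) (by simpa using ho.2.1)
  refine ⟨?_, fun o o' ho ho' => ?_, fun o ho => ?_⟩
  · obtain ⟨c, rfl, rfl⟩ := pts2 hpq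
    exact FC.ncard_tr ((rbW 8).and ((rbP (j := 23) (by norm_num)).andn (rbP (j := 0) (by norm_num)))) c (fun y => by
      rw [Set.mem_setOf_eq, moct, mem_smul, mem_smul, mem_oct, and_assoc]) 12 (by decide +kernel)
  · obtain ⟨a, a1, a2, a3⟩ := tr o ho
    obtain ⟨b, b1, b2, b3⟩ := tr o' ho'
    exact ⟨_, (b * a⁻¹).2, div_smul' a3 b3, div_smul' a2 b2, div_smul' a1 b1⟩
  obtain ⟨c, rfl, rfl, rfl⟩ := tr o ho
  have r := fun k => ((rbW 8).and ((rbP (j := 23) (by norm_num)).andn (rbP (j := 4) (by norm_num)))).and (rbI 0x82402f k)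
  refine ⟨FC.ncard_tr (r 2) c (fun y => ?_) 12 (by decide +kernel),
    FC.ncard_tr (r 4) c (fun y => ?_) 12 (by decide +kernel), fun y z hy hz h => ?_⟩
  · simp only [Set.mem_setOf_eq, moct, mem_smul, card_inter_smul, mem_oct (s := y), and_assoc]
  · simp only [Set.mem_setOf_eq, moct, mem_smul, card_inter_smul, mem_oct (s := y), and_assoc]
  obtain ⟨y, rfl⟩ := ex_smul c y
  obtain ⟨z, rfl⟩ := ex_smul c z
  simp only [moct, mem_smul, card_inter_smul] at *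
  obtain ⟨k, hk, e⟩ := FC.trK RC mem r 9 [0,0,4,0,1,0,0,0,47] [[],[],[0,1,0,1,0,1,0,1,0,0,0],[],[0,1,0,1,0,1,0,1,0,0,1],[],[],[],[]] (by decide +kernel) _
    (Nat.lt_succ_of_le ((Finset.card_le_card Finset.inter_subset_right).trans hy.1.2.le)) y hy.1.1 z hz.1.1
    ⟨⟨hy.1.2, hy.2⟩, rfl⟩ ⟨⟨hz.1.2, hz.2⟩, h.symm⟩
  exact ⟨_, (c * k * c⁻¹).2, cj_smul c hk.2, cj_smul c hk.1.2, cj_smul c hk.1.1, cj_smul c e⟩

end Cfsg.Agent.S1605
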