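import Cfsg.Statements.S5394
import Cfsg.Agent.H1.Mc

set_option autoImplicit false
open Cfsg

namespace Cfsg.Agent.S5394

/-- The automorphism group of the length-24 code built from the squares modulo 23 has exactly two conjugacy classes of involutions: an involution either fixes exactly the eight points of an octad or has no fixed points, both kinds occur, and any two involutions of the same kind are conjugate in the group. -/
theorem result : (∀ g ∈ Cfsg.M24, orderOf g = 2 → (Finset.univ.filter fun p => g p = p) ∈ Cfsg.octads ∨ ∀ p, g p ≠ p) ∧ (∃ g ∈ Cfsg.M24, orderOf g = 2 ∧ (Finset.univ.filter fun p => g p = p) ∈ Cfsg.octads) ∧ (∃ g ∈ Cfsg.M24, orderOf g = 2 ∧ ∀ p, g p ≠ p) ∧ ∀ g ∈ Cfsg.M24, ∀ h ∈ Cfsg.M24, orderOf g = 2 → orderOf h = 2 → ((∀ p, g p ≠ p) ↔ (∀ p, h p ≠ p)) → ∃ k ∈ Cfsg.M24, k * g * k⁻¹ = h := by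
  open CfsgH1.Mg CfsgH1.Mc CfsgH7 CfsgH7.Gol MulAction in
  open scoped commutatorElement in
  · refine ⟨fun g hg h => ?_, ⟨_, (wprod gm z1).2, (Subgroup.orderOf_coe _).trans oz1, ?_⟩,
      ⟨_, (wprod gm z2).2, (Subgroup.orderOf_coe _).trans oz2, fx_empty.1 cz2⟩, fun g hg h hh a b e => ?_⟩
    · rcases cls2 ((order_mk hg).trans h) with ⟨c, e⟩ | ⟨c, e⟩
      · left
        show fx ⟨g, hg⟩ ∈ _
        rw [e, fx, fix_conj, moct]
        exact (fz1 ▸ oct_of (by decide +kernel) : fx _ ∈ _)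
      · exact Or.inr ((fx_empty (x := ⟨g, hg⟩)).1 (by rw [e, card_fx_conj, cz2]))
    · exact (fz1 ▸ oct_of (by decide +kernel) : fx _ ∈ _)
    have key : ∀ (z c d : M24), ⟨g, hg⟩ = c * z * c⁻¹ → ⟨h, hh⟩ = d * z * d⁻¹ → ∃ k ∈ M24, k * g * k⁻¹ = h :=
      fun z c d e1 e2 => ⟨_, (d * c⁻¹).2, congrArg Subtype.val
        (show d * c⁻¹ * ⟨g, hg⟩ * (d * c⁻¹)⁻¹ = ⟨h, hh⟩ by rw [e1, e2]; group)⟩
    by_cases h0 : ∀ p, g p ≠ p
    · obtain ⟨c, e1⟩ := c2B hg a h0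
      obtain ⟨d, e2⟩ := c2B hh b (e.1 h0)
      exact key _ c d e1 e2
    · obtain ⟨c, e1⟩ := c2A hg a fun h1 => h0 ((fx_empty (x := ⟨g, hg⟩)).1 h1)
      obtain ⟨d, e2⟩ := c2A hh b fun h1 => h0 (e.2 ((fx_empty (x := ⟨h, hh⟩)).1 h1))
      exact key _ c d e1 e2

end Cfsg.Agent.S5394
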