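import Mathlib
import Cfsg.Statements.S1606
import Cfsg.Agent.H8.Nse
import Cfsg.Agent.S5394
import Cfsg.Agent.S0366
import Cfsg.Agent.S0364
import Cfsg.Agent.S0378

set_option autoImplicit false
open scoped Pointwise
open Cfsg

namespace Cfsg.Agent.S1606

theorem fixc (k : ℕ) (hk : k ≤ 5) (s : Set GolayPt) (hs : s.ncard = k) {G : Type*} [Group G] (f : G →* M24)
    (hf : Function.Injective f) (h : ∀ g, ∀ x ∈ s, f g • x = x) :
    Nat.card G * (Nat.factorial 24 / Nat.factorial (24 - k)) ∣ 244823040 := by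
  have c : Nat.card GolayPt = 24 := by rw [Nat.card_eq_fintype_card]; rfl
  haveI := Cfsg.Agent.S0366.result
  have h1 := (MulAction.isMultiplyPretransitive_of_le (G := M24) (α := GolayPt) hk (by omega)).index_of_fixingSubgroup_mul hs
  rw [c] at h1
  rw [← h1, Nat.mul_div_cancel _ (Nat.factorial_pos _), ← Cfsg.Agent.S0364.result,
    ← (fixingSubgroup M24 s).card_mul_index, Nat.card_congr (MonoidHom.ofInjective hf).toEquiv]
  refine Nat.mul_dvd_mul_right (Subgroup.card_dvd_of_le ?_) _
  rintro _ ⟨g, rfl⟩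
  exact (mem_fixingSubgroup_iff _).2 (h g)

theorem f3 {G : Type*} [Group G] (f : G →* M24) (hf : Function.Injective f) {a b c : GolayPt} (ab : a ≠ b) (ac : a ≠ c)
    (bc : b ≠ c) (h : ∀ g, f g • a = a ∧ f g • b = b ∧ f g • c = c) : Nat.card G ∣ 20160 :=
  Nat.dvd_of_mul_dvd_mul_right (by norm_num : 0 < 12144) (fixc 3 (by norm_num) {a, b, c}
    (Set.ncard_eq_three.2 ⟨a, b, c, ab, ac, bc, rfl⟩) f hf fun g => by simpa using h g)

theorem f4 {G : Type*} [Group G] (f : G →* M24) (hf : Function.Injective f) {a b c d : GolayPt} (ab : a ≠ b) (ac : a ≠ c)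
    (bc : b ≠ c) (da : d ≠ a) (db : d ≠ b) (dc : d ≠ c) (h : ∀ g, f g • d = d ∧ f g • a = a ∧ f g • b = b ∧ f g • c = c) :
    Nat.card G ∣ 960 :=
  Nat.dvd_of_mul_dvd_mul_right (by norm_num : 0 < 255024) (fixc 4 (by norm_num) {d, a, b, c}
    (by rw [Set.ncard_insert_of_notMem (by simp [da, db, dc]), Set.ncard_eq_three.2 ⟨a, b, c, ab, ac, bc, rfl⟩])
    f hf fun g => by simpa using h g)

theorem third {X : Type*} (f : X → GolayPt) (hf : Function.Injective f) (h : 2 < Nat.card X) (p q : GolayPt) :
    ∃ x, f x ≠ p ∧ f x ≠ q := by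
  by_contra hc
  push Not at hc
  have := Nat.card_le_card_of_injective (β := ({p, q} : Set GolayPt))
    (fun x => ⟨f x, by by_cases e : f x = p; exacts [Or.inl e, Or.inr (hc x e)]⟩) fun x y e => hf (congrArg Subtype.val e)
  have h2 := Set.ncard_insert_le p {q}
  rw [Nat.card_coe_set_eq] at this
  rw [Set.ncard_singleton] at h2
  omega

theorem no22 {p q : GolayPt} (hpq : p ≠ q) {g : M24} (hp : g • p = p) (hq : g • q = q) : orderOf g ≠ 22 := by
  classical
  intro ho
  have ht : orderOf (g ^ 11) = 2 := by rw [orderOf_pow' _ (by norm_num), ho]; norm_num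
  have hy : orderOf (g ^ 2) = 11 := by rw [orderOf_pow' _ (by norm_num), ho]; norm_num
  rcases Cfsg.Agent.S5394.result.1 _ (g ^ 11).2 ((Subgroup.orderOf_coe _).trans ht) with e | e
  · have h8 : Fintype.card {x // g ^ 11 • x = x} = 8 := (Fintype.card_subtype _).trans e.2
    haveI : IsPGroup 11 (Subgroup.zpowers (g ^ 2)) := IsPGroup.of_card (n := 1) (by rw [Nat.card_zpowers, hy, pow_one])
    let F : SubMulAction (Subgroup.zpowers (g ^ 2)) GolayPt := ⟨{x | g ^ 11 • x = x}, fun c x hx => by
      obtain ⟨_, k, rfl⟩ := c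
      show g ^ 11 • (g ^ 2) ^ k • x = (g ^ 2) ^ k • x
      rw [← mul_smul, ((Commute.pow_pow_self g 11 2).zpow_right k).eq, mul_smul, show g ^ 11 • x = x from hx]⟩
    have h1 := this.card_modEq_card_fixedPoints F
    have h9 : Nat.card {x // g ^ 11 • x = x} = 8 := Nat.card_eq_fintype_card.trans h8
    rw [show Nat.card F = 8 from h9] at h1
    obtain ⟨x, x1, x2⟩ := third (X := MulAction.fixedPoints (Subgroup.zpowers (g ^ 2)) F) (fun x => x.1.1)
      (fun x y e => Subtype.ext (Subtype.ext e)) (by unfold Nat.ModEq at h1; omega) p q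
    have h2 : Subgroup.zpowers (g ^ 2) ≤ MulAction.stabilizer M24 p ⊓ MulAction.stabilizer M24 q :=
      Subgroup.zpowers_le.2 (Subgroup.pow_mem _ (Subgroup.mem_inf.2 ⟨hp, hq⟩) 2)
    have := f3 (Subgroup.zpowers (g ^ 2)).subtype Subtype.val_injective hpq x1.symm x2.symm
      fun c => ⟨(h2 c.2).1, (h2 c.2).2, congrArg Subtype.val (x.2 c)⟩
    rw [Nat.card_zpowers, hy] at this
    omega
  · exact e p (Subgroup.pow_mem (MulAction.stabilizer M24 p) hp 11)

theorem e22 {G : Type*} [Group G] [Finite G] (P : Sylow 11 G) (hP : Nat.card (P : Subgroup G) = 11)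
    (h4 : 4 ∣ Nat.card (Subgroup.normalizer ((P : Subgroup G) : Set G))) : ∃ g : G, orderOf g = 22 := by
  haveI : IsCyclic (P : Subgroup G) := isCyclic_of_prime_card hP
  have h1 := Subgroup.card_subgroup_dvd_card (P : Subgroup G).normalizerMonoidHom.range
  rw [IsCyclic.card_mulAut, hP, ← Subgroup.index_ker, show Nat.totient 11 = 10 by decide] at h1
  have h2 := (P : Subgroup G).normalizerMonoidHom.ker.card_mul_index
  have h3 : 2 ∣ Nat.card (P : Subgroup G).normalizerMonoidHom.ker := by
    have := Nat.le_of_dvd (by norm_num) h1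
    generalize (P : Subgroup G).normalizerMonoidHom.ker.index = d at *
    interval_cases d <;> omega
  rw [Subgroup.normalizerMonoidHom_ker,
    Nat.card_congr (Subgroup.subgroupOfEquivOfLe (Subgroup.centralizer_le_normalizer _)).toEquiv] at h3
  obtain ⟨z, hz, oz⟩ := CfsgH2.exists_prime_order_mem Nat.prime_two h3
  obtain ⟨y, hy, oy⟩ := CfsgH2.exists_prime_order_mem (H := (P : Subgroup G)) (p := 11) (by norm_num) hP.symm.dvd
  have : Commute y z := hz y hy
  exact ⟨y * z, by rw [this.orderOf_mul_eq_mul_orderOf_of_coprime (by rw [oy, oz]; norm_num), oy, oz]⟩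

/-- The stabiliser of two points in the group of the length-24 code has no subgroups of index 56 or 210. -/
theorem result (p q : Cfsg.GolayPt) (hpq : p ≠ q) (H : Subgroup ↥(MulAction.stabilizer Cfsg.M24 p ⊓ MulAction.stabilizer Cfsg.M24 q)) : H.index ≠ 56 ∧ H.index ≠ 210 := by
  have hK := H.card_mul_index
  rw [Cfsg.Agent.S0378.result p q hpq] at hK
  let f : H →* M24 := (Subgroup.subtype _).comp H.subtype
  have hf : Function.Injective f := Subtype.val_injective.comp Subtype.val_injective
  have n22 : ¬ ∃ g : H, orderOf g = 11 * 2 := fun ⟨g, hg⟩ => no22 hpq g.1.2.1 g.1.2.2 ((orderOf_injective f hf g).trans hg)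
  constructor <;> intro e <;> rw [e] at hK
  · have h : Nat.card H = 7920 := by omega
    haveI := CfsgH8.Pg.simple144 h (by
      rcases or_assoc.2 (CfsgH8.Pg.nS h) with e | e | e
      exacts [absurd (CfsgH8.Pg.case1 h e).1 n22, absurd (CfsgH8.Pg.case3 h e).1 n22, e])
    obtain ⟨Q⟩ : Nonempty (Sylow 3 H) := inferInstance
    have c : Nat.card GolayPt = 24 := by rw [Nat.card_eq_fintype_card]; rfl
    have h1 := Q.isPGroup'.card_modEq_card_fixedPoints GolayPt
    have h0 : 1 < Nat.card (MulAction.fixedPoints (Q : Subgroup H) GolayPt) := Finite.one_lt_card_iff_nontrivial.2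
      ⟨⟨p, fun g => g.1.1.2.1⟩, ⟨q, fun g => g.1.1.2.2⟩, fun e => hpq (congrArg Subtype.val e)⟩
    rw [c] at h1
    obtain ⟨⟨a, ha⟩, a1, a2⟩ := third (X := MulAction.fixedPoints (Q : Subgroup H) GolayPt) Subtype.val
      Subtype.val_injective (by unfold Nat.ModEq at h1; omega) p q
    have key : ∀ g : H, (∀ u : (Q : Subgroup H), u • g • a = g • a) → g • a = a := fun g hg => by
      by_contra e
      have := f4 (f.comp (Q : Subgroup H).subtype) (hf.comp Subtype.val_injective) hpq a1.symm a2.symm
        (d := g • a) (fun e => a1 (smul_left_cancel g (e.trans (show g • p = p from g.1.2.1).symm)))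
        (fun e => a2 (smul_left_cancel g (e.trans (show g • q = q from g.1.2.2).symm))) e
        fun u => ⟨hg u, u.1.1.2.1, u.1.1.2.2, ha u⟩
      rw [CfsgH8.M11.cP h] at this
      omega
    have h2 : 144 ∣ Nat.card (MulAction.stabilizer H a) := by
      rw [← CfsgH8.M11.cN h Q]
      refine Subgroup.card_dvd_of_le fun g hg => key g fun u => ?_
      have := ha ⟨g⁻¹ * u * g, by simpa using (Subgroup.mem_normalizer_iff.1 (Subgroup.inv_mem _ hg) u).1 u.2⟩
      change (g⁻¹ * u * g) • a = a at this
      rw [mul_smul, mul_smul, inv_smul_eq_iff] at this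
      exact this
    have h3 := f3 (f.comp (MulAction.stabilizer H a).subtype) (hf.comp Subtype.val_injective) hpq a1.symm a2.symm
      fun u => ⟨u.1.1.2.1, u.1.1.2.2, u.2⟩
    have h4 := (MulAction.stabilizer H a).card_mul_index
    rw [MulAction.index_stabilizer, h] at h4
    have h5 := Set.ncard_le_card (MulAction.orbit H a)
    rw [c] at h5
    have h6 : Nat.card (MulAction.orbit H a) = 11 := by
      rw [Nat.card_coe_set_eq]
      obtain ⟨m, hm⟩ := h2
      rw [hm] at h3 h4
      generalize (MulAction.orbit H a).ncard = n at *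
      interval_cases n <;> first
        | omega
        | exact absurd ((show m = 55 by omega) ▸ h3) (by norm_num)
        | exact absurd ((show m = 11 by omega) ▸ h3) (by norm_num)
    have h7 := Q.isPGroup'.card_modEq_card_fixedPoints (MulAction.orbit H a)
    haveI : Subsingleton (MulAction.fixedPoints (Q : Subgroup H) (MulAction.orbit H a)) := ⟨by
      rintro ⟨⟨_, g, rfl⟩, hg⟩ ⟨⟨_, k, rfl⟩, hk⟩
      exact Subtype.ext (Subtype.ext ((key g fun u => congrArg Subtype.val (hg u)).trans
        (key k fun u => congrArg Subtype.val (hk u)).symm))⟩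
    have h8 := Finite.card_le_one_iff_subsingleton.2 this
    rw [h6] at h7
    unfold Nat.ModEq at h7
    generalize Nat.card (MulAction.fixedPoints (Q : Subgroup H) (MulAction.orbit H a)) = n at h7 h8
    interval_cases n <;> simp at h7
  · obtain ⟨P⟩ : Nonempty (Sylow 11 H) := inferInstance
    have h : Nat.card H = 11 * 192 := by omega
    have hP : Nat.card (P : Subgroup H) = 11 := by
      rw [P.card_eq_multiplicity, h, Nat.factorization_mul (by norm_num) (by norm_num),
        (by norm_num : Nat.Prime 11).factorization]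
      simp [Nat.factorization_eq_zero_of_not_dvd (by norm_num : ¬ 11 ∣ 192)]
    have h1 := P.card_dvd_index
    have h2 := (P : Subgroup H).card_mul_index
    rw [hP, h] at h2
    rw [show (P : Subgroup H).index = 192 by omega] at h1
    have h3 := (Subgroup.normalizer ((P : Subgroup H) : Set H)).card_mul_index
    rw [show (Subgroup.normalizer ((P : Subgroup H) : Set H)).index = _ from P.card_eq_index_normalizer.symm, h] at h3
    refine n22 (e22 P hP ?_)
    rcases (by decide +kernel : ∀ d ∈ Nat.divisors 192, d % 11 = 1 → d = 1 ∨ d = 12) _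
      (Nat.mem_divisors.2 ⟨h1, by norm_num⟩) (card_sylow_modEq_one 11 H) with e | e <;> rw [e] at h3 <;> omega

end Cfsg.Agent.S1606
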