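import Cfsg.Statements.S1607
import Mathlib
import Cfsg.Agent.H7.Gol.Tr2

set_option autoImplicit false
open scoped Pointwise
open Cfsg

namespace Cfsg.Agent.S1607

open CfsgH7 CfsgH7.Gol MulAction
open scoped Pointwise

def W : List (List Nat) := [[1,4,0],[4,4,1,4,4]]

theorem mem : ∀ w ∈ W, wprod gm w ∈ KO ⊓ stabilizer M24 (px 23) :=
  mem_inf' (I.mem_stab RP (by decide +kernel)) (RP.mem_stab (by decide +kernel))

/-- The point stabiliser acts on the 253 heptads of its S(4, 7, 23) with rank 3 and subdegrees 1, 112, 140 (intersections 8, 2, 4). -/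
theorem result (x : Cfsg.GolayPt) (o : Finset Cfsg.GolayPt) (ho : o ∈ Cfsg.octads) (hx : x ∈ o) : {o' : Finset Cfsg.GolayPt | o' ∈ Cfsg.octads ∧ x ∈ o' ∧ (o ∩ o').card = 2}.ncard = 112 ∧ {o' : Finset Cfsg.GolayPt | o' ∈ Cfsg.octads ∧ x ∈ o' ∧ (o ∩ o').card = 4}.ncard = 140 ∧ ∀ o' o'' : Finset Cfsg.GolayPt, o' ∈ Cfsg.octads → o'' ∈ Cfsg.octads → x ∈ o' → x ∈ o'' → (o ∩ o').card = (o ∩ o'').card → ∃ g : Equiv.Perm Cfsg.GolayPt, g ∈ Cfsg.M24 ∧ g x = x ∧ g • o = o ∧ g • o' = o'' := by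
  obtain ⟨c, rfl, rfl⟩ := opts1 ho hx
  have r := fun k => (rbW 8).and ((rbP (j := 23) (by norm_num)).and (rbI 0x82402f k))
  refine ⟨FC.ncard_tr (r 2) c (fun y => ?_) 12 (by decide +kernel),
    FC.ncard_tr (r 4) c (fun y => ?_) 12 (by decide +kernel), fun y z hy hz h1 h2 h => ?_⟩
  · simp only [Set.mem_setOf_eq, moct, mem_smul, card_inter_smul, mem_oct (s := y), and_assoc]
  · simp only [Set.mem_setOf_eq, moct, mem_smul, card_inter_smul, mem_oct (s := y), and_assoc]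
  obtain ⟨y, rfl⟩ := ex_smul c y
  obtain ⟨z, rfl⟩ := ex_smul c z
  simp only [moct, mem_smul, card_inter_smul] at *
  obtain ⟨k, hk, e⟩ := FC.trK RC mem r 9 [0,0,4,0,1,0,0,0,47] [[],[],[0,1,0,0,1,0,0,1,0,1,0,1],[],[0,1,0,0,1,0,0,1,0,0,0,0,1],[],[],[],[]] (by decide +kernel) _
    (Nat.lt_succ_of_le ((Finset.card_le_card Finset.inter_subset_right).trans hy.2.le)) y hy.1 z hz.1
    ⟨hy.2, h1, rfl⟩ ⟨hz.2, h2, h.symm⟩
  exact ⟨_, (c * k * c⁻¹).2, cj_smul c hk.2, cj_smul c hk.1, cj_smul c e⟩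

end Cfsg.Agent.S1607
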