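import Cfsg.Statements.S1635
import Cfsg.Agent.H1.St4

set_option autoImplicit false
open Cfsg

namespace Cfsg.Agent.S1635

/-- Coset leaders of the length-24 code: a coset contains a unique word of weight ≤ 3, or else exactly six words of weight 4 and none lighter. -/
theorem result (w : Cfsg.GolayPt → ZMod 2) : ({v : Cfsg.GolayPt → ZMod 2 | hammingNorm v ≤ 4 ∧ w - v ∈ Cfsg.golayCode}.ncard = 1 ∧ ∃ v : Cfsg.GolayPt → ZMod 2, hammingNorm v ≤ 3 ∧ w - v ∈ Cfsg.golayCode) ∨ ({v : Cfsg.GolayPt → ZMod 2 | hammingNorm v ≤ 4 ∧ w - v ∈ Cfsg.golayCode}.ncard = 6 ∧ ∀ v : Cfsg.GolayPt → ZMod 2, w - v ∈ Cfsg.golayCode → hammingNorm v ≤ 4 → hammingNorm v = 4) := by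
  open CfsgH1.St CfsgH1.Un CfsgH7 CfsgH7.Gol Finset in
  open scoped commutatorElement in
  · have e : {v : Cfsg.GolayPt → ZMod 2 | hammingNorm v ≤ 4 ∧ w - v ∈ Cfsg.golayCode} =
        {u | u - w ∈ Cfsg.golayCode ∧ hammingNorm u ≤ 4} := by
      ext u; simp only [Set.mem_setOf_eq, and_comm, sub_mem_comm_iff]
    rw [e]
    rcases code_coset cardP golay_card golay_min w with ⟨u, h1, h2⟩ | ⟨h1, h2⟩
    · refine Or.inl ⟨by rw [h1, Set.ncard_singleton], u, h2, ?_⟩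
      have : u ∈ {u | u - w ∈ Cfsg.golayCode ∧ hammingNorm u ≤ 4} := by rw [h1]; rfl
      exact sub_mem_comm_iff.1 this.1
    · exact Or.inr ⟨h1, fun v a b => (h2 v ⟨sub_mem_comm_iff.1 a, b⟩).1⟩

end Cfsg.Agent.S1635
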