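import Mathlib
import Cfsg.Statements.S1609
import Cfsg.Agent.S1606
import Cfsg.Agent.S1635
import Cfsg.Agent.S1554
import Cfsg.Agent.S0376
import Cfsg.Agent.S0367
import Cfsg.Agent.S0360
import Cfsg.Agent.S0359
import Cfsg.Agent.S0382
import Cfsg.Agent.S5393
import Cfsg.Agent.H7.Gol.Code

set_option autoImplicit false
open scoped Pointwise
open Cfsg

namespace Cfsg.Agent.S1609

open CfsgH7.Gol Cfsg.Agent.S1606

/-- Coset leaders. -/
def Ld (A : Finset GolayPt) : Set (Finset GolayPt) :=
  {v | v.card ≤ 4 ∧ symmDiff A v ∈ supports (golayCode : Set (GolayPt → ZMod 2))}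

theorem ld (A : Finset GolayPt) : (Ld A).ncard = 1 ∨ ((Ld A).ncard = 6 ∧ ∀ v ∈ Ld A, v.card = 4) := by
  have e : Ld A = support₂ '' {v : GolayPt → ZMod 2 | hammingNorm v ≤ 4 ∧ ind A - v ∈ golayCode} := by
    have k : ∀ v : GolayPt → ZMod 2, support₂ v ∈ Ld A ↔ hammingNorm v ≤ 4 ∧ ind A - v ∈ golayCode := fun v => by
      rw [CharTwo.sub_eq_add, ← SetLike.mem_coe, ← supp_mem, supp_add, supp_ind, norm_eq]; rfl
    ext v
    exact ⟨fun h => ⟨ind v, (k _).1 (by rwa [supp_ind]), supp_ind v⟩, by rintro ⟨w, h, rfl⟩; exact (k w).2 h⟩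
  rw [e, Set.ncard_image_of_injective _ supp_inj]
  refine (Cfsg.Agent.S1635.result (ind A)).imp (fun h => h.1) fun h => ⟨h.1, ?_⟩
  rintro _ ⟨w, hw, rfl⟩
  exact (norm_eq w).symm.trans (h.2 w hw.2 hw.1)

theorem smul_code (g : M24) {c : Finset GolayPt} (h : c ∈ supports (golayCode : Set (GolayPt → ZMod 2))) :
    g • c ∈ supports (golayCode : Set (GolayPt → ZMod 2)) := by
  have := Set.smul_mem_smul_set (a := g.1) h
  rwa [show g.1 • supports (golayCode : Set (GolayPt → ZMod 2)) = _ from g.2] at this

theorem small {G X : Type*} [Group G] [MulAction G X] {y : G} (hy : orderOf y = 7) {S : Set X} (hf : S.Finite) (h7 : S.ncard < 7)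
    (hS : ∀ g : G, ∀ s ∈ S, g • s ∈ S) {s : X} (hs : s ∈ S) : y • s = s := by
  have h1 := (MulAction.stabilizer (Subgroup.zpowers y) s).index_dvd_card
  have h2 := Set.ncard_le_ncard (show MulAction.orbit (Subgroup.zpowers y) s ⊆ S by rintro _ ⟨g, rfl⟩; exact hS g s hs) hf
  rw [← MulAction.index_stabilizer] at h2
  rw [Nat.card_zpowers, hy, Nat.dvd_prime (by norm_num)] at h1
  have := Subgroup.index_eq_one.1 (h1.resolve_right (by omega))
  exact (show (⟨y, Subgroup.mem_zpowers y⟩ : Subgroup.zpowers y) ∈ MulAction.stabilizer _ s from this ▸ Subgroup.mem_top _)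

theorem z1 : ∀ t : ZMod 2, t + 1 ≠ 0 ↔ ¬t ≠ 0 := by decide

theorem sd {G : Type*} [Group G] [MulAction G GolayPt] (g : G) (A v : Finset GolayPt) :
    g • symmDiff A v = symmDiff (g • A) (g • v) := by
  ext p
  simp only [← Finset.inv_smul_mem_iff, Finset.mem_symmDiff]

/-- Subgroups of index 253 in the Mathieu group of degree 23 are exactly the duad stabilisers and the heptad stabilisers. -/
theorem result (x : Cfsg.GolayPt) (H : Subgroup ↥(MulAction.stabilizer Cfsg.M24 x)) (hH : H.index = 253) : (∃ s : Finset Cfsg.GolayPt, s.card = 2 ∧ x ∉ s ∧ H = (MulAction.stabilizer Cfsg.M24 s).subgroupOf (MulAction.stabilizer Cfsg.M24 x)) ∨ ∃ o ∈ Cfsg.octads, x ∈ o ∧ H = (MulAction.stabilizer Cfsg.M24 o).subgroupOf (MulAction.stabilizer Cfsg.M24 x) := by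
  classical
  have hK := H.card_mul_index
  rw [Cfsg.Agent.S0376.result x, hH] at hK
  have h : Nat.card H = 40320 := by omega
  let f : H →* M24 := (Subgroup.subtype _).comp H.subtype
  have hf : Function.Injective f := Subtype.val_injective.comp Subtype.val_injective
  have hx : ∀ g : H, g • x = x := fun g => g.1.2
  have duad : ∀ s : Finset GolayPt, s.card = 2 → x ∉ s → (∀ g : H, g • s = s) →
      H = (MulAction.stabilizer M24 s).subgroupOf (MulAction.stabilizer M24 x) := fun s h2 xs hs => by
    refine Subgroup.eq_of_le_of_card_ge (fun g hg => hs ⟨g, hg⟩) ?_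
    obtain ⟨a, b, ab, rfl⟩ := Finset.card_eq_two.1 h2
    set K := (MulAction.stabilizer M24 ({a, b} : Finset GolayPt)).subgroupOf (MulAction.stabilizer M24 x)
    have hK : ∀ (g : K) (p : GolayPt), p ∈ ({a, b} : Finset GolayPt) → g • p ∈ ({a, b} : Finset GolayPt) := fun g p hp => by
      have := Finset.smul_mem_smul_finset (a := g) hp
      rwa [show g • ({a, b} : Finset GolayPt) = _ from g.2] at this
    have h1 := (MulAction.stabilizer K a).card_mul_index
    have h3 := Set.ncard_le_ncard (show MulAction.orbit K a ⊆ ({a, b} : Finset GolayPt) by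
      rintro _ ⟨g, rfl⟩; exact hK g a (by simp))
    rw [← MulAction.index_stabilizer, Set.ncard_coe_finset, h2] at h3
    have h4 := Nat.le_of_dvd (by norm_num) (f3 (((Subgroup.subtype _).comp K.subtype).comp (MulAction.stabilizer K a).subtype)
      ((Subtype.val_injective.comp Subtype.val_injective).comp Subtype.val_injective) (a := x) (b := a) (c := b)
      (by rintro rfl; simp at xs) (by rintro rfl; simp at xs) ab fun g => ⟨g.1.1.2, g.2, by
        rcases Finset.mem_insert.1 (hK g.1 b (by simp)) with e | e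
        · exact absurd (smul_left_cancel g.1 ((show g.1 • a = a from g.2).trans e.symm)) ab
        · exact Finset.mem_singleton.1 e⟩)
    have := Nat.mul_le_mul h4 h3
    omega
  have octad : ∀ o ∈ octads, (∀ g : H, g • o = o) →
      x ∈ o ∧ H = (MulAction.stabilizer M24 o).subgroupOf (MulAction.stabilizer M24 x) := fun o ho hs => by
    constructor
    · by_contra xo
      obtain ⟨e⟩ := (Cfsg.Agent.S1554.result o ho x xo).2.2
      have := Nat.card_le_card_of_injective (fun g : H => e ⟨g.1.1.1, ⟨g.1.1.2, hs g⟩, hx g⟩) fun g k e' =>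
        hf (Subtype.ext (by have := congrArg Subtype.val (e.injective e'); exact this))
      rw [h, nat_card_alternatingGroup] at this
      norm_num [Nat.factorial] at this
    · refine Subgroup.eq_of_le_of_card_ge (fun g hg => hs ⟨g, hg⟩) ?_
      have h1 := (MulAction.stabilizer M24 o).card_mul_index
      rw [MulAction.index_stabilizer, show MulAction.orbit M24 o = octads from Set.Subset.antisymm
        (by rintro _ ⟨g, rfl⟩; exact ⟨smul_code g ho.1, (Finset.card_smul_finset _ _).trans ho.2⟩)
        fun o' ho' => Cfsg.Agent.S0367.result o o' ho ho', Cfsg.Agent.S0360.result, Cfsg.Agent.S0364.result] at h1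
      have h2 := Subgroup.card_subgroup_dvd_card ((MulAction.stabilizer M24 o).subgroupOf (MulAction.stabilizer M24 x))
      have h3 := Subgroup.card_dvd_of_le (Subgroup.map_subtype_le (H := MulAction.stabilizer M24 x)
        ((MulAction.stabilizer M24 o).subgroupOf (MulAction.stabilizer M24 x)))
      have h4 := Subgroup.card_dvd_of_le (show ((MulAction.stabilizer M24 o).subgroupOf (MulAction.stabilizer M24 x)).map
        (Subgroup.subtype _) ≤ MulAction.stabilizer M24 o by rintro _ ⟨g, hg, rfl⟩; exact hg)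
      rw [Subgroup.card_subtype, show Nat.card (MulAction.stabilizer M24 o) = 322560 by omega] at h4
      rw [Cfsg.Agent.S0376.result x] at h2
      rw [h]
      exact Nat.le_of_dvd (by norm_num) (Nat.dvd_gcd h4 h2)
  haveI : Fact (Nat.Prime 7) := ⟨by norm_num⟩
  obtain ⟨y, hy⟩ := exists_prime_orderOf_dvd_card' (G := H) 7 (by rw [h]; norm_num)
  have c : Nat.card GolayPt = 24 := by rw [Nat.card_eq_fintype_card]; rfl
  have h1 := (IsPGroup.of_card (p := 7) (n := 1) (G := Subgroup.zpowers y)
    (by rw [Nat.card_zpowers, hy, pow_one])).card_modEq_card_fixedPoints GolayPt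
  rw [c] at h1
  obtain ⟨⟨a, ha⟩, a1, -⟩ := third (X := MulAction.fixedPoints (Subgroup.zpowers y) GolayPt) Subtype.val
    Subtype.val_injective (by unfold Nat.ModEq at h1; omega) x x
  obtain ⟨⟨b, hb⟩, b1, b2⟩ := third (X := MulAction.fixedPoints (Subgroup.zpowers y) GolayPt) Subtype.val
    Subtype.val_injective (by unfold Nat.ModEq at h1; omega) x a
  have hfix : ∀ d, y • d = d → d = x ∨ d = a ∨ d = b := fun d hd => by
    by_contra hc
    push Not at hc
    have := f4 (f.comp (Subgroup.zpowers y).subtype) (hf.comp Subtype.val_injective) a1.symm b1.symm b2.symm hc.1 hc.2.1 hc.2.2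
      fun u => ⟨(Subgroup.zpowers_le.2 (show y ∈ MulAction.stabilizer H d from hd)) u.2, hx u, ha u, hb u⟩
    rw [Nat.card_zpowers, hy] at this
    omega
  have key : ∀ a b : GolayPt, a ≠ x → (∀ d, y • d = d → d = x ∨ d = a ∨ d = b) → (∃ g : H, g • a ≠ a) →
      (∃ s : Finset GolayPt, s.card = 2 ∧ x ∉ s ∧ H = (MulAction.stabilizer M24 s).subgroupOf (MulAction.stabilizer M24 x)) ∨
      ∃ o ∈ octads, x ∈ o ∧ H = (MulAction.stabilizer M24 o).subgroupOf (MulAction.stabilizer M24 x) := by
    rintro a b a1 hfix ⟨k, hk⟩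
    obtain ⟨A, hA⟩ : ∃ A : Finset GolayPt, (A : Set GolayPt) = MulAction.orbit H a := ⟨(Set.toFinite (MulAction.orbit H a)).toFinset, Set.Finite.coe_toFinset _⟩
    have mA : ∀ p, p ∈ A ↔ p ∈ MulAction.orbit H a := fun p => by rw [← hA]; rfl
    have iA : ∀ g : H, g • A = A := fun g => Finset.coe_injective (by rw [Finset.coe_smul_finset, hA, MulAction.smul_orbit])
    have aA : a ∈ A := (mA a).2 (MulAction.mem_orbit_self a)
    have xA : x ∉ A := fun e => by
      obtain ⟨g, hg⟩ := (mA x).1 e
      exact a1 (smul_left_cancel g ((show g • a = x from hg).trans (hx g).symm))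
    have iL : ∀ g : H, ∀ v ∈ Ld A, g • v ∈ Ld A := fun g v hv => ⟨(Finset.card_smul_finset _ _).trans_le hv.1, by
      have := smul_code (f g) hv.2
      change g • symmDiff A v ∈ _ at this
      rwa [sd, iA] at this⟩
    have sub : ∀ v ∈ Ld A, y • v = v → v ⊆ {x, a, b} := fun v hv e p hp => by
      have := small (G := MulAction.stabilizer H v) (y := ⟨y, e⟩) ((Subgroup.orderOf_mk _ _).trans hy) v.finite_toSet
        (by rw [Set.ncard_coe_finset]; exact hv.1.trans_lt (by norm_num)) (fun g s hs => by
          have := Finset.smul_mem_smul_finset (a := g) (Finset.mem_coe.1 hs)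
          rwa [show g • v = v from g.2] at this) hp
      simpa using hfix p this
    rcases ld A with e | ⟨e, e'⟩
    swap
    · obtain ⟨v, hv⟩ := Set.nonempty_of_ncard_ne_zero (s := Ld A) (by omega)
      have := (Finset.card_le_card (sub v hv (small hy (Set.toFinite _) (by omega) iL hv))).trans Finset.card_le_three
      rw [e' v hv] at this
      omega
    obtain ⟨v, hv⟩ := Set.ncard_eq_one.1 e
    have hv1 : v ∈ Ld A := by rw [hv]; rfl
    have iv : ∀ g : H, g • v = v := fun g => by have := iL g v hv1; rwa [hv] at this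
    have ic : ∀ g : H, g • symmDiff A v = symmDiff A v := fun g => by rw [sd, iA, iv]
    have sv := sub v hv1 (iv y)
    obtain ⟨w, hw, ew⟩ := hv1.2
    have hw' := Cfsg.Agent.S0359.result w hw
    rw [norm_eq, ew] at hw'
    rcases hw' with e | e | e | e | e
    · obtain rfl : A = v := symmDiff_eq_bot.1 (Finset.card_eq_zero.1 e)
      have h2 : A.card = 2 := le_antisymm ((Finset.card_le_card (show A ⊆ {a, b} from fun p hp =>
        (Finset.mem_insert.1 (sv hp)).resolve_left (by rintro rfl; exact xA hp))).trans Finset.card_le_two)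
        (Finset.one_lt_card.2 ⟨_, (mA _).2 ⟨k, rfl⟩, a, aA, hk⟩)
      exact Or.inl ⟨A, h2, xA, duad A h2 xA iA⟩
    · exact Or.inr ⟨_, ⟨hv1.2, e⟩, octad _ ⟨hv1.2, e⟩ ic⟩
    · have := Subgroup.card_dvd_of_injective (f.codRestrict (MulAction.stabilizer M24 (symmDiff A v)) ic)
        fun g k e => hf (by have := congrArg Subtype.val e; exact this)
      rw [h, Cfsg.Agent.S0382.result _ ⟨hv1.2, e⟩] at this
      omega
    · have ho : (symmDiff A v)ᶜ ∈ octads := ⟨⟨w + fun _ => 1, golayCode.add_mem hw Cfsg.Agent.S5393.result.1, by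
        rw [← ew]
        ext p
        simp only [mem_supp, Finset.mem_compl, Pi.add_apply]
        exact z1 _⟩, by rw [Finset.card_compl, e]; rfl⟩
      refine Or.inr ⟨_, ho, octad _ ho fun g => ?_⟩
      ext p
      rw [← Finset.inv_smul_mem_iff, Finset.mem_compl, Finset.inv_smul_mem_iff, ic, Finset.mem_compl]
    · have h2 : Aᶜ ⊆ {x, b} := fun p hp => by
        have h3 : p ∈ symmDiff A v := (Finset.eq_univ_of_card _ e).symm ▸ Finset.mem_univ p
        rw [Finset.mem_compl] at hp
        have h4 := sv ((Finset.mem_symmDiff.1 h3).resolve_left fun e => hp e.1).1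
        simp only [Finset.mem_insert, Finset.mem_singleton] at h4 ⊢
        exact h4.imp id fun h5 => h5.resolve_left (by rintro rfl; exact hp aA)
      have h3 := (Finset.card_le_card h2).trans Finset.card_le_two
      have h4 := Finset.card_pos.2 ⟨x, Finset.mem_compl.2 xA⟩
      rw [Finset.card_compl, show Fintype.card GolayPt = 24 from rfl] at h3 h4
      have h5 := (MulAction.stabilizer H a).index_dvd_card
      rw [MulAction.index_stabilizer, ← hA, Set.ncard_coe_finset, h] at h5
      have h6 : A.card = 22 ∨ A.card = 23 := by omega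
      rcases h6 with h6 | h6 <;> rw [h6] at h5 <;> omega
  by_cases e1 : ∃ g : H, g • a ≠ a
  · exact key a b a1 hfix e1
  by_cases e2 : ∃ g : H, g • b ≠ b
  · exact key b a b1 (fun d hd => (hfix d hd).imp id Or.symm) e2
  push Not at e1 e2
  have h2 : ({a, b} : Finset GolayPt).card = 2 := Finset.card_pair (Ne.symm b2)
  have h3 : x ∉ ({a, b} : Finset GolayPt) := by
    simp only [Finset.mem_insert, Finset.mem_singleton, not_or]
    exact ⟨Ne.symm a1, Ne.symm b1⟩
  exact Or.inl ⟨_, h2, h3, duad _ h2 h3 fun g => by rw [Finset.smul_finset_insert, Finset.smul_finset_singleton, e1, e2]⟩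

end Cfsg.Agent.S1609
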