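import Mathlib
import Cfsg.Statements.S1610
import Cfsg.Agent.H8.Hex

set_option autoImplicit false
open Cfsg

namespace Cfsg.Agent.S1610

open CfsgH8.Hex

/-- The hexacode has 64 words, minimum weight 4, and weight distribution 0^1 4^45 6^18. -/
theorem result (F : Type*) [Field F] [Fintype F] [DecidableEq F] (hF : Fintype.card F = 4) (ω : F) (hω : ω ^ 2 + ω + 1 = 0) : Nat.card ↥(Cfsg.hexacode F ω) = 64 ∧ (∀ x ∈ Cfsg.hexacode F ω, x ≠ 0 → (Finset.univ.filter fun i => x i ≠ 0).card = 4 ∨ (Finset.univ.filter fun i => x i ≠ 0).card = 6) ∧ {x : Fin 6 → F | x ∈ Cfsg.hexacode F ω ∧ (Finset.univ.filter fun i => x i ≠ 0).card = 4}.ncard = 45 ∧ {x : Fin 6 → F | x ∈ Cfsg.hexacode F ω ∧ (Finset.univ.filter fun i => x i ≠ 0).card = 6}.ncard = 18 := by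
  refine ⟨?_, wt hF hω, ?_, ?_⟩
  · rw [← Nat.card_congr (Equiv.ofBijective (fun v => (⟨W ω v, W_mem (two hF) hω v⟩ : hexacode F ω))
      ⟨fun a b h => W_inj (two hF) hω (congrArg Subtype.val h), fun x =>
        ((mem_W hF hω _).1 x.2).imp fun _ h => Subtype.ext h⟩)]
    simp
  all_goals rw [ncard_eq hF hω]; decide +kernel

end Cfsg.Agent.S1610
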