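import Mathlib
import Cfsg.Statements.S1611
import Cfsg.Agent.H8.Hex

set_option autoImplicit false
open Cfsg

namespace Cfsg.Agent.S1611

open CfsgH8.Hex CfsgH8.Mono Equiv

def g1 : Perm (Fin 6) := ⟨![1, 2, 0, 3, 4, 5], ![2, 0, 1, 3, 4, 5], by decide, by decide⟩
def g2 : Perm (Fin 6) := ⟨![0, 2, 3, 4, 5, 1], ![0, 5, 1, 2, 3, 4], by decide, by decide⟩

/-- The monomial automorphism group of the hexacode has order 1080: its diagonal part is the scalars and its permutation parts form the alternating group of degree 6. -/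
theorem result (F : Type*) [Field F] [Fintype F] [DecidableEq F] (hF : Fintype.card F = 4) (ω : F) (hω : ω ^ 2 + ω + 1 = 0) : Nat.card {f : Equiv.Perm (Fin 6) × (Fin 6 → Fˣ) // (∀ x ∈ Cfsg.hexacode F ω, Cfsg.monomialMap f.1 f.2 x ∈ Cfsg.hexacode F ω)} = 1080 ∧ (∀ c : Fin 6 → Fˣ, (∀ x ∈ Cfsg.hexacode F ω, Cfsg.monomialMap 1 c x ∈ Cfsg.hexacode F ω) → ∀ i j, c i = c j) ∧ {σ : Equiv.Perm (Fin 6) | ∃ c : Fin 6 → Fˣ, (∀ x ∈ Cfsg.hexacode F ω, Cfsg.monomialMap σ c x ∈ Cfsg.hexacode F ω)} = (alternatingGroup (Fin 6) : Set (Equiv.Perm (Fin 6))) := by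
  have t2 := two hF
  have h0 : ω ≠ 0 := by rintro rfl; simp at hω
  have hd : ∀ c : Fin 6 → Fˣ, Pres (hexacode F ω) 1 c → ∀ i j, c i = c j := by
    intro c h
    have key : ∀ p, c 3 = c p := fun p => by
      have : ∀ p, ∃ v : V, (Finset.univ.filter fun i => Wk v i ≠ 0).card = 4 ∧ Wk v 3 ≠ 0 ∧ Wk v p ≠ 0 := by
        decide +kernel
      obtain ⟨v, h1, h2, h3⟩ := this p
      exact diag (d := 4) (fun x hx h0 => by rcases wt hF hω x hx h0 with h | h <;> omega) h (W_mem t2 hω v)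
        (by rw [wt_W hω, h1]) (fun e => h2 ((io_zero hω _).1 e)) fun e => h3 ((io_zero hω _).1 e)
    intro i j
    rw [← key i, ← key j]
  let u : Fˣ := Units.mk0 ω h0
  have p1 : g1 ∈ PP (hexacode F ω) := ⟨![1, 1, 1, 1, u ^ 2, u], fun x hx => by
    rw [mem_iff t2 hω] at hx ⊢
    simp [monomialMap, g1, u]
    grind⟩
  have p2 : g2 ∈ PP (hexacode F ω) := ⟨![1, u ^ 2, u, u ^ 2, 1, u], fun x hx => by
    rw [mem_iff t2 hω] at hx ⊢
    simp [monomialMap, g2, u]
    grind⟩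
  have hg : ∀ g ∈ [g1, g2], g ∈ PP (hexacode F ω) ⊓ alternatingGroup (Fin 6) := by
    simp only [List.mem_cons, List.not_mem_nil, or_false, forall_eq_or_imp, forall_eq, Subgroup.mem_inf, p1, p2,
      true_and, Perm.mem_alternatingGroup]
    decide
  have le : alternatingGroup (Fin 6) ≤ PP (hexacode F ω) := fun σ hσ => by
    refine (sift inf_le_right hg [] 0 [[], [0], [0, 0], [1, 0, 0], [1, 1, 0, 0], [1, 1, 1, 0, 0]]
      (by decide) (by decide +kernel) ?_ σ hσ (by simp)).1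
    refine sift inf_le_right hg _ 1 [[], [1], [1, 1], [1, 1, 1], [1, 1, 1, 1]] (by decide) (by decide +kernel) ?_
    refine sift inf_le_right hg _ 2 [[], [1, 0, 1, 0, 1, 1, 1], [0, 1, 0, 1], [1, 1, 0, 1, 0, 0, 1, 0]]
      (by decide) (by decide +kernel) ?_
    refine sift inf_le_right hg _ 3 [[], [1, 1, 0, 1, 0, 1, 1], [1, 0, 0, 1, 1, 0, 1, 1, 0, 0, 1]]
      (by decide) (by decide +kernel) ?_
    have : ∀ τ : Perm (Fin 6), (∀ x ∈ [(3 : Fin 6), 2, 1, 0], τ x = x) → τ = 1 ∨ τ = swap 4 5 := by decide +kernel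
    intro τ hτ h
    rcases this τ h with rfl | rfl
    · exact one_mem _
    · exact absurd hτ (by rw [Perm.mem_alternatingGroup]; decide)
  have ns : swap 0 1 ∉ PP (hexacode F ω) := by
    rintro ⟨c, h⟩
    have a := (mem_iff t2 hω _).1 (h ![0, 0, 1, 1, 1, 1] ((mem_iff t2 hω _).2 (by simp)))
    have b := (mem_iff t2 hω _).1 (h ![1, 0, 0, 1, ω * ω, ω] ((mem_iff t2 hω _).2 (by simp)))
    simp [monomialMap, swap_apply_of_ne_of_ne] at a b
    have := (c 2).ne_zero
    grind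
  have eq : PP (hexacode F ω) = alternatingGroup (Fin 6) := le_antisymm (fun σ hσ => by
    by_contra h
    refine ns ?_
    have : σ⁻¹ * swap 0 1 ∈ alternatingGroup (Fin 6) := by
      rw [Perm.mem_alternatingGroup] at h ⊢
      rw [map_mul, Perm.sign_inv, (Int.units_eq_one_or _).resolve_left h]
      decide
    simpa using mul_mem hσ (le this)) le
  refine ⟨?_, hd, congrArg SetLike.coe eq⟩
  rw [card_M, eq, card_diag hd, Nat.card_units, nat_card_alternatingGroup, Nat.card_eq_fintype_card (α := F), hF]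
  simp [Nat.factorial]

end Cfsg.Agent.S1611
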