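import Cfsg.Statements.S1612
import Cfsg.Agent.H1.TT3

set_option autoImplicit false
open Cfsg

namespace Cfsg.Agent.S1612

/-- In a 3-transposition group (no solvable normal subgroup, perfect derived group), the normaliser of a commuting set of transpositions of maximum size contains a Sylow 2-subgroup and is doubly transitive on the set. -/
theorem result {G : Type*} [Group G] [Finite G] (hsol : ∀ N : Subgroup G, N.Normal → Group.IsSolvable ↥N → N = ⊥) (hperf : ⁅commutator G, commutator G⁆ = commutator G) {D : Set G} (hD : Cfsg.IsThreeTranspositionClass D) {E : Set G} (hE : E ⊆ D) (hc : ∀ a ∈ E, ∀ b ∈ E, Commute a b) (hmax : ∀ E' : Set G, E' ⊆ D → (∀ a ∈ E', ∀ b ∈ E', Commute a b) → E'.ncard ≤ E.ncard) : (∃ P : Sylow 2 G, (P : Subgroup G) ≤ Subgroup.normalizer E) ∧ ∀ a ∈ E, ∀ b ∈ E, ∀ c ∈ E, ∀ d ∈ E, a ≠ b → c ≠ d → ∃ g ∈ Subgroup.normalizer E, g * a * g⁻¹ = c ∧ g * b * g⁻¹ = d := by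
  open Subgroup CfsgH1 in
  open CfsgH9 hiding card_inf_mul_relIndex card_lt_of_lt card_lt_of_ne_top card_map_mul_card_inf_ker card_mul_relIndex card_quotient_lt card_subgroupOf card_subgroupOf_of_le card_sup_dvd card_sup_mul_card_inf commutator_sup_le commutator_sup_le' isNilpotent_map isNilpotent_of_le isSolvable_map isSolvable_of_le le_normalizer_commutator le_normalizer_inf le_normalizer_map_subtype le_normalizer_sup le_pCore le_pPrimeCore mem_sup_of_le_normalizer mem_sup_of_le_normalizer' normalizer_le_normalizer_centralizer pCore_quotient_pCore pPrimeCore_quotient_pPrimeCore relIndex_map_subtype relIndex_sup_of_le_normalizer in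
  open scoped CfsgH9 in
  open scoped commutatorElement in
  · have h0 := TC.of hD
    have h := h0.tp_of_perf (by obtain ⟨_, ⟨d, hd, _⟩, _⟩ := hD; exact ⟨d, hd⟩) hsol hperf
    have key : ∀ P : Subgroup G, IsPGroup 2 P → ∀ E' : Set G, E' ⊆ D → E' ⊆ P → E.ncard ≤ E'.ncard →
        ∀ x ∈ D, x ∈ P → x ∈ E' := fun P hP E' h1 h2 h3 x hx hxP => by
      have := Set.eq_of_subset_of_ncard_le (s := E') (t := {y | y ∈ D ∧ y ∈ P})
        (fun y hy => ⟨h1 hy, h2 hy⟩) ((hmax _ (fun _ h => h.1) fun a ha b hb =>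
          h.ts.comm_of_mem_two hP ha.1 hb.1 (mul_mem ha.2 hb.2)).trans h3)
      exact this.ge ⟨hx, hxP⟩
    have hp := isPGroup_closure_comm (fun a ha => h.ts.sq (hE ha)) hc
    have nm : ∀ g : G, (∀ x ∈ E, cn g x ∈ E) → g ∈ normalizer E := fun g hg =>
      mem_normalizer_fintype hg
    constructor
    · obtain ⟨P, hP⟩ := hp.exists_le_sylow
      exact ⟨P, fun g hg => nm g fun x hx => key P P.isPGroup' E hE
        (fun y hy => hP (subset_closure hy)) le_rfl _ (h.conj g x (hE hx))
        (cn_mem hg (hP (subset_closure hx)))⟩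
    intro a ha b hb c hc' d hd hab hcd
    obtain ⟨g, e1, e2⟩ := h.trans_pair (hE ha) ⟨hE hb, hab.symm, hc a ha b hb⟩ (hE hc')
      ⟨hE hd, hcd.symm, hc c hc' d hd⟩
    let C : Subgroup G := centralizer {c, d}
    have hC : ∀ x, x ∈ C ↔ Commute c x ∧ Commute d x := fun x => by
      simp [C, mem_centralizer_iff, commute_iff_eq]
    have l1 : closure E ≤ C := (closure_le _).2 fun x hx => (hC x).2 ⟨hc c hc' x hx, hc d hd x hx⟩
    have l2 : cj g (closure E) ≤ C := by
      rw [cj, MonoidHom.map_closure, closure_le]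
      rintro _ ⟨x, hx, rfl⟩
      rw [SetLike.mem_coe, hC, ← e1, ← e2]
      exact ⟨commute_cn.2 (hc a ha x hx), commute_cn.2 (hc b hb x hx)⟩
    obtain ⟨P, hP⟩ := (hp.comap_of_injective C.subtype C.subtype_injective).exists_le_sylow
    obtain ⟨Q, hQ⟩ := ((hp.map (MulAut.conj g).toMonoidHom).comap_of_injective C.subtype
      C.subtype_injective).exists_le_sylow
    obtain ⟨k, hk⟩ := MulAction.exists_smul_eq C Q P
    refine ⟨k * g, nm _ fun x hx => key ((P : Subgroup C).map C.subtype) (P.isPGroup'.map _) E hE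
      (fun y hy => ⟨⟨y, l1 (subset_closure hy)⟩, hP (subset_closure hy), rfl⟩) le_rfl _
      (h.conj _ x (hE hx)) ?_, ?_, ?_⟩
    · have m : cn g x ∈ cj g (closure E) := conj_mem_cj g (subset_closure hx)
      refine ⟨cn k ⟨_, l2 m⟩, ?_, cn_cn ..⟩
      rw [← hk]
      exact smul_mem_pointwise_smul _ _ _ (hQ m)
    · rw [← cn_def, ← cn_cn, e1, cn_of_comm' ((hC _).1 k.2).1]
    · rw [← cn_def, ← cn_cn, e2, cn_of_comm' ((hC _).1 k.2).2]

end Cfsg.Agent.S1612
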