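import Cfsg.Statements.S1619
import Mathlib
import Cfsg.Agent.H7.Ico.Rep

set_option autoImplicit false
open Quaternion
open Cfsg

namespace Cfsg.Agent.S1619

open CfsgH7 CfsgH7.Ico CfsgH7.Ico.Q Cfsg.Spor
theorem a1 : S (E (zero, sm 2 one, zero)) := (S_iff _).2 (by decide)
theorem a2 : S (E (zero, zero, sm 2 one)) := (S_iff _).2 (by decide)
theorem hz (x : icoLeech) : ((rp S0 * rp a1 * rp a2) x : W) = -x := by
  rw [Equiv.Perm.mul_apply, Equiv.Perm.mul_apply, rp_rf, rp_rf, rp_rf]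
  funext t
  fin_cases t <;> simp [qrefl, qip3, E, r0, e_sm, e_one, e_zero, mul_assoc] <;> module

/-- The icosian reflection group has order 1209600 with centre {±1}; the Hall–Janko group has order 604800 = 2^7·3^3·5^2·7. -/
theorem result : Nat.card ↥Cfsg.Spor.twoJ2 = 1209600 ∧ Nat.card ↥(Subgroup.center ↥Cfsg.Spor.twoJ2) = 2 ∧ (∃ z ∈ Subgroup.center ↥Cfsg.Spor.twoJ2, ∀ x : ↥Cfsg.Spor.icoLeech, (((z : Equiv.Perm ↥Cfsg.Spor.icoLeech) x : ↥Cfsg.Spor.icoLeech) : Fin 3 → ℍ[ℝ]) = -(x : Fin 3 → ℍ[ℝ])) ∧ Nat.card Cfsg.Spor.J2 = 604800 := by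
  have h3 := Subgroup.card_eq_card_quotient_mul_card_subgroup (Subgroup.center twoJ2)
  refine ⟨by rw [h3, main.1, mdl.2.1], main.1, ⟨⟨rp S0 * rp a1 * rp a2, mul_mem (mul_mem (rp_mem _) (rp_mem _)) (rp_mem _)⟩,
    Subgroup.mem_center_iff.2 fun g => Subtype.ext (Equiv.ext fun x => Subtype.ext ?_), hz⟩, mdl.2.1⟩
  obtain ⟨L, -, h⟩ := lin g.2
  exact (h _).trans (((congrArg L (hz x)).trans ((map_neg L _).trans (congrArg _ (h x).symm))).trans (hz _).symm)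

end Cfsg.Agent.S1619
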