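import Cfsg.Statements.S1620
import Mathlib
import Cfsg.Agent.H7.Ico.Rep

set_option autoImplicit false
open Quaternion
open Cfsg

namespace Cfsg.Agent.S1620

open CfsgH7 CfsgH7.J2m

/-- The Hall–Janko group is simple and non-abelian. -/
theorem result : IsSimpleGroup Cfsg.Spor.J2 ∧ ∃ a b : Cfsg.Spor.J2, a * b ≠ b * a := by
  refine ⟨(Mdl.simple' pr mdl0 simple Ico.mdl).1, ?_⟩
  by_contra h
  push Not at h
  have h1 := Mdl.perf pr mdl0 perf0 Ico.mdl
  have h2 : commutator Spor.J2 = ⊥ := by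
    rw [commutator, eq_bot_iff, Subgroup.commutator_le]
    exact fun a _ b _ => commutatorElement_eq_one_iff_mul_comm.2 (h a b)
  have h3 := Ico.mdl.2.1
  rw [← Subgroup.card_top, ← h1, h2, Subgroup.card_bot] at h3
  omega

end Cfsg.Agent.S1620
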