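import Cfsg.Statements.S1622
import Mathlib
import Cfsg.Agent.H7.Ico.En

set_option autoImplicit false
open Quaternion
open Cfsg

namespace Cfsg.Agent.S1622

open CfsgH7.Ico

/-- The reflection group is transitive on its 315 reflections by conjugation. -/
theorem result (f f' : Equiv.Perm ↥Cfsg.Spor.icoLeech) (hf : Cfsg.Spor.IsIcoReflection f) (hf' : Cfsg.Spor.IsIcoReflection f') : ∃ g ∈ Cfsg.Spor.twoJ2, g * f * g⁻¹ = f' := by
  obtain ⟨r, h1, h2⟩ := hf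
  obtain ⟨r', h3, h4⟩ := hf'
  obtain ⟨-, g, h5, h6⟩ := good (r := r) ⟨r.2, h1⟩
  obtain ⟨-, g', h7, h8⟩ := good (r := r') ⟨r'.2, h3⟩
  refine ⟨g' * g⁻¹, K_eq.ge (mul_mem h7 (inv_mem h5)), ?_⟩
  rw [Rf.eq h2 h6, Rf.eq h4 h8]
  group

end Cfsg.Agent.S1622
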