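import Cfsg.Statements.S1623
import Mathlib
import Cfsg.Agent.H7.Xs.J2
import Cfsg.Agent.H7.Ico.Rep

set_option autoImplicit false
open Quaternion
open Cfsg

namespace Cfsg.Agent.S1623

open CfsgH7 CfsgH7.Ico Cfsg.Spor Subgroup

/-- A reflection centraliser in the Hall–Janko group is an extension of an extraspecial group of order 32 by the alternating group of degree 5. -/
theorem result (f : Equiv.Perm ↥Cfsg.Spor.icoLeech) (hf : Cfsg.Spor.IsIcoReflection f) (hfm : f ∈ Cfsg.Spor.twoJ2) : ∃ (Q : Subgroup ↥(Subgroup.centralizer {(QuotientGroup.mk ⟨f, hfm⟩ : Cfsg.Spor.J2)})) (_ : Q.Normal), Nat.card Q = 32 ∧ Cfsg.IsExtraspecial 2 Q ∧ Nonempty (↥(Subgroup.centralizer {(QuotientGroup.mk ⟨f, hfm⟩ : Cfsg.Spor.J2)}) ⧸ Q ≃* alternatingGroup (Fin 5)) := by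
  have I := ixFin 24
  let π := QuotientGroup.mk' (center twoJ2)
  have hz : zpowers (b 3) ≤ π.ker := by
    rw [QuotientGroup.ker_mk', zpowers_le]
    exact cen_of_scl ρ_inj (((congrArg ρ (letter_even b 3).symm).trans (mo 6 (by decide))).trans (K5.scl I (by decide +kernel)))
  have hs : Sat (fun j => π (b j)) J2m.Rf := fun r hr => (map_wprod π b r).symm.trans
    (hz (K5.relZ I hM ρ_inj mo [[6],[6],[6],[6],[],[6],[6],[],[6],[6],[6],[6]] 3 (by decide +kernel) r hr))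
  have hg : genW (fun j => π (b j)) (gensW 3) = ⊤ := by
    rw [eq_top_iff, ← map_top_of_surjective π (QuotientGroup.mk'_surjective _), ← gen, genW_map]
    refine genW_le.2 fun w hw => ?_
    rcases (show ∀ w ∈ gensW 4, w ∈ gensW 3 ∨ w = [2 * 3] by decide) w hw with h | rfl
    · exact mem_genW _ h
    · rw [wprod_single, hz (mem_zpowers _)]; exact one_mem _
  obtain ⟨e, he⟩ := Mdl.iso' J2m.pr mdl.2.1 hs hg J2m.M0.card (J2m.M0.sat J2m.sb0) J2m.M0.gen
  obtain ⟨r, h1, h2⟩ := hf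
  obtain ⟨-, c, hc, h3⟩ := good (r := r) ⟨r.2, h1⟩
  have h4 : (⟨rp S0, rp_mem _⟩ : twoJ2) = wprod b [0,2,1,4,2,1,4,1] * b 3 := ρ_inj ((ρ_rp (k := 0) (by norm_num)).trans (by
    have := K5.rel I hM mo (u := [0,2,1,4,2,1,4,1] ++ [2 * 3]) [8] (by decide +kernel)
    rw [wprod_append, wprod_single] at this
    simpa [matW] using this.symm))
  let e' := e.trans (MulAut.conj (π ⟨c, K_eq.ge hc⟩))
  have h5 : wprod (fun j => e' (J2m.g0 j)) J2m.Xs.xz = QuotientGroup.mk ⟨f, hfm⟩ := by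
    rw [show J2m.Xs.xz = [0,2,1,4,2,1,4,1] by decide +kernel]
    refine (map_wprod e'.toMonoidHom _ _).symm.trans ?_
    show π _ * e _ * _ = π _
    rw [he _ (by decide), ← map_wprod, ← mul_one (π (wprod _ _)), ← hz (mem_zpowers _), ← map_mul π (wprod _ _), ← h4, ← map_mul,
      ← map_inv, ← map_mul]
    exact congrArg π (Subtype.ext (Rf.eq h2 h3).symm)
  obtain ⟨a, -, -, -, a1, a2, a3, -⟩ := h5 ▸ @J2m.Xs.xX _ _ _ (_) _ _ (J2m.M0.congr e')
  exact ⟨_, a, a1, a2, (A5m.iso a3).elim fun x => A5m.alt.elim fun y => ⟨x.symm.trans y⟩⟩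

end Cfsg.Agent.S1623
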