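import Mathlib
import Cfsg.Statements.S1631
import Cfsg.Agent.H8.TV

set_option autoImplicit false
open scoped MatrixGroups
open Cfsg

namespace Cfsg.Agent.S1631

open CfsgH8.TV CfsgH5 CfsgH5.CForm

/-- The unitary transvections of SU(n, 2), n ≥ 4, form a generating conjugacy class of 3-transpositions. -/
theorem result (F : Type) [Field F] [Fintype F] [DecidableEq F] (hF : Fintype.card F = 4) (n : ℕ) (hn : 4 ≤ n) : Cfsg.IsThreeTranspositionClass {g : ↥(Cfsg.SU n F 2) | (((g : Matrix.SpecialLinearGroup (Fin n) F) : Matrix (Fin n) (Fin n) F) - 1).rank = 1} := by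
  obtain ⟨σ, H⟩ := exists_UF (F := F) (q := 2) hF
  haveI : CharP F 2 := charP_of_card_eq_prime_pow (f := 2) hF
  have t2 : (2 : F) = 0 := CharTwo.two_eq_zero
  have c3 : ∀ x : F, x ≠ 0 → x * σ x = 1 := fun x hx => by
    have := FiniteField.pow_card_sub_one_eq_one x hx
    rw [hF] at this
    rw [H.pow]; linear_combination this
  have hf := hermC_nondeg H n
  have hr : Module.finrank F (Fin n → F) = n := by simp
  obtain ⟨-, hE, hT, -⟩ := unit_isSimple H hf (by omega) (by omega)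
  have k1 : ∀ g ∈ (hermC H n).SIsom, ∀ d k, (hermC H n).IsRefl g d k → k = 1 := fun g hg d k h => by
    have h1 := h.det
    have h2 := c3 k h.hk
    have h3 := h.hk
    rw [(mem_SIsom.1 hg).2, FP.unit_ε, FP.unit_σ, H.pow] at h1
    field_simp at h1
    linear_combination h1 - t2
  have hD : ∀ g : SU n F 2, (((g : Matrix.SpecialLinearGroup (Fin n) F) : Matrix (Fin n) (Fin n) F) - 1).rank = 1 ↔
      ∃ d ≠ 0, (hermC H n).IsRefl (suEquiv H n g) d 1 := fun g => by
    rw [rank_iff hf (mem_SIsom.1 (suEquiv H n g).2).1 (suEquiv_apply H n g)]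
    exact exists_congr fun d => and_congr_right fun _ =>
      ⟨fun ⟨k, h⟩ => k1 _ (suEquiv H n g).2 d k h ▸ h, fun h => ⟨1, h⟩⟩
  have t1 : (FP.unit σ H.invol).t 1 = 0 := by rw [FP.unit_t, map_one, ← t2]; norm_num
  refine tv_class hf ((hermC H n).SIsom.subtype.comp (suEquiv H n).toMonoidHom)
    (Subtype.val_injective.comp (suEquiv H n).injective) (fun s => (mem_SIsom.1 (suEquiv H n s).2).1) (k := 1) (by simp)
    (fun β => (eq_or_ne β 0).imp id fun e => by simpa using c3 β e) hD ?_ (fun d e hd he h1 h2 => ?_) fun g => ?_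
  · obtain ⟨x, y, h⟩ := unit_exists_hyp H hf (by omega)
    obtain ⟨g, hg⟩ := (hermC H n).exists_refl (d := x) one_ne_zero (t1.trans h.hx.symm)
    exact ⟨(suEquiv H n).symm ⟨g, hE ▸ (hg.isEich h.hx).mem_E⟩, (hD _).2 ⟨x, h.x_ne, by simpa using hg⟩⟩
  · obtain ⟨y, hy⟩ := hf.exists_hyp' (h1.symm.trans t1) hd
    obtain ⟨z, hz⟩ := hf.exists_hyp' (h2.symm.trans t1) he
    obtain ⟨s, hs, l, hl, h, -⟩ := (rich_of_finrank hf (by omega)).exists_E_hyp hz hy
    exact ⟨(suEquiv H n).symm ⟨s, hE ▸ hs⟩, l, c3 l hl, by simpa using h⟩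
  · refine (hT.le.trans (Tr_le fun g x c h => ?_)) (suEquiv H n g).2
    rcases eich_refl h with rfl | ⟨hx, k, hk⟩
    · exact one_mem _
    · refine ⟨(suEquiv H n).symm ⟨g, hE ▸ h.mem_E⟩, Subgroup.subset_closure ((hD _).2 ⟨x, hx, ?_⟩), by simp⟩
      simpa [k1 g (hE ▸ h.mem_E) x k hk] using hk

end Cfsg.Agent.S1631
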