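import Cfsg.Statements.S1634
import Mathlib
import Cfsg.Agent.H7.Lee.Cfg

set_option autoImplicit false
open Cfsg

namespace Cfsg.Agent.S1634

open CfsgH7 CfsgH7.Lee MulAction
theorem e0 : XS uU (-(uV + uU)) 0 16 = TA := Set.ext fun x => by
  simp only [XS, TA, Set.mem_setOf_eq, AddSubgroup.coe_add, AddSubgroup.coe_neg, add_dot, neg_dot]
  exact and_congr_right fun _ => by omega

/-- The McLaughlin group acts on 2025 points (minimal vectors orthogonal to v with customary inner product 2 with w) transitively with rank 4 and subdegrees 1, 330, 462, 1232. -/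
theorem result (v w : ↥Cfsg.leechLattice) (hv : Cfsg.sqNorm (v : Cfsg.GolayPt → ℤ) = 32) (hw : Cfsg.sqNorm (w : Cfsg.GolayPt → ℤ) = 32) (hvw : Cfsg.dotInt (v : Cfsg.GolayPt → ℤ) (w : Cfsg.GolayPt → ℤ) = -8) : {x : ↥Cfsg.leechLattice | Cfsg.sqNorm (x : Cfsg.GolayPt → ℤ) = 32 ∧ Cfsg.dotInt (v : Cfsg.GolayPt → ℤ) (x : Cfsg.GolayPt → ℤ) = 0 ∧ Cfsg.dotInt (w : Cfsg.GolayPt → ℤ) (x : Cfsg.GolayPt → ℤ) = 16}.ncard = 2025 ∧ (∀ x ∈ {x : ↥Cfsg.leechLattice | Cfsg.sqNorm (x : Cfsg.GolayPt → ℤ) = 32 ∧ Cfsg.dotInt (v : Cfsg.GolayPt → ℤ) (x : Cfsg.GolayPt → ℤ) = 0 ∧ Cfsg.dotInt (w : Cfsg.GolayPt → ℤ) (x : Cfsg.GolayPt → ℤ) = 16}, ∀ x' ∈ {x : ↥Cfsg.leechLattice | Cfsg.sqNorm (x : Cfsg.GolayPt → ℤ) = 32 ∧ Cfsg.dotInt (v : Cfsg.GolayPt → ℤ) (x : Cfsg.GolayPt → ℤ) = 0 ∧ Cfsg.dotInt (w : Cfsg.GolayPt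 → ℤ) (x : Cfsg.GolayPt → ℤ) = 16}, ∃ g : ↥Cfsg.Co0, g • v = v ∧ g • w = w ∧ g • x = x') ∧ ∀ x ∈ {x : ↥Cfsg.leechLattice | Cfsg.sqNorm (x : Cfsg.GolayPt → ℤ) = 32 ∧ Cfsg.dotInt (v : Cfsg.GolayPt → ℤ) (x : Cfsg.GolayPt → ℤ) = 0 ∧ Cfsg.dotInt (w : Cfsg.GolayPt → ℤ) (x : Cfsg.GolayPt → ℤ) = 16}, ∃ y₁ ∈ {x : ↥Cfsg.leechLattice | Cfsg.sqNorm (x : Cfsg.GolayPt → ℤ) = 32 ∧ Cfsg.dotInt (v : Cfsg.GolayPt → ℤ) (x : Cfsg.GolayPt → ℤ) = 0 ∧ Cfsg.dotInt (w : Cfsg.GolayPt → ℤ) (x : Cfsg.GolayPt → ℤ) = 16}, ∃ y₂ ∈ {x : ↥Cfsg.leechLattice | Cfsg.sqNorm (x : Cfsg.GolayPt → ℤ) = 32 ∧ Cfsg.dotInt (v : Cfsg.GolayPt → ℤ) (x : Cfsg.GolayPt → ℤ) = 0 ∧ Cfsg.dotInt (w : Cfsg.GolayPt → ℤ) (x : Cfsg.GolayPt → ℤ) = 16}, ∃ y₃ ∈ {x : ↥Cfsg.leechLattice | Cfsg.sqNorm (x : Cfsg.GolayPt → ℤ) = 32 ∧ Cfsg.dotInt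 (v : Cfsg.GolayPt → ℤ) (x : Cfsg.GolayPt → ℤ) = 0 ∧ Cfsg.dotInt (w : Cfsg.GolayPt → ℤ) (x : Cfsg.GolayPt → ℤ) = 16}, (MulAction.orbit ↥(MulAction.stabilizer ↥Cfsg.Co0 v ⊓ MulAction.stabilizer ↥Cfsg.Co0 w ⊓ MulAction.stabilizer ↥Cfsg.Co0 x) y₁).ncard = 330 ∧ (MulAction.orbit ↥(MulAction.stabilizer ↥Cfsg.Co0 v ⊓ MulAction.stabilizer ↥Cfsg.Co0 w ⊓ MulAction.stabilizer ↥Cfsg.Co0 x) y₂).ncard = 462 ∧ (MulAction.orbit ↥(MulAction.stabilizer ↥Cfsg.Co0 v ⊓ MulAction.stabilizer ↥Cfsg.Co0 w ⊓ MulAction.stabilizer ↥Cfsg.Co0 x) y₃).ncard = 1232 := by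
  obtain ⟨c, rfl, rfl⟩ := cfgN hv hw hvw
  show (XS _ _ _ _).ncard = _ ∧ (∀ x ∈ XS _ _ _ _, ∀ y ∈ XS _ _ _ _, _) ∧
    ∀ x ∈ XS _ _ _ _, ∃ y ∈ XS _ _ _ _, ∃ y ∈ XS _ _ _ _, ∃ y ∈ XS _ _ _ _, _
  refine ⟨(ncard_smul_eq c fun y => XS_smul c).trans (e0 ▸ cTA), fun x hx y hy => ?_, fun x hx => ?_⟩
  · obtain ⟨x, rfl⟩ := ex_smul c x
    obtain ⟨y, rfl⟩ := ex_smul c y
    rw [XS_smul, e0] at hx hy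
    obtain ⟨k, h1, h2⟩ := trA x hx y hy
    rw [← KN_eq] at h1
    exact ⟨_, (fix2 h1).1, (fix2 h1).2, cj_smul c h2⟩
  obtain ⟨x, rfl⟩ := ex_smul c x
  rw [XS_smul, e0] at hx
  obtain ⟨k, h1, rfl⟩ := trA uW ⟨nW, by decide +kernel⟩ x hx
  rw [← KN_eq] at h1
  have h := ((Cj.stab (c * k) uU).inf (Cj.stab (c * k) (-(uV + uU)))).inf (Cj.stab (c * k) uW)
  have h2 := fun y => XS_smul (c * k) (u := uU) (v := -(uV + uU)) (y := y) (a := 0) (b := 16)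
  rw [KN_eq] at h
  rw [e0] at h2
  rw [mul_smul, mul_smul, mul_smul, h1.1, h1.2] at h
  rw [mul_smul c k uU, mul_smul c k (-(uV + uU)), h1.1, h1.2] at h2
  obtain ⟨a, a1, b, b1, d, d1, h3, h4, h5, -⟩ := (decA.conj h h2).three' inf_le_right
  exact ⟨a, a1, b, b1, d, d1, h3, h4, h5⟩

end Cfsg.Agent.S1634
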