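import Cfsg.Statements.S1636
import Cfsg.Agent.H1.Mh

set_option autoImplicit false
open Cfsg

namespace Cfsg.Agent.S1636

section
open CfsgH1.Mg CfsgH1.Mc CfsgH1.Mh CfsgH7 CfsgH7.Gol MulAction
open scoped commutatorElement

def pu (s : Finset GolayPt) : ZMod 23 → ZMod 2 := fun x => Gol.ind s (some x)

theorem nrm (s : Finset GolayPt) : hammingNorm (pu s) = (S 0x7fffff ∩ s).card := by
  rw [norm_eq, ← Finset.card_map ⟨some, Option.some_injective _⟩]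
  congr 1
  ext p
  rw [show S 0x7fffff = {none}ᶜ by decide +kernel]
  cases p <;> simp [mem_supp, pu, Gol.ind]

theorem mem {u : ZMod 23 → ZMod 2} : (∃ w ∈ golayCode, ∀ x : ZMod 23, u x = w (some x)) ↔ ∃ s ∈ U, pu s = u :=
  ⟨fun ⟨w, hw, h⟩ => ⟨_, supp_mem.2 hw, funext fun x => by rw [pu, ind_supp, h]⟩,
    fun ⟨s, hs, h⟩ => ⟨_, mem_supports.1 hs, fun x => by rw [← h, pu]⟩⟩

theorem low {s : Finset GolayPt} (hs : s ∈ U) (h : (S 0x7fffff ∩ s).card < 7) : s = ∅ := by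
  have h1 := wt hs
  have h2 := Finset.card_sdiff_add_card_inter s (S 0x7fffff)
  have h3 : (s \ S 0x7fffff).card ≤ 1 := (Finset.card_le_card (Finset.sdiff_subset_sdiff s.subset_univ le_rfl)).trans
    (by decide +kernel)
  rw [Finset.inter_comm] at h2
  exact Finset.card_eq_zero.1 (by omega)

theorem inj : Set.InjOn pu U := fun s hs t ht h => by
  refine symmDiff_eq_bot.1 (low (U_xor hs ht) ?_)
  rw [← nrm, show pu (symmDiff s t) = pu s + pu t from funext fun x => congrFun (ind_symmDiff s t) _, h,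
    CharTwo.add_self_eq_zero, hammingNorm_zero]
  norm_num

theorem cn (φ : Nat → Prop) : {u | (∃ w ∈ golayCode, ∀ x : ZMod 23, u x = w (some x)) ∧ φ (hammingNorm u)}.ncard =
    {s | s ∈ U ∧ φ (S 0x7fffff ∩ s).card}.ncard := by
  rw [← (inj.mono fun _ h => h.1).ncard_image]
  congr 1
  ext u
  simp only [Set.mem_setOf_eq, mem, Set.mem_image]
  exact ⟨fun ⟨⟨s, a, b⟩, c⟩ => ⟨s, ⟨a, by rwa [← nrm, b]⟩, b⟩, fun ⟨s, ⟨a, c⟩, b⟩ => ⟨⟨s, a, b⟩, by rwa [← b, nrm]⟩⟩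

end

/-- The punctured length-23 code has weight distribution 0^1 7^253 8^506 11^1288 12^1288 15^506 16^253 23^1. -/
theorem result : {u : ZMod 23 → ZMod 2 | ∃ w ∈ Cfsg.golayCode, ∀ x : ZMod 23, u x = w (some x)}.ncard = 4096 ∧ {u : ZMod 23 → ZMod 2 | u ∈ {u : ZMod 23 → ZMod 2 | ∃ w ∈ Cfsg.golayCode, ∀ x : ZMod 23, u x = w (some x)} ∧ hammingNorm u = 7}.ncard = 253 ∧ {u : ZMod 23 → ZMod 2 | u ∈ {u : ZMod 23 → ZMod 2 | ∃ w ∈ Cfsg.golayCode, ∀ x : ZMod 23, u x = w (some x)} ∧ hammingNorm u = 8}.ncard = 506 ∧ {u : ZMod 23 → ZMod 2 | u ∈ {u : ZMod 23 → ZMod 2 | ∃ w ∈ Cfsg.golayCode, ∀ x : ZMod 23, u x = w (some x)} ∧ hammingNorm u = 11}.ncard = 1288 ∧ {u : ZMod 23 → ZMod 2 | u ∈ {u : ZMod 23 → ZMod 2 | ∃ w ∈ Cfsg.golayCode, ∀ x : ZMod 23, u x = w (some x)} ∧ hammingNorm u = 12}.ncard = 1288 ∧ {u : ZMod 23 → ZMod 2 | u ∈ {u : ZMod 23 → ZMod 2 | ∃ w ∈ Cfsg.golayCode, ∀ x : ZMod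 23, u x = w (some x)} ∧ hammingNorm u = 15}.ncard = 506 ∧ {u : ZMod 23 → ZMod 2 | u ∈ {u : ZMod 23 → ZMod 2 | ∃ w ∈ Cfsg.golayCode, ∀ x : ZMod 23, u x = w (some x)} ∧ hammingNorm u = 16}.ncard = 253 ∧ ∀ u ∈ {u : ZMod 23 → ZMod 2 | ∃ w ∈ Cfsg.golayCode, ∀ x : ZMod 23, u x = w (some x)}, u ≠ 0 → 7 ≤ hammingNorm u := by
  open CfsgH1.Mg CfsgH1.Mc CfsgH1.Mh CfsgH7 CfsgH7.Gol MulAction in
  open scoped commutatorElement in
  · refine ⟨?_, (cn (· = 7)).trans (FC.ncard' (rbI _ _) 12 (by decide +kernel)), (cn (· = 8)).trans (FC.ncard' (rbI _ _) 12 (by decide +kernel)), (cn (· = 11)).trans (FC.ncard' (rbI _ _) 12 (by decide +kernel)), (cn (· = 12)).trans (FC.ncard' (rbI _ _) 12 (by decide +kernel)), (cn (· = 15)).trans (FC.ncard' (rbI _ _) 12 (by decide +kernel)), (cn (· = 16)).trans (FC.ncard' (rbI _ _) 12 (by decide +kernel)), fun u hu h => ?_⟩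
    · simpa [FC.ncard_univ] using cn fun _ => True
    obtain ⟨s, hs, rfl⟩ := mem.1 hu
    by_contra h1
    rw [nrm] at h1
    rw [low hs (by omega)] at h
    exact h (funext fun x => by simp [pu, Gol.ind])

end Cfsg.Agent.S1636
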