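import Cfsg.Statements.S1637
import Cfsg.Agent.H1.St4

set_option autoImplicit false
open Cfsg

namespace Cfsg.Agent.S1637

/-- The punctured length-23 code is a perfect 3-error-correcting code: each word of length 23 is within distance 3 of exactly one codeword. -/
theorem result (u : ZMod 23 → ZMod 2) : ∃! c : ZMod 23 → ZMod 2, c ∈ {u : ZMod 23 → ZMod 2 | ∃ w ∈ Cfsg.golayCode, ∀ x : ZMod 23, u x = w (some x)} ∧ hammingDist u c ≤ 3 := by
  open CfsgH1.St CfsgH1.Un CfsgH7 CfsgH7.Gol Finset in
  open scoped commutatorElement in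
  · have nm : ∀ w : Cfsg.GolayPt → ZMod 2, hammingNorm w = (if w none ≠ 0 then 1 else 0) +
        hammingNorm fun x : ZMod 23 => w (some x) := by
      intro w
      simp only [hammingNorm, card_filter, Fintype.sum_option]
    have par : ∀ w ∈ Cfsg.golayCode, ∀ v : Cfsg.GolayPt → ZMod 2, (hammingNorm (v - w) + hammingNorm v) % 2 = 0 := by
      intro w hw v
      have h1 := wt (supp_mem.2 hw : Cfsg.support₂ w ∈ U)
      have h2 := card_sd (Cfsg.support₂ v) (Cfsg.support₂ w)
      rw [sub_eq_add_neg, show -w = w from funext fun i => ZMod.neg_eq_self_mod_two _, norm_eq, norm_eq, supp_add]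
      omega
    obtain ⟨w, w1, w2⟩ : ∃ w : Cfsg.GolayPt → ZMod 2, (fun x => w (some x)) = u ∧ hammingNorm w % 2 = 1 := by
      by_cases h : hammingNorm u % 2 = 1
      · exact ⟨fun p => p.elim 0 u, rfl, by rw [nm]; simpa using h⟩
      · exact ⟨fun p => p.elim 1 u, rfl, by rw [nm]; simp; change (1 + hammingNorm u) % 2 = 1; omega⟩
    obtain ⟨v, v1, v2⟩ : ∃ v, v - w ∈ Cfsg.golayCode ∧ hammingNorm v ≤ 3 := by
      rcases code_coset cardP golay_card golay_min w with ⟨v, h1, h2⟩ | ⟨h1, h2⟩
      · have : v ∈ {u | u - w ∈ Cfsg.golayCode ∧ hammingNorm u ≤ 4} := by rw [h1]; rfl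
        exact ⟨v, this.1, h2⟩
      · obtain ⟨v, hv⟩ := Set.nonempty_of_ncard_ne_zero (h1.trans_ne (by norm_num))
        have := par _ hv.1 v
        rw [sub_sub_cancel, (h2 v hv).1] at this; omega
    refine ⟨fun x => (w - v) (some x), ⟨⟨_, sub_mem_comm_iff.1 v1, fun _ => rfl⟩, ?_⟩, ?_⟩
    · rw [hammingDist_eq_hammingNorm, ← w1]
      have := nm v
      refine le_trans (le_of_eq ?_) ((Nat.le_add_left _ _).trans (this.ge.trans v2))
      congr 1; funext x; simp only [Pi.add_apply, Pi.neg_apply, Pi.sub_apply]; ring_nf; exact CharTwo.neg_eq _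
    · rintro c ⟨⟨c', c1, c2⟩, c3⟩
      have e : c' = w - v := by
        by_contra hn
        have h1 := golay_min _ (sub_mem c1 (sub_mem_comm_iff.1 v1)) (sub_ne_zero.2 hn)
        rw [nm] at h1
        have h2 : hammingNorm (fun x : ZMod 23 => (c' - (w - v)) (some x)) =
            hammingDist c (fun x => (w - v) (some x)) := by
          rw [hammingDist_eq_hammingNorm]; congr 1; funext x
          simp only [Pi.add_apply, Pi.neg_apply, Pi.sub_apply, c2, CharTwo.sub_eq_add, CharTwo.neg_eq]
        have h3 := hammingDist_triangle_left c (fun x => (w - v) (some x)) u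
        have h4 : hammingDist u (fun x => (w - v) (some x)) ≤ 3 := by
          rw [hammingDist_eq_hammingNorm, ← w1]
          refine le_trans (le_of_eq ?_) ((Nat.le_add_left _ _).trans ((nm v).ge.trans v2))
          congr 1; funext x; simp only [Pi.add_apply, Pi.neg_apply, Pi.sub_apply]; ring_nf; exact CharTwo.neg_eq _
        split_ifs at h1 <;> omega
      funext x; rw [c2, e]

end Cfsg.Agent.S1637
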