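import Cfsg.Statements.S1638
import Cfsg.Agent.H1.Mh

set_option autoImplicit false
open scoped Pointwise
open Cfsg

namespace Cfsg.Agent.S1638

section
open CfsgH1.Mg CfsgH1.Mc CfsgH1.Mh CfsgH7 CfsgH7.Gol MulAction
open scoped commutatorElement

noncomputable abbrev KA : Subgroup M24 := K22 ⊓ stabilizer M24 (S 0x6)

def WA : List (List Nat) := [[1,1,5,1,5,1,5,0],[2,0,4,4,0,5,0,5,0,2]]

theorem memA : ∀ w ∈ WA, wprod gm w ∈ KA := mem_inf' (mem_inf' (RP.mem_stab (by decide +kernel)) (RP.mem_stab (by decide +kernel))) (I.mem_stab RP (by decide +kernel))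

theorem cardA : Nat.card KA = 1920 :=
  R2.card_stab F2.inj gen22 card22 ⟨252, [0,1,0,1,0,1,0,1,0,1,0,1,0,1,0], 231⟩ 9 (I.fpt_eq' (P := P2) (i := 252) (a := 0x6) (by decide +kernel)) (by decide +kernel)

theorem rbO : Rb pt2 276 (orL (fun m => cntB P2 276 (andn (ones 24) m) 0) [0xc12017, 0x82402f, 0xa800c7, 0x908607, 0x841907])
    (fun t => ∃ o ∈ octads, px 23 ∈ o ∧ px 0 ∈ o ∧ S 6 ∪ t ⊆ o) :=
  (rb_exOct rfl 276 0x800007 _ (oct_list _ _ (by decide +kernel))).congr fun t => by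
    rw [show S 0x800007 = insert (px 23) (insert (px 0) (S 6)) by decide +kernel]
    simp only [Finset.union_subset_iff, Finset.insert_subset_iff, and_assoc]

theorem rbA : Rb pt2 276 (andn (andn (ones 276) (nth P2 23)) (nth P2 0)) (fun t => px 23 ∉ t ∧ px 0 ∉ t) :=
  (I.rb_in P2 276 (by norm_num)).not.andn (I.rb_in P2 276 (by norm_num))

end

/-- Fix two points p ≠ q and a pair s of two further points. Among the pairs avoiding p, q and disjoint from s, exactly 30 lie in an octad together with p, q and s and exactly 160 do not; and any two pairs other than s that meet s in equally many points and agree on that octad property are carried to one another by an element of the group of the length-24 code fixing p, q and s. -/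
theorem result (p q : Cfsg.GolayPt) (hpq : p ≠ q) (s : Finset Cfsg.GolayPt) (hs : (s.card = 2 ∧ p ∉ s ∧ q ∉ s)) : {t : Finset Cfsg.GolayPt | (t.card = 2 ∧ p ∉ t ∧ q ∉ t) ∧ Disjoint s t ∧ (∃ o ∈ Cfsg.octads, p ∈ o ∧ q ∈ o ∧ s ∪ t ⊆ o)}.ncard = 30 ∧ {t : Finset Cfsg.GolayPt | (t.card = 2 ∧ p ∉ t ∧ q ∉ t) ∧ Disjoint s t ∧ ¬ (∃ o ∈ Cfsg.octads, p ∈ o ∧ q ∈ o ∧ s ∪ t ⊆ o)}.ncard = 160 ∧ ∀ t t' : Finset Cfsg.GolayPt, (t.card = 2 ∧ p ∉ t ∧ q ∉ t) → (t'.card = 2 ∧ p ∉ t' ∧ q ∉ t') → t ≠ s → t' ≠ s → (s ∩ t).card = (s ∩ t').card → ((∃ o ∈ Cfsg.octads, p ∈ o ∧ q ∈ o ∧ s ∪ t ⊆ o) ↔ (∃ o ∈ Cfsg.octads, p ∈ o ∧ q ∈ o ∧ s ∪ t' ⊆ o)) → ∃ g : Equiv.Perm Cfsg.GolayPt, g ∈ Cfsg.M24 ∧ g p = p ∧ g q = q ∧ g • s = s ∧ g • t = t' := by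
  open CfsgH1.Mg CfsgH1.Mc CfsgH1.Mh CfsgH7 CfsgH7.Gol MulAction in
  open scoped commutatorElement in
  · obtain ⟨a, b, hab, rfl⟩ := Finset.card_eq_two.1 hs.1
    simp only [Finset.mem_insert, Finset.mem_singleton, not_or] at hs
    obtain ⟨c, e⟩ := pts tt4 [b, a, q, p] rfl (by
      simp [hab.symm, hpq.symm, Ne.symm hs.2.1.1, Ne.symm hs.2.1.2, Ne.symm hs.2.2.1, Ne.symm hs.2.2.2])
    simp only [List.map_cons, List.map_nil, List.cons.injEq, and_true] at e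
    obtain ⟨rfl, rfl, rfl, rfl⟩ := e
    rw [show ({c • px 1, c • px 2} : Finset GolayPt) = (open Pointwise in c • S 6) by
      rw [show S 6 = {px 1, px 2} by decide +kernel, Finset.smul_finset_insert, Finset.smul_finset_singleton]]
    have o : ∀ t : Finset GolayPt, (open Pointwise in ∃ o ∈ octads, c • px 23 ∈ o ∧ c • px 0 ∈ o ∧ c • S 6 ∪ c • t ⊆ o) ↔
        ∃ o ∈ octads, px 23 ∈ o ∧ px 0 ∈ o ∧ S 6 ∪ t ⊆ o := fun t => by
      rw [← Finset.smul_finset_union]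
      exact ⟨fun ⟨o, h⟩ => by
        obtain ⟨o, rfl⟩ := ex_smul c o
        exact ⟨o, by simpa only [moct, mem_smul, sub_smul] using h⟩,
        fun ⟨o, h⟩ => ⟨c • o, by simpa only [moct, mem_smul, sub_smul] using h⟩⟩
    refine ⟨F2.ncard_tr (rbA.and ((rb_disj rfl 276 6).and rbO)) c (fun y => ?_) 9 (by decide +kernel),
      F2.ncard_tr (rbA.and ((rb_disj rfl 276 6).andn rbO)) c (fun y => ?_) 9 (by decide +kernel),
      fun t t' h h' n n' e1 e2 => ?_⟩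
    · simp only [Set.mem_setOf_eq, o, mem_smul, disj_smul, Finset.card_smul_finset, and_assoc]
    · simp only [Set.mem_setOf_eq, o, mem_smul, disj_smul, Finset.card_smul_finset, and_assoc]
    obtain ⟨t, rfl⟩ := ex_smul c t
    obtain ⟨t', rfl⟩ := ex_smul c t'
    simp only [o, mem_smul, card_inter_smul, Finset.card_smul_finset, ne_eq, smul_left_cancel_iff] at h h' n n' e1 e2
    have r := fun k => I.rb_inter (P := P2) rfl 276 6 k
    have : ∃ k ∈ KA, (open Pointwise in k • t = t') := by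
      rcases F2.imp (F2.sing (b := 252) (by norm_num)).not ((r 0).or (r 1)) (by decide +kernel) t h.1
        (fun e => n (e.trans (I.fpt_eq' (by decide +kernel)))) with e | e
      · by_cases h1 : ∃ o ∈ octads, px 23 ∈ o ∧ px 0 ∈ o ∧ S 6 ∪ t ⊆ o
        · exact F2.tr2 R2 memA (rbA.and ((r 0).and rbO)) [1,1,0,1,0,1,0,1,0,1,0,1] 8 (by decide +kernel) t h.1 t' h'.1
            ⟨h.2, e, h1⟩ ⟨h'.2, e1 ▸ e, e2.1 h1⟩
        · exact F2.tr2 R2 memA (rbA.and ((r 0).andn rbO)) [1,0,1,0,1,1,0,1,0,1,0,1,1,0,1,0,1,0] 2 (by decide +kernel) t h.1 t' h'.1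
            ⟨h.2, e, h1⟩ ⟨h'.2, e1 ▸ e, fun a => h1 (e2.2 a)⟩
      · exact F2.tr2 R2 memA (rbA.and (r 1)) [0,1,0,1,1,0,1,1,0,1] 211 (by decide +kernel) t h.1 t' h'.1
          ⟨h.2, e⟩ ⟨h'.2, e1 ▸ e⟩
    obtain ⟨k, hk, e⟩ := this
    exact ⟨_, (c * k * c⁻¹).2, cj_smul c hk.1.1, cj_smul c hk.1.2, cj_smul c hk.2, cj_smul c e⟩

end Cfsg.Agent.S1638
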