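import Cfsg.Statements.S1640
import Mathlib
import Cfsg.Agent.H7.Lee.Cfg

set_option autoImplicit false
open Cfsg

namespace Cfsg.Agent.S1640

open CfsgH7 CfsgH7.Lee

/-- The stabiliser of a vector of customary norm 6 is transitive on the 11178 minimal vectors of customary inner product −2 with it. -/
theorem result (u : ↥Cfsg.leechLattice) (hu : Cfsg.sqNorm (u : Cfsg.GolayPt → ℤ) = 48) : {x : ↥Cfsg.leechLattice | Cfsg.sqNorm (x : Cfsg.GolayPt → ℤ) = 32 ∧ Cfsg.dotInt (u : Cfsg.GolayPt → ℤ) (x : Cfsg.GolayPt → ℤ) = -16}.ncard = 11178 ∧ ∀ x ∈ {x : ↥Cfsg.leechLattice | Cfsg.sqNorm (x : Cfsg.GolayPt → ℤ) = 32 ∧ Cfsg.dotInt (u : Cfsg.GolayPt → ℤ) (x : Cfsg.GolayPt → ℤ) = -16}, ∀ x' ∈ {x : ↥Cfsg.leechLattice | Cfsg.sqNorm (x : Cfsg.GolayPt → ℤ) = 32 ∧ Cfsg.dotInt (u : Cfsg.GolayPt → ℤ) (x : Cfsg.GolayPt → ℤ) = -16}, ∃ g : ↥Cfsg.Co0, g • u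 = u ∧ g • x = x' := by
  obtain ⟨c, rfl⟩ := tr48 hu
  refine ⟨(ncard_smul_eq c fun y => ?_).trans cTD, fun x hx y hy => ?_⟩
  · simp only [Set.mem_setOf_eq, g_norm, g_dot]; rfl
  obtain ⟨x, rfl⟩ := ex_smul c x
  obtain ⟨y, rfl⟩ := ex_smul c y
  simp only [Set.mem_setOf_eq, g_norm, g_dot] at hx hy
  obtain ⟨k, h1, h2⟩ := trD x hx y hy
  exact ⟨_, cj_smul c h1, cj_smul c h2⟩

end Cfsg.Agent.S1640
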