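import Cfsg.Statements.S1642
import Mathlib
import Cfsg.Agent.H7.Lee.Cfg

set_option autoImplicit false
open Cfsg

namespace Cfsg.Agent.S1642

open CfsgH7 CfsgH7.Lee

/-- Some involution of the Higman–Sims group acts without fixed points on its 100 points. -/
theorem result (v w : ↥Cfsg.leechLattice) (hv : Cfsg.sqNorm (v : Cfsg.GolayPt → ℤ) = 48) (hw : Cfsg.sqNorm (w : Cfsg.GolayPt → ℤ) = 48) (hvw : Cfsg.dotInt (v : Cfsg.GolayPt → ℤ) (w : Cfsg.GolayPt → ℤ) = -32) : ∃ g : ↥Cfsg.Co0, g • v = v ∧ g • w = w ∧ orderOf g = 2 ∧ ∀ x ∈ {x : ↥Cfsg.leechLattice | Cfsg.sqNorm (x : Cfsg.GolayPt → ℤ) = 32 ∧ Cfsg.dotInt (v : Cfsg.GolayPt → ℤ) (x : Cfsg.GolayPt → ℤ) = 24 ∧ Cfsg.dotInt (w : Cfsg.GolayPt → ℤ) (x : Cfsg.GolayPt → ℤ) = -24}, g • x ≠ x := by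
  obtain ⟨c, rfl, rfl⟩ := cfgH hv hw hvw
  obtain ⟨k, h1, h2, h3⟩ := fpf
  rw [← KH_eq] at h1
  refine ⟨_, (fix2 h1).1, (fix2 h1).2, ?_, fun x (hx : x ∈ XS _ _ _ _) e => ?_⟩
  · rw [← h2]; exact (MulAut.conj c).orderOf_eq k
  obtain ⟨x, rfl⟩ := ex_smul c x
  rw [XS_smul, XH0] at hx
  exact h3 x hx (by simpa [mul_smul] using e)

end Cfsg.Agent.S1642
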