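import Mathlib
import Cfsg.Statements.S1666
import Cfsg.Agent.H8.HsL
import Cfsg.Agent.H8.HsR
import Cfsg.Agent.H1.St5
import Cfsg.Agent.S0378

set_option autoImplicit false
open Cfsg

namespace Cfsg.Agent.S1666

theorem c22 : Nat.card Spor.M22 = 443520 := by
  rw [← Cfsg.Agent.S0378.result none (some 0) (by simp), ← Subgroup.card_subtype]
  congr 2
  ext x
  exact ⟨fun h => ⟨⟨x, h.1.1⟩, ⟨h.1.2, h.2⟩, rfl⟩, by rintro ⟨y, h, rfl⟩; exact ⟨⟨y.2, h.1⟩, h.2⟩⟩

theorem orb {G Ω : Type*} [Group G] [MulAction G Ω] (a y : Ω) :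
    (MulAction.orbit (MulAction.stabilizer G a) y).ncard *
      Nat.card (MulAction.stabilizer G a ⊓ MulAction.stabilizer G y : Subgroup G) = Nat.card (MulAction.stabilizer G a) := by
  rw [← MulAction.index_stabilizer, ← (MulAction.stabilizer (MulAction.stabilizer G a) y).index_mul_card,
    ← Subgroup.card_subtype (MulAction.stabilizer G a) (MulAction.stabilizer (MulAction.stabilizer G a) y)]
  congr 3
  ext x
  exact ⟨fun h => ⟨⟨x, h.1⟩, h.2, rfl⟩, by rintro ⟨y, h, rfl⟩; exact ⟨y.2, h⟩⟩

theorem cj {G Ω : Type*} [Group G] [MulAction G Ω] (g : G) (x y : Ω) :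
    Nat.card (MulAction.stabilizer G (g • x) ⊓ MulAction.stabilizer G (g • y) : Subgroup G) =
      Nat.card (MulAction.stabilizer G x ⊓ MulAction.stabilizer G y : Subgroup G) := by
  rw [MulAction.stabilizer_smul_eq_stabilizer_map_conj, MulAction.stabilizer_smul_eq_stabilizer_map_conj,
    ← Subgroup.map_inf _ _ _ (MulAut.conj g).injective, Subgroup.card_map_of_injective (MulAut.conj g).injective]

theorem uniq2 {A : Type*} [Group A] [Finite A] {H K : Subgroup A} (hH : H.index = 2) (hK : K.index = 2)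
    [IsSimpleGroup K] (h2 : 2 < Nat.card K) : H = K := by
  haveI := Subgroup.normal_of_index_eq_two hH
  rcases (inferInstance : (H.subgroupOf K).Normal).eq_bot_or_eq_top with e | e
  · have h1 : H.relIndex K ∣ 2 := hH ▸ Subgroup.relIndex_dvd_index_of_normal H K
    rw [Subgroup.relIndex, e, Subgroup.index_bot] at h1
    exact absurd (Nat.le_of_dvd (by norm_num) h1) (by omega)
  · have h1 := H.card_mul_index
    have h3 := K.card_mul_index
    rw [hH] at h1
    rw [hK] at h3
    exact (Subgroup.eq_of_le_of_card_ge (Subgroup.subgroupOf_eq_top.1 e) (by omega)).symm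

/-- Recognition of the Higman–Sims group as a rank 3 permutation group: a transitive permutation group on 100 points in which the stabiliser of a point is isomorphic to the Mathieu group M₂₂ and has two further orbits, of sizes 22 and 77, is isomorphic to the Higman–Sims group. -/
theorem result {Ω : Type*} [Fintype Ω] [DecidableEq Ω] (hΩ : Fintype.card Ω = 100) (G : Subgroup (Equiv.Perm Ω)) [MulAction.IsPretransitive G Ω] (a : Ω)  (e : MulAction.stabilizer G a ≃* Cfsg.Spor.M22) (b c : Ω) (hb : (MulAction.orbit (MulAction.stabilizer G a) b).ncard = 22) (hc : (MulAction.orbit (MulAction.stabilizer G a) c).ncard = 77) : Cfsg.Spor.IsoHS G := by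
  classical
  have hS : Nat.card (MulAction.stabilizer G a) = 443520 := (Nat.card_congr e.toEquiv).trans c22
  have hG : Nat.card G = 44352000 := by
    rw [← (MulAction.stabilizer G a).card_mul_index, MulAction.index_stabilizer_of_transitive, hS,
      Nat.card_eq_fintype_card, hΩ]
  let Γ : SimpleGraph Ω := ⟨fun x y => Nat.card (MulAction.stabilizer G x ⊓ MulAction.stabilizer G y : Subgroup G) = 20160,
    ⟨fun x y h => by rwa [inf_comm]⟩, ⟨fun x h => by
      obtain ⟨g, rfl⟩ := MulAction.exists_smul_eq G a x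
      rw [cj, inf_idem, hS] at h
      omega⟩⟩
  let ρ : G →* (Γ ≃g Γ) :=
    { toFun := fun g => ⟨g.1, fun {x y} => Iff.of_eq (congrArg (· = 20160) (cj g x y))⟩
      map_one' := rfl
      map_mul' := fun _ _ => rfl }
  have hρ : Function.Injective ρ := fun g k h => Subtype.ext (Equiv.ext fun x => congrArg (fun φ : Γ ≃g Γ => φ x) h)
  have h1 : ∀ y, Γ.Adj a y ↔ (MulAction.orbit (MulAction.stabilizer G a) y).ncard = 22 := fun y => by
    have := orb (G := G) a y
    rw [hS] at this
    show Nat.card (MulAction.stabilizer G a ⊓ MulAction.stabilizer G y : Subgroup G) = 20160 ↔ _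
    constructor <;> intro h <;> rw [h] at this <;> omega
  have ha : MulAction.orbit (MulAction.stabilizer G a) a = {a} :=
    Set.eq_singleton_iff_unique_mem.2 ⟨MulAction.mem_orbit_self a, by rintro _ ⟨g, rfl⟩; exact g.2⟩
  have hd : ∀ x y : Ω, (MulAction.orbit (MulAction.stabilizer G a) x).ncard ≠ (MulAction.orbit (MulAction.stabilizer G a) y).ncard →
      Disjoint (MulAction.orbit (MulAction.stabilizer G a) x) (MulAction.orbit (MulAction.stabilizer G a) y) := fun x y h =>
    Set.disjoint_left.2 fun z h1 h2 => h (by rw [← MulAction.orbit_eq_iff.2 h1, MulAction.orbit_eq_iff.2 h2])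
  have hu : ∀ y, y ≠ a → y ∈ MulAction.orbit (MulAction.stabilizer G a) b ∨ y ∈ MulAction.orbit (MulAction.stabilizer G a) c := by
    have : MulAction.orbit (MulAction.stabilizer G a) a ∪ (MulAction.orbit (MulAction.stabilizer G a) b ∪
        MulAction.orbit (MulAction.stabilizer G a) c) = Set.univ := Set.eq_of_subset_of_ncard_le (Set.subset_univ _) (by
      rw [Set.ncard_union_eq (Set.disjoint_union_right.2 ⟨hd _ _ (by rw [ha, hb]; simp), hd _ _ (by rw [ha, hc]; simp)⟩),
        Set.ncard_union_eq (hd _ _ (by omega)), ha, hb, hc, Set.ncard_univ, Nat.card_eq_fintype_card, hΩ]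
      simp)
    intro y hy
    exact (this.ge (Set.mem_univ y)).resolve_left (by rw [ha]; exact hy)
  have h2 : ∀ y, Γ.Adj a y ↔ y ∈ MulAction.orbit (MulAction.stabilizer G a) b := fun y =>
    ⟨fun h => (hu y h.ne').resolve_right fun h' => by
      rw [h1, MulAction.orbit_eq_iff.2 h'] at h
      omega, fun h => by rw [h1, MulAction.orbit_eq_iff.2 h, hb]⟩
  have hs : Γ.IsSRGWith 100 22 0 6 := by
    refine CfsgH8.HsG.srg3 hΩ a (fun y => ?_) (by simp only [h2]; exact hb) fun y z y1 z1 h => ?_
    · obtain ⟨g, hg⟩ := MulAction.exists_smul_eq G a y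
      exact ⟨ρ g, hg⟩
    · have : z ∈ MulAction.orbit (MulAction.stabilizer G a) y := by
        rw [h2, h2] at h
        by_cases h' : y ∈ MulAction.orbit (MulAction.stabilizer G a) b
        · rw [MulAction.orbit_eq_iff.2 h']; exact h.1 h'
        · rw [MulAction.orbit_eq_iff.2 ((hu y y1).resolve_left h')]
          exact (hu z z1).resolve_left fun h'' => h' (h.2 h'')
      obtain ⟨g, hg⟩ := this
      exact ⟨ρ g.1, g.2, hg⟩
  obtain ⟨f⟩ := CfsgH8.HsG.iso_gr hs
  obtain ⟨B, hB, ⟨f'⟩⟩ := CfsgH1.Un.srg100 hs a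
  have hA : Nat.card (Γ ≃g Γ) = 88704000 := (CfsgH8.HsG.tr_card f').symm.trans
    (CfsgH8.HsG.card_pb (by rw [SimpleGraph.card_neighborSet_eq_degree, hs.regular.degree_eq]) hB)
  haveI : Finite (Γ ≃g Γ) := Nat.finite_of_card_ne_zero (by omega)
  have φ := MonoidHom.ofInjective (f := (CfsgH8.HsG.tr f).comp CfsgH8.HsG.act) ((CfsgH8.HsG.tr_inj f).comp CfsgH8.HsG.act_inj)
  have ψ := MonoidHom.ofInjective hρ
  haveI := CfsgH7.Lee.simH
  haveI := φ.symm.isSimpleGroup
  have c1 := (Nat.card_congr φ.symm.toEquiv).trans CfsgH7.Lee.cardH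
  have c2 := (Nat.card_congr ψ.symm.toEquiv).trans hG
  have i1 := ((CfsgH8.HsG.tr f).comp CfsgH8.HsG.act).range.card_mul_index
  have i2 := ρ.range.card_mul_index
  rw [hA, c1] at i1
  rw [hA, c2] at i2
  exact ⟨ψ.trans ((MulEquiv.subgroupCongr (uniq2 (by omega) (by omega) (by omega))).trans
    (φ.symm.trans (CfsgH7.Lee.offE CfsgH7.Lee.oH)))⟩

end Cfsg.Agent.S1666
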