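import Cfsg.Statements.S1682
import Mathlib
import Cfsg.Agent.H7.Is.He

set_option autoImplicit false
open Cfsg

namespace Cfsg.Agent.S1682

open CfsgH7 CfsgH7.He

/-- In the presented Held group, the subgroup H generated by the images of a, c, d, e, f, (ab)^2 and (bcde)^7 has a normal subgroup of index 2 isomorphic to the 4-dimensional symplectic group over a field with four elements. -/
theorem result : ∃ (N : Subgroup (((Subgroup.closure ({Cfsg.Spor.He.a, Cfsg.Spor.He.c, Cfsg.Spor.He.d, Cfsg.Spor.He.e, Cfsg.Spor.He.f, (Cfsg.Spor.He.a * Cfsg.Spor.He.b) ^ 2, (Cfsg.Spor.He.b * Cfsg.Spor.He.c * Cfsg.Spor.He.d * Cfsg.Spor.He.e) ^ 7} : Set (FreeGroup Cfsg.Spor.He.Gen))).map (PresentedGroup.mk (Cfsg.Spor.coxRelators Cfsg.Spor.He.edges ∪ {r | r ∈ Cfsg.Spor.He.extra}))))) (K : Type) (_ : Field K) (_ : Fintype K), N.Normal ∧ N.index = 2 ∧ Fintype.card K = 4 ∧ Nonempty (N ≃* Matrix.symplecticGroup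 (Fin 2) K) := by
  obtain ⟨K, i1, i2, hK⟩ := CfsgH7.gf4
  rw [CfsgH7.map_closure_eq _ CfsgH7.He.hall [Spor.He.a, Spor.He.c, Spor.He.d, Spor.He.e, Spor.He.f,
    (Spor.He.a * Spor.He.b) ^ 2, (Spor.He.b * Spor.He.c * Spor.He.d * Spor.He.e) ^ 7] _
    (by simp) CfsgH7.He.W1 (by decide +kernel)]
  have := CfsgH7.He.Ou.M0.fin
  obtain ⟨N, h1, h2, h3⟩ := CfsgH7.idx2 CfsgH7.He.Is.V_le CfsgH7.He.Is.V_m.2.1
    (by have h := CfsgH7.He.card_stab; rw [← CfsgH7.He.K_eq] at h; exact h)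
    (CfsgH7.Mdl.iso2 CfsgH7.S44.pr CfsgH7.S44.pr CfsgH7.S44.mdl0 CfsgH7.He.Is.V_m (CfsgH7.S44.mdlF hK))
  exact ⟨N, K, i1, i2, h1, h2, hK, h3⟩

end Cfsg.Agent.S1682
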