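import Cfsg.Statements.S1685
import Mathlib
import Cfsg.Agent.H7.Fi22.Main

set_option autoImplicit false
open Cfsg

namespace Cfsg.Agent.S1685

open CfsgH7 CfsgH7.Fi22
theorem aux : (genW g Fi22T0.subs).index = 14080 := by
  have h := card_rel0 g sat
  have e : genW g Fi22T0.W0 = ⊤ := gen
  rw [e, Subgroup.relIndex_top_right] at h
  refine le_antisymm h.2 ?_
  exact CardLe.index_ge (card1 g sat) (by rw [card]) (by norm_num)

/-- In the presented Fischer group Fi₂₂ (generators a, …, i), the subgroup generated by the images of b, c, d, e, f, g, h, i has index 14080. -/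
theorem result : (((Subgroup.closure ({Cfsg.Spor.Fi22.b, Cfsg.Spor.Fi22.c, Cfsg.Spor.Fi22.d, Cfsg.Spor.Fi22.e, Cfsg.Spor.Fi22.f, Cfsg.Spor.Fi22.g, Cfsg.Spor.Fi22.h, Cfsg.Spor.Fi22.i} : Set (FreeGroup Cfsg.Spor.Fi22.Gen))).map (PresentedGroup.mk (Cfsg.Spor.coxRelators Cfsg.Spor.Fi22.edges ∪ {r | r ∈ Cfsg.Spor.Fi22.extra})))).index = 14080 := by
  rw [map_closure_eq _ hall [Spor.Fi22.b, Spor.Fi22.c, Spor.Fi22.d, Spor.Fi22.e, Spor.Fi22.f, Spor.Fi22.g,
    Spor.Fi22.h, Spor.Fi22.i] _ (by simp) Fi22T0.subs (by decide +kernel)]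
  exact aux

end Cfsg.Agent.S1685
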