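import Mathlib
import Cfsg.Statements.S1691

set_option autoImplicit false
open Cfsg

namespace Cfsg.Agent.S1691

open Cfsg.Spor Cfsg.Spor.Fi24

/-- The commutator subgroup of the presented group Fi₂₄ has index 2 (the presented group is Fi₂₄′:2 with Fi₂₄′ its derived subgroup). -/
theorem result : (commutator Cfsg.Spor.Fi24).index = 2 := by
  let π : Gen → Abelianization Fi24 := fun x => Abelianization.of (PresentedGroup.of x)
  have r : ∀ x y : Gen, (π x * π y) ^ coxLabel edges x y = 1 := by
    intro x y
    have h : (PresentedGroup.mk _ ((FreeGroup.of x * FreeGroup.of y) ^ coxLabel edges x y) : Fi24) = 1 :=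
      PresentedGroup.one_of_mem (Or.inl ⟨x, by cases x <;> decide, y, by cases y <;> decide, rfl⟩)
    have := congrArg Abelianization.of h
    rw [map_pow, map_mul, map_pow, map_mul, map_one] at this
    exact this
  have s : ∀ x, π x * π x = 1 := fun x => by simpa [coxLabel] using r x x
  have t : ∀ x y, coxLabel edges x y = 3 → π x = π y := fun x y h => by
    have h1 := r x y
    rw [h] at h1
    calc π x = (π x * π y) ^ 3 * π x := by rw [h1, one_mul]
      _ = (π x * π x) ^ 2 * (π y * π y) * π y := by simp only [pow_succ, pow_zero, one_mul]; ac_rfl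
      _ = π y := by rw [s, s]; simp
  have u : ∀ x, π x = π .d := by
    have := t .l .k rfl
    have := t .k .a rfl
    have := t .a .b rfl
    have := t .b .c rfl
    have := t .c .d rfl
    have := t .e .d rfl
    have := t .h .d rfl
    have := t .f .e rfl
    have := t .g .f rfl
    have := t .j .g rfl
    have := t .i .h rfl
    intro x
    cases x <;> simp only [*]
  have v : ∀ w ∈ coxRelators edges ∪ {r | r ∈ extra}, FreeGroup.lift (fun _ : Gen => (-1 : ℤˣ)) w = 1 := by
    rintro w (⟨x, -, y, -, rfl⟩ | h)
    · simp
    · simp only [extra, List.mem_cons, List.not_mem_nil, or_false, Set.mem_ofPred_eq] at h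
      rcases h with rfl | rfl
      · simp only [map_mul, map_inv, map_pow, FreeGroup.lift_apply_of]; decide
      · simp only [map_mul, map_inv, map_pow, FreeGroup.lift_apply_of]; decide
  have w : π .d ≠ 1 := fun h => by
    have := congrArg (Abelianization.lift (PresentedGroup.toGroup v)) h
    simp [π] at this
  have z : Subgroup.zpowers (π .d) = ⊤ := by
    rw [eq_top_iff]
    rintro x -
    obtain ⟨x, rfl⟩ : ∃ y, Abelianization.of y = x := QuotientGroup.mk_surjective x
    have : x ∈ Subgroup.closure (Set.range (PresentedGroup.of : Gen → Fi24)) := by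
      rw [PresentedGroup.closure_range_of]; trivial
    induction this using Subgroup.closure_induction with
    | mem x hx => obtain ⟨x, rfl⟩ := hx; exact u x ▸ Subgroup.mem_zpowers (π x)
    | one => rw [map_one]; exact one_mem _
    | mul x y _ _ hx hy => rw [map_mul]; exact mul_mem hx hy
    | inv x _ hx => rw [map_inv]; exact inv_mem hx
  change Nat.card (Abelianization Fi24) = 2
  rw [← Subgroup.card_top, ← z, Nat.card_zpowers]
  exact orderOf_eq_prime (by rw [sq, s]) w

end Cfsg.Agent.S1691
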