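import Cfsg.Statements.S5424
import Cfsg.Agent.H1.AG

set_option autoImplicit false
open Cfsg

namespace Cfsg.Agent.S5424

open Matrix

/-- block upper triangular matrices -/
def P {k : ℕ} (r : Fin k → ZMod 2) (A : Matrix (Fin k) (Fin k) (ZMod 2)) : Matrix (Fin (k + 1)) (Fin (k + 1)) (ZMod 2) :=
  of (Fin.cons (Fin.cons 1 r) fun i => Fin.cons 0 (A i))

theorem P_mul {k : ℕ} (r s : Fin k → ZMod 2) (A B : Matrix (Fin k) (Fin k) (ZMod 2)) : P r A * P s B = P (s + r ᵥ* B) (A * B) := by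
  ext i j
  refine Fin.cases ?_ (fun i => ?_) i <;> refine Fin.cases ?_ (fun j => ?_) j <;> simp [P, mul_apply, Fin.sum_univ_succ, vecMul, dotProduct]

theorem P_det {k : ℕ} (r : Fin k → ZMod 2) (A : Matrix (Fin k) (Fin k) (ZMod 2)) : (P r A).det = A.det := by
  rw [det_succ_column_zero, Fin.sum_univ_succ]
  simp [P]
  rfl

theorem P_inj {k : ℕ} {r s : Fin k → ZMod 2} {A B : Matrix (Fin k) (Fin k) (ZMod 2)} (h : P r A = P s B) : r = s ∧ A = B :=
  ⟨funext fun j => congrFun₂ h 0 j.succ, Matrix.ext fun i j => congrFun₂ h i.succ j.succ⟩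

/-- translations -/
def T (k : ℕ) : Multiplicative (Fin k → ZMod 2) →* SpecialLinearGroup (Fin (k + 1)) (ZMod 2) :=
  MonoidHom.mk' (fun r => ⟨P r.toAdd 1, by rw [P_det, det_one]⟩) fun a b => Subtype.ext (((P_mul _ _ _ _).trans (by simp [add_comm])).symm)

/-- the Levi factor -/
def D (k : ℕ) : SpecialLinearGroup (Fin k) (ZMod 2) →* SpecialLinearGroup (Fin (k + 1)) (ZMod 2) :=
  MonoidHom.mk' (fun A => ⟨P 0 A.1, by rw [P_det, A.2]⟩) fun a b => Subtype.ext (((P_mul _ _ _ _).trans (by simp)).symm)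

theorem DT {k : ℕ} (A : SpecialLinearGroup (Fin k) (ZMod 2)) (r : Multiplicative (Fin k → ZMod 2)) : D k A⁻¹ * T k r * (D k A⁻¹)⁻¹ = T k (.ofAdd (r.toAdd ᵥ* A.1)) := by
  rw [map_inv, inv_inv, mul_assoc, inv_mul_eq_iff_eq_mul]
  exact Subtype.ext (((P_mul _ _ _ _).trans (by simp)).trans (P_mul _ _ _ _).symm)

theorem P_tv (k : ℕ) : transvection (0 : Fin (k + 2)) 1 (1 : ZMod 2) = P (Pi.single 0 1) 1 := by
  rw [← Fin.succ_zero_eq_one]
  ext i j
  refine Fin.cases ?_ (fun i => ?_) i <;> refine Fin.cases ?_ (fun j => ?_) j <;>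
    simp [P, transvection, one_apply, single_apply, Pi.single_apply, (Fin.succ_ne_zero _).symm, -Fin.succ_zero_eq_one, -Fin.succ_zero_eq_one', @eq_comm _ 0 j]

theorem det1 {k : ℕ} (g : GL (Fin k) (ZMod 2)) : g.1.det = 1 := (by decide : ∀ a : ZMod 2, a ≠ 0 → a = 1) _ g.det_ne_zero
/-- Let G be the special linear group of degree n + 2 over the field with two elements, n ≥ 2, let z be a transvection, and let Q be the largest normal 2-subgroup of the centralizer C of z. Then Q is extraspecial of order 2^(2n+1) with an elementary abelian subgroup of order 2^(n+1) (plus type), Q is a large extraspecial 2-subgroup of G, and C is the split extension of Q by the special linear group of degree n over the field with two elements. -/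
theorem result (n : ℕ) (hn : 2 ≤ n) (z : Matrix.SpecialLinearGroup (Fin (n + 2)) (ZMod 2)) (hz : (z : Matrix (Fin (n + 2)) (Fin (n + 2)) (ZMod 2)) = Matrix.transvection 0 1 1) (Q : Subgroup (Matrix.SpecialLinearGroup (Fin (n + 2)) (ZMod 2))) (hQ : Q = (Cfsg.pCore 2 ↥(Subgroup.centralizer ({z} : Set (Matrix.SpecialLinearGroup (Fin (n + 2)) (ZMod 2))))).map (Subgroup.centralizer ({z} : Set (Matrix.SpecialLinearGroup (Fin (n + 2)) (ZMod 2)))).subtype) : Cfsg.IsExtraspecial 2 ↥Q ∧ Nat.card ↥Q = 2 ^ (2 * n + 1) ∧ (∃ E : Subgroup (Matrix.SpecialLinearGroup (Fin (n + 2)) (ZMod 2)), E ≤ Q ∧ Cfsg.IsElementaryAbelian 2 E ∧ Nat.card ↥E = 2 ^ (n + 1)) ∧ Cfsg.IsLargeExtraspecial Q ∧ ∃ K : Subgroup (Matrix.SpecialLinearGroup (Fin (n + 2)) (ZMod 2)), K ≤ Subgroup.centralizer ({z} : Set (Matrix.SpecialLinearGroup (Fin (n + 2)) (ZMod 2))) ∧ Q ⊓ K = ⊥ ∧ Q ⊔ K = Subgroup.centralizer ({z} : Set (Matrix.SpecialLinearGroup (Fin (n + 2)) (ZMod 2))) ∧ Nonempty (↥K ≃* Matrix.SpecialLinearGroup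 (Fin n) (ZMod 2)) := by
  open Subgroup CfsgH2 in
  open CfsgH1 hiding SS card_inf_mul_relIndex card_lt_of_lt card_lt_of_ne_top card_map_mul_card_inf_ker card_mul_relIndex card_subgroupOf card_sup_dvd card_sup_mul_card_inf coprime_le_sup_cent exists_card_prime_le isNilpotent_map isNilpotent_of_le isPGroup_pCore isSolvable_map isSolvable_of_le le_pCore le_pPrimeCore relIndex_map_dvd in
  open scoped CfsgH1 in
  open scoped commutatorElement in
  · have inj : Function.Injective (T (n + 1)) := fun a b e => (P_inj (congrArg Subtype.val e)).1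
    have sq : ∀ a : Multiplicative (Fin (n + 1) → ZMod 2), a ^ 2 = 1 := fun a => by
      rw [pow_two]; exact funext fun i => CharTwo.add_self_eq_zero _
    have e : z = T _ (.ofAdd (Pi.single 0 1)) := Subtype.ext (hz.trans (P_tv n))
    have a : AG (T (n + 1)).range (D (n + 1)).range := by
      refine ⟨⟨inferInstance, ?_⟩, ?_, eq_bot_iff.2 ?_, ?_, fun φ => ?_⟩
      · rintro _ ⟨a, rfl⟩
        rw [← map_pow, sq, map_one]
      · rintro _ ⟨A, rfl⟩
        refine mem_norm_of_conj ?_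
        rintro _ ⟨r, rfl⟩
        exact ⟨_, (inv_inv A ▸ DT A⁻¹ r :).symm⟩
      · rintro _ ⟨⟨r, rfl⟩, A, h⟩
        exact (congrArg (T _) (P_inj (congrArg Subtype.val h)).1.symm).trans (map_one _)
      · rintro _ ⟨A, rfl⟩ h
        rw [show A = 1 from inv_eq_one.1 (Subtype.ext (Matrix.ext fun i j => ?_)), map_one]
        have := congrFun (congrArg Multiplicative.toAdd <| inj ((DT A⁻¹ _).symm.trans ((inv_inv A).symm ▸ h _ ⟨.ofAdd (Pi.single i 1), rfl⟩ :))) j
        simpa [Matrix.one_apply, Pi.single_apply, eq_comm] using this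
      · let ε := MonoidHom.ofInjective inj
        obtain ⟨g, hg⟩ := (glAut_bij _).2 (ε.trans (φ.trans ε.symm))
        refine ⟨_, ⟨(⟨g.1.transpose, by rw [Matrix.det_transpose, det1]⟩ : Matrix.SpecialLinearGroup _ _)⁻¹, rfl⟩, fun u => ?_⟩
        obtain ⟨r, rfl⟩ := ε.surjective u
        refine Eq.trans ?_ (DT _ r).symm
        rw [← ε.apply_symm_apply (φ _)]
        exact congrArg (T _) ((DFunLike.congr_fun hg r).symm.trans (congrArg Multiplicative.ofAdd (Matrix.vecMul_transpose g.1 r.toAdd).symm))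
    have o : orderOf z = 2 := by
      rw [e, orderOf_injective _ inj]
      exact orderOf_eq_prime (sq _) fun k => by simpa using congrFun (congrArg Multiplicative.toAdd k) 0
    rw [map_pCore_subtype] at hQ
    have hC : C1[z] ≤ (T (n + 1)).range ⊔ (D (n + 1)).range := fun g hg => by
      have c : g.1 * z.1 = z.1 * g.1 := congrArg Subtype.val (show g * z = z * g from mem_centralizer_singleton_iff.1 hg)
      have c0 : ∀ i : Fin (n + 1), g.1 i.succ 0 = 0 := fun i => by
        rw [hz, Matrix.transvection, mul_add, add_mul, mul_one, one_mul, add_right_inj] at c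
        simpa [Matrix.mul_apply, Matrix.single_apply, (Fin.succ_ne_zero _).symm] using congrFun₂ c i.succ 1
      have c1 : g.1 0 0 = 1 := (by decide : ∀ a : ZMod 2, a ≠ 0 → a = 1) _ fun k =>
        one_ne_zero (g.2.symm.trans (Matrix.det_eq_zero_of_column_eq_zero 0 fun i => Fin.cases k c0 i))
      have f : g.1 = P (fun j => g.1 0 j.succ) (g.1.submatrix Fin.succ Fin.succ) := Matrix.ext fun i j => by
        refine Fin.cases ?_ (fun i => ?_) i <;> refine Fin.cases ?_ (fun j => ?_) j <;> simp [P, c0, c1]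
      rw [sup_comm, show g = D _ ⟨_, by rw [← P_det, ← f, g.2]⟩ * T _ (.ofAdd fun j => g.1 0 j.succ) from Subtype.ext (f.trans ((P_mul _ _ _ _).trans (by simp)).symm)]
      exact mul_mem (mem_sup_left ⟨_, rfl⟩) (mem_sup_right ⟨_, rfl⟩)
    obtain ⟨h1, h2, h3, h4, K, k1, k2, k3, ⟨k4⟩⟩ := a.main (n := n) o ⟨_, e.symm⟩ hC (by rw [← Nat.card_congr (MonoidHom.ofInjective inj).toEquiv]; simp) (by omega) hQ
    exact ⟨h1, h2, h3, h4, K, k1, k2, k3, ⟨k4.trans (MulEquiv.ofBijective Matrix.SpecialLinearGroup.toGL ⟨Matrix.SpecialLinearGroup.toGL_injective, fun g => ⟨⟨g.1, det1 g⟩, Units.ext rfl⟩⟩).symm⟩⟩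

end Cfsg.Agent.S5424
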