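import Cfsg.Statements.S1717
import Cfsg.Agent.H1.AG
import Cfsg.Agent.S5424

set_option autoImplicit false
open Cfsg

namespace Cfsg.Agent.S1717

/-- Let G be a finite group with an involution z whose centraliser C is isomorphic to the centraliser of a transvection of SL(5, 2). Then a Sylow 2-subgroup of C, viewed in G, is a Sylow 2-subgroup of G (its index in G is odd). -/
theorem result {G : Type*} [Group G] [Finite G] (s : Matrix.SpecialLinearGroup (Fin 5) (ZMod 2)) (hs : (s : Matrix (Fin 5) (Fin 5) (ZMod 2)) = Matrix.transvection 0 1 1) (z : G) (hz : orderOf z = 2) (e : (Subgroup.centralizer ({z} : Set G)) ≃* Subgroup.centralizer ({s} : Set (Matrix.SpecialLinearGroup (Fin 5) (ZMod 2)))) (T : Sylow 2 (Subgroup.centralizer ({z} : Set G))) : ¬ 2 ∣ ((T : Subgroup (Subgroup.centralizer ({z} : Set G))).map (Subgroup.subtype (Subgroup.centralizer ({z} : Set G)))).index := by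
  open Subgroup CfsgH2 in
  open CfsgH1 hiding SS card_inf_mul_relIndex card_lt_of_lt card_lt_of_ne_top card_map_mul_card_inf_ker card_mul_relIndex card_subgroupOf card_sup_dvd card_sup_mul_card_inf coprime_le_sup_cent exists_card_prime_le isNilpotent_map isNilpotent_of_le isPGroup_pCore isSolvable_map isSolvable_of_le le_pCore le_pPrimeCore relIndex_map_dvd in
  open scoped CfsgH1 in
  open scoped commutatorElement in
  · haveI : Fact (Nat.Prime 2) := ⟨Nat.prime_two⟩
    obtain ⟨-, -, -, h, -⟩ := Cfsg.Agent.S5424.result 3 (by norm_num) s hs _ rfl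
    obtain ⟨y, q⟩ := exists_lx h.1 h.2.1 h.2.2.1
    rw [map_pCore_subtype] at q
    let f := C1[s].subtype.comp e.toMonoidHom
    have inj : Function.Injective f := Subtype.val_injective.comp e.injective
    have t : Syl 2 (T.1.map f) C1[s] := by
      have := (syl_top T).map f
      rwa [← map_map, ← map_map, map_top_of_surjective _ e.surjective, map_subtype_top, map_map] at this
    have k : ∀ x : C1[z], x.1 ∈ C[T.1.map C1[z].subtype] → x ≠ 1 → f x = y := fun x hx x1 => by
      refine ((mem_zp2 q.ord).1 (q.cent_eq.le (centralizer_le t.pCoreOf_le (mem_cent_iff.2 ?_)))).resolve_left fun e => x1 (inj (e.trans (map_one f).symm))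
      rintro _ ⟨a, ha, rfl⟩
      rw [← map_mul, ← map_mul, show a * x = x * a from Subtype.ext (mem_cent_iff.1 hx a ⟨a, ha, rfl⟩)]
    have t0 := syl_sub T
    have zc : z ∈ C[T.1.map C1[z].subtype] := le_cent1_iff.1 t0.le
    have z1 := ne_one_of_two hz
    have zT : z ∈ T.1.map C1[z].subtype := t0.le_of_norm' (isPGroup_zpowers_of_orderOf hz) (zpowers_le.2 (mem_centralizer_singleton_iff.2 rfl))
      ((zpowers_le.2 zc).trans (centralizer_le_normalizer _)) (mem_zpowers z)
    have : Syl 2 (T.1.map C1[z].subtype) ⊤ := Syl.of_norm le_top (t0.mono (le_inf le_top le_normalizer) fun g hg => by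
      have := k ⟨g * z * g⁻¹, t0.le (conj_mem_of_norm hg.2 zT)⟩ (conj_mem_of_norm (norm_le_norm_cent _ hg.2) zc) fun e => z1 (by simpa using congrArg Subtype.val e)
      rw [← k ⟨z, t0.le zT⟩ zc fun e => z1 (congrArg Subtype.val e)] at this
      exact mem_centralizer_singleton_iff.2 (mul_inv_eq_iff_eq_mul.1 (congrArg Subtype.val (inj this))))
    exact fun d => this.nd (by rwa [relIndex_top_right])

end Cfsg.Agent.S1717
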