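import Cfsg.Statements.S1753
import Mathlib
import Cfsg.Agent.H9.Tech

set_option autoImplicit false
universe u
open Cfsg

namespace Cfsg.Agent.S1753

/-- Let K be any property of groups. (1) If G is a minimal counterexample relative to K — a finite non-abelian simple group not satisfying K such that every finite non-abelian simple group of smaller order satisfies K — then every proper subgroup of G is a K-group (all its non-abelian simple sections satisfy K), since such sections have smaller order than G. (2) Consequently (induction on the order), if every finite non-abelian simple group all of whose proper subgroups are K-groups satisfies K, then every finite non-abelian simple group satisfies K. -/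
theorem result (K : ∀ (X : Type u) [Group X], Prop) :
    (∀ (G : Type u) [Group G], Cfsg.IsMinCounterexampleWith K G → Cfsg.IsKProperWith K G) ∧
      ((∀ (X : Type u) [Group X] [Finite X], IsSimpleGroup X → ¬ IsMulCommutative X → Cfsg.IsKProperWith K X → K X) →
        ∀ (G : Type u) [Group G] [Finite G], IsSimpleGroup G → ¬ IsMulCommutative G → K G) := by
  open Subgroup CfsgH9 in
  have h1 : ∀ (G : Type u) [Group G], IsMinCounterexampleWith K G → IsKProperWith K G := by
    rintro G _ ⟨_, -, -, -, h⟩ H hH L N _ a b
    exact h _ a b (((Nat.card_le_card_of_surjective _ (QuotientGroup.mk'_surjective N)).trans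
      (card_le_card_group L)).trans_lt (card_lt_of_ne_top hH))
  refine ⟨h1, fun h G _ _ => ?_⟩
  induction hn : Nat.card G using Nat.strong_induction_on generalizing G with
  | _ n ih =>
  intro a b
  by_contra c
  exact c (h G a b (h1 G ⟨‹_›, a, b, c, fun X _ _ d e f => ih _ (hn ▸ f) X _ ‹_› rfl d e⟩))

end Cfsg.Agent.S1753
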