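import Cfsg.Statements.S1754
import Mathlib
import Cfsg.Agent.H9.Tech

set_option autoImplicit false
open Cfsg

namespace Cfsg.Agent.S1754

/-- Let A be a standard subgroup of the finite group G (A quasisimple, C_G(A) tightly embedded of even order, A commuting elementwise with no other conjugate of itself, and N_G(A) = N_G(C_G(A))), and let t be an involution of G centralizing A. Then the centralizer of t lies in the normalizer of A; in particular A, viewed inside C_G(t), is a component of C_G(t). -/
theorem result {G : Type*} [Group G] [Finite G]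
    (A : Subgroup G) (hA : Cfsg.IsStandardSubgroup A) (t : G) (ht : orderOf t = 2) (htA : t ∈ Subgroup.centralizer (A : Set G)) :
    Subgroup.centralizer ({t} : Set G) ≤ Subgroup.normalizer (A : Set G) ∧
      Cfsg.IsComponent (A.subgroupOf (Subgroup.centralizer ({t} : Set G))) := by
  open Subgroup CfsgH9 in
  have h1 : centralizer ({t} : Set G) ≤ normalizer (A : Set G) := fun g hg => by
    rw [hA.2.2.2]
    by_contra h
    have := mem_centralizer_singleton_iff.1 hg
    refine (Nat.not_even_iff_odd.2 (hA.2.1.2 g h)) (even_iff_two_dvd.2 (ht ▸ orderOf_dvd_natCard _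
      ⟨htA, mem_cj.2 ?_⟩))
    rwa [mul_assoc, ← this, inv_mul_cancel_left]
  have h2 := mem_centralizer_iff_le.1 htA
  exact ⟨h1, (comp_iff_subgroupOf h2).1 ⟨Sn.of_normal h2 h1, qs_iff.2 hA.1⟩⟩

end Cfsg.Agent.S1754
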