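import Cfsg.Statements.S1755
import Mathlib
import Cfsg.Agent.H9.Tech

set_option autoImplicit false
open Cfsg

namespace Cfsg.Agent.S1755

/-- Let G be a finite group and let z be an involution of G such that Q, the generalized Fitting subgroup of the centralizer C of z, is a 2-group of symplectic type (every characteristic abelian subgroup of Q is cyclic). Let B be a characteristic abelian subgroup of Q, viewed as a subgroup of G. Then for every g in G, the conjugate of B by g either equals B or meets B trivially. -/
theorem result {G : Type*} [Group G] [Finite G] (z : G) (hz : orderOf z = 2) (hQ : Cfsg.IsOfSymplecticType ↥(Cfsg.generalizedFittingSubgroup ↥(Subgroup.centralizer ({z} : Set G))))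
    (B : Subgroup ↥(Cfsg.generalizedFittingSubgroup ↥(Subgroup.centralizer ({z} : Set G)))) (hBc : B.Characteristic) (hBa : IsMulCommutative ↥B) (g : G) :
    ((B.map (Cfsg.generalizedFittingSubgroup ↥(Subgroup.centralizer ({z} : Set G))).subtype).map (Subgroup.centralizer ({z} : Set G)).subtype).map (MulAut.conj g).toMonoidHom =
        (B.map (Cfsg.generalizedFittingSubgroup ↥(Subgroup.centralizer ({z} : Set G))).subtype).map (Subgroup.centralizer ({z} : Set G)).subtype ∨
      ((B.map (Cfsg.generalizedFittingSubgroup ↥(Subgroup.centralizer ({z} : Set G))).subtype).map (Subgroup.centralizer ({z} : Set G)).subtype).map (MulAut.conj g).toMonoidHom ⊓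
        (B.map (Cfsg.generalizedFittingSubgroup ↥(Subgroup.centralizer ({z} : Set G))).subtype).map (Subgroup.centralizer ({z} : Set G)).subtype = ⊥ := by
  open Subgroup CfsgH9 in
  haveI : Fact (Nat.Prime 2) := ⟨Nat.prime_two⟩
  let C := centralizer ({z} : Set G)
  haveI := generalizedFittingSubgroup_normal (G := C)
  have cyc : ∀ A : Subgroup (generalizedFittingSubgroup C), A.Characteristic → IsMulCommutative A →
      IsCyclic ((A.map (generalizedFittingSubgroup C).subtype).map C.subtype) := fun A a b => by
    haveI := hQ.2 A a b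
    exact isCyclic_of_surjective _ ((equivMapOfInjective A _ (subtype_injective _)).trans
      (equivMapOfInjective _ _ (subtype_injective _))).surjective
  have c1 := cyc B hBc hBa
  have c2 := cyc (center _) inferInstance inferInstance
  rw [map_subtype_center, map_Zc (subtype_injective _)] at c2
  change IsCyclic (Zc (Fs C)) at c2
  have n1 := le_normalizer_map_subtype (B.map (generalizedFittingSubgroup C).subtype)
  set B' := (B.map (generalizedFittingSubgroup C).subtype).map C.subtype with hB'
  have l1 : B' ≤ Fs C := map_mono (map_subtype_le _)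
  have q : IsPGroup 2 (Fs C) := hQ.1.map _
  have zC : zpowers z ≤ C := zpowers_le.2 (mem_centralizer_singleton_iff.2 rfl)
  have zc : ⁅C, zpowers z⁆ = ⊥ := comm_zpowers_iff.2 le_rfl
  have z1 : z ∈ Fs C := (Fit_le_Fs C) (le_Fit (Sn.of_normal zC (le_normalizer_of_commutator_eq_bot zc))
    (nilpotent_of_commutator_eq_bot (zpowers_comm z)) (mem_zpowers z))
  refine or_iff_not_imp_right.2 fun h => ?_
  have b0 : B' ≠ ⊥ := fun e => h (by rw [e, inf_bot_eq])
  obtain ⟨w, w1, w2, w3⟩ := exists_central_prime q l1 ((Fs_le C).trans n1) b0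
  have e1 : w = z := CfsgH2.eq_of_orderOf_two c2 ⟨l1 w1, mem_centralizer_iff_le.2 w3⟩
    ⟨z1, mem_centralizer_iff_le.2 (Fs_le C)⟩ w2 hz
  obtain ⟨y, y1, y2⟩ := exists_orderOf_prime_of_ne_bot ((q.to_le l1).to_le inf_le_right) h
  have e2 : y = z := CfsgH2.eq_of_orderOf_two c1 y1.2 (e1 ▸ w1) y2 hz
  have e3 : g⁻¹ * y * g = z := CfsgH2.eq_of_orderOf_two c1 (mem_cj.1 y1.1) (e1 ▸ w1)
    (by rw [← y2, ← orderOf_conj g⁻¹ y, inv_inv]) hz
  refine cj_eq_of_mem_normalizer (n1 (mem_centralizer_singleton_iff.2 ?_))
  rw [e2] at e3
  conv_lhs => rw [← e3]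
  group

end Cfsg.Agent.S1755
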