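import Cfsg.Statements.S3762
import Cfsg.Agent.H2.Pq2

set_option autoImplicit false
open Cfsg

namespace Cfsg.Agent.S3762
open CfsgH2

/-- Let G be a finite p-group of symplectic type: every characteristic abelian subgroup of G is cyclic. Then G = E ∗ R is a central product of subgroups E and R (they commute elementwise and generate G) where E is extraspecial or trivial, and R is cyclic, or p = 2 and R is dihedral, semidihedral or generalized quaternion of order at least 16. -/
theorem result {G : Type*} [Group G] [Finite G] {p : ℕ} [Fact p.Prime] (hG : IsPGroup p G) (hsymp : ∀ A : Subgroup G, A.Characteristic → IsMulCommutative A → IsCyclic A) : ∃ E R : Subgroup G, (∀ e ∈ E, ∀ r ∈ R, e * r = r * e) ∧ E ⊔ R = ⊤ ∧ (E = ⊥ ∨ Cfsg.IsExtraspecial p ↥E) ∧ (IsCyclic R ∨ (p = 2 ∧ 16 ≤ Nat.card R ∧ ((∃ m : ℕ, Nonempty (↥R ≃* DihedralGroup m)) ∨ (∃ m : ℕ, Nonempty (↥R ≃* QuaternionGroup m)) ∨ Cfsg.IsQuasiDihedral ↥R))) := by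
  open Subgroup Function in open scoped commutatorElement in
  · obtain ⟨H, _, _, i, j, hi, -, -, e⟩ := exists_hol G
    obtain ⟨E, R, h1, h2, h3, h4⟩ := hall_symp (P := (⊤ : Subgroup G).map i) ((hG.to_subgroup ⊤).map i) fun A hA hn ab => by
      obtain ⟨A, rfl⟩ := exists_map_eq hA
      exact (inj_isCyclic hi).2 (hsymp A ((e A).2 hn) ((inj_isMulComm hi).1 ab))
    obtain ⟨E, rfl⟩ := exists_map_eq (h2 ▸ le_sup_left : E ≤ _)
    obtain ⟨R, rfl⟩ := exists_map_eq (h2 ▸ le_sup_right : R ≤ _)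
    rw [← Subgroup.map_sup, (map_injective hi).eq_iff] at h2
    refine ⟨E, R, fun e he r hr => commute_of_mem_cent ((inj_le_cent hi).1 h1 he) hr, h2, ?_, ?_⟩
    · rcases h3 with h | h
      · exact .inl ((map_eq_bot_iff_of_injective _ hi).1 h)
      · exact .inr (extraspecial_iff.2 ⟨(inj_wx hi).1 h.1, fun a => h.2 ((inj_isMulComm hi).2 a)⟩)
    · rcases h4 with h | ⟨rfl, a, b, m, hm, h⟩
      · exact .inl ((inj_isCyclic hi).1 h)
      · obtain ⟨a, b, h⟩ := h.pull hi
        refine .inr ⟨rfl, h.card ▸ Nat.pow_le_pow_right (n := 2) two_pos (show 4 ≤ m + 2 by omega), ?_⟩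
        rcases h.types' with k | k | k
        exacts [.inl ⟨_, k⟩, .inr (.inl ⟨_, k⟩), .inr (.inr k.2)]

end Cfsg.Agent.S3762
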