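import Cfsg.Statements.S1774
import Mathlib
import Cfsg.Agent.H9.GX
import Cfsg.Agent.H9.Tech
import Cfsg.Agent.S3762
import Cfsg.Agent.L0.LX1

set_option autoImplicit false
open Cfsg

namespace Cfsg.Agent.S1774

/-- Let G be a finite group and let z be an involution of G such that Q, the generalized Fitting subgroup of the centralizer C of z, is a 2-group of symplectic type (every characteristic abelian subgroup of Q is cyclic); suppose every element of Q has order dividing 4. Let g ∈ G with z' = g z g⁻¹ ≠ z and z' ∈ Q. Then z lies in the conjugate g Q g⁻¹, and the subgroup X generated by Q and g Q g⁻¹ induces every automorphism of the four-group generated by z and z': for any two distinct non-identity elements u, v of that four-group there is x ∈ X with x z x⁻¹ = u and x z' x⁻¹ = v. -/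
theorem result {G : Type*} [Group G] [Finite G] (z : G) (hz : orderOf z = 2) (hQ : Cfsg.IsOfSymplecticType ↥(Cfsg.generalizedFittingSubgroup ↥(Subgroup.centralizer ({z} : Set G))))
    (h4 : ∀ q ∈ (Cfsg.generalizedFittingSubgroup ↥(Subgroup.centralizer ({z} : Set G))).map (Subgroup.centralizer ({z} : Set G)).subtype, q ^ 4 = 1) (g : G) (hne : g * z * g⁻¹ ≠ z) (hin : g * z * g⁻¹ ∈ (Cfsg.generalizedFittingSubgroup ↥(Subgroup.centralizer ({z} : Set G))).map (Subgroup.centralizer ({z} : Set G)).subtype) :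
    z ∈ ((Cfsg.generalizedFittingSubgroup ↥(Subgroup.centralizer ({z} : Set G))).map (Subgroup.centralizer ({z} : Set G)).subtype).map (MulAut.conj g).toMonoidHom ∧
      ∀ u ∈ Subgroup.closure ({z, g * z * g⁻¹} : Set G), ∀ v ∈ Subgroup.closure ({z, g * z * g⁻¹} : Set G),
        u ≠ 1 → v ≠ 1 → u ≠ v →
          ∃ x ∈ (Cfsg.generalizedFittingSubgroup ↥(Subgroup.centralizer ({z} : Set G))).map (Subgroup.centralizer ({z} : Set G)).subtype ⊔ ((Cfsg.generalizedFittingSubgroup ↥(Subgroup.centralizer ({z} : Set G))).map (Subgroup.centralizer ({z} : Set G)).subtype).map (MulAut.conj g).toMonoidHom, x * z * x⁻¹ = u ∧ x * (g * z * g⁻¹) * x⁻¹ = v := by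
  open Subgroup CfsgH9 in
  open CfsgGX in
  let C := centralizer ({z} : Set G)
  change ∀ q ∈ Fs C, _ at h4
  change _ ∈ Fs C at hin
  change z ∈ (Fs C).map (CfsgH2.cj g) ∧ ∀ u ∈ _, ∀ v ∈ _, _ → _ → _ → ∃ x ∈ Fs C ⊔ (Fs C).map (CfsgH2.cj g), _
  have c2 : IsCyclic (Zc (Fs C)) := by
    haveI := hQ.2 (center _) inferInstance inferInstance
    have := isCyclic_of_surjective _ ((equivMapOfInjective (center (generalizedFittingSubgroup C)) _
      (subtype_injective _)).trans (equivMapOfInjective _ _ (subtype_injective C))).surjective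
    rwa [map_subtype_center, map_Zc (subtype_injective _)] at this
  have zC : zpowers z ≤ C := zpowers_le.2 (mem_centralizer_singleton_iff.2 rfl)
  have zc : ⁅C, zpowers z⁆ = ⊥ := comm_zpowers_iff.2 le_rfl
  have z1 : z ∈ Fs C := (Fit_le_Fs C) (le_Fit (Sn.of_normal zC (le_normalizer_of_commutator_eq_bot zc))
    (nilpotent_of_commutator_eq_bot (zpowers_comm z)) (mem_zpowers z))
  have sq : ∀ q : generalizedFittingSubgroup C, q ^ 2 ∈ center _ := fun q => by
    have e4 : ∀ q : generalizedFittingSubgroup C, q ^ 4 = 1 := fun q =>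
      Subtype.ext (Subtype.ext (h4 _ ⟨q.1, q.2, rfl⟩))
    obtain ⟨E, R, c, t, hE, hR⟩ := Cfsg.Agent.S3762.result hQ.1 hQ.2
    have cE : E ≤ centralizer (R : Set _) := fun e he r hr => (c e he r hr).symm
    have cy : IsCyclic R := hR.resolve_right fun ⟨_, l, k⟩ => by
      have f : ∀ {X : Type} [Group X], R ≃* X → ∀ x : X, orderOf x ≤ 4 := fun e x =>
        orderOf_le_of_pow_eq_one (by decide) (by
          obtain ⟨r, rfl⟩ := e.surjective x
          rw [← map_pow, show r ^ 4 = 1 from Subtype.ext (e4 r), map_one])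
      rcases k with ⟨m, ⟨e⟩⟩ | ⟨m, ⟨e⟩⟩ | ⟨m, l, -, x, -, o, -⟩
      · have := f e (.r 1)
        rw [Nat.card_congr e.toEquiv, DihedralGroup.nat_card] at l
        rw [DihedralGroup.orderOf_r_one] at this
        omega
      · have := f e (.a 1)
        rw [QuaternionGroup.orderOf_a_one] at this
        haveI : NeZero m := ⟨by
          rintro rfl
          haveI := Finite.of_equiv _ e.toEquiv
          exact (orderOf_pos _).ne' (QuaternionGroup.orderOf_a_one (n := 0))⟩
        rw [Nat.card_congr e.toEquiv, Nat.card_eq_fintype_card, QuaternionGroup.card] at l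
        omega
      · have := orderOf_le_of_pow_eq_one (x := x) (by decide) (Subtype.ext (e4 x))
        have := Nat.pow_le_pow_right two_pos l
        omega
    have top : ∀ x : generalizedFittingSubgroup C, x ∈ centralizer (E : Set (generalizedFittingSubgroup C)) →
        x ∈ centralizer (R : Set (generalizedFittingSubgroup C)) → x ∈ center _ := fun x a b => by
      rw [← CfsgH2.cent_top, ← t, CfsgH2.cent_sup]; exact ⟨a, b⟩
    obtain ⟨e, he, r, hr, rfl⟩ := (CfsgH2.mem_sup_of_norm (cE.trans (CfsgH2.cent_le_norm _))).1 (t.ge (mem_top q))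
    rw [(show Commute e r from c e he r hr).mul_pow]
    refine mul_mem (top _ ?_ (cE (pow_mem he 2))) (pow_mem (top r (le_centralizer_iff.1 cE hr)
      (CfsgH2.le_cent_self inferInstance hr)) 2)
    rcases hE with rfl | hE
    · rw [CfsgH2.cent_bot]; trivial
    · exact ((CfsgH2.extraspecial_iff.1 hE).1.pow_mem he).2
  have h : GX (Fs C) z := ⟨hz, z1, fun a ha => ?_, c2, fun x hx => centralizer_Fs_le C
    ⟨CfsgH2.cent_le_cent1 z1 hx, hx⟩, Fs_le C, le_normalizer_Fs le_normalizer⟩
  swap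
  · obtain ⟨a, ha', rfl⟩ := id ha
    refine (CfsgH1.mem_zp2 hz).2 (or_iff_not_imp_left.2 fun e => CfsgH2.eq_of_orderOf_two c2 ⟨pow_mem ha 2, ?_⟩
      ⟨z1, mem_centralizer_iff_le.2 (Fs_le C)⟩ (orderOf_eq_prime (by rw [← pow_mul]; exact h4 _ ha) e) hz)
    rintro _ ⟨b, hb, rfl⟩
    exact congrArg (fun x => x.1.1) (mem_center_iff.1 (sq ⟨a, ha'⟩) ⟨b, hb⟩)
  have hs := h.symm hin
  refine ⟨hs, fun u hu v hv u1 v1 uv => ?_⟩
  have h' := h.map_cj g
  generalize (Fs C).map (CfsgH2.cj g) = R at *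
  generalize g * z * g⁻¹ = x at *
  have z2 := CfsgH1.mul_self_of_two hz
  have x2 := CfsgH1.mul_self_of_two h'.ord
  have c : x * z = z * x := mem_centralizer_singleton_iff.1 (h.le hin)
  obtain ⟨a, ha, a1⟩ := h.exists_conj hin fun e => ((CfsgH1.mem_zp2 hz).1 (h.inv2 e x2)).elim
    (CfsgH1.ne_one_of_two h'.ord) hne
  obtain ⟨b, hb, b1⟩ := h'.exists_conj hs fun e => ((CfsgH1.mem_zp2 h'.ord).1 (h'.inv2 e z2)).elim
    (CfsgH1.ne_one_of_two hz) hne.symm
  have a2 : a * z * a⁻¹ = z := mul_inv_eq_iff_eq_mul.2 (mem_centralizer_singleton_iff.1 (h.le ha))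
  have b2 : b * x * b⁻¹ = x := mul_inv_eq_iff_eq_mul.2 (mem_centralizer_singleton_iff.1 (h'.le hb))
  rw [c] at b1
  have a3 : a * (z * x) * a⁻¹ = x := by rw [← conj_mul, a1, a2, ← mul_assoc, z2, one_mul]
  have b3 : b * (z * x) * b⁻¹ = z := by rw [← conj_mul, b1, b2, mul_assoc, x2, mul_one]
  have cm : ∀ s t w : G, s * t * w * (s * t)⁻¹ = s * (t * w * t⁻¹) * s⁻¹ := fun _ _ _ => by group
  have ma := mem_sup_left (T := R) ha
  have mb := mem_sup_right (S := Fs C) hb
  rw [← Set.singleton_union, Subgroup.closure_union, ← zpowers_eq_closure, ← zpowers_eq_closure,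
    CfsgL0.mem_v4 z2 x2 c] at hu hv
  have k1 : 1 * z * 1⁻¹ = z ∧ 1 * x * 1⁻¹ = x := by simp
  have k2 : a * b * z * (a * b)⁻¹ = x ∧ a * b * x * (a * b)⁻¹ = z * x := by rw [cm, cm, b1, a3, b2, a1]; simp
  have k3 : b * a * z * (b * a)⁻¹ = z * x ∧ b * a * x * (b * a)⁻¹ = z := by rw [cm, cm, a2, b1, a1, b3]; simp
  have k4 : a * b * a * z * (a * b * a)⁻¹ = x ∧ a * b * a * x * (a * b * a)⁻¹ = z := by
    rw [cm, cm _ a, a2, a1, cm, cm, b1, a3, b3, a2]; simp
  rcases hu with rfl | rfl | rfl | rfl <;> rcases hv with rfl | rfl | rfl | rfl <;>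
    first
    | exact (u1 rfl).elim | exact (v1 rfl).elim | exact (uv rfl).elim
    | exact ⟨1, one_mem _, k1⟩ | exact ⟨a, ma, a2, a1⟩ | exact ⟨b, mb, b1, b2⟩
    | exact ⟨a * b, mul_mem ma mb, k2⟩ | exact ⟨b * a, mul_mem mb ma, k3⟩
    | exact ⟨a * b * a, mul_mem (mul_mem ma mb) ma, k4⟩

end Cfsg.Agent.S1774
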