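import Cfsg.Statements.S1775
import Mathlib
import Cfsg.Agent.H9.PT
import Cfsg.Agent.H9.LBal

set_option autoImplicit false
open Cfsg

namespace Cfsg.Agent.S1775

/-- Let G be a finite group whose generalized Fitting subgroup is a non-abelian simple group and in which every proper section (every quotient H/N of a proper subgroup H, or of G by a nontrivial normal subgroup) has the B-property. Let x, y be commuting involutions, let D be the intersection of the 2-layer of C_G(x) with C_G(y), and let J be a 2-component of D. Write Q for the quotient of C_G(y) by its largest normal odd-order subgroup. Then (i) the image of J in Q is a component of the centralizer in Q of the image of x; and (ii) for every J-invariant subgroup E of odd order of C_G(x) ∩ C_G(y), the commutator subgroup [J, E] lies in the largest normal odd-order subgroup of C_G(y). -/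
theorem result {G : Type*} [Group G] [Finite G]
    (hF : IsSimpleGroup ↥(Cfsg.generalizedFittingSubgroup G)) (hF' : ¬ IsMulCommutative ↥(Cfsg.generalizedFittingSubgroup G))
    (hsec : ∀ (H : Subgroup G) (N : Subgroup ↥H) [N.Normal], (H ≠ ⊤ ∨ N ≠ ⊥) → Cfsg.HasBProperty (↥H ⧸ N))
    (x y : G) (hx : orderOf x = 2) (hy : orderOf y = 2) (hxy : x * y = y * x)
    (J : Subgroup ↥((Cfsg.pLayer 2 ↥(Subgroup.centralizer ({x} : Set G))).map (Subgroup.centralizer ({x} : Set G)).subtype ⊓ Subgroup.centralizer ({y} : Set G)))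
    (hJ : Cfsg.IsPComponent 2 J) :
    Cfsg.IsComponent
        ((((J.map (Subgroup.subtype _)).subgroupOf (Subgroup.centralizer ({y} : Set G))).map (QuotientGroup.mk' (Cfsg.oddCore ↥(Subgroup.centralizer ({y} : Set G))))).subgroupOf
          (Subgroup.centralizer ({(QuotientGroup.mk' (Cfsg.oddCore ↥(Subgroup.centralizer ({y} : Set G))) ⟨x, Subgroup.mem_centralizer_singleton_iff.mpr hxy⟩ : ↥(Subgroup.centralizer ({y} : Set G)) ⧸ Cfsg.oddCore ↥(Subgroup.centralizer ({y} : Set G)))} : Set _))) ∧
      ∀ E : Subgroup G, E ≤ Subgroup.centralizer ({x} : Set G) ⊓ Subgroup.centralizer ({y} : Set G) → Odd (Nat.card ↥E) →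
        (∀ j ∈ J.map (Subgroup.subtype _), ∀ e ∈ E, j * e * j⁻¹ ∈ E) →
          ⁅J.map (Subgroup.subtype _), E⁆ ≤ (Cfsg.oddCore ↥(Subgroup.centralizer ({y} : Set G))).map (Subgroup.centralizer ({y} : Set G)).subtype := by
  open Subgroup CfsgH9 in
  haveI : Fact (Nat.Prime 2) := ⟨Nat.prime_two⟩
  have hxC : x ∈ centralizer ({y} : Set G) := mem_centralizer_singleton_iff.mpr hxy
  have hne : centralizer ({y} : Set G) ≠ ⊤ := by
    intro e
    have h1 : zpowers y ≤ Fs (⊤ : Subgroup G) := le_trans (le_Op (p := 2) (.of_normal le_top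
      (le_normalizer_of_commutator_eq_bot (comm_zpowers_iff.2 e.ge))) (isPGroup_zpowers_of_prime hy))
      ((Op_le_Fit 2 ⊤).trans (Fit_le_Fs ⊤))
    rw [Fs_top] at h1
    have h2 := qs_of_simple hF'
    rw [← QS.map_iff (generalizedFittingSubgroup G).subtype_injective, map_subtype_top] at h2
    have h3 : (⟨y, h1 (mem_zpowers y)⟩ : generalizedFittingSubgroup G) ∈ center _ :=
      mem_center_iff.2 fun g => Subtype.ext (by
        have : (g : G) ∈ centralizer ({y} : Set G) := e ▸ mem_top _
        exact mem_centralizer_singleton_iff.1 this)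
    rcases hF.eq_bot_or_eq_top_of_normal (center _) inferInstance with h4 | h4
    · rw [h4, mem_bot] at h3
      exact ne_one_of_orderOf_prime hy (congrArg Subtype.val h3)
    · exact hF' ⟨⟨fun a b => (mem_center_iff.1 (h4 ▸ mem_top b : b ∈ center _) a)⟩⟩
  have h1 : PComp 2 (J.map (Subgroup.subtype _))
      (centralizer ({y} : Set G) ⊓ centralizer ((zpowers x : Subgroup G) : Set G)) := by
    rw [centralizer_zpowers, inf_comm (centralizer ({y} : Set G))]
    exact (pcomp_map_subtype.2 hJ).trans ((sn_PLay _).inf_right _)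
  have h2 := h1.im_centralizer (isPGroup_zpowers_of_prime hx) (zpowers_le.2 hxC)
  rw [im_zpowers hxC, centralizer_zpowers, top_inf_eq] at h2
  have ho : orderOf (qpp 2 (centralizer ({y} : Set G)) ⟨x, hxC⟩) = 2 :=
    orderOf_im_eq_prime _ hxC hx fun e => by
      rw [kr_qpp] at e
      have := coprime_of_le (zpowers_le.2 e) (Opp_coprime 2 _)
      rw [Nat.card_zpowers, hx] at this
      norm_num at this
  have h3 := hsec _ (Cfsg.oddCore _) (Or.inl hne) _ ho
  rw [map_commutator] at h3
  replace h3 := h3.trans (pPrimeCore_quotient_pPrimeCore 2).le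
  have h4 := h2.comp_of_comm (comm_bot_mono (eq_bot_iff.2 h3) h2.le_PLay le_rfl)
  refine ⟨(comp_iff_subgroupOf h4.le).1 h4, fun E a b c => ?_⟩
  have hE := a.trans inf_le_right
  have h5 : im (qpp 2 (centralizer ({y} : Set G))) E ≤
      centralizer ({qpp 2 (centralizer ({y} : Set G)) ⟨x, hxC⟩} : Set _) := by
    rw [← comm_zpowers_iff, ← im_zpowers hxC, im_comm_bot_iff hE (zpowers_le.2 hxC),
      comm_zpowers_iff.2 (a.trans inf_le_left)]
    exact bot_le
  rcases h4.le_or_comm_of_normalizes h5 (im_le_normalizer (le_normalizer_iff_forall.2 c)) with e | e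
  · exact (h2.2.not_le (coprime_im hE (odd_iff_coprime_two.1 b)) e).elim
  · rwa [im_comm_bot_iff (h1.le.trans inf_le_left) hE, kr_qpp] at e

end Cfsg.Agent.S1775
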