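import Cfsg.Statements.S1780
import Mathlib
import Cfsg.Agent.H9.Tech

set_option autoImplicit false
open Cfsg

namespace Cfsg.Agent.S1780

/-- Let A be a finite abelian 2-group and t an automorphism of A whose order is a power of 2. If every element of A fixed by t² is fixed by t, then t fixes every element of A. -/
theorem result {A : Type*} [CommGroup A] [Finite A]
    (hA : IsPGroup 2 A) (t : MulAut A) (ht : ∃ k : ℕ, orderOf t = 2 ^ k) (hC : ∀ a : A, t (t a) = a → t a = a) :
    ∀ a : A, t a = a := by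
  open Subgroup CfsgH9 in
  haveI : Fact (Nat.Prime 2) := ⟨Nat.prime_two⟩
  obtain ⟨H, _, _, i, j, hi, hj, h, -⟩ := CfsgH2.exists_hol A
  obtain ⟨k, hk⟩ := ht
  have key : ∀ (s : MulAut A) a, i a ∈ centralizer ({j s} : Set H) ↔ s a = a := fun s a => by
    rw [mem_centralizer_singleton_iff, ← hi.eq_iff, ← h, mul_inv_eq_iff_eq_mul, eq_comm]
  have := mem_centralizer_of_sq (V := (⊤ : Subgroup A).map i) (t := j t) ((hA.to_subgroup _).map _)
    (comm_bot_iff_forall.2 (by
      rintro _ ⟨a, -, rfl⟩ _ ⟨b, -, rfl⟩; rw [← map_mul, ← map_mul, mul_comm]))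
    (isPGroup_zpowers (k := k) (by rw [orderOf_injective j hj, hk]))
    (CfsgH2.hol_norm h ⊤ ⟨t, trivial, rfl⟩) (by
      rintro _ ⟨⟨a, -, rfl⟩, ha⟩
      rw [← map_pow] at ha
      exact (key _ _).2 (hC a (by simpa [sq] using (key _ _).1 ha)))
  exact fun a => (key _ _).1 (this ⟨a, trivial, rfl⟩)

end Cfsg.Agent.S1780
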