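import Cfsg.Statements.S1781
import Mathlib
import Cfsg.Agent.H9.Tech2

set_option autoImplicit false
open Cfsg

namespace Cfsg.Agent.S1781

/-- Let A be an abelian 2-subgroup of the finite group G such that every conjugate of A equals A or meets A trivially, and let g ∈ G with g A g⁻¹ ≠ A. Then either the subgroup of those elements of A that normalize g A g⁻¹ is an elementary abelian 2-group, or A and g A g⁻¹ commute elementwise. -/
theorem result {G : Type*} [Group G] [Finite G] (A : Subgroup G)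
    (hA2 : IsPGroup 2 ↥A) (hAa : IsMulCommutative ↥A)
    (hti : ∀ h : G, A.map (MulAut.conj h).toMonoidHom = A ∨ A.map (MulAut.conj h).toMonoidHom ⊓ A = ⊥)
    (g : G) (hg : A.map (MulAut.conj g).toMonoidHom ≠ A) :
    Cfsg.IsElementaryAbelian 2 (A ⊓ Subgroup.normalizer ((A.map (MulAut.conj g).toMonoidHom : Subgroup G) : Set G)) ∨
      ⁅A, A.map (MulAut.conj g).toMonoidHom⁆ = ⊥ := by
  open Subgroup CfsgH9 in
  haveI : Fact (Nat.Prime 2) := ⟨Nat.prime_two⟩
  refine or_iff_not_imp_left.2 fun h => ?_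
  obtain ⟨t, ht, t1⟩ : ∃ t ∈ A ⊓ normalizer (cj g A : Set G), t ^ 2 ≠ 1 := by
    by_contra! h'; exact h (ea_of_sq h')
  have h0 := (hti g).resolve_left hg
  have nA : ∀ a ∈ A, a ≠ 1 → centralizer ({a} : Set G) ≤ normalizer (A : Set G) := fun a ha a1 c hc =>
    cj_eq_iff.1 ((hti c).resolve_right fun e => a1 (mem_bot.1 (e.le ⟨mem_cj.2 (by
      rwa [mul_assoc, ← mem_centralizer_singleton_iff.1 hc, inv_mul_cancel_left]), ha⟩)))
  have hB : IsPGroup 2 (cj g A) := hA2.map _
  have h1 := mem_centralizer_of_sq hB (by rw [← cj_commutator, isMulCommutative_iff_comm.1 hAa, cj_bot])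
    (hA2.to_le (zpowers_le.2 ht.1)) ht.2 (comm_zpowers_iff.1 (le_bot_iff.1 (h0.le.trans' (le_inf
      ((commutator_mono inf_le_left le_rfl).trans (commutator_le_left_of (zpowers_le.2 ht.2)))
      ((commutator_mono le_rfl (zpowers_le.2 ht.1)).trans (commutator_le_right_of
        (inf_le_right.trans (nA _ (pow_mem ht.1 2) t1))))))))
  refine comm_of_ti hA2 hB (h1.trans (nA t ht.1 fun e => t1 (by simp [e]))) (by rw [inf_comm, h0])
    (card_cj _ _).ge fun x _ => ?_
  have := hti (g⁻¹ * x * g)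
  rw [← cj_inj (g := g), ← cj_eq_bot (g := g), cj_inf, cj_cj] at this
  rwa [cj_cj, show x * g = g * (g⁻¹ * x * g) by group]

end Cfsg.Agent.S1781
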