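import Cfsg.Statements.S1783
import Mathlib
import Cfsg.Agent.H9.Tech2

set_option autoImplicit false
open Cfsg

namespace Cfsg.Agent.S1783

/-- Let X be a finite group whose generalized Fitting subgroup equals its largest normal 2-subgroup Q, and let A be an abelian 2-subgroup of X such that every conjugate of A equals A or meets A trivially. Let B be the subgroup generated by the squares of the elements of A. Then B lies in Q, and if B is not an elementary abelian 2-group then the normal closure of B in X is commutative. -/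
theorem result {X : Type*} [Group X] [Finite X]
    (hX : Cfsg.generalizedFittingSubgroup X = Cfsg.pCore 2 X) (A : Subgroup X) (hA2 : IsPGroup 2 ↥A) (hAa : IsMulCommutative ↥A)
    (hti : ∀ h : X, A.map (MulAut.conj h).toMonoidHom = A ∨ A.map (MulAut.conj h).toMonoidHom ⊓ A = ⊥) :
    Subgroup.closure ((fun a : X => a ^ 2) '' (A : Set X)) ≤ Cfsg.pCore 2 X ∧
      (¬ Cfsg.IsElementaryAbelian 2 (Subgroup.closure ((fun a : X => a ^ 2) '' (A : Set X))) →
        IsMulCommutative ↥(Subgroup.normalClosure ((fun a : X => a ^ 2) '' (A : Set X)))) := by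
  open Subgroup CfsgH9 in
  haveI : Fact (Nat.Prime 2) := ⟨Nat.prime_two⟩
  have h := chP_top_iff.2 hX
  have fam : ∀ B : Subgroup X, (∀ g, cj g B = B ∨ cj g B ⊓ B = ⊥) → ¬ IsElementaryAbelian 2 B →
      ⁅B, B⁆ = ⊥ → ∀ g k, IsPGroup 2 (cj g B ⊔ cj k B : Subgroup X) → ⁅cj g B, cj k B⁆ = ⊥ := by
    intro B h1 h2 h3 g k h4
    by_cases e : cj g B = cj k B
    · rw [e, ← cj_commutator, h3, cj_bot]
    refine ti_family_comm (Δ := {R | ∃ g, R = cj g B}) (by rintro s _ ⟨g, rfl⟩; exact ⟨_, cj_cj _ _ _⟩)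
      (by rintro _ ⟨g, rfl⟩ e; exact h2 (by simpa only [cj_inv_cj] using ea_cj g⁻¹ e))
      (by rintro _ ⟨g, rfl⟩ _ ⟨k, rfl⟩; rw [card_cj, card_cj]) ?_ _ h4 _ ⟨g, rfl⟩ _ ⟨k, rfl⟩
      le_sup_left le_sup_right e
    rintro _ ⟨g, rfl⟩ _ ⟨k, rfl⟩
    have := h1 (k⁻¹ * g)
    rwa [← cj_inj (g := k), ← cj_eq_bot (g := k), cj_inf, cj_cj, mul_inv_cancel_left] at this
  have hA := isMulCommutative_iff_comm.1 hAa
  set B := closure ((fun a : X => a ^ 2) '' (A : Set X)) with hB
  have bA : B ≤ A := (closure_le _).2 (by rintro _ ⟨a, ha, rfl⟩; exact pow_mem ha 2)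
  have n1 : ∀ Y : Subgroup X, Y ≤ normalizer ((Op 2 ⊤ : Subgroup X) : Set X) := fun Y =>
    le_normalizer_Op (H := ⊤) (le_normalizer_normal _ _)
  have h1 : B ≤ Op 2 ⊤ := by
    by_cases e : IsElementaryAbelian 2 A
    · exact (closure_le _).2 (by rintro _ ⟨a, ha, rfl⟩; simp only [e.2 a ha]; exact one_mem _)
    refine h.le_Op_of_comm_le_frattini le_top (closure_comm_le (fun g _ =>
      CfsgH1.normalizer_le_normalizer_frattiniOf _ (n1 ⊤ trivial)) ?_)
    rintro _ ⟨a, ha, rfl⟩ q hq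
    have hP := isPGroup_sup (n1 A) hA2 (Op_isPGroup 2 ⊤)
    have := fam A hti e hA q 1 (hP.to_le (sup_le (cj_le_of_mem (mem_sup_right hq) le_sup_left)
      (cj_le_of_mem (one_mem _) le_sup_left)))
    rw [cj_one] at this
    have c : Commute (q * a⁻¹ * q⁻¹) a := comm_bot_iff_forall.1 this _ (conj_mem_cj q (inv_mem ha)) a ha
    simp only
    rw [CfsgH2.commutator_pow_left (by
      simpa [commutatorElement_def, mul_assoc] using (Commute.refl a).mul_left c)]
    exact CfsgH1.pow_mem_frattiniOf (Op_isPGroup 2 ⊤) (commutator_le_right_of (n1 ⊤)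
      (commutator_mem_commutator trivial hq))
  refine ⟨h1.trans (Op_top 2).le, fun e => ?_⟩
  have h2 : ∀ g, cj g B = B ∨ cj g B ⊓ B = ⊥ := fun g => by
    refine (hti g).imp (fun e => cj_eq_iff.2 (mem_normalizer_of_cj_le ?_)) fun e =>
      le_bot_iff.1 (e.le.trans' (inf_le_inf (cj_mono g bA) bA))
    rw [hB, cj, MonoidHom.map_closure, closure_le]
    rintro _ ⟨_, ⟨a, ha, rfl⟩, rfl⟩
    exact subset_closure ⟨_, e.le (conj_mem_cj g ha), conj_pow⟩
  rw [← normalClosure_closure_eq_normalClosure, ← ncl_top, isMulCommutative_iff_comm, comm_bot_iff,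
    ncl_le_iff]
  intro g _
  rw [← comm_bot_iff', comm_bot_iff, ncl_le_iff]
  intro k _
  exact comm_bot_iff.1 (fam B h2 e (comm_bot_mono hA bA bA) k g ((Op_isPGroup 2 ⊤).to_le (sup_le
    (cj_le_of_mem_normalizer (n1 ⊤ trivial) h1) (cj_le_of_mem_normalizer (n1 ⊤ trivial) h1))))

end Cfsg.Agent.S1783
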