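import Cfsg.Statements.S1784
import Mathlib
import Cfsg.Agent.H9.PT
import Cfsg.Agent.H2.Gs2
import Cfsg.Agent.H2.XspIso

set_option autoImplicit false
open Cfsg

namespace Cfsg.Agent.S1784

/-- Let G be a finite group and let z be an involution of G such that Q, the generalized Fitting subgroup of the centralizer C of z, is a 2-group of symplectic type (every characteristic abelian subgroup of Q is cyclic); suppose Q is extraspecial, and view Q inside G. Let α be an involution of C that is not in Q, and let Q₀ be the subgroup of those q ∈ Q whose commutator with α lies in the subgroup generated by z. Then (a) the subgroup generated by the commutators α q α⁻¹ q⁻¹, q ∈ Q, equals the centre of Q₀; and (b) if Q₀ is not contained in the product of the centralizer of α in Q with the subgroup generated by z, then some element of Q conjugates α to α z. -/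
theorem result {G : Type*} [Group G] [Finite G] (z : G) (hz : orderOf z = 2) (hQ : Cfsg.IsOfSymplecticType ↥(Cfsg.generalizedFittingSubgroup ↥(Subgroup.centralizer ({z} : Set G)))) (hE : Cfsg.IsExtraspecial 2 ↥(Cfsg.generalizedFittingSubgroup ↥(Subgroup.centralizer ({z} : Set G))))
    (α : G) (hα : orderOf α = 2) (hαC : α ∈ Subgroup.centralizer ({z} : Set G)) (hαQ : α ∉ (Cfsg.generalizedFittingSubgroup ↥(Subgroup.centralizer ({z} : Set G))).map (Subgroup.centralizer ({z} : Set G)).subtype)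
    (Q₀ : Subgroup G) (hQ₀ : ∀ q : G, q ∈ Q₀ ↔ (q ∈ (Cfsg.generalizedFittingSubgroup ↥(Subgroup.centralizer ({z} : Set G))).map (Subgroup.centralizer ({z} : Set G)).subtype ∧ α * q * α⁻¹ * q⁻¹ ∈ Subgroup.zpowers z)) :
    Subgroup.closure ((fun q : G => α * q * α⁻¹ * q⁻¹) '' ((Cfsg.generalizedFittingSubgroup ↥(Subgroup.centralizer ({z} : Set G))).map (Subgroup.centralizer ({z} : Set G)).subtype : Set G)) = (Subgroup.center ↥Q₀).map Q₀.subtype ∧
      (¬ Q₀ ≤ ((Cfsg.generalizedFittingSubgroup ↥(Subgroup.centralizer ({z} : Set G))).map (Subgroup.centralizer ({z} : Set G)).subtype ⊓ Subgroup.centralizer ({α} : Set G)) ⊔ Subgroup.zpowers z →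
        ∃ q ∈ (Cfsg.generalizedFittingSubgroup ↥(Subgroup.centralizer ({z} : Set G))).map (Subgroup.centralizer ({z} : Set G)).subtype, q * α * q⁻¹ = α * z) := by
  open Subgroup CfsgH9 in
  haveI : Fact (Nat.Prime 2) := ⟨Nat.prime_two⟩
  have w0 : CfsgH2.Wx 2 (Fs (centralizer ({z} : Set G))) :=
    (CfsgH2.inj_wx (Subgroup.subtype_injective _)).2 (CfsgH2.extraspecial_iff.1 hE).1
  change closure ((fun q : G => α * q * α⁻¹ * q⁻¹) '' (Fs (centralizer ({z} : Set G)) : Set G)) = _ ∧
    (¬ Q₀ ≤ (Fs (centralizer ({z} : Set G)) ⊓ _) ⊔ _ → ∃ q ∈ Fs (centralizer ({z} : Set G)), _)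
  change ∀ q, q ∈ Q₀ ↔ q ∈ Fs (centralizer ({z} : Set G)) ∧ _ at hQ₀
  change α ∉ Fs (centralizer ({z} : Set G)) at hαQ
  have hzC : zpowers z ≤ centralizer ({z} : Set G) := comm_zpowers_iff.1 (zpowers_comm z)
  have hzQ : zpowers z ≤ Fs (centralizer ({z} : Set G)) := le_trans (le_Op (p := 2) (.of_normal hzC
      (le_normalizer_of_commutator_eq_bot (comm_zpowers_iff.2 le_rfl))) (isPGroup_zpowers_of_prime hz))
      ((Op_le_Fit 2 _).trans (Fit_le_Fs _))
  have hC := centralizer_Fs_le (centralizer ({z} : Set G))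
  have hQC := Fs_le (centralizer ({z} : Set G))
  have hn : zpowers α ≤ normalizer (Fs (centralizer ({z} : Set G)) : Set G) :=
    le_normalizer_Fs ((zpowers_le.2 hαC).trans le_normalizer)
  generalize Fs (centralizer ({z} : Set G)) = Q at *
  have hZ : Q ⊓ centralizer (Q : Set G) = zpowers z := by
    refine (eq_of_le_of_card_ge (le_inf hzQ (comm_bot_iff'.1 (comm_zpowers_iff.2 hQC))) ?_).symm
    rw [Nat.card_zpowers, hz]; exact w0.cardZ.le
  have a2 : α⁻¹ = α := by
    rw [inv_eq_iff_mul_eq_one, ← pow_two, ← hα, pow_orderOf_eq_one]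
  have hz2 : ∀ u ∈ zpowers z, u = 1 ∨ u = z := fun u hu => by
    by_cases e : u = 1
    · exact Or.inl e
    · exact Or.inr (w0.eq_of_two (hZ.ge hu) (hZ.ge (mem_zpowers z)) e (ne_one_of_orderOf_prime hz))
  have hαn : ∀ q ∈ Q, α * q * α⁻¹ ∈ Q := le_normalizer_iff_forall.1 hn α (mem_zpowers α)
  have hQ0 : Q₀ ≤ Q := fun q hq => ((hQ₀ q).1 hq).1
  refine ⟨?_, fun h => ?_⟩
  · have hW : closure ((fun q : G => α * q * α⁻¹ * q⁻¹) '' (Q : Set G)) = ⁅Q, zpowers α⁆ := by
      apply le_antisymm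
      · rw [closure_le]
        rintro _ ⟨q, hq, rfl⟩
        rw [commutator_comm]
        exact commutator_mem_commutator (mem_zpowers α) hq
      · refine commutator_zpowers_le (mem_normalizer_of_cj_le ?_) fun k hk => subset_closure ⟨k, hk, rfl⟩
        rw [cj, MonoidHom.map_closure, closure_le]
        rintro _ ⟨_, ⟨q, hq, rfl⟩, rfl⟩
        refine subset_closure ⟨α * q * α⁻¹, hαn q hq, ?_⟩
        simp [mul_assoc]
    rw [hW, map_subtype_center]
    have hWQ : ⁅Q, zpowers α⁆ ≤ Q := commutator_le_left_of hn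
    have hW0 : ⁅Q, zpowers α⁆ ≠ ⊥ := fun e =>
      hαQ (hC (mem_inf.2 ⟨hαC, zpowers_comm_iff.1 (comm_bot_symm e)⟩))
    obtain ⟨w, w1, w2, w3⟩ := exists_central_prime w0.pg hWQ (le_normalizer_comm_left _ _) hW0
    have hzW : zpowers z ≤ ⁅Q, zpowers α⁆ := by
      rcases hz2 w (hZ.le (mem_inf.2 ⟨hWQ w1, mem_centralizer_iff_le.2 w3⟩)) with e | e
      · exact (ne_one_of_orderOf_prime w2 e).elim
      · exact zpowers_le.2 (e ▸ w1)
    have hαz : ⁅zpowers z, zpowers α⁆ = ⊥ := comm_bot_symm (comm_zpowers_iff.2 (zpowers_le.2 hαC))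
    have hQQ : ⁅Q, Q⁆ ≤ zpowers z := w0.der.trans hZ.le
    have hzz : ⁅zpowers z, Q⁆ = ⊥ := comm_bot_symm (comm_zpowers_iff.2 hQC)
    have nb : ∀ X : Subgroup G, X ≤ normalizer ((⊥ : Subgroup G) : Set G) := fun X =>
      le_normalizer_of_normal
    have h0 : ⁅Q₀, zpowers α⁆ ≤ zpowers z := commutator_zpowers_le
      (zpowers_le.1 (le_normalizer_of_commutator_eq_bot (comm_bot_symm hαz))) fun k hk => ((hQ₀ k).1 hk).2
    have e1 : Q ⊓ centralizer ((⁅Q, zpowers α⁆ : Subgroup G) : Set G) = Q₀ := by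
      apply le_antisymm
      · intro q hq
        refine (hQ₀ q).2 ⟨hq.1, hZ.le (mem_inf.2 ⟨Q.mul_mem (hαn q hq.1) (Q.inv_mem hq.1), ?_⟩)⟩
        have := three_subgroups (A := zpowers α) (B := zpowers q) (C := Q) (nb _) (nb _) (nb _)
          (comm_bot_mono hαz ((commutator_mono (zpowers_le.2 hq.1) le_rfl).trans hQQ) le_rfl).le
          (comm_bot_iff'.2 (zpowers_le.2 hq.2)).le
        exact comm_bot_iff.1 (eq_bot_iff.2 this)
          (commutator_mem_commutator (mem_zpowers α) (mem_zpowers q))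
      · refine le_inf hQ0 (comm_bot_iff'.1 (eq_bot_iff.2 (three_subgroups (nb _) (nb _) (nb _) ?_ ?_)))
        · rw [commutator_comm (zpowers α)]
          exact (comm_bot_mono hzz h0 le_rfl).le
        · exact (comm_bot_mono hαz ((commutator_mono hQ0 le_rfl).trans hQQ) le_rfl).le
    have e2 : ⁅Q, zpowers α⁆ ≤ Q₀ := by
      rw [← hW, closure_le]
      rintro _ ⟨q, hq, rfl⟩
      refine (hQ₀ _).2 ⟨Q.mul_mem (hαn q hq) (Q.inv_mem hq), ?_⟩
      have := hZ.le (w0.pow_mem (Q.mul_mem hq (hαn _ (Q.inv_mem hq))))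
      convert this using 1
      have a3 : ∀ x : G, α * (α * x) = x := fun x => by
        rw [← mul_assoc]; nth_rewrite 1 [← a2]; rw [inv_mul_cancel, one_mul]
      simp [pow_two, mul_assoc, a2, a3]
    have hz0 : zpowers z ≤ Q₀ := hzW.trans e2
    have c1 := w0.card_cent hWQ
    have c2 := w0.card_cent hQ0
    change _ = _ * Nat.card (_ ⊓ (Q ⊓ centralizer (Q : Set G)) : Subgroup G) at c1 c2
    rw [hZ, inf_eq_right.2 hzW, e1] at c1
    rw [hZ, inf_eq_right.2 hz0, ← c1, mul_comm] at c2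
    have c3 := Nat.eq_of_mul_eq_mul_right Nat.card_pos c2
    have e3 : ⁅Q, zpowers α⁆ ≤ centralizer (Q₀ : Set G) := by
      rw [← e1]; exact comm_bot_iff'.1 (comm_bot_iff.2 inf_le_right)
    have e4 := eq_of_le_of_card_ge (le_inf hWQ e3) c3.le
    exact le_antisymm (le_inf e2 e3) ((inf_le_inf_right _ hQ0).trans e4.ge)
  · by_contra hc
    refine h fun q hq => mem_sup_left (mem_inf.2 ⟨hQ0 hq, ?_⟩)
    rcases hz2 _ ((hQ₀ q).1 hq).2 with e | e
    · rw [mem_centralizer_singleton_iff]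
      rw [mul_inv_eq_one, mul_inv_eq_iff_eq_mul] at e
      exact e.symm
    · refine (hc ⟨q, hQ0 hq, ?_⟩).elim
      rw [← e]
      have a3 : ∀ x : G, α * (α * x) = x := fun x => by
        rw [← mul_assoc]; nth_rewrite 1 [← a2]; rw [inv_mul_cancel, one_mul]
      simp [mul_assoc, a2, a3]

end Cfsg.Agent.S1784
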