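import Cfsg.Statements.S1785
import Mathlib
import Cfsg.Agent.H9.Tech2

set_option autoImplicit false
open Cfsg

namespace Cfsg.Agent.S1785

/-- Let X be a finite 2-group having a normal elementary abelian subgroup of order at least 32. Then (a) for any two elementary abelian subgroups A, B of X of order 8 there is a chain A = A₁, A₂, …, Aₙ = B of elementary abelian subgroups of order 8 in which consecutive members commute elementwise; and (b) every elementary abelian subgroup of X of order 4 is contained in an elementary abelian subgroup of order 8. -/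
theorem result {X : Type*} [Group X] [Finite X]
    (hX : IsPGroup 2 X) (E : Subgroup X) [E.Normal] (hE : Cfsg.IsElementaryAbelian 2 E) (hE32 : 32 ≤ Nat.card ↥E) :
    (∀ A B : Subgroup X, Cfsg.IsElementaryAbelian 2 A → Nat.card ↥A = 8 → Cfsg.IsElementaryAbelian 2 B → Nat.card ↥B = 8 →
        Relation.ReflTransGen
          (fun C D : Subgroup X => Cfsg.IsElementaryAbelian 2 C ∧ Nat.card ↥C = 8 ∧ Cfsg.IsElementaryAbelian 2 D ∧ Nat.card ↥D = 8 ∧ ⁅C, D⁆ = ⊥)
          A B) ∧
      (∀ V : Subgroup X, Cfsg.IsElementaryAbelian 2 V → Nat.card ↥V = 4 →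
        ∃ A : Subgroup X, V ≤ A ∧ Cfsg.IsElementaryAbelian 2 A ∧ Nat.card ↥A = 8) := by
  open Subgroup CfsgH9 in
  haveI : Fact (Nat.Prime 2) := ⟨Nat.prime_two⟩
  have pw : ∀ (U : Subgroup X) (j k : ℕ), IsElementaryAbelian 2 U → Nat.card U ≤ 2 ^ j →
      (2 ^ k) ^ 2 ^ j < 32 → 2 ^ (k + 1) ≤ Nat.card (E ⊓ centralizer (U : Set X) : Subgroup X) := by
    intro U j k a b c
    have := card_le_pow_of_ea hE j U a b (le_normalizer_normal _ _)
    exact Nat.le_of_dvd Nat.card_pos (CfsgH2.pow_succ_dvd_card_of_lt (hX.to_subgroup _)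
      (lt_of_pow_lt_pow_left₀ _ (Nat.zero_le _) (c.trans_le (hE32.trans this))))
  constructor
  · let V : Subgroup X → Prop := fun C => IsElementaryAbelian 2 C ∧ Nat.card C = 8
    have step : ∀ k ≤ 3, ∀ A, V A → ∃ B, V B ∧ Conn V A B ∧ 2 ^ k ≤ Nat.card (B ⊓ E : Subgroup X) := by
      intro k
      induction k with
      | zero => exact fun _ A h => ⟨A, h, Conn.refl, Nat.card_pos⟩
      | succ k ih =>
      intro hk A hA
      obtain ⟨B, h1, h2, h3⟩ := ih (by omega) A hA
      obtain ⟨U, u1, u2⟩ := CfsgH2.exists_compl_of_elem Nat.prime_two h1.1 (inf_le_left (b := E))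
      have uB : U ≤ B := le_sup_right.trans u2.le
      have c1 := card_sup_mul_card_inf' (uB.trans (ea_le_normalizer h1.1 (inf_le_left (b := E))))
      rw [u1, u2, h1.2, card_bot] at c1
      have c2 := pw U (3 - k) k (ea_of_le h1.1 uB) (by
        obtain rfl | rfl | rfl : k = 0 ∨ k = 1 ∨ k = 2 := by omega
        all_goals norm_num only at h3 ⊢; nlinarith) (by
        obtain rfl | rfl | rfl : k = 0 ∨ k = 1 ∨ k = 2 := by omega
        all_goals norm_num)
      obtain ⟨F, f1, f2⟩ := exists_le_card_pow (hX.to_subgroup _) c2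
      have f3 : ⁅B, F⁆ = ⊥ := u2 ▸ comm_bot_sup_left (comm_bot_mono (ea_comm hE) inf_le_right
        (f1.trans inf_le_left)) (comm_bot_iff'.2 (f1.trans inf_le_right))
      have f4 := ea_sup h1.1 (ea_of_le hE (f1.trans inf_le_left)) f3
      obtain ⟨C, d1, d2, d3⟩ := exists_between_card_pow (hX.to_subgroup _) (le_sup_right (a := B) (b := F))
        (k := 3) (f2 ▸ Nat.pow_le_pow_right (by norm_num) hk) (h1.2.ge.trans (card_le_of_le le_sup_left))
      exact ⟨C, ⟨ea_of_le f4 d2, d3⟩, h2.trans (Conn.single h1 ⟨ea_of_le f4 d2, d3⟩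
        (comm_bot_mono (ea_comm f4) le_sup_left d2)), f2 ▸ card_le_of_le (le_inf d1 (f1.trans inf_le_left))⟩
    intro A B a1 a2 b1 b2
    obtain ⟨A', c1, c2, c3⟩ := step 3 le_rfl A ⟨a1, a2⟩
    obtain ⟨B', d1, d2, d3⟩ := step 3 le_rfl B ⟨b1, b2⟩
    have := c2.trans ((Conn.single c1 d1 (comm_bot_mono (ea_comm hE)
      ((eq_of_le_of_card_ge inf_le_left (c1.2.le.trans c3)).ge.trans inf_le_right)
      ((eq_of_le_of_card_ge inf_le_left (d1.2.le.trans d3)).ge.trans inf_le_right))).trans d2.symm)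
    refine Relation.ReflTransGen.mono ?_ _ _ this
    exact fun C D h => ⟨h.1.1, h.1.2, h.2.1.1, h.2.1.2, h.2.2⟩
  · intro V a b
    have c := pw V 2 1 a b.le (by norm_num)
    have : ¬ E ⊓ centralizer (V : Set X) ≤ V := fun e => by
      have e1 := eq_of_le_of_card_ge e (b.le.trans c)
      have e2 : E ≤ centralizer (V : Set X) := ea_le_centralizer_of_le hE (e1.ge.trans inf_le_left)
      rw [inf_eq_left.2 e2] at e1
      rw [e1] at hE32; omega
    obtain ⟨x, x1, x2⟩ := SetLike.not_le_iff_exists.1 this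
    have x3 := comm_bot_symm (zpowers_comm_iff.2 x1.2)
    exact ⟨V ⊔ zpowers x, le_sup_left, ea_sup a (ea_zpowers (hE.2 x x1.1)) x3, by
      rw [card_sup_zpowers (ea_orderOf hE x1.1 fun e => x2 (e ▸ one_mem _)) x2
        (centralizer_le_normalizer _ x1.2), b]⟩

end Cfsg.Agent.S1785
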