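import Cfsg.Statements.S1850
import Mathlib
import Cfsg.Agent.H9.Tech

set_option autoImplicit false
open Cfsg

namespace Cfsg.Agent.S1850

/-- Let G be a non-abelian finite simple QTKE-group and T a Sylow 2-subgroup of G. If U is a nontrivial 2-subgroup of G with U ∩ Z(T) ≠ 1, then F*(N_G(U)) = O₂(N_G(U)). -/
theorem result {G : Type*} [Group G] [Finite G] [IsSimpleGroup G]
    (hG : ¬ IsMulCommutative G) (hQ : Cfsg.IsQTKE G) (T : Sylow 2 G) (U : Subgroup G)
    (hU : IsPGroup 2 ↥U) (hZ : U ⊓ ((T : Subgroup G) ⊓ Subgroup.centralizer ((T : Subgroup G) : Set G)) ≠ ⊥) :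
    Subgroup.normalizer (U : Set G) ∈ Cfsg.calHe G := by
  open Subgroup CfsgH9 in
  haveI : Fact (Nat.Prime 2) := ⟨Nat.prime_two⟩
  obtain ⟨z, z1, z2⟩ := exists_orderOf_prime_of_ne_bot (hU.to_le inf_le_left) hZ
  have h1 : ChP 2 (normalizer (zpowers z : Set G)) := chP_iff_sub.2 (hQ.2.2 _
    ⟨_, isPGroup_zpowers_of_prime z2, fun e => ne_one_of_orderOf_prime z2 (zpowers_eq_bot.1 e), rfl⟩
    ⟨T, le_normalizer_of_commutator_eq_bot (comm_bot_symm (zpowers_comm_iff.2 z1.2.2))⟩)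
  rw [← top_inf_eq (normalizer _)] at h1
  have := chP_normalizer_of_le hU le_top (zpowers_le.2 z1.1) (chP_centralizer_of_normalizer h1)
  rw [top_inf_eq] at this
  exact chP_iff_eq.1 this

end Cfsg.Agent.S1850
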