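import Cfsg.Statements.S1851
import Mathlib
import Cfsg.Agent.H9.Tech
import Cfsg.Agent.H9.Om
import Cfsg.Agent.H9.Join
import Cfsg.Agent.H9.Cmod
import Cfsg.Agent.H9.Comp2

set_option autoImplicit false
open Cfsg

namespace Cfsg.Agent.S1851

section
open Subgroup CfsgH9
open scoped commutatorElement

theorem key {G : Type*} [Group G] [Finite G] {L H : Subgroup G} (hp : ⁅L, L⁆ = L) (hs : Sn L H) :
    ⁅OZ 2 (Op 2 L), L⁆ = ⊥ ↔ ⁅OZ 2 (Op 2 H), L⁆ = ⊥ := by
  haveI : Fact (Nat.Prime 2) := ⟨Nat.prime_two⟩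
  have nL : Op 2 H ≤ normalizer (L : Set G) := by
    have := Op_le_normalizer_Oup (p := 2) hs
    rwa [Oup_eq_self_of_perfect hp] at this
  have nR : L ≤ normalizer (Op 2 H : Set G) := hs.le.trans (le_normalizer_Op le_normalizer)
  have e : Op 2 L = Op 2 H ⊓ L := Op_of_sn hs
  have c : ⁅Op 2 H, L⁆ ≤ Op 2 L :=
    e ▸ le_inf (commutator_le_left_of nR) (commutator_le_right_of nL)
  constructor
  · intro h
    refine comm_bot_of_perfect hp (comm_bot_mono h ?_ le_rfl)
    have h1 : ⁅OZ 2 (Op 2 H), L⁆ ≤ OZ 2 (Op 2 H) := commutator_le_left_of (le_normalizer_OZ nR)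
    exact (le_inf h1 ((commutator_mono (OZ_le _) le_rfl).trans c)).trans
      (OZ_inf_le_OZ (e.le.trans inf_le_left))
  · intro h
    have nV : Op 2 H ≤ normalizer (OZ 2 (Op 2 L) : Set G) := le_normalizer_OZ (le_normalizer_Op nL)
    have lV : L ≤ normalizer (OZ 2 (Op 2 L) : Set G) :=
      le_normalizer_OZ (le_normalizer_Op le_normalizer)
    have nC : Op 2 H ≤ normalizer ((OZ 2 (Op 2 L) ⊓ centralizer (L : Set G) : Subgroup G) : Set G) :=
      le_normalizer_inf nV (le_normalizer_centralizer nL)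
    by_contra h0
    have h1 := lt_inf_Cmod (Op_isPGroup 2 H) (ea_isPGroup (ea_OZ (p := 2) (Op 2 L))) nV nC
      (ea_le_normalizer (ea_OZ _) inf_le_left)
      (lt_of_le_of_ne inf_le_left fun e => h0 (comm_bot_iff.2 (e.ge.trans inf_le_right)))
    refine h1.not_ge (le_inf inf_le_left (comm_bot_iff.1 (comm_bot_of_perfect hp
      (comm_bot_mono h ?_ le_rfl))))
    have h2 := commutator_le_of_le_Cmod nC (inf_le_right (a := OZ 2 (Op 2 L)))
    generalize Cmod (OZ 2 (Op 2 L) ⊓ centralizer (L : Set G)) (Op 2 H) = D at *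
    have h3 : ⁅OZ 2 (Op 2 L) ⊓ D, L⁆ ≤ OZ 2 (Op 2 L) :=
      (commutator_mono inf_le_left le_rfl).trans (commutator_le_left_of lV)
    refine ea_le_OZ (h3.trans ((OZ_le _).trans (e.le.trans inf_le_left))) (le_bot_iff.1
      (three_subgroups le_normalizer_of_normal le_normalizer_of_normal le_normalizer_of_normal
        ?_ ?_)) (ea_of_le (ea_OZ _) h3)
    · rw [commutator_comm L]
      exact (comm_bot_mono (comm_bot_symm (OZ_comm _)) c inf_le_left).le
    · rw [commutator_comm (Op 2 H)]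
      exact (comm_bot_iff.2 (h2.trans inf_le_right)).le

end

/-- Let G be a non-abelian finite simple QTKE-group and T a Sylow 2-subgroup of G, and let L be a member of ℒ_f(G, T) (a member of ℒ(G, T) that lies in 𝒳 — L ≠ 1, L = O²(L), F*(L) = O₂(L) — and acts nontrivially on Ω₁(Z(O₂(L)))). Then (1) every member K of ℒ(G, T) containing L is again in ℒ_f(G, T) (a sharper form of (1) also compares the modules [Ω₁(Z(R)), L] and [Ω₁(Z(R')), K] for suitable 2-subgroups R, R'; that comparison is not included); and (2) if L is maximal under inclusion among the members of ℒ_f(G, T), then L is a maximal member of ℒ(G, T), hence a member of ℒ_f*(G, T). -/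
theorem result {G : Type*} [Group G] [Finite G] [IsSimpleGroup G]
    (hG : ¬ IsMulCommutative G) (hQ : Cfsg.IsQTKE G) (T : Sylow 2 G) (L : Subgroup G)
    (hL : L ∈ Cfsg.calLf (T : Subgroup G)) :
    (∀ K ∈ Cfsg.calL (T : Subgroup G), L ≤ K → K ∈ Cfsg.calLf (T : Subgroup G)) ∧
    ((∀ K ∈ Cfsg.calLf (T : Subgroup G), L ≤ K → K = L) → L ∈ Cfsg.calLfMax (T : Subgroup G)) := by
  open Subgroup CfsgH9 in
  haveI : Fact (Nat.Prime 2) := ⟨Nat.prime_two⟩
  have hT := syl_sylow T
  have basic : ∀ K ∈ calL (T : Subgroup G), K ≠ ⊥ ∧ ⁅K, K⁆ = K ∧ Sn K (K ⊔ T) ∧ ChP 2 (K ⊔ T) := by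
    rintro K ⟨⟨h1, h2, h3, -⟩, -, h4⟩
    refine ⟨fun e => h1 (by rw [e]; simp), ?_, (sn_iff_subgroupOf le_sup_left).2 h3, ?_⟩
    · have := congrArg (map (K ⊔ (T : Subgroup G)).subtype) h2
      rwa [Subgroup.map_commutator, subgroupOf_map_subtype, inf_eq_left.2 le_sup_left] at this
    · have n : K ⊔ (T : Subgroup G) ≤ normalizer (Op 2 (K ⊔ (T : Subgroup G)) : Set G) :=
        le_normalizer_Op le_normalizer
      have h5 : ChP 2 (normalizer (Op 2 (K ⊔ (T : Subgroup G)) : Set G)) := chP_iff_sub.2 (hQ.2.2 _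
        ⟨_, Op_isPGroup 2 _, fun e => h4 ((map_eq_bot_iff_of_injective _ (subtype_injective _)).1 e),
          rfl⟩ ⟨T, le_sup_right.trans n⟩)
      exact h5.of_Op_le ((hT.of_le (le_sup_right.trans n) le_top).Op_le.trans le_sup_right) n
  have main : ∀ K ∈ calL (T : Subgroup G), L ≤ K → K ∈ calLf (T : Subgroup G) := fun K hK l => by
    obtain ⟨k1, k2, k3, k4⟩ := basic K hK
    obtain ⟨-, l2, l3, -⟩ := basic L hL.1
    refine ⟨hK, ⟨k1, ?_, chP_iff_eq.1 (k4.of_sn k3)⟩, fun h => hL.2.2 ((key l2 l3).2 ?_)⟩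
    · have := Oup_eq_self_of_perfect (p := 2) k2
      simpa only [Oup, oddGenerated, Nat.coprime_two_right] using this
    · have l' : L ⊔ (T : Subgroup G) ≤ K ⊔ T := sup_le_sup_right l _
      refine comm_bot_mono ((key k2 k3).1 h) (k4.OZ_le (le_Op (Sn.of_normal
        ((hT.of_le le_sup_right le_top).Op_le.trans le_sup_right)
        (l'.trans (le_normalizer_Op le_normalizer))) (Op_isPGroup 2 _)) ((Op_le 2 _).trans l')) l
  exact ⟨main, fun h => ⟨⟨hL.1, fun K hK l => h K (main K hK l) l⟩, hL.2⟩⟩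

end Cfsg.Agent.S1851
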