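import Cfsg.Statements.S1957
import Mathlib
import Cfsg.Agent.H9.Pump2
import Cfsg.Agent.H9.Loc
import Cfsg.Agent.H9.Tech
import Cfsg.Agent.H9.Trace
import Cfsg.Agent.H2.PG1

set_option autoImplicit false
open Cfsg

namespace Cfsg.Agent.S1957

/-- Let `G` be a finite non-abelian simple group in which every local subgroup is solvable and which is of characteristic 2 type. Let `P` be a Sylow 2-subgroup of `G` and `U` a normal subgroup of `P` that is a four-group, with `U` central in `P` if the centre of `P` is not cyclic. Then `U` centralizes every subgroup of odd order of `G` that it normalizes. -/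
theorem result {G : Type*} [Group G] [Finite G]
    [IsSimpleGroup G] (hna : ¬ IsMulCommutative G) (hN : Cfsg.IsNGroup G) (h2 : Cfsg.IsCharacteristicTwoType G)
    (P : Sylow 2 G) (U : Subgroup G) (hUP : U ≤ (P : Subgroup G)) (hUn : (P : Subgroup G) ≤ Subgroup.normalizer (U : Set G))
    (hU4 : IsKleinFour ↥U)
    (hUZ : ¬ IsCyclic ↥((P : Subgroup G) ⊓ Subgroup.centralizer ((P : Subgroup G) : Set G)) →
      U ≤ Subgroup.centralizer ((P : Subgroup G) : Set G))
    (K : Subgroup G) (hK : Odd (Nat.card K)) (hUK : U ≤ Subgroup.normalizer (K : Set G)) :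
    U ≤ Subgroup.centralizer (K : Set G) := by
  open Subgroup CfsgH9 in
  have loc : LocP 2 (⊤ : Subgroup G) := (locP_top_iff.1 ⟨h2.1.two_dvd, h2.2⟩).2
  obtain ⟨eU, cU⟩ := kleinFour_iff.1 hU4
  have cK : (Nat.card K).Coprime 2 := hK.coprime_two_right
  have hP := syl_sylow P
  rw [le_centralizer_iff]
  refine ea_le_of_centralizers eU (by rw [cU]; rfl) hUK cK fun u hu u1 => ?_
  have o := ea_orderOf eU hu u1
  have hH := loc.centralizer_singleton (mem_top _) o
  rw [top_inf_eq] at hH
  obtain ⟨H, e⟩ : ∃ H, H = centralizer ({u} : Set G) := ⟨_, rfl⟩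
  rw [← e] at hH ⊢
  have UH : U ≤ H := e ▸ ea_le_centralizer_singleton eU hu
  have nu : H ≤ centralizer ((zpowers u : Subgroup G) : Set G) := by rw [centralizer_zpowers, e]
  obtain ⟨T, hT, nT⟩ : ∃ T, Syl 2 T H ∧ T ≤ normalizer (U : Set G) := by
    by_cases h : U ≤ centralizer ((P : Subgroup G) : Set G)
    · exact ⟨P, hP.of_le (e ▸ mem_centralizer_iff_le.1 (h hu)) le_top, hUn⟩
    have cyc : IsCyclic (Zc (P : Subgroup G)) := by_contra fun a => h (hUZ a)
    obtain ⟨R, hR⟩ : ∃ R, R = (P : Subgroup G) ⊓ centralizer (U : Set G) := ⟨_, rfl⟩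
    have r1 : R ≤ centralizer (U : Set G) := hR.le.trans inf_le_right
    have r2 : Nat.card (P : Subgroup G) ≤ Nat.card R * 2 := by
      rw [← card_inf_mul_relIndex (centralizer (U : Set G)), inf_comm, ← hR]
      exact Nat.mul_le_mul_left _ (Nat.le_of_dvd two_pos
        (CfsgH2.relIndex_cent_dvd_of_card_sq hP.pg hUn (by rw [cU]; norm_num)))
    obtain ⟨T, hT, a⟩ := exists_syl_ge (hP.pg.to_le (hR.le.trans inf_le_left))
      (r1.trans (e ▸ centralizer_le_centralizer_singleton hu))
    refine ⟨T, hT, fun t ht => ?_⟩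
    by_cases b : t ∈ R
    · exact centralizer_le_normalizer _ (r1 b)
    obtain ⟨C, c1, c2⟩ := exists_hyp_ge hT.pg (lt_of_le_of_ne a fun e => b (e ▸ ht))
    have c3 := hP.card_le hT.pg le_top
    have c4 : R = C := eq_of_le_of_card_ge c1 (by have := c2.2; omega)
    subst c4
    obtain ⟨g, -, hg⟩ := hP.conj (hP.of_card_le hT.pg le_top (by
      have := c2.2; have := (hP.card_le (hP.pg.to_le (hR.le.trans inf_le_left)) le_top); omega))
    have cT : IsCyclic (Zc T) := by
      rw [← hg, ← cj_Zc]; exact isCyclic_of_surjective _ (cjEquiv g _).surjective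
    have n := c2.le_normalizer hT.pg
    have w := card_le_sq_of_invol (ea_OZ (p := 2) R) (le_normalizer_OZ n ht) (le_centralizer_OZ R (by
      have := pow_relIndex_mem_of n ht
      rwa [(hyp_iff.1 c2).2] at this))
    have w2 := pRankLE_iff.1 (pRankLE_one_of_isCyclic (p := 2) cT) (OZ 2 R ⊓ centralizer {t})
      (le_Zc (inf_le_left.trans ((OZ_le R).trans a)) (by
        rw [← c2.sup_zpowers' ht b]
        exact comm_bot_sup_right (comm_bot_mono (OZ_comm R) inf_le_left le_rfl)
          (comm_zpowers_iff.2 inf_le_right))) (ea_of_le (ea_OZ R) inf_le_left)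
    have w3 : U = OZ 2 R := eq_of_le_of_card_ge (ea_le_OZ (hR ▸ le_inf hUP (ea_le_centralizer eU))
      (comm_bot_iff'.2 r1) eU) (by
        rw [cU]; exact w.trans ((Nat.pow_le_pow_left w2 2).trans (by norm_num)))
    rw [w3]; exact le_normalizer_OZ n ht
  have nz : H ≤ normalizer ((zpowers u : Subgroup G) : Set G) := nu.trans (centralizer_le_normalizer _)
  have cz : Nat.card (zpowers u) = 2 := by rw [Nat.card_zpowers, o]
  have hy : Hyp 2 (zpowers u) U := ⟨zpowers_le.2 hu, by rw [cz, cU]⟩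
  obtain ⟨s, s1, s2, s3⟩ := exists_mem_not_mem_of_isPGroup hT.pg (ea_isPGroup eU) nT (hT.le.trans nz)
    (UH.trans nz) hy.lt.not_ge
  have c1 : ⁅U, Op 2 H⁆ ≤ zpowers u := by
    rw [← hy.sup_zpowers' s1 s2]
    exact commutator_sup_le le_normalizer ((zpowers_le.2 (UH s1)).trans nz)
      (commutator_le_left_of ((Op_le 2 H).trans nz)) ((commutator_mono le_rfl hT.Op_le).trans s3)
  have nO : H ≤ normalizer (Op 2 H : Set G) := le_normalizer_Op le_normalizer
  have LH : K ⊓ H ⊔ U ≤ H := sup_le inf_le_right UH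
  have c2 := comm_ncl_le_of_comm_le (LH.trans nO) (LH.trans nz) le_sup_right c1
  have x1 : ⁅K ⊓ H, U⁆ ≤ K ⊓ H := commutator_le_left_of (le_normalizer_inf hUK (UH.trans le_normalizer))
  have x2 : ⁅K ⊓ H, U⁆ ≤ ncl (K ⊓ H ⊔ U) U := by
    rw [ncl_eq_sup_commutator, Subgroup.commutator_comm]
    exact (commutator_mono le_rfl le_sup_left).trans le_sup_right
  have x3 := coprime_of_le (x1.trans inf_le_left) cK
  have x4 := x1.trans inf_le_right
  have x5 := CfsgH1.coprime_le_centralizer_of_commutator (x4.trans nO)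
    (coprime_of_isPGroup (Op_isPGroup 2 H) x3).symm
    (Or.inr (CfsgH1.isSolvable_of_isPGroup (Op_isPGroup 2 H)))
    (((Subgroup.commutator_comm _ _).le.trans ((commutator_mono x2 le_rfl).trans c2)).trans
      (le_centralizer_iff.1 (x4.trans nu)))
  exact comm_bot_iff.1 (isPGroup_coprime_eq_bot ((Op_isPGroup 2 H).to_le
    (hH.le_Op_of_comm x4 (comm_bot_iff.2 x5))) x3)

end Cfsg.Agent.S1957
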