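import Cfsg.Statements.S1958
import Mathlib
import Cfsg.Agent.H9.Sig
import Cfsg.Agent.H9.Bal2

set_option autoImplicit false
open Cfsg

namespace Cfsg.Agent.S1958

/-- Let `G` be a finite group, `p` a prime, and `x, y` commuting elements of order `p` whose centralizers `C_G(x)` and `C_G(y)` are both solvable. Then `O_{p'}(C_G(x)) ∩ C_G(y) = O_{p'}(C_G(y)) ∩ C_G(x)` (balance). -/
theorem result {G : Type*} [Group G] [Finite G]
    (p : ℕ) [Fact p.Prime] (x y : G) (hx : orderOf x = p) (hy : orderOf y = p) (hxy : x * y = y * x)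
    (hCx : Group.IsSolvable ↥(Subgroup.centralizer ({x} : Set G))) (hCy : Group.IsSolvable ↥(Subgroup.centralizer ({y} : Set G))) :
    Cfsg.centralizerPPrimeCore p x ⊓ Subgroup.centralizer {y} = Cfsg.centralizerPPrimeCore p y ⊓ Subgroup.centralizer {x} := by
  open Subgroup CfsgH9 in
  have h : ∀ x y : G, orderOf x = p → x * y = y * x →
      Group.IsSolvable (centralizer ({y} : Set G)) → Cfsg.centralizerPPrimeCore p x ⊓ centralizer {y} ≤
        Cfsg.centralizerPPrimeCore p y ⊓ centralizer {x} := fun x y hx h hs => by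
    rw [centralizerPPrimeCore_eq, centralizerPPrimeCore_eq, top_inf_eq, top_inf_eq]
    exact le_inf (Opp_centralizer_inf_le hx (mem_centralizer_singleton_iff.2 h)
      (PLay_eq_bot_of_solvable hs)) (inf_le_left.trans (Opp_le _ _))
  exact le_antisymm (h x y hx hxy hCy) (h y x hy hxy.symm hCx)

end Cfsg.Agent.S1958
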