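import Cfsg.Statements.S1966
import Cfsg.Agent.H2.Func2

set_option autoImplicit false
open Cfsg

namespace Cfsg.Agent.S1966
open CfsgH2

/-- Let p be a prime, G a finite group with Sylow p-subgroup S and 𝓕 a conjugation family for S in G. Then the members of 𝓕 containing O_p(G) still form a conjugation family for S in G. -/
theorem result {G : Type*} [Group G] [Finite G] {p : ℕ} [Fact p.Prime] (S : Sylow p G) (𝓕 : Set (Subgroup G)) (h : Cfsg.IsConjugationFamily 𝓕 (S : Subgroup G)) : Cfsg.IsConjugationFamily {T : Subgroup G | T ∈ 𝓕 ∧ Cfsg.pCore p G ≤ T} (S : Subgroup G) := by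
  open Subgroup Function in open scoped commutatorElement in
  refine ⟨fun T hT => h.1 T hT.1, fun A g hA hAS hAg => ?_⟩
  have hQ : Cfsg.pCore p G ≤ S := by rw [pCore_eq']; exact (syl_top S).pCoreOf_le
  have hc : ∀ (k : G), ∀ x ∈ Cfsg.pCore p G, k⁻¹ * x * k ∈ Cfsg.pCore p G := fun k x hx => by
    simpa using Normal.conj_mem inferInstance x hx k⁻¹
  obtain ⟨n, T, x, e, a, a', b, b'⟩ := h.2 (A ∪ Cfsg.pCore p G) g (hA.mono Set.subset_union_left)
    (Set.union_subset hAS hQ) (by
      rintro _ ⟨y, hy | hy, rfl⟩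
      · exact hAg ⟨y, hy, rfl⟩
      · exact hQ (hc g y hy))
  refine ⟨n, T, x, e, fun i => ⟨a i, fun y hy => ?_⟩, a', fun h => Set.subset_union_left.trans (b h),
    fun i h => (Set.image_mono Set.subset_union_left).trans (b' i h)⟩
  obtain ⟨i, hi⟩ := i
  rcases i with _ | i
  · exact b hi (Or.inr hy)
  · refine b' ⟨i, by omega⟩ hi ⟨_, Or.inr (hc ((List.ofFn x).take (i + 1)).prod⁻¹ y hy), ?_⟩
    simp [mul_assoc]

end Cfsg.Agent.S1966
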