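import Cfsg.Statements.S1970
import Cfsg.Agent.H2.SecT

set_option autoImplicit false
universe u
open Cfsg

namespace Cfsg.Agent.S1970
open CfsgH2

/-- Let p be a prime, G a finite group and W an isomorphism-invariant p-group functor (W assigns to every group Q a subgroup W(Q), nontrivial whenever Q is a nontrivial finite p-group, and every isomorphism from a finite p-group Q onto a group R carries W(Q) onto W(R)). Suppose that for every section G* = K/R of G with C_{G*}(O_p(G*)) ≤ O_p(G*) and every Sylow p-subgroup S* of G*, one has O_p(G*) ∩ (G*)' = O_p(G*) ∩ (N_{G*}(W(S*)))'. Then W controls transfer in every section G* of G: S* ∩ (G*)' = S* ∩ (N_{G*}(W(S*)))' for a Sylow p-subgroup S* of G*. -/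
theorem result {G : Type u} [Group G] [Finite G] {p : ℕ} [Fact p.Prime] (W : ∀ (Q : Type u) [Group Q], Subgroup Q) (hW : Cfsg.IsCharPFunctor.{u} p W) (hloc : ∀ (K R : Subgroup G) [hR : (R.subgroupOf K).Normal], Subgroup.centralizer ((Cfsg.pCore p (↥K ⧸ R.subgroupOf K) : Subgroup (↥K ⧸ R.subgroupOf K)) : Set (↥K ⧸ R.subgroupOf K)) ≤ Cfsg.pCore p (↥K ⧸ R.subgroupOf K) → ∀ T : Sylow p (↥K ⧸ R.subgroupOf K), Cfsg.pCore p (↥K ⧸ R.subgroupOf K) ⊓ commutator (↥K ⧸ R.subgroupOf K) = Cfsg.pCore p (↥K ⧸ R.subgroupOf K) ⊓ ⁅Subgroup.normalizer ((Cfsg.inducedFunctor (G := (↥K ⧸ R.subgroupOf K)) W ((T : Subgroup (↥K ⧸ R.subgroupOf K))) : Subgroup (↥K ⧸ R.subgroupOf K)) : Set (↥K ⧸ R.subgroupOf K)), Subgroup.normalizer ((Cfsg.inducedFunctor (G := (↥K ⧸ R.subgroupOf K)) W ((T : Subgroup (↥K ⧸ R.subgroupOf K))) : Subgroup (↥K ⧸ R.subgroupOf K)) : Set (↥K ⧸ R.subgroupOf K))⁆) : ∀ (K R : Subgroup G) [hR : (R.subgroupOf K).Normal], Cfsg.ControlsTransferIn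 p (Cfsg.inducedFunctor (G := (↥K ⧸ R.subgroupOf K)) W) ⊤ := by
  open Subgroup Function in open scoped commutatorElement in
  intro K R _
  rw [ctr_iff (iw_cf hW), ← if_single]
  refine ftr_ind (cf_single hW) (fun K R _ h1 h2 => ?_) _ ⊤ (sec_quot K R)
  obtain ⟨T⟩ : Nonempty (Sylow p (K ⧸ R.subgroupOf K)) := inferInstance
  obtain ⟨c1, c2, -⟩ := ftr_min (cf_single hW) h1 h2 (syl_top T)
    (norm_ne_top_of_ftr' (cf_single hW) rfl h2 (syl_top T)) rfl rfl rfl
  have := hloc K R (con_top_iff.2 c2) T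
  rw [pCore_eq', commutator_def] at this
  refine h2 (FTR.of_one (if_cf (cf_single hW)) (syl_top T) (c1.trans (sup_le le_rfl ?_)))
  rw [this]
  refine le_trans ?_ (le_tg_if (W := W) rfl)
  rw [top_inf_eq]
  exact inf_le_inf_right _ (syl_top T).pCoreOf_le

end Cfsg.Agent.S1970
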