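import Cfsg.Statements.S1972
import Cfsg.Agent.H2.SecT

set_option autoImplicit false
universe u
open Cfsg

namespace Cfsg.Agent.S1972
open CfsgH2

/-- Let p be a prime, G a finite group and W an isomorphism-invariant p-group functor (W assigns to every group Q a subgroup W(Q), nontrivial whenever Q is a nontrivial finite p-group, and every isomorphism from a finite p-group Q onto a group R carries W(Q) onto W(R)). Suppose that whenever G* = K/R is a section of G with C_{G*}(O_p(G*)) ≤ O_p(G*) and S* is a Sylow p-subgroup of G* with W(S*) not normal in G*, there is an element g of S* outside O_p(G*) such that [X, g, …, g] ≤ Y with p − 1 entries g, for every chief factor X/Y of G* with X ≤ O_p(G*). Then W controls transfer in every section of G. -/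
theorem result {G : Type u} [Group G] [Finite G] {p : ℕ} [Fact p.Prime] (W : ∀ (Q : Type u) [Group Q], Subgroup Q) (hW : Cfsg.IsCharPFunctor.{u} p W) (hloc : ∀ (K R : Subgroup G) [hR : (R.subgroupOf K).Normal], Subgroup.centralizer ((Cfsg.pCore p (↥K ⧸ R.subgroupOf K) : Subgroup (↥K ⧸ R.subgroupOf K)) : Set (↥K ⧸ R.subgroupOf K)) ≤ Cfsg.pCore p (↥K ⧸ R.subgroupOf K) → ∀ T : Sylow p (↥K ⧸ R.subgroupOf K), ¬ (Cfsg.inducedFunctor (G := (↥K ⧸ R.subgroupOf K)) W ((T : Subgroup (↥K ⧸ R.subgroupOf K)))).Normal → ∃ g : (↥K ⧸ R.subgroupOf K), g ∈ (T : Subgroup (↥K ⧸ R.subgroupOf K)) ∧ g ∉ Cfsg.pCore p (↥K ⧸ R.subgroupOf K) ∧ ∀ U V : Subgroup (↥K ⧸ R.subgroupOf K), Cfsg.IsChiefFactor U V → U ≤ Cfsg.pCore p (↥K ⧸ R.subgroupOf K) → Cfsg.iterCommutator U (Subgroup.zpowers g) (p - 1) ≤ V) : ∀ (K R : Subgroup G) [hR : (R.subgroupOf K).Normal], Cfsg.ControlsTransferIn p (Cfsg.inducedFunctor (G := (↥K ⧸ R.subgroupOf K)) W) ⊤ := by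
  open Subgroup Function in open scoped commutatorElement in
  intro K R _
  rw [ctr_iff (iw_cf hW), ← if_single]
  refine ftr_ind (cf_single hW) (fun K R _ h1 h2 => ?_) _ ⊤ (sec_quot K R)
  obtain ⟨T⟩ : Nonempty (Sylow p (K ⧸ R.subgroupOf K)) := inferInstance
  obtain ⟨-, c2, -, -, c3⟩ := ftr_min (cf_single hW) h1 h2 (syl_top T)
    (norm_ne_top_of_ftr' (cf_single hW) rfl h2 (syl_top T)) rfl rfl rfl
  obtain ⟨g, g1, g2, g3⟩ := hloc K R (con_top_iff.2 c2) T fun e =>
    norm_ne_top_of_ftr (cf_single hW) rfl h2 (syl_top T) (normalizer_eq_top _)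
  rw [pCore_eq'] at g2 g3
  obtain ⟨X, Y, x1, x2, x3⟩ := c3 g g1 g2
  exact x3 (g3 X Y (chf_top_iff.2 x1) x2)

end Cfsg.Agent.S1972
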