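import Cfsg.Statements.S1981
import Cfsg.Agent.H2.KInf

set_option autoImplicit false
open Cfsg

namespace Cfsg.Agent.S1981
open CfsgH2

/-- Let P be a finite p-group generated by its abelian normal subgroups. Then both K-infinity subgroups of P equal P. -/
theorem result {P : Type*} [Group P] [Finite P] {p : ℕ} [Fact p.Prime] (hP : IsPGroup p P) (hgen : ⨆ A ∈ {A : Subgroup P | A.Normal ∧ IsMulCommutative ↥A}, A = ⊤) : Cfsg.kInfLower P = ⊤ ∧ Cfsg.kInfUpper P = ⊤ := by
  open Subgroup Function in open scoped commutatorElement in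
  simp only [← kL_top, ← kU_top, ← top_le_iff] at hgen ⊢
  exact ⟨hgen.trans (iSup₂_le fun A hA => le_kL_of_comm le_top hA.2 (top_le_norm_iff.2 hA.1)),
    hgen.trans (iSup₂_le fun A hA => le_kU_of_comm le_top hA.2 (top_le_norm_iff.2 hA.1))⟩

end Cfsg.Agent.S1981
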