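import Cfsg.Statements.S1985
import Cfsg.Agent.H2.KThm

set_option autoImplicit false
universe u
open Cfsg

namespace Cfsg.Agent.S1985
open CfsgH2

/-- Let p be an odd prime and G a finite group. Then the lower K-infinity subgroup controls weak closure of elements in G: the lower K-infinity subgroup of every p-subgroup P of G contains Z(P), and for some (equivalently, every) Sylow p-subgroup S of G, with K the lower K-infinity subgroup of S, every element of S commuting with all of N_G(K) is weakly closed in S with respect to G (every G-conjugate of it lying in S equals it). -/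
theorem result {G : Type u} [Group G] [Finite G] {p : ℕ} [Fact p.Prime] (hp : p ≠ 2) : Cfsg.ControlsWeakClosureOfElementsIn p (Cfsg.inducedFunctor (G := G) Cfsg.kInfLower) ⊤ := by
  open Subgroup Function in open scoped commutatorElement in
  obtain ⟨T, hT⟩ := exists_syl (p := p) (⊤ : Subgroup G)
  have hK : IsK.{u} Cfsg.kInfLower := Or.inl rfl
  refine ⟨fun _ _ => hK.center_le, T, hT.le, hT.pg, hT.nd, fun x hx h hh h1 =>
    wce_of_local (iw_cf kL_char) (fun _ _ => hK.center_le) (fun H T hT hn => ?_) hT hx hh h1⟩
  obtain ⟨g, g1, g2, -, g3, -⟩ := k_quad' hT rfl (hK.or hn)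
  refine ⟨g, g1, g2, fun X Y h hX => iterComm_le_of_le (zpowers_le.2 (h.nY (hT.le g1))) (i := 2)
    (by have := (Fact.out : p.Prime).two_le; omega) ?_⟩
  exact ((iterComm_mono hX le_rfl 2).trans g3.le).trans bot_le

end Cfsg.Agent.S1985
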