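import Cfsg.Statements.S1990
import Cfsg.Agent.H2.KThm

set_option autoImplicit false
universe u
open Cfsg

namespace Cfsg.Agent.S1990
open CfsgH2

/-- Let p be an odd prime, G a finite group with Sylow p-subgroup S, and W an isomorphism-invariant p-group functor (W assigns to every group Q a subgroup W(Q), nontrivial whenever Q is a nontrivial finite p-group, and every isomorphism from a finite p-group Q onto a group R carries W(Q) onto W(R)). Suppose N_G(W(S)) has a normal p-complement, and W(T) controls strong fusion in every section G* = K/R of G all of whose sections are p-stable in the normalizer form, for every Sylow p-subgroup T of G*. Then G has a normal p-complement. -/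
theorem result {G : Type u} [Group G] [Finite G] {p : ℕ} [Fact p.Prime] (hp : p ≠ 2) (W : ∀ (Q : Type u) [Group Q], Subgroup Q) (hW : Cfsg.IsCharPFunctor.{u} p W) (S : Sylow p G) (hN : Cfsg.HasNormalPComplement p ↥(Subgroup.normalizer ((Cfsg.inducedFunctor (G := G) W (S : Subgroup G) : Subgroup G) : Set G))) (hctl : ∀ (K R : Subgroup G) [hR : (R.subgroupOf K).Normal], (∀ (K' R' : Subgroup (↥K ⧸ R.subgroupOf K)) [hR' : (R'.subgroupOf K').Normal], Cfsg.IsNormalizerPStable p (↥K' ⧸ R'.subgroupOf K')) → ∀ T : Sylow p (↥K ⧸ R.subgroupOf K), Cfsg.ControlsStrongFusion p (Cfsg.inducedFunctor (G := (↥K ⧸ R.subgroupOf K)) W (T : Subgroup (↥K ⧸ R.subgroupOf K)))) : Cfsg.HasNormalPComplement p G := by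
  open Subgroup Function in open scoped commutatorElement in
  refine npc_top_iff.2 (ncw_ind hW (fun K R _ S hS hN _ _ _ c => ?_) (syl_top S) (npc_iff.1 hN))
  obtain ⟨S, rfl⟩ := hS.exists_top
  have h1 := hctl K R (fun K' R' _ => pst_top_iff.2 (pst_of_comm hp ((sec_quot K' R').pgroup_comm c))) S
  have h2 := cf_le_norm (iw_cf hW) hS.pg
  refine hS.npc_of_control hN h2 le_top fun x hx u _ hu => ?_
  obtain ⟨n, n1, n2⟩ := csfu_elim h1 hS h2 (zpowers x) (zpowers_le.2 hx) u
    (by rw [MonoidHom.map_zpowers]; exact zpowers_le.2 hu)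
  refine ⟨n, n1, ?_⟩
  have := mem_cent_iff.1 n2 x (mem_zpowers x)
  calc n * x * n⁻¹ = n * (x * (n⁻¹ * u)) * u⁻¹ := by group
    _ = _ := by rw [this]; group

end Cfsg.Agent.S1990
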