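import Cfsg.Statements.S1996
import Cfsg.Agent.H2.SecF

set_option autoImplicit false
universe u
open Cfsg

namespace Cfsg.Agent.S1996
open CfsgH2

/-- Let p be a prime, G a finite group and W₁, W₂ two isomorphism-invariant p-group functors (W assigns to every group Q a subgroup W(Q), nontrivial whenever Q is a nontrivial finite p-group, and every isomorphism from a finite p-group Q onto a group R carries W(Q) onto W(R)). Suppose that G* = N_{G*}(W₁(S*)) N_{G*}(W₂(S*)) whenever G* = K/R is a section of G with C_{G*}(O_p(G*)) ≤ O_p(G*) and S* is a Sylow p-subgroup of G*. Then the pair {W₁, W₂} controls strong fusion in G. -/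
theorem result {G : Type u} [Group G] [Finite G] {p : ℕ} [Fact p.Prime] (W₁ W₂ : ∀ (Q : Type u) [Group Q], Subgroup Q) (hW₁ : Cfsg.IsCharPFunctor.{u} p W₁) (hW₂ : Cfsg.IsCharPFunctor.{u} p W₂) (hfac : ∀ (K R : Subgroup G) [hR : (R.subgroupOf K).Normal], Subgroup.centralizer ((Cfsg.pCore p (↥K ⧸ R.subgroupOf K) : Subgroup (↥K ⧸ R.subgroupOf K)) : Set (↥K ⧸ R.subgroupOf K)) ≤ Cfsg.pCore p (↥K ⧸ R.subgroupOf K) → ∀ T : Sylow p (↥K ⧸ R.subgroupOf K), ∀ x : (↥K ⧸ R.subgroupOf K), ∃ a ∈ Subgroup.normalizer ((Cfsg.inducedFunctor (G := (↥K ⧸ R.subgroupOf K)) W₁ (T : Subgroup (↥K ⧸ R.subgroupOf K)) : Subgroup (↥K ⧸ R.subgroupOf K)) : Set (↥K ⧸ R.subgroupOf K)), ∃ b ∈ Subgroup.normalizer ((Cfsg.inducedFunctor (G := (↥K ⧸ R.subgroupOf K)) W₂ (T : Subgroup (↥K ⧸ R.subgroupOf K)) : Subgroup (↥K ⧸ R.subgroupOf K)) : Set (↥K ⧸ R.subgroupOf K)), x = a * b) : Cfsg.FamilyControlsStrongFusionIn p {Cfsg.inducedFunctor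 (G := G) W₁, Cfsg.inducedFunctor (G := G) W₂} ⊤ := by
  open Subgroup Function in open scoped commutatorElement in
  have h𝓦 : ∀ W ∈ ({W₁, W₂} : Set _), Cfsg.IsCharPFunctor.{u} p W := by
    rintro _ (rfl | rfl) <;> assumption
  rw [← Set.image_pair (fun W => Cfsg.inducedFunctor (G := G) W)]
  refine (fsf_iff (if_cf h𝓦)).2 (fsf_of_con' h𝓦 (fun K R _ h T hT U hU g _ hg => ?_) G ⊤ (Sec.self ⊤))
  obtain ⟨T, rfl⟩ := hT.exists_top
  obtain ⟨a, ha, b, hb, rfl⟩ := hfac K R (con_top_iff.2 h) T g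
  have n1 := cf_le_norm (iw_cf hW₁) hT.pg
  have n2 := cf_le_norm (iw_cf hW₂) hT.pg
  obtain ⟨c, hc, h1⟩ := (hT.mono (le_inf n1 n2) le_top).exists_conj_le ((hT.pg.to_le hU).map (cj b))
    (le_inf (by
      rw [← map_cj_cj, map_cj_le_iff] at hg
      exact hg.trans (map_cj_le_of_mem n1 (inv_mem ha))) (map_cj_le_of_mem (hU.trans n2) hb))
  rw [map_cj_cj] at h1
  have e : a * b = a * c⁻¹ * (c * b) := by group
  rw [e] at hg ⊢
  exact Fu.step _ _ (Fu.single hU ⟨_, ⟨W₂, Or.inr rfl, rfl⟩, trivial, mul_mem hc.2 hb⟩ h1)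
    ⟨_, ⟨W₁, Or.inl rfl, rfl⟩, mem_inf.2 ⟨trivial, mul_mem ha (inv_mem (mem_inf.1 hc).1)⟩⟩ hg

end Cfsg.Agent.S1996
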