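import Cfsg.Statements.S1997
import Mathlib
import Cfsg.Agent.H9.TriF

set_option autoImplicit false
universe u
open Cfsg

namespace Cfsg.Agent.S1997

/-- Let p be a prime, G a finite group with Sylow p-subgroup S, and W₁, W₂ two isomorphism-invariant p-group functors (W assigns to every group Q a subgroup W(Q), nontrivial whenever Q is a nontrivial finite p-group, and every isomorphism from a finite p-group Q onto a group R carries W(Q) onto W(R)). Suppose that G* = C_{G*}(Ω₁Z(S*)) N_{G*}(W₁(S*)) = C_{G*}(Ω₁Z(S*)) N_{G*}(W₂(S*)) = N_{G*}(W₁(S*)) N_{G*}(W₂(S*)) whenever G* = K/R is a section of G with C_{G*}(O_p(G*)) ≤ O_p(G*) and S* is a Sylow p-subgroup of G*, where Ω₁Z denotes the subgroup generated by the elements of order dividing p in the centre. Suppose also Ω₁Z(S) ≤ W₁(S) ∩ W₂(S), and let A be the normal closure of Ω₁Z(S) in N_G(W₁(S)). Then A is an elementary abelian subgroup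 of S, strongly closed in S with respect to G, and A controls strong fusion in G. -/
theorem result {G : Type u} [Group G] [Finite G] {p : ℕ} [Fact p.Prime] (S : Sylow p G) (W₁ W₂ : ∀ (Q : Type u) [Group Q], Subgroup Q) (hW₁ : Cfsg.IsCharPFunctor.{u} p W₁) (hW₂ : Cfsg.IsCharPFunctor.{u} p W₂) (hfac : ∀ (K R : Subgroup G) [hR : (R.subgroupOf K).Normal], Subgroup.centralizer ((Cfsg.pCore p (↥K ⧸ R.subgroupOf K) : Subgroup (↥K ⧸ R.subgroupOf K)) : Set (↥K ⧸ R.subgroupOf K)) ≤ Cfsg.pCore p (↥K ⧸ R.subgroupOf K) → ∀ T : Sylow p (↥K ⧸ R.subgroupOf K), (∀ x : (↥K ⧸ R.subgroupOf K), ∃ a ∈ Subgroup.centralizer ((Cfsg.omegaOne p ((T : Subgroup (↥K ⧸ R.subgroupOf K)) ⊓ Subgroup.centralizer (((T : Subgroup (↥K ⧸ R.subgroupOf K)) : Subgroup (↥K ⧸ R.subgroupOf K)) : Set (↥K ⧸ R.subgroupOf K))) : Subgroup (↥K ⧸ R.subgroupOf K)) : Set (↥K ⧸ R.subgroupOf K)), ∃ b ∈ Subgroup.normalizer ((Cfsg.inducedFunctor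 (G := (↥K ⧸ R.subgroupOf K)) W₁ (T : Subgroup (↥K ⧸ R.subgroupOf K)) : Subgroup (↥K ⧸ R.subgroupOf K)) : Set (↥K ⧸ R.subgroupOf K)), x = a * b) ∧ (∀ x : (↥K ⧸ R.subgroupOf K), ∃ a ∈ Subgroup.centralizer ((Cfsg.omegaOne p ((T : Subgroup (↥K ⧸ R.subgroupOf K)) ⊓ Subgroup.centralizer (((T : Subgroup (↥K ⧸ R.subgroupOf K)) : Subgroup (↥K ⧸ R.subgroupOf K)) : Set (↥K ⧸ R.subgroupOf K))) : Subgroup (↥K ⧸ R.subgroupOf K)) : Set (↥K ⧸ R.subgroupOf K)), ∃ b ∈ Subgroup.normalizer ((Cfsg.inducedFunctor (G := (↥K ⧸ R.subgroupOf K)) W₂ (T : Subgroup (↥K ⧸ R.subgroupOf K)) : Subgroup (↥K ⧸ R.subgroupOf K)) : Set (↥K ⧸ R.subgroupOf K)), x = a * b) ∧ (∀ x : (↥K ⧸ R.subgroupOf K), ∃ a ∈ Subgroup.normalizer ((Cfsg.inducedFunctor (G := (↥K ⧸ R.subgroupOf K)) W₁ (T : Subgroup (↥K ⧸ R.subgroupOf K)) : Subgroup (↥K ⧸ R.subgroupOf K)) : Set (↥K ⧸ R.subgroupOf K)), ∃ b ∈ Subgroup.normalizer ((Cfsg.inducedFunctor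 (G := (↥K ⧸ R.subgroupOf K)) W₂ (T : Subgroup (↥K ⧸ R.subgroupOf K)) : Subgroup (↥K ⧸ R.subgroupOf K)) : Set (↥K ⧸ R.subgroupOf K)), x = a * b)) (hZ : Cfsg.omegaOne p ((S : Subgroup G) ⊓ Subgroup.centralizer (((S : Subgroup G) : Subgroup G) : Set G)) ≤ Cfsg.inducedFunctor (G := G) W₁ (S : Subgroup G) ⊓ Cfsg.inducedFunctor (G := G) W₂ (S : Subgroup G)) (N₁ : Subgroup G) (hN₁ : N₁ = Subgroup.normalizer ((Cfsg.inducedFunctor (G := G) W₁ (S : Subgroup G) : Subgroup G) : Set G)) (A : Subgroup G) (hA : A = (Subgroup.normalClosure (((Cfsg.omegaOne p ((S : Subgroup G) ⊓ Subgroup.centralizer (((S : Subgroup G) : Subgroup G) : Set G))).subgroupOf N₁ : Subgroup ↥N₁) : Set ↥N₁)).map N₁.subtype) : A ≤ (S : Subgroup G) ∧ Cfsg.IsElementaryAbelian p A ∧ Cfsg.IsStronglyClosed A (S : Subgroup G) ∧ Cfsg.ControlsStrongFusion p A := by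
  open Subgroup Cfsg CfsgH2 Function in
  open scoped commutatorElement in
  open CfsgTF CfsgL0 in
  have hS := syl_top S
  have hO := wOZ_char.{u} (dvd_refl p)
  set Z := omegaOne p Z[(S : Subgroup G)] with eZ
  have zS : (S : Subgroup G) ≤ C[Z] := le_centralizer_iff.1 (omegaOne_le.trans inf_le_right)
  have n1 := cf_le_norm (iw_cf hW₁) hS.pg
  have n2 := cf_le_norm (iw_cf hW₂) hS.pg
  have f1 := fz_of (G := G) hO hW₁ (fun K R _ c T hT x => by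
    obtain ⟨T, rfl⟩ := hT.exists_top
    rw [iw_OZ]; exact (hfac K R (con_top_iff.2 c) T).1 x) _ S (hS.mono n2 le_top) _ iw_le le_rfl
  have f2 := fz_of (G := G) hO hW₂ (fun K R _ c T hT x => by
    obtain ⟨T, rfl⟩ := hT.exists_top
    rw [iw_OZ]; exact (hfac K R (con_top_iff.2 c) T).2.1 x) _ S (hS.mono n1 le_top) _ iw_le le_rfl
  have f3 := fsf_of_con' (G := G) (p := p) (𝓦 := {W₁, W₂}) (by rintro _ (rfl | rfl) <;> assumption) (fun K R _ c =>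
    fsf_of_fac hW₁ hW₂ fun T hT x => by
      obtain ⟨T, rfl⟩ := hT.exists_top
      exact (hfac K R (con_top_iff.2 c) T).2.2 x) G ⊤ (Sec.self ⊤) S hS
  rw [iw_OZ, ← eZ] at f1 f2
  rw [← hN₁] at f1 f2 n1
  replace f1 := f1 (hZ.trans inf_le_right) zS
  replace f2 := f2 (hZ.trans inf_le_left) zS
  rw [inf_comm] at f1
  have al : ∀ D : Subgroup G, Z ≤ D → N₁ ≤ N[D] → A ≤ D := fun D l n => by
    haveI := normal_subgroupOf_of_le_normalizer n
    rw [hA, map_le_iff_le_comap]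
    exact normalClosure_le_normal (N := D.subgroupOf N₁) fun x hx => l hx
  have nA : N₁ ≤ N[A] := hA ▸ le_norm_map_subtype _
  have zA : Z ≤ A := fun z hz => hA ▸ ⟨⟨z, n1 (omegaOne_le hz).1⟩, subset_normalClosure hz, rfl⟩
  set M := N₁ ⊓ N[inducedFunctor W₂ (S : Subgroup G)]
  have nB : ∀ L : Subgroup G, M ≤ L → (∀ x ∈ L, ∃ a ∈ C[Z], ∃ b ∈ M, x = a * b) →
      L ≤ N[closure {y | ∃ z ∈ Z, ∃ b ∈ M, y = b * z * b⁻¹}] := fun L l h x hx => mem_norm_of_map_le (by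
    rw [MonoidHom.map_closure]
    refine closure_mono ?_
    rintro _ ⟨_, ⟨z, hz, b, hb, rfl⟩, rfl⟩
    obtain ⟨a, ha, c, hc, e⟩ := h _ (inv_mem (mul_mem hx (l hb)))
    refine ⟨z, hz, c⁻¹, inv_mem hc, ?_⟩
    calc _ = ((x * b)⁻¹)⁻¹ * z * (x * b)⁻¹ := by rw [cj_apply]; group
      _ = c⁻¹ * (a⁻¹ * (z * a)) * c := by rw [e]; group
      _ = _ := by rw [ha z hz]; group)
  have eB : A = closure {y | ∃ z ∈ Z, ∃ b ∈ M, y = b * z * b⁻¹} := le_antisymm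
    (al _ (fun z hz => subset_closure ⟨z, hz, 1, one_mem _, by simp⟩) (nB _ inf_le_left f2))
    ((closure_le _).2 (by rintro _ ⟨z, hz, b, hb, rfl⟩; exact conj_mem_of_norm (nA hb.1) (zA hz)))
  have aS : A ≤ S := (al _ (hZ.trans inf_le_left) hN₁.le).trans iw_le
  have k : ∀ V ≤ (S : Subgroup G), ∀ g, V.map (CfsgH2.cj g) ≤ S → ∃ n ∈ N[A], n⁻¹ * g ∈ C[V] := fun V hV g hg =>
    (f3 V hV g trivial hg).exists_mem (by
      rintro x ⟨_, ⟨_, rfl | rfl, rfl⟩, hx⟩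
      · exact nA (hN₁.ge hx.2)
      · exact eB ▸ nB _ inf_le_right f1 hx.2)
  refine ⟨aS, elem_of_le (elem_omegaOne (isMulComm_cent_inf _)) (al _ (elem_le_omegaOne (elem_omegaOne
    (isMulComm_cent_inf _)) (le_inf (hZ.trans inf_le_left) ((omegaOne_le.trans inf_le_right).trans
      (cent_anti iw_le)))) (le_norm_omegaOne' (hN₁.le.trans norm_le_norm_center))), ⟨aS, fun x hx g hg => ?_⟩,
    csfu_of hS aS k⟩
  obtain ⟨n, hn, c⟩ := k (zpowers x) (zpowers_le.2 (aS hx)) g (by rwa [MonoidHom.map_zpowers, zpowers_le])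
  rw [show g * x * g⁻¹ = n * (n⁻¹ * g * x) * g⁻¹ by group, ← c x (mem_zpowers x),
    show n * (x * (n⁻¹ * g)) * g⁻¹ = n * x * n⁻¹ by group]
  exact conj_mem_of_norm hn hx

end Cfsg.Agent.S1997
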