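import Cfsg.Statements.S1998
import Cfsg.Agent.H2.SecT

set_option autoImplicit false
universe u
open Cfsg

namespace Cfsg.Agent.S1998
open CfsgH2

/-- Let p be a prime, G a finite group with Sylow p-subgroup S, and 𝓦 a nonempty set of isomorphism-invariant p-group functors (W assigns to every group Q a subgroup W(Q), nontrivial whenever Q is a nontrivial finite p-group, and every isomorphism from a finite p-group Q onto a group R carries W(Q) onto W(R)). Suppose the induced conjugacy functors control transfer in every section of G other than G itself, but not in G. Let T be the subgroup generated by the S ∩ (N_G(W(S)))', W ∈ 𝓦, and M = N_G(T ∩ O_p(G)). Then: C_G(O_p(G)) ≤ O_p(G); M is a proper subgroup of G containing every proper subgroup of G that contains S (the unique maximal subgroup over S); [O_p(G), M] ≤ O_p(G) ∩ M' ≤ O_p(G) ∩ T; and every element u of S outside O_p(G) satisfies [X, u, …, u] ≰ Y with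 p − 1 entries u, for some chief factor X/Y of G with X ≤ O_p(G). -/
theorem result {G : Type u} [Group G] [Finite G] {p : ℕ} [Fact p.Prime] (S : Sylow p G) (𝓦 : Set (∀ (Q : Type u) [Group Q], Subgroup Q)) (h𝓦 : ∀ W ∈ 𝓦, Cfsg.IsCharPFunctor.{u} p W) (hne : 𝓦.Nonempty) (hsec : ∀ (K R : Subgroup G) [hR : (R.subgroupOf K).Normal], (K = ⊤ → R ≠ ⊥) → Cfsg.FamilyControlsTransferIn p ((fun W => Cfsg.inducedFunctor (G := (↥K ⧸ R.subgroupOf K)) W) '' 𝓦) ⊤) (hG : ¬ Cfsg.FamilyControlsTransferIn p ((fun W => Cfsg.inducedFunctor (G := G) W) '' 𝓦) ⊤) (T M : Subgroup G) (hT : T = (⨆ W ∈ 𝓦, (S : Subgroup G) ⊓ ⁅Subgroup.normalizer ((Cfsg.inducedFunctor (G := G) W (S : Subgroup G) : Subgroup G) : Set G), Subgroup.normalizer ((Cfsg.inducedFunctor (G := G) W (S : Subgroup G) : Subgroup G) : Set G)⁆)) (hM : M = Subgroup.normalizer ((T ⊓ Cfsg.pCore p G : Subgroup G) : Set G)) : Subgroup.centralizer ((Cfsg.pCore p G : Subgroup G)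 : Set G) ≤ Cfsg.pCore p G ∧ (M ≠ ⊤ ∧ ∀ H : Subgroup G, (S : Subgroup G) ≤ H → H ≠ ⊤ → H ≤ M) ∧ (⁅Cfsg.pCore p G, M⁆ ≤ Cfsg.pCore p G ⊓ ⁅M, M⁆ ∧ Cfsg.pCore p G ⊓ ⁅M, M⁆ ≤ Cfsg.pCore p G ⊓ T) ∧ ∀ u : G, u ∈ (S : Subgroup G) → u ∉ Cfsg.pCore p G → ∃ U V : Subgroup G, Cfsg.IsChiefFactor U V ∧ U ≤ Cfsg.pCore p G ∧ ¬ Cfsg.iterCommutator U (Subgroup.zpowers u) (p - 1) ≤ V := by
  open Subgroup Function in open scoped commutatorElement in
  obtain ⟨W, hW⟩ := hne
  rw [ftr_iff (if_cf h𝓦)] at hG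
  have hT' : T = tg (IF G 𝓦) ⊤ S := by
    rw [hT, tg, iSup_image]; simp only [top_inf_eq]
  obtain ⟨-, c2, c3, c4, c5⟩ := ftr_min h𝓦 (ps_of_quot (fun _ _ _ _ _ _ _ hf h => h.map h𝓦 hf)
    fun K R _ h => (ftr_iff (if_cf h𝓦)).1 (hsec K R h)) hG (syl_top S)
    (norm_ne_top_of_ftr' h𝓦 hW hG (syl_top S)) pCore_eq' hT' hM
  refine ⟨con_top_iff.2 c2, ⟨fun e => c3.nle e.ge, fun H h1 h2 => c3.max H h1 le_top h2⟩,
    ⟨le_inf (commutator_le_left _ _) (commutator_mono ?_ le_rfl), le_inf inf_le_left c4⟩,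
    fun u h1 h2 => ?_⟩
  · rw [pCore_eq']; exact (syl_top S).pCoreOf_le.trans c3.le
  · obtain ⟨X, Y, x1, x2⟩ := c5 u h1 h2
    exact ⟨X, Y, chf_top_iff.2 x1, x2⟩

end Cfsg.Agent.S1998
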