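import Cfsg.Statements.S2009
import Cfsg.Agent.H3.Hv1

set_option autoImplicit false
open Cfsg

namespace Cfsg.Agent.S2009
open Subgroup CfsgH2 CfsgHv MulAction

/-- Let H be a finite group and z an involution such that every proper normal subgroup of H meets the centralizer of z trivially, and suppose z lies in a Klein four-subgroup E of H all three of whose involutions are conjugate to z in H. Then H is simple. -/
theorem result {H : Type*} [Group H] [Finite H] (z : H) (hz : orderOf z = 2) (hN : ∀ N : Subgroup H, N.Normal → N ≠ ⊤ → N ⊓ Subgroup.centralizer ({z} : Set H) = ⊥) (E : Subgroup H) (hE : IsKleinFour ↥E) (hzE : z ∈ E) (hc : ∀ e ∈ E, e ≠ 1 → IsConj z e) : IsSimpleGroup H := by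
  have z1 := CfsgL0.inv_ne_one hz
  have : Nontrivial H := ⟨⟨z, 1, z1⟩⟩
  refine ⟨fun N hn => ?_⟩
  by_cases hT : N = ⊤
  · exact Or.inr hT
  left
  have h0 := hN N hn hT
  have key : ∀ e ∈ E, e ≠ 1 → ∀ x ∈ N, e * x * e⁻¹ = x⁻¹ := by
    intro e he e1 x hx
    obtain ⟨c, rfl⟩ := isConj_iff.1 (hc e he e1)
    have := inverts_of_fpf (CfsgL0.inv_mul_self hz) (top_le_norm_iff.2 hn (mem_top z)) h0
      (hn.conj_mem _ hx c⁻¹)
    calc _ = c * (z * (c⁻¹ * x * c⁻¹⁻¹) * z⁻¹) * c⁻¹ := by group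
      _ = _ := by rw [this]; group
  obtain ⟨a, ha, a1, az⟩ := klein_other hE z
  have b1 : a * z ≠ 1 := fun h => az (by
    rw [eq_inv_of_mul_eq_one_left h, CfsgL0.inv_inv_eq hz])
  rw [← h0, eq_comm, inf_eq_left]
  intro x hx
  have h1 := key a ha a1 _ (N.inv_mem hx)
  have h2 := key _ (E.mul_mem ha hzE) b1 x hx
  have h3 := key z hzE z1 x hx
  have h4 : x⁻¹ = x := by
    rw [← h2, show a * z * x * (a * z)⁻¹ = a * (z * x * z⁻¹) * a⁻¹ by group, h3, h1, inv_inv]
  rw [h4] at h3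
  rw [mem_centralizer_singleton_iff]
  exact (mul_inv_eq_iff_eq_mul.1 h3).symm


end Cfsg.Agent.S2009
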