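import Cfsg.Statements.S2086
import Cfsg.Agent.H6.SMA

set_option autoImplicit false
open Cfsg

namespace Cfsg.Agent.S2086

/-- Schur multipliers of the linear groups: for n ≥ 2 and a field F with q elements (q ≥ 4 when n = 2), apart from the five exceptional pairs (n, q) = (2, 4), (2, 9), (3, 2), (3, 4), (4, 2), the Schur multiplier of PSL_n(F) is cyclic of order gcd(n, q − 1); here the Schur multiplier is described through stem extensions, as in the definitions. -/
theorem result {F : Type*} [Field F] [Fintype F] {q : ℕ} (hF : Fintype.card F = q) (n : ℕ) (hn : 2 ≤ n) (h2 : n = 2 → 4 ≤ q) (hexc : (n, q) ∉ ({(2, 4), (2, 9), (3, 2), (3, 4), (4, 2)} : Set (ℕ × ℕ))) : Cfsg.HasCyclicSchurMultiplier (Matrix.ProjectiveSpecialLinearGroup (Fin n) F) (Nat.gcd n (q - 1)) := by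
  subst hF
  have h1 := Fintype.one_lt_card (α := F)
  simp only [Set.mem_insert_iff, Set.mem_singleton_iff, Prod.mk.injEq] at hexc
  by_cases h : n = 2
  · subst h
    exact CfsgH6.hasSM_of_split (CfsgH6.perfect_SL2' (h2 rfl))
      (fun _ _ _ X => CfsgH6.split_SL2 (h2 rfl) (by omega) (by omega) X) (QuotientGroup.mk' (Subgroup.center _))
      ⟨QuotientGroup.mk'_surjective _, (QuotientGroup.ker_mk' _).le⟩
      ((MulEquiv.subgroupCongr (QuotientGroup.ker_mk' _)).trans (CfsgH6.center_SL_equiv 2).some)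
  obtain ⟨l, rfl⟩ : ∃ l, n = l + 1 := ⟨n - 1, by omega⟩
  have k : 2 < Fintype.card F → ∃ v : F, v ≠ 0 ∧ v ≠ 1 := fun k => by
    obtain ⟨v, hv⟩ := CfsgH6.exists_eval_ne (F := F) (p := Polynomial.X * (Polynomial.X - 1))
      (Polynomial.Monic.ne_zero (by monicity!)) (n := 2) (by compute_degree) k
    exact ⟨v, by simpa [sub_eq_zero] using hv⟩
  refine CfsgH6.hasSM_PSL (by omega) ?_
  by_cases h4 : 4 ≤ l
  · exact Or.inl h4
  by_cases h3 : l = 3
  · exact Or.inr (Or.inl ⟨h3, k (by omega)⟩)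
  refine Or.inr (Or.inr ⟨by omega, ?_⟩)
  by_cases h5 : Fintype.card F = 3
  · obtain ⟨v, a, b⟩ := k (by omega)
    exact ⟨v, a, by rwa [← h5, FiniteField.pow_card]⟩
  obtain ⟨v, hv⟩ := CfsgH6.exists_eval_ne (F := F) (p := Polynomial.X * (Polynomial.X ^ 3 - 1))
    (Polynomial.Monic.ne_zero (by monicity!)) (n := 4) (by compute_degree) (by omega)
  exact ⟨v, by simpa [sub_eq_zero] using hv⟩

end Cfsg.Agent.S2086
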