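import Cfsg.Statements.S2093
import Mathlib
import Cfsg.Agent.H7.Li.S62

set_option autoImplicit false
open Cfsg

namespace Cfsg.Agent.S2093

/-- Exceptional Schur multiplier: over the field with 2 elements, PSp₆ has Schur multiplier cyclic of order 2 (here the Schur multiplier is described through stem extensions, as in the definitions). -/
theorem result {F : Type*} [Field F] [Fintype F] (hF : Fintype.card F = 2) : Cfsg.HasCyclicSchurMultiplier (Cfsg.PSp 3 F) 2 := by
  exact CfsgH7.S62.schur (CfsgH7.S62.mdlF hF)

end Cfsg.Agent.S2093
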