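import Cfsg.Statements.S2096
import Cfsg.Agent.H6.SMD

set_option autoImplicit false
open Cfsg

namespace Cfsg.Agent.S2096

/-- Schur multipliers of the even-dimensional orthogonal groups of plus type and odd rank: for odd l ≥ 5 and a field F with q elements, the Schur multiplier of PΩ⁺_2l(F) (for the form Σ xᵢyᵢ) is cyclic of order gcd(4, q^l − 1); here the Schur multiplier is described through stem extensions, as in the definitions. -/
theorem result {F : Type*} [Field F] [Fintype F] {q : ℕ} (hF : Fintype.card F = q) (l : ℕ) (hl : 5 ≤ l) (hodd : Odd l) : Cfsg.HasCyclicSchurMultiplier (Cfsg.POmega F (Cfsg.quadFormPlus l F)) (Nat.gcd 4 (q ^ l - 1)) := by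
  subst hF
  have h1 := Fintype.one_lt_card (α := F)
  have h2 : Nat.gcd 4 (Fintype.card F ^ l - 1) = Nat.gcd 4 (Fintype.card F - 1) := by
    obtain ⟨k, rfl⟩ := hodd
    have h3 : Fintype.card F ^ (2 * k + 1) % 4 = Fintype.card F % 4 ∨
        (Fintype.card F ^ (2 * k + 1) % 2 = 0 ∧ Fintype.card F % 2 = 0) := by
      rcases Nat.even_or_odd (Fintype.card F) with h | h
      · exact Or.inr ⟨Nat.even_iff.1 (h.pow_of_ne_zero (by simp)), Nat.even_iff.1 h⟩
      · obtain ⟨c, h⟩ := h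
        rw [pow_succ, pow_mul, h, show (2 * c + 1) ^ 2 = 1 + 4 * (c * c + c) by ring, Nat.mul_mod, Nat.pow_mod]
        simp
    have h4 := Nat.one_le_pow (2 * k + 1) _ h1.le
    generalize Fintype.card F ^ (2 * k + 1) = a at *
    generalize Fintype.card F = b at *
    rw [Nat.gcd_rec, Nat.gcd_rec 4 (b - 1)]
    rcases h3 with h3 | h3
    · rw [show (a - 1) % 4 = (b - 1) % 4 by omega]
    · rcases show (a - 1) % 4 = 1 ∨ (a - 1) % 4 = 3 by omega with h | h <;>
        rcases show (b - 1) % 4 = 1 ∨ (b - 1) % 4 = 3 by omega with h' | h' <;> rw [h, h'] <;> rfl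
  rw [h2]
  obtain ⟨k, hk⟩ := hodd
  let φ : Fˣ →* Fˣ × Fˣ := (powMonoidHom 2).prod (MonoidHom.id _)
  refine CfsgH6.hasSM_D (Or.inl hl) ((powMonoidHom 4).ker.map φ) (fun x y => ⟨?_, fun h => ⟨y, ?_, ?_⟩⟩)
    ((Subgroup.equivMapOfInjective _ φ fun a b e => congrArg Prod.snd e).symm.trans (CfsgH6.ker_pow_equiv F 4).some)
  · rintro ⟨a, h, e⟩
    obtain ⟨rfl, rfl⟩ := Prod.ext_iff.1 e
    have h : (a ^ 2) ^ 2 = 1 := by rw [← pow_mul]; exact h
    exact ⟨h, by simp [φ, hk, pow_succ _ (2 * k), pow_mul, h]⟩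
  · change y ^ (2 * 2) = 1
    rw [pow_mul, h.2, ← pow_mul, mul_comm, pow_mul, h.1, one_pow]
  · simp [φ, h.2, hk, pow_succ _ (2 * k), pow_mul, h.1]

end Cfsg.Agent.S2096
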