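import Cfsg.Statements.S2097
import Cfsg.Agent.H6.SMD

set_option autoImplicit false
open Cfsg

namespace Cfsg.Agent.S2097

/-- Schur multipliers of the even-dimensional orthogonal groups of plus type and even rank: for even l ≥ 4 and a field F with q elements, (l, q) ≠ (4, 2), the Schur multiplier of PΩ⁺_2l(F) (for the form Σ xᵢyᵢ) is the product of two cyclic groups of order gcd(2, q^l − 1) (so trivial for q even and a four-group for q odd; here the Schur multiplier is described through stem extensions, as in the definitions). -/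
theorem result {F : Type*} [Field F] [Fintype F] {q : ℕ} (hF : Fintype.card F = q) (l : ℕ) (hl : 4 ≤ l) (heven : Even l) (hexc : ¬ (l = 4 ∧ q = 2)) : Cfsg.HasSchurMultiplier (Cfsg.POmega F (Cfsg.quadFormPlus l F)) (Multiplicative (ZMod (Nat.gcd 2 (q ^ l - 1)) × ZMod (Nat.gcd 2 (q ^ l - 1)))) := by
  subst hF
  have h1 := Fintype.one_lt_card (α := F)
  have h2 : Nat.gcd 2 (Fintype.card F ^ l - 1) = Nat.gcd 2 (Fintype.card F - 1) := by
    have h3 : Fintype.card F ^ l % 2 = Fintype.card F % 2 := by
      rw [Nat.pow_mod]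
      rcases Nat.mod_two_eq_zero_or_one (Fintype.card F) with h | h <;> simp [h, show l ≠ 0 by omega]
    have h4 := Nat.one_le_pow l _ h1.le
    generalize Fintype.card F ^ l = a at *
    generalize Fintype.card F = b at *
    rw [Nat.gcd_rec, Nat.gcd_rec 2 (b - 1), show (a - 1) % 2 = (b - 1) % 2 by omega]
  rw [h2]
  obtain ⟨k, hk⟩ := heven
  obtain ⟨e⟩ := CfsgH6.ker_pow_equiv F 2
  generalize Nat.gcd 2 (Fintype.card F - 1) = d at e
  have e1 : ((powMonoidHom 2 : Fˣ →* Fˣ).ker.prod (powMonoidHom 2 : Fˣ →* Fˣ).ker) ≃* Multiplicative (ZMod d × ZMod d) :=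
    ((Subgroup.prodEquiv _ _).trans (e.prodCongr e)).trans (MulEquiv.prodMultiplicative (ZMod d) (ZMod d)).symm
  refine CfsgH6.hasSM_D ?_ _ (fun x y => ?_) e1
  · by_cases h : l = 4
    · obtain ⟨v, hv⟩ := CfsgH6.exists_eval_ne (F := F) (p := Polynomial.X * (Polynomial.X - 1))
        (Polynomial.Monic.ne_zero (by monicity!)) (n := 2) (by compute_degree) (by omega)
      exact Or.inr ⟨h, v, by simpa [sub_eq_zero] using hv⟩
    · omega
  · change x ^ 2 = 1 ∧ y ^ 2 = 1 ↔ _
    refine and_congr_right fun h => ?_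
    rw [hk, ← two_mul, pow_mul, h, one_pow]

end Cfsg.Agent.S2097
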