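import Cfsg.Statements.S2103
import Cfsg.Agent.H6.Univ3

set_option autoImplicit false
open Cfsg

namespace Cfsg.Agent.S2103

/-- Schur multipliers of the Chevalley groups of type F₄: over a finite field with more than 2 elements the Schur multiplier of F₄(q) is trivial (here the Schur multiplier is described through stem extensions, as in the definitions); q = 2 is exceptional. -/
theorem result {F : Type*} [Field F] [Fintype F] (hF : 3 ≤ Fintype.card F) : Cfsg.HasCyclicSchurMultiplier ↥(Cfsg.Lie.chevF4.group F) 1 := by
  have h : ∃ a : F, a ≠ 0 ∧ a ≠ 1 := by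
    classical
    by_contra! h
    have : (Finset.univ : Finset F) ⊆ {0, 1} := fun a _ => by by_cases e : a = 0 <;> simp [e, h a]
    have := (Finset.card_le_card this).trans Finset.card_le_two
    rw [Finset.card_univ] at this; omega
  exact (CfsgH6.hasSM_chev (by simp) (fun e => absurd (congrArg Cfsg.Lie.ChevalleyDatum.rank e) (by decide))
    (fun _ => h) (CfsgH6.card_ker_F4 _) (Or.inl rfl)).1

end Cfsg.Agent.S2103
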