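import Cfsg.Statements.S2107
import Cfsg.Agent.H6.Univ3

set_option autoImplicit false
open Cfsg

namespace Cfsg.Agent.S2107

/-- Schur multipliers of the Chevalley groups of type E₈: over every finite field the Schur multiplier of E₈(q) is trivial (here the Schur multiplier is described through stem extensions, as in the definitions). -/
theorem result {F : Type*} [Field F] [Fintype F] : Cfsg.HasCyclicSchurMultiplier ↥(Cfsg.Lie.chevE8.group F) 1 := by
  exact (CfsgH6.hasSM_chev (by simp) (fun e => absurd (congrArg Cfsg.Lie.ChevalleyDatum.rank e) (by decide))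
    (fun e => absurd (e.imp (congrArg Cfsg.Lie.ChevalleyDatum.rank) (Or.imp (congrArg Cfsg.Lie.ChevalleyDatum.rank)
      (congrArg Cfsg.Lie.ChevalleyDatum.rank))) (by decide)) (CfsgH6.card_ker_E8 _) (Or.inl rfl)).1

end Cfsg.Agent.S2107
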