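import Cfsg.Statements.S2117
import Cfsg.Agent.H6.SM3

set_option autoImplicit false
open Cfsg

namespace Cfsg.Agent.S2117

/-- For a finite field with q elements, q ≠ 4 and q ≠ 9, the special linear group SL₂ has trivial Schur multiplier (here the Schur multiplier is described through stem extensions, as in the definitions). -/
theorem result {F : Type*} [Field F] [Fintype F] (h4 : Fintype.card F ≠ 4) (h9 : Fintype.card F ≠ 9) : Cfsg.HasCyclicSchurMultiplier (Matrix.SpecialLinearGroup (Fin 2) F) 1 := by
  have h1 := Fintype.one_lt_card (α := F)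
  by_cases h2 : Fintype.card F = 2
  · exact CfsgH1.SM.hasSM_congr (CfsgH8.sl_congr (by rw [h2, ZMod.card])).some CfsgH6.sm_SL2_two
  by_cases h3 : Fintype.card F = 3
  · exact CfsgH1.SM.hasSM_congr (CfsgH8.sl_congr (by rw [h3, ZMod.card])).some CfsgH6.sm_SL2_three
  exact CfsgH6.hasSM_of_split (CfsgH6.perfect_SL2' (by omega)) (fun _ _ _ X => CfsgH6.split_SL2 (by omega) h4 h9 X)
    (MonoidHom.id _) ⟨Function.surjective_id, by simp⟩ (CfsgH6.cyc_equiv (by simp) (Or.inl rfl)).some

end Cfsg.Agent.S2117
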