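import Cfsg.Statements.S2127
import Cfsg.Agent.H6.Ree8
import Cfsg.Agent.H6.FieldTw

set_option autoImplicit false
open Cfsg

namespace Cfsg.Agent.S2127

open CfsgH6 CfsgH2 Subgroup Cfsg.Lie

/-- Outer automorphisms of the small Ree groups: for q = 3^(2m+1) with m ≥ 1 the outer automorphism group of ²G₂(q) has order 2m + 1 (field automorphisms only). -/
theorem result {K : Type*} [Field K] [Fintype K] {m : ℕ} (hm : 1 ≤ m) (hK : Fintype.card K = 3 ^ (2 * m + 1)) : Nat.card (Cfsg.Out ↥(Cfsg.Lie.twistedG2 K (3 ^ m))) = 2 * m + 1 := by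
  obtain ⟨X, h1, h2, h3, -⟩ := exists_ree hK
  haveI := X.finite
  refine X.card_out hm fun σ => ?_
  obtain ⟨θ, h⟩ := goodG2.exists_fieldAut (σ : K →+* K) (S := g2Words K (3 ^ m)) (by
    rintro _ ⟨t, u, v, rfl | rfl⟩
    exacts [⟨σ t, σ u, σ v, Or.inl (by simp [reeWordU])⟩,
      ⟨σ t, σ u, σ v, Or.inr (by simp [reeWordV, reeWordU, ChevalleyDatum.negWord])⟩])
  refine ⟨θ, mem_A2 (fun u hu => (h1 _).1 (h u ▸ goodG2.map_US _ ((h1 u).2 hu))) fun u ⟨a, e⟩ =>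
    ((h2 _).1 (h u ▸ goodG2.map_HH _ ((h2 u).2 ⟨a, e.symm⟩))).imp fun _ => Eq.symm, fun v => Subtype.ext ((h _).trans ?_)⟩
  rw [h3, h3, goodG2.map_word]
  simp [reeWordU]

end Cfsg.Agent.S2127
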