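import Cfsg.Statements.S2128
import Cfsg.Agent.H6.OutF4

set_option autoImplicit false
open Cfsg

namespace Cfsg.Agent.S2128

/-- Outer automorphisms of the large Ree groups: for q = 2^(2m+1) with m ≥ 1 the outer automorphism group of ²F₄(q) has order 2m + 1 (field automorphisms only). -/
theorem result {K : Type*} [Field K] [Fintype K] {m : ℕ} (hm : 1 ≤ m) (hK : Fintype.card K = 2 ^ (2 * m + 1)) : Nat.card (Cfsg.Out ↥(Cfsg.Lie.twistedF4 K (2 ^ m))) = 2 * m + 1 := by
  obtain ⟨hc, φ, hφ⟩ := CfsgH6.exists_theta Nat.prime_two hK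
  rw [CfsgH6.twistedF4_eq hφ hK, CfsgH6.outF4 hφ hK hm, CfsgH6.card_ringAut hK]

end Cfsg.Agent.S2128
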