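import Cfsg.Statements.S2129
import Cfsg.Agent.H6.OutTw2

set_option autoImplicit false
open Cfsg

namespace Cfsg.Agent.S2129

/-- Outer automorphisms of the triality-twisted groups: for q = p^f (p prime), with the group realised over the field with q³ elements, the outer automorphism group of ³D₄(q) has order 3f (the field automorphisms of the cubic extension). -/
theorem result {K : Type*} [Field K] [Fintype K] (p f : ℕ) [Fact p.Prime] [CharP K p] (hK : Fintype.card K = p ^ (3 * f)) (hf : 1 ≤ f) : Nat.card (Cfsg.Out ↥(Cfsg.Lie.twistedD4 K (p ^ f))) = 3 * f := by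
  obtain ⟨φ, hφ⟩ := CfsgH6.exists_frob (K := K) (q := p ^ f) (k := 2)
    ((Fact.out : p.Prime).isPrimePow.pow (by omega)) (by rw [hK, ← pow_mul, mul_comm])
  have h : Fintype.card K = (p ^ f) ^ 3 := by rw [hK, ← pow_mul, mul_comm]
  rw [CfsgH6.twistedD4_eq hφ h, CfsgH6.outD4 hφ h, CfsgH6.card_ringAut hK]

end Cfsg.Agent.S2129
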