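import Cfsg.Statements.S2136
import Mathlib
import Cfsg.Agent.H7.Xs.Co2

set_option autoImplicit false
open Cfsg

namespace Cfsg.Agent.S2136

open CfsgH7 CfsgH7.Co2.Xs

/-- The Conway group Co₂ (the stabiliser of a minimal vector of the rank-24 lattice) has an involution whose centraliser C has largest normal 2-subgroup extraspecial of order 2^9 with quotient C / O₂(C) isomorphic to the symplectic group Sp(6, 2) (shape 2^{1+8}Sp(6, 2)). -/
theorem result : ∃ t : ↥Cfsg.Spor.Co2, orderOf t = 2 ∧ Cfsg.IsExtraspecial 2 (Cfsg.pCore 2 ↥(Subgroup.centralizer ({t} : Set ↥Cfsg.Spor.Co2))) ∧ Nat.card (Cfsg.pCore 2 ↥(Subgroup.centralizer ({t} : Set ↥Cfsg.Spor.Co2))) = 2 ^ 9 ∧ Nonempty (↥(Subgroup.centralizer ({t} : Set ↥Cfsg.Spor.Co2)) ⧸ Cfsg.pCore 2 ↥(Subgroup.centralizer ({t} : Set ↥Cfsg.Spor.Co2)) ≃* Matrix.symplecticGroup (Fin 3) (ZMod 2)) := by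
  obtain ⟨_, -, -, -, h1, h2, h3, h4, -⟩ := xX
  have h5 : Mdl (Matrix.symplecticGroup (Fin 3) (ZMod 2)) 3 S62.Rf 1451520 := (S62.mdlF (by simp)).unq (by
    have h1 := Cfsg.Agent.S0245.result (F := ZMod 2) (q := 2) (by simp) 3
    simp only [Finset.prod_range_succ, Finset.prod_range_zero] at h1
    rw [h1]; norm_num) (by norm_num)
  exact ⟨_, xz2, h4 ▸ h2, h4 ▸ h1, (Mdl.iso S62.pr h3 h5).elim fun e => ⟨(QuotientGroup.quotientMulEquivOfEq h4).trans e⟩⟩

end Cfsg.Agent.S2136
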