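import Cfsg.Statements.S2154
import Cfsg.Agent.H6.Cent
import Cfsg.Agent.H6.GoodAll

set_option autoImplicit false
open Cfsg

namespace Cfsg.Agent.S2154

/-- The Borel–Tits property of the finite Chevalley groups of types G₂, B₂, D₄, F₄, E₆, E₇, E₈ over a finite field of characteristic p: for every non-trivial p-subgroup U of the group G there are an element g of G and a proper set J of fundamental roots such that the normaliser of U in G lies in the conjugate by g of the standard parabolic subgroup P_J and U lies in the conjugate by g of its unipotent radical U_J. -/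
theorem result {F : Type*} [Field F] [Fintype F] (p : ℕ) [Fact p.Prime] [CharP F p] (D : Cfsg.Lie.ChevalleyDatum) (hD : D ∈ [Cfsg.Lie.chevG2, Cfsg.Lie.chevB2, Cfsg.Lie.chevD4, Cfsg.Lie.chevF4, Cfsg.Lie.chevE6, Cfsg.Lie.chevE7, Cfsg.Lie.chevE8]) (U : Subgroup (GL D.Idx F)) (hUG : U ≤ D.group F) (hU : IsPGroup p ↥U) (hne : U ≠ ⊥) : ∃ g ∈ D.group F, ∃ J : Set ℕ, (∃ i, i < D.rank ∧ i ∉ J) ∧ Subgroup.normalizer (U : Set (GL D.Idx F)) ⊓ D.group F ≤ (D.parabolicSubgroup F J).map (MulAut.conj g).toMonoidHom ∧ U ≤ (D.unipotentRadical F J).map (MulAut.conj g).toMonoidHom := by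
  obtain ⟨G⟩ := CfsgH6.good_of_mem hD
  rw [G.group_eq] at hUG ⊢
  obtain ⟨g, hg, h1⟩ := G.exists_conj_U p hU hUG
  obtain ⟨g', hg', J, h2, h3⟩ := (G.gl F).borel_tits (X := (fun a => g * a * g⁻¹) '' U) (by
    rintro _ ⟨a, ha, rfl⟩; exact h1 a ha)
  have e : {i : Fin D.rank | (i : ℕ) ∈ Fin.val '' J} = J := Set.preimage_image_eq _ Fin.val_injective
  refine ⟨(g' * g)⁻¹, inv_mem (mul_mem hg' hg), Fin.val '' J, ?_, fun n hn => ?_, fun a ha => ?_⟩
  · by_contra h
    have : J = Set.univ := Set.eq_univ_of_forall fun i => by_contra fun hi => h ⟨i, i.2, fun h => hi (e ▸ h)⟩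
    rw [this, CfsgH6.Cover.rad_univ, CfsgH6.Cover.US_empty] at h2
    exact hne ((Subgroup.eq_bot_iff_forall _).2 fun a ha => by simpa using h2 _ ⟨a, ha, rfl⟩)
  · rw [G.parabolic_eq, e]
    refine ⟨_, h3 (g * n * g⁻¹) (mul_mem (mul_mem hg hn.2) (inv_mem hg)) ?_, by simp [mul_assoc]⟩
    rintro _ ⟨a, ha, rfl⟩
    exact ⟨_, (Subgroup.mem_normalizer_iff.1 hn.1 a).1 ha, by group⟩
  · rw [G.radical_eq, e]
    exact ⟨_, h2 _ ⟨a, ha, rfl⟩, by simp [mul_assoc]⟩

end Cfsg.Agent.S2154
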