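import Cfsg.Statements.S2155
import Cfsg.Agent.H6.Cent
import Cfsg.Agent.H6.SimpleAll2
import Cfsg.Agent.H9.Comp2

set_option autoImplicit false
open Cfsg

namespace Cfsg.Agent.S2155

/-- In a Chevalley group of type G₂, B₂, D₄, F₄, E₆, E₇ or E₈ over a finite field of characteristic p (for types G₂ and B₂ the field is assumed to have at least 3 elements, so that the group is simple), the generalized Fitting subgroup of every proper standard parabolic subgroup P_J is a p-group (P_J is p-constrained with trivial largest normal subgroup of order prime to p). -/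
theorem result {F : Type*} [Field F] [Fintype F] (p : ℕ) [Fact p.Prime] [CharP F p] (D : Cfsg.Lie.ChevalleyDatum) (hD : D ∈ [Cfsg.Lie.chevG2, Cfsg.Lie.chevB2, Cfsg.Lie.chevD4, Cfsg.Lie.chevF4, Cfsg.Lie.chevE6, Cfsg.Lie.chevE7, Cfsg.Lie.chevE8]) (hq : (D = Cfsg.Lie.chevG2 ∨ D = Cfsg.Lie.chevB2) → 3 ≤ Fintype.card F) (J : Set ℕ) (hJ : ∃ i, i < D.rank ∧ i ∉ J) : IsPGroup p ↥(Cfsg.generalizedFittingSubgroup ↥(D.parabolicSubgroup F J)) := by
  obtain ⟨G⟩ := CfsgH6.good_of_mem hD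
  obtain ⟨rk, hc⟩ := CfsgH6.conn_of_mem' hD
  obtain ⟨i, hi, hi'⟩ := hJ
  rw [G.parabolic_eq]
  generalize hK : {i : Fin D.rank | (i : ℕ) ∈ J} = K
  have h1 := CfsgH9.chP_of_le_isPGroup (p := p) (H := (G.gl F).PJ K) (Q := (G.gl F).US (G.radJ K))
    (CfsgH9.le_Op (CfsgH9.Sn.of_normal ((G.gl F).rad_sup_levi K ▸ le_sup_left)
      ((G.gl F).PJ_le_normalizer K)) ((G.gl F).isPGroup_US p (G.nil_radJ K)))
    (((G.gl F).isPGroup_US p G.nil_pos).to_le fun g hg => (G.gl F).mem_U_of_cent (fun _ _ h => h) hc (J := K)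
      ⟨⟨i, hi⟩, by rw [← hK]; exact hi'⟩ ((G.gl F).PJ_le_Gr K hg.1) fun v hv => by rw [← hg.2 v hv]; simp)
  exact (CfsgH9.chP_iff_isPGroup.1 h1).of_equiv (Subgroup.equivMapOfInjective _ _ (Subgroup.subtype_injective _)).symm

end Cfsg.Agent.S2155
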