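import Cfsg.Statements.S2161
import Cfsg.Agent.H6.GoodAll
import Cfsg.Agent.H6.Sylow

set_option autoImplicit false
open Cfsg

namespace Cfsg.Agent.S2161

open Cfsg.Lie CfsgH6 in
theorem aux {F : Type*} [Field F] {D : ChevalleyDatum} (G : Good D) (π : Equiv.Perm (Fin D.rank))
    (hπ : ∀ i j : Fin D.rank, D.cartan (π i) (D.simple (π j)) = D.cartan i (D.simple j))
    (φ : ↥(D.group F) ≃* ↥(D.group F)) (h1 : ∀ i t, φ ((G.grp F).x (G.sm i) t) = (G.grp F).x (G.sm (π i)) t)
    (h2 : ∀ i t, φ ((G.grp F).x (G.sm i).rev t) = (G.grp F).x (G.sm (π i)).rev t) (r : Fin D.nroots) :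
    ∃ (ε : F) (s : Fin D.nroots), (ε = 1 ∨ ε = -1) ∧ (∀ t, φ ((G.grp F).x r t) = (G.grp F).x s (ε * t)) ∧
      D.permRoot π r = s := by
  have key : ∀ (l : List (Fin D.rank)) i, ∃ (ε : F) (s : Fin D.nroots), (ε = 1 ∨ ε = -1) ∧
      (∀ t, φ ((G.grp F).x (wp G.σ l (G.sm i)) t) = (G.grp F).x s (ε * t)) ∧
      ∀ j, cov D s (π j) = cov D (wp G.σ l (G.sm i)) j := fun l i => by
    induction l with
    | nil => exact ⟨1, G.sm (π i), Or.inl rfl, by simp [h1], fun j => by simp [G.cov_sm]⟩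
    | cons a l ih =>
      obtain ⟨ε, s, hε, h3, h4⟩ := ih
      rw [wp_cons, Equiv.Perm.mul_apply]
      generalize wp G.σ l (G.sm i) = r at h3 h4
      refine ⟨G.η (G.sm (π a)) s * ε * G.η (G.sm a) r, G.σ (π a) s, ?_, fun t => ?_, fun j => ?_⟩
      · rcases G.η_eq (G.sm (π a)) s with e | e <;> rcases G.η_eq (G.sm a) r with e' | e' <;>
          rcases hε with rfl | rfl <;> simp [e, e']
      · have h5 := (G.grp F).n_conj_sm a one_ne_zero r (G.η (G.sm a) r * t)
        have h6 : φ ((G.grp F).n (G.sm a) 1) = (G.grp F).n (G.sm (π a)) 1 := by simp [Cover.n, h1, h2]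
        rw [one_zpow, mul_one, ← mul_assoc, ← Int.cast_mul, G.η_sq, Int.cast_one, one_mul, G.rf_sm] at h5
        rw [← h5, map_mul, map_mul, map_inv, h6, h3, (G.grp F).n_conj_sm _ one_ne_zero, G.rf_sm]
        congr 1
        simp [mul_assoc]
      · rw [G.cov_σ, G.cov_σ, h4]
        congr 1
        simp only [EmbeddingLike.apply_eq_iff_eq, Good.A, G.sm_val]
        rw [← Equiv.sum_comp π]
        simp only [h4, hπ]
  obtain ⟨w, hw, i, rfl⟩ := G.exists_W_sm r
  obtain ⟨l, rfl⟩ := G.exists_wp hw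
  obtain ⟨ε, s, hε, h3, h4⟩ := key l i
  refine ⟨ε, s, hε, h3, ?_⟩
  generalize wp G.σ l (G.sm i) = r at h4
  unfold ChevalleyDatum.permRoot
  have h5 : ∀ k : Fin D.nroots, (∀ j, cov D k (π j) = cov D r j) → k = s := fun k hk => by
    have h6 : ∀ j, cov D k j = cov D s j := fun j => by rw [← π.apply_symm_apply j, hk, h4]
    have h7 : ∀ j, G.len s * G.vec k j = G.len k * G.vec s j := fun j => by
      have a1 := G.cov_len k j
      have a2 := G.cov_len s j
      refine mul_right_cancel₀ (G.len_pos (G.sm j)).ne' ?_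
      rw [h6] at a1
      linear_combination G.len k * a2 - G.len s * a1
    refine (G.eq_or_rev_of_smul (G.len_pos s).ne' h7).resolve_right ?_
    rintro rfl
    obtain ⟨j, hj⟩ := G.vec_ne_zero s
    have := h6 j
    rw [G.cov_rev] at this
    exact hj ((G.cov_eq_zero_iff s j).1 (by omega))
  cases e : (List.range D.nroots).find? fun s => (List.finRange D.rank).all fun i =>
      (D.coroot.getD s #[]).getD (π i).val 0 == (D.coroot.getD r #[]).getD i.val 0 with
  | none =>
    have := List.find?_eq_none.1 e s (List.mem_range.2 s.2)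
    simp only [List.all_eq_true, beq_iff_eq] at this
    exact absurd (fun j _ => h4 j) this
  | some k =>
    have h6 := List.find?_some e
    simp only [List.all_eq_true, beq_iff_eq] at h6
    exact congrArg Fin.val (h5 ⟨k, List.mem_range.1 (List.mem_of_find?_eq_some e)⟩ fun j => h6 j (List.mem_finRange j))

set_option maxRecDepth 100000 in

/-- For the Chevalley groups of types D₄ and E₆ (one root length) over any field: if `π` is a symmetry of the Dynkin diagram and `φ` is an automorphism sending `x_{p_i}(t)` to `x_{p_{π i}}(t)` and `x_{-p_i}(t)` to `x_{-p_{π i}}(t)` for every fundamental root `p_i`, then for every root `r` there is a sign `ε = ±1` with `φ(x_r(t)) = x_{π·r}(ε t)` for all `t`, where `π·r` is the root whose coefficients are those of `r` permuted by `π`. -/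
theorem result {F : Type*} [Field F] (D : Cfsg.Lie.ChevalleyDatum) (hD : D ∈ [Cfsg.Lie.chevD4, Cfsg.Lie.chevE6])
    (π : Equiv.Perm (Fin D.rank)) (hπ : D.IsDiagramSymmetry π) (φ : ↥(D.group F) ≃* ↥(D.group F))
    (hφ : ∀ (g : ↥(D.group F)) (i : Fin D.rank) (t : F),
      (((g : GL D.Idx F) : Matrix D.Idx D.Idx F) = D.x F (D.simple i) t →
        ((φ g : GL D.Idx F) : Matrix D.Idx D.Idx F) = D.x F (D.simple (π i)) t) ∧
      (((g : GL D.Idx F) : Matrix D.Idx D.Idx F) = D.x F (D.neg (D.simple i)) t →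
        ((φ g : GL D.Idx F) : Matrix D.Idx D.Idx F) = D.x F (D.neg (D.simple (π i))) t))
    (r : ℕ) (hr : r < D.nroots) :
    ∃ ε : F, (ε = 1 ∨ ε = -1) ∧ ∀ (g : ↥(D.group F)) (t : F),
      ((g : GL D.Idx F) : Matrix D.Idx D.Idx F) = D.x F r t →
        ((φ g : GL D.Idx F) : Matrix D.Idx D.Idx F) = D.x F (D.permRoot π r) (ε * t) := by
  have hD' : D ∈ [Lie.chevG2, Lie.chevB2, Lie.chevD4, Lie.chevF4, Lie.chevE6, Lie.chevE7, Lie.chevE8] := by
    simp only [List.mem_cons, List.not_mem_nil, or_false] at hD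
    rcases hD with rfl | rfl <;> simp
  have hc : ∀ i j : Fin D.rank, (i = j → D.cartan i (D.simple j) = 2) ∧
      (i ≠ j → D.cartan i (D.simple j) = - D.bonds i j) := by
    simp only [List.mem_cons, List.not_mem_nil, or_false] at hD
    rcases hD with rfl | rfl <;> decide +kernel
  obtain ⟨G⟩ := CfsgH6.good_of_mem hD'
  lift r to Fin D.nroots using hr
  obtain ⟨ε, s, hε, h1, h2⟩ := aux G π (fun i j => by
    by_cases e : i = j
    · rw [(hc i j).1 e, (hc _ _).1 (congrArg π e)]
    · rw [(hc i j).2 e, (hc _ _).2 (π.injective.ne e), hπ i j e]) φ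
    (fun i t => G.eq_grp_x.2 (by rw [G.sm_val]; exact (hφ _ i t).1 (by rw [← G.sm_val]; exact G.eq_grp_x.1 rfl)))
    (fun i t => G.eq_grp_x.2 (by
      rw [← G.neg_val, G.sm_val]; exact (hφ _ i t).2 (by rw [← G.sm_val, G.neg_val]; exact G.eq_grp_x.1 rfl))) r
  refine ⟨ε, hε, fun g t hg => ?_⟩
  rw [G.eq_grp_x.2 hg, h1, h2]
  exact G.eq_grp_x.1 rfl

end Cfsg.Agent.S2161
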