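import Mathlib
import Cfsg.Statements.S2298
import Cfsg.Agent.H8.GL2e

set_option autoImplicit false
open Cfsg

namespace Cfsg.Agent.S2298

open CfsgH8 CfsgH3

/-- Over a finite field F with q elements, every irreducible complex character of GL₂ has degree 1, q − 1, q or q + 1; and when q ≥ 3 (so that these four numbers are distinct) there are exactly q − 1 irreducible characters of degree 1, exactly q − 1 of degree q, exactly (q − 1)(q − 2)/2 of degree q + 1 and exactly q(q − 1)/2 of degree q − 1. -/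
theorem result {F : Type*} [Field F] [Fintype F] :
    (∀ χ : Matrix.GeneralLinearGroup (Fin 2) F → ℂ, Cfsg.IsIrrCharacter (Matrix.GeneralLinearGroup (Fin 2) F) χ →
      χ 1 = 1 ∨ χ 1 = (Fintype.card F : ℂ) - 1 ∨ χ 1 = (Fintype.card F : ℂ) ∨ χ 1 = (Fintype.card F : ℂ) + 1) ∧
    (3 ≤ Fintype.card F →
      Nat.card {χ : Cfsg.IrrCharacter (Matrix.GeneralLinearGroup (Fin 2) F) // (χ : Matrix.GeneralLinearGroup (Fin 2) F → ℂ) 1 = 1} = Fintype.card F - 1 ∧
      Nat.card {χ : Cfsg.IrrCharacter (Matrix.GeneralLinearGroup (Fin 2) F) // (χ : Matrix.GeneralLinearGroup (Fin 2) F → ℂ) 1 = (Fintype.card F : ℂ)} = Fintype.card F - 1 ∧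
      Nat.card {χ : Cfsg.IrrCharacter (Matrix.GeneralLinearGroup (Fin 2) F) // (χ : Matrix.GeneralLinearGroup (Fin 2) F → ℂ) 1 = (Fintype.card F : ℂ) + 1} = (Fintype.card F - 1) * (Fintype.card F - 2) / 2 ∧
      Nat.card {χ : Cfsg.IrrCharacter (Matrix.GeneralLinearGroup (Fin 2) F) // (χ : Matrix.GeneralLinearGroup (Fin 2) F → ℂ) 1 = (Fintype.card F : ℂ) - 1} = Fintype.card F * (Fintype.card F - 1) / 2) := by
  classical
  obtain ⟨g0, h0⟩ := exists_ell (F := F)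
  refine ⟨fun χ hχ => ?_, fun hq => ?_⟩
  · rcases irr_GL2 h0 hχ with ⟨α, rfl⟩ | ⟨α, rfl⟩ | ⟨α, β, h, rfl⟩ | ⟨θ, h, rfl⟩
    · exact Or.inl (Lin_one α)
    · exact Or.inr (Or.inr (Or.inl (St_one α)))
    · exact Or.inr (Or.inr (Or.inr (PS_one α β)))
    · exact Or.inr (Or.inl (Cusp_one h0 θ))
  have hq' : ∀ k : ℕ, k < 3 → (Fintype.card F : ℂ) ≠ k := fun k hk h => by
    have : Fintype.card F = k := by exact_mod_cast h
    omega
  have h0' := hq' 0 (by norm_num)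
  have h1' := hq' 1 (by norm_num)
  have h2' := hq' 2 (by norm_num)
  simp only [Nat.cast_zero, Nat.cast_one, Nat.cast_ofNat] at h0' h1' h2'
  refine ⟨?_, ?_, ?_, ?_⟩
  · rw [← card_setLin]
    refine card_irr_eq_card_finset (fun χ => χ 1 = 1) _ fun χ => ⟨fun h => ?_, fun ⟨hχ, h⟩ => ?_⟩
    · obtain ⟨α, rfl⟩ := mem_setLin.1 h
      exact ⟨isIrr_Lin α, Lin_one α⟩
    · rcases irr_GL2 h0 hχ with ⟨α, rfl⟩ | ⟨α, rfl⟩ | ⟨α, β, -, rfl⟩ | ⟨θ, -, rfl⟩
      · exact mem_setLin.2 ⟨α, rfl⟩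
      · exact absurd ((St_one α).symm.trans h) h1'
      · exact absurd (by linear_combination (PS_one α β).symm.trans h) h0'
      · exact absurd (by linear_combination (Cusp_one h0 θ).symm.trans h) h2'
  · rw [← card_setSt]
    refine card_irr_eq_card_finset (fun χ => χ 1 = Fintype.card F) _ fun χ =>
      ⟨fun h => ?_, fun ⟨hχ, h⟩ => ?_⟩
    · obtain ⟨α, rfl⟩ := mem_setSt.1 h
      exact ⟨isIrr_St α, St_one α⟩
    · rcases irr_GL2 h0 hχ with ⟨α, rfl⟩ | ⟨α, rfl⟩ | ⟨α, β, -, rfl⟩ | ⟨θ, -, rfl⟩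
      · exact absurd (h.symm.trans (Lin_one α)) h1'
      · exact mem_setSt.2 ⟨α, rfl⟩
      · simp [PS_one] at h
      · simp [Cusp_one h0] at h
  · rw [← card_setPS, Nat.mul_div_cancel_left _ two_pos]
    refine card_irr_eq_card_finset (fun χ => χ 1 = Fintype.card F + 1) _ fun χ =>
      ⟨fun h => ?_, fun ⟨hχ, h⟩ => ?_⟩
    · obtain ⟨α, β, h2, rfl⟩ := mem_setPS.1 h
      exact ⟨isIrr_PS h2, PS_one α β⟩
    · rcases irr_GL2 h0 hχ with ⟨α, rfl⟩ | ⟨α, rfl⟩ | ⟨α, β, h', rfl⟩ | ⟨θ, -, rfl⟩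
      · exact absurd (by linear_combination h.symm.trans (Lin_one α)) h0'
      · simp [St_one] at h
      · exact mem_setPS.2 ⟨α, β, h', rfl⟩
      · exact absurd (by linear_combination (Cusp_one h0 θ).symm.trans h : (-2 : ℂ) = 0) (by norm_num)
  · rw [← card_setCusp h0, Nat.mul_div_cancel_left _ two_pos]
    refine card_irr_eq_card_finset (fun χ => χ 1 = Fintype.card F - 1) _ fun χ =>
      ⟨fun h => ?_, fun ⟨hχ, h⟩ => ?_⟩
    · obtain ⟨θ, h2, rfl⟩ := (mem_setCusp h0).1 h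
      exact ⟨isIrr_Cusp h0 h2, Cusp_one h0 θ⟩
    · rcases irr_GL2 h0 hχ with ⟨α, rfl⟩ | ⟨α, rfl⟩ | ⟨α, β, -, rfl⟩ | ⟨θ, h', rfl⟩
      · exact absurd (by linear_combination h.symm.trans (Lin_one α)) h2'
      · exact absurd (by linear_combination (St_one α).symm.trans h : (1 : ℂ) = 0) (by norm_num)
      · exact absurd (by linear_combination (PS_one α β).symm.trans h : (2 : ℂ) = 0) (by norm_num)
      · exact (mem_setCusp h0).2 ⟨θ, h', rfl⟩

end Cfsg.Agent.S2298
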