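import Mathlib
import Cfsg.Statements.S2300
import Cfsg.Agent.H8.SL2d

set_option autoImplicit false
open Cfsg

namespace Cfsg.Agent.S2300

open CfsgH8 CfsgH3

/-- Over a finite field F with q elements, q even, every irreducible complex character of SL₂ has degree 1, q − 1, q or q + 1; and when q ≥ 4 (so that these four numbers are distinct) there are exactly one irreducible character of degree 1, one of degree q, (q − 2)/2 of degree q + 1 and q/2 of degree q − 1. -/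
theorem result {F : Type*} [Field F] [Fintype F] [CharP F 2] :
    (∀ χ : Matrix.SpecialLinearGroup (Fin 2) F → ℂ, Cfsg.IsIrrCharacter (Matrix.SpecialLinearGroup (Fin 2) F) χ →
      χ 1 = 1 ∨ χ 1 = (Fintype.card F : ℂ) - 1 ∨ χ 1 = (Fintype.card F : ℂ) ∨ χ 1 = (Fintype.card F : ℂ) + 1) ∧
    (4 ≤ Fintype.card F →
      Nat.card {χ : Cfsg.IrrCharacter (Matrix.SpecialLinearGroup (Fin 2) F) // (χ : Matrix.SpecialLinearGroup (Fin 2) F → ℂ) 1 = 1} = 1 ∧
      Nat.card {χ : Cfsg.IrrCharacter (Matrix.SpecialLinearGroup (Fin 2) F) // (χ : Matrix.SpecialLinearGroup (Fin 2) F → ℂ) 1 = (Fintype.card F : ℂ)} = 1 ∧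
      Nat.card {χ : Cfsg.IrrCharacter (Matrix.SpecialLinearGroup (Fin 2) F) // (χ : Matrix.SpecialLinearGroup (Fin 2) F → ℂ) 1 = (Fintype.card F : ℂ) + 1} = (Fintype.card F - 2) / 2 ∧
      Nat.card {χ : Cfsg.IrrCharacter (Matrix.SpecialLinearGroup (Fin 2) F) // (χ : Matrix.SpecialLinearGroup (Fin 2) F → ℂ) 1 = (Fintype.card F : ℂ) - 1} = Fintype.card F / 2) := by
  classical
  have h2 := FiniteField.even_card_of_char_two (ringChar.eq F 2)
  refine ⟨fun χ hχ => ?_, fun hq => ?_⟩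
  · obtain ⟨g0, h0⟩ := exists_ell (F := F)
    obtain ⟨d, hd⟩ := hχ.isCharacter.exists_nat_apply_one
    rw [hd, ← cast_q_sub_one]
    rcases irr_SL2_deg h0 hχ hd with ⟨h, -⟩ | ⟨h, -⟩ | ⟨h, -⟩ | ⟨h, -⟩ | ⟨-, h, -⟩ | ⟨-, h, -⟩
    iterate 4 simp only [h, Nat.cast_add, Nat.cast_one, true_or, or_true]
    all_goals omega
  · rw [card_irr_SL2_deg F 1 _ Nat.cast_one.symm, card_irr_SL2_deg F _ _ rfl,
      card_irr_SL2_deg F (Fintype.card F + 1) _ (by simp), card_irr_SL2_deg F _ _ cast_q_sub_one.symm]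
    refine ⟨?_, ?_, ?_, ?_⟩ <;> split_ifs <;> omega

end Cfsg.Agent.S2300
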