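import Mathlib
import Cfsg.Statements.S2301
import Cfsg.Agent.H8.SL2n

set_option autoImplicit false
open Cfsg

namespace Cfsg.Agent.S2301

open CfsgH8

/-- Over a finite field with q elements of odd characteristic p, the elements of order p of SL₂ (the non-identity unipotent elements) fall into exactly two conjugacy classes, each of size (q² − 1)/2; two upper unitriangular matrices with non-zero off-diagonal entries b and b′ are conjugate exactly when bb′ is a square. -/
theorem result {F : Type*} [Field F] [Fintype F] (p : ℕ) [Fact p.Prime] [CharP F p] (hp : p ≠ 2) :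
    Nat.card {C : ConjClasses (Matrix.SpecialLinearGroup (Fin 2) F) // ∃ g : Matrix.SpecialLinearGroup (Fin 2) F, orderOf g = p ∧ ConjClasses.mk g = C} = 2 ∧
    (∀ g : Matrix.SpecialLinearGroup (Fin 2) F, orderOf g = p → Nat.card (ConjClasses.mk g).carrier = (Fintype.card F ^ 2 - 1) / 2) ∧
    ∀ g h : Matrix.SpecialLinearGroup (Fin 2) F, (g : Matrix (Fin 2) (Fin 2) F) 0 0 = 1 → (g : Matrix (Fin 2) (Fin 2) F) 1 1 = 1 → (g : Matrix (Fin 2) (Fin 2) F) 1 0 = 0 → (g : Matrix (Fin 2) (Fin 2) F) 0 1 ≠ 0 →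
      (h : Matrix (Fin 2) (Fin 2) F) 0 0 = 1 → (h : Matrix (Fin 2) (Fin 2) F) 1 1 = 1 → (h : Matrix (Fin 2) (Fin 2) F) 1 0 = 0 → (h : Matrix (Fin 2) (Fin 2) F) 0 1 ≠ 0 →
      (IsConj g h ↔ IsSquare ((g : Matrix (Fin 2) (Fin 2) F) 0 1 * (h : Matrix (Fin 2) (Fin 2) F) 0 1)) := by
  classical
  have hF : ringChar F ≠ 2 := by rwa [ringChar.eq F p]
  have hq := FiniteField.odd_card_of_char_ne_two hF
  have key : ∀ g : Matrix.SpecialLinearGroup (Fin 2) F, orderOf g = p →
      ∃ t, t ≠ 0 ∧ IsConj g (triS 1 t) := by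
    intro g hg
    obtain ⟨h1, h2⟩ := orderOf_eq_prime_iff.1 hg
    obtain ⟨s, hs⟩ := exists_conj_mem_US (trace_of_pow_char p (k := 1) (by rwa [pow_one]))
    obtain ⟨t, ht⟩ := mem_US.1 hs
    refine ⟨t, ?_, isConj_iff.2 ⟨s, ht⟩⟩
    rintro rfl
    exact h2 (by simpa [triS_one] using ht)
  refine ⟨?_, fun g hg => ?_, fun g h a1 a2 a3 a4 b1 b2 b3 b4 => ?_⟩
  · obtain ⟨ν, hν⟩ := FiniteField.exists_nonsquare hF
    have hν0 : ν ≠ 0 := by rintro rfl; exact hν IsSquare.zero
    rw [Nat.card_eq_two_iff]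
    refine ⟨⟨_, triS 1 1, orderOf_triS_one p one_ne_zero, rfl⟩,
      ⟨_, triS 1 ν, orderOf_triS_one p hν0, rfl⟩, fun e => hν ?_, Set.eq_univ_of_forall ?_⟩
    · simpa using (isConj_triS_one one_ne_zero hν0).1
        (ConjClasses.mk_eq_mk_iff_isConj.1 (congrArg Subtype.val e))
    · rintro ⟨_, g, hg, rfl⟩
      obtain ⟨t, ht, h⟩ := key g hg
      simp only [Set.mem_insert_iff, Set.mem_singleton_iff, Subtype.mk.injEq,
        ConjClasses.mk_eq_mk_iff_isConj]
      by_cases hs : IsSquare t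
      · exact Or.inl (h.trans ((isConj_triS_one ht one_ne_zero).2 (by simpa)))
      · refine Or.inr (h.trans ((isConj_triS_one ht hν0).2 ?_))
        rw [← quadraticChar_one_iff_isSquare (mul_ne_zero ht hν0), map_mul,
          quadraticChar_neg_one_iff_not_isSquare.2 hs, quadraticChar_neg_one_iff_not_isSquare.2 hν]
        simp
  · obtain ⟨t, ht, h⟩ := key g hg
    rw [ConjClasses.mk_eq_mk_iff_isConj.2 h, card_carrier_eq_index]
    have := (Subgroup.centralizer {triS (1 : Fˣ) t}).index_mul_card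
    rw [card_centralizer_unipS ht, gcd_two_odd hq, CfsgH5.card_SL2, ← mul_assoc, mul_comm] at this
    rw [← Nat.eq_of_mul_eq_mul_left Fintype.card_pos this]; simp
  · have e1 : g = triS 1 (g.1 0 1) := Subtype.ext (m2_ext a1 rfl a3 (by simpa using a2))
    have e2 : h = triS 1 (h.1 0 1) := Subtype.ext (m2_ext b1 rfl b3 (by simpa using b2))
    rw [← isConj_triS_one a4 b4, ← e1, ← e2]

end Cfsg.Agent.S2301
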