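import Mathlib
import Cfsg.Statements.S2302
import Cfsg.Agent.H8.SL2n

set_option autoImplicit false
open Cfsg

namespace Cfsg.Agent.S2302

open CfsgH8

/-- Over a finite field with q elements of characteristic 2, the involutions of SL₂ (the non-identity unipotent elements) form a single conjugacy class, of size q² − 1. -/
theorem result {F : Type*} [Field F] [Fintype F] [CharP F 2] (g h : Matrix.SpecialLinearGroup (Fin 2) F) (hg : orderOf g = 2) (hh : orderOf h = 2) :
    IsConj g h ∧ Nat.card (ConjClasses.mk g).carrier = Fintype.card F ^ 2 - 1 := by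
  have hq := FiniteField.even_card_of_char_two (ringChar.eq F 2)
  have key : ∀ g : Matrix.SpecialLinearGroup (Fin 2) F, orderOf g = 2 → IsConj g (triS 1 1) := by
    intro g hg
    obtain ⟨h1, h2⟩ := orderOf_eq_prime_iff.1 hg
    obtain ⟨s, hs⟩ := exists_conj_mem_US (trace_of_pow_char 2 (k := 1) h1)
    obtain ⟨t, ht⟩ := mem_US.1 hs
    refine (isConj_iff.2 ⟨s, ht⟩).trans ((isConj_triS_one ?_ one_ne_zero).2
      (FiniteField.isSquare_of_char_two (ringChar.eq F 2) _))
    rintro rfl
    exact h2 (by simpa [triS_one] using ht)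
  refine ⟨(key g hg).trans (key h hh).symm, ?_⟩
  rw [ConjClasses.mk_eq_mk_iff_isConj.2 (key g hg), card_carrier_eq_index]
  have := (Subgroup.centralizer {triS (1 : Fˣ) 1}).index_mul_card
  rw [card_centralizer_unipS one_ne_zero, gcd_two_even hq, CfsgH5.card_SL2, one_mul, mul_comm] at this
  exact Nat.eq_of_mul_eq_mul_left Fintype.card_pos this

end Cfsg.Agent.S2302
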