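import Mathlib
import Cfsg.Statements.S2308
import Cfsg.Agent.H8.GL2e

set_option autoImplicit false
open Cfsg

namespace Cfsg.Agent.S2308

open CfsgH8 CfsgH3

/-- Values of the permutation character of GL₂ over a finite field F with q elements on the cosets of its upper triangular subgroup (equivalently, the number of lines of F² that an element maps to themselves): q + 1 at a scalar matrix, 2 at a diagonal matrix with two different diagonal entries, 0 at an element with no eigenvector in F², and 1 at an upper triangular matrix with equal diagonal entries and non-zero upper right entry. -/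
theorem result {F : Type*} [Field F] [Fintype F] (g : Matrix.GeneralLinearGroup (Fin 2) F) :
    ((∃ a : F, (g : Matrix (Fin 2) (Fin 2) F) = a • (1 : Matrix (Fin 2) (Fin 2) F)) → Cfsg.fixedPointCharacter (Cfsg.upperTriangularGL 2 F) g = Fintype.card F + 1) ∧
    ((g : Matrix (Fin 2) (Fin 2) F) 0 1 = 0 → (g : Matrix (Fin 2) (Fin 2) F) 1 0 = 0 → (g : Matrix (Fin 2) (Fin 2) F) 0 0 ≠ (g : Matrix (Fin 2) (Fin 2) F) 1 1 →
      Cfsg.fixedPointCharacter (Cfsg.upperTriangularGL 2 F) g = 2) ∧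
    ((∀ (c : F) (v : Fin 2 → F), v ≠ 0 → (g : Matrix (Fin 2) (Fin 2) F).mulVec v ≠ c • v) → Cfsg.fixedPointCharacter (Cfsg.upperTriangularGL 2 F) g = 0) ∧
    ((g : Matrix (Fin 2) (Fin 2) F) 1 0 = 0 → (g : Matrix (Fin 2) (Fin 2) F) 0 0 = (g : Matrix (Fin 2) (Fin 2) F) 1 1 → (g : Matrix (Fin 2) (Fin 2) F) 0 1 ≠ 0 →
      Cfsg.fixedPointCharacter (Cfsg.upperTriangularGL 2 F) g = 1) := by
  classical
  have key : Cfsg.fixedPointCharacter (Cfsg.upperTriangularGL 2 F) = PS (1 : MulChar F ℂ) 1 := by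
    have := card_fixedBy_eq_indFun (G := GL (Fin 2) F) (GL (Fin 2) F ⧸ Cfsg.upperTriangularGL 2 F)
      ((1 : GL (Fin 2) F) : GL (Fin 2) F ⧸ Cfsg.upperTriangularGL 2 F)
    rw [MulAction.stabilizer_quotient] at this
    refine this.trans ?_
    unfold PS
    congr 1
    ext b
    obtain ⟨⟨a, x, d⟩, rfl⟩ := bijective_tri.2 b
    simp
  rw [key]
  refine ⟨fun h => ?_, fun h1 h2 h3 => ?_, fun h => PS_ell _ _ (ell_iff.2 h), fun h1 h2 h3 => ?_⟩
  · obtain ⟨a, rfl⟩ := (isSc_iff.2 h).exists_sc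
    simp [PS_sc]
  · obtain ⟨a, d, hne, e⟩ := eq_tri_diag h2 h3
    rw [e, PS_tri_ne _ _ hne]
    norm_num
  · obtain ⟨a, e⟩ := exists_eq_tri_of_mem_ZU (mem_ZU.2 ⟨h1, h2⟩)
    rw [e, PS_unip _ _ _ h3]
    simp

end Cfsg.Agent.S2308
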