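import Mathlib
import Cfsg.Statements.S2309
import Cfsg.Agent.H8.GL2e

set_option autoImplicit false
open Cfsg

namespace Cfsg.Agent.S2309

open CfsgH8 CfsgH3

/-- Over a finite field F with q elements: every irreducible complex character of GL₂ of degree q − 1 vanishes at every diagonal matrix with two distinct entries, and every irreducible complex character of degree q + 1 vanishes at every element with no eigenvector in F². -/
theorem result {F : Type*} [Field F] [Fintype F] (χ : Matrix.GeneralLinearGroup (Fin 2) F → ℂ) (hχ : Cfsg.IsIrrCharacter (Matrix.GeneralLinearGroup (Fin 2) F) χ) (g : Matrix.GeneralLinearGroup (Fin 2) F) :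
    (χ 1 = (Fintype.card F : ℂ) - 1 → (g : Matrix (Fin 2) (Fin 2) F) 0 1 = 0 → (g : Matrix (Fin 2) (Fin 2) F) 1 0 = 0 → (g : Matrix (Fin 2) (Fin 2) F) 0 0 ≠ (g : Matrix (Fin 2) (Fin 2) F) 1 1 → χ g = 0) ∧
    (χ 1 = (Fintype.card F : ℂ) + 1 → (∀ (c : F) (v : Fin 2 → F), v ≠ 0 → (g : Matrix (Fin 2) (Fin 2) F).mulVec v ≠ c • v) → χ g = 0) := by
  classical
  obtain ⟨g0, h0⟩ := exists_ell (F := F)
  refine ⟨fun h h1 h2 h3 => ?_, fun h h1 => ?_⟩
  · obtain ⟨a, d, hne, e⟩ := eq_tri_diag h2 h3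
    rcases irr_GL2 h0 hχ with ⟨α, rfl⟩ | ⟨α, rfl⟩ | ⟨α, β, -, rfl⟩ | ⟨θ, h', rfl⟩
    · exfalso
      have h4 : (Fintype.card F : ℂ) = 2 := by linear_combination h.symm.trans (Lin_one α)
      have h5 : Fintype.card F = 2 := by exact_mod_cast h4
      have : Nat.card Fˣ = 1 := by rw [natCard_units_eq, h5]
      exact hne ((Nat.card_eq_one_iff_unique.1 this).1.elim _ _)
    · exact absurd (by linear_combination (St_one α).symm.trans h : (1 : ℂ) = 0) (by norm_num)
    · exact absurd (by linear_combination (PS_one α β).symm.trans h : (2 : ℂ) = 0) (by norm_num)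
    · rw [e, Cusp_tri_ne h0 _ hne]
  · rcases irr_GL2 h0 hχ with ⟨α, rfl⟩ | ⟨α, rfl⟩ | ⟨α, β, h', rfl⟩ | ⟨θ, -, rfl⟩
    · exact absurd (by linear_combination h.symm.trans (Lin_one α)) (q_ne_zero (F := F))
    · simp [St_one] at h
    · exact PS_ell _ _ (ell_iff.2 h1)
    · exact absurd (by linear_combination (Cusp_one h0 θ).symm.trans h : (-2 : ℂ) = 0) (by norm_num)

end Cfsg.Agent.S2309
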