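import Mathlib
import Cfsg.Statements.S2310
import Cfsg.Agent.H8.GL2e

set_option autoImplicit false
open Cfsg

namespace Cfsg.Agent.S2310

open CfsgH8 CfsgH3

/-- Over a finite field F with q ≥ 3 elements, let u be the upper unitriangular matrix of GL₂ with off-diagonal entry 1. An irreducible complex character χ of GL₂ takes at u the value 1 if χ has degree 1 or q + 1, the value −1 if χ has degree q − 1, and the value 0 if χ has degree q. -/
theorem result {F : Type*} [Field F] [Fintype F] (hq : 3 ≤ Fintype.card F) (χ : Matrix.GeneralLinearGroup (Fin 2) F → ℂ) (hχ : Cfsg.IsIrrCharacter (Matrix.GeneralLinearGroup (Fin 2) F) χ)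
    (u : Matrix.GeneralLinearGroup (Fin 2) F) (hu : (u : Matrix (Fin 2) (Fin 2) F) = !![1, 1; 0, 1]) :
    (χ 1 = 1 → χ u = 1) ∧ (χ 1 = (Fintype.card F : ℂ) + 1 → χ u = 1) ∧
    (χ 1 = (Fintype.card F : ℂ) - 1 → χ u = -1) ∧ (χ 1 = (Fintype.card F : ℂ) → χ u = 0) := by
  classical
  obtain ⟨g0, h0⟩ := exists_ell (F := F)
  obtain rfl : u = tri 1 1 1 := Units.ext (by rw [hu]; rfl)
  have hq' : ∀ k : ℕ, k < 3 → (Fintype.card F : ℂ) ≠ k := fun k hk h => by
    have : Fintype.card F = k := by exact_mod_cast h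
    omega
  have h0' := hq' 0 (by norm_num)
  have h1' := hq' 1 (by norm_num)
  have h2' := hq' 2 (by norm_num)
  simp only [Nat.cast_zero, Nat.cast_one, Nat.cast_ofNat] at h0' h1' h2'
  rcases irr_GL2 h0 hχ with ⟨α, rfl⟩ | ⟨α, rfl⟩ | ⟨α, β, -, rfl⟩ | ⟨θ, h', rfl⟩
  · rw [Lin_one, Lin_unip]
    exact ⟨fun _ => rfl, fun _ => rfl, fun h => absurd (by linear_combination -h) h2',
      fun h => absurd h.symm h1'⟩
  · rw [St_one, St_unip _ _ one_ne_zero]
    exact ⟨fun h => absurd h h1', fun h => by simp at h,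
      fun h => absurd (by linear_combination h : (1 : ℂ) = 0) one_ne_zero, fun _ => rfl⟩
  · rw [PS_one, PS_unip _ _ _ one_ne_zero]
    exact ⟨fun _ => by simp, fun _ => by simp,
      fun h => absurd (by linear_combination h : (2 : ℂ) = 0) two_ne_zero, fun h => by simp at h⟩
  · rw [Cusp_one h0, Cusp_unip h0 _ _ one_ne_zero]
    exact ⟨fun h => absurd (by linear_combination h) h2',
      fun h => absurd (by linear_combination -h : (2 : ℂ) = 0) two_ne_zero, fun _ => by simp,
      fun h => by simp at h⟩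

end Cfsg.Agent.S2310
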