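import Cfsg.Statements.S2313
import Cfsg.Agent.H6.GoodAll
import Cfsg.Agent.H6.StCh

set_option autoImplicit false
open Cfsg

namespace Cfsg.Agent.S2313

/-- In a Chevalley group of type G₂, B₂, D₄, F₄, E₆, E₇ or E₈ over a finite field, the restriction of the Steinberg character to the subgroup B = UH is the permutation character of B on the cosets of the diagonal subgroup H: at b ∈ B its value is the number of cosets xH, x ∈ B, with bxH = xH. -/
theorem result {F : Type*} [Field F] [Fintype F] (D : Cfsg.Lie.ChevalleyDatum) (hD : D ∈ [Cfsg.Lie.chevG2, Cfsg.Lie.chevB2, Cfsg.Lie.chevD4, Cfsg.Lie.chevF4, Cfsg.Lie.chevE6, Cfsg.Lie.chevE7, Cfsg.Lie.chevE8]) (b : ↥((D.borelSubgroup F).subgroupOf (D.group F))) :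
    D.steinbergCharacter F ((((D.borelSubgroup F).subgroupOf (D.group F)).subtype) b) =
      Cfsg.fixedPointCharacter (((D.diagonalSubgroup F).subgroupOf (D.group F)).subgroupOf ((D.borelSubgroup F).subgroupOf (D.group F))) b := by
  obtain ⟨G⟩ := CfsgH6.good_of_mem hD
  revert b
  rw [G.st_eq, G.borel_eq, G.diagonal_eq]
  intro b
  have h := (G.gl F).altSum_B (D.group F).subtype_injective (I := Finset.univ)
    (by rw [Subgroup.range_subtype, G.group_eq, Finset.coe_univ, CfsgH6.Cover.PJ_univ]) b
  rw [CfsgH6.Cover.radJ_univ, CfsgH6.Cover.BS, CfsgH6.Cover.US_empty, bot_sup_eq] at h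
  exact h

end Cfsg.Agent.S2313
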