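import Cfsg.Statements.S2315
import Cfsg.Agent.H6.DCA

set_option autoImplicit false
open Cfsg

namespace Cfsg.Agent.S2315

/-- Steinberg's count of unipotent elements for the general linear group: over a finite field with q elements of characteristic p, the number of elements of GL_n of p-power order (the unipotent matrices) is q^(n(n−1)). -/
theorem result {F : Type*} [Field F] [Fintype F] (p : ℕ) [Fact p.Prime] [CharP F p] (n : ℕ) :
    Nat.card {g : Matrix.GeneralLinearGroup (Fin n) F // ∃ k : ℕ, orderOf g = p ^ k} = Fintype.card F ^ (n * (n - 1)) := by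
  have key : Nat.card {g : Matrix.SpecialLinearGroup (Fin n) F // ∃ k : ℕ, orderOf g = p ^ k} =
      Fintype.card F ^ (n * (n - 1)) := by
    by_cases hn : 2 ≤ n
    · rw [(CfsgH6.dc_SL F p hn).2.2.2, Nat.card_eq_fintype_card]
    · have : Subsingleton (Fin n) := Fin.subsingleton_iff_le_one.2 (by omega)
      rw [show n - 1 = 0 by omega, mul_zero, pow_zero, Nat.card_eq_one_iff_unique]
      exact ⟨inferInstance, ⟨⟨1, 0, by simp⟩⟩⟩
  rw [← key]
  have h := Matrix.SpecialLinearGroup.toGL_injective (n := Fin n) (R := F)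
  refine (Nat.card_congr (Equiv.ofBijective (fun g => ⟨Matrix.SpecialLinearGroup.toGL g.1, by
    rw [orderOf_injective _ h]; exact g.2⟩) ⟨fun a b e => Subtype.ext (h (congrArg Subtype.val e)), ?_⟩)).symm
  rintro ⟨g, k, hk⟩
  have h1 : Matrix.GeneralLinearGroup.det g = 1 :=
    (pow_eq_one_iff_of_coprime (((Nat.Prime.coprime_iff_not_dvd Fact.out).2 (CfsgH6.not_dvd_units F p)).pow_left k)).1
      ⟨by rw [← map_pow, ← hk, pow_orderOf_eq_one, map_one], pow_card_eq_one'⟩
  have e : Matrix.SpecialLinearGroup.toGL ⟨g.1, congrArg Units.val h1⟩ = g := Units.ext rfl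
  exact ⟨⟨⟨g.1, congrArg Units.val h1⟩, k, (orderOf_injective _ h _).symm.trans ((congrArg orderOf e).trans hk)⟩, Subtype.ext e⟩

end Cfsg.Agent.S2315
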