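import Cfsg.Statements.S2316
import Cfsg.Agent.H6.DCB

set_option autoImplicit false
open Cfsg

namespace Cfsg.Agent.S2316

/-- Steinberg's count of unipotent elements for the symplectic group: over a finite field with q elements of characteristic p, the number of elements of Sp_{2m} of p-power order is q^(2m²). -/
theorem result {F : Type*} [Field F] [Fintype F] (p : ℕ) [Fact p.Prime] [CharP F p] (m : ℕ) :
    Nat.card {g : ↥(Matrix.symplecticGroup (Fin m) F) // ∃ k : ℕ, orderOf g = p ^ k} = Fintype.card F ^ (2 * m ^ 2) := by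
  rw [← Nat.card_eq_fintype_card]
  rcases Nat.lt_trichotomy m 1 with hm | rfl | hm
  · obtain rfl : m = 0 := by omega
    haveI : Subsingleton ↥(Matrix.symplecticGroup (Fin 0) F) := inferInstance
    exact Nat.card_eq_one_iff_unique.2 ⟨inferInstance, ⟨⟨1, 0, by simp⟩⟩⟩
  · rw [Nat.card_congr ((CfsgH6.sp1Equiv F).toEquiv.subtypeEquiv (q := fun g => ∃ k : ℕ, orderOf g = p ^ k)
      fun g => by simp), (CfsgH6.dc_SL F p le_rfl).2.2.2]; rfl
  · rw [((CfsgH6.adaptC hm).dc F p (CfsgH6.spE' m)).2.2.2.2]
    have := (CfsgH6.cdC hm).card_Φ rfl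
    simp only [Fintype.card_sum, Fintype.card_fin] at this
    congr 1
    have : Fintype.card (CfsgH6.cdC hm).Φ = 2 * m ^ 2 := by nlinarith
    omega

end Cfsg.Agent.S2316
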