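import Cfsg.Statements.S2317
import Cfsg.Agent.H6.SC
import Cfsg.Agent.H5.Gl4

set_option autoImplicit false
open Cfsg

namespace Cfsg.Agent.S2317

open CfsgH5 CfsgH5.Gl CfsgH5.Gc Polynomial Matrix

/-- Over a finite field of characteristic p, the conjugacy classes of GL_n consisting of elements of p-power order (the unipotent classes) are as many as the partitions of n. -/
theorem result {F : Type*} [Field F] [Fintype F] (p : ℕ) [Fact p.Prime] [CharP F p] (n : ℕ) :
    Nat.card {C : ConjClasses (Matrix.GeneralLinearGroup (Fin n) F) //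
      ∃ g : Matrix.GeneralLinearGroup (Fin n) F, (∃ k : ℕ, orderOf g = p ^ k) ∧ ConjClasses.mk g = C} =
      Fintype.card (Nat.Partition n) := by
  have hp : p.Prime := Fact.out
  have e : (X - C 1 : F[X]) ^ p ^ n = X ^ p ^ n - 1 := by rw [sub_pow_char_pow]; simp
  have k : ∀ g : GL (Fin n) F, (∃ k : ℕ, orderOf g = p ^ k) ↔ g ^ p ^ n = 1 := fun g => by
    refine ⟨fun ⟨k, hk⟩ => ?_, fun h => ?_⟩
    · have h0 : ∀ k, (g.1 - 1) ^ p ^ k = g.1 ^ p ^ k - 1 := fun k => by
        have := congrArg (aeval g.1) (show (X - 1 : F[X]) ^ p ^ k = X ^ p ^ k - 1 by rw [sub_pow_char_pow]; simp)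
        simpa using this
      have h1 : IsNilpotent (g.1 - 1) := ⟨p ^ k, by
        rw [h0, ← Units.val_pow_eq_pow_val, ← hk, pow_orderOf_eq_one]; simp⟩
      have h2 : (g.1 - 1) ^ n = 0 := by
        have := Matrix.aeval_self_charpoly (g.1 - 1)
        have h5 : (toLin' (g.1 - 1)).charpoly = _ := IsNilpotent.charpoly_eq_X_pow_finrank (h1.map toLinAlgEquiv')
        rw [← Matrix.charpoly_toLin', h5] at this
        simpa using this
      have h3 : (g.1 - 1) ^ p ^ n = 0 := pow_eq_zero_of_le (Nat.lt_pow_self hp.one_lt).le h2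
      rw [h0, sub_eq_zero] at h3
      exact Units.ext h3
    · obtain ⟨k, -, hk⟩ := (Nat.dvd_prime_pow hp).mp (orderOf_dvd_of_pow_eq_one h)
      exact ⟨k, hk⟩
  simp only [k]
  simp only [and_comm (b := ConjClasses.mk _ = _)]
  rw [card_classes (fun g : GL (Fin n) F => toLin' g.1) (fun g => g ^ p ^ n = 1) fun a b _ _ => isConj_GL]
  have := card_unip_types (F := F) (p ^ n) n
  rw [Finset.filter_true_of_mem fun μ _ a ha => (μ.le_of_mem_parts ha).trans (Nat.lt_pow_self hp.one_lt).le, Finset.card_univ] at this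
  rw [← this]
  refine Nat.card_congr (Equiv.subtypeEquivRight fun s => and_congr_right fun hs => ?_)
  rw [exists_GL_pow_iff (pow_ne_zero _ hp.ne_zero) fun a ha => (hs a ha).monic.ne_zero, e, Fintype.card_fin]

end Cfsg.Agent.S2317
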