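import Cfsg.Statements.S2318
import Cfsg.Agent.H6.GoodAll
import Cfsg.Agent.H6.StCh

set_option autoImplicit false
open Cfsg

namespace Cfsg.Agent.S2318

/-- In a Chevalley group of type G₂, B₂, D₄, F₄, E₆, E₇ or E₈ over a finite field of characteristic p (for types G₂ and B₂ the field is assumed to have at least 3 elements, so that the group is perfect), the Steinberg character is the only irreducible complex character whose degree is divisible by the full power of p dividing the group order (the only irreducible character of p-defect zero). -/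
theorem result {F : Type*} [Field F] [Fintype F] (p : ℕ) [Fact p.Prime] [CharP F p] (D : Cfsg.Lie.ChevalleyDatum) (hD : D ∈ [Cfsg.Lie.chevG2, Cfsg.Lie.chevB2, Cfsg.Lie.chevD4, Cfsg.Lie.chevF4, Cfsg.Lie.chevE6, Cfsg.Lie.chevE7, Cfsg.Lie.chevE8]) (hq : (D = Cfsg.Lie.chevG2 ∨ D = Cfsg.Lie.chevB2) → 3 ≤ Fintype.card F)
    (χ : ↥(D.group F) → ℂ) (hχ : Cfsg.IsIrrCharacter ↥(D.group F) χ)
    (hdeg : ∃ d : ℕ, χ 1 = (d : ℂ) ∧ p ^ (Nat.card ↥(D.group F)).factorization p ∣ d) :
    χ = D.steinbergCharacter F := by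
  obtain ⟨G⟩ := CfsgH6.good_of_mem hD
  have := Fintype.ofFinite (D.group F)
  rw [G.st_eq_St F p]
  obtain ⟨d, hd, h⟩ := hdeg
  refine (G.split F p).eq_St (fun N hN hU => ?_) hχ fun x hx => CfsgH3.Cfsg.IsIrrCharacter.eq_zero_of_defect_zero hχ Fact.out hd (fun h1 => ?_) hx
  · rw [eq_top_iff, ← G.grp_Gr F]
    have h1 : ∀ r t, G.Pos r → (G.grp F).x r t ∈ N := fun r t hr =>
      hU ((G.gl F).x_mem (by rw [CfsgH6.Cover.radJ_empty]; exact hr) t)
    refine (G.grp F).Gr_le_of_pm (fun i t => h1 _ t (G.pos_sm i)) fun i t => ?_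
    obtain ⟨c, hc, -⟩ := ((G.grp F).mon_ν i).conj_n (G.sm i)
    have := hN.conj_mem _ (h1 _ ((c⁻¹ : Fˣ) * t) (G.pos_sm i)) ((G.grp F).ν i)
    rwa [hc, G.σ_sm, Units.mul_inv_cancel_left] at this
  · have h2 := CfsgH3.Cfsg.IsIrrCharacter.degree_dvd_card hχ hd
    have h3 := mul_dvd_mul h h1
    rw [Nat.mul_div_cancel' h2, ← pow_succ] at h3
    exact Nat.pow_succ_factorization_not_dvd Nat.card_pos.ne' Fact.out h3

end Cfsg.Agent.S2318
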