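import Mathlib
import Cfsg.Statements.S2320
import Cfsg.Agent.H8.GL2e

set_option autoImplicit false
open Cfsg

namespace Cfsg.Agent.S2320

open CfsgH8 CfsgH3

/-- Over a finite field F with q elements, every irreducible complex character of GL₂ of degree q takes a value of absolute value 1 at every diagonal matrix with two different diagonal entries and at every element with no eigenvector in F². -/
theorem result {F : Type*} [Field F] [Fintype F] (χ : Matrix.GeneralLinearGroup (Fin 2) F → ℂ) (hχ : Cfsg.IsIrrCharacter (Matrix.GeneralLinearGroup (Fin 2) F) χ) (hdeg : χ 1 = (Fintype.card F : ℂ)) (g : Matrix.GeneralLinearGroup (Fin 2) F) :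
    ((g : Matrix (Fin 2) (Fin 2) F) 0 1 = 0 → (g : Matrix (Fin 2) (Fin 2) F) 1 0 = 0 → (g : Matrix (Fin 2) (Fin 2) F) 0 0 ≠ (g : Matrix (Fin 2) (Fin 2) F) 1 1 → ‖χ g‖ = 1) ∧
    ((∀ (c : F) (v : Fin 2 → F), v ≠ 0 → (g : Matrix (Fin 2) (Fin 2) F).mulVec v ≠ c • v) → ‖χ g‖ = 1) := by
  classical
  obtain ⟨g0, h0⟩ := exists_ell (F := F)
  rcases irr_GL2 h0 hχ with ⟨α, rfl⟩ | ⟨α, rfl⟩ | ⟨α, β, -, rfl⟩ | ⟨θ, h', rfl⟩
  · exact absurd (by linear_combination hdeg.symm.trans (Lin_one α)) (q_sub_one_ne_zero (F := F))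
  · refine ⟨fun h1 h2 h3 => ?_, fun h => ?_⟩
    · obtain ⟨a, d, hne, e⟩ := eq_tri_diag h2 h3
      rw [e, St_tri_ne _ hne, norm_mul, norm_mulChar _ a.ne_zero, norm_mulChar _ d.ne_zero, one_mul]
    · rw [St_ell _ (ell_iff.2 h), norm_neg, norm_mulChar _ g.det_ne_zero]
  · simp [PS_one] at hdeg
  · simp [Cusp_one h0] at hdeg

end Cfsg.Agent.S2320
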