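import Mathlib
import Cfsg.Statements.S2321
import Cfsg.Agent.H8.SL2e

set_option autoImplicit false
open Cfsg

namespace Cfsg.Agent.S2321

open CfsgH8 CfsgH3

/-- Over a finite field F with q elements, an irreducible complex character of SL₂ of degree q (the Steinberg character) takes the value 1 at every diagonal matrix whose diagonal entry a has a² ≠ 1, the value −1 at every element with no eigenvector in F², and the value 0 at every upper triangular matrix with equal diagonal entries and non-zero upper right entry. -/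
theorem result {F : Type*} [Field F] [Fintype F] (χ : Matrix.SpecialLinearGroup (Fin 2) F → ℂ) (hχ : Cfsg.IsIrrCharacter (Matrix.SpecialLinearGroup (Fin 2) F) χ) (hdeg : χ 1 = (Fintype.card F : ℂ)) (g : Matrix.SpecialLinearGroup (Fin 2) F) :
    ((g : Matrix (Fin 2) (Fin 2) F) 0 1 = 0 → (g : Matrix (Fin 2) (Fin 2) F) 1 0 = 0 → (g : Matrix (Fin 2) (Fin 2) F) 0 0 ^ 2 ≠ 1 → χ g = 1) ∧
    ((∀ (c : F) (v : Fin 2 → F), v ≠ 0 → (g : Matrix (Fin 2) (Fin 2) F).mulVec v ≠ c • v) → χ g = -1) ∧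
    ((g : Matrix (Fin 2) (Fin 2) F) 1 0 = 0 → (g : Matrix (Fin 2) (Fin 2) F) 0 0 = (g : Matrix (Fin 2) (Fin 2) F) 1 1 → (g : Matrix (Fin 2) (Fin 2) F) 0 1 ≠ 0 → χ g = 0) := by
  classical
  obtain ⟨g0, h0⟩ := exists_ell (F := F)
  have hq : 1 < Fintype.card F := Fintype.one_lt_card
  obtain rfl : χ = St0 F := by
    rcases irr_SL2_deg h0 hχ hdeg with ⟨h, -⟩ | ⟨-, h⟩ | ⟨h, -⟩ | ⟨h, -⟩ | ⟨h, -⟩ | ⟨h, -⟩ <;>
      first | omega | exact h
  refine ⟨fun h1 h2 h3 => ?_, fun h => ?_, fun h1 h2 h3 => ?_⟩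
  · obtain ⟨a, e⟩ := exists_eq_triS h2
    rw [e] at h3 ⊢
    rw [St0, res, toGL_triS, St_tri_ne _ (ne_inv_of_sq h3)]
    simp [-Units.val_inv_eq_inv_val]
  · rw [St0, res, St_ell _ (ell_iff.2 h)]; simp
  · obtain ⟨a, e⟩ := exists_eq_triS h1
    generalize g.1 0 1 = x at e h3
    subst e
    have : a⁻¹ = a := Units.ext h2.symm
    rw [St0, res, toGL_triS, this, St_unip _ _ h3]

end Cfsg.Agent.S2321
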