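import Mathlib
import Cfsg.Statements.S2322
import Cfsg.Agent.H8.SL2e

set_option autoImplicit false
open Cfsg

namespace Cfsg.Agent.S2322

open CfsgH8 CfsgH3

/-- Over a finite field F with q elements, q odd: every irreducible complex character of SL₂ of degree q − 1 or (q − 1)/2 vanishes at every diagonal matrix whose diagonal entry a has a² ≠ 1, and every irreducible complex character of degree q + 1 or (q + 1)/2 vanishes at every element with no eigenvector in F². -/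
theorem result {F : Type*} [Field F] [Fintype F] (hodd : Odd (Fintype.card F)) (χ : Matrix.SpecialLinearGroup (Fin 2) F → ℂ) (hχ : Cfsg.IsIrrCharacter (Matrix.SpecialLinearGroup (Fin 2) F) χ) (g : Matrix.SpecialLinearGroup (Fin 2) F) :
    ((χ 1 = (Fintype.card F : ℂ) - 1 ∨ χ 1 = (((Fintype.card F - 1) / 2 : ℕ) : ℂ)) →
      (g : Matrix (Fin 2) (Fin 2) F) 0 1 = 0 → (g : Matrix (Fin 2) (Fin 2) F) 1 0 = 0 → (g : Matrix (Fin 2) (Fin 2) F) 0 0 ^ 2 ≠ 1 → χ g = 0) ∧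
    ((χ 1 = (Fintype.card F : ℂ) + 1 ∨ χ 1 = (((Fintype.card F + 1) / 2 : ℕ) : ℂ)) →
      (∀ (c : F) (v : Fin 2 → F), v ≠ 0 → (g : Matrix (Fin 2) (Fin 2) F).mulVec v ≠ c • v) → χ g = 0) := by
  classical
  have h2 := Nat.odd_iff.1 hodd
  have hq : 1 < Fintype.card F := Fintype.one_lt_card
  obtain ⟨d, hd⟩ := hχ.isCharacter.exists_nat_apply_one
  refine ⟨fun h a b c => ?_, fun h hg => ?_⟩
  · obtain ⟨g0, h0⟩ := exists_ell (F := F)
    obtain ⟨x, e⟩ := exists_eq_triS b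
    rw [a] at e
    subst e
    have h3 := ne_inv_of_sq c
    have h4 := three_lt_card h3 h2
    rw [hd, ← cast_q_sub_one, Nat.cast_inj, Nat.cast_inj] at h
    rcases irr_SL2_deg h0 hχ hd with ⟨h, -⟩ | ⟨h, -⟩ | ⟨h, -⟩ | ⟨-, η, -, rfl⟩ | ⟨h, -⟩ |
      ⟨-, -, η, -, -, h⟩
    any_goals omega
    · exact Cu0_diag _ _ h3 _
    · simpa [Cu0_diag _ _ h3] using h.diag x
  · rw [← ell_iff] at hg
    rw [hd, ← Nat.cast_add_one, Nat.cast_inj, Nat.cast_inj] at h
    rcases irr_SL2_deg (g0 := Matrix.SpecialLinearGroup.toGL g) hg hχ hd with ⟨h, -⟩ | ⟨h, -⟩ |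
      ⟨-, -, α, -, rfl⟩ | ⟨h', η, hη, rfl⟩ | ⟨-, -, α, -, -, h⟩ | ⟨h, -⟩
    any_goals omega
    · exact P0_ell _ hg
    · have := Cu0_C (g0 := Matrix.SpecialLinearGroup.toGL g) hg η ⟨g, mem_C0_self g⟩ hg.not_isSc
      rw [add_inv_eq_zero_of_card_three hg (by omega) hη _ hg.not_isSc, neg_zero] at this
      exact this
    · simpa [P0_ell _ hg] using h.ell hg

end Cfsg.Agent.S2322
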