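import Mathlib
import Cfsg.Statements.S2323
import Cfsg.Agent.H8.SL2e

set_option autoImplicit false
open Cfsg

namespace Cfsg.Agent.S2323

open CfsgH8 CfsgH3

/-- Over a finite field F with q ≥ 4 elements, let u be the upper unitriangular matrix of SL₂ with off-diagonal entry 1. An irreducible complex character of SL₂ takes at u the value 1 if its degree is q + 1 and the value −1 if its degree is q − 1. -/
theorem result {F : Type*} [Field F] [Fintype F] (hq : 4 ≤ Fintype.card F) (χ : Matrix.SpecialLinearGroup (Fin 2) F → ℂ) (hχ : Cfsg.IsIrrCharacter (Matrix.SpecialLinearGroup (Fin 2) F) χ)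
    (u : Matrix.SpecialLinearGroup (Fin 2) F) (hu : (u : Matrix (Fin 2) (Fin 2) F) = !![1, 1; 0, 1]) :
    (χ 1 = (Fintype.card F : ℂ) + 1 → χ u = 1) ∧ (χ 1 = (Fintype.card F : ℂ) - 1 → χ u = -1) := by
  classical
  obtain ⟨g0, h0⟩ := exists_ell (F := F)
  obtain rfl : u = triS 1 1 := Subtype.ext (by rw [hu]; simp)
  refine ⟨fun h => ?_, fun h => ?_⟩
  · rw [← Nat.cast_add_one] at h
    rcases irr_SL2_deg h0 hχ h with ⟨h, -⟩ | ⟨h, -⟩ | ⟨-, -, α, -, rfl⟩ | ⟨h, -⟩ | ⟨h, -⟩ | ⟨h, -⟩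
    any_goals omega
    exact P0_unip _ one_ne_zero
  · rw [← cast_q_sub_one] at h
    rcases irr_SL2_deg h0 hχ h with ⟨h, -⟩ | ⟨h, -⟩ | ⟨h, -⟩ | ⟨-, α, -, rfl⟩ | ⟨h, -⟩ | ⟨h, -⟩
    any_goals omega
    exact Cu0_unip _ _ one_ne_zero

end Cfsg.Agent.S2323
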