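import Mathlib
import Cfsg.Statements.S2324
import Cfsg.Agent.H8.SL2e

set_option autoImplicit false
open Cfsg

namespace Cfsg.Agent.S2324

open CfsgH8 CfsgH3

/-- Over a finite field F with q elements, q odd and q ≥ 5, let u be the upper unitriangular matrix of SL₂ with off-diagonal entry 1 and let δ = (−1)^((q−1)/2). Every irreducible complex character χ of SL₂ of degree (q + 1)/2 satisfies (2χ(u) − 1)² = δq, and every irreducible complex character χ of degree (q − 1)/2 satisfies (2χ(u) + 1)² = δq; that is, χ(u) = (1 ± √(δq))/2 in the first case and χ(u) = (−1 ± √(δq))/2 in the second. Moreover two different irreducible characters of degree (q + 1)/2 take the two different values (their values at u add up to 1), and likewise for degree (q − 1)/2 (values adding up to −1). -/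
theorem result {F : Type*} [Field F] [Fintype F] (hodd : Odd (Fintype.card F)) (hq : 5 ≤ Fintype.card F)
    (u : Matrix.SpecialLinearGroup (Fin 2) F) (hu : (u : Matrix (Fin 2) (Fin 2) F) = !![1, 1; 0, 1]) :
    (∀ χ : Matrix.SpecialLinearGroup (Fin 2) F → ℂ, Cfsg.IsIrrCharacter (Matrix.SpecialLinearGroup (Fin 2) F) χ → χ 1 = (((Fintype.card F + 1) / 2 : ℕ) : ℂ) → (2 * χ u - 1) ^ 2 = (-1 : ℂ) ^ ((Fintype.card F - 1) / 2) * (Fintype.card F : ℂ)) ∧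
    (∀ χ : Matrix.SpecialLinearGroup (Fin 2) F → ℂ, Cfsg.IsIrrCharacter (Matrix.SpecialLinearGroup (Fin 2) F) χ → χ 1 = (((Fintype.card F - 1) / 2 : ℕ) : ℂ) → (2 * χ u + 1) ^ 2 = (-1 : ℂ) ^ ((Fintype.card F - 1) / 2) * (Fintype.card F : ℂ)) ∧
    (∀ χ₁ χ₂ : Matrix.SpecialLinearGroup (Fin 2) F → ℂ, Cfsg.IsIrrCharacter (Matrix.SpecialLinearGroup (Fin 2) F) χ₁ → Cfsg.IsIrrCharacter (Matrix.SpecialLinearGroup (Fin 2) F) χ₂ → χ₁ ≠ χ₂ →
      χ₁ 1 = (((Fintype.card F + 1) / 2 : ℕ) : ℂ) → χ₂ 1 = (((Fintype.card F + 1) / 2 : ℕ) : ℂ) → χ₁ u + χ₂ u = 1) ∧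
    (∀ χ₁ χ₂ : Matrix.SpecialLinearGroup (Fin 2) F → ℂ, Cfsg.IsIrrCharacter (Matrix.SpecialLinearGroup (Fin 2) F) χ₁ → Cfsg.IsIrrCharacter (Matrix.SpecialLinearGroup (Fin 2) F) χ₂ → χ₁ ≠ χ₂ →
      χ₁ 1 = (((Fintype.card F - 1) / 2 : ℕ) : ℂ) → χ₂ 1 = (((Fintype.card F - 1) / 2 : ℕ) : ℂ) → χ₁ u + χ₂ u = -1) := by
  classical
  have h2 := Nat.odd_iff.1 hodd
  obtain ⟨g0, h0⟩ := exists_ell (F := F)
  obtain rfl : u = triS 1 1 := Subtype.ext (by rw [hu]; simp)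
  have e1 : ∀ χ, IsIrrCharacter (Matrix.SpecialLinearGroup (Fin 2) F) χ →
      χ 1 = (((Fintype.card F + 1) / 2 : ℕ) : ℂ) → ∃ α, α ^ 2 = 1 ∧ α ≠ 1 ∧ Half χ (P0 α) := by
    intro χ hχ h
    rcases irr_SL2_deg h0 hχ h with ⟨h, -⟩ | ⟨h, -⟩ | ⟨h, -⟩ | ⟨h, -⟩ | ⟨-, -, h⟩ | ⟨h, -⟩ <;>
      first | omega | exact h
  have e2 : ∀ χ, IsIrrCharacter (Matrix.SpecialLinearGroup (Fin 2) F) χ →
      χ 1 = (((Fintype.card F - 1) / 2 : ℕ) : ℂ) → ∃ α, α ^ 2 = 1 ∧ α ≠ 1 ∧ Half χ (Cu0 h0 α) := by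
    intro χ hχ h
    rcases irr_SL2_deg h0 hχ h with ⟨h, -⟩ | ⟨h, -⟩ | ⟨h, -⟩ | ⟨h, -⟩ | ⟨h, -⟩ | ⟨-, -, h⟩ <;>
      first | omega | exact h
  have e3 : (Fintype.card F - 1) / 2 = Fintype.card F / 2 := by omega
  refine ⟨fun χ hχ h => ?_, fun χ hχ h => ?_, fun χ₁ χ₂ h1 h2 hne d1 d2 => ?_,
    fun χ₁ χ₂ h1 h2 hne d1 d2 => ?_⟩
  · obtain ⟨α, a, b, c⟩ := e1 χ hχ h
    rw [e3]
    exact c.unip_sq (ringChar_ne_two_of_sq a b) (fun t ht => P0_unip _ ht) (P0_one _)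
  · obtain ⟨α, a, b, c⟩ := e2 χ hχ h
    rw [e3, ← sub_neg_eq_add]
    exact c.unip_sq (ringChar_ne_two_of_sq' h0 a b) (fun t ht => Cu0_unip _ _ ht)
      (by rw [Cu0_one, sub_eq_add_neg])
  · obtain ⟨α, a, b, c⟩ := e1 _ h1 d1
    obtain ⟨α', a', b', c'⟩ := e1 _ h2 d2
    have := isCyclic_mulChar (F := F)
    obtain ⟨β, -, hβ⟩ := exists_sq_eq_one_iff (A := MulChar F ℂ)
      (by rw [card_mulChar, Nat.even_iff]; omega)
    obtain rfl : α = α' := (((hβ _).1 a).resolve_left b).trans (((hβ _).1 a').resolve_left b').symm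
    obtain ⟨ψ₁, ψ₂, -, e, h, -⟩ := exists_half_P0 a b
    rw [← P0_unip α one_ne_zero, e]
    rcases (h _).1 c with rfl | rfl <;> rcases (h _).1 c' with rfl | rfl
    exacts [absurd rfl hne, rfl, add_comm _ _, absurd rfl hne]
  · obtain ⟨α, a, b, c⟩ := e2 _ h1 d1
    obtain ⟨α', a', b', c'⟩ := e2 _ h2 d2
    have := isCyclic_homC0 h0
    obtain ⟨β, -, hβ⟩ := exists_sq_eq_one_iff (A := C0 g0 →* ℂˣ)
      (by rw [card_homC0 h0, Nat.even_iff]; omega)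
    obtain rfl : α = α' := (((hβ _).1 a).resolve_left b).trans (((hβ _).1 a').resolve_left b').symm
    obtain ⟨ψ₁, ψ₂, -, e, h, -⟩ := exists_half_Cu0 h0 a b
    rw [← Cu0_unip h0 α one_ne_zero, e]
    rcases (h _).1 c with rfl | rfl <;> rcases (h _).1 c' with rfl | rfl
    exacts [absurd rfl hne, rfl, add_comm _ _, absurd rfl hne]

end Cfsg.Agent.S2324
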