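import Mathlib
import Cfsg.Statements.S2330
import Cfsg.Agent.H8.GL2e

set_option autoImplicit false
open Cfsg

namespace Cfsg.Agent.S2330

open CfsgH8 CfsgH3

/-- Over a finite field with q elements, the general linear group GL₂ has exactly q² − 1 conjugacy classes. -/
theorem result {F : Type*} [Field F] [Fintype F] :
    Nat.card (ConjClasses (Matrix.GeneralLinearGroup (Fin 2) F)) = Fintype.card F ^ 2 - 1 := by
  classical
  obtain ⟨g0, h0⟩ := exists_ell (F := F)
  have v1 : ∀ χ ∈ setLin F, χ 1 = 1 ∧ χ (tri 1 1 1) = 1 := fun χ h => by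
    obtain ⟨α, rfl⟩ := mem_setLin.1 h
    exact ⟨Lin_one α, Lin_unip α 1⟩
  have v2 : ∀ χ ∈ setSt F, χ (tri 1 1 1) = 0 := fun χ h => by
    obtain ⟨α, rfl⟩ := mem_setSt.1 h
    exact St_unip α 1 one_ne_zero
  have v3 : ∀ χ ∈ setPS F, χ 1 = Fintype.card F + 1 ∧ χ (tri 1 1 1) = 1 := fun χ h => by
    obtain ⟨α, β, -, rfl⟩ := mem_setPS.1 h
    exact ⟨PS_one α β, by simp [PS_unip _ _ _ one_ne_zero]⟩
  have v4 : ∀ χ ∈ setCusp h0, χ (tri 1 1 1) = -1 := fun χ h => by
    obtain ⟨θ, -, rfl⟩ := (mem_setCusp h0).1 h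
    simp [Cusp_unip h0 _ _ one_ne_zero]
  have key := card_irr_eq_card_finset (G := GL (Fin 2) F) (fun _ => True)
    (setLin F ∪ (setSt F ∪ (setPS F ∪ setCusp h0))) fun χ => by
      simp only [Finset.mem_union, mem_setLin, mem_setSt, mem_setPS, mem_setCusp, and_true]
      refine ⟨?_, irr_GL2 h0⟩
      rintro (⟨α, rfl⟩ | ⟨α, rfl⟩ | ⟨α, β, h, rfl⟩ | ⟨θ, h, rfl⟩)
      exacts [isIrr_Lin α, isIrr_St α, isIrr_PS h, isIrr_Cusp h0 h]
  rw [Nat.card_congr (Equiv.subtypeUnivEquiv fun _ => trivial), card_irr_eq_card_conjClasses] at key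
  rw [key, Finset.card_union_of_disjoint, Finset.card_union_of_disjoint,
    Finset.card_union_of_disjoint, card_setLin, card_setSt]
  · have e1 := card_setPS (F := F)
    have e2 := card_setCusp h0
    have h3 : 2 ≤ Fintype.card F := Fintype.one_lt_card
    have h4 : 1 ≤ Fintype.card F ^ 2 := Nat.one_le_pow _ _ (by omega)
    have h5 : 1 ≤ Fintype.card F := by omega
    zify [h3, h4, h5] at e1 e2 ⊢
    nlinarith
  · rw [Finset.disjoint_left]
    intro χ h1 h2
    have := (v3 χ h1).2.symm.trans (v4 χ h2)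
    norm_num at this
  · rw [Finset.disjoint_left]
    intro χ h1 h2
    rcases Finset.mem_union.1 h2 with h2 | h2
    · have := (v2 χ h1).symm.trans (v3 χ h2).2
      norm_num at this
    · have := (v2 χ h1).symm.trans (v4 χ h2)
      norm_num at this
  · rw [Finset.disjoint_left]
    intro χ h1 h2
    rcases Finset.mem_union.1 h2 with h2 | h2
    · have := (v1 χ h1).2.symm.trans (v2 χ h2)
      norm_num at this
    rcases Finset.mem_union.1 h2 with h2 | h2
    · have := (v1 χ h1).1.symm.trans (v3 χ h2).1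
      exact q_ne_zero (F := F) (by linear_combination -this)
    · have := (v1 χ h1).2.symm.trans (v4 χ h2)
      norm_num at this

end Cfsg.Agent.S2330
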