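import Cfsg.Statements.S2362
import Cfsg.Agent.H6.Sx10

set_option autoImplicit false
open Cfsg

namespace Cfsg.Agent.S2362

/-- Let F be a finite field of odd order and n ≥ 3. The simple orthogonal group PΩ(2n+1, F) (type B_n) and the projective symplectic group PSp(2n, F) (type C_n), which have the same order, do not have the same set of element orders. -/
theorem result {F : Type*} [Field F] [Fintype F] (hodd : Odd (Fintype.card F)) (n : ℕ) (hn : 3 ≤ n) :
    Set.range (orderOf : Cfsg.POmega F (Cfsg.quadFormOdd n F) → ℕ) ≠ Set.range (orderOf : Cfsg.PSp n F → ℕ) := by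
  open CfsgH6.Sx in
  have h2 : (2 : F) ≠ 0 := fun h => by
    have := FiniteField.even_card_of_char_two (F := F) (by
      have := ringChar.of_eq (R := F) rfl
      exact (Nat.prime_dvd_prime_iff_eq (CharP.char_is_prime F _) Nat.prime_two).1
        ((ringChar.spec F 2).1 h))
    have := Nat.odd_iff.1 hodd
    omega
  obtain ⟨p, hc⟩ := CharP.exists F
  have hp := Fact.mk (CharP.char_is_prime F p)
  obtain ⟨k, rfl⟩ : ∃ k, n = k + 1 := ⟨n - 1, by omega⟩
  have q2 := two_le_card (F := F)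
  have qo := CfsgH5.card_odd_of_two_ne h2
  have qk : Nat.card F ^ k % 2 = 1 := by rw [Nat.pow_mod, qo]; simp
  have key : ∀ r : ℕ, r.Prime → ∀ e, 1 < e → e = orderOf (Nat.card F : ZMod r) →
      ((Odd e ∧ k = e) ∨ (Even e ∧ 2 * k = e)) → T (Nat.card F) k (2 * r) →
      (r ≠ 2 → ¬ T (Nat.card F) k (4 * r)) → Set.range (orderOf : Cfsg.POmega F
        (Cfsg.quadFormOdd (k + 1) F) → ℕ) ≠ Set.range (orderOf : Cfsg.PSp (k + 1) F → ℕ) := by
    intro r hr e e1 e2 e3 h h' k
    have r2 : r ≠ 2 := by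
      rintro rfl
      rw [(ZMod.natCast_eq_one_iff_odd).2 (Nat.odd_iff.2 qo), orderOf_one] at e2
      omega
    have rp : r ≠ p := by
      rintro rfl
      obtain ⟨a, -, ha⟩ := FiniteField.card F r
      rw [Nat.card_eq_fintype_card, ha] at e2
      simp [orderOf_zero] at e2
      omega
    refine o_2rp p h2 hn hr r2 rp (fun m hm => ?_) (h' r2)
      (k ▸ sp_2rp p (by omega) hr r2 rp (p_ne_two p h2) h)
    exact Nat.succ_le_succ (Nat.le_of_dvd hm.1 (hm.eta_dvd hr r2 (by omega) e2 e3))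
  have pos : 1 ≤ Nat.card F ^ k := Nat.one_le_pow _ _ (by omega)
  have nd : ∀ r : ℕ, r.Prime → r ≠ 2 → r ∣ Nat.card F ^ k + 1 → ¬ r ∣ Nat.card F ^ k - 1 :=
    fun r hr r2 a b => r2 ((Nat.prime_dvd_prime_iff_eq hr Nat.prime_two).1 (by
      have := Nat.dvd_sub a b
      rwa [show Nat.card F ^ k + 1 - (Nat.card F ^ k - 1) = 2 by omega] at this))
  have two : ∀ r a : ℕ, r.Prime → r ∣ a → a % 4 = 2 → r = 2 ∨ 2 * r ∣ a := fun r a hr h1 h3 =>
    (em (r = 2)).imp id fun r2 => ((Nat.coprime_primes Nat.prime_two hr).2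
      (Ne.symm r2)).mul_dvd_of_dvd_of_dvd (by omega) h1
  by_cases h4 : Nat.card F ^ k % 4 = 1
  · obtain ⟨r, hr, ho⟩ := CfsgH8.zsig (a := Nat.card F) (n := 2 * k) q2 (by omega) (by omega) (by omega)
    have h1 := eta_plus hr (by omega) ho.symm (by omega)
    have r2 : r ≠ 2 := by
      rintro rfl
      rw [(ZMod.natCast_eq_one_iff_odd).2 (Nat.odd_iff.2 qo), orderOf_one] at ho
      omega
    refine key r hr (2 * k) (by omega) ho.symm (Or.inr ⟨by simp, rfl⟩)
      ⟨by omega, Or.inl ((two r _ hr h1 (by omega)).resolve_left r2)⟩ fun _ h => h.2.elim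
        (fun h => ?_) fun h => nd r hr r2 h1 ((dvd_mul_left _ _).trans h)
    have := (dvd_mul_right _ _).trans h
    omega
  · have ko : Odd k := by
      rcases Nat.even_or_odd' k with ⟨j, rfl | rfl⟩
      · refine absurd ?_ h4
        have : Nat.card F ^ 2 % 4 = 1 := by
          obtain ⟨a, ha⟩ := Nat.odd_iff.2 qo
          rw [ha, show (2 * a + 1) ^ 2 = 4 * (a * a + a) + 1 by ring]
          omega
        rw [pow_mul, Nat.pow_mod, this]
        simp
      · exact ⟨j, rfl⟩
    have := Nat.odd_iff.1 ko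
    obtain ⟨r, hr, ho⟩ := CfsgH8.zsig (a := Nat.card F) (n := k) q2 (by omega) (by omega) (by omega)
    have h1 := (CfsgH8.dvd_iff_ord (a := Nat.card F) (k := k) (r := r) (by omega)).2 (ho ▸ dvd_rfl)
    have r2 : r ≠ 2 := by
      rintro rfl
      rw [(ZMod.natCast_eq_one_iff_odd).2 (Nat.odd_iff.2 qo), orderOf_one] at ho
      omega
    refine key r hr k (by omega) ho.symm (Or.inl ⟨ko, rfl⟩)
      ⟨by omega, Or.inr ((two r _ hr h1 (by omega)).resolve_left r2)⟩ fun _ h => h.2.elim
        (fun h => nd r hr r2 ((dvd_mul_left _ _).trans h) h1) fun h => ?_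
    have := (dvd_mul_right _ _).trans h
    omega

end Cfsg.Agent.S2362
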