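import Cfsg.Statements.S2363
import Cfsg.Agent.S0243
import Cfsg.Agent.S0280
import Cfsg.Agent.S0292
import Cfsg.Agent.S0293
import Cfsg.Agent.S0294
import Cfsg.Agent.S1163
import Cfsg.Agent.S1059
import Cfsg.Agent.S1062
import Cfsg.Agent.S1063
import Cfsg.Agent.S1064
import Cfsg.Agent.S1065
import Cfsg.Agent.S1066
import Cfsg.Agent.S1067
import Cfsg.Agent.S1068
import Cfsg.Agent.S1069
import Cfsg.Agent.H5.Symp2

set_option autoImplicit false
open Cfsg

namespace Cfsg.Agent.S2363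

/-- a positive power of `p` -/
def PP (p q : ℕ) : Prop := ∃ f, 0 < f ∧ q = p ^ f

/-- shape of the order formulas -/
def Sh (p q N d n R : ℕ) : Prop := PP p q ∧ 0 < N ∧ d * n = q ^ N * R ∧ ¬ p ∣ d ∧ ¬ p ∣ R

variable {p q N d n R : ℕ}

theorem PP.dvd (h : PP p q) {j : ℕ} (hj : 0 < j) : p ∣ q ^ j := by
  obtain ⟨f, hf, rfl⟩ := h
  exact dvd_pow (dvd_pow_self _ hf.ne') hj.ne'

theorem PP.two_le (hp : p.Prime) (h : PP p q) : 2 ≤ q := by
  obtain ⟨f, hf, rfl⟩ := h
  exact Nat.one_lt_pow hf.ne' hp.one_lt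

theorem PP.add (hp : p.Prime) (h : PP p q) {j : ℕ} (hj : 0 < j) : ¬ p ∣ q ^ j + 1 := fun k =>
  hp.one_lt.ne' (Nat.dvd_one.1 ((Nat.dvd_add_right (h.dvd hj)).1 k))

theorem PP.sub (hp : p.Prime) (h : PP p q) {j : ℕ} (hj : 0 < j) : ¬ p ∣ q ^ j - 1 := fun k => by
  have h1 : 1 ≤ q ^ j := Nat.one_le_pow _ _ (by have := h.two_le hp; omega)
  have := (Nat.dvd_sub_iff_right h1 (h.dvd hj)).1 k
  exact hp.one_lt.ne' (Nat.dvd_one.1 this)

theorem Sh.fact (hp : p.Prime) (h : Sh p q N d n R) : p ^ n.factorization p = q ^ N := by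
  obtain ⟨⟨f, hf, rfl⟩, -, h1, h2, h3⟩ := h
  have hR : R ≠ 0 := by rintro rfl; exact h3 (dvd_zero _)
  have hd : d ≠ 0 := by rintro rfl; exact h2 (dvd_zero _)
  have hn : n ≠ 0 := by rintro rfl; exact mul_ne_zero (pow_ne_zero _ (pow_ne_zero _ hp.ne_zero)) hR (by simpa using h1.symm)
  have := congrArg (fun x : ℕ => x.factorization p) h1
  rw [← pow_mul] at this
  simp only [Nat.factorization_mul hd hn, Nat.factorization_mul (pow_ne_zero _ hp.ne_zero) hR,
    Finsupp.add_apply, Nat.factorization_eq_zero_of_not_dvd h2, Nat.factorization_eq_zero_of_not_dvd h3,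
    hp.factorization_pow, Finsupp.single_eq_same, zero_add, add_zero] at this
  rw [this, pow_mul]

theorem Sh.lt (hp : p.Prime) (h : Sh p q N d n R) {a b : ℕ} (hb : 0 < b) (k : R ^ a ≤ d ^ a * q ^ (b * N)) :
    n ^ a < p ^ ((a + b) * n.factorization p) := by
  rw [mul_comm, pow_mul, h.fact hp]
  obtain ⟨h0, hN, h1, h2, h3⟩ := h
  have k1 : R ^ a < d ^ a * q ^ (b * N) := k.lt_of_ne fun e =>
    h3 (hp.dvd_of_dvd_pow (e ▸ (h0.dvd (Nat.mul_pos hb hN)).mul_left _))
  have hq : 0 < q := by have := h0.two_le hp; omega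
  refine Nat.lt_of_mul_lt_mul_left (a := d ^ a) ?_
  rw [← mul_pow, h1, mul_pow, pow_add, mul_left_comm, ← pow_mul q N b, mul_comm N b]
  exact Nat.mul_lt_mul_of_pos_left k1 (by positivity)

/-- the generic bound -/
def Bd (p n : ℕ) : Prop := n < p ^ (3 * n.factorization p) ∧ n ^ 3 < p ^ (8 * n.factorization p)

theorem Sh.bd (hp : p.Prime) (h : Sh p q N d n R) (k : R ^ 3 ≤ d ^ 3 * q ^ (5 * N)) : Bd p n := by
  have := h.lt hp (by norm_num) k
  refine ⟨lt_of_pow_lt_pow_left₀ 3 (Nat.zero_le _) (this.trans_le ?_), this⟩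
  rw [← pow_mul]
  exact Nat.pow_le_pow_right hp.pos (by omega)

theorem Sh.bd' (hp : p.Prime) (h : Sh p q N d n R) {D : ℕ} (k : R ≤ q ^ D) (hD : 3 * D ≤ 5 * N) : Bd p n := by
  refine h.bd hp ((Nat.pow_le_pow_left k 3).trans ?_)
  have hd : 0 < d := Nat.pos_of_ne_zero (by rintro rfl; exact h.2.2.2.1 (dvd_zero _))
  rw [← pow_mul]
  exact (Nat.pow_le_pow_right (by have := h.1.two_le hp; omega) (by omega)).trans
    (Nat.le_mul_of_pos_left _ (by positivity))

theorem pp_card (hp : p.Prime) (F : Type*) [Field F] [Fintype F] [CharP F p] : PP p (Fintype.card F) := by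
  haveI := Fact.mk hp
  obtain ⟨n, -, h⟩ := FiniteField.card F p
  exact ⟨n, n.2, h⟩

theorem PP.root (hp : p.Prime) {j : ℕ} (h : PP p (q ^ j)) : PP p q := by
  have h2 := h.two_le hp
  obtain ⟨f, hf, h⟩ := h
  have hj : j ≠ 0 := by rintro rfl; simp at h2
  obtain ⟨k, -, rfl⟩ := (Nat.dvd_prime_pow hp).1 (h ▸ dvd_pow_self q hj)
  exact ⟨k, Nat.pos_of_ne_zero (by rintro rfl; simp at h2), rfl⟩

theorem nd_mul (hp : p.Prime) {a b : ℕ} (ha : ¬ p ∣ a) (hb : ¬ p ∣ b) : ¬ p ∣ a * b := hp.not_dvd_mul ha hb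

theorem nd_prod (hp : p.Prime) {s : Finset ℕ} {f : ℕ → ℕ} (h : ∀ i, ¬ p ∣ f i) : ¬ p ∣ ∏ i ∈ s, f i :=
  hp.prime.not_dvd_finset_prod fun i _ => h i

theorem nd_gcd {a b : ℕ} (hb : ¬ p ∣ b) : ¬ p ∣ Nat.gcd a b := fun k => hb (k.trans (Nat.gcd_dvd_right _ _))

theorem prod_even (q m : ℕ) : ∏ i ∈ Finset.range m, (q ^ (2 * (i + 1)) - 1) ≤ q ^ (m * (m + 1)) := by
  induction m with
  | zero => simp
  | succ m ih =>
    rw [Finset.prod_range_succ, show (m + 1) * (m + 1 + 1) = m * (m + 1) + 2 * (m + 1) by ring, pow_add]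
    exact Nat.mul_le_mul ih (Nat.sub_le _ _)

theorem half (n : ℕ) : (n + 1) * (n + 1 - 1) / 2 = n * (n - 1) / 2 + n := by
  rw [← Finset.sum_range_id, ← Finset.sum_range_id, Finset.sum_range_succ]

theorem ind (hq : 0 < q) {f : ℕ → ℕ} {c : ℕ} (h3 : ∏ i ∈ Finset.range 3, f i ≤ c * q ^ 5) (h : ∀ i, f i ≤ q ^ (i + 2))
    {n : ℕ} (hn : 3 ≤ n) : (∏ i ∈ Finset.range n, f i) ^ 3 ≤ c ^ 3 * q ^ (5 * (n * (n - 1) / 2)) := by
  induction n, hn using Nat.le_induction with
  | base => exact (Nat.pow_le_pow_left h3 3).trans_eq (by ring)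
  | succ n hn ih =>
    rw [Finset.prod_range_succ, half, mul_add, pow_add, mul_pow, ← mul_assoc]
    refine Nat.mul_le_mul ih ((Nat.pow_le_pow_left (h n) 3).trans ?_)
    rw [← pow_mul]
    exact Nat.pow_le_pow_right hq (by omega)

theorem prod_GL (q n : ℕ) : ∏ i : Fin n, (q ^ n - q ^ (i : ℕ)) =
    q ^ (n * (n - 1) / 2) * ∏ i ∈ Finset.range n, (q ^ (i + 1) - 1) := by
  rw [Fin.prod_univ_eq_prod_range (fun i => q ^ n - q ^ i), ← Finset.sum_range_id, ← Finset.prod_pow_eq_pow_sum,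
    ← Finset.prod_range_reflect (fun i => q ^ (i + 1) - 1), ← Finset.prod_mul_distrib]
  refine Finset.prod_congr rfl fun i hi => ?_
  rw [Finset.mem_range] at hi
  rw [Nat.mul_sub, ← pow_add, mul_one]
  congr 2; omega

theorem add_le (hq : 2 ≤ q) (j : ℕ) : q ^ j + 1 ≤ q ^ (j + 1) := by
  have : 1 ≤ q ^ j := Nat.one_le_pow _ _ (by omega)
  rw [pow_succ]; nlinarith

theorem sub_le (q j : ℕ) : q ^ j - 1 ≤ q ^ j := Nat.sub_le _ _

theorem le_gcd {a b c x : ℕ} (ha : 0 < a) : c ^ 3 * x ≤ (Nat.gcd a b * c) ^ 3 * x :=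
  Nat.mul_le_mul_right _ (Nat.pow_le_pow_left (Nat.le_mul_of_pos_left _ (Nat.gcd_pos_of_pos_left _ ha)) _)

theorem sh_PSL (hp : p.Prime) (F : Type*) [Field F] [Fintype F] [CharP F p] {n : ℕ} (hn : 2 ≤ n) :
    Sh p (Fintype.card F) (n * (n - 1) / 2) (Nat.gcd n (Fintype.card F - 1) * (Fintype.card F - 1))
      (Nat.card (Matrix.ProjectiveSpecialLinearGroup (Fin n) F))
      (∏ i ∈ Finset.range n, (Fintype.card F ^ (i + 1) - 1)) := by
  have h := pp_card hp F
  have h1 := h.sub hp one_pos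
  rw [pow_one] at h1
  refine ⟨h, ?_, by rw [mul_assoc, S0243.result rfl n hn, prod_GL], nd_mul hp (nd_gcd h1) h1,
    nd_prod hp fun i => h.sub hp i.succ_pos⟩
  obtain ⟨k, rfl⟩ := Nat.exists_eq_add_of_lt (show 1 < n from hn)
  rw [half]; omega

theorem bd_PSL (hp : p.Prime) (F : Type*) [Field F] [Fintype F] [CharP F p] {n : ℕ} (hn : 3 ≤ n) :
    Bd p (Nat.card (Matrix.ProjectiveSpecialLinearGroup (Fin n) F)) := by
  have h := (pp_card hp F).two_le hp
  refine (sh_PSL hp F (by omega)).bd hp ((ind (by omega) ?_ (fun i => (sub_le _ _).trans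
    (Nat.pow_le_pow_right (by omega) (by omega))) hn).trans (le_gcd (by omega)))
  simp only [Finset.prod_range_succ, Finset.range_zero, Finset.prod_empty, one_mul, zero_add, pow_one, mul_assoc]
  exact Nat.mul_le_mul_left _ ((Nat.mul_le_mul (sub_le _ _) (sub_le _ _)).trans_eq (by ring))

theorem bd_PSU (hp : p.Prime) (F : Type*) [Field F] [Fintype F] [CharP F p] (hF : Fintype.card F = q ^ 2) {n : ℕ}
    (hn : 3 ≤ n) : Bd p (Nat.card (PSU n F q)) := by
  have h : PP p q := PP.root hp (hF ▸ pp_card hp F)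
  have h2 := h.two_le hp
  have h1 := h.add hp one_pos
  rw [pow_one] at h1
  refine Sh.bd hp ⟨h, ?_, (mul_assoc _ _ _).trans (S0280.result hF n (by omega)), nd_mul hp (nd_gcd h1) h1,
    nd_prod hp fun i => ?_⟩ ((ind (by omega) ?_ (fun i => ?_) hn).trans (le_gcd (by omega)))
  · obtain ⟨k, rfl⟩ := Nat.exists_eq_add_of_lt (show 2 < n from hn)
    rw [half]; omega
  · split_ifs
    exacts [h.add hp i.succ_pos, h.sub hp i.succ_pos]
  · simp only [Finset.prod_range_succ, Finset.range_zero, Finset.prod_empty, one_mul, zero_add, pow_one, mul_assoc,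
      Even.zero, if_true, Nat.not_even_one, if_false, even_two]
    refine Nat.mul_le_mul_left _ ?_
    have a : 1 ≤ q ^ (1 + 1) := Nat.one_le_pow _ _ (by omega)
    have b : q ^ 2 ≤ q ^ 3 := Nat.pow_le_pow_right (by omega) (by omega)
    zify [a] at b ⊢
    rw [show ((q : ℤ) ^ (1 + 1) - 1) * (q ^ (2 + 1) + 1) = q ^ 5 + q ^ 2 - q ^ 3 - 1 by ring]
    omega
  · split_ifs
    exacts [add_le h2 _, (sub_le _ _).trans (Nat.pow_le_pow_right (by omega) (by omega))]

theorem bd_BC (hp : p.Prime) {m : ℕ} (h : PP p q) (hm : 2 ≤ m) (hd : ¬ p ∣ d)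
    (e : d * n = q ^ (m ^ 2) * ∏ i ∈ Finset.range m, (q ^ (2 * (i + 1)) - 1)) : Bd p n :=
  Sh.bd' hp ⟨h, by positivity, e, hd, nd_prod hp fun i => h.sub hp (by omega)⟩ (prod_even q m) (by nlinarith)

theorem bd_D (hp : p.Prime) {m x : ℕ} (h : PP p q) (hm : 4 ≤ m) (hx : ¬ p ∣ x) (hx' : x ≤ q ^ (m + 1))
    (e : Nat.gcd 4 x * n = q ^ (m * (m - 1)) * x * ∏ i ∈ Finset.range (m - 1), (q ^ (2 * (i + 1)) - 1)) : Bd p n := by
  obtain ⟨k, rfl⟩ := Nat.exists_eq_add_of_lt (show 3 < m from hm)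
  rw [Nat.add_sub_cancel] at e
  exact Sh.bd' hp ⟨h, by positivity, e.trans (mul_assoc _ _ _), nd_gcd hx, nd_mul hp hx (nd_prod hp fun i => h.sub hp (by omega))⟩
    ((Nat.mul_le_mul hx' (prod_even q _)).trans_eq (pow_add _ _ _).symm) (by nlinarith)

theorem Bd.congr {G H : Type*} [Group G] [Group H] (h : Bd p (Nat.card H)) (e : Nonempty (G ≃* H)) : Bd p (Nat.card G) := by
  obtain ⟨e⟩ := e
  rwa [Nat.card_congr e.toEquiv]

theorem bd_list (hp : p.Prime) (h : PP p q) (hN : 0 < N) (hd : ¬ p ∣ d) (l : List (ℕ × ℕ)) (hl : ∀ x ∈ l, ¬ p ∣ x.1 ∧ x.1 ≤ q ^ x.2)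
    (e : d * n = q ^ N * (l.map Prod.fst).prod) (k : 3 * (l.map Prod.snd).sum ≤ 5 * N) : Bd p n := by
  have : ¬ p ∣ (l.map Prod.fst).prod ∧ (l.map Prod.fst).prod ≤ q ^ (l.map Prod.snd).sum := by
    clear e k
    induction l with
    | nil => simpa using hp.one_lt.ne'
    | cons a l ih =>
      have a1 := hl a (by simp)
      have a2 := ih fun x hx => hl x (by simp [hx])
      simp only [List.map_cons, List.prod_cons, List.sum_cons, pow_add]
      exact ⟨nd_mul hp a1.1 a2.1, Nat.mul_le_mul a1.2 a2.2⟩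
  exact Sh.bd' hp ⟨h, hN, e, hd, this.1⟩ this.2 k

/-- factors `q^j - 1` and `q^j + 1` -/
theorem bd_pm (hp : p.Prime) (h : PP p q) (hN : 0 < N) (hd : ¬ p ∣ d) (l l' : List ℕ) (hl : ∀ x ∈ l ++ l', 0 < x)
    (e : d * n = q ^ N * ((l.map fun j => q ^ j - 1).prod * (l'.map fun j => q ^ j + 1).prod))
    (k : 3 * (l.sum + l'.sum + l'.length) ≤ 5 * N) : Bd p n := by
  refine bd_list hp h hN hd (l.map (fun j => (q ^ j - 1, j)) ++ l'.map fun j => (q ^ j + 1, j + 1)) (fun x hx => ?_)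
    (by simpa [Function.comp_def] using e) (by simpa [Function.comp_def, List.sum_map_add, add_assoc] using k)
  simp only [List.mem_append, List.mem_map] at hx hl
  rcases hx with ⟨j, hj, rfl⟩ | ⟨j, hj, rfl⟩
  exacts [⟨h.sub hp (hl j (Or.inl hj)), sub_le _ _⟩, ⟨h.add hp (hl j (Or.inr hj)), add_le (h.two_le hp) _⟩]

/-- Let G be a finite simple group of Lie type in characteristic p and let p^k be the exact power of p dividing the order of G. Then the order of G is less than p^(3k); and unless G is isomorphic to PSL(2, F) for the field F with p^k elements, the cube of the order of G is less than p^(8k) (that is, the order is below p^(8k/3)). -/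
theorem result {G : Type*} [Group G] [Finite G] (p : ℕ) (hp : p.Prime) (hG : Cfsg.IsLieTypeChar p G) :
    Nat.card G < p ^ (3 * (Nat.card G).factorization p) ∧
      ((¬ ∃ (F : Type) (_ : Field F) (_ : Fintype F), Fintype.card F = p ^ (Nat.card G).factorization p ∧
          Nonempty (G ≃* Matrix.ProjectiveSpecialLinearGroup (Fin 2) F)) →
        Nat.card G ^ 3 < p ^ (8 * (Nat.card G).factorization p)) := by
  have one : ¬ p ∣ 1 := fun k => hp.one_lt.ne' (Nat.dvd_one.1 k)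
  suffices h : Bd p (Nat.card G) ∨ (Nat.card G < p ^ (3 * (Nat.card G).factorization p) ∧
      ∃ (F : Type) (_ : Field F) (_ : Fintype F), Fintype.card F = p ^ (Nat.card G).factorization p ∧
          Nonempty (G ≃* Matrix.ProjectiveSpecialLinearGroup (Fin 2) F)) by
    rcases h with h | h
    exacts [⟨h.1, fun _ => h.2⟩, ⟨h.1, fun k => (k h.2).elim⟩]
  rcases hG with ⟨F, _, _, _, n, hn, -, e⟩ | hG
  · rcases hn.eq_or_lt with rfl | hn
    · have s := sh_PSL hp F le_rfl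
      rw [← Nat.card_congr e.some.toEquiv] at s
      refine Or.inr ⟨?_, F, inferInstance, inferInstance, by rw [s.fact hp]; simp, e⟩
      have := s.lt hp (a := 1) (b := 2) two_pos (by
        simp only [Finset.prod_range_succ, Finset.range_zero, Finset.prod_empty, one_mul, zero_add, pow_one]
        exact Nat.mul_le_mul (Nat.le_mul_of_pos_left _ (Nat.gcd_pos_of_pos_left _ two_pos)) (sub_le _ _))
      simpa using this
    · exact Or.inl ((bd_PSL hp F hn).congr e)
  left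
  rcases hG with ⟨F, _, _, _, m, hm, -, e⟩ | ⟨F, _, _, _, n, q, hF, hn, -, e⟩ | ⟨F, _, _, _, m, hm, ho, e⟩ |
    ⟨F, _, _, _, m, hm, e⟩ | ⟨F, _, _, _, m, a, b, hm, hab, e⟩ | ⟨F, _, _, _, hG⟩ | ⟨F, _, _, _, q, hq, hG⟩ |
    ⟨rfl, F, _, _, m, hm, hF, e⟩ | ⟨rfl, F, _, _, m, hm, hF, e⟩ | ⟨rfl, F, _, _, m, hm, hF, e⟩
  · have h := pp_card hp F
    have d := Subgroup.card_eq_card_quotient_mul_card_subgroup (Subgroup.center (Matrix.symplecticGroup (Fin m) F))
    rw [CfsgH5.card_symplecticGroup, Nat.card_congr (Subgroup.centerCongr (CfsgH5.spEquiv m)).toEquiv,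
      CfsgH5.CForm.symp_card_center (CfsgH5.spForm_nondeg m) (by simp; omega), Nat.card_eq_fintype_card, mul_comm (Nat.card _)] at d
    exact (bd_BC hp h hm (nd_gcd (by simpa using h.sub hp one_pos)) d.symm).congr e
  · exact (bd_PSU hp F hF hn).congr e
  · have h := pp_card hp F
    refine (bd_BC hp h (by omega) (fun k => ?_) (S0292.result rfl ho m hm)).congr e
    obtain rfl := (Nat.prime_dvd_prime_iff_eq hp Nat.prime_two).1 k
    exact (Nat.not_even_iff_odd.2 ho) (even_iff_two_dvd.2 (by simpa using h.dvd one_pos))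
  · have h := pp_card hp F
    exact (bd_D hp h hm (h.sub hp (by omega)) ((sub_le _ _).trans (Nat.pow_le_pow_right Fintype.card_pos (by omega)))
      (S0293.result rfl m hm)).congr e
  · have h := pp_card hp F
    exact (bd_D hp h hm (h.add hp (by omega)) (add_le (h.two_le hp) _) (S0294.result rfl m hm a b hab)).congr e
  · have h := pp_card hp F
    have h1 : ∀ a, ¬ p ∣ Nat.gcd a (Fintype.card F - 1) := fun a => nd_gcd (by simpa using h.sub hp one_pos)
    rcases hG with ⟨-, e⟩ | e | e | e | e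
    · exact (bd_pm hp h (N := 6) (by norm_num) one [2, 6] [] (by simp) (by rw [S1059.result rfl]; simp [mul_assoc])
        (by simp)).congr e
    · exact (bd_pm hp h (N := 24) (by norm_num) one [2, 6, 8, 12] [] (by simp)
        (by rw [S1062.result rfl]; simp [mul_assoc]) (by simp)).congr e
    · exact (bd_pm hp h (N := 36) (by norm_num) (h1 3) [2, 5, 6, 8, 9, 12] [] (by simp)
        (by rw [S1063.result rfl]; simp [mul_assoc]) (by simp)).congr e
    · exact (bd_pm hp h (N := 63) (by norm_num) (h1 2) [2, 6, 8, 10, 12, 14, 18] [] (by simp)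
        (by rw [S1064.result rfl]; simp [mul_assoc]) (by simp)).congr e
    · exact (bd_pm hp h (N := 120) (by norm_num) one [2, 8, 12, 14, 18, 20, 24, 30] [] (by simp)
        (by rw [S1065.result rfl]; simp [mul_assoc]) (by simp)).congr e
  · rcases hG with ⟨hF, e⟩ | ⟨hF, e⟩
    · have h : PP p q := PP.root hp (hF ▸ pp_card hp F)
      exact (bd_pm hp h (N := 36) (by norm_num) (nd_gcd (by simpa using h.add hp one_pos)) [2, 6, 8, 12] [5, 9] (by simp)
        (by rw [S1066.result hq hF]; simp only [List.map, List.prod_cons, List.prod_nil]; ring) (by simp)).congr e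
    · have h : PP p q := PP.root hp (hF ▸ pp_card hp F)
      refine (bd_list hp h (N := 12) (by norm_num) one [(q ^ 2 - 1, 2), (q ^ 6 - 1, 6), (q ^ 8 + q ^ 4 + 1, 10)] ?_
        (by rw [S1067.result hq hF]; simp [mul_assoc]) (by simp)).congr e
      simp only [List.forall_mem_cons]
      refine ⟨⟨h.sub hp two_pos, sub_le _ _⟩, ⟨h.sub hp (by norm_num), sub_le _ _⟩, ⟨fun k => one
        ((Nat.dvd_add_right ((h.dvd (by norm_num)).add (h.dvd (by norm_num)))).1 k), ?_⟩, by simp⟩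
      have a := h.two_le hp
      have b : q ^ 4 ≤ q ^ 8 := Nat.pow_le_pow_right (by omega) (by omega)
      have c : 1 ≤ q ^ 8 := Nat.one_le_pow _ _ (by omega)
      have : q ^ 10 = q ^ 8 * (q * q) := by ring
      nlinarith [Nat.mul_le_mul a a]
  · have h : PP 2 (2 ^ (2 * m + 1)) := ⟨_, by omega, rfl⟩
    have a := (S1163.result hm hF).1
    generalize 2 ^ (2 * m + 1) = q at h a
    refine (Sh.bd' (R := (q - 1) * (q ^ 2 + 1)) hp ⟨h, two_pos, by rw [a, one_mul, mul_assoc], one, nd_mul hp (by simpa using h.sub hp one_pos)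
      (h.add hp two_pos)⟩ (D := 3) ?_ (by norm_num)).congr e
    have b : 1 ≤ q := by have := h.two_le hp; omega
    have c : q ≤ q ^ 2 := Nat.le_self_pow two_ne_zero q
    zify [b] at c ⊢
    nlinarith
  · exact (bd_pm hp (q := 2 ^ (2 * m + 1)) ⟨_, by omega, rfl⟩ (N := 12) (by norm_num) one [1, 4] [3, 6] (by simp)
      (by rw [S1068.result hF]; simp only [List.map, List.prod_cons, List.prod_nil]; ring) (by simp)).congr e
  · exact (bd_pm hp (q := 3 ^ (2 * m + 1)) ⟨_, by omega, rfl⟩ (N := 3) (by norm_num) one [1] [3] (by simp)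
      (by rw [S1069.result hF]; simp only [List.map, List.prod_cons, List.prod_nil]; ring) (by simp)).congr e

end Cfsg.Agent.S2363
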