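import Cfsg.Statements.S2364
import Mathlib
import Cfsg.Agent.L0.GLn3

set_option autoImplicit false
open Cfsg

namespace Cfsg.Agent.S2364

open CfsgL0.GLn Module Polynomial

/-- Let F be a finite field of characteristic p, n ≥ 4, and let a, b be commuting elements of PSL(n, F) with a of order p. Then every prime divisor of the order of b divides the order of SL(n − 2, F). -/
theorem result {F : Type*} [Field F] [Fintype F] (p : ℕ) [Fact p.Prime] [CharP F p] (n : ℕ) (hn : 4 ≤ n)
    (a b : Matrix.ProjectiveSpecialLinearGroup (Fin n) F) (ha : orderOf a = p) (hab : Commute a b) :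
    (orderOf b).primeFactors ⊆ (Nat.card (Matrix.SpecialLinearGroup (Fin (n - 2)) F)).primeFactors := by
  have hq : 1 ≤ Nat.card F := Nat.card_pos
  have hp : p.Prime := Fact.out
  intro r hr
  have hrb := Nat.dvd_of_mem_primeFactors hr
  have hr := Nat.prime_of_mem_primeFactors hr
  refine Nat.mem_primeFactors.2 ⟨hr, ?_, Nat.card_pos.ne'⟩
  have main : ∀ (A : Type _) [CommRing A] [Algebra F A] [Module.Finite F A] (c : F × A), finrank F A + 1 = n - 2 →
      Algebra.norm F c = 1 → orderOf c = r → r ∣ Nat.card (Matrix.SpecialLinearGroup (Fin (n - 2)) F) := by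
    intro A _ _ _ c h1 h2 h3
    obtain ⟨g, hg, -⟩ := exists_SL (F := F) (F × A) (n := n - 2) (by simp; omega) c h2
    exact h3 ▸ (orderOf_eq_orderOf_iff.2 hg) ▸ orderOf_dvd_natCard g
  by_cases hrp : r = p
  · subst hrp
    obtain ⟨B, _, _, _, b, b1, b2, b3, -⟩ := dual_facts (F := F) r
    obtain ⟨g, hg, -⟩ := exists_SL (F := F) (B × (Fin (n - 4) → F)) (n := n - 2) (by simp [b1]; omega) (b, 1)
      (by rw [norm_pair, b2]; simp)
    have : orderOf g = r := by rw [orderOf_eq_orderOf_iff.2 hg, Prod.orderOf_mk, b3]; simp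
    exact this ▸ orderOf_dvd_natCard g
  by_cases h1 : r ∣ Nat.card F - 1
  · obtain ⟨c, hc0, hc⟩ := exists_orderOf_of_dvd F h1
    refine main (F × (Fin (n - 4) → F)) (c, c⁻¹, 1) (by simp; omega) (by rw [norm_pair, norm_pair]; simp [hc0]) ?_
    have : orderOf c⁻¹ = r := by rw [← hc, orderOf_eq_orderOf_iff]; simp
    rw [Prod.orderOf_mk, Prod.orderOf_mk, hc, this]; simp
  obtain ⟨-, hk0⟩ := ord_le_of_dvd_card (F := F) (n := n) (by omega) hr (cast_ne_zero p hr hrp)
    (hrb.trans (orderOf_dvd_natCard b))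
  have h2 : 2 ≤ orderOf (Nat.card F : ZMod r) := by
    by_contra h
    exact h1 (by simpa using (dvd_pow_sub_one_iff (r := r) (d := 1) hq).2 (by
      rw [show orderOf (Nat.card F : ZMod r) = 1 by omega]))
  have hb := orderOf_pow_orderOf_div (orderOf_pos b).ne' hrb
  have := nec_rp p (by omega) hr hrp h2 (b ^ (orderOf b / r) * a) (by
    rw [(hab.symm.pow_left _).orderOf_mul_eq_mul_orderOf_of_coprime, hb, ha]
    rw [hb, ha]; exact (Nat.coprime_primes hr hp).2 hrp)
  obtain ⟨K, _, _, _, c, k1, k2, -⟩ := exists_elt (F := F) hk0 ((dvd_pow_sub_one_iff hq).2 dvd_rfl)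
  obtain ⟨g, hg, -⟩ := exists_SL (F := F) (K × (Fin (n - 2 - orderOf (Nat.card F : ZMod r)) → F)) (n := n - 2)
    (by rw [finrank_prod, k1, Module.finrank_fin_fun]; omega) (c, 1) (by
      rw [norm_pair, norm_eq_one (hr.coprime_iff_not_dvd.2 h1) hr.ne_zero (k2 ▸ pow_orderOf_eq_one c)]; simp)
  have : orderOf g = r := by rw [orderOf_eq_orderOf_iff.2 hg, Prod.orderOf_mk, k2]; simp
  exact this ▸ orderOf_dvd_natCard g

end Cfsg.Agent.S2364
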