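import Cfsg.Statements.S2366
import Cfsg.Agent.H6.Sx6

set_option autoImplicit false
open Cfsg

namespace Cfsg.Agent.S2366

open Polynomial Module CfsgH5 CfsgH5.Gc CfsgH6.Sx CfsgH6.SC

theorem char_D {F : Type*} [Field F] {σ : F →+* F} {q n : ℕ} (H : UF σ q) {x : End F (Fin n → F)}
    (hx : Iso (hermC H n) x) : D σ x.charpoly ∣ x.charpoly := by
  obtain ⟨g, rfl⟩ := hx.equiv (hermC_nondeg H n)
  have h1 := charpoly_adj_herm H g.1.toLinearMap
  rw [adj_isom _ g.2, charpoly_symm] at h1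
  have h2 := congrArg (Polynomial.map σ) h1
  rw [Polynomial.map_map, show σ.comp σ = RingHom.id F from RingHom.ext H.invol, Polynomial.map_id,
    Polynomial.map_mul] at h2
  exact Dvd.intro_left _ h2

theorem div_dvd {N t a b : ℕ} (h1 : N ∣ t * a) (h2 : N ∣ t * b) (h : Nat.gcd a b ∣ N)
    (ha : 0 < a) : N / Nat.gcd a b ∣ t :=
  Nat.dvd_of_mul_dvd_mul_right (Nat.gcd_pos_of_pos_left b ha) (by
    have := Nat.dvd_gcd h1 h2
    rwa [Nat.gcd_mul_left, ← Nat.div_mul_cancel h] at this)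

theorem three {F : Type*} [Field F] {a b c : F} {t : ℕ} (h1 : a ≠ b) (h2 : a ≠ c) (h3 : b ≠ c)
    (e1 : b ^ t = a ^ t) (e2 : c ^ t = a ^ t) : (X - C a) * (X - C b) * (X - C c) ∣ X ^ t - C (a ^ t) :=
  ((CfsgL0.GLn.lin_coprime h2).mul_left (CfsgL0.GLn.lin_coprime h3)).mul_dvd
    ((CfsgL0.GLn.lin_coprime h1).mul_dvd (CfsgL0.GLn.lin_dvd rfl) (CfsgL0.GLn.lin_dvd e1))
    (CfsgL0.GLn.lin_dvd e2)

theorem third {F : Type*} [Field F] {a b c : F} {t : ℕ} (h : a * b * c = 1) (e1 : b ^ t = a ^ t)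
    (e2 : a ^ (t * 3) = 1) : c ^ t = a ^ t := by
  have := congrArg (· ^ t) h
  simp only [mul_pow, one_pow, e1] at this
  rw [pow_mul] at e2
  linear_combination a ^ t * this - c ^ t * e2

/-- The set of element orders of PSU(3, q) for an odd prime power q = p^n: writing d = gcd(3, q + 1), a positive integer is the order of some element exactly when it divides one of q + 1, p(q + 1)/d, (q² − 1)/d, (q² − q + 1)/d. -/
theorem result {F : Type*} [Field F] [Fintype F] (p : ℕ) [Fact p.Prime] [CharP F p] (hp : p ≠ 2) (q : ℕ) (hF : Fintype.card F = q ^ 2) :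
    Set.range (orderOf : Cfsg.PSU 3 F q → ℕ) =
      {s : ℕ | s ∣ q + 1} ∪ {s : ℕ | s ∣ p * (q + 1) / Nat.gcd 3 (q + 1)} ∪
        {s : ℕ | s ∣ (q ^ 2 - 1) / Nat.gcd 3 (q + 1)} ∪ {s : ℕ | s ∣ (q ^ 2 - q + 1) / Nat.gcd 3 (q + 1)} := by
  have hp' : p.Prime := Fact.out
  obtain ⟨σ, H⟩ := exists_UF hF
  have hq := H.two_le
  obtain ⟨θ, M⟩ := mod_SU H (n := 3) (by omega)
  obtain ⟨u, hu⟩ := Nat.gcd_dvd_right 3 (q + 1)
  obtain ⟨e, he⟩ := Nat.gcd_dvd_left 3 (q + 1)
  have hd0 : 0 < Nat.gcd 3 (q + 1) := Nat.gcd_pos_of_pos_left _ (by omega)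
  have hN : Nu q 3 = q ^ 2 - q + 1 := by
    refine Nat.eq_of_mul_eq_mul_right (show 0 < q + 1 by omega) ?_
    rw [Nu_odd q (by decide)]
    zify [show q ≤ q ^ 2 by nlinarith]
    ring
  have hN3 : q ^ 2 - q + 1 = (q + 1) * (q - 2) + 3 := by
    zify [show q ≤ q ^ 2 by nlinarith, hq]
    ring
  have hN2 : q ^ 2 - 1 = (q - 1) * (q + 1) := by rw [← H.card, H.card_units]
  have hdN : Nat.gcd 3 (q + 1) ∣ q ^ 2 - q + 1 :=
    hN3 ▸ dvd_add ((Nat.gcd_dvd_right _ _).mul_right _) (Nat.gcd_dvd_left _ _)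
  have e1 : p * (q + 1) / Nat.gcd 3 (q + 1) = u * p ^ 1 := by
    rw [Nat.div_eq_of_eq_mul_right hd0]; rw [pow_one]; nth_rewrite 1 [hu]; ring
  have e2 : (q ^ 2 - 1) / Nat.gcd 3 (q + 1) = (q - 1) * u := by
    rw [Nat.div_eq_of_eq_mul_right hd0]; rw [hN2]; nth_rewrite 1 [hu]; ring
  have hp3 : 3 ≤ p ^ 1 := by have := hp'.two_le; rw [pow_one]; omega
  have hF1 : ∀ a : F, a ≠ 0 → a ^ ((q - 1) * (q + 1)) = 1 := fun a ha =>
    H.card_units ▸ CfsgL0.GLn.pow_card_sub_one ha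
  refine Set.Subset.antisymm ?_ ?_
  · rintro _ ⟨x, rfl⟩
    obtain ⟨g, rfl⟩ := QuotientGroup.mk_surjective x
    have hD := char_D H (M.iso g)
    have key : ∀ t c, (θ g).charpoly ∣ X ^ t - C c →
        orderOf (QuotientGroup.mk g : PSU 3 F q) ∣ t := fun t c h =>
      (M.ord_dvd _ _).2 ⟨c, pow_iff_dvd.2 ((LinearMap.minpoly_dvd_charpoly _).trans h)⟩
    have hdet := M.det trivial g
    rw [LinearMap.det_eq_sign_charpoly_coeff] at hdet
    have hm := (θ g).charpoly_monic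
    have h3 : (θ g).charpoly.natDegree = 3 := by simp [LinearMap.charpoly_natDegree]
    simp only [finrank_fintype_fun_eq_card, Fintype.card_fin] at hdet
    generalize (θ g).charpoly = χ at *
    have h0 : χ.coeff 0 ≠ 0 := right_ne_zero_of_mul_eq_one hdet
    have hr : ∀ a : F, χ.eval a = 0 → χ.eval (a ^ q)⁻¹ = 0 := fun a ha => by
      have := D_root (K := F) σ (fun _ => rfl) (a := a) (by
        rintro rfl; exact h0 (coeff_zero_eq_eval_zero χ ▸ ha)) (p := χ) (by simpa using ha)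
      rw [coe_aeval_eq_eval, H.pow] at this
      exact eval_eq_zero_of_dvd_of_eval_eq_zero hD this
    have hi : ∀ a b : F, (a ^ q)⁻¹ = b → (b ^ q)⁻¹ = a := by
      rintro a _ rfl
      rw [← H.pow, ← H.pow, map_inv₀, inv_inv, H.invol]
    have hfix : ∀ a : F, a ≠ 0 → (a ^ q)⁻¹ = a → a ^ (q + 1) = 1 := fun a ha h => by
      rw [pow_succ]; nth_rewrite 2 [← h]; exact mul_inv_cancel₀ (pow_ne_zero _ ha)
    have swap : ∀ a b c : F, a * b * c = 1 → (a ^ q)⁻¹ = b →
        b ^ ((q - 1) * u) = a ^ ((q - 1) * u) ∧ c ^ ((q - 1) * u) = a ^ ((q - 1) * u) := by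
      rintro a _ c h rfl
      have ha : a ≠ 0 := left_ne_zero_of_mul (left_ne_zero_of_mul_eq_one h)
      have k1 := inv_frob (q := q) (a := a) (t := (q - 1) * u) (by
        rw [mul_right_comm, pow_mul, hF1 a ha, one_pow])
      refine ⟨k1, third h k1 ?_⟩
      rw [show (q - 1) * u * 3 = (q - 1) * (q + 1) * e by
        nth_rewrite 1 [he]; nth_rewrite 2 [hu]; ring, pow_mul, hF1 a ha, one_pow]
    simp only [Set.mem_union, Set.mem_setOf_eq, e1, e2]
    rcases CfsgL0.GLn.cubic_cases hm h3 with h | ⟨a, g, g1, g2, g3, rfl⟩ | ⟨a, b, c, n1, n2, n3, rfl⟩ |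
      ⟨c, a, n1, rfl⟩ | ⟨c, rfl⟩
    · right
      have := Fact.mk h
      have := CfsgL0.GLn.finite_adj hm
      have := hm.finite_adjoinRoot
      obtain ⟨o1, o2⟩ := uni_self H h hm h0 ((D_irr H.invol h h0).associated_of_dvd h hD).symm.dvd
      have k := (uni_nonsplit H (CfsgL0.GLn.finrank_adj hm) o1 o2).2
      rw [CfsgL0.GLn.norm_root hm, h3, ← coeff_zero_eq_eval_zero, hdet, map_one, hN] at k
      obtain ⟨c, hc⟩ := mem_range_of_succ H
        (y := AdjoinRoot.root χ ^ ((q ^ 2 - q + 1) / Nat.gcd 3 (q + 1))) (by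
          rw [← pow_mul]; nth_rewrite 2 [hu]
          rw [← mul_assoc, Nat.div_mul_cancel hdN, pow_mul, ← k, one_pow])
      exact key _ c (CfsgL0.GLn.dvd_X_pow_sub_C.2 hc)
    · exfalso
      have g0 := coeff_ne_of_dvd (dvd_mul_left _ _) h0
      have g4 := D_irr H.invol g3 g0
      have g5 : D σ g ∣ g := by
        refine (g4.prime.dvd_or_dvd ((D_dvd σ (dvd_mul_left _ _)).trans hD)).resolve_left fun k => ?_
        have := natDegree_le_of_dvd k (X_sub_C_ne_zero a)
        rw [natDegree_D σ g0, g2, natDegree_X_sub_C] at this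
        omega
      have := (uni_self H g3 g1 g0 (g4.associated_of_dvd g3 g5).symm.dvd).1
      rw [g2] at this
      exact absurd this (by decide)
    · have h : a * b * c = 1 := by rw [← hdet]; simp; ring
      have r1 := hr a (by simp)
      have r2 := hr b (by simp)
      simp only [eval_mul, eval_sub, eval_X, eval_C, mul_eq_zero, sub_eq_zero] at r1 r2
      rcases r1 with (r1 | r1) | r1
      · rcases r2 with (r2 | r2) | r2
        · exact absurd (r1.symm.trans (hi _ _ r2)) n1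
        · have ha := hfix a (left_ne_zero_of_mul (left_ne_zero_of_mul_eq_one h)) r1
          have hb := hfix b (right_ne_zero_of_mul (left_ne_zero_of_mul_eq_one h)) r2
          exact Or.inl (Or.inl (Or.inl (key _ _ (three n1 n2 n3 (hb.trans ha.symm)
            (third h (hb.trans ha.symm) (by rw [pow_mul, ha, one_pow]))))))
        · obtain ⟨k1, k2⟩ := swap b c a (by rw [← h]; ring) r2
          exact Or.inl (Or.inr (key _ _ (three n1 n2 n3 k2.symm (k1.trans k2.symm))))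
      · obtain ⟨k1, k2⟩ := swap a b c h r1
        exact Or.inl (Or.inr (key _ _ (three n1 n2 n3 k1 k2)))
      · obtain ⟨k1, k2⟩ := swap a c b (by rw [← h]; ring) r1
        exact Or.inl (Or.inr (key _ _ (three n1 n2 n3 k2 k1)))
    · have h : c * c * a = 1 := by rw [← hdet]; simp [sq]; ring
      have hc : c ≠ 0 := left_ne_zero_of_mul (left_ne_zero_of_mul_eq_one h)
      have r1 := hr c (by simp)
      simp only [eval_mul, eval_pow, eval_sub, eval_X, eval_C, mul_eq_zero, sub_eq_zero,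
        pow_eq_zero_iff two_ne_zero] at r1
      rcases r1 with r1 | r1
      · have k1 := hfix c hc r1
        have k2 := third (t := u) h rfl (by
          rw [show u * 3 = (q + 1) * e by nth_rewrite 1 [he]; nth_rewrite 2 [hu]; ring, pow_mul, k1,
            one_pow])
        refine Or.inl (Or.inl (Or.inr (key _ _ (Dvd.dvd.trans ?_ (pow_dvd_frob p
          ((CfsgL0.GLn.lin_coprime n1).mul_dvd (CfsgL0.GLn.lin_dvd rfl) (CfsgL0.GLn.lin_dvd k2))
          (k := 2) (by omega))))))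
        exact ⟨X - C a, by ring⟩
      · exfalso
        have r2 := hi _ _ r1
        have h' : a * a * c = 1 := by
          have := congrArg (fun z => (z ^ q)⁻¹) h
          simp only [mul_pow, mul_inv, r1, r2, one_pow, inv_one] at this
          exact this
        exact n1 (by linear_combination -c * h' + a * h)
    · exact Or.inl (Or.inl (Or.inr ((key _ _ (pow_dvd_frob p (CfsgL0.GLn.lin_dvd (pow_one c))
        hp3)).trans (mul_dvd_mul_right (one_dvd _) _))))
  have one := ExN.one (hermC_nondeg H 1) (n := 1) (by simp)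
  obtain ⟨a, a0, ha⟩ := CfsgL0.GLn.exists_orderOf_of_dvd F (m := q + 1) (H.card_units ▸ dvd_mul_left _ _)
  have a1 : a * σ a = 1 := by rw [H.norm_eq, ← ha, pow_orderOf_eq_one]
  have a2 : a⁻¹ * σ a⁻¹ = 1 := by rw [map_inv₀, ← mul_inv, a1, inv_one]
  rintro s (((h | h) | h) | h)
  · obtain ⟨g, -, -, k⟩ := M.ex (((one.add (one.smul a1)).add (one.smul a2)).toSu H)
      fun _ => by simp [a0]
    obtain ⟨c, ⟨c1, -⟩, c2⟩ := (k _).1 dvd_rfl
    refine exists_ord (w := QuotientGroup.mk g) (h.trans (ha ▸ orderOf_dvd_of_pow_eq_one ?_))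
    simpa [c1 one_pos] using c2 one_pos
  · obtain ⟨g, -, -, k⟩ := M.ex ((((uni_unip H two_pos).smul a1).add ((one.smul a2).smul a2)).toSu H)
      fun _ => by simp only [mul_one, pow_one]; field_simp
    obtain ⟨c, c1, c2⟩ := (k _).1 dvd_rfl
    obtain ⟨c3, c4⟩ := unip_dvd p two_pos c1
    have c5 := c2 one_pos
    refine exists_ord (w := QuotientGroup.mk g) (Dvd.dvd.trans h ?_)
    rw [e1]
    have hpq : p ∣ q := hp'.dvd_of_dvd_pow (H.card ▸ CfsgL0.GLn.dvd_card p)
    refine Nat.Coprime.mul_dvd_of_dvd_of_dvd (Nat.Coprime.pow_right _ (hp'.coprime_iff_not_dvd.2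
      fun k => hp'.one_lt.ne' (Nat.dvd_one.1 ((Nat.dvd_add_right hpq).1
        (hu ▸ k.mul_left _)))).symm) ?_ ((pow_dvd_pow _ (Nat.clog_pos hp'.one_lt one_lt_two)).trans c4)
    have : (q + 1) / Nat.gcd 3 (q + 1) = u := Nat.div_eq_of_eq_mul_right hd0 hu
    rw [← this]
    refine div_dvd (ha ▸ orderOf_dvd_of_pow_eq_one ?_) (dvd_mul_left _ _) (Nat.gcd_dvd_right _ _)
      (by omega)
    rw [inv_inv] at c5
    rw [inv_pow, inv_mul_eq_one₀ (pow_ne_zero _ a0)] at c3
    rw [pow_mul, ← c5, ← c3]; ring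
  · obtain ⟨b, b0, hb⟩ := CfsgL0.GLn.exists_orderOf_of_dvd F (m := q ^ 2 - 1) (by rw [H.card])
    obtain ⟨δ, k1, k2⟩ := uni_split H (K := F) (d := 1) (by simp) b0
    have n2 : Nu q (2 * 1) = q - 1 := by simp [(Nu_even (show 0 < q by omega) 1).1]
    rw [n2] at k2
    obtain ⟨g, -, -, k⟩ := M.ex ((k1.add (one.smul (a := b ^ (q - 1)) (by
      change _ * σ _ = 1
      rw [H.norm_eq, ← pow_mul, hF1 b b0]))).toSu H) fun _ => by
        change δ = _ at k2
        simp [k2, b0]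
    obtain ⟨c, ⟨c1, c2⟩, c3⟩ := (k _).1 dvd_rfl
    refine exists_ord (w := QuotientGroup.mk g) (Dvd.dvd.trans h (div_dvd
      (hb ▸ orderOf_dvd_of_pow_eq_one ?_) (hb ▸ orderOf_dvd_of_pow_eq_one c2)
      (hN2 ▸ (Nat.gcd_dvd_right _ _).mul_left _) (by omega)))
    have c4 := c3 one_pos
    change _ = c at c1
    rw [inv_pow, inv_mul_eq_one₀ (pow_ne_zero _ (pow_ne_zero _ b0)), ← c1, ← pow_mul, mul_comm,
      pow_mul] at c4
    rw [pow_mul, show q + 1 = q - 1 + 2 by omega, pow_add, c4] at c2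
    rw [pow_mul, ← c2]; ring
  · obtain ⟨R, r1, r2, -⟩ := uni_torus H (m := 3) (by omega)
    obtain ⟨g, -, -, k⟩ := M.ex (r1.toSu H) fun _ => rfl
    obtain ⟨c, c1⟩ := (k _).1 dvd_rfl
    have c2 := hN ▸ r2 _ _ c1
    refine exists_ord (w := QuotientGroup.mk g) (Dvd.dvd.trans h (div_dvd ?_ c2 hdN (by omega)))
    refine (Nat.dvd_add_right (c2.mul_right (q - 2))).1 ?_
    rw [mul_assoc, ← mul_add, ← hN3]
    exact dvd_mul_left _ _

end Cfsg.Agent.S2366
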