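import Cfsg.Statements.S2367
import Cfsg.Agent.H1.Sn1

set_option autoImplicit false
open Cfsg

namespace Cfsg.Agent.S2367

section
open CfsgH1 CfsgH1.Sn Equiv Equiv.Perm MulAction
open scoped commutatorElement

theorem two_terms {p n : ℕ} (hp : p.Prime) : n / p + n / p ^ 2 ≤ n.factorial.factorization p := by
  rw [Nat.factorization_factorial hp (b := Nat.log p n + 3) (by omega)]
  refine le_trans ?_ (Finset.sum_le_sum_of_subset (s := {1, 2}) fun i hi => ?_)
  · simp
  · simp at hi ⊢; omega

theorem cube_lt (p : ℕ) (h : 5 ≤ p) : p ^ 3 < 2 ^ (2 * p - 1) := by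
  induction p, h using Nat.le_induction with
  | base => norm_num
  | succ p h ih =>
    rw [show 2 * (p + 1) - 1 = 2 * p - 1 + 2 by omega, pow_add]
    nlinarith [Nat.mul_le_mul h h, Nat.mul_le_mul h (le_refl (p * p))]

theorem spor {N p : ℕ} (h : (N.primeFactorsList.all fun p => p == 2 || N.factorization p != 3 ||
    p ^ 3 < 2 ^ N.factorization 2) = true) (hodd : p ≠ 2) (h3 : N.factorization p = 3) : p ^ 3 < 2 ^ N.factorization 2 := by
  have := List.all_eq_true.1 h p (by
    rw [← Nat.mem_primeFactors_iff_mem_primeFactorsList, ← Nat.support_factorization, Finsupp.mem_support_iff]; omega)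
  simpa [hodd, h3] using this

end

/-- Let G be an alternating group of degree at least 5 or a simple group with the order of one of the 26 sporadic groups, and let p be an odd prime such that p³ is the exact power of p dividing the order of G. Then p³ is less than the 2-part of the order of G. -/
theorem result {G : Type*} [Group G] [Finite G] (hG : Cfsg.IsAlternating G ∨ Cfsg.IsSporadic G)
    (p : ℕ) (hp : p.Prime) (hodd : p ≠ 2) (h3 : (Nat.card G).factorization p = 3) :
    p ^ 3 < 2 ^ (Nat.card G).factorization 2 := by
  open CfsgH1 CfsgH1.Sn Equiv Equiv.Perm MulAction in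
  open scoped commutatorElement in
  · rcases hG with ⟨n, hn, ⟨e⟩⟩ | hG
    · have h1 := two_mul_card_alt (n := n) (by omega)
      rw [← Nat.card_congr e.toEquiv] at h1
      have h2 : ∀ q, n.factorial.factorization q = (Nat.factorization 2) q + (Nat.card G).factorization q := fun q => by
        rw [← h1, Nat.factorization_mul two_ne_zero Nat.card_pos.ne']; rfl
      have h4 := h2 p
      have h5 := h2 2
      rw [Nat.prime_two.factorization, Finsupp.single_eq_of_ne hodd, h3] at h4
      rw [Nat.prime_two.factorization_self] at h5
      have h6 := hp.two_le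
      have h7 : n < p ^ 2 := by
        by_contra! h
        have := two_terms (n := n) hp
        have : p ≤ n / p := (Nat.le_div_iff_mul_le hp.pos).2 (by rwa [sq] at h)
        have : 1 ≤ n / p ^ 2 := (Nat.le_div_iff_mul_le (by positivity)).2 (by omega)
        omega
      rw [Nat.factorization_factorial hp (b := 2) (Nat.log_lt_of_lt_pow (by omega) h7)] at h4
      have h8 : 3 * p ≤ n := (Nat.le_div_iff_mul_le hp.pos).1 (by simpa using h4.ge)
      have h9 : 5 ≤ p := by
        have : p ≠ 4 := by rintro rfl; exact absurd hp (by decide)
        have : 3 < p := by nlinarith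
        omega
      have := two_terms (n := n) Nat.prime_two
      exact (cube_lt p h9).trans_le (Nat.pow_le_pow_right (by norm_num) (by omega))
    · rcases hG with h | h | h | h | h | h | h | h | h | h | h | h | h | h | h | h | h | h | h | h | h | h | h | h | h | h <;>
      · rw [h.2] at h3 ⊢
        exact spor (by decide +kernel) hodd h3

end Cfsg.Agent.S2367
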