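import Cfsg.Statements.S2368
import Mathlib
import Cfsg.Agent.L0.GLn4

set_option autoImplicit false
open Cfsg

namespace Cfsg.Agent.S2368

open CfsgL0.GLn Module Polynomial

/-- Let F be a finite field of characteristic p and m ≥ 1. Every element of GL(m, F) of p-power order has order less than p·m, and GL(m, F) has an element of p-power order at least m; so the largest order of a p-element of GL(m, F) is the least power of p that is at least m. -/
theorem result {F : Type*} [Field F] [Fintype F] (p : ℕ) [Fact p.Prime] [CharP F p] (m : ℕ) (hm : 1 ≤ m) :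
    (∀ g : Matrix.GeneralLinearGroup (Fin m) F, (∃ j : ℕ, orderOf g = p ^ j) → orderOf g < p * m) ∧
      ∃ g : Matrix.GeneralLinearGroup (Fin m) F, (∃ j : ℕ, orderOf g = p ^ j) ∧ m ≤ orderOf g := by
  have hp : p.Prime := Fact.out
  constructor
  · rintro g ⟨j, hj⟩
    have h1 : (g : Matrix (Fin m) (Fin m) F) ^ p ^ j = 1 := by
      rw [← Units.val_pow_eq_pow_val, ← hj, pow_orderOf_eq_one, Units.val_one]
    haveI : Nonempty (Fin m) := ⟨⟨0, hm⟩⟩
    have h2 : IsNilpotent ((g : Matrix (Fin m) (Fin m) F) - 1) :=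
      ⟨p ^ j, by rw [sub_pow_char_pow_of_commute _ _ (Commute.one_right _), h1, one_pow, sub_self]⟩
    have h3 : ((g : Matrix (Fin m) (Fin m) F) - 1) ^ m = 0 := by
      have := Matrix.aeval_self_charpoly ((g : Matrix (Fin m) (Fin m) F) - 1)
      have h4 := (Matrix.isNilpotent_charpoly_sub_pow_of_isNilpotent h2).eq_zero
      rw [sub_eq_zero] at h4
      simpa [h4] using this
    rcases j with _ | j
    · rw [hj]; nlinarith [hp.two_le]
    by_contra hc
    have h5 : m ≤ p ^ j := by
      rw [hj, pow_succ'] at hc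
      exact Nat.le_of_mul_le_mul_left (not_lt.1 hc) hp.pos
    have h6 := pow_eq_of_nil p (M := (g : Matrix (Fin m) (Fin m) F)) (m := 1) (c := 1) (t := m) (by simpa using h3) h5
    rw [one_mul, one_pow, map_one, ← Units.val_pow_eq_pow_val, Units.val_eq_one, ← orderOf_dvd_iff_pow_eq_one, hj,
      Nat.pow_dvd_pow_iff_le_right hp.one_lt] at h6
    omega
  · obtain ⟨g, hg, -⟩ := exists_unip (F := F) p hm
    have h1 := (dvd_pow_iff_unip (F := F) p m m).2 (Nat.lt_pow_self hp.one_lt).le
    obtain ⟨k, -, hk⟩ := (Nat.dvd_prime_pow hp).1 h1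
    have h2 := (dvd_pow_iff_unip (F := F) p m k).1 (hk ▸ dvd_rfl)
    have e : orderOf (Matrix.SpecialLinearGroup.toGL g) = p ^ k := by
      rw [orderOf_injective _ Matrix.SpecialLinearGroup.toGL_injective, hg, hk]
    exact ⟨_, ⟨k, e⟩, e ▸ h2⟩

end Cfsg.Agent.S2368
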