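import Cfsg.Statements.S2369
import Cfsg.Agent.H6.TwPar

set_option autoImplicit false
open Cfsg

namespace Cfsg.Agent.S2369

/-- Let q = 2^(2m+1) with m ≥ 1 and let a, b be commuting elements of the large Ree group ²F₄(q) with a an involution. Then every prime divisor of the order of b divides q(q⁴ − 1). -/
theorem result {K : Type*} [Field K] [Fintype K] (m : ℕ) (hm : 1 ≤ m) (hK : Fintype.card K = 2 ^ (2 * m + 1))
    (a b : ↥(Cfsg.Lie.twistedF4 K (2 ^ m))) (ha : orderOf a = 2) (hab : Commute a b) :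
    (orderOf b).primeFactors ⊆ (2 ^ (2 * m + 1) * ((2 ^ (2 * m + 1)) ^ 4 - 1)).primeFactors := by
  obtain ⟨hc, φ, hφ⟩ := CfsgH6.exists_theta (by norm_num) hK
  obtain ⟨c, g, hg, h⟩ := CfsgH6.cent_par_F4 hφ hK (CfsgH6.twistedF4_eq hφ hK ▸ a.2) (CfsgH6.twistedF4_eq hφ hK ▸ b.2)
    (by rwa [Subgroup.orderOf_coe]) (congrArg Subtype.val hab.eq)
  have h1 := Subgroup.orderOf_dvd_natCard _ (Subgroup.mem_inf.2 ⟨h, mul_mem (mul_mem hg
    (CfsgH6.twistedF4_eq hφ hK ▸ b.2)) (inv_mem hg)⟩)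
  rw [CfsgH6.card_PF4, ← MulAut.conj_apply, MulEquiv.orderOf_eq, Subgroup.orderOf_coe] at h1
  have hq : 1 < 2 ^ (2 * m + 1) := Nat.one_lt_two_pow (by omega)
  generalize 2 ^ (2 * m + 1) = q at h1 hq ⊢
  obtain ⟨q, rfl⟩ : ∃ n, q = n + 1 := ⟨q - 1, by omega⟩
  have e : (q + 1) ^ 4 - 1 = q * ((q + 1) ^ 1 + 1) * ((q + 1) ^ 2 + 1) := Nat.sub_eq_of_eq_add (by ring)
  rw [e]
  intro p hp
  have h2 := Nat.prime_of_mem_primeFactors hp
  refine h2.mem_primeFactors ?_ (by have : q ≠ 0 := by omega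
                                    positivity)
  rcases (h2.dvd_mul.1 ((Nat.dvd_of_mem_primeFactors hp).trans h1)) with h3 | h3
  · rcases h2.dvd_mul.1 h3 with h3 | h3
    · exact (h2.dvd_of_dvd_pow h3).mul_right _
    · exact (((h2.dvd_of_dvd_pow h3).mul_right _).mul_right _).mul_left _
  · fin_cases c
    · exact ((h3.mul_left _).mul_right _).mul_left _
    · exact (h3.mul_left _).mul_left _

end Cfsg.Agent.S2369
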