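import Cfsg.Statements.S2370
import Cfsg.Agent.H6.Cent
import Cfsg.Agent.H6.TwF4

set_option autoImplicit false
open Cfsg

namespace Cfsg.Agent.S2370

/-- Let q = 2^(2m+1) with m ≥ 1. Every element of 2-power order of the large Ree group ²F₄(q) has order at most 32. -/
theorem result {K : Type*} [Field K] [Fintype K] (m : ℕ) (hm : 1 ≤ m) (hK : Fintype.card K = 2 ^ (2 * m + 1))
    (x : ↥(Cfsg.Lie.twistedF4 K (2 ^ m))) (hx : ∃ j : ℕ, orderOf x = 2 ^ j) : orderOf x ≤ 32 := by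
  obtain ⟨hc, φ, hφ⟩ := CfsgH6.exists_theta (by norm_num) hK
  obtain ⟨j, hj⟩ := hx
  obtain ⟨g, -, hg⟩ := (CfsgH6.TF4g hφ hK).exists_conj_U' (CfsgH6.goodF4.gl_R3 K) 2 (P := Subgroup.zpowers x.1)
    (IsPGroup.of_card (n := j) (by rw [Nat.card_zpowers, Subgroup.orderOf_coe, hj]))
    (Subgroup.zpowers_le.2 (CfsgH6.twistedF4_eq hφ hK ▸ x.2))
  have := (CfsgH6.goodF4.gl K).pow_eq_one_of_U (fun _ _ h => h) 2 5 (by decide +kernel) (hg _ (Subgroup.mem_zpowers _))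
  rw [conj_pow, mul_inv_eq_one, mul_eq_left] at this
  exact Nat.le_of_dvd (by norm_num) (Subgroup.orderOf_coe x ▸ orderOf_dvd_of_pow_eq_one this)

end Cfsg.Agent.S2370
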