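import Cfsg.Statements.S2379
import Cfsg.Agent.H6.Hc1

set_option autoImplicit false
open Cfsg

namespace Cfsg.Agent.S2379

/-- Sylow subgroups of `SL_n(q)` for large primes. Let `F` be a field with `q` elements and `r` a prime with `r > n` and `r ∤ q` (so `r` does not divide the order `n!` of the Weyl group). Let `d` be the multiplicative order of `q` modulo `r`, `a` the number of integers `i` with `2 ≤ i ≤ n` divisible by `d` (the degrees of the Weyl group are `2, …, n`), and `m` the `r`-part of the value at `q` of the `d`-th cyclotomic polynomial. Then every Sylow `r`-subgroup of `SL_n(q)` is a direct product of `a` cyclic groups of order `m`. -/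
theorem result {F : Type*} [Field F] [Fintype F] {q : ℕ} (hq : Fintype.card F = q) (n : ℕ)
    (r : ℕ) [Fact r.Prime] (hrn : n < r) (hrq : ¬ r ∣ q) (P : Sylow r (Matrix.SpecialLinearGroup (Fin n) F)) :
    Nonempty (↥(P : Subgroup (Matrix.SpecialLinearGroup (Fin n) F)) ≃*
      (Fin ((Finset.Icc 2 n).filter (fun i => orderOf (q : ZMod r) ∣ i)).card →
        Multiplicative (ZMod (r ^ padicValNat r ((Polynomial.cyclotomic (orderOf (q : ZMod r)) ℤ).eval (q : ℤ)).natAbs)))) := by
  classical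
  have h2 : 2 ≤ q := hq ▸ Fintype.one_lt_card
  rw [CfsgH6.Hc.v_cyc h2 hrq]
  have hG := CfsgH6.Hc.v_GL hq hrn hrq
  rcases n with _ | k
  · refine CfsgH6.Hc.of_hom 1 (fun a b _ => funext fun i => absurd i.2 (by simp)) ?_ P
    rw [CfsgH6.Hc.card_hc, Nat.card_unique]; simp
  rw [← CfsgH5.card_units_mul_card_SL, Nat.factorization_mul Nat.card_pos.ne' Nat.card_pos.ne',
    Finsupp.add_apply, Nat.card_eq_fintype_card, Fintype.card_units, hq,
    Nat.factorization_def _ Fact.out] at hG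
  by_cases hd : orderOf (q : ZMod r) = 1
  · rw [hd] at hG ⊢
    rw [show ((Finset.Icc 2 (k + 1)).filter (fun i => 1 ∣ i)).card = k by simp]
    rw [pow_one, Nat.div_one] at hG
    rw [pow_one]
    obtain ⟨f, hf⟩ := CfsgH6.Hc.ex_SL1 (F := F) k (m := r ^ padicValNat r (q - 1))
      (hq ▸ pow_padicValNat_dvd)
    refine CfsgH6.Hc.of_hom f hf ?_ P
    rw [CfsgH6.Hc.card_hc]
    congr 1
    rw [add_mul] at hG
    omega
  · have h1 : ¬ r ∣ q - 1 := fun h => hd (Nat.dvd_one.1
      ((CfsgH6.Hc.dvd_iff (by omega) 1).1 (by rwa [pow_one])))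
    rw [padicValNat.eq_zero_of_not_dvd h1, zero_add] at hG
    have e : ((Finset.Icc 2 (k + 1)).filter (fun i => orderOf (q : ZMod r) ∣ i)).card =
        (k + 1) / orderOf (q : ZMod r) := by
      rw [← Nat.Ioc_filter_dvd_card_eq_div]
      congr 1
      ext i
      simp only [Finset.mem_filter, Finset.mem_Icc, Finset.mem_Ioc]
      refine ⟨fun h => ⟨⟨by omega, h.1.2⟩, h.2⟩, fun h => ⟨⟨?_, h.1.2⟩, h.2⟩⟩
      by_contra hc
      exact hd (Nat.dvd_one.1 ((show i = 1 by omega) ▸ h.2))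
    rw [e]
    obtain ⟨f, hf⟩ := CfsgH6.Hc.ex_GL (F := F) (k + 1) (CfsgH6.Hc.ord_pos hrq)
      (m := r ^ padicValNat r (q ^ orderOf (q : ZMod r) - 1)) (hq ▸ pow_padicValNat_dvd)
    obtain ⟨g, hg⟩ := CfsgH6.Hc.ex_SL2 (hq ▸ h1) f hf
    exact CfsgH6.Hc.of_hom g hg (by rw [CfsgH6.Hc.card_hc, hG]) P

end Cfsg.Agent.S2379
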