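import Cfsg.Statements.S2380
import Cfsg.Agent.H6.Hc1

set_option autoImplicit false
open scoped MatrixGroups
open Cfsg

namespace Cfsg.Agent.S2380

/-- Sylow subgroups of `GL_n(q)` for large primes. Let `F` be a field with `q` elements and `r` a prime with `r > n` and `r ∤ q`. Let `d` be the multiplicative order of `q` modulo `r` and `m` the `r`-part of the value at `q` of the `d`-th cyclotomic polynomial. Then every Sylow `r`-subgroup of `GL_n(q)` is a direct product of `⌊n/d⌋` cyclic groups of order `m` (the degrees of the Weyl group being `1, …, n`). -/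
theorem result {F : Type*} [Field F] [Fintype F] {q : ℕ} (hq : Fintype.card F = q) (n : ℕ)
    (r : ℕ) [Fact r.Prime] (hrn : n < r) (hrq : ¬ r ∣ q) (P : Sylow r (GL (Fin n) F)) :
    Nonempty (↥(P : Subgroup (GL (Fin n) F)) ≃*
      (Fin (n / orderOf (q : ZMod r)) →
        Multiplicative (ZMod (r ^ padicValNat r ((Polynomial.cyclotomic (orderOf (q : ZMod r)) ℤ).eval (q : ℤ)).natAbs)))) := by
  have h2 : 2 ≤ q := hq ▸ Fintype.one_lt_card
  rw [CfsgH6.Hc.v_cyc h2 hrq]
  obtain ⟨f, hf⟩ := CfsgH6.Hc.ex_GL (F := F) n (CfsgH6.Hc.ord_pos hrq)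
    (m := r ^ padicValNat r (q ^ orderOf (q : ZMod r) - 1)) (hq ▸ pow_padicValNat_dvd)
  exact CfsgH6.Hc.of_hom f hf (by rw [CfsgH6.Hc.card_hc, CfsgH6.Hc.v_GL hq hrn hrq]) P

end Cfsg.Agent.S2380
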