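import Cfsg.Statements.S2384
import Cfsg.Agent.H6.SC

set_option autoImplicit false
open Cfsg

namespace Cfsg.Agent.S2384

open CfsgH6.SC Polynomial

/-- In `SL_n(q)`, `q` a power of the prime `p`, the number of conjugacy classes of elements of order prime to `p` (the semisimple classes) is `q^(n-1)`. -/
theorem result {F : Type*} [Field F] [Fintype F] {q : ℕ} (hq : Fintype.card F = q) (p : ℕ) [Fact p.Prime] [CharP F p] (n : ℕ) (hn : 1 ≤ n) :
    Nat.card {c : ConjClasses (Matrix.SpecialLinearGroup (Fin n) F) //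
      ∃ g : Matrix.SpecialLinearGroup (Fin n) F, ConjClasses.mk g = c ∧ (orderOf g).Coprime p} = q ^ (n - 1) := by
  subst hq
  obtain ⟨m, rfl⟩ : ∃ m, n = m + 1 := ⟨n - 1, by omega⟩
  simp only [ss_iff (F := F) p]
  rw [card_cl (fun g : Matrix.SpecialLinearGroup (Fin (m + 1)) F => g.1.charpoly) (SS F) fun a b => SL_conj]
  have := card_mid (F := F) m fun c _ => c = (-1) ^ (m + 1)
  rw [Nat.card_congr (Equiv.prodSubtypeFstEquivSubtypeProd (p := fun c : F => c = (-1) ^ (m + 1))), Nat.card_prod, Nat.card_fun,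
    Nat.card_unique (α := {c : F // c = (-1) ^ (m + 1)}), Nat.card_eq_fintype_card (α := F)] at this
  simp only [Nat.card_eq_fintype_card, Fintype.card_fin, Nat.add_sub_cancel, one_mul] at this ⊢
  rw [← this]
  refine Nat.card_congr (Equiv.subtypeEquivRight fun χ => ⟨?_, fun h => ?_⟩)
  · rintro ⟨g, -, rfl⟩
    refine ⟨⟨Matrix.charpoly_monic _, by simp⟩, ?_⟩
    have := g.2
    rw [Matrix.det_eq_sign_charpoly_coeff, Fintype.card_fin] at this
    have e : ((-1 : F) ^ (m + 1)) * (-1) ^ (m + 1) = 1 := by rw [← mul_pow]; simp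
    linear_combination (-1 : F) ^ (m + 1) * this - g.1.charpoly.coeff 0 * e
  · obtain ⟨A, ⟨N, a1, a2⟩, a3⟩ := exists_ss_GL (ι := Fin (m + 1)) h.1.1 (by rw [h.2]; simp) (by simpa using h.1.2)
    refine ⟨⟨A.1, ?_⟩, ⟨N, a1, Subtype.ext (congrArg Units.val a2)⟩, a3⟩
    rw [Matrix.det_eq_sign_charpoly_coeff, a3, h.2, Fintype.card_fin, ← mul_pow]; simp

end Cfsg.Agent.S2384
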