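import Cfsg.Statements.S2389
import Cfsg.Agent.H6.SC

set_option autoImplicit false
open Cfsg

namespace Cfsg.Agent.S2389

open CfsgH5 CfsgH5.Gl CfsgH5.Gc CfsgH6.SC Matrix in
theorem sp_conj {F : Type*} [Field F] [Finite F] {n : ℕ} {g h : ↥(Matrix.symplecticGroup (Fin n) F)} (hg : SS F g) (hh : SS F h) :
    IsConj g h ↔ (g : Matrix (Fin n ⊕ Fin n) (Fin n ⊕ Fin n) F).charpoly = (h : Matrix (Fin n ⊕ Fin n) (Fin n ⊕ Fin n) F).charpoly := by
  have k : ∀ g : ↥(Matrix.symplecticGroup (Fin n) F), (spEquiv n g).1.toLinearMap = toLin' g.1 := fun g =>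
    LinearMap.ext fun v => spEquiv_apply n g v
  obtain ⟨N, n1, n2⟩ := hg.map (spEquiv n)
  have e : IsConj g h ↔ IsConj (spEquiv n g) (spEquiv n h) :=
    ⟨(spEquiv n).toMonoidHom.map_isConj, fun k => by simpa using (spEquiv n).symm.toMonoidHom.map_isConj k⟩
  rw [e, symp_isConj (spForm_nondeg n) n2 n1, k, k]
  exact ⟨mat_of_sim, mat_sim (hg.map (Submonoid.subtype _)) (hh.map (Submonoid.subtype _))⟩

/-- In the symplectic group `Sp_{2n}(q)`, `q` a power of the prime `p`, two elements of order prime to `p` with the same characteristic polynomial are conjugate in `Sp_{2n}(q)`. -/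
theorem result {F : Type*} [Field F] [Fintype F] (p : ℕ) [Fact p.Prime] [CharP F p] (n : ℕ)
    (g h : ↥(Matrix.symplecticGroup (Fin n) F)) (hg : (orderOf g).Coprime p) (hh : (orderOf h).Coprime p)
    (hc : (g : Matrix (Fin n ⊕ Fin n) (Fin n ⊕ Fin n) F).charpoly = (h : Matrix (Fin n ⊕ Fin n) (Fin n ⊕ Fin n) F).charpoly) :
    IsConj g h := by
  exact (sp_conj ((CfsgH6.SC.ss_iff p g).mp hg) ((CfsgH6.SC.ss_iff p h).mp hh)).mpr hc

end Cfsg.Agent.S2389
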