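import Cfsg.Statements.S2385
import Cfsg.Agent.H6.SC2
import Cfsg.Agent.S2389

set_option autoImplicit false
open Cfsg

namespace Cfsg.Agent.S2385

open CfsgH6.SC Polynomial CfsgH5 CfsgH5.Gl CfsgH5.Gc Matrix

theorem card_pal (F : Type*) (n : ℕ) : Nat.card {x : Fin (2 * n + 1) → F // ∀ i, x i = x i.rev} = Nat.card (Fin (n + 1) → F) := by
  refine Nat.card_eq_of_bijective (fun x i => x.1 ⟨i, by omega⟩) ⟨fun a b e => Subtype.ext (funext fun i => ?_), fun y => ?_⟩
  · by_cases h : i.1 < n + 1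
    · exact congrFun e ⟨i, h⟩
    · rw [a.2, b.2]
      exact congrFun e ⟨i.rev, by rw [Fin.val_rev]; omega⟩
  · refine ⟨⟨fun i => y ⟨min i.1 (2 * n - i.1), by omega⟩, fun i => ?_⟩, funext fun i => ?_⟩
    · refine congrArg y (Fin.ext ?_); simp only [Fin.val_rev]; omega
    · simp only; congr 1; ext; simp only; omega

theorem sp_iff {F : Type*} [Field F] [Finite F] (n : ℕ) (χ : F[X]) :
    (∃ g : Matrix.symplecticGroup (Fin n) F, SS F g ∧ g.1.charpoly = χ) ↔
    (χ.Monic ∧ χ.natDegree = 2 * n) ∧ χ.reverse = χ := by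
  have k : ∀ g : ↥(Matrix.symplecticGroup (Fin n) F), (spEquiv n g).1.toLinearMap = toLin' g.1 := fun g =>
    LinearMap.ext fun v => spEquiv_apply n g v
  constructor
  · rintro ⟨g, -, rfl⟩
    refine ⟨⟨charpoly_monic _, by simp; omega⟩, ?_⟩
    have := charpoly_of_sim (sim_adj (spForm_nondeg n) (spEquiv n g).2 (Sim.refl _))
    rw [charpoly_adj_symp, charpoly_symm, k, LinearMap.det_toLin', SymplecticGroup.det_eq_one g.2, charpoly_toLin'] at this
    simpa [← two_mul] using this.symm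
  · rintro ⟨⟨h1, h2⟩, h3⟩
    obtain ⟨x, x1, x2⟩ := exists_sp n χ h1 h2 h3
    obtain ⟨g, rfl⟩ := (spEquiv n).surjective x
    rw [k] at x1 x2
    exact ⟨g, SS.of_map (Submonoid.subtype _) Subtype.val_injective (SS.of_map toLinAlgEquiv' toLinAlgEquiv'.injective x1),
      by rw [← x2, charpoly_toLin']⟩

/-- In the symplectic group `Sp_{2n}(q)`, `q` a power of the prime `p`, the number of conjugacy classes of elements of order prime to `p` is `q^n`. -/
theorem result {F : Type*} [Field F] [Fintype F] {q : ℕ} (hq : Fintype.card F = q) (p : ℕ) [Fact p.Prime] [CharP F p] (n : ℕ) :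
    Nat.card {c : ConjClasses ↥(Matrix.symplecticGroup (Fin n) F) //
      ∃ g : ↥(Matrix.symplecticGroup (Fin n) F), ConjClasses.mk g = c ∧ (orderOf g).Coprime p} = q ^ n := by
  subst hq
  simp only [ss_iff (F := F) p]
  rw [card_cl (fun g : Matrix.symplecticGroup (Fin n) F => g.1.charpoly) (SS F) fun a b => S2389.sp_conj]
  simp only [sp_iff]
  rcases n with _ | n
  · rw [pow_zero, Nat.card_eq_one_iff_exists]
    exact ⟨⟨1, ⟨monic_one, by simp⟩, by simpa using reverse_C (1 : F)⟩, fun y => Subtype.ext (y.2.1.1.natDegree_eq_zero.mp y.2.1.2)⟩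
  have h2 := card_mid (F := F) (2 * n + 1) fun c x => c = 1 ∧ ∀ i, x i = x i.rev
  have h3 := card_pal F n
  rw [Nat.card_fun, Nat.card_eq_fintype_card (α := F), Nat.card_eq_fintype_card (α := Fin _), Fintype.card_fin] at h3
  rw [← h3]
  refine Eq.trans (Nat.card_congr (Equiv.subtypeEquivRight fun χ => ?_)) (h2.trans ?_)
  · refine and_congr_right fun k1 => ?_
    have c : χ.reverse = χ → χ.coeff 0 = 1 := fun h3 => by rw [← h3, coeff_zero_reverse, k1.1.leadingCoeff]
    have := fun h => pal_iff (σ := RingHom.id F) (fun _ => rfl) (m := 2 * n + 1) k1 (ε := 1) rfl (one_mul 1) h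
    simp only [C_1, one_mul, Polynomial.map_id, RingHom.id_apply] at this
    exact ⟨fun h => ⟨c h, (this (c h)).mp h.symm⟩, fun h => ((this h.1).mpr h.2).symm⟩
  · exact Nat.card_eq_of_bijective (fun x => ⟨x.1.2, x.2.2⟩) ⟨fun a b e => Subtype.ext (Prod.ext (a.2.1.trans b.2.1.symm)
      (congrArg Subtype.val e)), fun x => ⟨⟨(1, x.1), rfl, x.2⟩, rfl⟩⟩

end Cfsg.Agent.S2385
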