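import Cfsg.Statements.S2386
import Cfsg.Agent.H6.SC2

set_option autoImplicit false
open Cfsg

namespace Cfsg.Agent.S2386

open CfsgH6.SC Polynomial CfsgH5

/-- In the special unitary group `SU_n(q)` (matrices of determinant one over the field with `q²` elements preserving the standard Hermitian form), `q` a power of the prime `p`, the number of conjugacy classes of elements of order prime to `p` is `q^(n-1)`. -/
theorem result {F : Type*} [Field F] [Fintype F] {q : ℕ} (hF : Fintype.card F = q ^ 2) (p : ℕ) [Fact p.Prime] [CharP F p] (n : ℕ) (hn : 1 ≤ n) :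
    Nat.card {c : ConjClasses ↥(Cfsg.SU n F q) // ∃ g : ↥(Cfsg.SU n F q), ConjClasses.mk g = c ∧ (orderOf g).Coprime p} = q ^ (n - 1) := by
  have H := frobq_UF hF
  generalize frobq hF = σ at H
  obtain ⟨m, rfl⟩ : ∃ m, n = m + 1 := ⟨n - 1, by omega⟩
  simp only [ss_iff (F := F) p]
  rw [card_cl (fun g : Cfsg.SU (m + 1) F q => g.1.1.charpoly) (SS F) fun a b => su_conj H]
  have e1 : σ ((-1) ^ (m + 1)) = (-1) ^ (m + 1) := by simp
  have e2 : ((-1 : F) ^ (m + 1)) * (-1) ^ (m + 1) = 1 := by rw [← mul_pow]; simp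
  generalize hε : (-1 : F) ^ (m + 1) = ε at e1 e2
  let τ : (Fin m → F) →+ (Fin m → F) :=
    { toFun := fun x i => ε * σ (x i.rev), map_zero' := by ext; simp, map_add' := fun a b => by ext; simp [mul_add] }
  have h1 := card_desc H τ (fun x => by ext i; simp [τ, H.invol, e1, ← mul_assoc, e2]) fun c x => by ext i; simp [τ]; ring
  rw [Nat.card_fun, H.card, Nat.card_eq_fintype_card (α := Fin m), Fintype.card_fin, ← pow_mul, mul_comm, pow_mul] at h1
  have h2 := card_mid (F := F) m fun c x => c = ε ∧ x = τ x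
  rw [Nat.add_sub_cancel, ← Nat.pow_left_injective two_ne_zero h1]
  refine Eq.trans (Nat.card_congr (Equiv.subtypeEquivRight fun χ => ?_)) (h2.trans ?_)
  · rw [su_iff H, hε]
    refine and_congr_right fun k1 => and_congr_right fun k2 => ?_
    rw [pal_iff H.invol k1 e1 e2 k2, funext_iff]
    rfl
  · exact Nat.card_eq_of_bijective (fun x => ⟨x.1.2, x.2.2⟩) ⟨fun a b e => Subtype.ext (Prod.ext (a.2.1.trans b.2.1.symm)
      (congrArg Subtype.val e)), fun x => ⟨⟨(ε, x.1), rfl, x.2⟩, rfl⟩⟩

end Cfsg.Agent.S2386
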