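import Cfsg.Statements.S2387
import Cfsg.Agent.H6.SC

set_option autoImplicit false
open scoped MatrixGroups
open Cfsg

namespace Cfsg.Agent.S2387

open CfsgH6.SC Polynomial

/-- In `GL_n(q)` with `n ≥ 1`, `q` a power of the prime `p`, the number of conjugacy classes of elements of order prime to `p` (diagonalisable over the algebraic closure; determined by the characteristic polynomial) is `(q - 1) q^(n-1)`. -/
theorem result {F : Type*} [Field F] [Fintype F] {q : ℕ} (hq : Fintype.card F = q) (p : ℕ) [Fact p.Prime] [CharP F p] (n : ℕ) (hn : 1 ≤ n) :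
    Nat.card {c : ConjClasses (GL (Fin n) F) // ∃ g : GL (Fin n) F, ConjClasses.mk g = c ∧ (orderOf g).Coprime p} = (q - 1) * q ^ (n - 1) := by
  subst hq
  obtain ⟨m, rfl⟩ : ∃ m, n = m + 1 := ⟨n - 1, by omega⟩
  simp only [ss_iff (F := F) p]
  rw [card_cl (fun g : GL (Fin (m + 1)) F => g.1.charpoly) (SS F) fun a b => GL_conj]
  have := card_mid (F := F) m fun c _ => c ≠ 0
  rw [Nat.card_congr (Equiv.prodSubtypeFstEquivSubtypeProd (p := fun c : F => c ≠ 0)), Nat.card_prod, Nat.card_fun,
    ← Nat.card_congr unitsEquivNeZero, Nat.card_units, Nat.card_eq_fintype_card (α := F)] at this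
  simp only [Nat.card_eq_fintype_card, Fintype.card_fin, Nat.add_sub_cancel] at this ⊢
  rw [← this]
  refine Nat.card_congr (Equiv.subtypeEquivRight fun χ => ⟨?_, fun h => exists_ss_GL h.1.1 h.2 (by simpa using h.1.2)⟩)
  rintro ⟨g, -, rfl⟩
  refine ⟨⟨Matrix.charpoly_monic _, by simp⟩, fun e => ?_⟩
  have := g.det_ne_zero
  rw [Matrix.det_eq_sign_charpoly_coeff, e, mul_zero] at this
  exact this rfl

end Cfsg.Agent.S2387
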