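import Cfsg.Statements.S2391
import Cfsg.Agent.H1.Misc1
import Mathlib

set_option autoImplicit false
open Cfsg

namespace Cfsg.Agent.S2391

section
open Matrix
open scoped commutatorElement

variable {F : Type*} [Field F] {n : ℕ} (U : Subgroup (SpecialLinearGroup (Fin n) F))

/-- The ascending fixed point series. -/
def W : ℕ → Submodule F (Fin n → F)
  | 0 => ⊥
  | i + 1 => ⨅ u : U, (W i).comap (mulVecLin u.1.1 - .id)

variable {U}

theorem mem_W {i : ℕ} {v : Fin n → F} : v ∈ W U (i + 1) ↔ ∀ u ∈ U, u.1 *ᵥ v - v ∈ W U i := by simp [W]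

theorem inv_W {g : SpecialLinearGroup (Fin n) F} (hg : g ∈ Subgroup.normalizer (U : Set (SpecialLinearGroup (Fin n) F))) :
    ∀ i, ∀ v ∈ W U i, g.1 *ᵥ v ∈ W U i
  | 0, v, hv => by simp [(Submodule.mem_bot F).1 hv]
  | i + 1, v, hv => mem_W.2 fun u hu => by
    have := inv_W hg i _ (mem_W.1 hv _ ((Subgroup.mem_normalizer_iff''.1 hg u).1 hu))
    rwa [mulVec_sub, mulVec_mulVec, ← Matrix.SpecialLinearGroup.coe_mul, ← mul_assoc, ← mul_assoc, mul_inv_cancel, one_mul,
      Matrix.SpecialLinearGroup.coe_mul, ← mulVec_mulVec] at this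

theorem lt_W [Fintype F] {p : ℕ} [Fact p.Prime] [CharP F p] (hU : IsPGroup p U) {i : ℕ} (h : W U i ≠ ⊤) : W U i < W U (i + 1) := by
  have h1 := fun (u : U) => inv_W (U.le_normalizer u.2) i
  let ρ : Representation F U (Fin n → F) := (toLinAlgEquiv' : Matrix (Fin n) (Fin n) F ≃ₐ[F] _).toMonoidHom.comp
    (SpecialLinearGroup.coeMonoidHom.comp U.subtype)
  let _ := MulAction.compHom ((Fin n → F) ⧸ W U i) (ρ.quotient (W U i) h1)
  have := Submodule.Quotient.nontrivial_iff.2 h
  have := Finite.of_surjective _ (W U i).mkQ_surjective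
  obtain ⟨b, hb, e⟩ := hU.exists_fixed_point_of_prime_dvd_card_of_fixed_point ((Fin n → F) ⧸ W U i) (a := 0) (by
    obtain ⟨k, -, e⟩ := FiniteField.card F p
    rw [Module.natCard_eq_pow_finrank (K := F), Nat.card_eq_fintype_card, e, ← pow_mul]
    exact dvd_pow_self _ (mul_ne_zero k.ne_zero Module.finrank_pos.ne')) fun u => map_zero (ρ.quotient (W U i) h1 u)
  obtain ⟨b, rfl⟩ := (W U i).mkQ_surjective b
  exact SetLike.lt_iff_le_and_exists.2 ⟨fun v hv => mem_W.2 fun u hu => sub_mem (h1 ⟨u, hu⟩ v hv) hv, b,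
    mem_W.2 fun u hu => (Submodule.Quotient.eq _).1 (hb ⟨u, hu⟩), fun c => e ((Submodule.Quotient.mk_eq_zero _).2 c).symm⟩

end

/-- The Borel–Tits property of `SL_n(q)` in flag form: for a field `F` of characteristic `p` with finitely many elements and a non-trivial `p`-subgroup `U` of `SL_n(F)`, there is a flag `0 = V₀ < V₁ < ⋯ < V_{k+1} = F^n` with at least one proper non-zero member such that every element of the normaliser of `U` maps each `V_i` onto itself and every element of `U` acts trivially on each quotient `V_{i+1}/V_i` (so the normaliser lies in the parabolic subgroup of the flag and `U` in its unipotent radical). -/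
theorem result {F : Type*} [Field F] [Fintype F] (p : ℕ) [Fact p.Prime] [CharP F p] (n : ℕ)
    (U : Subgroup (Matrix.SpecialLinearGroup (Fin n) F)) (hU : IsPGroup p ↥U) (hne : U ≠ ⊥) :
    ∃ (k : ℕ) (V : Fin (k + 2) → Submodule F (Fin n → F)), 1 ≤ k ∧ StrictMono V ∧ V 0 = ⊥ ∧ V (Fin.last (k + 1)) = ⊤ ∧
      (∀ g ∈ Subgroup.normalizer (U : Set (Matrix.SpecialLinearGroup (Fin n) F)), ∀ i, (V i).map (Matrix.mulVecLin (g : Matrix (Fin n) (Fin n) F)) = V i) ∧
      (∀ u ∈ U, ∀ i : Fin (k + 1), ∀ v ∈ V i.succ, (u : Matrix (Fin n) (Fin n) F).mulVec v - v ∈ V (Fin.castSucc i)) := by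
  open Matrix in
  open scoped commutatorElement in
  · classical
    have h : ∃ i, W U i = ⊤ := by
      by_contra! e
      exact not_injective_infinite_finite _ (strictMono_nat_of_lt_succ (f := W U) fun i => lt_W hU (e i)).injective
    have h1 : W U 1 ≠ ⊤ := fun e => hne (eq_bot_iff.2 fun u hu => Subtype.ext (toLin'.injective (LinearMap.ext fun v => by
      simpa [W, sub_eq_zero] using mem_W.1 (e.ge (Submodule.mem_top (x := v))) u hu)))
    obtain ⟨k, hk⟩ : ∃ k, Nat.find h = k + 2 := Nat.exists_eq_add_of_le' (by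
      by_contra! c
      have := Nat.find_spec h
      interval_cases Nat.find h
      · exact h1 (top_le_iff.1 fun v _ => mem_W.2 fun u _ => this.ge trivial)
      · exact h1 this)
    refine ⟨k + 1, fun i => W U i, by omega, Fin.strictMono_iff_lt_succ.2 fun i => lt_W hU (Nat.find_min h (i.2.trans_eq hk.symm)), rfl,
      (congrArg (W U) hk.symm).trans (Nat.find_spec h), fun g hg i => le_antisymm (Submodule.map_le_iff_le_comap.2 (inv_W hg i)) fun v hv =>
        ⟨_, inv_W (inv_mem hg) i v hv, by rw [mulVecLin_apply, mulVec_mulVec, ← Matrix.SpecialLinearGroup.coe_mul]; simp⟩, fun u hu i v hv => mem_W.1 hv u hu⟩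

end Cfsg.Agent.S2391
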