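import Cfsg.Statements.S2392
import Cfsg.Agent.H6.Wt3

set_option autoImplicit false
open scoped MatrixGroups
open Cfsg

namespace Cfsg.Agent.S2392

/-- A lower bound for representations in cross characteristic: for `n ≥ 3` and a field `F` with `q` elements, every homomorphism from `SL_n(F)` to `GL_d(K)`, `K` a field of characteristic different from that of `F`, whose kernel is central has `d ≥ q^(n-1) - 1`. -/
theorem result {F : Type*} [Field F] [Fintype F] {q : ℕ} (hq : Fintype.card F = q) (n : ℕ) (hn : 3 ≤ n)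
    {K : Type*} [Field K] (hK : ringChar K ≠ ringChar F) {d : ℕ}
    (ρ : Matrix.SpecialLinearGroup (Fin n) F →* GL (Fin d) K) (hker : ρ.ker ≤ Subgroup.center (Matrix.SpecialLinearGroup (Fin n) F)) :
    q ^ (n - 1) - 1 ≤ d := by
  classical
  subst hq
  obtain ⟨m, rfl⟩ : ∃ m, n = m + 1 := ⟨n - 1, by omega⟩
  let P := AddChar.FiniteField.primitiveChar F K hK
  obtain ⟨ρ', hρ⟩ := CfsgH6.Wt.exists_baseChange (CyclotomicField P.n K) ρ
  have := CfsgH6.Wt.SL_bound P.prim (CfsgH6.Wt.card_ne_zero hK _) (m := m) (by omega) ρ'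
    (a := Pi.single ⟨0, by omega⟩ 1) fun h => by
      have h1 := hker (hρ _ h)
      obtain ⟨r, -, hr⟩ := Matrix.SpecialLinearGroup.mem_center_iff.1 h1
      have h2 := congrFun (congrFun hr (Fin.succ ⟨0, by omega⟩)) 0
      change _ = (1 + Matrix.vecMulVec _ _ : Matrix _ _ F) _ _ at h2
      rw [Matrix.add_apply, Matrix.vecMulVec_apply, Fin.cons_succ, Matrix.scalar_apply,
        Matrix.diagonal_apply_ne _ (Fin.succ_ne_zero _), Matrix.one_apply_ne (Fin.succ_ne_zero _)] at h2
      simp at h2
  simpa using this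

end Cfsg.Agent.S2392
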