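import Cfsg.Statements.S2394
import Cfsg.Agent.H8.Zsig
import Cfsg.Agent.H6.Hc2

set_option autoImplicit false
open scoped MatrixGroups
open Cfsg

namespace Cfsg.Agent.S2394

/-- The smallest degree of a faithful representation of the symplectic group `Sp_{2n}(q)` over its own field `F_q` is `2n`: every injective homomorphism from `Sp_{2n}(F)` to `GL_d(F)`, `F` the field with `q` elements, has `d ≥ 2n`. -/
theorem result {F : Type*} [Field F] [Fintype F] (n : ℕ) {d : ℕ}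
    (ρ : ↥(Matrix.symplecticGroup (Fin n) F) →* GL (Fin d) F) (hρ : Function.Injective ρ) : 2 * n ≤ d := by
  by_contra hlt
  have hd := Subgroup.card_dvd_of_injective ρ hρ
  rw [CfsgH5.card_symplecticGroup, Matrix.card_GL_field, Nat.card_eq_fintype_card] at hd
  have h2 : 2 ≤ Fintype.card F := Fintype.one_lt_card
  generalize Fintype.card F = q at hd h2
  rcases n with _ | _ | n
  · omega
  · have h1 : d = 0 ∨ d = 1 := by omega
    have h3 : q ∣ ∏ i : Fin d, (q ^ d - q ^ (i : ℕ)) :=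
      (Dvd.intro _ rfl : q ^ (0 + 1) ^ 2 ∣ _).trans hd |> (by simp : q ∣ q ^ (0 + 1) ^ 2).trans
    rcases h1 with rfl | rfl
    · have := Nat.le_of_dvd one_pos (by simpa using h3); omega
    · have : q ≤ 1 := by simpa using h3
      omega
  by_cases h6 : q = 2 ∧ 2 * (n + 1 + 1) = 6
  · obtain ⟨rfl, h⟩ := h6
    obtain rfl : n = 1 := by omega
    have : d < 6 := by omega
    interval_cases d <;> simp [Finset.prod_range_succ, Fin.prod_univ_succ] at hd
  obtain ⟨r, hr, h4⟩ := CfsgH8.zsig (a := q) (n := 2 * (n + 1 + 1)) h2 (by omega) h6 (by omega)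
  have : Fact r.Prime := ⟨hr⟩
  have h3 : r ∣ q ^ (2 * (n + 1 + 1)) - 1 := (CfsgH6.Hc.dvd_iff (by omega) _).2 (h4 ▸ dvd_rfl)
  have h5 : r ∣ ∏ i : Fin d, (q ^ d - q ^ (i : ℕ)) :=
    (h3.trans (Finset.dvd_prod_of_mem (fun i => q ^ (2 * (i + 1)) - 1)
      (Finset.mem_range.2 (Nat.lt_succ_self (n + 1))))).trans ((Dvd.intro_left _ rfl).trans hd)
  obtain ⟨i, -, hi⟩ := hr.prime.dvd_finsetProd_iff _ |>.1 h5
  rw [show q ^ d - q ^ (i : ℕ) = q ^ (i : ℕ) * (q ^ (d - i) - 1) by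
    rw [Nat.mul_sub, mul_one, ← pow_add, Nat.add_sub_cancel' i.2.le]] at hi
  rcases (Nat.Prime.dvd_mul hr).1 hi with h | h
  · have h7 : r ∣ q ^ (2 * (n + 1 + 1)) := (hr.dvd_of_dvd_pow h).trans (dvd_pow_self q (by omega))
    have h8 := (Nat.dvd_sub h7 h3)
    rw [Nat.sub_sub_self (Nat.one_le_pow _ _ (by omega))] at h8
    exact hr.one_lt.ne' (Nat.dvd_one.1 h8)
  · rw [CfsgH6.Hc.dvd_iff (by omega), h4] at h
    have := Nat.le_of_dvd (by omega) h
    omega

end Cfsg.Agent.S2394
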