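import Cfsg.Statements.S2399
import Cfsg.Agent.H6.Univ3

set_option autoImplicit false
open scoped MatrixGroups
open Cfsg

namespace Cfsg.Agent.S2399

/-- Projective representations in the natural characteristic lift: for each of the types G₂, B₂, D₄, F₄, E₆, E₇, E₈ over any field `K` (for types B₂ and G₂ the field must have more than two elements — the cases where the Chevalley group is not simple are set aside), every homomorphism from the Chevalley group to `PGL_n(L) = GL_n(L)/Z`, `L` a field of the same characteristic as `K`, lifts uniquely to a homomorphism from the group Δ presented by (R1), (R2) to `GL_n(L)`, compatibly with the projection Δ → Chevalley group sending x̄_r(t) to x_r(t). -/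
theorem result {K : Type*} [Field K] (D : Cfsg.Lie.ChevalleyDatum) (hD : D ∈ [Cfsg.Lie.chevG2, Cfsg.Lie.chevB2, Cfsg.Lie.chevD4, Cfsg.Lie.chevF4, Cfsg.Lie.chevE6, Cfsg.Lie.chevE7, Cfsg.Lie.chevE8]) (hK : D ∈ [Cfsg.Lie.chevB2, Cfsg.Lie.chevG2] → ∃ x : K, x ≠ 0 ∧ x ≠ 1)
    (θ : D.SteinbergCover K →* ↥(D.group K))
    (hθ : ∀ (r : ℕ) (t : K), r < D.nroots → ((θ (D.scGen K r t) : GL D.Idx K) : Matrix D.Idx D.Idx K) = D.x K r t)
    {L : Type*} [Field L] (hL : ringChar L = ringChar K) {n : ℕ}
    (φ : ↥(D.group K) →* GL (Fin n) L ⧸ Subgroup.center (GL (Fin n) L)) :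
    ∃! ψ : D.SteinbergCover K →* GL (Fin n) L, (QuotientGroup.mk' (Subgroup.center (GL (Fin n) L))).comp ψ = φ.comp θ := by
  obtain ⟨G⟩ := CfsgH6.good_of_mem hD
  have X : CfsgH6.CExt (QuotientGroup.mk' (Subgroup.center (GL (Fin n) L))) :=
    ⟨QuotientGroup.mk'_surjective _, (QuotientGroup.ker_mk' _).le⟩
  have hp := CfsgH6.Cover.perfect_top (G.sc_Gr K)
    (CfsgH6.perfect_of_mem hD (fun e => hK (by rcases e with rfl | rfl <;> simp)) (G.sc K))
  refine existsUnique_of_exists_of_unique ?_ fun ψ ψ' h h' => X.lift_unique hp (h.trans h'.symm)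
  obtain ⟨p, hp'⟩ := CharP.exists K
  rcases CharP.char_is_prime_or_zero K p with hq | rfl
  · have := Fact.mk hq
    have : CharP L p := by rw [← ringChar.eq K p, ← hL]; infer_instance
    have Y := X.pullback (φ.comp θ)
    set P := MonoidHom.eqLocus ((φ.comp θ).comp (MonoidHom.fst (D.SteinbergCover K) (GL (Fin n) L)))
      ((QuotientGroup.mk' (Subgroup.center (GL (Fin n) L))).comp (MonoidHom.snd _ _))
    set π := (MonoidHom.fst (D.SteinbergCover K) (GL (Fin n) L)).comp P.subtype
    have Z : CfsgH6.CExt (π.comp (commutator P).subtype) := by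
      refine ⟨fun d => ?_, fun z hz => Subgroup.mem_center_iff.2 fun g => Subtype.ext (Y.comm hz _)⟩
      have : d ∈ (commutator P).map π := by
        rw [commutator_def, Subgroup.map_commutator, ← MonoidHom.range_eq_map, MonoidHom.range_eq_top.2 Y.surj,
          ← commutator_def, hp]; trivial
      obtain ⟨a, ha, e⟩ := this
      exact ⟨⟨a, ha⟩, e⟩
    obtain ⟨m, hm, hz⟩ : ∃ m : ℕ, m.Coprime p ∧ ∀ z, (π.comp (commutator P).subtype) z = 1 → z ^ m = 1 := by
      rcases Nat.eq_zero_or_pos n with rfl | hn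
      · exact ⟨1, by simp, fun z hz => by
          rw [pow_one]; exact Subtype.ext (Subtype.ext (Prod.ext hz (Subsingleton.elim _ _)))⟩
      · obtain ⟨k, m, hm, e⟩ := Nat.exists_eq_pow_mul_and_not_dvd hn.ne' p hq.ne_one
        refine ⟨m, ((Nat.Prime.coprime_iff_not_dvd hq).2 hm).symm, fun z hz => ?_⟩
        have h1 : z.1.1.1 = 1 := hz
        have h2 : z.1.1.2 ∈ Subgroup.center (GL (Fin n) L) := by
          rw [← QuotientGroup.eq_one_iff]
          exact (show _ = _ from z.1.2).symm.trans (by simp [h1])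
        have h3 : Matrix.GeneralLinearGroup.det z.1.1.2 = 1 :=
          Abelianization.commutator_subset_ker
            (Matrix.GeneralLinearGroup.det.comp ((MonoidHom.snd _ _).comp P.subtype)) z.2
        rw [Matrix.GeneralLinearGroup.center_eq_range_scalar] at h2
        obtain ⟨c, hc⟩ := h2
        have h4 : (c : L) ^ n = 1 := by
          have := congrArg Units.val h3
          rw [← hc] at this
          simpa [Matrix.GeneralLinearGroup.scalar] using this
        have h5 : c ^ m = 1 := by
          rw [e, mul_comm, pow_mul, ← sub_eq_zero, ← one_pow (p ^ k), ← sub_pow_char_pow, pow_eq_zero_iff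
            (pow_pos hq.pos k).ne', sub_eq_zero] at h4
          exact Units.ext h4
        refine Subtype.ext (Subtype.ext (Prod.ext ?_ ?_))
        · change z.1.1.1 ^ m = 1
          rw [h1, one_pow]
        · change z.1.1.2 ^ m = 1
          rw [← hc, ← map_pow, h5, map_one]
    obtain ⟨τ, h⟩ := G.lift_of_rel ((G.sc K).exists_rel_of_coprime Z (CharP.cast_eq_zero K p) hm hz)
    refine ⟨(MonoidHom.snd _ _).comp (P.subtype.comp ((commutator P).subtype.comp τ)), MonoidHom.ext fun d => ?_⟩
    exact (τ d).1.2.symm.trans (congrArg (φ.comp θ) (DFunLike.congr_fun h d))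
  · have := CharP.charP_to_charZero K
    have h5 : ∃ s : Finset K, 4 < s.card := by
      obtain ⟨s, hs⟩ := Infinite.exists_subset_card_eq K 5
      exact ⟨s, by omega⟩
    obtain ⟨v, a, b, -⟩ := CfsgH6.exists_big h5
    exact CfsgH6.sc_lift hD (fun _ => h5) (fun _ => ⟨v, a, b⟩) X _

end Cfsg.Agent.S2399
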