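import Cfsg.Statements.S2400
import Cfsg.Agent.H6.Univ3

set_option autoImplicit false
open Cfsg

namespace Cfsg.Agent.S2400

/-- Over a finite field `K`, the group presented by Steinberg's relators (R1)–(R3) (the universal Chevalley group) of type E₆ or E₇, or of type B₂ or D₄ with `K` of more than two elements, has trivial Schur multiplier: every finite stem extension of it is an isomorphism (Schur multiplier described through stem extensions as in the definitions). Types G₂, F₄ and E₈ are not covered here. -/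
theorem result {K : Type*} [Field K] [Fintype K] (e : Cfsg.Lie.ChevalleyDatum × ℕ)
    (he : e ∈ [(Cfsg.Lie.chevE6, 0), (Cfsg.Lie.chevE7, 0), (Cfsg.Lie.chevB2, 2), (Cfsg.Lie.chevD4, 2)]) (hK : Fintype.card K ≠ e.2) :
    Cfsg.HasCyclicSchurMultiplier (e.1.SteinbergGroup K) 1 := by
  have h : Fintype.card K ≠ 2 → ∃ a : K, a ≠ 0 ∧ a ≠ 1 := fun h2 => by
    classical
    by_contra! h
    have : (Finset.univ : Finset K) ⊆ {0, 1} := fun a _ => by by_cases e : a = 0 <;> simp [e, h a]
    have := (Finset.card_le_card this).trans Finset.card_le_two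
    have := Fintype.one_lt_card (α := K)
    rw [Finset.card_univ] at *; omega
  have key : ∀ D ∈ [Cfsg.Lie.chevG2, Cfsg.Lie.chevB2, Cfsg.Lie.chevD4, Cfsg.Lie.chevF4, Cfsg.Lie.chevE6,
      Cfsg.Lie.chevE7, Cfsg.Lie.chevE8], D.nroots ≠ 12 → (D.rank ≤ 4 → Fintype.card K ≠ 2) →
      Cfsg.HasCyclicSchurMultiplier (D.SteinbergGroup K) 1 := fun D hD h1 h2 => by
    obtain ⟨G⟩ := CfsgH6.good_of_mem hD
    have := (G.st K).finite (G.st_R3 K) (G.st_Gr K)
    obtain ⟨e, -⟩ := G.exists_scEquiv (F := K)
    obtain ⟨f⟩ := CfsgH6.cyc_equiv (A := (MonoidHom.id (D.SteinbergGroup K)).ker) (n := 1) (by simp) (Or.inl rfl)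
    refine CfsgH6.hasSM_of_univ ⟨Function.surjective_id, by simp, by simp⟩ f fun Γ _ _ σ X => ?_
    obtain ⟨τ, h⟩ := CfsgH6.sc_lift hD (fun e => absurd (e ▸ rfl) h1)
      (fun e => h (h2 (by rcases e with rfl | rfl | rfl <;> decide))) X e.toMonoidHom
    exact ⟨τ.comp e.symm.toMonoidHom, by rw [← MonoidHom.comp_assoc, h]; ext1 x; simp⟩
  simp only [List.mem_cons, List.not_mem_nil, or_false] at he
  rcases he with rfl | rfl | rfl | rfl
  · exact key _ (by simp) (by decide) fun e => absurd e (by decide)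
  · exact key _ (by simp) (by decide) fun e => absurd e (by decide)
  · exact key _ (by simp) (by decide) fun _ => hK
  · exact key _ (by simp) (by decide) fun _ => hK

end Cfsg.Agent.S2400
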