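import Cfsg.Statements.S2401
import Cfsg.Agent.H6.SMA

set_option autoImplicit false
open Cfsg

namespace Cfsg.Agent.S2401

open Matrix CfsgH6 Cfsg.Lie
open scoped commutatorElement

/-- the Steinberg relations of type A -/
structure StR {n : ℕ} {K Γ : Type*} [Field K] [Group Γ] (y : {ij : Fin n × Fin n // ij.1 ≠ ij.2} → K → Γ) : Prop where
  add : ∀ a t u, y a t * y a u = y a (t + u)
  c0 : ∀ a b t u, a.1.1 ≠ b.1.2 → a.1.2 ≠ b.1.1 → ⁅y a t, y b u⁆ = 1
  c1 : ∀ a b (h : a.1.1 ≠ b.1.2) t u, a.1.2 = b.1.1 → ⁅y a t, y b u⁆ = y ⟨(a.1.1, b.1.2), h⟩ (t * u)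

section
variable {n : ℕ} {K Γ : Type*} [Field K] [Group Γ] {y : {ij : Fin n × Fin n // ij.1 ≠ ij.2} → K → Γ}

theorem StR.zero (h : StR y) (a) : y a 0 = 1 := by
  have := h.add a 0 0
  rwa [add_zero, mul_eq_left] at this

theorem StR.neg (h : StR y) (a) (t : K) : y a (-t) = (y a t)⁻¹ :=
  eq_inv_of_mul_eq_one_left (by rw [h.add, neg_add_cancel, h.zero])

theorem StR.ex (h : StR y) (a b) (hab : a.1.1 ≠ b.1.2 ∨ a.1.2 ≠ b.1.1) (t u : K) :
    ∃ k c, y b u * y a t = y a t * y b u * y k c := by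
  have e : y b u * y a t = y a t * y b u * ⁅y b (-u), y a (-t)⁆ := by
    rw [h.neg, h.neg, commutatorElement_def]; group
  rw [e]
  by_cases h1 : a.1.1 = b.1.2
  · exact ⟨_, _, by rw [h.c1 b a (hab.resolve_left (not_not.2 h1)).symm (-u) (-t) h1.symm]⟩
  by_cases h2 : a.1.2 = b.1.1
  · exact ⟨_, _, by rw [← commutatorElement_inv, h.c1 a b h1 _ _ h2, ← h.neg]⟩
  · exact ⟨a, 0, by rw [h.zero, h.c0 b a _ _ (Ne.symm h2) (Ne.symm h1)]⟩

theorem stR_SL : StR (fun (a : {ij : Fin n × Fin n // ij.1 ≠ ij.2}) (t : K) => SpecialLinearGroup.transvection a.2 t) where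
  add a t u := (SpecialLinearGroup.transvection_add _ _ _).symm
  c0 a b t u h1 h2 := commutatorElement_eq_one_iff_mul_comm.2 (Subtype.ext (by
    simp [SpecialLinearGroup.transvection_coe, mul_add, add_mul, single_mul_single_of_ne, h1.symm, h2]; abel))
  c1 a b h t u h2 := by
    obtain ⟨⟨i, j⟩, h3⟩ := a
    obtain ⟨⟨j', k⟩, h4⟩ := b
    simp only at h h2 h3 h4
    subst h2
    rw [commutatorElement_def, mul_inv_eq_iff_eq_mul, mul_inv_eq_iff_eq_mul]
    exact Subtype.ext (by
      simp [SpecialLinearGroup.transvection_coe, mul_add, add_mul, single_mul_single_of_ne, h.symm, h4.symm]; abel)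

theorem StR.eq_of (h : StR y) {a b : {ij : Fin n × Fin n // ij.1 ≠ ij.2}} {c d : K}
    (e : SpecialLinearGroup.transvection a.2 c = SpecialLinearGroup.transvection b.2 d) : y a c = y b d := by
  have e1 : single a.1.1 a.1.2 c = single b.1.1 b.1.2 d := add_left_cancel (congrArg Subtype.val e)
  by_cases hab : a = b
  · subst hab
    have := congrFun (congrFun e1 a.1.1) a.1.2
    simp only [single_apply_same] at this
    rw [this]
  have k : ¬ (b.1.1 = a.1.1 ∧ b.1.2 = a.1.2) := fun k => hab (Subtype.ext (Prod.ext k.1.symm k.2.symm))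
  have h1 := congrFun (congrFun e1 a.1.1) a.1.2
  have h2 := congrFun (congrFun e1 b.1.1) b.1.2
  rw [single_apply_same, single_apply_of_ne _ _ _ _ _ k] at h1
  rw [single_apply_same, single_apply_of_ne _ _ _ _ _ fun e => k ⟨e.1.symm, e.2.symm⟩] at h2
  rw [h1, ← h2, h.zero, h.zero]

end

theorem StR.bij {l : ℕ} (hl : 2 ≤ l) {K Γ : Type*} [Field K] [Finite K] [Group Γ] {y : ΦA l → K → Γ} (h : StR y)
    (ψ : Γ →* SpecialLinearGroup (Fin (l + 1)) K) (hψ : ∀ a t, ψ (y a t) = SpecialLinearGroup.transvection a.2 t)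
    (hy : Subgroup.closure {g | ∃ a t, g = y a t} = ⊤) : Function.Bijective ψ := by
  obtain ⟨n, e, ⟨S⟩⟩ := (rdA l hl).exists_sorted
  obtain ⟨C, h1, h2⟩ := exists_cover_SL hl S K
  have nr : ∀ r, ((rdA l hl).comap e).v r ⬝ᵥ ((rdA l hl).comap e).v r = 2 := fun r => by
    simp [RD.comap, rdA, uv_dot, (e r).2, (e r).2.symm]
  have key : ∀ {r s k : Fin n}, ((rdA l hl).comap e).v k = ((rdA l hl).comap e).v r + ((rdA l hl).comap e).v s →
      ∀ k', ((rdA l hl).comap e).v k' ≠ ((rdA l hl).comap e).v r + ((rdA l hl).comap e).v k := fun {r s k} hk k' hk' => by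
    have a1 := nr k
    have a2 := nr k'
    rw [hk', add_dotProduct, dotProduct_add, dotProduct_add, nr, nr, hk, add_dotProduct, dotProduct_add, nr,
      dotProduct_comm (_ : Fin (l + 1) → ℤ) (((rdA l hl).comap e).v r)] at a2
    rw [hk, add_dotProduct, dotProduct_add, dotProduct_add, nr, nr, dotProduct_comm (((rdA l hl).comap e).v s)] at a1
    omega
  let C' : Cover S.good K Γ :=
    { x := fun r t => y (e r) t
      add := fun r t u => (h.add _ _ _).symm
      comm := fun r s k1 k2 t u => by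
        obtain ⟨k, c, hk⟩ := h.ex (e r) (e s) (by
          by_contra! k
          refine k2 ?_
          rw [← S.neg_rev]
          exact e.injective (Subtype.ext (by simp [RD.comap, rdA, Prod.ext_iff, k.1, k.2]))) t u
        have a1 := congrArg ψ hk
        rw [map_mul, map_mul, map_mul, hψ, hψ, hψ, ← h2, ← h2, C.comm r s k1 k2, mul_right_inj] at a1
        rw [hk, mul_right_inj]
        by_cases h0 : ∃ k, ((rdA l hl).comap e).v k = ((rdA l hl).comap e).v r + ((rdA l hl).comap e).v s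
        · obtain ⟨k', hk'⟩ := h0
          have := RD.terms_one hk' (key hk') (key (hk'.trans (add_comm _ _)))
          simp only [ChevalleyDatum.commWord, this, wordG, List.map_cons, List.map_nil, List.prod_cons, List.prod_nil, mul_one] at a1 ⊢
          rw [dif_pos k'.2] at a1 ⊢
          rw [h2] at a1
          exact h.eq_of a1.symm
        · have := RD.terms_none (not_exists.1 h0)
          simp only [ChevalleyDatum.commWord, this, wordG, List.map_nil, List.prod_nil] at a1 ⊢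
          rw [← h.zero k]
          exact h.eq_of (by rw [← a1, SpecialLinearGroup.transvection_coeff_zero])
      π := C.π.comp ψ
      π_x := fun r t => by rw [MonoidHom.comp_apply, hψ, ← h2, C.π_x] }
  have h3 : C'.Gr = ⊤ := by
    rw [eq_top_iff, ← hy]
    refine (Subgroup.closure_le _).2 ?_
    rintro _ ⟨a, t, rfl⟩
    simpa [C'] using C'.x_mem_Gr (e.symm a) t
  have hτ : Function.Injective (C.R3_of_finite h1).τ := by
    refine RD.Sorted.τ_inj _ SpecialLinearGroup.coeMonoidHom (fun r t => ?_) (fun _ => rfl)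
      (of fun a j => if (a : ℕ) ≤ j then 1 else 0) ?_
    · rw [h2]
      ext a b
      change (1 + single (e r).1.1 (e r).1.2 t) a b = _
      simp [RD.comap, rdA, RD.xm, single]
    · ext i j
      have := congrFun (psum_sm i) j
      simp only [psum, LinearMap.coe_mk, AddHom.coe_mk] at this
      simp [mul_apply, RD.comap, rdA, one_apply, uv_apply, eq_comm] at this ⊢
      exact this
  constructor
  · refine (injective_iff_map_eq_one _).2 fun a ha => ?_
    have : a ∈ Subgroup.center _ := by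
      rw [← C'.π_ker h3, MonoidHom.mem_ker]
      change C.π (ψ a) = 1
      rw [ha, map_one]
    rw [C'.center_eq h3 (C'.R3_of_finite h3)] at this
    obtain ⟨c, -, rfl⟩ := this
    have k : ψ ((C'.R3_of_finite h3).τ c) = (C.R3_of_finite h1).τ c := by
      rw [Cover.R3.τ_eq, Cover.R3.τ_eq, map_list_prod, List.map_map]
      congr 1
      refine List.map_congr_left fun i _ => ?_
      rw [Function.comp_apply, ← Cover.hG_eq, map_hG, ← Cover.hG_eq]
      exact congrArg (fun x => CfsgH6.hG x _ _) (funext fun r => funext fun t => (hψ _ _).trans (h2 r t).symm)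
    rw [hτ (k.symm.trans (ha.trans (map_one _).symm)), map_one]
  · rw [← MonoidHom.range_eq_top, eq_top_iff, ← h1]
    exact (Subgroup.closure_le _).2 (by rintro _ ⟨r, -, t, rfl⟩; exact ⟨_, (hψ _ _).trans (h2 r t).symm⟩)

/-- The Steinberg presentation of `SL_n` over a finite field for `n ≥ 3`: the group generated by symbols `x_ij(t)` (`i ≠ j`, `t` in the field) subject to `x_ij(t) x_ij(u) = x_ij(t + u)` and, for `i ≠ l`, `x_ij(t) x_kl(u) x_ij(t)⁻¹ x_kl(u)⁻¹ = x_il(tu)` if `j = k` and `= 1` if `j ≠ k`, is isomorphic to `SL_n` by an isomorphism sending `x_ij(t)` to the elementary matrix `1 + t E_ij`. -/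
theorem result {K : Type*} [Field K] [Finite K] (n : ℕ) (hn : 3 ≤ n) :
    ∃ e : PresentedGroup
        ({g : FreeGroup ({ij : Fin n × Fin n // ij.1 ≠ ij.2} × K) | ∃ (a : {ij : Fin n × Fin n // ij.1 ≠ ij.2}) (t u : K),
            g = FreeGroup.of (a, t) * FreeGroup.of (a, u) * (FreeGroup.of (a, t + u))⁻¹} ∪
          {g | ∃ (a b : {ij : Fin n × Fin n // ij.1 ≠ ij.2}) (t u : K), a.1.1 ≠ b.1.2 ∧ a.1.2 ≠ b.1.1 ∧
            g = FreeGroup.of (a, t) * FreeGroup.of (b, u) * (FreeGroup.of (a, t))⁻¹ * (FreeGroup.of (b, u))⁻¹} ∪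
          {g | ∃ (a b : {ij : Fin n × Fin n // ij.1 ≠ ij.2}) (h : a.1.1 ≠ b.1.2) (t u : K), a.1.2 = b.1.1 ∧
            g = FreeGroup.of (a, t) * FreeGroup.of (b, u) * (FreeGroup.of (a, t))⁻¹ * (FreeGroup.of (b, u))⁻¹ *
              (FreeGroup.of (⟨(a.1.1, b.1.2), h⟩, t * u))⁻¹}) ≃* Matrix.SpecialLinearGroup (Fin n) K,
      ∀ (a : {ij : Fin n × Fin n // ij.1 ≠ ij.2}) (t : K), ((e (PresentedGroup.of (a, t)) : Matrix (Fin n) (Fin n) K)) = Matrix.transvection a.1.1 a.1.2 t := by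
  obtain ⟨l, rfl⟩ : ∃ l, n = l + 1 := ⟨n - 1, by omega⟩
  generalize hR : ({g : FreeGroup ({ij : Fin (l + 1) × Fin (l + 1) // ij.1 ≠ ij.2} × K) | _} ∪ _ ∪ _ : Set _) = R
  have hf : ∀ r ∈ R, FreeGroup.lift (fun p : ΦA l × K => SpecialLinearGroup.transvection p.1.2 p.2) r = 1 := by
    subst hR
    rintro r ((⟨a, t, u, rfl⟩ | ⟨a, b, t, u, h1, h2, rfl⟩) | ⟨a, b, h, t, u, h1, rfl⟩)
    · simp only [map_mul, map_inv, FreeGroup.lift_apply_of]
      rw [stR_SL.add, mul_inv_cancel]
    · simp only [map_mul, map_inv, FreeGroup.lift_apply_of]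
      exact stR_SL.c0 a b t u h1 h2
    · simp only [map_mul, map_inv, FreeGroup.lift_apply_of]
      exact mul_inv_eq_one.2 (stR_SL.c1 a b h t u h1)
  have hm : ∀ r ∈ R, PresentedGroup.mk R r = 1 := fun r hr => PresentedGroup.one_of_mem hr
  have hs : StR (fun (a : ΦA l) (t : K) => (PresentedGroup.of (a, t) : PresentedGroup R)) :=
    ⟨fun a t u => mul_inv_eq_one.1 (hm _ (hR ▸ Or.inl (Or.inl ⟨a, t, u, rfl⟩))),
      fun a b t u h1 h2 => hm _ (hR ▸ Or.inl (Or.inr ⟨a, b, t, u, h1, h2, rfl⟩)),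
      fun a b h t u h1 => mul_inv_eq_one.1 (hm _ (hR ▸ Or.inr ⟨a, b, h, t, u, h1, rfl⟩))⟩
  refine ⟨MulEquiv.ofBijective (PresentedGroup.toGroup hf) (hs.bij (by omega) _ (fun a t => PresentedGroup.toGroup.of hf) ?_),
    fun a t => congrArg Subtype.val (PresentedGroup.toGroup.of hf (x := (a, t)))⟩
  rw [eq_top_iff, ← PresentedGroup.closure_range_of]
  exact Subgroup.closure_mono (by rintro _ ⟨⟨a, t⟩, rfl⟩; exact ⟨a, t, rfl⟩)

end Cfsg.Agent.S2401
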