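import Cfsg.Statements.S2403
import Mathlib
import Cfsg.Agent.H5.SLBasic

set_option autoImplicit false
open Cfsg

namespace Cfsg.Agent.S2403

section
open Matrix Matrix.SpecialLinearGroup
open scoped commutatorElement

variable {K : Type*} [Field K] {n : ℕ} {w : SpecialLinearGroup (Fin (n + 1)) K}

theorem w_eq (hw : (w : Matrix (Fin (n + 1)) (Fin (n + 1)) K) =
    Matrix.of (fun i j => if j.val = i.val + 1 then 1 else if i.val = n ∧ j.val = 0 then (-1) ^ n else 0)) :
    ∃ e : Fin (n + 1) → K, (∀ i, e i * e i = 1) ∧ ∀ i j, w.1 i j = if j = i + 1 then e i else 0 := by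
  refine ⟨fun i => if i = Fin.last n then (-1) ^ n else 1, fun i => by dsimp only; split_ifs <;> simp [← mul_pow], fun i j => ?_⟩
  have := i.2
  have := j.2
  simp only [hw, of_apply, Fin.ext_iff, Fin.val_add_one, Fin.val_last]
  split_ifs <;> first | rfl | omega

theorem gen (hn : 1 ≤ n) {e : Fin (n + 1) → K} (he : ∀ i, e i * e i = 1) (hw : ∀ i j, w.1 i j = if j = i + 1 then e i else 0)
    {H : Subgroup (SpecialLinearGroup (Fin (n + 1)) K)} (h1 : w ∈ H)
    (h2 : ∀ (h : (0 : Fin (n + 1)) ≠ 1) c, SpecialLinearGroup.transvection h c ∈ H) : H = ⊤ := by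
  have h0 : ∀ i : Fin (n + 1), i ≠ i + 1 := fun i c => by
    have := congrArg Fin.val (left_eq_add.1 c); rw [Fin.val_one', Nat.mod_eq_of_lt (by omega)] at this; simp at this
  have h3 : ∀ (i : Fin (n + 1)) c, SpecialLinearGroup.transvection (h0 i) c ∈ H := fun i => by
    induction i using Fin.induction with
    | zero => simpa using h2 _
    | succ i ih =>
      intro c
      rw [← Fin.coeSucc_eq_succ]
      generalize i.castSucc = i at ih
      have : w * SpecialLinearGroup.transvection (h0 (i + 1)) c =
          SpecialLinearGroup.transvection (h0 i) (c * e i * e (i + 1)) * w := Subtype.ext (Matrix.ext fun a b => by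
        simp only [Matrix.SpecialLinearGroup.coe_mul, transvection_coe, mul_add, add_mul, mul_one, one_mul, Matrix.add_apply, add_right_inj]
        by_cases h : b = i + 1 + 1
        · by_cases h' : a = i
          · subst h h'; simp [hw, mul_assoc _ (e (a + 1)), he, mul_comm c]
          · subst h; simp [hw, h', Ne.symm h']
        · by_cases h' : a = i
          · subst h'; simp [hw, h, Ne.symm h]
          · simp [h', Ne.symm h', h, Ne.symm h])
      rw [eq_inv_mul_iff_mul_eq.2 this]
      exact mul_mem (inv_mem h1) (mul_mem (ih _) h1)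
  have h4 : ∀ (d i : Fin (n + 1)) (h : i ≠ i + d) c, SpecialLinearGroup.transvection h c ∈ H := fun d => by
    induction d using Fin.induction with
    | zero => exact fun i h => (h (add_zero i).symm).elim
    | succ d ih =>
      rw [← Fin.coeSucc_eq_succ]
      generalize d.castSucc = d at ih
      intro i h c
      by_cases e : d = 0
      · subst e; simpa using h3 i c
      simp only [← add_assoc] at h ⊢
      rw [← mul_one c, ← CfsgH5.transvection_commutator (fun c => e (left_eq_add.1 c)) (h0 _) h]
      exact mul_mem (mul_mem (mul_mem (ih _ _ _) (h3 _ _)) (inv_mem (ih _ _ _))) (inv_mem (h3 _ _))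
  refine CfsgH5.SL_eq_top_of_transvections H fun i j h c => ?_
  obtain ⟨d, rfl⟩ : ∃ d, j = i + d := ⟨j - i, by simp⟩
  exact h4 d i h c

end

/-- Explicit two-element generation of `PSL_{n+1}(K)` over the fields with two or three elements: with `x = 1 + E₁₂` and `w` the monomial matrix with entries `1` in positions `(i, i+1)` and `(−1)^n` in position `(n+1, 1)`, the elements `x` and `w` generate `SL_{n+1}(K)` modulo its centre. -/
theorem result {K : Type*} [Field K] [Fintype K] (hK : Fintype.card K ≤ 3) (n : ℕ) (hn : 1 ≤ n)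
    (x w : Matrix.SpecialLinearGroup (Fin (n + 1)) K)
    (hx : (x : Matrix (Fin (n + 1)) (Fin (n + 1)) K) = Matrix.transvection (0 : Fin (n + 1)) (1 : Fin (n + 1)) 1)
    (hw : (w : Matrix (Fin (n + 1)) (Fin (n + 1)) K) =
      Matrix.of (fun i j => if j.val = i.val + 1 then 1 else if i.val = n ∧ j.val = 0 then (-1) ^ n else 0)) :
    Subgroup.closure ({x, w} : Set (Matrix.SpecialLinearGroup (Fin (n + 1)) K)) ⊔
      Subgroup.center (Matrix.SpecialLinearGroup (Fin (n + 1)) K) = ⊤ := by
  open Matrix Matrix.SpecialLinearGroup in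
  open scoped commutatorElement in
  · obtain ⟨e, h1, h2⟩ := w_eq hw
    refine top_le_iff.1 ((gen hn h1 h2 (Subgroup.subset_closure (by simp)) fun h c => ?_).ge.trans le_sup_left)
    have h3 : SpecialLinearGroup.transvection h (1 : K) ∈ Subgroup.closure {x, w} := Subgroup.subset_closure (.inl (Subtype.ext hx.symm))
    by_cases h0 : c = 0
    · simp [h0]
    have h4 := FiniteField.pow_card_sub_one_eq_one c h0
    have := Fintype.one_lt_card (α := K)
    have h5 : c ^ 2 = 1 := by interval_cases Fintype.card K <;> simp_all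
    rcases sq_eq_one_iff.1 h5 with rfl | rfl
    · exact h3
    · exact transvection_inv h (1 : K) ▸ inv_mem h3

end Cfsg.Agent.S2403
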