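import Cfsg.Statements.S2402
import Mathlib
import Cfsg.Agent.H5.SLBasic
import Cfsg.Agent.S2403

set_option autoImplicit false
open Cfsg

namespace Cfsg.Agent.S2402

section
open Matrix Matrix.SpecialLinearGroup
open scoped commutatorElement

variable {K : Type*} [Field K] {ι : Type*} [Fintype ι] [DecidableEq ι]

theorem dc {D : SpecialLinearGroup ι K} {d : ι → K} (h : D.1 = diagonal d) {i j : ι} (e : i ≠ j) {c c' : K} (h1 : d i * c = c' * d j) :
    D * SpecialLinearGroup.transvection e c = SpecialLinearGroup.transvection e c' * D := Subtype.ext (Matrix.ext fun a b => by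
  rw [Matrix.SpecialLinearGroup.coe_mul, Matrix.SpecialLinearGroup.coe_mul, transvection_coe, transvection_coe, mul_add, add_mul, mul_one, one_mul]
  simp only [Matrix.add_apply, add_right_inj, h, diagonal_mul, mul_diagonal, single_apply]
  split_ifs with h
  · rw [← h.1, ← h.2, h1]
  · simp)

end

/-- Explicit two-element generation of `PSL_{n+1}(K)` for a finite field `K` with more than three elements: let `k` generate the multiplicative group of `K`, `h = diag(k, k⁻¹, 1, …, 1)`, `x = 1 + E₁₂` (the elementary transvection) and `w` the monomial matrix with entries `1` in positions `(i, i+1)` and `(−1)^n` in position `(n+1, 1)`. Then `h` and `x·w` generate `SL_{n+1}(K)` modulo its centre: the subgroup they generate together with the centre is everything. -/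
theorem result {K : Type*} [Field K] [Fintype K] (hK : 3 < Fintype.card K) (n : ℕ) (hn : 1 ≤ n)
    (k : Kˣ) (hk : ∀ u : Kˣ, u ∈ Subgroup.zpowers k)
    (h x w : Matrix.SpecialLinearGroup (Fin (n + 1)) K)
    (hh : (h : Matrix (Fin (n + 1)) (Fin (n + 1)) K) =
      Matrix.diagonal (fun i => if i.val = 0 then (k : K) else if i.val = 1 then ((k⁻¹ : Kˣ) : K) else 1))
    (hx : (x : Matrix (Fin (n + 1)) (Fin (n + 1)) K) = Matrix.transvection (0 : Fin (n + 1)) (1 : Fin (n + 1)) 1)
    (hw : (w : Matrix (Fin (n + 1)) (Fin (n + 1)) K) =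
      Matrix.of (fun i j => if j.val = i.val + 1 then 1 else if i.val = n ∧ j.val = 0 then (-1) ^ n else 0)) :
    Subgroup.closure ({h, x * w} : Set (Matrix.SpecialLinearGroup (Fin (n + 1)) K)) ⊔
      Subgroup.center (Matrix.SpecialLinearGroup (Fin (n + 1)) K) = ⊤ := by
  open Matrix Matrix.SpecialLinearGroup in
  open scoped commutatorElement in
  · obtain ⟨e, h1, h2⟩ := S2403.w_eq hw
    refine top_le_iff.1 (le_trans ?_ le_sup_left)
    have m1 : h ∈ Subgroup.closure {h, x * w} := Subgroup.subset_closure (by simp)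
    have m2 : x * w ∈ Subgroup.closure {h, x * w} := Subgroup.subset_closure (by simp)
    generalize Subgroup.closure {h, x * w} = H at m1 m2
    have v1 : (1 : Fin (n + 1)).val = 1 := by rw [Fin.val_one', Nat.mod_eq_of_lt (by omega)]
    have h0 : (0 : Fin (n + 1)) ≠ 1 := fun c => zero_ne_one ((congrArg Fin.val c).trans v1)
    obtain rfl : x = SpecialLinearGroup.transvection h0 1 := Subtype.ext hx
    have k2 : (k : K) ^ 2 ≠ 1 := fun c => by
      have := Nat.le_of_dvd two_pos (orderOf_dvd_of_pow_eq_one (Units.ext (by simpa using c) : k ^ 2 = 1))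
      rw [orderOf_eq_card_of_forall_mem_zpowers hk, Nat.card_units, Nat.card_eq_fintype_card] at this
      omega
    obtain ⟨d, hd, d0, d1, d2⟩ : ∃ d : Fin (n + 1) → K, h.1 = diagonal d ∧ d 0 = k ∧ d 1 = (k : K)⁻¹ ∧ ∃ a, a ≠ 1 ∧ d 1 = a * d (1 + 1) := by
      refine ⟨_, hh, by simp, by simp only [v1]; simp, ?_⟩
      simp only [v1, one_ne_zero, if_false, if_true, Units.val_inv_eq_inv_val]
      split_ifs with a b
      · exact ⟨(k : K)⁻¹ ^ 2, by simpa using k2, by field_simp⟩
      · exact (h0 (by simpa using (Fin.ext (b.trans v1.symm)).symm)).elim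
      · exact ⟨(k : K)⁻¹, fun c => k2 (by simp [inv_eq_one.1 c]), by simp⟩
    obtain ⟨a, a1, a2⟩ := d2
    have c1 : ∀ c : K, h * SpecialLinearGroup.transvection h0 c = SpecialLinearGroup.transvection h0 (c * (k : K) ^ 2) * h := fun c =>
      dc hd h0 (by rw [d0, d1]; field_simp)
    obtain ⟨D, hD, c2⟩ : ∃ D : SpecialLinearGroup (Fin (n + 1)) K, D.1 = diagonal (fun i => d (i + 1)) ∧ w * h = D * w := by
      refine ⟨w * h * w⁻¹, ?_, by simp⟩
      rw [Matrix.SpecialLinearGroup.coe_mul, ← Matrix.mul_one (diagonal _), ← Matrix.SpecialLinearGroup.coe_one, ← mul_inv_cancel w,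
        Matrix.SpecialLinearGroup.coe_mul w w⁻¹, ← mul_assoc]
      congr 1
      ext i j
      simp only [Matrix.SpecialLinearGroup.coe_mul, hd, mul_diagonal, diagonal_mul, h2]
      split_ifs with c <;> simp [c, mul_comm]
    have c3 : h * D = D * h := Subtype.ext (by simp [hd, hD, mul_comm])
    have c4 := dc hD h0 (c := -1) (c' := -a) (by simp [a2])
    have m3 : SpecialLinearGroup.transvection h0 (1 - a) * D ∈ H := by
      have := mul_mem (mul_mem m2 m1) (inv_mem m2)
      rwa [mul_assoc _ w, c2, _root_.mul_inv_rev, transvection_inv, mul_assoc, mul_assoc, mul_inv_cancel_left, c4, ← mul_assoc,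
        ← transvection_add, ← sub_eq_add_neg] at this
    have m4 : SpecialLinearGroup.transvection h0 ((1 - a) * ((k : K) ^ 2 - 1)) ∈ H := by
      have := mul_mem (mul_mem (mul_mem m1 m3) (inv_mem m1)) (inv_mem m3)
      rwa [← mul_assoc h, c1, mul_assoc _ h, c3, mul_assoc _ (D * h), mul_inv_cancel_right, _root_.mul_inv_rev, mul_assoc,
        mul_inv_cancel_left, transvection_inv, ← transvection_add, ← sub_eq_add_neg, ← mul_sub_one] at this
    have t0 : (1 - a) * ((k : K) ^ 2 - 1) ≠ 0 := mul_ne_zero (sub_ne_zero.2 a1.symm) (sub_ne_zero.2 k2)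
    generalize (1 - a) * ((k : K) ^ 2 - 1) = t at m4 t0
    have m5 : ∀ u : K, SpecialLinearGroup.transvection h0 (t * u ^ 2) ∈ H := fun u => by
      by_cases u0 : u = 0
      · simp [u0]
      obtain ⟨m, hm⟩ := (mem_powers_iff_mem_zpowers.2 (hk (Units.mk0 u u0)))
      obtain rfl : (k : K) ^ m = u := by simpa using congrArg Units.val hm
      clear hm u0
      induction m with
      | zero => simpa
      | succ m ih =>
        rw [pow_succ (k : K) m, mul_pow, ← mul_assoc, eq_mul_inv_of_mul_eq (c1 _).symm]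
        exact mul_mem (mul_mem m1 ih) (inv_mem m1)
    have m6 : ∀ c, SpecialLinearGroup.transvection h0 c ∈ H := fun c => by
      by_cases c2 : ringChar K = 2
      · obtain ⟨u, hu⟩ := FiniteField.isSquare_of_char_two c2 (c / t)
        exact (show t * u ^ 2 = c by rw [sq, ← hu]; field_simp) ▸ m5 u
      have := Ring.two_ne_zero c2
      rw [show c = t * ((c / t + 1) / 2) ^ 2 + -(t * ((c / t - 1) / 2) ^ 2) by field_simp; ring, transvection_add, ← transvection_inv]
      exact mul_mem (m5 _) (inv_mem (m5 _))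
    exact (S2403.gen hn h1 h2 ((mul_mem_cancel_left (m6 1)).1 m2) fun _ => m6).ge

end Cfsg.Agent.S2402
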