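import Cfsg.Statements.S2409
import Mathlib
import Cfsg.Agent.H6.Ree3

set_option autoImplicit false
open Cfsg

namespace Cfsg.Agent.S2409

open Subgroup CfsgH2 CfsgH6 Cfsg

theorem gen {R K : Type*} [Group R] [Field K] [Fintype K] {m : ℕ} (X : Ree R K m) (hm : 1 ≤ m) {M : Subgroup R} (hh : ∀ a, X.h a ∈ M)
    (hn : X.w 1 0 0 * X.n ∈ M) : M = ⊤ := by
  classical
  have h3 := X.three
  have cj {t u v} (k : X.w t u v ∈ M) (a : Kˣ) : X.w (a ^ 2 / a ^ 3 ^ (m + 1) * t) (a ^ 3 ^ (m + 1) / a * u) (a * v) ∈ M :=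
    X.h_w a t u v ▸ mul_mem (mul_mem (hh a) k) (inv_mem (hh a))
  have rr (b : K) (i : ℕ) : (b ^ 3 ^ (m + 1) * b ^ i) ^ 3 ^ (m + 1) = b ^ 3 * (b ^ 3 ^ (m + 1)) ^ i := by
    rw [mul_pow, X.pow_rr, ← pow_mul b i, mul_comm i, pow_mul]
  have T (t : K) : ∃ u v, X.w t u v ∈ M := by
    by_cases t0 : t = 0
    · exact ⟨0, 0, by rw [t0, X.w_zero]; exact one_mem _⟩
    have k := mul_mem (mul_mem (mul_mem hn (hh (-1)⁻¹)) (inv_mem hn)) (inv_mem (hh (-1)))
    rw [mul_inv_rev, ← mul_assoc, mul_assoc _ X.n, mul_assoc _ (X.n * _), X.n_h', inv_inv, mul_assoc, mul_assoc, ← mul_assoc (X.h _), X.w_inv,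
      ← Ree.z, X.z_w, X.w_mul] at k
    have := cj k (Units.mk0 ((-t) ^ 3 ^ (m + 1) * (-t) ^ 2) (by simp [t0]))
    refine ⟨_, _, by
      convert this using 2
      rw [Units.val_mk0, rr]
      have s0 : (-t) ^ 3 ^ (m + 1) ≠ 0 := by simp [t0]
      generalize (-t) ^ 3 ^ (m + 1) = s at s0 ⊢
      field_simp
      linear_combination h3⟩
  have U (u : K) : ∃ v, X.w 0 u v ∈ M := by
    obtain ⟨t, ht⟩ : ∃ t : K, t ∉ ({0, 1, -1} : Finset K) := by
      by_contra! k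
      have := (Finset.card_le_card fun t _ => k t : (Finset.univ : Finset K).card ≤ _).trans Finset.card_le_three
      rw [Finset.card_univ, X.hK] at this
      exact absurd ((Nat.pow_le_pow_right three_pos (by omega : 2 ≤ 2 * m + 1)).trans this) (by norm_num)
    simp only [Finset.mem_insert, Finset.mem_singleton, not_or] at ht
    have n : t ^ 3 ^ (m + 1) - t ≠ 0 := fun e => (sq_eq_one_iff.1 (X.sq_of_r ht.1 (sub_eq_zero.1 e))).elim ht.2.1 ht.2.2
    obtain ⟨a, b, h1⟩ := T t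
    obtain ⟨a', b', h2⟩ := T 1
    have k := mul_mem (mul_mem h1 h2) (inv_mem (mul_mem h2 h1))
    simp only [X.w_mul, X.w_inv] at k
    have k1 : ∃ v, X.w 0 (t ^ 3 ^ (m + 1) - t) v ∈ M := ⟨_, by convert k using 2 <;> simp only [Ree.neg_r, one_pow, add_comm t] <;> ring⟩
    have k2 (c : K) : ∃ v, X.w 0 (c ^ 2 * (t ^ 3 ^ (m + 1) - t)) v ∈ M := by
      by_cases c0 : c = 0
      · exact ⟨0, by simp [c0, X.w_zero]⟩
      obtain ⟨v, hv⟩ := k1
      have := cj hv (Units.mk0 (c ^ 3 ^ (m + 1) * c ^ 1) (by simp [c0]))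
      refine ⟨_, by convert this using 2; simp; rw [Units.val_mk0, rr]; field_simp⟩
    obtain ⟨v, hv⟩ := k2 (u / (t ^ 3 ^ (m + 1) - t) + 1)
    obtain ⟨v', hv'⟩ := k2 (u / (t ^ 3 ^ (m + 1) - t) - 1)
    have k3 := mul_mem hv (inv_mem hv')
    simp only [X.w_mul, X.w_inv] at k3
    generalize t ^ 3 ^ (m + 1) - t = s at *
    exact ⟨_, by convert k3 using 2; simp; field_simp; linear_combination (-u * s) * h3⟩
  have V (v : K) : X.w 0 0 v ∈ M := by
    by_cases v0 : v = 0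
    · rw [v0, X.w_zero]; exact one_mem _
    obtain ⟨a, h1⟩ := U 1
    obtain ⟨b, c, h2⟩ := T 1
    have k := mul_mem (mul_mem h2 h1) (inv_mem (mul_mem h1 h2))
    simp only [X.w_mul, X.w_inv] at k
    have k1 : X.w 0 0 1 ∈ M := by
      convert k using 2 <;> simp only [Ree.neg_r, Ree.zero_r, one_pow, add_zero, zero_add]
      exacts [by ring, by ring, by linear_combination (-1) * h3]
    simpa using cj k1 (Units.mk0 v v0)
  have l : X.U ≤ M := by
    rintro _ ⟨t, u, v, rfl⟩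
    obtain ⟨a, b, h1⟩ := T t
    obtain ⟨c, h2⟩ := U (u - a)
    have := mul_mem (mul_mem h1 h2) (V (v - b - c))
    simpa [X.w_mul, Ree.zero_r] using this
  have lB : X.B ≤ M := sup_le l (by rintro _ ⟨a, rfl⟩; exact hh a)
  refine eq_top_iff.2 fun g _ => ?_
  rcases X.bru' g with k | ⟨u, hu, b, hb, rfl⟩
  exacts [lB k, mul_mem (mul_mem (l hu) ((mul_mem_cancel_left (l (X.w_mem ..))).1 hn)) (lB hb)]

/-- The small Ree group ²G₂(3^(2m+1)) with `m ≥ 1` is generated by two of its elements. -/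
theorem result {K : Type*} [Field K] [Fintype K] {m : ℕ} (hm : 1 ≤ m) (hK : Fintype.card K = 3 ^ (2 * m + 1)) :
    ∃ a b : ↥(Cfsg.Lie.twistedG2 K (3 ^ m)), Subgroup.closure ({a, b} : Set ↥(Cfsg.Lie.twistedG2 K (3 ^ m))) = ⊤ := by
  obtain ⟨X, -⟩ := CfsgH6.exists_ree hK
  obtain ⟨g, hg⟩ := IsCyclic.exists_generator (α := Kˣ)
  refine ⟨X.h g, X.w 1 0 0 * X.n, gen X hm (fun a => ?_) (subset_closure (by simp))⟩
  obtain ⟨k, rfl⟩ := hg a
  exact map_zpow X.h g k ▸ zpow_mem (subset_closure (by simp)) k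

end Cfsg.Agent.S2409
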