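import Cfsg.Statements.S2416
import Cfsg.Agent.H6.Len
import Cfsg.Agent.H6.Simple

set_option autoImplicit false
open scoped MatrixGroups
open Cfsg

namespace Cfsg.Agent.S2416

open Cfsg.Lie CfsgH6 in
theorem aux {D : ChevalleyDatum} {G : Good D} {κ : ℤ} {T : List (List (List ℕ))} (h : LenOK G κ T) {K : Type*} [Field K]
    (hc : κ = 1 ∨ ∃ r s k : Fin D.nroots, G.len r = 1 ∧ G.len s = 1 ∧ G.len k = κ ∧
      D.commTerms r s = [((k : ℕ), -κ, 1, 1)]) (hκ : (κ : K) ≠ 0)
    (i : ℕ) (hi : i < D.rank) (hshort : D.isLong (D.simple i) = false) :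
    D.group K ≤ D.monomialSubgroup K ⊔ D.rootSubgroup K (D.simple i) := by
  lift i to Fin D.rank using hi
  rw [G.group_eq, G.monomial_eq, ← G.sm_val, G.rootSubgroup_eq]
  have h1 : ∀ r, G.len r = 1 → ∀ t, (G.gl K).x r t ∈ (G.gl K).NN ⊔ (G.gl K).US {G.sm i} := fun r hr =>
    h.x_mem _ le_sup_left (((h.short_iff i).1 hshort).trans hr.symm) fun t =>
      Subgroup.mem_sup_right ((G.gl K).x_mem (Set.mem_singleton _) t)
  refine (G.gl K).US_le.2 fun r _ => (h.len_eq r).elim (h1 r) fun hr => ?_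
  rcases hc with rfl | ⟨a, b, k, ha, hb, hk, e⟩
  · exact h1 r hr
  refine h.x_mem _ le_sup_left (hk.trans hr.symm) fun t => ?_
  have := (G.gl K).comm_one e 1 (t / κ)
  rw [show ((-κ : ℤ) : K) * (-1) ^ 1 * (t / κ) ^ 1 = t by push_cast; field_simp] at this
  rw [← this, commutatorElement_def]
  exact mul_mem (mul_mem (mul_mem (inv_mem (h1 b hb _)) (inv_mem (h1 a ha _))) (inv_mem (inv_mem (h1 b hb _))))
    (inv_mem (inv_mem (h1 a ha _)))

theorem ne_zero {K : Type*} [Field K] {p : ℕ} (hp : p.Prime) (h : ringChar K ≠ p) : ((p : ℤ) : K) ≠ 0 := fun e => by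
  rw [Int.cast_natCast, ringChar.spec] at e
  rcases hp.eq_one_or_self_of_dvd _ e with h1 | h1
  · exact CharP.ringChar_ne_one h1
  · exact h h1

set_option maxRecDepth 100000 in

/-- A Chevalley group of type G₂, B₂, D₄, F₄, E₆, E₇ or E₈ over a finite field lies in (indeed equals) the subgroup generated by its monomial subgroup `N` and a single fundamental root subgroup `X_p`, where `p` is a short fundamental root if there are two root lengths (any fundamental root otherwise), provided the characteristic is not 2 for types B₂, F₄ and not 3 for type G₂ (and the field has more than two elements for B₂, G₂). -/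
theorem result {K : Type*} [Field K] [Finite K] (D : Cfsg.Lie.ChevalleyDatum) (hD : D ∈ [Cfsg.Lie.chevG2, Cfsg.Lie.chevB2, Cfsg.Lie.chevD4, Cfsg.Lie.chevF4, Cfsg.Lie.chevE6, Cfsg.Lie.chevE7, Cfsg.Lie.chevE8])
    (hK : D ∈ [Cfsg.Lie.chevB2, Cfsg.Lie.chevG2] → ∃ x : K, x ≠ 0 ∧ x ≠ 1)
    (h2 : D ∈ [Cfsg.Lie.chevB2, Cfsg.Lie.chevF4] → ringChar K ≠ 2) (h3 : D = Cfsg.Lie.chevG2 → ringChar K ≠ 3)
    (i : ℕ) (hi : i < D.rank) (hshort : D.isLong (D.simple i) = false) :
    D.group K ≤ D.monomialSubgroup K ⊔ D.rootSubgroup K (D.simple i) := by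
  simp only [List.mem_cons, List.not_mem_nil, or_false] at hD
  rcases hD with rfl | rfl | rfl | rfl | rfl | rfl | rfl
  · exact aux CfsgH6.lenG2 (Or.inr ⟨⟨4, by decide⟩, ⟨8, by decide⟩, ⟨6, by decide⟩, by decide +kernel⟩)
      (ne_zero Nat.prime_three (h3 rfl)) i hi hshort
  · exact aux CfsgH6.lenB2 (Or.inr ⟨⟨2, by decide⟩, ⟨6, by decide⟩, ⟨4, by decide⟩, by decide +kernel⟩)
      (ne_zero Nat.prime_two (h2 (by simp))) i hi hshort
  · exact aux CfsgH6.lenD4 (Or.inl rfl) (by simp) i hi hshort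
  · exact aux CfsgH6.lenF4 (Or.inr ⟨⟨9, by decide +kernel⟩, ⟨39, by decide +kernel⟩, ⟨25, by decide +kernel⟩,
      by decide +kernel⟩) (ne_zero Nat.prime_two (h2 (by simp))) i hi hshort
  · exact aux CfsgH6.lenE6 (Or.inl rfl) (by simp) i hi hshort
  · exact aux CfsgH6.lenE7 (Or.inl rfl) (by simp) i hi hshort
  · exact aux CfsgH6.lenE8 (Or.inl rfl) (by simp) i hi hshort

end Cfsg.Agent.S2416
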