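import Cfsg.Statements.S2417
import Cfsg.Agent.H6.Len

set_option autoImplicit false
open scoped MatrixGroups
open Cfsg

namespace Cfsg.Agent.S2417

open Cfsg.Lie CfsgH6 in
theorem aux {D : ChevalleyDatum} {G : Good D} {κ : ℤ} {T : List (List (List ℕ))} (h : LenOK G κ T) {K : Type*} [Field K]
    (i j : ℕ) (hi : i < D.rank) (hj : j < D.rank) (hshort : D.isLong (D.simple i) = false)
    (hlong : D.isLong (D.simple j) = true) :
    D.group K ≤ D.monomialSubgroup K ⊔ D.rootSubgroup K (D.simple i) ⊔ D.rootSubgroup K (D.simple j) := by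
  lift i to Fin D.rank using hi
  lift j to Fin D.rank using hj
  rw [G.group_eq, G.monomial_eq, ← G.sm_val, ← G.sm_val, G.rootSubgroup_eq, G.rootSubgroup_eq]
  refine (G.gl K).US_le.2 fun r _ => (h.len_eq r).elim (fun hr => ?_) fun hr => ?_
  · exact h.x_mem _ (le_sup_left.trans le_sup_left) (((h.short_iff i).1 hshort).trans hr.symm) fun t =>
      Subgroup.mem_sup_left (Subgroup.mem_sup_right ((G.gl K).x_mem (Set.mem_singleton _) t))
  · exact h.x_mem _ (le_sup_left.trans le_sup_left)
      (((h.len_eq _).resolve_left ((h.long_iff j).1 hlong)).trans hr.symm) fun t =>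
      Subgroup.mem_sup_right ((G.gl K).x_mem (Set.mem_singleton _) t)

/-- In the characteristics with an exceptional graph symmetry — type B₂ or F₄ in characteristic 2 (field of more than two elements for B₂) and type G₂ in characteristic 3 — the Chevalley group lies in the subgroup generated by its monomial subgroup `N` and the two fundamental root subgroups `X_a`, `X_b` of a short root `a` and a long root `b` joined in the Dynkin diagram. -/
theorem result {K : Type*} [Field K] [Finite K] (e : Cfsg.Lie.ChevalleyDatum × ℕ)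
    (he : e ∈ [(Cfsg.Lie.chevB2, 2), (Cfsg.Lie.chevF4, 2), (Cfsg.Lie.chevG2, 3)]) [CharP K e.2]
    (hK : e.1 = Cfsg.Lie.chevB2 → ∃ x : K, x ≠ 0 ∧ x ≠ 1)
    (i j : ℕ) (hi : i < e.1.rank) (hj : j < e.1.rank) (hshort : e.1.isLong (e.1.simple i) = false)
    (hlong : e.1.isLong (e.1.simple j) = true) (hbond : e.1.bonds i j ≠ 0) :
    e.1.group K ≤ e.1.monomialSubgroup K ⊔ e.1.rootSubgroup K (e.1.simple i) ⊔ e.1.rootSubgroup K (e.1.simple j) := by
  simp only [List.mem_cons, List.not_mem_nil, or_false] at he
  rcases he with rfl | rfl | rfl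
  exacts [aux CfsgH6.lenB2 i j hi hj hshort hlong, aux CfsgH6.lenF4 i j hi hj hshort hlong,
    aux CfsgH6.lenG2 i j hi hj hshort hlong]

end Cfsg.Agent.S2417
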