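import Cfsg.Statements.S2418
import Cfsg.Agent.H6.WeylC

set_option autoImplicit false
open Cfsg

namespace Cfsg.Agent.S2418

open CfsgH6
set_option maxRecDepth 100000

/-- For the Coxeter groups of types B₂, G₂, D₄, F₄, E₇, E₈ the centre has order 2 (the element acting as −1 on the root system) and is generated by a power of the Coxeter element `s₁ s₂ ⋯ s_l`; the Coxeter group of type E₆ has trivial centre. -/
theorem result (c : (Σ n : ℕ, CoxeterMatrix (Fin n)) × ℕ)
    (hc : c ∈ [(⟨2, CoxeterMatrix.B 2⟩, 2), (⟨2, CoxeterMatrix.G₂⟩, 2), (⟨4, Cfsg.Lie.coxeterD4⟩, 2), (⟨4, CoxeterMatrix.F₄⟩, 2),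
      (⟨6, CoxeterMatrix.E₆⟩, 1), (⟨7, CoxeterMatrix.E₇⟩, 2), (⟨8, CoxeterMatrix.E₈⟩, 2)]) :
    Nat.card (Subgroup.center c.1.2.Group) = c.2 ∧
      Subgroup.center c.1.2.Group ≤ Subgroup.zpowers ((List.finRange c.1.1).map c.1.2.simple).prod := by
  simp only [List.mem_cons, List.not_mem_nil, or_false] at hc
  rcases hc with rfl | rfl | rfl | rfl | rfl | rfl | rfl
  · exact goodB2.center_two (coxB2 _) (T := orbB2x0) rfl cmB2 connB2' 2 (by decide +kernel)
  · exact goodG2.center_two (coxG2 _) (T := orbG2x0) rfl cmG2 connG2' 3 (by decide +kernel)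
  · exact goodD4.center_two (coxD4 _) (T := orbD4x0) rfl cmD4 connD4' 3 (by decide +kernel)
  · exact goodF4.center_two (coxF4 _) (T := orbF4x0) rfl cmF4 connF4' 6 (by decide +kernel)
  · exact goodE6.center_one (coxE6 _) connE6' (w := [0, 1, 2, 0, 3, 1, 2, 0, 3, 2, 4, 3, 1, 2, 0, 3, 2, 4, 3, 1, 5, 4, 3, 1,
      2, 0, 3, 2, 4, 3, 1, 5, 4, 3, 2, 0]) (by decide +kernel) (by decide +kernel) _
  · exact goodE7.center_two (coxE7 _) (T := orbE7x0) rfl cmE7 connE7' 9 (by decide +kernel)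
  · exact goodE8.center_two (coxE8 _) (T := orbE8x0) rfl cmE8 connE8' 15 (by decide +kernel)

end Cfsg.Agent.S2418
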