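import Cfsg.Statements.S2419
import Cfsg.Agent.H6.WeylC

set_option autoImplicit false
open Cfsg

namespace Cfsg.Agent.S2419

open CfsgH6
set_option maxRecDepth 100000

/-- The Coxeter groups of types B₂, G₂, E₆, E₇, E₈ are generated by the Coxeter element `s₁ s₂ ⋯ s_l` together with one suitable reflection (a conjugate of a simple reflection); for types D₄ and F₄ the Coxeter element together with two suitable reflections suffices. -/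
theorem result (c : (Σ n : ℕ, CoxeterMatrix (Fin n)) × ℕ)
    (hc : c ∈ [(⟨2, CoxeterMatrix.B 2⟩, 1), (⟨2, CoxeterMatrix.G₂⟩, 1), (⟨4, Cfsg.Lie.coxeterD4⟩, 2), (⟨4, CoxeterMatrix.F₄⟩, 2),
      (⟨6, CoxeterMatrix.E₆⟩, 1), (⟨7, CoxeterMatrix.E₇⟩, 1), (⟨8, CoxeterMatrix.E₈⟩, 1)]) :
    ∃ T : Finset c.1.2.Group, T.card = c.2 ∧ (∀ t ∈ T, ∃ (g : c.1.2.Group) (i : Fin c.1.1), t = g * c.1.2.simple i * g⁻¹) ∧
      Subgroup.closure (({((List.finRange c.1.1).map c.1.2.simple).prod} : Set c.1.2.Group) ∪ ↑T) = ⊤ := by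
  simp only [List.mem_cons, List.not_mem_nil, or_false] at hc
  rcases hc with rfl | rfl | rfl | rfl | rfl | rfl | rfl
  · exact goodB2.gen_cox (coxB2 _) (T := orbB2x0) rfl cmB2 {⟨1, of_decide_eq_true rfl⟩}
      [[8, 1], [1]] (by decide +kernel)
  · exact goodG2.gen_cox (coxG2 _) (T := orbG2x0) rfl cmG2 {⟨1, of_decide_eq_true rfl⟩}
      [[8, 1], [1]] (by decide +kernel)
  · exact goodD4.gen_cox (coxD4 _) (T := orbD4x0) rfl cmD4 {⟨3, of_decide_eq_true rfl⟩, ⟨1, of_decide_eq_true rfl⟩}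
      [[9, 1, 8], [1], [8, 3, 1, 3, 9], [3]] (by decide +kernel)
  · exact goodF4.gen_cox (coxF4 _) (T := orbF4x0) rfl cmF4 {⟨3, of_decide_eq_true rfl⟩, ⟨1, of_decide_eq_true rfl⟩}
      [[9, 1, 8], [1], [9, 3, 8], [3]] (by decide +kernel)
  · exact goodE6.gen_cox (coxE6 _) (T := orbE6x0) rfl cmE6 {⟨3, of_decide_eq_true rfl⟩}
      [[9, 9, 9, 9, 9, 3, 8, 8, 8, 8, 8], [3, 9, 9, 9, 3, 8, 8, 8, 3], [9, 9, 9, 9, 3, 8, 8, 8, 8], [3], [8, 3, 9], [8, 8, 3, 9, 9]] (by decide +kernel)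
  · exact goodE7.gen_cox (coxE7 _) (T := orbE7x0) rfl cmE7 {⟨3, of_decide_eq_true rfl⟩}
      [[9, 3, 9, 9, 9, 9, 3, 8, 8, 8, 8, 3, 8], [3, 8, 3, 9, 9, 9, 9, 3, 8, 8, 8, 8, 3, 9, 3], [3, 9, 9, 9, 9, 3, 8, 8, 8, 8, 3], [3], [8, 3, 9], [8, 8, 3, 9, 9], [8, 8, 8, 3, 9, 9, 9]] (by decide +kernel)
  · exact goodE8.gen_cox (coxE8 _) (T := orbE8x0) rfl cmE8 {⟨4, of_decide_eq_true rfl⟩}
      [[9, 9, 4, 8, 8, 8, 8, 8, 8, 4, 9, 9, 9, 9, 9, 9, 4, 8, 8], [9, 4, 8, 4, 8, 8, 8, 8, 8, 8, 4, 9, 9, 9, 9, 9, 9, 4, 9, 4, 8], [9, 4, 8, 8, 8, 8, 8, 8, 4, 9, 9, 9, 9, 9, 9, 4, 8], [9, 4, 8], [4], [8, 4, 9], [8, 8, 4, 9, 9], [8, 8, 8, 4, 9, 9, 9]] (by decide +kernel)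

end Cfsg.Agent.S2419
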