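import Cfsg.Statements.S2422
import Cfsg.Agent.H6.FL3

set_option autoImplicit false
open scoped MatrixGroups
open Cfsg

namespace Cfsg.Agent.S2422

/-- The irreducible characters of `GL_n(q)` attached to different partitions of `n` (each written with `n` non-decreasing parts, zeros allowed) by the alternating sum of flag permutation characters are different. -/
theorem result {F : Type*} [Field F] [Fintype F] {n : ℕ} (ν ν' : Fin n → ℕ) (hmono : Monotone ν) (hsum : ∑ i, ν i = n)
    (hmono' : Monotone ν') (hsum' : ∑ i, ν' i = n) (h : Cfsg.unipotentCharacterGL n F ν = Cfsg.unipotentCharacterGL n F ν') : ν = ν' := by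
  classical
  have h1 := CfsgH6.FL.inner_unip (F := F) hmono' hsum' hmono hsum
  rw [h, CfsgH6.FL.inner_unip hmono' hsum' hmono' hsum', if_pos rfl] at h1
  by_contra k
  simp [k] at h1

end Cfsg.Agent.S2422
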