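import Mathlib
import Cfsg.Statements.S2426
import Cfsg.Agent.H8.St1

set_option autoImplicit false
open Cfsg

namespace Cfsg.Agent.S2426

open CfsgH8

/-- The rank-one Steinberg presentation of `SL₂` over a finite field `K`: generators `x(t)`, `y(t)` (`t ∈ K`; the two opposite root subgroups) subject to additivity `x(t)x(u) = x(t+u)`, `y(t)y(u) = y(t+u)` and, with `w(t) = x(t) y(−t⁻¹) x(t)` and `w'(t) = y(t) x(−t⁻¹) y(t)` for `t ≠ 0`, the relations `w(t) x(u) w(t)⁻¹ = y(−t⁻² u)` and `w'(t) y(u) w'(t)⁻¹ = x(−t⁻² u)`, present `SL₂(K)`, with `x(t) ↦ (1 t; 0 1)` and `y(t) ↦ (1 0; t 1)`. -/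
theorem result {K : Type*} [Field K] [Finite K] :
    ∃ e : PresentedGroup
        ({g : FreeGroup (Bool × K) | ∃ (b : Bool) (t u : K), g = FreeGroup.of (b, t) * FreeGroup.of (b, u) * (FreeGroup.of (b, t + u))⁻¹} ∪
          {g | ∃ (b : Bool) (t u : K), t ≠ 0 ∧
            g = (FreeGroup.of (b, t) * FreeGroup.of (!b, -t⁻¹) * FreeGroup.of (b, t)) * FreeGroup.of (b, u) *
                  (FreeGroup.of (b, t) * FreeGroup.of (!b, -t⁻¹) * FreeGroup.of (b, t))⁻¹ * (FreeGroup.of (!b, -(t⁻¹ ^ 2 * u)))⁻¹})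
        ≃* Matrix.SpecialLinearGroup (Fin 2) K,
      (∀ t : K, ((e (PresentedGroup.of (true, t)) : Matrix (Fin 2) (Fin 2) K)) = !![1, t; 0, 1]) ∧
      (∀ t : K, ((e (PresentedGroup.of (false, t)) : Matrix (Fin 2) (Fin 2) K)) = !![1, 0; t, 1]) := by
  haveI := Fintype.ofFinite K
  generalize hR : ({g : FreeGroup (Bool × K) | ∃ (b : Bool) (t u : K), g = FreeGroup.of (b, t) * FreeGroup.of (b, u) * (FreeGroup.of (b, t + u))⁻¹} ∪
          {g | ∃ (b : Bool) (t u : K), t ≠ 0 ∧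
            g = (FreeGroup.of (b, t) * FreeGroup.of (!b, -t⁻¹) * FreeGroup.of (b, t)) * FreeGroup.of (b, u) *
                  (FreeGroup.of (b, t) * FreeGroup.of (!b, -t⁻¹) * FreeGroup.of (b, t))⁻¹ * (FreeGroup.of (!b, -(t⁻¹ ^ 2 * u)))⁻¹}) = R
  let f : Bool × K → Matrix.SpecialLinearGroup (Fin 2) K := fun z => if z.1 then triS 1 z.2 else loS z.2
  have hf : ∀ r ∈ R, FreeGroup.lift f r = 1 := by
    subst hR
    rintro _ (⟨b, t, u, rfl⟩ | ⟨b, t, u, h, rfl⟩) <;>
      simp only [map_mul, map_inv, FreeGroup.lift_apply_of, mul_inv_eq_one, mul_inv_eq_iff_eq_mul] <;>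
      refine Matrix.SpecialLinearGroup.ext _ _ fun i j => ?_ <;> clear this <;> cases b <;> fin_cases i <;> fin_cases j <;>
      simp [f, triS_val, loS_val, Matrix.mul_apply, Fin.sum_univ_two, *] <;> (try field_simp) <;> ring
  have S : St1 (fun t => (PresentedGroup.of (true, t) : PresentedGroup R)) fun t => PresentedGroup.of (false, t) := by
    subst hR
    exact ⟨fun t u => mul_inv_eq_one.1 (PresentedGroup.one_of_mem (.inl ⟨true, t, u, rfl⟩)),
      fun t u => mul_inv_eq_one.1 (PresentedGroup.one_of_mem (.inl ⟨false, t, u, rfl⟩)),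
      fun t u h => mul_inv_eq_one.1 (PresentedGroup.one_of_mem (.inr ⟨true, t, u, h, rfl⟩)),
      fun t u h => mul_inv_eq_one.1 (PresentedGroup.one_of_mem (.inr ⟨false, t, u, h, rfl⟩))⟩
  let π := PresentedGroup.toGroup hf
  have px : ∀ t, π (PresentedGroup.of (true, t)) = triS 1 t := fun t => PresentedGroup.toGroup.of hf
  have py : ∀ t, π (PresentedGroup.of (false, t)) = loS t := fun t => PresentedGroup.toGroup.of hf
  have pw : ∀ t, t ≠ 0 → (π (S.w t)).1 = !![0, t; -t⁻¹, 0] := fun t h => by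
    simp only [St1.w, map_mul, px, py]
    ext i j
    fin_cases i <;> fin_cases j <;> simp [triS_val, loS_val, Matrix.mul_apply, Fin.sum_univ_two, h]
  refine ⟨MulEquiv.ofBijective π ⟨(injective_iff_map_eq_one π).2 fun g e => ?_, MonoidHom.range_eq_top.1
    (eq_top_of_triS_loS (fun t => ⟨_, px t⟩) fun t => ⟨_, py t⟩)⟩, fun t => congrArg Subtype.val (px t),
    fun t => congrArg Subtype.val (py t)⟩
  have e := congrArg Subtype.val e
  rcases S.bruhat (g := g) ((PresentedGroup.closure_range_of R).ge.trans (Subgroup.closure_mono (by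
    rintro _ ⟨⟨_ | _, t⟩, rfl⟩
    exacts [.inr ⟨t, rfl⟩, .inl ⟨t, rfl⟩])) trivial) with ⟨a, t, h, rfl⟩ | ⟨a, t, b, h, rfl⟩
  · simp only [St1.h, map_mul, px, Matrix.SpecialLinearGroup.coe_mul, pw t h, pw (-1) (by simp), triS_val] at e
    have h1 := congrFun (congrFun e 0) 0
    have h2 := congrFun (congrFun e 0) 1
    simp [h] at h1 h2
    rw [h1, h2, S.x0, S.h_one, one_mul]
  · simp only [map_mul, px, Matrix.SpecialLinearGroup.coe_mul, pw t h, triS_val] at e
    have h1 := congrFun (congrFun e 1) 0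
    simp [h] at h1

end Cfsg.Agent.S2426
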