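import Mathlib
import Cfsg.Statements.S2429
import Cfsg.Agent.H8.SL2n

set_option autoImplicit false
open Cfsg

namespace Cfsg.Agent.S2429

open CfsgH8

/-- Let F be a finite field with q elements, q odd. Then SL₂ over F contains a cyclic subgroup T′ of order q + 1 (a non-split torus) with the following properties: T′ is its own centraliser, and indeed the centraliser of each element of T′ other than 1 and −1 is exactly T′; every element of SL₂ having no eigenvector in F² is conjugate to an element of T′; the normaliser of T′ has order 2(q + 1) and exactly (q + 7)/2 conjugacy classes; and every element of that normaliser outside T′ has square −1. -/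
theorem result {F : Type*} [Field F] [Fintype F] (hodd : Odd (Fintype.card F)) :
    ∃ T' : Subgroup (Matrix.SpecialLinearGroup (Fin 2) F), IsCyclic T' ∧ Nat.card T' = Fintype.card F + 1 ∧
      Subgroup.centralizer ((T' : Set (Matrix.SpecialLinearGroup (Fin 2) F))) = T' ∧
      (∀ g : Matrix.SpecialLinearGroup (Fin 2) F, g ∈ T' → (g : Matrix (Fin 2) (Fin 2) F) ≠ 1 → (g : Matrix (Fin 2) (Fin 2) F) ≠ -1 → Subgroup.centralizer ({g} : Set (Matrix.SpecialLinearGroup (Fin 2) F)) = T') ∧
      (∀ g : Matrix.SpecialLinearGroup (Fin 2) F, (∀ (c : F) (v : Fin 2 → F), v ≠ 0 → (g : Matrix (Fin 2) (Fin 2) F).mulVec v ≠ c • v) → ∃ h : Matrix.SpecialLinearGroup (Fin 2) F, h * g * h⁻¹ ∈ T') ∧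
      Nat.card (Subgroup.normalizer (T' : Set (Matrix.SpecialLinearGroup (Fin 2) F))) = 2 * (Fintype.card F + 1) ∧
      Nat.card (ConjClasses (Subgroup.normalizer (T' : Set (Matrix.SpecialLinearGroup (Fin 2) F)))) = (Fintype.card F + 7) / 2 ∧
      ∀ g : Matrix.SpecialLinearGroup (Fin 2) F, g ∈ Subgroup.normalizer (T' : Set (Matrix.SpecialLinearGroup (Fin 2) F)) → g ∉ T' → ((g * g) : Matrix (Fin 2) (Fin 2) F) = -1 := by
  classical
  have hq := Nat.odd_iff.1 hodd
  have hq1 : 1 < Fintype.card F := Fintype.one_lt_card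
  obtain ⟨C, hC, e⟩ := exists_tor_add (F := F)
  obtain ⟨N, hN⟩ := hC.exists_N
  have := hC.isCyclic
  obtain ⟨a, ha, ho⟩ := exists_orderOf_eq_of_dvd C dvd_rfl
  have hs : ¬ IsSc a.1 := (ell_of_orderOf (ho.trans e).dvd (by omega)).not_isSc
  have h4 := hN.card_conjClasses hq
  refine ⟨C, this, e, hC.centralizer_eq le_rfl ha hs, fun g hg h1 h2 => hC.cent hg fun h => ?_,
    fun g hg => ?_, ?_⟩
  · rcases isSc_SL2.1 h with rfl | rfl
    exacts [h1 rfl, h2 rfl]
  · rw [← ell_iff] at hg
    obtain ⟨s, hs⟩ := (isTor_centralizer hg.reg).exists_conj hC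
      (by rw [e, ← C0_toGL, card_C0 hg])
    exact ⟨s, hs ▸ ⟨g, Subgroup.mem_centralizer_singleton_iff.2 rfl, rfl⟩⟩
  · rw [hN.normalizer_eq le_rfl ha hs]
    exact ⟨by rw [hN.card, e], by omega, fun g hg hg' => congrArg Subtype.val (hN.sq g hg hg')⟩

end Cfsg.Agent.S2429
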