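import Mathlib
import Cfsg.Statements.S2430
import Cfsg.Agent.H8.SL2n

set_option autoImplicit false
open Cfsg

namespace Cfsg.Agent.S2430

open CfsgH8

/-- Let F be a finite field with q elements, q odd, ℓ an odd prime, and P a Sylow ℓ-subgroup of SL₂ over F. If ℓ divides q − 1, the centraliser of P is cyclic of order q − 1 (a split torus) and the normaliser of P has order 2(q − 1); if ℓ divides q + 1, the centraliser of P is cyclic of order q + 1 (a non-split torus) and the normaliser of P has order 2(q + 1). -/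
theorem result {F : Type*} [Field F] [Fintype F] (hodd : Odd (Fintype.card F)) (ℓ : ℕ) [Fact ℓ.Prime] (hℓ : ℓ ≠ 2)
    (P : Sylow ℓ (Matrix.SpecialLinearGroup (Fin 2) F)) :
    (ℓ ∣ Fintype.card F - 1 →
      Nat.card (Subgroup.centralizer ((P : Subgroup (Matrix.SpecialLinearGroup (Fin 2) F)) : Set (Matrix.SpecialLinearGroup (Fin 2) F))) = Fintype.card F - 1 ∧
      IsCyclic (Subgroup.centralizer ((P : Subgroup (Matrix.SpecialLinearGroup (Fin 2) F)) : Set (Matrix.SpecialLinearGroup (Fin 2) F))) ∧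
      Nat.card (Subgroup.normalizer ((P : Subgroup (Matrix.SpecialLinearGroup (Fin 2) F)) : Set (Matrix.SpecialLinearGroup (Fin 2) F))) = 2 * (Fintype.card F - 1)) ∧
    (ℓ ∣ Fintype.card F + 1 →
      Nat.card (Subgroup.centralizer ((P : Subgroup (Matrix.SpecialLinearGroup (Fin 2) F)) : Set (Matrix.SpecialLinearGroup (Fin 2) F))) = Fintype.card F + 1 ∧
      IsCyclic (Subgroup.centralizer ((P : Subgroup (Matrix.SpecialLinearGroup (Fin 2) F)) : Set (Matrix.SpecialLinearGroup (Fin 2) F))) ∧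
      Nat.card (Subgroup.normalizer ((P : Subgroup (Matrix.SpecialLinearGroup (Fin 2) F)) : Set (Matrix.SpecialLinearGroup (Fin 2) F))) = 2 * (Fintype.card F + 1)) := by
  classical
  obtain ⟨p, hp⟩ := CharP.exists F
  have := Fact.mk (CharP.char_is_prime F p)
  have hl : ℓ.Prime := Fact.out
  have hq1 : 1 < Fintype.card F := Fintype.one_lt_card
  have h1 : ¬ (ℓ ∣ Fintype.card F + 1 ∧ ℓ ∣ Fintype.card F - 1) := fun h =>
    hℓ ((Nat.prime_dvd_prime_iff_eq hl Nat.prime_two).1 (by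
      simpa [show Fintype.card F + 1 - (Fintype.card F - 1) = 2 by omega] using Nat.dvd_sub h.1 h.2))
  have key : ℓ ∣ Fintype.card F + 1 ∨ ℓ ∣ Fintype.card F - 1 →
      ∃ C N, TorN C N ∧ ℓ ∣ Nat.card C ∧ Subgroup.centralizer ((P : Subgroup (Matrix.SpecialLinearGroup (Fin 2) F)) :
        Set (Matrix.SpecialLinearGroup (Fin 2) F)) = C ∧
        Subgroup.normalizer ((P : Subgroup (Matrix.SpecialLinearGroup (Fin 2) F)) :
          Set (Matrix.SpecialLinearGroup (Fin 2) F)) = N := by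
    intro h
    have h2 : ℓ ∣ Nat.card P := P.dvd_card_of_dvd_card (by
      rw [card_SL2', mul_assoc]; exact (hl.dvd_mul.2 h).mul_left _)
    obtain ⟨C, hC, h3, a, ha, hs⟩ := exists_tor_of_pgroup p hℓ (by
      rintro rfl; exact h.elim (not_char_dvd ℓ).2.1 (not_char_dvd ℓ).2.2) P.isPGroup' fun e => by
        rw [e, Subgroup.card_bot, Nat.dvd_one] at h2; exact hl.one_lt.ne' h2
    obtain ⟨N, hN⟩ := hC.exists_N
    exact ⟨C, N, hN, h2.trans (Subgroup.card_dvd_of_le h3), hC.centralizer_eq h3 ha hs,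
      hN.normalizer_eq h3 ha hs⟩
  refine ⟨fun h => ?_, fun h => ?_⟩
  · obtain ⟨C, N, hN, h2, e1, e2⟩ := key (Or.inr h)
    have h3 := hN.tor.card.resolve_left fun e => h1 ⟨e ▸ h2, h⟩
    rw [e1, e2, hN.card, h3]
    exact ⟨rfl, hN.tor.isCyclic, rfl⟩
  · obtain ⟨C, N, hN, h2, e1, e2⟩ := key (Or.inl h)
    have h3 := hN.tor.card.resolve_right fun e => h1 ⟨h, e ▸ h2⟩
    rw [e1, e2, hN.card, h3]
    exact ⟨rfl, hN.tor.isCyclic, rfl⟩

end Cfsg.Agent.S2430
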