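import Mathlib
import Cfsg.Statements.S2431
import Cfsg.Agent.H8.Klein2

set_option autoImplicit false
open Cfsg

namespace Cfsg.Agent.S2431

open CfsgH8

/-- Let F be a finite field with q elements, q odd, and S a Sylow 2-subgroup of SL₂ over F. The centraliser of S is the centre of SL₂ (of order 2); S is its own normaliser when q ≡ ±1 mod 8, and has index 3 in its normaliser when q ≡ ±3 mod 8. -/
theorem result {F : Type*} [Field F] [Fintype F] (hodd : Odd (Fintype.card F)) (S : Sylow 2 (Matrix.SpecialLinearGroup (Fin 2) F)) :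
    Subgroup.centralizer ((S : Subgroup (Matrix.SpecialLinearGroup (Fin 2) F)) : Set (Matrix.SpecialLinearGroup (Fin 2) F)) = Subgroup.center (Matrix.SpecialLinearGroup (Fin 2) F) ∧
    ((Fintype.card F % 8 = 1 ∨ Fintype.card F % 8 = 7) →
      Subgroup.normalizer ((S : Subgroup (Matrix.SpecialLinearGroup (Fin 2) F)) : Set (Matrix.SpecialLinearGroup (Fin 2) F)) = (S : Subgroup (Matrix.SpecialLinearGroup (Fin 2) F))) ∧
    ((Fintype.card F % 8 = 3 ∨ Fintype.card F % 8 = 5) →
      Nat.card (Subgroup.normalizer ((S : Subgroup (Matrix.SpecialLinearGroup (Fin 2) F)) : Set (Matrix.SpecialLinearGroup (Fin 2) F))) = 3 * Nat.card S) := by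
  have hq := Nat.odd_iff.1 hodd
  obtain ⟨C, N, h, h1, h2, -, z, ⟨hz, hz'⟩, t⟩ := sylow_two_SL2 hq S
  obtain ⟨w, hw, hw'⟩ := SetLike.not_le_iff_exists.1 h2
  have o := orderOf_of_trace_zero hq t
  have ns := (reg_of_trace_zero hq t).not_isSc
  have m : -1 ∈ S.1 := sq_eq_neg_one_of_trace t ▸ mul_mem hz hz
  refine ⟨le_antisymm (fun x hx => ?_) (Subgroup.center_le_centralizer _), fun h8 => le_antisymm (fun g hg => ?_)
    Subgroup.le_normalizer, fun h8 => ?_⟩
  · have c : x ∈ C := h.tor.cent hz' ns ▸ Subgroup.centralizer_le (Set.singleton_subset_iff.2 hz) hx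
    have := h.inv w (h1 hw) hw' x c
    rw [hx w hw, mul_inv_cancel_right] at this
    rw [mem_center_SL2, isSc_SL2]
    exact or_iff_not_imp_left.2 (eq_neg_one_of_sq hq ((sq x).trans (mul_eq_one_iff_eq_inv.2 this)))
  · have d : 2 ^ 4 ∣ Nat.card S := S.pow_dvd_card_of_pow_dvd_card (by
      rw [card_SL2', mul_assoc]
      refine Dvd.dvd.mul_left ?_ _
      rcases h8 with e | e
      · exact mul_dvd_mul (a := 2) (c := 8) (by omega) (by omega)
      · exact mul_dvd_mul (a := 8) (c := 2) (by omega) (by omega))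
    haveI := h.tor.isCyclic_of_le (inf_le_right (a := S.1))
    obtain ⟨y, ⟨hy, hy'⟩, oy⟩ := exists_orderOf_eq_of_dvd (S.1 ⊓ C) (m := 8) (by
      have := h.relIndex_inf h1 h2
      exact Nat.dvd_of_mul_dvd_mul_left two_pos (this ▸ d))
    have n4 : ¬ y ^ 4 = 1 := fun e => absurd (oy ▸ orderOf_dvd_of_pow_eq_one e) (by norm_num)
    have gN : g ∈ N := h.norm g y hy' (fun e => n4 (by rcases isSc_SL2.1 e with rfl | rfl <;> simp [pow_succ])) (by
      by_contra n
      have := h.sq _ (h1 ((hg y).1 hy)) n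
      refine n4 ((MulAut.conj g).injective ?_)
      rw [map_pow, map_one, show 4 = 2 * 2 from rfl, pow_mul, sq (MulAut.conj g y), MulAut.conj_apply, this]
      simp)
    have k : ∀ g ∈ Subgroup.normalizer (S.1 : Set (Matrix.SpecialLinearGroup (Fin 2) F)), g ∈ C → g ∈ S.1 := fun g hg c => by
      have : g ^ 2 ∈ S.1 := by
        have := mul_mem ((hg w).1 hw) (inv_mem hw)
        rwa [mul_assoc, mul_assoc, ← mul_assoc w, h.inv w (h1 hw) hw' _ (inv_mem c), inv_inv, ← sq] at this
      obtain ⟨k, hk⟩ := S.2 ⟨_, this⟩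
      have : IsPGroup 2 (Subgroup.zpowers g) := IsPGroup.of_card_dvd_pow (n := k + 1) (by
        rw [Nat.card_zpowers, orderOf_dvd_iff_pow_eq_one, pow_succ', pow_mul]; exact congrArg Subtype.val hk)
      exact ((this.inf_normalizer_sylow S).le ⟨Subgroup.mem_zpowers g, hg⟩).2
    by_cases c : g ∈ C
    · exact k g hg c
    · exact (mul_mem_cancel_right hw).1 (k _ (mul_mem hg (Subgroup.le_normalizer hw)) (h.mul g gN c w (h1 hw) hw'))
  · have t2 : (2 : F) ≠ 0 := two_ne_zero_of_odd hq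
    have tz : ∀ x ∈ N, x ∉ C → x.1.trace = 0 := fun x hx n =>
      trace_eq_zero_of_isSc_sq (isSc_SL2.2 (.inr (h.sq x hx n))) fun e => n (h.tor.mem_of_isSc e)
    have Q : Q8P z w := ⟨t, tz w (h1 hw) hw', tz _ (h1 (mul_mem hz hw)) (mt (C.mul_mem_cancel_left hz').1 hw')⟩
    haveI := Q.isKleinFour t2
    have le : Q.V ≤ S.1.map πS := fun v hv => by
      rcases Q.mem_V.1 hv with rfl | rfl | rfl | rfl
      exacts [one_mem _, ⟨_, hz, rfl⟩, ⟨_, hw, rfl⟩, ⟨_, mul_mem hz hw, rfl⟩]
    have c4 : Nat.card Q.V = 4 := IsKleinFour.card_four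
    have e : Q.V = S.1.map πS := Subgroup.eq_of_le_of_card_ge le (by
      obtain ⟨k, hk⟩ := (S.2.map πS).exists_card_eq
      have := Subgroup.card_subgroup_dvd_card (S.1.map πS)
      have := card_PSL2_mod h8
      rw [hk, c4] at *
      refine Nat.pow_le_pow_right two_pos (not_lt.1 fun l : 2 < k => ?_)
      have : 2 ^ 3 ∣ _ := (pow_dvd_pow 2 l).trans ‹2 ^ k ∣ _›
      omega)
    have e' : Q.V.comap πS = S.1 := Subgroup.ext fun g => e ▸ mem_map_πS m
    rw [← e', ← Subgroup.comap_normalizer_eq_of_surjective _ πS_surj, card_map_πS (neg_one_mem_comap _),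
      card_map_πS (neg_one_mem_comap _), map_comap_πS, map_comap_πS, (card_normalizer_V hq ‹_›).2.1 h8, c4]
    ring

end Cfsg.Agent.S2431
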