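import Mathlib
import Cfsg.Statements.S2434
import Cfsg.Agent.H8.SL2e

set_option autoImplicit false
open Cfsg

namespace Cfsg.Agent.S2434

open CfsgH8 CfsgH3

/-- Let F be a finite field with q elements, q odd, and C a cyclic subgroup of order q + 1 of SL₂ over F (a non-split torus; it contains the centre). For every homomorphism θ from C to the non-zero complex numbers with θ² ≠ 1 there is an irreducible complex character χ of degree q − 1 such that χ(c) = −θ(c) − θ(c)⁻¹ for every non-central c in C, χ(zg) = θ(z)χ(g) for central z in C, χ vanishes at diagonal elements with entry a, a² ≠ 1, and χ takes the value −1 at every upper unitriangular element other than 1. Conversely every irreducible character of degree q − 1 has, for some such θ, the values −θ(c) − θ(c)⁻¹ at the non-central elements c of C (for q ≥ 5 these are exactly the cuspidal characters of degree q − 1). -/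
theorem result {F : Type*} [Field F] [Fintype F] (hodd : Odd (Fintype.card F))
    (C : Subgroup (Matrix.SpecialLinearGroup (Fin 2) F)) (hC : IsCyclic C) (hcard : Nat.card C = Fintype.card F + 1) :
    (∀ θ : C →* ℂˣ, (∃ c : C, θ c ^ 2 ≠ 1) →
      ∃ χ : Matrix.SpecialLinearGroup (Fin 2) F → ℂ, Cfsg.IsIrrCharacter (Matrix.SpecialLinearGroup (Fin 2) F) χ ∧ χ 1 = (Fintype.card F : ℂ) - 1 ∧
        (∀ c : C, (c : Matrix.SpecialLinearGroup (Fin 2) F) ∉ Subgroup.center (Matrix.SpecialLinearGroup (Fin 2) F) → χ c = -((θ c).val + (θ c)⁻¹.val)) ∧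
        (∀ c : C, (c : Matrix.SpecialLinearGroup (Fin 2) F) ∈ Subgroup.center (Matrix.SpecialLinearGroup (Fin 2) F) → ∀ g : Matrix.SpecialLinearGroup (Fin 2) F, χ ((c : Matrix.SpecialLinearGroup (Fin 2) F) * g) = (θ c).val * χ g) ∧
        (∀ g : Matrix.SpecialLinearGroup (Fin 2) F, (g : Matrix (Fin 2) (Fin 2) F) 0 1 = 0 → (g : Matrix (Fin 2) (Fin 2) F) 1 0 = 0 → (g : Matrix (Fin 2) (Fin 2) F) 0 0 ^ 2 ≠ 1 → χ g = 0) ∧
        (∀ g : Matrix.SpecialLinearGroup (Fin 2) F, (g : Matrix (Fin 2) (Fin 2) F) 1 0 = 0 → (g : Matrix (Fin 2) (Fin 2) F) 0 0 = 1 → (g : Matrix (Fin 2) (Fin 2) F) 1 1 = 1 → (g : Matrix (Fin 2) (Fin 2) F) 0 1 ≠ 0 → χ g = -1)) ∧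
    (∀ χ : Matrix.SpecialLinearGroup (Fin 2) F → ℂ, Cfsg.IsIrrCharacter (Matrix.SpecialLinearGroup (Fin 2) F) χ → χ 1 = (Fintype.card F : ℂ) - 1 →
      ∃ θ : C →* ℂˣ, (∃ c : C, θ c ^ 2 ≠ 1) ∧
        ∀ c : C, (c : Matrix.SpecialLinearGroup (Fin 2) F) ∉ Subgroup.center (Matrix.SpecialLinearGroup (Fin 2) F) → χ c = -((θ c).val + (θ c)⁻¹.val)) := by
  classical
  have h2 := Nat.odd_iff.1 hodd
  have hq : 1 < Fintype.card F := Fintype.one_lt_card
  obtain ⟨g0, h0, rfl⟩ := exists_eq_C0 C hC hcard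
  have e : ∀ θ : C0 g0 →* ℂˣ, (∃ c, θ c ^ 2 ≠ 1) ↔ θ ^ 2 ≠ 1 := fun θ => by
    rw [ne_eq, MonoidHom.ext_iff, not_forall]; rfl
  simp only [e, mem_center_SL2]
  refine ⟨fun θ hθ => ⟨Cu0 h0 θ, isIrr_Cu0 h0 hθ, Cu0_one _ _, Cu0_C _ _, Cu0_central _ _,
    fun g a b c => ?_, fun g a b c d => ?_⟩, fun χ hχ h => ?_⟩
  · obtain ⟨x, e⟩ := exists_eq_triS b
    rw [e] at c ⊢
    exact Cu0_diag _ _ (ne_inv_of_sq c) _
  · obtain ⟨x, e⟩ := exists_eq_triS a
    obtain rfl : x = 1 := by rw [e] at b; exact Units.ext b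
    rw [e]
    exact Cu0_unip _ _ d
  · rw [← cast_q_sub_one] at h
    rcases irr_SL2_deg h0 hχ h with ⟨h, -⟩ | ⟨h, -⟩ | ⟨h, -⟩ | ⟨-, η, hη, rfl⟩ |
      ⟨h, -, α, -, -, h'⟩ | ⟨h, -⟩
    any_goals omega
    · exact ⟨η, hη, Cu0_C _ _⟩
    · obtain ⟨_, h3⟩ := Finset.card_pos.1 (by rw [card_setCu0 h0]; omega : 0 < (setCu0 h0).card)
      obtain ⟨η, hη, -⟩ := (mem_setCu0 h0).1 h3
      refine ⟨η, hη, fun c hc => ?_⟩
      have hc' : Ell c.1.1 := h0.of_comm (mem_centralizer_gl.1 c.2) hc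
      rw [add_inv_eq_zero_of_card_three h0 (by omega) hη c hc]
      simpa [P0_ell _ hc'] using h'.ell hc'

end Cfsg.Agent.S2434
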