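import Mathlib
import Cfsg.Statements.S2435
import Cfsg.Agent.H8.SL2e

set_option autoImplicit false
open Cfsg

namespace Cfsg.Agent.S2435

open CfsgH8 CfsgH3

/-- Let F be a finite field with q elements, q odd and q ≥ 5, and χ an irreducible complex character of SL₂ over F. If χ has degree (q + 1)/2, then at a diagonal element with entry a, a² ≠ 1, χ takes the value 1 when a is a square in F and −1 otherwise. If χ has degree (q − 1)/2, then at an element g with no eigenvector in F² (so g has order dividing q + 1), χ takes the value −1 when g raised to the power (q + 1)/2 is the identity and the value 1 otherwise. -/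
theorem result {F : Type*} [Field F] [Fintype F] (hodd : Odd (Fintype.card F)) (hq : 5 ≤ Fintype.card F)
    (χ : Matrix.SpecialLinearGroup (Fin 2) F → ℂ) (hχ : Cfsg.IsIrrCharacter (Matrix.SpecialLinearGroup (Fin 2) F) χ) (g : Matrix.SpecialLinearGroup (Fin 2) F) :
    (χ 1 = (((Fintype.card F + 1) / 2 : ℕ) : ℂ) → (g : Matrix (Fin 2) (Fin 2) F) 0 1 = 0 → (g : Matrix (Fin 2) (Fin 2) F) 1 0 = 0 → (g : Matrix (Fin 2) (Fin 2) F) 0 0 ^ 2 ≠ 1 →
      (IsSquare ((g : Matrix (Fin 2) (Fin 2) F) 0 0) → χ g = 1) ∧ (¬ IsSquare ((g : Matrix (Fin 2) (Fin 2) F) 0 0) → χ g = -1)) ∧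
    (χ 1 = (((Fintype.card F - 1) / 2 : ℕ) : ℂ) → (∀ (c : F) (v : Fin 2 → F), v ≠ 0 → (g : Matrix (Fin 2) (Fin 2) F).mulVec v ≠ c • v) →
      (((g ^ ((Fintype.card F + 1) / 2)) : Matrix (Fin 2) (Fin 2) F) = 1 → χ g = -1) ∧ (((g ^ ((Fintype.card F + 1) / 2)) : Matrix (Fin 2) (Fin 2) F) ≠ 1 → χ g = 1)) := by
  classical
  have h2 := Nat.odd_iff.1 hodd
  refine ⟨fun h a b c => ?_, fun h hg => ?_⟩
  · obtain ⟨g0, h0⟩ := exists_ell (F := F)
    obtain ⟨x, e⟩ := exists_eq_triS b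
    rw [a] at e
    subst e
    have h3 := ne_inv_of_sq c
    rcases irr_SL2_deg h0 hχ h with ⟨h, -⟩ | ⟨h, -⟩ | ⟨h, -⟩ | ⟨h, -⟩ | ⟨-, -, α, a1, a2, h⟩ | ⟨h, -⟩
    any_goals omega
    have e1 := h.diag x
    rw [P0_diag _ h3] at e1
    have e2 := mulChar_order_two a1 a2 x
    have e3 := mulChar_order_two a1 a2 x⁻¹
    rw [Units.val_inv_eq_inv_val, isSquare_inv, ← Units.val_inv_eq_inv_val] at e3
    refine ⟨fun h => ?_, fun h => ?_⟩
    · rw [e2.1 h, e3.1 h] at e1; linear_combination e1 / 2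
    · rw [e2.2 h, e3.2 h] at e1; linear_combination e1 / 2
  · rw [← ell_iff] at hg
    rcases irr_SL2_deg (g0 := Matrix.SpecialLinearGroup.toGL g) hg hχ h with ⟨h, -⟩ | ⟨h, -⟩ |
      ⟨h, -⟩ | ⟨h, -⟩ | ⟨h, -⟩ | ⟨-, -, η, a1, a2, h⟩
    any_goals omega
    have e1 := h.ell hg
    have e2 := Cu0_C (g0 := Matrix.SpecialLinearGroup.toGL g) hg η ⟨g, mem_C0_self g⟩ hg.not_isSc
    have := isCyclic_C0 (g0 := Matrix.SpecialLinearGroup.toGL g) hg
    have e3 := hom_order_two_apply (n := (Fintype.card F + 1) / 2)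
      (by rw [card_C0 hg]; omega) η a1 a2 ⟨g, mem_C0_self g⟩
    rw [e2] at e1
    refine ⟨fun h => ?_, fun h => ?_⟩
    · rw [e3.1 (Subtype.ext (Subtype.ext h))] at e1
      simp at e1; linear_combination e1 / 2
    · rw [e3.2 fun h' => h (congrArg (fun x => x.1.1) h')] at e1
      simp at e1; linear_combination e1 / 2

end Cfsg.Agent.S2435
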