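import Mathlib
import Cfsg.Statements.S2436
import Cfsg.Agent.S2431
import Cfsg.Agent.H4.Ch2
import Cfsg.Agent.H3.Monomial
import Cfsg.Agent.S2427
import Cfsg.Agent.S0261
import Cfsg.Agent.H8.SL2d

set_option autoImplicit false
open Cfsg

namespace Cfsg.Agent.S2436

open CfsgH8 CfsgH3 CfsgH4
open scoped commutatorElement

/-- The number of irreducible characters of degree prime to `l`. -/
noncomputable def cnt (l : ℕ) (G : Type*) [Group G] : ℕ := Nat.card {χ : IrrCharacter G // ¬ l ∣ charDegree (χ : G → ℂ)}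

theorem cnt_congr (l : ℕ) {A B : Type*} [Group A] [Group B] (e : A ≃* B) : cnt l A = cnt l B :=
  Nat.card_congr ⟨fun χ => ⟨⟨fun x => χ.1.1 (e.symm x), χ.1.2.comp_equiv e.symm⟩, by simpa [charDegree] using χ.2⟩,
    fun χ => ⟨⟨fun x => χ.1.1 (e x), χ.1.2.comp_equiv e⟩, by simpa [charDegree] using χ.2⟩,
    fun χ => by ext; simp, fun χ => by ext; simp⟩

theorem cnt_conj (l : ℕ) {G : Type*} [Group G] (e : G ≃* G) (H : Subgroup G) :
    cnt l (Subgroup.normalizer (H.map e.toMonoidHom : Set G)) = cnt l (Subgroup.normalizer (H : Set G)) := by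
  rw [← Subgroup.map_equiv_normalizer_eq]
  exact (cnt_congr l (e.subgroupMap _)).symm

theorem cnt_ab {l : ℕ} {G : Type*} [Group G] [Finite G] {A N : Subgroup G} (le : A ≤ N) (hN : N ≤ Subgroup.normalizer A)
    (h : ∀ a ∈ A, ∀ b ∈ A, a * b = b * a) (n : ¬ l ∣ A.relIndex N) : cnt l N = Nat.card (ConjClasses N) := by
  haveI := (Subgroup.normal_subgroupOf_iff_le_normalizer le).2 hN
  rw [← card_irr_eq_card_conjClasses]
  exact Nat.card_congr (Equiv.subtypeUnivEquiv fun χ d => n (d.trans (deg_dvd_index_ab χ.2 (A.subgroupOf N)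
    fun a ha b hb => Subtype.ext (h _ ha _ hb))))

theorem cnt_p {l : ℕ} [hl : Fact l.Prime] {G : Type*} [Group G] [Finite G] (h : IsPGroup l G) : cnt l G = (commutator G).index := by
  rw [← card_unitsHom, ← card_linear_eq]
  exact Nat.card_congr (Equiv.subtypeEquivRight fun χ => ⟨lin_of_pgroup h χ.2, fun e => by
    rw [(charDegree_eq_one χ.2.isCharacter).2 e]; exact hl.out.not_dvd_one⟩)

open QuaternionGroup in
theorem index_quat (n : ℕ) [NeZero n] : (commutator (QuaternionGroup n)).index = 4 := by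
  have k : ∀ i : ZMod (2 * n), a (2 * i) ∈ Subgroup.zpowers (a 1 ^ 2 : QuaternionGroup n) := fun i =>
    ⟨i.val, by simp only [zpow_natCast]; rw [← pow_mul, a_one_pow]; simp⟩
  have iv : ∀ i : ZMod (2 * n), (a i)⁻¹ = a (-i) := fun _ => rfl
  have iv' : ∀ i : ZMod (2 * n), (xa i)⁻¹ = xa ((n : ZMod (2 * n)) + i) := fun _ => rfl
  have n2 : (n : ZMod (2 * n)) + n = 0 := by rw [← Nat.cast_add, ← two_mul, ZMod.natCast_self]
  have : commutator (QuaternionGroup n) = Subgroup.zpowers (a 1 ^ 2) := by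
    refine le_antisymm (Subgroup.commutator_le.2 ?_) (Subgroup.zpowers_le.2 ?_)
    · rintro (i | i) - (j | j) - <;> simp only [commutatorElement_def, iv, iv', a_mul_a, a_mul_xa, xa_mul_a, xa_mul_xa]
      · convert k 0 using 2; ring
      · convert k i using 2; linear_combination n2
      · convert k (-j) using 2; linear_combination n2
      · convert k (j - i) using 2; linear_combination n2
    · refine (show a 1 ^ 2 = ⁅(a 1 : QuaternionGroup n), (xa 0 : QuaternionGroup n)⁆ from ?_) ▸ Subgroup.commutator_mem_commutator trivial trivial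
      simp only [commutatorElement_def, iv, iv', a_mul_a, a_mul_xa, xa_mul_a, xa_mul_xa, sq]
      congr 1
      linear_combination -n2
  have c := (commutator (QuaternionGroup n)).card_mul_index
  rw [this, Nat.card_zpowers, orderOf_pow' _ two_ne_zero, orderOf_a_one, Nat.card_eq_fintype_card, card,
    Nat.gcd_mul_right_left, Nat.mul_div_cancel_left _ two_pos, mul_comm] at c
  exact this ▸ Nat.eq_of_mul_eq_mul_right (NeZero.pos n) c

variable {F : Type*} [Field F] [Fintype F]

local notation "SL2" => Matrix.SpecialLinearGroup (Fin 2) F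
local notation "q" => Fintype.card F

theorem cnt_SL (hq : q % 2 = 1) {l : ℕ} (hl : l.Prime) : cnt l SL2 = 1 + (if l ∣ q then 0 else 1) +
    (if l ∣ q + 1 then 0 else (q - 2) / 2) + (if l ∣ q - 1 then 0 else q / 2) + (if l ∣ (q + 1) / 2 then 0 else 2) +
      (if l ∣ (q - 1) / 2 then 0 else 2) := by
  classical
  rw [cnt, card_irr_SL2 F (fun d _ => ¬ l ∣ d) (fun χ => ¬ l ∣ charDegree χ) fun χ d s h _ => by simp [charDegree, h]]
  simp [hq, hl.ne_one]

theorem cc_BS (hq : q % 2 = 1) : Nat.card (ConjClasses (BS F)) = q + 3 := by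
  classical
  have h1 := sum_card_centralizer (BS F)
  have q1 : 1 < q := Fintype.one_lt_card
  have t2 : (2 : F) ≠ 0 := two_ne_zero_of_odd hq
  have cB : Nat.card (BS F) = (q - 1) * q := card_B0
  have u : ∀ t : F, t ≠ 0 → Nat.card (Subgroup.centralizer {triS 1 t} ⊓ BS F : Subgroup SL2) = 2 * q := fun t ht => by
    rw [inf_eq_left.2 fun x hx => ((mem_centralizer_unipS ht).1 hx).elim (US_le_BS ·) fun h =>
      mem_BS.2 (by simpa using mem_BS.1 (US_le_BS h)), card_centralizer_unipS ht, gcd_two_odd hq]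
  have h2 : ∀ p : Fˣ × F, Nat.card (Subgroup.centralizer {triS p.1 p.2} ⊓ BS F : Subgroup SL2) =
      if p.1 = 1 ∨ p.1 = -1 then (if p.2 = 0 then (q - 1) * q else 2 * q) else q - 1 := fun ⟨a, t⟩ => by
    split_ifs with h h'
    · rw [Subgroup.centralizer_eq_top_iff_subset.2 (by
        simpa using mem_center_SL2.2 (by rcases h with rfl | rfl <;> simp_all [IsSc, triS_val])), top_inf_eq, cB]
    · rcases h with rfl | rfl
      · exact u t h'
      · rw [← u (-t) (neg_ne_zero.2 h'), show triS (-1) t = -triS 1 (-t) from Subtype.ext (by simp [triS_val, m2_ext_iff])]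
        congr 3
        ext x
        simp [Subgroup.mem_centralizer_singleton_iff]
    · have na : (a : F) ≠ (a⁻¹ : Fˣ) := fun e => h ((Units.inv_eq_self_iff a).1 (Units.ext e.symm))
      have le : Subgroup.centralizer {triS a t} ≤ BS F := fun x hx => by
        have := congrArg (·.1 1 0) (Subgroup.mem_centralizer_singleton_iff.1 hx)
        simp only [sl2_mul, triS_val] at this
        exact mem_BS.2 ((mul_eq_zero.1 (show x.1 1 0 * (a - (a⁻¹ : Fˣ)) = 0 by simp at this; push_cast; linear_combination this)).resolve_right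
          (sub_ne_zero.2 na))
      rw [inf_eq_left.2 le]
      refine (isTor_centralizer (toGL_val (triS a t) ▸ toGL_triS a t ▸ reg_tri.2 (mt (congrArg Units.val) na))).card.resolve_left
        fun e => ?_
      have := Subgroup.card_dvd_of_le le
      rw [e, cB, show (q - 1) * q = (q + 1) * (q - 2) + 2 by
        obtain ⟨m, hm⟩ := Nat.exists_eq_add_of_lt q1; rw [hm]; simp [show 1 + m + 1 - 2 = m by omega]; ring] at this
      have := Nat.le_of_dvd two_pos ((Nat.dvd_add_right (dvd_mul_right _ _)).1 this)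
      omega
  rw [← bijective_triS.sum_comp, cB] at h1
  simp only [h2, Fintype.sum_prod_type, Finset.sum_ite_irrel, Finset.sum_const, Finset.card_univ, smul_eq_mul] at h1
  have c1 : (Finset.univ.filter fun a : Fˣ => a = 1 ∨ a = -1).card = 2 := by
    rw [Finset.card_eq_two]
    exact ⟨1, -1, fun e => t2 (by have := congrArg Units.val e; simp at this; linear_combination this), by ext; simp⟩
  have c2 := Finset.card_filter_add_card_filter_not (s := Finset.univ) (fun a : Fˣ => a = 1 ∨ a = -1)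
  have c3 := Finset.card_filter_add_card_filter_not (s := Finset.univ) (fun a : F => a = 0)
  have c4 : (Finset.univ.filter fun a : F => a = 0).card = 1 := Finset.card_eq_one.2 ⟨0, by ext; simp⟩
  simp only [Finset.sum_ite, Finset.sum_const, smul_eq_mul, c1, c4, Finset.card_univ, Fintype.card_units] at h1 c2 c3
  obtain ⟨m, hm⟩ : ∃ m, q = m + 3 := ⟨q - 3, by omega⟩
  rw [show (Finset.univ.filter fun a : Fˣ => ¬ (a = 1 ∨ a = -1)).card = m by omega,
    show (Finset.univ.filter fun a : F => ¬ a = 0).card = m + 2 by omega, hm] at h1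
  refine Nat.eq_of_mul_eq_mul_right (m := (m + 3 - 1) * (m + 3)) (by simp) (h1.symm.trans ?_)
  simp [hm]
  ring

theorem main (hodd : Odd q) (ℓ : ℕ) [Fact ℓ.Prime] (S : Sylow ℓ SL2) :
    cnt ℓ SL2 = cnt ℓ (Subgroup.normalizer (S.1 : Set SL2)) := by
  have hq := Nat.odd_iff.1 hodd
  have hl : ℓ.Prime := Fact.out
  have q1 : 1 < q := Fintype.one_lt_card
  by_cases b : S.1 = ⊥
  · rw [b, Subgroup.normalizer_eq_top]
    exact (cnt_congr ℓ Subgroup.topEquiv).symm
  obtain ⟨p, _, n, hp, hn⟩ := FiniteField.card' F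
  haveI := Fact.mk hp
  obtain ⟨d1, d2, d3⟩ := not_char_dvd (F := F) p
  have e1 : (q + 1) / 2 ∣ q + 1 := Nat.div_dvd_of_dvd (by omega)
  have e2 : (q - 1) / 2 ∣ q - 1 := Nat.div_dvd_of_dvd (by omega)
  rw [cnt_SL hq hl]
  by_cases lp : ℓ = p
  · subst lp
    obtain ⟨s, hs⟩ := sylow_eq_US ℓ S
    rw [hs, cnt_conj, normalizer_US, cnt_ab (A := US F) US_le_BS normalizer_US.ge ?_ ?_, cc_BS hq, if_pos d1, if_neg d2, if_neg d3,
      if_neg fun h => d2 (h.trans e1), if_neg fun h => d3 (h.trans e2)]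
    · omega
    · rintro _ ⟨a, -, rfl⟩ _ ⟨b, -, rfl⟩
      rw [← map_mul, mul_comm, map_mul]
    · have := CfsgH2.card_mul_relIndex (US_le_BS (F := F))
      rw [card_US, card_B0, mul_comm] at this
      rwa [Nat.eq_of_mul_eq_mul_right (by omega) this]
  have d0 : ¬ ℓ ∣ q := fun h => lp ((Nat.prime_dvd_prime_iff_eq hl hp).1 (hl.dvd_of_dvd_pow (hn ▸ h)))
  rw [if_neg d0]
  by_cases l2 : ℓ = 2
  · subst l2
    have : 1 + 1 + (if 2 ∣ q + 1 then 0 else (q - 2) / 2) + (if 2 ∣ q - 1 then 0 else q / 2) +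
        (if 2 ∣ (q + 1) / 2 then 0 else 2) + (if 2 ∣ (q - 1) / 2 then 0 else 2) = 4 := by
      split_ifs <;> omega
    rw [this]
    by_cases h8 : q % 8 = 1 ∨ q % 8 = 7
    · obtain ⟨k, -, ⟨e⟩⟩ := S0261.result hodd S
      rw [(S2431.result hodd S).2.1 h8, cnt_congr 2 e, cnt_p (S.2.of_equiv e), index_quat]
    have h8 : q % 8 = 3 ∨ q % 8 = 5 := by omega
    have t2 : (2 : F) ≠ 0 := two_ne_zero_of_odd hq
    obtain ⟨i, -, j, -, h⟩ := exists_Q8P (F := F) ⊤
    obtain ⟨x, x1, x2, x3⟩ : ∃ s : SL2, s * i * s⁻¹ = j ∧ s * j * s⁻¹ = i * j ∧ s ^ 3 = 1 := by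
      obtain ⟨s, h1, h2, h3⟩ := h.exists_rot t2
      rw [← map_pow, πS_eq_one, isSc_SL2] at h3
      rcases h3 with e | e
      · exact ⟨s, h1, h2, e⟩
      · exact ⟨-s, by simpa using h1, by simpa using h2, by rw [Odd.neg_pow (by decide), e, neg_neg]⟩
    obtain ⟨φ, f1, f2⟩ := exists_hom_SL23 (x := x) (y := x⁻¹ * i) x3 (by
        rw [show (x⁻¹ * i) ^ 3 = (x ^ 3)⁻¹ * (x * (x * i * x⁻¹) * x⁻¹) * (x * i * x⁻¹) * i by simp only [pow_succ]; group,
          x3, x1, x2, inv_one, one_mul, mul_assoc i, h.jj]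
        simp [h.ii])
      (by rw [mul_inv_cancel_left, show 4 = 2 * 2 from rfl, pow_mul, sq i, h.ii]; simp)
      (by rw [mul_inv_cancel_left, sq, h.ii]; simp)
    have inj := inj_SL23 φ (by rw [map_pow, map_mul, f1, f2, mul_inv_cancel_left, sq, h.ii]; exact neg_one_ne_one_SL hq)
    have c8 : Nat.card ((commutator SL23).map φ) = 2 ^ 3 := (Subgroup.card_map_of_injective inj).trans S2427.result.2.2.1
    obtain ⟨T, le⟩ := (IsPGroup.of_card c8).exists_le_sylow
    have cT : Nat.card T ≤ 2 ^ 3 := by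
      obtain ⟨k, hk⟩ := T.2.exists_card_eq
      have := Subgroup.card_subgroup_dvd_card T.1
      have := card_PSL2_mod h8
      have := card_map_πS (C := ⊤) (F := F) trivial
      rw [gcd_two_odd hq, Subgroup.map_top_of_surjective _ πS_surj, Subgroup.card_top, Subgroup.card_top] at this
      refine hk.trans_le (Nat.pow_le_pow_right two_pos (not_lt.1 fun l : 3 < k => ?_))
      have : 2 ^ 4 ∣ _ := (pow_dvd_pow 2 l).trans (hk ▸ ‹Nat.card T.1 ∣ _›)
      omega
    have eT := Subgroup.eq_of_le_of_card_ge le (c8 ▸ cT)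
    have eN : φ.range = Subgroup.normalizer (T.1 : Set SL2) := Subgroup.eq_of_le_of_card_ge (by
        rw [← eT, MonoidHom.range_eq_map, ← Subgroup.normalizer_eq_top (commutator SL23)]
        exact Subgroup.le_normalizer_map φ) (by
      rw [(S2431.result hodd T).2.2 h8, ← Nat.card_congr (MonoidHom.ofInjective inj).toEquiv, card_SL23]; omega)
    obtain ⟨g, rfl⟩ := MulAction.exists_smul_eq SL2 T S
    haveI := Fact.mk Nat.prime_three
    refine Eq.symm ((cnt_conj 2 (MulAut.conj g) T.1).trans ?_)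
    rw [← eN, ← cnt_congr 2 (MonoidHom.ofInjective inj), cnt_SL (by simp) Nat.prime_two]
    simp
  obtain ⟨C, hC, le, a, ha, hs⟩ := exists_tor_of_pgroup p l2 lp S.2 b
  obtain ⟨N, h⟩ := hC.exists_N
  have d : ℓ ∣ Nat.card C := (S.2.card_eq_or_dvd.resolve_left fun e => b (Subgroup.card_eq_one.1 e)).trans
    (Subgroup.card_dvd_of_le le)
  have n2 : ¬ ℓ ∣ 2 := fun e => l2 ((Nat.prime_dvd_prime_iff_eq hl Nat.prime_two).1 e)
  have c2 := (hl.coprime_iff_not_dvd.2 n2)
  have k := h.card_conjClasses hq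
  rw [h.normalizer_eq le ha hs, cnt_ab h.le (h.normalizer_eq le_rfl (le ha) hs).ge (fun a ha b hb => hC.comm ha hb)
    (by rwa [h.relIndex])]
  have nb : ¬ (ℓ ∣ q + 1 ∧ ℓ ∣ q - 1) := fun ⟨u, v⟩ => n2 (by simpa [show q + 1 - (q - 1) = 2 by omega] using Nat.dvd_sub u v)
  rcases hC.card with e | e <;> rw [e] at d k
  · rw [if_pos d, if_neg fun u => nb ⟨d, u⟩, if_pos (c2.dvd_of_dvd_mul_left (by rwa [Nat.mul_div_cancel' (by omega)])),
      if_neg fun u => nb ⟨d, u.trans e2⟩]
    omega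
  · rw [if_pos d, if_neg fun u => nb ⟨u, d⟩, if_neg fun u => nb ⟨u.trans e1, d⟩,
      if_pos (c2.dvd_of_dvd_mul_left (by rwa [Nat.mul_div_cancel' (by omega)]))]
    omega

/-- Let F be a finite field with q elements, q odd, ℓ any prime and S a Sylow ℓ-subgroup of SL₂ over F with normaliser N. Then SL₂ and N have the same number of irreducible complex characters of degree not divisible by ℓ (the McKay equality holds for SL₂ over F at every prime). -/
theorem result {F : Type*} [Field F] [Fintype F] (hodd : Odd (Fintype.card F)) (ℓ : ℕ) [Fact ℓ.Prime] (S : Sylow ℓ (Matrix.SpecialLinearGroup (Fin 2) F)) :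
    Nat.card {χ : Cfsg.IrrCharacter (Matrix.SpecialLinearGroup (Fin 2) F) // ¬ ℓ ∣ Cfsg.charDegree (χ : Matrix.SpecialLinearGroup (Fin 2) F → ℂ)} =
      Nat.card {ψ : Cfsg.IrrCharacter (Subgroup.normalizer ((S : Subgroup (Matrix.SpecialLinearGroup (Fin 2) F)) : Set (Matrix.SpecialLinearGroup (Fin 2) F))) //
        ¬ ℓ ∣ Cfsg.charDegree (ψ : Subgroup.normalizer ((S : Subgroup (Matrix.SpecialLinearGroup (Fin 2) F)) : Set (Matrix.SpecialLinearGroup (Fin 2) F)) → ℂ)} := by
  exact main hodd ℓ S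

end Cfsg.Agent.S2436
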