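import Mathlib
import Cfsg.Statements.S2437
import Cfsg.Agent.H8.SL2n

set_option autoImplicit false
open Cfsg

namespace Cfsg.Agent.S2437

open CfsgH8

/-- Over a finite field F with q elements, q odd, the upper triangular subgroup of SL₂ (a Borel subgroup, of order q(q − 1)) has exactly q + 3 conjugacy classes. -/
theorem result {F : Type*} [Field F] [Fintype F] (hodd : Odd (Fintype.card F)) :
    Nat.card (ConjClasses ((Cfsg.upperTriangularGL 2 F).comap Matrix.SpecialLinearGroup.toGL)) = Fintype.card F + 3 := by
  classical
  have hq := Nat.odd_iff.1 hodd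
  have hq1 : 1 < Fintype.card F := Fintype.one_lt_card
  have h1 := sum_card_centralizer (BS F)
  have h2 := two_ne_zero_of_odd hq
  have hn : (-1 : Fˣ) ≠ 1 := fun e => h2 (by
    have := congrArg Units.val e; simp at this; linear_combination -this)
  have e1 : ∀ t : F, Nat.card (Subgroup.centralizer {triS 1 t} ⊓ BS F : Subgroup _) =
      if t = 0 then (Fintype.card F - 1) * Fintype.card F else 2 * Fintype.card F := by
    intro t
    split_ifs with ht
    · rw [ht, triS_one, Subgroup.centralizer_eq_top_iff_subset.2 (by simp), top_inf_eq, card_B0]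
    · rw [inf_eq_left.2, card_centralizer_unipS ht, gcd_two_odd hq]
      intro x hx
      rcases (mem_centralizer_unipS ht).1 hx with h | h
      · exact US_le_BS h
      · exact mem_BS.2 (by simpa using mem_BS.1 (US_le_BS h))
  have e2 : ∀ a : Fˣ, ∑ t : F, Nat.card (Subgroup.centralizer {triS a t} ⊓ BS F : Subgroup _) =
      (Fintype.card F - 1) * Fintype.card F +
        ((if a = 1 then (Fintype.card F - 1) * Fintype.card F * 2 else 0) +
        if a = -1 then (Fintype.card F - 1) * Fintype.card F * 2 else 0) := by
    have e3 : ∑ t : F, Nat.card (Subgroup.centralizer {triS 1 t} ⊓ BS F : Subgroup _) =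
        (Fintype.card F - 1) * Fintype.card F * 3 := by
      rw [← Finset.add_sum_erase _ _ (Finset.mem_univ 0), e1, if_pos rfl,
        Finset.sum_congr rfl fun t ht => (e1 t).trans (if_neg (Finset.ne_of_mem_erase ht))]
      simp; ring
    intro a
    by_cases ha : a = 1
    · subst ha; rw [e3]; simp [hn.symm]; ring
    by_cases ha' : a = -1
    · subst ha'
      have : ∀ t : F, Subgroup.centralizer {triS (-1) t} = Subgroup.centralizer {triS 1 (-t)} := by
        intro t
        rw [show triS (-1) t = -triS 1 (-t) from Subtype.ext (by apply m2_ext <;> simp)]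
        ext x; simp [Subgroup.mem_centralizer_singleton_iff]
      simp only [this]
      refine (Equiv.sum_comp (Equiv.neg F) (fun t =>
        Nat.card (Subgroup.centralizer {triS 1 t} ⊓ BS F : Subgroup _)) |>.trans e3).trans ?_
      simp [hn]; ring
    have h3 : a ≠ a⁻¹ := ne_inv_of_sq fun e => (sq_eq_one_iff.1 e).elim (fun e => ha (Units.ext e))
      fun e => ha' (Units.ext e)
    have : ∀ t : F, Nat.card (Subgroup.centralizer {triS a t} ⊓ BS F : Subgroup _) =
        Fintype.card F - 1 := by
      intro t
      have h4 : Reg (triS a t).1 := reg_tri.2 h3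
      rw [inf_eq_left.2]
      · have := CfsgH3.card_centralizer_eq_of_isConj (h4.isConj_SL (h := triS a 0)
          (by simp [Matrix.trace_fin_two]))
        rw [this, ← C0_toGL, toGL_triS, C0_diag h3, card_range_dS]
      · intro x hx
        obtain ⟨b, c, e⟩ := exists_of_comm h4.not_isSc
          (M := x.1) (congrArg (fun y : Matrix.SpecialLinearGroup (Fin 2) F => y.1)
            (Subgroup.mem_centralizer_singleton_iff.1 hx))
        rw [mem_BS, e]; simp
    simp only [this]; simp [ha, ha', mul_comm]
  rw [← bijective_triS.sum_comp, Fintype.sum_prod_type] at h1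
  simp only [e2, Finset.sum_add_distrib, Finset.sum_ite_eq', Finset.mem_univ, if_true,
    Finset.sum_const, Finset.card_univ, smul_eq_mul, card_B0, Fintype.card_units] at h1
  have h5 : 0 < (Fintype.card F - 1) * Fintype.card F := Nat.mul_pos (by omega) (by omega)
  apply Nat.eq_of_mul_eq_mul_right h5
  rw [← h1]
  obtain ⟨k, hk⟩ : ∃ k, Fintype.card F = k + 1 := ⟨_, (Nat.sub_add_cancel hq1.le).symm⟩
  rw [hk, Nat.add_sub_cancel]; ring

end Cfsg.Agent.S2437
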