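import Mathlib
import Cfsg.Statements.S2439
import Cfsg.Agent.H8.P2a
import Cfsg.Agent.H8.SL2f
import Cfsg.Agent.H4.First
import Cfsg.Agent.H4.PPart

set_option autoImplicit false
open Cfsg

namespace Cfsg.Agent.S2439

open CfsgH8 CfsgH4 CfsgH3 CfsgH1

/-- Let F be a finite field with q elements of odd characteristic p, and M a maximal ideal of the algebraic integers containing p. Then SL₂ over F has exactly three p-blocks relative to M: the irreducible character of degree q (the Steinberg character) alone; the other irreducible characters taking the same value at −1 as at 1 (the principal block); and the irreducible characters χ with χ(−1) = −χ(1). Every Sylow p-subgroup is a defect group of each of the last two blocks. -/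
theorem result {F : Type*} [Field F] [Fintype F] (p : ℕ) [Fact p.Prime] [CharP F p] (hp : p ≠ 2)
    (M : Ideal Cfsg.AlgInt) (hM : Cfsg.IsPModular p M) :
    (∀ B : Set (Cfsg.IrrCharacter (Matrix.SpecialLinearGroup (Fin 2) F)), Cfsg.IsPBlock M B ↔
      (B = {χ : Cfsg.IrrCharacter (Matrix.SpecialLinearGroup (Fin 2) F) | (χ : Matrix.SpecialLinearGroup (Fin 2) F → ℂ) 1 = (Fintype.card F : ℂ)} ∨
       B = {χ : Cfsg.IrrCharacter (Matrix.SpecialLinearGroup (Fin 2) F) | (χ : Matrix.SpecialLinearGroup (Fin 2) F → ℂ) (-1) = (χ : Matrix.SpecialLinearGroup (Fin 2) F → ℂ) 1 ∧ (χ : Matrix.SpecialLinearGroup (Fin 2) F → ℂ) 1 ≠ (Fintype.card F : ℂ)} ∨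
       B = {χ : Cfsg.IrrCharacter (Matrix.SpecialLinearGroup (Fin 2) F) | (χ : Matrix.SpecialLinearGroup (Fin 2) F → ℂ) (-1) = -(χ : Matrix.SpecialLinearGroup (Fin 2) F → ℂ) 1})) ∧
    Nat.card {B : Set (Cfsg.IrrCharacter (Matrix.SpecialLinearGroup (Fin 2) F)) // Cfsg.IsPBlock M B} = 3 ∧
    ∀ P : Sylow p (Matrix.SpecialLinearGroup (Fin 2) F),
      Cfsg.IsDefectGroup p M {χ : Cfsg.IrrCharacter (Matrix.SpecialLinearGroup (Fin 2) F) | (χ : Matrix.SpecialLinearGroup (Fin 2) F → ℂ) (-1) = (χ : Matrix.SpecialLinearGroup (Fin 2) F → ℂ) 1 ∧ (χ : Matrix.SpecialLinearGroup (Fin 2) F → ℂ) 1 ≠ (Fintype.card F : ℂ)} (P : Subgroup (Matrix.SpecialLinearGroup (Fin 2) F)) ∧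
      Cfsg.IsDefectGroup p M {χ : Cfsg.IrrCharacter (Matrix.SpecialLinearGroup (Fin 2) F) | (χ : Matrix.SpecialLinearGroup (Fin 2) F → ℂ) (-1) = -(χ : Matrix.SpecialLinearGroup (Fin 2) F → ℂ) 1} (P : Subgroup (Matrix.SpecialLinearGroup (Fin 2) F)) := by
  classical
  haveI : PMod p M := ⟨hM⟩
  haveI := Fintype.ofFinite (GL (Fin 2) F)
  haveI := Fintype.ofFinite (Matrix.SpecialLinearGroup (Fin 2) F)
  have od := odd_of_char (F := F) p hp
  have q1 : 1 < Fintype.card F := Fintype.one_lt_card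
  obtain ⟨g0, h0⟩ := exists_ell (F := F)
  obtain ⟨d1, d2, d3⟩ := not_char_dvd (F := F) p
  have pp : p.Prime := Fact.out
  have deg : ∀ χ : IrrCharacter (Matrix.SpecialLinearGroup (Fin 2) F), (χ.1 1 = Fintype.card F → χ.1 = St0 F) ∧
      (χ.1 1 ≠ Fintype.card F → ¬ MemLocalIdeal M (χ.1 1)) := fun χ => by
    obtain ⟨d, -, e, -⟩ := exists_nat_sgU χ.2
    have := irr_SL2_deg h0 χ.2 e
    rw [e, InP_natCast_iff, Ne, Nat.cast_inj]
    refine ⟨fun t => ?_, fun t k => ?_⟩
    · rcases this with h | h | h | h | h | h <;> first | exact h.2 | omega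
    · rcases this with h | h | h | h | h | h
      · exact pp.ne_one (Nat.dvd_one.1 (h.1 ▸ k))
      · exact t h.1
      · exact d2 (h.1 ▸ k)
      · exact d3 (h.1 ▸ k)
      · exact d2 (k.trans ⟨2, by omega⟩)
      · exact d3 (k.trans ⟨2, by omega⟩)
  have ce : (-1 : Matrix.SpecialLinearGroup (Fin 2) F) ∈ Subgroup.center _ := Subgroup.mem_center_iff.2 (by simp)
  have ng : ∀ (χ : IrrCharacter (Matrix.SpecialLinearGroup (Fin 2) F)) g, χ.1 1 * χ.1 (-g) = χ.1 g * χ.1 (-1) :=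
    fun χ g => by simpa using χ.2.isCharacter.apply_mul_of_norm_eq (χ.2.norm_apply_of_mem_center ce) g
  have sg : ∀ χ : IrrCharacter (Matrix.SpecialLinearGroup (Fin 2) F), χ.1 (-1) = χ.1 1 ∨ χ.1 (-1) = -χ.1 1 :=
    fun χ => mul_self_eq_mul_self_iff.1 (by rw [← ng, neg_neg])
  have rg : ∀ (χ : IrrCharacter (Matrix.SpecialLinearGroup (Fin 2) F)) g, χ.1 1 ≠ Fintype.card F →
      p ∣ (Subgroup.centralizer {g}).index → MemLocalIdeal M (centralChar χ.1 g) := fun χ g h d => by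
    rw [centralChar, mul_div_assoc]
    exact InP.mul_right ((InP_natCast_iff _).2 d) (mul_mem (irr_mem_Loc χ g) (inv_mem_Loc (irr_mem_Loc χ 1) ((deg χ).2 h)))
  have un : ∀ (χ : IrrCharacter (Matrix.SpecialLinearGroup (Fin 2) F)) g, χ.1 1 ≠ Fintype.card F →
      g.1.trace = 2 → MemLocalIdeal M (χ.1 g / χ.1 1 - 1) := fun χ g h t => by
    have := InP.mul_right (char_pmul_InP (M := M) χ.2.isCharacter (Commute.one_right g)
      ((Nat.dvd_prime_pow pp (m := 1)).1 (orderOf_dvd_of_pow_eq_one (by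
        rw [pow_one, pow_char_of_trace p t])) |>.imp fun _ h => h.2)) (inv_mem_Loc (irr_mem_Loc χ 1) ((deg χ).2 h))
    rwa [mul_one, sub_mul, mul_inv_cancel₀ χ.2.apply_one_ne_zero] at this
  have same : ∀ χ ψ : IrrCharacter (Matrix.SpecialLinearGroup (Fin 2) F), χ.1 1 ≠ Fintype.card F →
      ψ.1 1 ≠ Fintype.card F → χ.1 (-1) / χ.1 1 = ψ.1 (-1) / ψ.1 1 → SameBlock M χ.1 ψ.1 := fun χ ψ a b e g => by
    have a0 := χ.2.apply_one_ne_zero
    have b0 := ψ.2.apply_one_ne_zero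
    by_cases r : Reg g.1
    · have : p ∣ (Subgroup.centralizer {g}).index := by
        have := (Subgroup.centralizer {g}).index_mul_card
        rw [card_SL2', mul_assoc] at this
        refine (pp.dvd_mul.1 (this ▸ d1.mul_right _)).resolve_right ?_
        rcases (isTor_centralizer r).card with e | e <;> rwa [e]
      exact InP.sub (rg χ g a this) (rg ψ g b this)
    rw [reg_SL2_iff, not_and_or, not_not, not_not] at r
    have i := natCast_mem (Loc M) (Subgroup.centralizer {g}).index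
    rcases r with r | r
    · convert InP.mul_left i (InP.sub (un χ g a r) (un ψ g b r)) using 1
      simp only [centralChar]; ring
    · have t : (-g).1.trace = 2 := by rw [trace_neg_SL, r, neg_neg]
      convert InP.mul_left (mul_mem i (mul_mem (irr_mem_Loc χ (-1)) (inv_mem_Loc (irr_mem_Loc χ 1) ((deg χ).2 a))))
        (InP.sub (un χ _ a t) (un ψ _ b t)) using 1
      have h1 := ng χ (-g)
      have h2 := ng ψ (-g)
      rw [neg_neg] at h1 h2
      rw [← div_eq_mul_inv, centralChar, centralChar, eq_div_of_mul_eq a0 ((mul_comm _ _).trans h1),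
        eq_div_of_mul_eq b0 ((mul_comm _ _).trans h2), mul_div_assoc (ψ.1 _), ← e]
      ring
  have dif : ∀ χ ψ : IrrCharacter (Matrix.SpecialLinearGroup (Fin 2) F), χ.1 (-1) = χ.1 1 → ψ.1 (-1) = -ψ.1 1 →
      ¬ SameBlock M χ.1 ψ.1 := fun χ ψ a b h => by
    have := h (-1)
    rw [centralChar, centralChar, a, b, Subgroup.centralizer_eq_top_iff_subset.2 (by simpa using ce), Subgroup.index_top,
      mul_div_assoc, mul_div_assoc, neg_div, div_self χ.2.apply_one_ne_zero, div_self ψ.2.apply_one_ne_zero] at this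
    exact hp ((Nat.prime_dvd_prime_iff_eq pp Nat.prime_two).1 ((InP_natCast_iff 2).1 (by convert this using 1; norm_num)))
  have st : ∀ χ ψ : IrrCharacter (Matrix.SpecialLinearGroup (Fin 2) F), χ.1 1 = Fintype.card F →
      ψ.1 1 ≠ Fintype.card F → ¬ SameBlock M χ.1 ψ.1 := fun χ ψ a b h => by
    have := h (triS 1 1)
    have s : St0 F (triS 1 1) = 0 := by
      have := congrFun (P0_one_eq (F := F)) (triS 1 1)
      rw [P0_unip _ one_ne_zero] at this
      simpa using this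
    rw [centralChar, (deg χ).1 a, s, mul_zero, zero_div, zero_sub, centralChar, mul_div_assoc] at this
    have i := natCast_mem (Loc M) (Subgroup.centralizer {triS (1 : Fˣ) (1 : F)}).index
    have k := InP.add this (InP.mul_left i (un ψ (triS 1 1) b (by simp [triS_val, Matrix.trace_fin_two]; norm_num)))
    have k := (InP_natCast_iff (M := M) (Subgroup.centralizer {triS (1 : Fˣ) (1 : F)}).index).1 (by
      convert InP.neg k using 1; ring)
    have c := (Subgroup.centralizer {triS (1 : Fˣ) (1 : F)}).index_mul_card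
    rw [card_SL2', card_centralizer_unipS one_ne_zero, ← mul_assoc, mul_assoc (Fintype.card F), mul_comm (Fintype.card F),
      Nat.mul_left_inj (by omega)] at c
    exact (pp.dvd_mul.1 (c ▸ k.mul_right _)).elim d2 d3
  have nn : ∀ χ : IrrCharacter (Matrix.SpecialLinearGroup (Fin 2) F), χ.1 (-1) = -χ.1 1 → χ.1 (-1) ≠ χ.1 1 ∧
      χ.1 1 ≠ Fintype.card F := fun χ h => by
    have : χ.1 (-1) ≠ χ.1 1 := fun e => χ.2.apply_one_ne_zero (by linear_combination (h - e) / 2)
    exact ⟨this, fun e => this (by rw [(deg χ).1 e, St0_neg_one])⟩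
  let S : IrrCharacter (Matrix.SpecialLinearGroup (Fin 2) F) := ⟨_, isIrr_St0⟩
  have o1 : (irrOne (Matrix.SpecialLinearGroup (Fin 2) F)).1 1 ≠ Fintype.card F := by
    change (1 : ℂ) ≠ _; exact_mod_cast q1.ne
  obtain ⟨T, hT⟩ : ∃ χ : IrrCharacter (Matrix.SpecialLinearGroup (Fin 2) F), χ.1 (-1) = -χ.1 1 := by
    by_contra t
    exact neg_one_ne_one_SL od (eq_one_of_forall_irr fun χ h => (sg ⟨χ, h⟩).resolve_right fun e => t ⟨_, e⟩)
  have b1 : ∀ χ : IrrCharacter (Matrix.SpecialLinearGroup (Fin 2) F), χ.1 1 = Fintype.card F →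
      blockOf M χ.1 = {χ | χ.1 1 = (Fintype.card F : ℂ)} := fun χ h => Set.ext fun ψ =>
    ⟨fun k => by_contra fun t => st χ ψ h t k, fun k => by
      rw [(deg χ).1 h, ← (deg ψ).1 k]; exact mem_blockOf_self ψ⟩
  have b2 : ∀ χ : IrrCharacter (Matrix.SpecialLinearGroup (Fin 2) F), χ.1 (-1) = χ.1 1 → χ.1 1 ≠ Fintype.card F →
      blockOf M χ.1 = {χ | χ.1 (-1) = χ.1 1 ∧ χ.1 1 ≠ (Fintype.card F : ℂ)} := fun χ h h' => Set.ext fun ψ =>
    ⟨fun k => ⟨(sg ψ).resolve_right fun t => dif χ ψ h t k, fun t => st ψ χ t h' (fun g => InP.symm (k g))⟩, fun k =>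
      same χ ψ h' k.2 (by rw [h, k.1, div_self χ.2.apply_one_ne_zero, div_self ψ.2.apply_one_ne_zero])⟩
  have b3 : ∀ χ : IrrCharacter (Matrix.SpecialLinearGroup (Fin 2) F), χ.1 (-1) = -χ.1 1 →
      blockOf M χ.1 = {χ | χ.1 (-1) = -χ.1 1} := fun χ h => Set.ext fun ψ =>
    ⟨fun k => (sg ψ).resolve_left fun t => dif ψ χ t h (fun g => InP.symm (k g)), fun k =>
      same χ ψ (nn χ h).2 (nn ψ k).2 (by
        rw [h, k, neg_div, neg_div, div_self χ.2.apply_one_ne_zero, div_self ψ.2.apply_one_ne_zero])⟩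
  have all : ∀ B : Set (IrrCharacter (Matrix.SpecialLinearGroup (Fin 2) F)), IsPBlock M B ↔
      (B = {χ | χ.1 1 = (Fintype.card F : ℂ)} ∨ B = {χ | χ.1 (-1) = χ.1 1 ∧ χ.1 1 ≠ (Fintype.card F : ℂ)} ∨
        B = {χ | χ.1 (-1) = -χ.1 1}) := fun B => by
    refine ⟨?_, ?_⟩
    · rintro ⟨χ, rfl⟩
      by_cases h : χ.1 1 = Fintype.card F
      · exact .inl (b1 χ h)
      · exact .inr ((sg χ).imp (b2 χ · h) (b3 χ))
    · rintro (rfl | rfl | rfl)
      exacts [⟨S, (b1 S St0_one).symm⟩, ⟨_, (b2 _ rfl o1).symm⟩, ⟨T, (b3 T hT).symm⟩]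
  have df : ∀ (χ : IrrCharacter (Matrix.SpecialLinearGroup (Fin 2) F)) (P : Sylow p (Matrix.SpecialLinearGroup (Fin 2) F)), χ.1 1 ≠ Fintype.card F →
      IsDefectGroup p M (blockOf M χ.1) P.toSubgroup := fun χ P h => by
    have hB := isPBlock_blockOf (M := M) χ.2
    obtain ⟨D, hD⟩ := hB.exists_defectGroup
    obtain ⟨g, c, s⟩ := isDefectGroup_iff_sylow.1 hD
    obtain ⟨x, -, e⟩ := (s.trans_of_not_dvd le_top (by
      rw [Subgroup.relIndex_top_right]
      exact mt (rg χ g h) (c.2.2 χ (mem_blockOf_self χ)))).exists_conj (isSylowIn_top P)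
    rw [← e]
    exact CfsgH4.Cfsg.IsDefectGroup.conj hB hD x
  refine ⟨all, ?_, fun P => ⟨b2 _ rfl o1 ▸ df _ P o1, b3 T hT ▸ df T P (nn T hT).2⟩⟩
  rw [← Set.ncard_eq_three.2 ⟨_, _, _, ?_, ?_, ?_, (rfl : ({{χ | χ.1 1 = (Fintype.card F : ℂ)},
    {χ | χ.1 (-1) = χ.1 1 ∧ χ.1 1 ≠ (Fintype.card F : ℂ)}, {χ | χ.1 (-1) = -χ.1 1}} :
      Set (Set (IrrCharacter (Matrix.SpecialLinearGroup (Fin 2) F)))) = _)⟩]
  · exact Nat.card_congr (Equiv.subtypeEquivRight all)
  · exact fun e => (e.le (St0_one : S ∈ _)).2 St0_one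
  · exact fun e => (nn T hT).2 (e.ge hT)
  · exact fun e => (nn T hT).1 (e.ge hT).1

end Cfsg.Agent.S2439
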