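import Cfsg.Statements.S2440
import Cfsg.Agent.H6.DCA

set_option autoImplicit false
open Cfsg

namespace Cfsg.Agent.S2440

/-- For a prime p and n ≥ 2, the group SL_n over the field with p elements has exactly gcd(n, p − 1) + 1 p-blocks relative to any maximal ideal of the algebraic integers containing p, that is, one more than the order of its centre (only this total is asserted; it arises as the defect-zero block of the Steinberg character plus as many blocks of maximal defect as the order of the centre). -/
theorem result (p : ℕ) [Fact p.Prime] (n : ℕ) (hn : 2 ≤ n) (M : Ideal Cfsg.AlgInt) (hM : Cfsg.IsPModular p M) :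
    Nat.card {B : Set (Cfsg.IrrCharacter (Matrix.SpecialLinearGroup (Fin n) (ZMod p))) // Cfsg.IsPBlock M B} =
      Nat.gcd n (p - 1) + 1 := by
  have : Nonempty (Fin n) := ⟨⟨0, by omega⟩⟩
  have hp := (Fact.out : p.Prime)
  have h := CfsgH6.dc_SL (ZMod p) p hn
  have hZ := CfsgH5.card_center_SL (ι := Fin n) (F := ZMod p)
  rw [Fintype.card_fin, Nat.card_zmod] at hZ
  rw [CfsgH6.card_blocks_eq h.1 h.2.1 hM ?_ ?_, hZ]
  · have h1 : (⟨0, by omega⟩ : Fin n) ≠ ⟨1, by omega⟩ := by simp
    have h2 : orderOf (Matrix.SpecialLinearGroup.transvection h1 (1 : ZMod p)) = p := by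
      have : ∀ k : ℕ, Matrix.SpecialLinearGroup.transvection h1 (1 : ZMod p) ^ k =
          Matrix.SpecialLinearGroup.transvection h1 (k : ZMod p) := fun k => by
        induction k with
        | zero => rw [pow_zero]; exact Subtype.ext (by simp [Matrix.SpecialLinearGroup.transvection])
        | succ k ih =>
          rw [pow_succ, ih]
          exact Subtype.ext ((Matrix.transvection_mul_transvection_same _ _ h1 _ _).trans (by rw [Nat.cast_succ]; rfl))
      refine orderOf_eq_prime (by
        rw [this]; exact Subtype.ext (by simp [Matrix.SpecialLinearGroup.transvection])) fun e => ?_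
      have := congrArg (fun g : Matrix.SpecialLinearGroup (Fin n) (ZMod p) => g.1 ⟨0, by omega⟩ ⟨1, by omega⟩) e
      simp [Matrix.SpecialLinearGroup.transvection, Matrix.transvection] at this
    exact h2.symm.dvd.trans (orderOf_dvd_natCard _)
  · rw [hZ]
    intro h3
    have := Nat.le_of_dvd (by have := hp.two_le; omega) (h3.trans (Nat.gcd_dvd_right _ _))
    have := hp.two_le
    omega

end Cfsg.Agent.S2440
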