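import Cfsg.Statements.S2532
import Cfsg.Agent.H1.Sn1

set_option autoImplicit false
open Cfsg

namespace Cfsg.Agent.S2532

/-- There is a function `f` of two natural-number arguments such that, whenever `m ≥ f(n, r)`, every subgroup of order `n` of the alternating group of degree `m` centralizes some subgroup of that alternating group isomorphic to the alternating group of degree `r`. -/
theorem result :
    ∃ f : ℕ → ℕ → ℕ, ∀ (m r : ℕ) (H : Subgroup ↥(alternatingGroup (Fin m))), f (Nat.card H) r ≤ m →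
      ∃ K : Subgroup ↥(alternatingGroup (Fin m)), Nonempty (↥K ≃* ↥(alternatingGroup (Fin r))) ∧
        K ≤ Subgroup.centralizer (H : Set ↥(alternatingGroup (Fin m))) := by
  open CfsgH1 CfsgH1.Sn Equiv Equiv.Perm MulAction in
  open scoped commutatorElement in
  · classical
    refine ⟨fun n r => 2 ^ n * (n * r), fun m r H hm => ?_⟩
    have hs : Fintype.card (Subgroup H) ≤ 2 ^ Nat.card H := by
      rw [Nat.card_eq_fintype_card, ← Fintype.card_set]
      exact Fintype.card_le_of_injective _ SetLike.coe_injective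
    obtain ⟨L, hL⟩ := Fintype.exists_le_card_fiber_of_mul_le_card (f := fun x : Fin m => stabilizer H x) (n := Nat.card H * r)
      ((Nat.mul_le_mul_right _ hs).trans (by simpa using hm))
    have h1 := Finset.card_le_mul_card_image (f := fun x : Fin m => orbit H x) (Finset.univ.filter fun x => stabilizer H x = L)
      (Nat.card H) fun b hb => by
        obtain ⟨y, -, rfl⟩ := Finset.mem_image.1 hb
        rw [Nat.card_eq_fintype_card, ← Finset.card_univ]
        exact Finset.card_le_card_of_surjOn (fun h : H => h • y) fun x hx => by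
          obtain ⟨h, e⟩ := orbit_eq_iff.1 (Finset.mem_filter.1 hx).2
          exact ⟨h, by simp, e⟩
    obtain ⟨o⟩ : Nonempty (Fin r ↪ (Finset.univ.filter fun x : Fin m => stabilizer H x = L).image fun x => orbit H x) :=
      Function.Embedding.nonempty_of_card_le (by
        rw [Fintype.card_fin, Fintype.card_coe]; exact Nat.le_of_mul_le_mul_left (hL.trans h1) Nat.card_pos)
    choose x h2 h3 using fun i => Finset.mem_image.1 (o i).2
    replace h2 : ∀ i (h : H), h • x i = x i ↔ h ∈ L := fun i h => by rw [← (Finset.mem_filter.1 (h2 i)).2]; rfl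
    have h4 : ∀ (h : H) i, (h : H ⧸ L).out • x i = h • x i := fun h i => by
      obtain ⟨l, e⟩ := QuotientGroup.mk_out_eq_mul L h
      rw [e, mul_smul, (h2 i l).2 l.2]
    let ι : (H ⧸ L) × Fin r ↪ Fin m := ⟨fun q => q.1.out • x q.2, fun ⟨a, i⟩ ⟨b, j⟩ e => by
      obtain rfl : i = j := o.injective (Subtype.ext (by
        rw [← h3, ← h3, ← orbit_smul a.out, ← orbit_smul b.out (x j)]; exact congrArg _ e))
      refine Prod.ext ?_ rfl
      rw [← a.out_eq', ← b.out_eq']
      exact QuotientGroup.eq.2 ((h2 i _).1 (by rw [mul_smul, inv_smul_eq_iff]; exact e.symm))⟩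
    have h5 : ∀ (h : H) a i, h • ι (a, i) = ι ((h * a.out : H), i) := fun h a i => ((h4 _ i).trans (mul_smul _ _ _)).symm
    let ψ : Perm (Fin r) →* Perm ((H ⧸ L) × Fin r) := MonoidHom.mk' (fun σ => Equiv.prodCongr (Equiv.refl _) σ) fun _ _ => rfl
    have h6 : Function.Injective ((viaEmbeddingHom ι).comp ψ) := (viaEmbeddingHom_injective ι).comp fun a b e =>
      Equiv.ext fun i => congrArg Prod.snd (Equiv.ext_iff.1 e ((1 : H), i))
    refine ⟨_, ⟨(MonoidHom.ofInjective (altHom_inj h6)).symm⟩, ?_⟩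
    rintro _ ⟨σ, rfl⟩ h hh
    refine Subtype.ext (Equiv.ext fun y => ?_)
    show (⟨h, hh⟩ : H) • (ψ σ).viaEmbedding ι y = (ψ σ).viaEmbedding ι ((⟨h, hh⟩ : H) • y)
    by_cases hy : y ∈ Set.range ι
    · obtain ⟨⟨a, i⟩, rfl⟩ := hy
      rw [h5, viaEmbedding_apply, viaEmbedding_apply]
      exact h5 _ _ _
    · rw [viaEmbedding_apply_of_notMem _ _ _ hy, viaEmbedding_apply_of_notMem]
      rintro ⟨⟨a, i⟩, e⟩
      exact hy ⟨_, by rw [← h5 (⟨h, hh⟩ : H)⁻¹, e, inv_smul_smul]⟩

end Cfsg.Agent.S2532
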