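import Cfsg.Statements.S2533
import Mathlib

set_option autoImplicit false
open Cfsg

open Matrix

namespace Cfsg.Agent.S2533

/-- The generalized dihedral group over `(ZMod p)³`. -/
@[ext] structure GD (R : Type) where
  v : Fin 3 → R
  s : ℤˣ

variable {R : Type} [Field R]

/-- The sign as a field element. -/
def ep (R : Type) [Field R] (s : ℤˣ) : R := ((s : ℤ) : R)

@[simp] theorem ep_one : ep R 1 = 1 := by simp [ep]
@[simp] theorem ep_neg : ep R (-1) = -1 := by simp [ep]
theorem ep_mul (s t : ℤˣ) : ep R (s * t) = ep R s * ep R t := by simp [ep]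
theorem ep_sq (s : ℤˣ) : ep R s * ep R s = 1 := by rw [← ep_mul, Int.units_mul_self, ep_one]

instance : Mul (GD R) := ⟨fun x y => ⟨y.v + ep R y.s • x.v, x.s * y.s⟩⟩
instance : One (GD R) := ⟨⟨0, 1⟩⟩
instance : Inv (GD R) := ⟨fun x => ⟨-(ep R x.s • x.v), x.s⟩⟩
theorem mul_def (x y : GD R) : x * y = ⟨y.v + ep R y.s • x.v, x.s * y.s⟩ := rfl
theorem one_def : (1 : GD R) = ⟨0, 1⟩ := rfl
theorem inv_def (x : GD R) : x⁻¹ = ⟨-(ep R x.s • x.v), x.s⟩ := rfl

instance : Group (GD R) := Group.ofLeftAxioms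
  (fun x y z => by
    simp only [mul_def, ep_mul, GD.mk.injEq, mul_assoc, and_true]; module)
  (fun x => by simp [mul_def, one_def])
  (fun x => by simp [mul_def, one_def, inv_def, smul_smul, ep_sq])

/-- The underlying set as a product. -/
def gdEquiv : GD R ≃ (Fin 3 → R) × ℤˣ := ⟨fun x => (x.v, x.s), fun y => ⟨y.1, y.2⟩, fun _ => rfl, fun _ => rfl⟩

/-- The off-diagonal block. -/
def NN (m : ℕ) (v : Fin 3 → R) : Matrix (Fin (m + 1)) (Fin m) R := fun i j =>
  (if i = j.castSucc then v 0 else 0) + (if i = j.succ then v 1 else 0) + (if i.val = 0 ∧ j.val = 0 then v 2 else 0)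

theorem NN_lin (m : ℕ) (v w : Fin 3 → R) (c : R) : NN m (w + c • v) = NN m w + c • NN m v := by
  ext i j
  simp only [NN, Pi.add_apply, Pi.smul_apply, Matrix.add_apply, Matrix.smul_apply, smul_eq_mul]
  split_ifs <;> ring

theorem NN_zero (m : ℕ) : NN m (0 : Fin 3 → R) = 0 := by ext i j; simp [NN]

/-- The representation. -/
def MM (m : ℕ) : GD R →* Matrix (Fin (m + 1) ⊕ Fin m) (Fin (m + 1) ⊕ Fin m) R where
  toFun x := fromBlocks 1 (NN m x.v) 0 (ep R x.s • 1)
  map_one' := by simp [one_def, NN_zero]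
  map_mul' x y := by simp [mul_def, fromBlocks_multiply, NN_lin, ep_mul, smul_smul, mul_comm]

theorem MM_apply (m : ℕ) (x : GD R) : MM m x = fromBlocks 1 (NN m x.v) 0 (ep R x.s • 1) := rfl

theorem MM_det (k : ℕ) (x : GD R) : (MM (2 * k) x).det = 1 := by
  rw [MM_apply, det_fromBlocks_zero₂₁]
  simp [pow_mul, pow_two, ep_sq]

theorem MM_scal (h2 : (2 : R) ≠ 0) (m : ℕ) (x : GD R) (r : R) (h : MM (m + 2) x = r • 1) : x = 1 := by
  have e := fun i j => congrFun (congrFun h i) j
  have e1 := e (.inl 0) (.inl 0)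
  have e2 := e (.inr 0) (.inr 0)
  have e3 := e (.inl 1) (.inr 1)
  have e4 := e (.inl 1) (.inr 0)
  have e5 := e (.inl 0) (.inr 0)
  simp [MM_apply, NN, Fin.ext_iff, Nat.mod_eq_of_lt (show 2 < m + 2 + 1 by omega)] at e1 e2 e3 e4 e5
  refine GD.ext (funext fun i => ?_) ?_
  · rw [e3, zero_add] at e5
    fin_cases i
    · exact e3
    · exact e4
    · exact e5
  · rcases Int.units_eq_one_or x.s with e | e
    · exact e
    · rw [e, ep_neg, ← e1] at e2
      exact absurd (by linear_combination -e2) h2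

theorem toep (m : ℕ) (P : Matrix (Fin (m + 1)) (Fin (m + 1)) R)
    (h1 : ∀ i j : Fin m, P i.succ j.succ = P i.castSucc j.castSucc) (h2 : ∀ j : Fin m, P 0 j.succ = 0)
    (h3 : ∀ j : Fin m, P (Fin.last m) j.castSucc = 0) : P = P 0 0 • 1 := by
  have sh : ∀ (k i j : ℕ) (hi : i + k < m + 1) (hj : j + k < m + 1),
      P ⟨i + k, hi⟩ ⟨j + k, hj⟩ = P ⟨i, by omega⟩ ⟨j, by omega⟩ := by
    intro k i j
    induction k with
    | zero => intros; rfl
    | succ k ih =>
      intro hi hj
      rw [← ih (by omega) (by omega)]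
      exact h1 ⟨i + k, by omega⟩ ⟨j + k, by omega⟩
  ext ⟨i, hi⟩ ⟨j, hj⟩
  rcases lt_trichotomy i j with e | rfl | e
  · have a := sh i 0 (j - i - 1 + 1) (by omega) (by omega)
    have b := h2 ⟨j - i - 1, by omega⟩
    simp only [show 0 + i = i by omega, show j - i - 1 + 1 + i = j by omega] at a
    rw [a]; simp [Fin.ext_iff, e.ne]; exact b
  · have a := sh i 0 0 (by omega) (by omega)
    simp only [show 0 + i = i by omega] at a
    rw [a]; simp
  · have a := sh (m - i) i j (by omega) (by omega)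
    have b := h3 ⟨j + (m - i), by omega⟩
    simp only [show i + (m - i) = m by omega] at a
    rw [← a]; simp [Fin.ext_iff, e.ne']; exact b

theorem MM_cent (h2 : (2 : R) ≠ 0) (m : ℕ) (g g' : Matrix (Fin (m + 1) ⊕ Fin m) (Fin (m + 1) ⊕ Fin m) R)
    (hg : g * g' = 1) (h : ∀ x : GD R, ∃ r : R, g * MM m x = r • (MM m x * g)) : ∃ r : R, g = r • 1 := by
  obtain ⟨r, hr⟩ := h ⟨0, -1⟩
  have t1 : (MM m (⟨0, -1⟩ : GD R)).trace = 1 := by
    simp [MM_apply, Matrix.trace, Fintype.sum_sum_type]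
  have r1 : r = 1 := by
    have := congrArg (fun X => (X * g').trace) hr
    simp only [smul_mul_assoc, trace_smul, mul_assoc, hg, mul_one] at this
    rw [trace_mul_comm, mul_assoc, mul_eq_one_comm.1 hg, mul_one, t1] at this
    simpa using this.symm
  subst r1
  obtain ⟨P, Q, T, S, rfl⟩ : ∃ P Q T S, g = fromBlocks P Q T S := ⟨_, _, _, _, (fromBlocks_toBlocks g).symm⟩
  obtain ⟨P', Q', T', S', rfl⟩ : ∃ P Q T S, g' = fromBlocks P Q T S := ⟨_, _, _, _, (fromBlocks_toBlocks g').symm⟩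
  simp only [MM_apply, NN_zero, fromBlocks_multiply, one_smul, fromBlocks_inj, ep_neg] at hr
  simp at hr
  obtain rfl : Q = 0 := (smul_eq_zero.1 (show (2 : R) • Q = 0 by linear_combination (norm := module) -hr.1)).resolve_left h2
  obtain rfl : T = 0 := (smul_eq_zero.1 (show (2 : R) • T = 0 by linear_combination (norm := module) hr.2)).resolve_left h2
  have hP : P * P' = 1 := by
    rw [fromBlocks_multiply, ← fromBlocks_one, fromBlocks_inj] at hg
    simpa using hg.1
  have key : ∀ v : Fin 3 → R, P * NN m v = NN m v * S := by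
    intro v
    obtain ⟨r, hr⟩ := h ⟨v, 1⟩
    simp only [MM_apply, fromBlocks_multiply, fromBlocks_smul, fromBlocks_inj, ep_one] at hr
    simp at hr
    have r1 : r = 1 := by
      have := congrArg (fun X => (X * P') 0 0) hr.1
      simpa [hP] using this.symm
    simpa [r1] using hr.2.1
  have kA := fun i j => congrFun (congrFun (key ![1, 0, 0]) i) j
  have kB := fun i j => congrFun (congrFun (key ![0, 1, 0]) i) j
  have a1 : ∀ i j : Fin m, P i.castSucc j.castSucc = S i j := fun i j => by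
    simpa [Matrix.mul_apply, NN] using kA i.castSucc j
  have a2 : ∀ j : Fin m, P (Fin.last m) j.castSucc = 0 := fun j => by
    simpa [Matrix.mul_apply, NN, (Fin.castSucc_lt_last _).ne'] using kA (Fin.last m) j
  have b1 : ∀ i j : Fin m, P i.succ j.succ = S i j := fun i j => by
    simpa [Matrix.mul_apply, NN] using kB i.succ j
  have b2 : ∀ j : Fin m, P 0 j.succ = 0 := fun j => by
    simpa [Matrix.mul_apply, NN, (Fin.succ_ne_zero _).symm] using kB 0 j
  have c := toep m P (fun i j => (b1 i j).trans (a1 i j).symm) b2 a2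
  generalize P 0 0 = r at c
  have d : S = r • 1 := by
    ext i j
    rw [← a1, c]; simp [Matrix.one_apply]
  exact ⟨r, by rw [c, d, ← fromBlocks_one, fromBlocks_smul]; simp⟩

/-- For every odd prime `p` there is a finite group `H` of order `2p³` which, for infinitely many `n`, embeds in the projective special linear group `PSL(n, p)` as a subgroup with trivial centralizer. -/
theorem result
    (p : ℕ) [Fact p.Prime] (hp : p ≠ 2) :
    ∃ (H : Type) (_ : Group H) (_ : Finite H), Nat.card H = 2 * p ^ 3 ∧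
      ∀ N : ℕ, ∃ n, N ≤ n ∧ ∃ φ : H →* Matrix.ProjectiveSpecialLinearGroup (Fin n) (ZMod p),
        Function.Injective φ ∧ Subgroup.centralizer (φ.range : Set (Matrix.ProjectiveSpecialLinearGroup (Fin n) (ZMod p))) = ⊥ := by
  have h2 : (2 : ZMod p) ≠ 0 := fun e => hp ((Nat.prime_dvd_prime_iff_eq Fact.out Nat.prime_two).1
    ((ZMod.natCast_eq_zero_iff 2 p).1 (by exact_mod_cast e)))
  refine ⟨GD (ZMod p), inferInstance, Finite.of_equiv _ gdEquiv.symm, ?_, fun N => ?_⟩
  · rw [Nat.card_congr gdEquiv, Nat.card_prod, Nat.card_fun, Nat.card_zmod, mul_comm]; simp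
  let m := 2 * (N + 1)
  let τ := Matrix.reindexAlgEquiv (ZMod p) (ZMod p) (finSumFinEquiv (m := m + 1) (n := m))
  let ψ : GD (ZMod p) →* Matrix.SpecialLinearGroup (Fin (m + 1 + m)) (ZMod p) :=
    { toFun := fun x => ⟨τ (MM m x), by rw [Matrix.det_reindexAlgEquiv]; exact MM_det _ x⟩
      map_one' := Subtype.ext (by simp only [map_one]; rfl)
      map_mul' := fun x y => Subtype.ext (by simp only [map_mul]; rfl) }
  obtain ⟨c, hc, hψ, hZ⟩ : ∃ c : Matrix.SpecialLinearGroup (Fin (m + 1 + m)) (ZMod p) →*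
      Matrix (Fin (m + 1 + m)) (Fin (m + 1 + m)) (ZMod p), Function.Injective c ∧ (∀ x, c (ψ x) = τ (MM m x)) ∧
      ∀ A ∈ Subgroup.center _, ∃ r : ZMod p, c A = r • 1 :=
    ⟨Matrix.SpecialLinearGroup.coeMonoidHom, Subtype.val_injective, fun _ => rfl, fun A hA => by
      obtain ⟨r, -, hr⟩ := Matrix.SpecialLinearGroup.mem_center_iff.1 hA
      exact ⟨r, by rw [smul_one_eq_diagonal]; exact hr.symm⟩⟩
  refine ⟨m + 1 + m, by omega, (QuotientGroup.mk' _).comp ψ, (injective_iff_map_eq_one _).2 fun x hx => ?_,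
    (Subgroup.eq_bot_iff_forall _).2 fun y hy => ?_⟩
  · obtain ⟨r, hr⟩ := hZ _ ((QuotientGroup.eq_one_iff (ψ x)).1 hx)
    refine MM_scal h2 (2 * N) x r (τ.injective ?_)
    rw [map_smul, map_one, ← hr]
    exact (hψ x).symm
  · obtain ⟨g, rfl⟩ := QuotientGroup.mk_surjective y
    obtain ⟨r, hr⟩ := MM_cent h2 m (τ.symm (c g)) (τ.symm (c g⁻¹)) (by
      rw [← map_mul, ← map_mul, mul_inv_cancel, map_one, map_one])
      fun x => by
        have e : (QuotientGroup.mk (ψ x * g) : _ ⧸ Subgroup.center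
            (Matrix.SpecialLinearGroup (Fin (m + 1 + m)) (ZMod p))) = QuotientGroup.mk (g * ψ x) :=
          hy _ ⟨x, rfl⟩
        obtain ⟨r, hr⟩ := hZ _ (QuotientGroup.eq.1 e)
        refine ⟨r, τ.injective ?_⟩
        rw [map_smul, map_mul, map_mul, τ.apply_symm_apply, ← hψ, ← map_mul, ← map_mul,
          ← mul_inv_cancel_left (ψ x * g) (g * ψ x), map_mul, hr, mul_smul_comm, mul_one]
    have e : c g = r • 1 := by rw [← τ.apply_symm_apply (c g), hr, map_smul, map_one]
    exact (QuotientGroup.eq_one_iff _).2 (Subgroup.mem_center_iff.2 fun B => hc (by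
      rw [map_mul, map_mul, e]; simp))

end Cfsg.Agent.S2533
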