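import Mathlib
import Cfsg.Statements.S2537
import Cfsg.Agent.H8.P2b
import Cfsg.Agent.H2.BG0

set_option autoImplicit false
open Cfsg

namespace Cfsg.Agent.S2537

open CfsgH8 CfsgH2

theorem part {n i q m : ℕ} (h : n * i = q * m) (h0 : q * m ≠ 0) (q2 : ¬ 2 ∣ q) (q3 : ¬ 3 ∣ q) :
    ((∀ r, r.Prime → r ∣ n → r = 2 ∨ r = 3) ∧ ¬ 2 ∣ i ∧ ¬ 3 ∣ i) ↔
      2 ^ m.factorization 2 * 3 ^ m.factorization 3 = n := by
  have n0 : n ≠ 0 := left_ne_zero_of_mul (h ▸ h0)
  have i0 : i ≠ 0 := right_ne_zero_of_mul (h ▸ h0)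
  have k : ∀ r, ¬ r ∣ q → n.factorization r + i.factorization r = m.factorization r := fun r hr => by
    have := congrArg (fun x : ℕ => x.factorization r) h
    simpa [Nat.factorization_mul n0 i0, Nat.factorization_mul (left_ne_zero_of_mul h0) (right_ne_zero_of_mul h0),
      Nat.factorization_eq_zero_of_not_dvd hr] using this
  have f : ∀ a b r, (2 ^ a * 3 ^ b).factorization r = (if 2 = r then a else 0) + if 3 = r then b else 0 := fun a b r => by
    simp [Nat.factorization_mul, Nat.prime_two.factorization_pow, Nat.prime_three.factorization_pow,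
      Finsupp.single_apply]
  have k2 := k 2 q2
  have k3 := k 3 q3
  refine ⟨fun ⟨a, b, c⟩ => Nat.eq_of_factorization_eq (by positivity) n0 fun r => ?_, fun e => ⟨fun r hr d => ?_, ?_, ?_⟩⟩
  · rw [Nat.factorization_eq_zero_of_not_dvd b] at k2
    rw [Nat.factorization_eq_zero_of_not_dvd c] at k3
    rw [f]
    by_cases r2 : 2 = r
    · subst r2; simpa using k2.symm
    by_cases r3 : 3 = r
    · subst r3; simpa using k3.symm
    rw [if_neg r2, if_neg r3, eq_comm, Nat.factorization_eq_zero_iff]
    by_contra t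
    push Not at t
    have := a r t.1 t.2.1
    omega
  · exact ((Nat.Prime.dvd_mul hr).1 (e ▸ d)).imp
      (fun d => (Nat.prime_dvd_prime_iff_eq hr Nat.prime_two).1 (hr.dvd_of_dvd_pow d))
      fun d => (Nat.prime_dvd_prime_iff_eq hr Nat.prime_three).1 (hr.dvd_of_dvd_pow d)
  · have := f (m.factorization 2) (m.factorization 3) 2
    rw [e] at this
    simp at this
    exact fun d => (Nat.prime_two.factorization_pos_of_dvd i0 d).ne' (by omega)
  · have := f (m.factorization 2) (m.factorization 3) 3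
    rw [e] at this
    simp at this
    exact fun d => (Nat.prime_three.factorization_pos_of_dvd i0 d).ne' (by omega)

/-- Let `F` be a finite field with `q` elements of characteristic `p ≥ 5`, and `ε = 1` if `q ≡ 1 (mod 4)`, `ε = -1` otherwise. Then `PSL(2, F)` has a Hall `{2, 3}`-subgroup if and only if `3` divides `q − ε`, or the `{2,3}`-part of `q² − 1` is 24, or the `{2,3}`-part of `q² − 1` is 48 (the `{2,3}`-part of `m` being the largest divisor of `m` with no prime factor other than 2 and 3). -/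
theorem result {F : Type*} [Field F] [Fintype F] {p : ℕ} [Fact p.Prime] [CharP F p]
    (hp : 5 ≤ p) (q : ℕ) (hq : Fintype.card F = q) :
    (∃ H : Subgroup (Matrix.ProjectiveSpecialLinearGroup (Fin 2) F), Cfsg.IsPiHall ({2, 3} : Set ℕ) H) ↔
      (3 ∣ q - 1 ∧ q % 4 = 1) ∨ (3 ∣ q + 1 ∧ q % 4 = 3) ∨
        2 ^ (q ^ 2 - 1).factorization 2 * 3 ^ (q ^ 2 - 1).factorization 3 = 24 ∨
        2 ^ (q ^ 2 - 1).factorization 2 * 3 ^ (q ^ 2 - 1).factorization 3 = 48 := by
  subst hq
  have pp : p.Prime := Fact.out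
  have od := odd_of_char (F := F) p (by omega)
  have q1 : 1 < Fintype.card F := Fintype.one_lt_card
  have q3 : ¬ 3 ∣ Fintype.card F := fun d => by
    obtain ⟨n, -, e⟩ := FiniteField.card F p
    have := (Nat.prime_dvd_prime_iff_eq Nat.prime_three pp).1 (Nat.prime_three.dvd_of_dvd_pow (e ▸ d))
    omega
  have m0 : Fintype.card F ^ 2 - 1 ≠ 0 := by rw [sq_sub_one']; exact mul_ne_zero (by omega) (by omega)
  have key : ∀ H : Subgroup (Matrix.ProjectiveSpecialLinearGroup (Fin 2) F), IsPiHall {2, 3} H ↔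
      2 ^ (Fintype.card F ^ 2 - 1).factorization 2 * 3 ^ (Fintype.card F ^ 2 - 1).factorization 3 =
        2 * Nat.card H := fun H => by
    rw [← part (i := H.index) (by rw [mul_assoc, H.card_mul_index, card_PSL2_odd od])
      (mul_ne_zero (by omega) m0) (by omega) q3]
    refine ⟨fun ⟨a, b⟩ => ⟨fun r hr d => ?_, b 2 Nat.prime_two (by simp), b 3 Nat.prime_three (by simp)⟩,
      fun ⟨a, b, c⟩ => ⟨fun r hr d => a r hr (d.mul_left 2), ?_⟩⟩
    · exact (hr.dvd_mul.1 d).elim (fun d => .inl ((Nat.prime_dvd_prime_iff_eq hr Nat.prime_two).1 d)) (a r hr)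
    · rintro r - (rfl | rfl) <;> assumption
  have tor : ∀ C N : Subgroup (Matrix.SpecialLinearGroup (Fin 2) F), TorN C N → 4 ∣ Nat.card C → 3 ∣ Nat.card C →
      ∃ H : Subgroup (Matrix.ProjectiveSpecialLinearGroup (Fin 2) F), IsPiHall {2, 3} H := fun C N h d4 d3 => by
    obtain ⟨H, hH⟩ := exists_hall {2, 3} (solvable_map πS h.solvable)
    refine ⟨H, hall_top_iff.2 (hH.trans le_top fun r hr d => ?_)⟩
    rw [Subgroup.relIndex_top_right, ← Subgroup.index_comap_of_surjective _ πS_surj,
      comap_map_πS (h.le h.tor.neg_one_mem)] at d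
    rintro (rfl | rfl)
    · exact h.odd_index od d4 d
    · have := N.index_mul_card
      rw [h.card, card_SL2'] at this
      rcases h.tor.card with e | e <;> rw [e] at this d3
      · have : N.index * 2 = Fintype.card F * (Fintype.card F - 1) := Nat.eq_of_mul_eq_mul_right (Nat.add_one_pos _) (by
          rw [mul_assoc, this]; ring)
        rcases Nat.prime_three.dvd_mul.1 (this ▸ d.mul_right 2) with _ | _ <;> omega
      · have : N.index * 2 = Fintype.card F * (Fintype.card F + 1) := Nat.eq_of_mul_eq_mul_right (by omega : 0 < Fintype.card F - 1) (by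
          rw [mul_assoc, this])
        rcases Nat.prime_three.dvd_mul.1 (this ▸ d.mul_right 2) with _ | _ <;> omega
  have d8 : 2 ^ 3 ∣ Fintype.card F ^ 2 - 1 := by
    have : Fintype.card F ^ 2 % 8 = 1 := by
      rw [Nat.pow_mod]
      have : Fintype.card F % 8 = 1 ∨ Fintype.card F % 8 = 3 ∨ Fintype.card F % 8 = 5 ∨ Fintype.card F % 8 = 7 := by omega
      rcases this with e | e | e | e <;> rw [e]
    omega
  have d3 : 3 ^ 1 ∣ Fintype.card F ^ 2 - 1 := by
    have : Fintype.card F ^ 2 % 3 = 1 := by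
      rw [Nat.pow_mod]
      have : Fintype.card F % 3 = 1 ∨ Fintype.card F % 3 = 2 := by omega
      rcases this with e | e <;> rw [e]
    omega
  refine ⟨fun ⟨H, hH⟩ => ?_, ?_⟩
  · have e := (key H).1 hH
    have c := card_comap_πS H
    rw [gcd_two_odd od, ← e] at c
    rcases dickson p H with ⟨C, N, h, l⟩ | ⟨s, hs⟩ | h | h | h | ⟨x, L, h⟩
    · have := (mul_dvd_mul (pow_dvd_pow 2 ((Nat.prime_two.pow_dvd_iff_le_factorization m0).1 d8))
        (pow_dvd_pow 3 ((Nat.prime_three.pow_dvd_iff_le_factorization m0).1 d3))).trans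
          (c ▸ Subgroup.card_dvd_of_le l)
      rcases h.card_or with t | t <;> rw [t] at this <;> omega
    · have := (Nat.Coprime.pow_left _ ((Nat.prime_two.coprime_iff_not_dvd).2 (by omega))).dvd_of_dvd_mul_right
        ((Dvd.intro _ c.symm).trans (card_dvd_of_BS hs))
      refine absurd ?_ (Nat.pow_succ_factorization_not_dvd m0 Nat.prime_two)
      rw [pow_succ']
      exact (mul_dvd_mul (by omega) this).trans (sq_sub_one' _).symm.dvd
    · rw [e, card_of_equiv h.2, card_A4]; simp
    · rw [e, card_of_equiv h.2, card_S4]; simp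
    · have := hH.1 5 Nat.prime_five (by rw [card_of_equiv h.2, card_A5]; norm_num)
      simp at this
    · have : p ∣ Nat.card (H.comap πS) := by
        rw [← card_map_cjE _ x]
        refine ((char_dvd_card_sub p L).trans (card_SLs L ▸ Dvd.intro _ rfl)).trans (Subgroup.card_dvd_of_le ?_)
        rcases h with h | h <;> rw [h]
        exact SLs_le_GLs L
      rw [card_comap_πS, gcd_two_odd od] at this
      rcases pp.dvd_mul.1 this with t | t
      · have := Nat.le_of_dvd two_pos t; omega
      · have : p = 2 ∨ p = 3 := hH.1 p pp t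
        omega
  · rintro (h | h | h | h)
    · have := Nat.le_of_dvd (by omega) h.1
      obtain ⟨C, t, e⟩ := exists_tor_sub (F := F) (by omega)
      obtain ⟨N, hN⟩ := t.exists_N
      exact tor C N hN (by omega) (by omega)
    · obtain ⟨C, t, e⟩ := exists_tor_add (F := F)
      obtain ⟨N, hN⟩ := t.exists_N
      exact tor C N hN (by omega) (by omega)
    · obtain ⟨H, e⟩ := has_top_iff.1 (has_A4 od)
      exact ⟨H, (key H).2 (by rw [h, card_of_equiv e, card_A4])⟩
    · have : 2 ^ 4 ∣ Fintype.card F ^ 2 - 1 := by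
        refine (Nat.prime_two.pow_dvd_iff_le_factorization m0).2 (Nat.pow_dvd_pow_iff_le_right one_lt_two |>.1 ?_)
        exact (Nat.Coprime.pow_right _ (by norm_num : Nat.Coprime (2 ^ 4) 3)).dvd_of_dvd_mul_right (by rw [h]; norm_num)
      have : Fintype.card F % 8 = 1 ∨ Fintype.card F % 8 = 7 := by
        by_contra t
        have : Fintype.card F ^ 2 % 16 = 9 := by
          rw [Nat.pow_mod]
          have : Fintype.card F % 16 = 3 ∨ Fintype.card F % 16 = 5 ∨ Fintype.card F % 16 = 11 ∨
            Fintype.card F % 16 = 13 := by omega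
          rcases this with e | e | e | e <;> rw [e]
        omega
      obtain ⟨H, e⟩ := has_top_iff.1 (has_S4 this)
      exact ⟨H, (key H).2 (by rw [h, card_of_equiv e, card_S4])⟩

end Cfsg.Agent.S2537
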