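import Cfsg.Statements.S2540
import Mathlib
import Cfsg.Agent.H5.SLBasic
import Cfsg.Agent.H9.QS
import Cfsg.Agent.H2.PG1

set_option autoImplicit false
open Cfsg

namespace Cfsg.Agent.S2540

/-- Let F be a finite field and n ≥ 1, excluding the case n = 2 with #F ≤ 3. A subgroup of GL_n(F) that is normalized by every element of SL_n(F) either consists of scalar matrices or contains SL_n(F). -/
theorem result {F : Type*} [Field F] [Fintype F] (n : ℕ) (hn : 1 ≤ n) (hex : ¬ (n = 2 ∧ Fintype.card F ≤ 3)) (G : Subgroup (Matrix.GeneralLinearGroup (Fin n) F)) (hG : ∀ s : Matrix.SpecialLinearGroup (Fin n) F, ∀ g ∈ G, (Matrix.SpecialLinearGroup.toGL s) * g * (Matrix.SpecialLinearGroup.toGL s)⁻¹ ∈ G) : (∀ g ∈ G, ∃ c : F, (g : Matrix (Fin n) (Fin n) F) = c • (1 : Matrix (Fin n) (Fin n) F)) ∨ (Matrix.SpecialLinearGroup.toGL : Matrix.SpecialLinearGroup (Fin n) F →* _).range ≤ G := by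
  open Matrix Subgroup in
  open scoped commutatorElement in
  · classical
    rcases hn.eq_or_lt with rfl | hn
    · exact .inl fun g _ => ⟨g.1 0 0, Matrix.ext fun i j => by simp [Subsingleton.elim i 0, Subsingleton.elim j 0]⟩
    haveI : Nontrivial (Fin n) := Fin.nontrivial_iff_two_le.2 hn
    have hc : commutator (SpecialLinearGroup (Fin n) F) = ⊤ := by
      rcases (Nat.succ_le_of_lt hn).eq_or_lt with rfl | h
      · obtain ⟨k, hk⟩ := IsCyclic.exists_generator (α := Fˣ)
        refine SL2.commutator_eq_top k.ne_zero fun c => hex ⟨rfl, ?_⟩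
        have := Nat.le_of_dvd two_pos (orderOf_dvd_of_pow_eq_one (Units.ext (by simpa using c) : k ^ 2 = 1))
        rw [orderOf_eq_card_of_forall_mem_zpowers hk, Nat.card_units, Nat.card_eq_fintype_card] at this
        omega
      · exact CfsgH5.commutator_SL_eq_top (by rw [Fintype.card_fin]; exact h)
    haveI := CfsgH5.PSL_isSimpleGroup_of_perfect hc
    let f : SpecialLinearGroup (Fin n) F →* GL (Fin n) F := SpecialLinearGroup.toGL
    haveI : (G.comap f).Normal := ⟨fun a ha s => by simpa using hG s _ ha⟩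
    refine (Normal.eq_bot_or_eq_top (this.map _ (QuotientGroup.mk'_surjective (center _)))).imp (fun h g hg => ?_) fun h => ?_
    · rw [Subgroup.map_eq_bot_iff, QuotientGroup.ker_mk'] at h
      have := CfsgH9.comm_bot_of_perfect (X := G) (L := f.range) (by rw [f.range_eq_map, ← map_commutator, ← commutator_def, hc])
        (CfsgH2.comm_eq_bot_iff.2 (commutator_le.2 ?_))
      · obtain ⟨c, e⟩ := mem_range_scalar_of_commute_transvectionStruct (M := g.1) fun t => congrArg Units.val
          (CfsgH2.comm_eq_bot_iff.1 this hg _ ⟨SpecialLinearGroup.transvection t.hij t.c, rfl⟩)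
        exact ⟨c, by rw [← e, scalar_apply, smul_one_eq_diagonal]⟩
      rintro x hx _ ⟨s, rfl⟩ _ ⟨t, rfl⟩
      obtain ⟨u, hu⟩ : ⁅x, f s⁆ ∈ f.range := ⟨⟨⁅x, f s⁆.1, by
        have : GeneralLinearGroup.det ⁅x, f s⁆ = 1 := by rw [map_commutatorElement, commutatorElement_eq_one_iff_mul_comm, mul_comm]
        exact congrArg Units.val this⟩, Units.ext rfl⟩
      rw [← hu, ← map_mul, ← map_mul, mem_center_iff.1 (h (show f u ∈ G from ?_))]
      rw [hu, commutatorElement_def, mul_assoc, mul_assoc, ← mul_assoc (f s)]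
      exact mul_mem hx (hG s _ (inv_mem hx))
    have := congrArg (comap (QuotientGroup.mk' (center _))) h
    rw [comap_map_eq, QuotientGroup.ker_mk', comap_top] at this
    rw [MonoidHom.range_eq_map, map_le_iff_le_comap, ← hc]
    exact Normal.commutator_le_of_self_sup_commutative_eq_top this inferInstance

end Cfsg.Agent.S2540
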