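import Cfsg.Statements.S2541
import Mathlib
import Cfsg.Agent.H9.Card

set_option autoImplicit false
open Cfsg

namespace Cfsg.Agent.S2541

/-- Let F be a field with 9 elements. The symmetric group S_6 is not isomorphic to PGL_2(F) (although both have index-2 subgroups isomorphic to A_6). -/
theorem result {F : Type*} [Field F] [Fintype F] (hF : Fintype.card F = 9) : ¬ Nonempty (Equiv.Perm (Fin 6) ≃* Matrix.ProjGenLinGroup (Fin 2) F) := by
  open Subgroup CfsgH9 in
  classical
  rintro ⟨e⟩
  have h60 : ∀ σ : Equiv.Perm (Fin 6), σ ^ 60 = 1 := fun σ => by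
    rw [← orderOf_dvd_iff_pow_eq_one, ← Equiv.Perm.lcm_cycleType, Multiset.lcm_dvd]
    intro b hb
    have h1 := Equiv.Perm.two_le_of_mem_cycleType hb
    have h2 := (Multiset.single_le_sum (fun _ _ => Nat.zero_le _) b hb).trans
      (Equiv.Perm.sum_cycleType_le σ)
    rw [Fintype.card_fin] at h2
    interval_cases b <;> norm_num
  obtain ⟨g, hg⟩ := IsCyclic.exists_ofOrder_eq_natCard (α := Fˣ)
  rw [Nat.card_units, Nat.card_eq_fintype_card, hF] at hg
  let d : GL (Fin 2) F := Matrix.GeneralLinearGroup.mkOfDetNeZero (Matrix.diagonal ![(g : F), 1])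
    (by simp [Fin.prod_univ_two])
  have h := congrArg e (h60 (e.symm (Matrix.ProjGenLinGroup.mk d)))
  rw [map_pow, e.apply_symm_apply, map_one, ← map_pow, Matrix.ProjGenLinGroup.mk_eq_one,
    Matrix.GeneralLinearGroup.mem_center_iff_val_mem_range_scalar] at h
  obtain ⟨c, hc⟩ := h
  have hd : ((d ^ 60 : GL (Fin 2) F) : Matrix (Fin 2) (Fin 2) F) =
      Matrix.diagonal ![(g : F), 1] ^ 60 := by rw [Units.val_pow_eq_pow_val]; rfl
  rw [hd, Matrix.diagonal_pow] at hc
  have h0 := congrFun (congrFun hc 0) 0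
  have h1 := congrFun (congrFun hc 1) 1
  simp at h0 h1
  have : orderOf g ∣ 60 := orderOf_dvd_of_pow_eq_one (Units.ext (by simp [← h0, h1]))
  rw [hg] at this
  omega

end Cfsg.Agent.S2541
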