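import Mathlib
import Cfsg.Statements.S2542
import Cfsg.Agent.H8.P2a
import Cfsg.Agent.H8.PrimeDegree2

set_option autoImplicit false
open Cfsg

namespace Cfsg.Agent.S2542

open CfsgH8

/-- Let F be a field with 11 elements. PSL_2(F) has a subgroup H of index 11 isomorphic to the alternating group A_5, and the action of PSL_2(F) on the cosets of H is 2-transitive (of degree 11). -/
theorem result {F : Type*} [Field F] [Fintype F] (hF : Fintype.card F = 11) : ∃ H : Subgroup (Matrix.ProjectiveSpecialLinearGroup (Fin 2) F), H.index = 11 ∧ Nonempty (H ≃* alternatingGroup (Fin 5)) ∧ MulAction.IsMultiplyPretransitive (Matrix.ProjectiveSpecialLinearGroup (Fin 2) F) ((Matrix.ProjectiveSpecialLinearGroup (Fin 2) F) ⧸ H) 2 := by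
  classical
  obtain ⟨H, e⟩ := has_top_iff.1 (has_A5 (F := F) (by rw [hF]; norm_num))
  have c := card_PSL2_odd (F := F) (by rw [hF])
  have i := H.index_mul_card
  rw [hF] at c
  rw [card_of_equiv e, card_A5] at i
  have i : H.index = 11 := by omega
  refine ⟨H, i, e, ?_⟩
  haveI := simple_PSL2 (F := F) (by omega)
  haveI : Fact (Nat.Prime 11) := ⟨by norm_num⟩
  haveI := Fintype.ofFinite (Matrix.ProjectiveSpecialLinearGroup (Fin 2) F ⧸ H)
  have k : Fintype.card (Matrix.ProjectiveSpecialLinearGroup (Fin 2) F ⧸ H) = 11 := Nat.card_eq_fintype_card.symm.trans i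
  have n : H.normalCore = ⊥ := (H.normalCore_normal.eq_bot_or_eq_top).resolve_right fun t => by
    have := H.normalCore_le
    rw [t, top_le_iff] at this
    simp [this] at i
  haveI : FaithfulSMul (Matrix.ProjectiveSpecialLinearGroup (Fin 2) F) (Matrix.ProjectiveSpecialLinearGroup (Fin 2) F ⧸ H) :=
    ⟨fun {a b} h => (MonoidHom.ker_eq_bot_iff _).1 (H.normalCore_eq_ker.symm.trans n) (Equiv.ext h)⟩
  obtain ⟨σ, hσ⟩ := exists_orderOf_eq_of_prime_degree (G := Matrix.ProjectiveSpecialLinearGroup (Fin 2) F) k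
  obtain ⟨ε, hε⟩ := exists_coord_of_prime_degree k hσ
  refine (affine_or_two_transitive ε hε).resolve_left fun h => ?_
  haveI := Fintype.one_lt_card_iff_nontrivial.1 (by omega : 1 < Fintype.card (Matrix.ProjectiveSpecialLinearGroup (Fin 2) F ⧸ H))
  have := isSolvable_of_affine ε ε.injective h
  obtain ⟨e⟩ := e
  have : Group.IsSolvable (alternatingGroup (Fin 5)) := Group.isSolvable_of_surjective (f := e.toMonoidHom) e.surjective
  have := IsSimpleGroup.comm_iff_isSolvable.2 this a5x a5y
  revert this; decide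

end Cfsg.Agent.S2542
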