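import Mathlib
import Cfsg.Statements.S2543
import Cfsg.Agent.H8.Dick3
import Cfsg.Agent.H8.PslC
import Cfsg.Agent.H8.P2a

set_option autoImplicit false
open scoped Pointwise
open Cfsg

namespace Cfsg.Agent.S2543

open CfsgH8

/-- The defining relations of a generating pair. -/
def R {G : Type*} [Group G] (x y : G) : Prop := x ^ 3 = 1 ∧ y ^ 5 = 1 ∧ (x * y) ^ 2 = 1 ∧ x ≠ 1

theorem R_map {G H : Type*} [Group G] [Group H] (f : G →* H) (i : Function.Injective f) {x y : G} : R (f x) (f y) ↔ R x y := by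
  simp only [R, ← map_mul, ← map_pow, map_eq_one_iff f i, map_ne_one_iff f i]

theorem R_congr {G H : Type*} [Group G] [Group H] (e : G ≃* H) :
    Nat.card {p : G × G // R p.1 p.2} = Nat.card {p : H × H // R p.1 p.2} :=
  Nat.card_congr (Equiv.subtypeEquiv (e.toEquiv.prodCongr e.toEquiv) fun _ => (R_map e.toMonoidHom e.injective).symm)

theorem c5 : (((Finset.univ.filter fun x : alternatingGroup (Fin 5) => x ^ 3 = 1 ∧ x ≠ 1) ×ˢ
    (Finset.univ.filter fun y : alternatingGroup (Fin 5) => y ^ 5 = 1)).filter fun p => (p.1 * p.2) ^ 2 = 1).card = 120 := by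
  decide +kernel

theorem R_A5 : Nat.card {p : alternatingGroup (Fin 5) × alternatingGroup (Fin 5) // R p.1 p.2} = 120 := by
  rw [← c5, ← Nat.card_eq_finsetCard]
  exact Nat.card_congr (Equiv.subtypeEquivRight fun p => by simp [R]; tauto)

theorem R_fib {G : Type*} [Group G] [Finite G] : Nat.card {p : G × G // R p.1 p.2} =
    Nat.card {H : Subgroup G // Nonempty (H ≃* alternatingGroup (Fin 5))} * 120 := by
  have k : ∀ x y : G, R x y → Nonempty (Subgroup.closure {x, y} ≃* alternatingGroup (Fin 5)) := fun x y h => by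
    obtain ⟨φ, a, b⟩ := exists_hom_A5 h.1 h.2.1 h.2.2.1
    refine ⟨(MulEquiv.subgroupCongr ?_).trans (MonoidHom.ofInjective (injective_of_simple φ (a.trans_ne h.2.2.2))).symm⟩
    rw [MonoidHom.range_eq_map, ← closure_a5, MonoidHom.map_closure, ← a, ← b, show Set.Iio 2 = {0, 1} by ext; simp; omega]
    simp [Set.image_pair]
  let f : {p : G × G // R p.1 p.2} → {H : Subgroup G // Nonempty (H ≃* alternatingGroup (Fin 5))} := fun p => ⟨_, k _ _ p.2⟩
  haveI := Fintype.ofFinite {H : Subgroup G // Nonempty (H ≃* alternatingGroup (Fin 5))}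
  rw [← Nat.card_congr (Equiv.sigmaFiberEquiv f), Nat.card_sigma, Finset.sum_const_nat (m := 120), Nat.card_eq_fintype_card]
  · rfl
  rintro ⟨H, ⟨e⟩⟩ -
  rw [← R_A5, ← R_congr e, eq_comm]
  refine Nat.card_eq_of_bijective (fun p => ⟨⟨(p.1.1, p.1.2), (R_map H.subtype H.subtype_injective).2 p.2⟩, Subtype.ext
    (Subgroup.eq_of_le_of_card_ge (by simp [f, Set.insert_subset_iff])
      (Nat.card_congr (e.trans (k _ _ ((R_map H.subtype H.subtype_injective).2 p.2)).some.symm).toEquiv).le)⟩)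
    ⟨fun p q h => Subtype.ext (Prod.ext (Subtype.ext (congrArg (·.1.1.1) h)) (Subtype.ext (congrArg (·.1.1.2) h))), fun ⟨⟨⟨x, y⟩, h⟩, t⟩ => ?_⟩
  obtain rfl : Subgroup.closure {x, y} = H := congrArg Subtype.val t
  exact ⟨⟨(⟨x, Subgroup.subset_closure (by simp)⟩, ⟨y, Subgroup.subset_closure (by simp)⟩),
    (R_map _ (Subgroup.subtype_injective _)).1 h⟩, rfl⟩

/-- Pairs of matrices with prescribed traces. -/
def T : Finset ((ZMod 11 × ZMod 11 × ZMod 11 × ZMod 11) × (ZMod 11 × ZMod 11 × ZMod 11 × ZMod 11)) :=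
  ((Finset.univ.filter fun x => x.1 + x.2.2.2 = -1 ∧ x.1 * x.2.2.2 - x.2.1 * x.2.2.1 = 1) ×ˢ
    (Finset.univ.filter fun x => (x.1 + x.2.2.2 = 3 ∨ x.1 + x.2.2.2 = 7) ∧ x.1 * x.2.2.2 - x.2.1 * x.2.2.1 = 1)).filter
    fun p => p.1.1 * p.2.1 + p.1.2.1 * p.2.2.2.1 + (p.1.2.2.1 * p.2.2.1 + p.1.2.2.2 * p.2.2.2.2) = 0

theorem cT : T.card = 2640 := by decide +kernel

instance f11 : Fact (Nat.Prime 11) := ⟨by norm_num⟩

set_option linter.constructorNameAsVariable false in
theorem R_11 : Nat.card {p : Matrix.ProjectiveSpecialLinearGroup (Fin 2) (ZMod 11) ×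
    Matrix.ProjectiveSpecialLinearGroup (Fin 2) (ZMod 11) // R p.1 p.2} = 2640 := by
  let Q := {p : Matrix.SpecialLinearGroup (Fin 2) (ZMod 11) × Matrix.SpecialLinearGroup (Fin 2) (ZMod 11) //
    p.1.1.trace = -1 ∧ (p.2.1.trace = 3 ∨ p.2.1.trace = 7) ∧ (p.1 * p.2).1.trace = 0}
  have c : Nat.card Q = 2640 := by
    rw [← cT, ← Nat.card_eq_finsetCard]
    refine Nat.card_eq_of_bijective (fun p => ⟨((p.1.1.1 0 0, p.1.1.1 0 1, p.1.1.1 1 0, p.1.1.1 1 1),
      (p.1.2.1 0 0, p.1.2.1 0 1, p.1.2.1 1 0, p.1.2.1 1 1)), by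
        have := p.2
        simp only [Matrix.trace_fin_two, sl2_mul] at this
        simpa [T, sl2_det, and_assoc] using this⟩) ⟨fun p q h => ?_, fun ⟨⟨⟨a, b, c, d⟩, a', b', c', d'⟩, h⟩ => ?_⟩
    · simp only [Subtype.mk.injEq, Prod.mk.injEq] at h
      obtain ⟨⟨a, b, c, d⟩, a', b', c', d'⟩ := h
      exact Subtype.ext (Prod.ext (Subtype.ext (m2_ext a b c d)) (Subtype.ext (m2_ext a' b' c' d')))
    · simp only [T, Finset.mem_filter, Finset.mem_product, Finset.mem_univ, true_and] at h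
      exact ⟨⟨(mS a b c d h.1.1.2, mS a' b' c' d' h.1.2.2), by simpa [mS_val, sl2_mul] using ⟨h.1.1.1, h.1.2.1, h.2⟩⟩, rfl⟩
  have n : ∀ g : Matrix.SpecialLinearGroup (Fin 2) (ZMod 11), πS g = 1 → g.1.trace = 2 ∨ g.1.trace = -2 := fun g h => by
    rcases isSc_SL2.1 (πS_eq_one.1 h) with rfl | rfl <;> decide
  rw [← c, eq_comm]
  refine Nat.card_eq_of_bijective (fun p => ⟨(πS p.1.1, πS p.1.2), πS_cube_iff.2 (.inr (by rw [p.2.1]; decide)),
    (πS_pow_eq_one_iff (pow_five_val _)).2 (.inr (by rcases p.2.2.1 with h | h <;> rw [h] <;> decide)),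
    map_mul πS p.1.1 p.1.2 ▸ πS_sq_iff.2 (.inr p.2.2.2), fun h => absurd (n _ h) (by rw [p.2.1]; decide)⟩)
    ⟨?_, ?_⟩
  · rintro ⟨⟨a, b⟩, h, h', _⟩ ⟨⟨c, d⟩, k, k', _⟩ e
    refine Subtype.ext ?_
    replace e := congrArg Subtype.val e
    simp only [Subtype.mk.injEq, Prod.mk.injEq, πS_eq_iff] at e h h' k k' ⊢
    refine ⟨e.1.resolve_right fun t => ?_, e.2.resolve_right fun t => ?_⟩
    · rw [t, Matrix.SpecialLinearGroup.coe_neg, Matrix.trace_neg, k] at h
      exact absurd h (by decide)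
    · rw [t, Matrix.SpecialLinearGroup.coe_neg, Matrix.trace_neg] at h'
      rcases k' with k' | k' <;> rw [k'] at h' <;> exact absurd h' (by decide)
  rintro ⟨⟨x, y⟩, h1, h2, h3, h4⟩
  simp only at h1 h2 h3 h4
  have y1 : y ≠ 1 := fun e => h4 (by rw [e, mul_one] at h3; rw [← h1, pow_succ, h3, one_mul])
  have y2 : x * y ≠ 1 := fun e => h4 (by
    rw [eq_inv_of_mul_eq_one_right e, inv_pow, inv_eq_one] at h2
    simpa using pow_gcd_eq_one.2 ⟨h1, h2⟩)
  have k : ∀ (z : Matrix.ProjectiveSpecialLinearGroup (Fin 2) (ZMod 11)) (P : ZMod 11 → Prop),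
      (∀ g, πS g = z → P g.1.trace ∨ P (-g.1.trace)) → ∃ g, πS g = z ∧ P g.1.trace := fun z P h => by
    obtain ⟨g, rfl⟩ := πS_surj z
    exact (h g rfl).elim (fun t => ⟨g, rfl, t⟩) fun t => ⟨-g, πS_neg g, by simpa using t⟩
  obtain ⟨a, rfl, ha⟩ := k x (· = -1) fun g e => by
    have := (πS_cube_iff.1 (e ▸ h1)).resolve_left (e ▸ h4)
    revert this; generalize g.1.trace = t; revert t; decide
  obtain ⟨b, rfl, hb⟩ := k y (fun t => t = 3 ∨ t = 7) fun g e => by
    have := ((πS_pow_eq_one_iff (pow_five_val g)).1 (e ▸ h2)).resolve_left (e ▸ y1)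
    revert this; generalize g.1.trace = t; revert t; decide
  rw [← map_mul] at h3 y2
  exact ⟨⟨(a, b), ha, hb, (πS_sq_iff.1 h3).resolve_left y2⟩, rfl⟩

theorem two {G : Type*} [Group G] [Finite G] [IsSimpleGroup G] (c : Nat.card G = 660) (S : Set (Subgroup G))
    (s : ∀ H ∈ S, Nat.card H = 60 ∧ ∀ g : G, MulAut.conj g • H ∈ S) (h : S.ncard = 22) :
    ∃ H ∈ S, ∃ K ∈ S, (∀ g : G, MulAut.conj g • H ≠ K) ∧ ∀ L ∈ S, ∃ g : G, MulAut.conj g • L = H ∨ MulAut.conj g • L = K := by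
  letI := MulAction.compHom (Subgroup G) (MulAut.conj : G →* _)
  have o : ∀ H ∈ S, (MulAction.orbit G H).ncard = 11 ∧ MulAction.orbit G H ⊆ S := fun H hH => by
    refine ⟨?_, by rintro _ ⟨g, rfl⟩; exact (s H hH).2 g⟩
    have i := H.index_mul_card
    rw [c, (s H hH).1] at i
    have l : H ≤ MulAction.stabilizer G H := fun g hg => Subgroup.conj_smul_eq_self_of_mem hg
    rw [← MulAction.index_stabilizer]
    refine ((Nat.dvd_prime f11.out).1 ((show H.index = 11 by omega) ▸ Subgroup.index_dvd_of_le l)).resolve_left fun e => ?_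
    have : H.Normal := Subgroup.Normal.of_conjugate_fixed fun g => (Subgroup.index_eq_one.1 e).ge trivial
    rcases this.eq_bot_or_eq_top with rfl | rfl <;> simp [c] at i
  obtain ⟨H, hH⟩ := Set.nonempty_of_ncard_ne_zero (h.trans_ne (by decide))
  obtain ⟨K, hK, n⟩ := Set.exists_mem_notMem_of_ncard_lt_ncard (s := MulAction.orbit G H) (t := S) (by rw [(o H hH).1, h]; decide)
  refine ⟨H, hH, K, hK, fun g e => n ⟨g, e⟩, fun L hL => ?_⟩
  have u : MulAction.orbit G H ∪ MulAction.orbit G K = S := Set.eq_of_subset_of_ncard_le (Set.union_subset (o H hH).2 (o K hK).2) (by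
    rw [Set.ncard_union_eq ((MulAction.orbit.eq_or_disjoint H K).resolve_left fun e => n (e ▸ MulAction.mem_orbit_self K)),
      (o H hH).1, (o K hK).1, h])
  rcases u.ge hL with ⟨g, rfl⟩ | ⟨g, rfl⟩
  exacts [⟨g⁻¹, .inl (inv_smul_smul g H)⟩, ⟨g⁻¹, .inr (inv_smul_smul g K)⟩]

/-- Let F be a field with 11 elements. PSL_2(F) has exactly 22 subgroups isomorphic to the alternating group A_5, and they form two conjugacy classes: there are two such subgroups that are not conjugate, and every such subgroup is conjugate to one of these two. -/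
theorem result {F : Type*} [Field F] [Fintype F] (hF : Fintype.card F = 11) : Nat.card {H : Subgroup (Matrix.ProjectiveSpecialLinearGroup (Fin 2) F) // Nonempty (H ≃* alternatingGroup (Fin 5))} = 22 ∧ ∃ H K : Subgroup (Matrix.ProjectiveSpecialLinearGroup (Fin 2) F), Nonempty (H ≃* alternatingGroup (Fin 5)) ∧ Nonempty (K ≃* alternatingGroup (Fin 5)) ∧ (∀ g : Matrix.ProjectiveSpecialLinearGroup (Fin 2) F, MulAut.conj g • H ≠ K) ∧ ∀ L : Subgroup (Matrix.ProjectiveSpecialLinearGroup (Fin 2) F), Nonempty (L ≃* alternatingGroup (Fin 5)) → ∃ g : Matrix.ProjectiveSpecialLinearGroup (Fin 2) F, MulAut.conj g • L = H ∨ MulAut.conj g • L = K := by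
  obtain ⟨e⟩ := psl_congr (ι := Fin 2) (hF.trans (ZMod.card 11).symm)
  have c := card_PSL2_odd (F := F) (by rw [hF])
  rw [hF] at c
  have h := (R_congr e).trans R_11
  rw [R_fib] at h
  haveI := simple_PSL2 (F := F) (by omega)
  have h : Nat.card {H : Subgroup (Matrix.ProjectiveSpecialLinearGroup (Fin 2) F) // Nonempty (H ≃* alternatingGroup (Fin 5))} = 22 := by
    omega
  obtain ⟨H, hH, K, hK, t⟩ := two (by omega) {H | Nonempty (H ≃* alternatingGroup (Fin 5))} (fun H ⟨f⟩ =>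
    ⟨(Nat.card_congr f.toEquiv).trans card_A5, fun g => ⟨(Subgroup.equivSMul _ H).symm.trans f⟩⟩) h
  exact ⟨h, H, K, hH, hK, t⟩

end Cfsg.Agent.S2543
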