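import Cfsg.Statements.S2566
import Cfsg.Agent.H5.Orth6

set_option autoImplicit false
open Cfsg

namespace Cfsg.Agent.S2566

open CfsgH5 CfsgH5.CForm Module Matrix

def E : Fin 3 → Fin 2 → ZMod 2 := ![![1, 0], ![0, 1], ![1, 1]]
def pos : Fin 2 ⊕ Fin 2 → Fin 2 × Fin 2 := Sum.elim ![(0, 0), (0, 1)] ![(1, 1), (1, 0)]
def mA : Equiv.Perm (Fin 3) →* Matrix (Fin 2 ⊕ Fin 2) (Fin 2 ⊕ Fin 2) (ZMod 2) where
  toFun s := of fun a b => if (pos a).2 = (pos b).2 then E (s (pos b).1.castSucc) (pos a).1 else 0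
  map_one' := by decide
  map_mul' := by decide +kernel
def mB : Equiv.Perm (Fin 3) →* Matrix (Fin 2 ⊕ Fin 2) (Fin 2 ⊕ Fin 2) (ZMod 2) where
  toFun s := of fun a b => if (pos a).1 = (pos b).1 then E (s (pos b).2.castSucc) (pos a).2 else 0
  map_one' := by decide
  map_mul' := by decide +kernel
def mT : Matrix (Fin 2 ⊕ Fin 2) (Fin 2 ⊕ Fin 2) (ZMod 2) := of fun a b => if pos a = (pos b).swap then 1 else 0
def hA : Equiv.Perm (Fin 3) →* Cfsg.isometryGroup (ZMod 2) (Cfsg.quadFormPlus 2 (ZMod 2)) :=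
  mA.toHomUnits.codRestrict _ fun s u _ => (show ∀ s v, Cfsg.quadFormPlus 2 (ZMod 2) (mA s *ᵥ v) = Cfsg.quadFormPlus 2 (ZMod 2) v by decide +kernel) s u
def hB : Equiv.Perm (Fin 3) →* Cfsg.isometryGroup (ZMod 2) (Cfsg.quadFormPlus 2 (ZMod 2)) :=
  mB.toHomUnits.codRestrict _ fun s u _ => (show ∀ s v, Cfsg.quadFormPlus 2 (ZMod 2) (mB s *ᵥ v) = Cfsg.quadFormPlus 2 (ZMod 2) v by decide +kernel) s u

/-- The full orthogonal group of the plus-type form x₁y₁ + x₂y₂ in dimension 4 over the field of two elements has order 72 and is isomorphic to the wreath product of the symmetric group of degree 3 by a group of order 2: it has a normal subgroup isomorphic to the direct product of two symmetric groups of degree 3, of index 2, whose two direct factors are interchanged by conjugation by some element. -/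
theorem result :
    Nat.card ↥(Cfsg.isometryGroup (ZMod 2) (Cfsg.quadFormPlus 2 (ZMod 2))) = 72 ∧
    ∃ (A B : Subgroup ↥(Cfsg.isometryGroup (ZMod 2) (Cfsg.quadFormPlus 2 (ZMod 2)))),
      Nonempty (↥A ≃* Equiv.Perm (Fin 3)) ∧ Nonempty (↥B ≃* Equiv.Perm (Fin 3)) ∧ A ⊓ B = ⊥ ∧ (∀ a ∈ A, ∀ b ∈ B, a * b = b * a) ∧
      (A ⊔ B).index = 2 ∧ ∃ g : ↥(Cfsg.isometryGroup (ZMod 2) (Cfsg.quadFormPlus 2 (ZMod 2))), A.map (MulAut.conj g).toMonoidHom = B := by
  have c : Nat.card ↥(Cfsg.isometryGroup (ZMod 2) (Cfsg.quadFormPlus 2 (ZMod 2))) = 72 := by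
    have := orth_card_even 1 (plusQ_nondeg (ZMod 2) 2) (by simp)
    rw [← Nat.card_congr (orthEquiv _).toEquiv, (plusQ_isPlus 2).sgn, Nat.card_zmod] at this
    exact Nat.cast_injective (R := ℤ) (this.trans (by decide))
  have ext : ∀ a b : Cfsg.isometryGroup (ZMod 2) (Cfsg.quadFormPlus 2 (ZMod 2)), a.1.1 = b.1.1 → a = b := fun a b h => Subtype.ext (Units.ext h)
  have iA : Function.Injective hA := fun a b h => (show Function.Injective mA by decide +kernel) (congrArg (·.1.1) h)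
  have iB : Function.Injective hB := fun a b h => (show Function.Injective mB by decide +kernel) (congrArg (·.1.1) h)
  have k1 : ∀ s t, hA s = hB t → s = 1 := fun s t h => (show ∀ s t, mA s = mB t → s = 1 by decide +kernel) s t (congrArg (·.1.1) h)
  have k2 : ∀ s t, Commute (hA s) (hB t) := fun s t => ext _ _ ((show ∀ s t, mA s * mB t = mB t * mA s by decide +kernel) s t)
  refine ⟨c, hA.range, hB.range, ⟨(MonoidHom.ofInjective iA).symm⟩, ⟨(MonoidHom.ofInjective iB).symm⟩, ?_, ?_, ?_, ?_⟩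
  · rw [eq_bot_iff]
    rintro _ ⟨⟨s, rfl⟩, t, h⟩
    rw [k1 s t h.symm, map_one]; exact one_mem _
  · rintro _ ⟨s, rfl⟩ _ ⟨t, rfl⟩
    exact k2 s t
  · have h1 := (hA.range ⊔ hB.range).index_mul_card
    rw [c, ← MonoidHom.noncommCoprod_range _ _ k2, ← Nat.card_congr (MonoidHom.ofInjective ((injective_iff_map_eq_one _).mpr fun p h => by
      have e : hA p.1 = hB p.2⁻¹ := by rw [map_inv]; exact eq_inv_of_mul_eq_one_left h
      have e1 := k1 _ _ e
      rw [e1, map_one, eq_comm, map_inv, inv_eq_one, map_eq_one_iff _ iB] at e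
      exact Prod.ext e1 e)).toEquiv, MonoidHom.noncommCoprod_range] at h1
    simp [Fintype.card_perm, Nat.factorial] at h1
    omega
  · refine ⟨⟨⟨mT, mT, by decide, by decide⟩, fun u _ => (show ∀ v, Cfsg.quadFormPlus 2 (ZMod 2) (mT *ᵥ v) = Cfsg.quadFormPlus 2 (ZMod 2) v by decide +kernel) u⟩, ?_⟩
    rw [← MonoidHom.range_comp]
    exact congrArg _ (MonoidHom.ext fun s => ext _ _ ((show ∀ s, mT * mA s * mT = mB s by decide +kernel) s))

end Cfsg.Agent.S2566
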