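import Cfsg.Statements.S2548
import Cfsg.Agent.H5.Sb1
import Cfsg.Agent.S2566
import Cfsg.Agent.S0299
import Cfsg.Agent.S0305
import Cfsg.Agent.S0250

set_option autoImplicit false
open Cfsg

namespace Cfsg.Agent.S2548

open CfsgH5 CfsgH5.Sb Cfsg.Agent.S2566 Matrix

abbrev G2 := Cfsg.isometryGroup (ZMod 2) (Cfsg.quadFormPlus 2 (ZMod 2))

def δ : G2 →* ℤˣ := Equiv.Perm.sign.comp (MonoidHom.mk' (fun g => Equiv.Perm.subtypePerm
  (p := fun v => Cfsg.quadFormPlus 2 (ZMod 2) v = 1) (MulAction.toPerm g.1) fun v => by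
    rw [show Cfsg.quadFormPlus 2 (ZMod 2) (MulAction.toPerm g.1 v) = _ from g.2 v v]) fun a b =>
      Equiv.ext fun v => Subtype.ext (mul_smul a.1 b.1 v.1))

theorem δ_swap : δ (hA (Equiv.swap 0 1)) = -1 := by decide +kernel

theorem two : St0 2 (commutator G2 ⧸ Subgroup.center (commutator G2)) := by
  have ext : ∀ a b : G2, a.1.1 = b.1.1 → a = b := fun a b h => Subtype.ext (Units.ext h)
  have k2 : ∀ s t, Commute (hA s) (hB t) := fun s t => ext _ _ ((show ∀ s t, mA s * mB t = mB t * mA s by decide +kernel) s t)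
  let ψ := hA.noncommCoprod hB k2
  have iψ : Function.Injective ψ := (injective_iff_map_eq_one _).2 fun p h =>
    (show ∀ p : Equiv.Perm (Fin 3) × Equiv.Perm (Fin 3), mA p.1 * mB p.2 = 1 → p = 1 by decide +kernel) p
      (congrArg (·.1.1) h)
  have c : Nat.card G2 = 72 := Cfsg.Agent.S2566.result.1
  have c1 : Nat.card ψ.range = 36 := by
    rw [← Nat.card_congr (MonoidHom.ofInjective iψ).toEquiv]; simp [Fintype.card_perm, Nat.factorial]
  have i2 : ψ.range.index = 2 := by have := ψ.range.index_mul_card; rw [c1, c] at this; omega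
  have le : commutator G2 ≤ ψ.range := Subgroup.commutator_le.2 fun a _ b _ => by
    rw [commutatorElement_def, Subgroup.mul_mem_iff_of_index_two i2, Subgroup.mul_mem_iff_of_index_two i2,
      Subgroup.mul_mem_iff_of_index_two i2, inv_mem_iff, inv_mem_iff]
    by_cases h : a ∈ ψ.range <;> simp [h]
  let T : G2 := ⟨⟨mT, mT, by decide, by decide⟩, fun u _ => (show ∀ v, Cfsg.quadFormPlus 2 (ZMod 2) (mT *ᵥ v) =
    Cfsg.quadFormPlus 2 (ZMod 2) v by decide +kernel) u⟩
  let r := ((MonoidHom.fst _ _).comp (MonoidHom.ofInjective iψ).symm.toMonoidHom).comp (Subgroup.inclusion le)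
  have sr : Function.Surjective r := fun s => ⟨⟨_, Subgroup.commutator_mem_commutator (Subgroup.mem_top (hA s))
    (Subgroup.mem_top T)⟩, congrArg Prod.fst (((MonoidHom.ofInjective iψ).symm_apply_eq (y := (s, s⁻¹))).2 (Subtype.ext
      (ext _ _ ((show ∀ s, mA s * mT * mA s⁻¹ * mT = mA s * mB s⁻¹ by decide +kernel) s))))⟩
  have zr : Subgroup.center _ ≤ r.ker := fun z hz =>
    (show ∀ s : Equiv.Perm (Fin 3), (∀ t, t * s = s * t) → s = 1 by decide) _ fun t => by
      obtain ⟨t, rfl⟩ := sr t
      rw [← _root_.map_mul, Subgroup.mem_center_iff.1 hz, _root_.map_mul]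
  have sr' : Function.Surjective (QuotientGroup.lift _ r zr) := fun s => let ⟨x, h⟩ := sr s; ⟨x, h⟩
  obtain ⟨e⟩ := Cfsg.Agent.S0250.result (F := ZMod 2) rfl
  refine ((St0.of_hasSt (CfsgH6.dc_SL (ZMod 2) 2 le_rfl).1).of_equiv e.symm).of_surj _ sr' ?_
  have d1 := Subgroup.card_dvd_of_surjective _ sr'
  have d2 : Nat.card (commutator G2) ∣ 18 := by
    have l : commutator G2 ≤ ψ.range ⊓ δ.ker := le_inf le (Abelianization.commutator_subset_ker δ)
    have h1 := Subgroup.relIndex_mul_index (inf_le_left : ψ.range ⊓ δ.ker ≤ ψ.range)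
    have h2 := (ψ.range ⊓ δ.ker).index_mul_card
    have h3 : (ψ.range ⊓ δ.ker).relIndex ψ.range = 2 := by
      rw [Subgroup.inf_relIndex_left, Subgroup.relIndex_ker, Subgroup.eq_top_of_card_eq (Subgroup.map δ ψ.range)]
      · simp
      refine le_antisymm (Nat.card_le_card_of_injective _ Subtype.val_injective) ?_
      rw [Nat.card_eq_fintype_card, Fintype.card_units_int]
      exact (Subgroup.one_lt_card_iff_ne_bot _).2 fun h => by
        simpa [δ_swap] using h.le ⟨_, ⟨(Equiv.swap 0 1, 1), by simp [ψ]⟩, δ_swap⟩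
    exact (Subgroup.card_dvd_of_le l).trans (by rw [h3, i2] at h1; rw [← h1] at h2; exact Eq.dvd (Nat.eq_of_mul_eq_mul_left (by norm_num : 0 < 2 * 2) (h2.trans c)))
  have d3 := (Subgroup.card_quotient_dvd_card (Subgroup.center (commutator G2))).trans d2
  generalize Nat.card (commutator G2 ⧸ Subgroup.center (commutator G2)) = n at d1 d3
  simp only [Nat.card_eq_fintype_card, Fintype.card_perm, Fintype.card_fin, Nat.factorial] at d1 ⊢
  obtain ⟨k, rfl⟩ := d1
  have : k ∣ 3 := Nat.dvd_of_mul_dvd_mul_left (by norm_num : 0 < 6) (by simpa using d3)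
  rcases (Nat.dvd_prime Nat.prime_three).1 this with rfl | rfl
  · rfl
  · rw [Nat.factorization_mul (by simp) (by simp)]; simp [Nat.prime_three.factorization]

def tr {F K : Type*} [Field F] [Field K] (e : F ≃+* K) (m : ℕ) :
    Cfsg.isometryGroup F (Cfsg.quadFormPlus m F) →* Cfsg.isometryGroup K (Cfsg.quadFormPlus m K) :=
  ((GeneralLinearGroup.map (e : F →+* K)).comp (Subgroup.subtype _)).codRestrict _ fun g v _ => by
    have k : ∀ v, Cfsg.quadFormPlus m K (e ∘ v) = e (Cfsg.quadFormPlus m F v) := fun v => by simp [Cfsg.quadFormPlus]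
    obtain ⟨v, rfl⟩ : ∃ w, v = e ∘ w := ⟨e.symm ∘ v, by ext; simp⟩
    beta_reduce
    rw [k, ← show Cfsg.quadFormPlus m F (g.1.1 *ᵥ v) = Cfsg.quadFormPlus m F v from g.2 v v, ← k]
    exact congrArg _ (funext fun i => ((e : F →+* K).map_mulVec _ _ i).symm)

/-- Let F be a finite field of characteristic p and consider the group PΩ⁺_{2m}(F) of the hyperbolic quadratic form Σ x_i y_i with m ≥ 1, where Ω denotes the commutator subgroup of the full isometry group. This group has an irreducible complex character χ whose degree equals the order of a Sylow p-subgroup (equal to q^(m(m−1)) when #F = q, except in the degenerate case m = 2, q = 2, where this commutator subgroup has order 18 and its Sylow 2-subgroups have order 2) and whose restriction to any Sylow p-subgroup P is the regular character of P: χ vanishes on the non-identity elements of P. (This is the Steinberg character.) -/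
theorem result {F : Type*} [Field F] [Fintype F] (p : ℕ) [Fact p.Prime] [CharP F p] (m : ℕ) (hm : 1 ≤ m) : ∃ χ : Cfsg.POmega F (Cfsg.quadFormPlus m F) → ℂ, Cfsg.IsIrrCharacter (Cfsg.POmega F (Cfsg.quadFormPlus m F)) χ ∧ ∀ P : Sylow p (Cfsg.POmega F (Cfsg.quadFormPlus m F)), χ 1 = Nat.card P ∧ ∀ x : Cfsg.POmega F (Cfsg.quadFormPlus m F), x ∈ P → x ≠ 1 → χ x = 0 := by
  refine St0.result ?_
  rcases hm.eq_or_lt with rfl | hm
  · exact st0_dihedral (S0305.result rfl).some
  rcases (Nat.succ_le_of_lt hm).eq_or_lt with rfl | hm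
  · rcases (show 2 ≤ Fintype.card F from Fintype.one_lt_card).eq_or_lt' with h | h
    · obtain rfl : p = 2 := (Nat.prime_dvd_prime_iff_eq Fact.out Nat.prime_two).1
        ((CharP.cast_eq_zero_iff F p 2).1 (h ▸ FiniteField.cast_card_eq_zero F))
      let e := (ZMod.ringEquivOfPrime F Nat.prime_two h).symm
      exact two.of_equiv (quotCenterEquiv (commutatorEquiv (MonoidHom.toMulEquiv (tr e 2) (tr e.symm 2)
        (MonoidHom.ext fun g => Subtype.ext (Units.ext (Matrix.ext fun i j => e.symm_apply_apply _)))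
        (MonoidHom.ext fun g => Subtype.ext (Units.ext (Matrix.ext fun i j => e.apply_symm_apply _))))))
    · have k := St0.of_hasSt (CfsgH6.dc_SL F p le_rfl).2.2.1
      exact (k.prod k).of_equiv (S0299.result h).some
  · exact St0.of_hasSt ((CfsgH6.adaptD hm).dc F p (CfsgH6.omE _ (CfsgH6.comm_plus hm))).2.2.1

end Cfsg.Agent.S2548
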