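import Cfsg.Statements.S2550
import Cfsg.Agent.H1.L34b
import Cfsg.Agent.H8.PslC

set_option autoImplicit false
open Cfsg

namespace Cfsg.Agent.S2550

section
open CfsgH1.Mg CfsgH1.Mc CfsgH1.Mh CfsgH1.Mi CfsgH1.L34 CfsgH7 CfsgH7.Gol MulAction
open scoped commutatorElement

def m15 : Matrix.SpecialLinearGroup (Fin 4) (ZMod 2) :=
  ⟨!![0, 0, 0, 1; 1, 0, 0, 1; 0, 1, 0, 0; 0, 0, 1, 0], by decide +kernel⟩

def t2 : Matrix.SpecialLinearGroup (Fin 4) (ZMod 2) :=
  ⟨!![1, 1, 0, 0; 0, 1, 0, 0; 0, 0, 1, 0; 0, 0, 0, 1], by decide +kernel⟩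

theorem ord15 : orderOf (QuotientGroup.mk m15 : Matrix.ProjectiveSpecialLinearGroup (Fin 4) (ZMod 2)) = 15 := by
  have h : ∀ k, m15 ^ k * t2 ≠ t2 * m15 ^ k →
      (QuotientGroup.mk m15 : Matrix.ProjectiveSpecialLinearGroup (Fin 4) (ZMod 2)) ^ k ≠ 1 := fun k h e => by
    rw [← QuotientGroup.mk_pow, QuotientGroup.eq_one_iff] at e
    exact h (Subgroup.mem_center_iff.1 e t2).symm
  refine orderOf_eq_of_pow_and_pow_div_prime (by norm_num) ?_ fun p hp hd => ?_
  · rw [← QuotientGroup.mk_pow, show m15 ^ 15 = 1 by decide +kernel]; rfl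
  · have := Nat.le_of_dvd (by norm_num) hd
    interval_cases p <;> first | exact absurd hd (by decide) | exact absurd hp (by decide) | exact h _ (by decide +kernel)

end

/-- Let F be a field with 2 elements and K a field with 4 elements. PSL_4(F) and PSL_3(K) have the same order (20160) but are not isomorphic. -/
theorem result {F K : Type*} [Field F] [Fintype F] [Field K] [Fintype K] (hF : Fintype.card F = 2) (hK : Fintype.card K = 4) : Nat.card (Matrix.ProjectiveSpecialLinearGroup (Fin 4) F) = Nat.card (Matrix.ProjectiveSpecialLinearGroup (Fin 3) K) ∧ ¬ Nonempty (Matrix.ProjectiveSpecialLinearGroup (Fin 4) F ≃* Matrix.ProjectiveSpecialLinearGroup (Fin 3) K) := by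
  open CfsgH1.Mg CfsgH1.Mc CfsgH1.Mh CfsgH1.Mi CfsgH1.L34 CfsgH7 CfsgH7.Gol MulAction in
  open scoped commutatorElement in
  · refine ⟨?_, fun ⟨e⟩ => ?_⟩
    · have := CfsgH5.card_PSL (F := F) 4 (by norm_num)
      rw [hF] at this
      simp [Fin.prod_univ_succ] at this
      rw [card_psl hK, this]
    · obtain ⟨e1⟩ := CfsgH8.psl_congr (ι := Fin 4) (F := ZMod 2) (F' := F) (by rw [hF, ZMod.card])
      exact psl_no15 hK _ (((e1.trans e).orderOf_eq _).trans ord15)

end Cfsg.Agent.S2550
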