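import Cfsg.Statements.S2564
import Cfsg.Agent.H5.Orth6

set_option autoImplicit false
open Cfsg

namespace Cfsg.Agent.S2564

open CfsgH5 CfsgH5.CForm Module

/-- the form with given values -/
def frm {V : Type} [AddCommGroup V] [Module (ZMod 2) V] (f : CForm (FP.orth (ZMod 2)) V) (q : V → ZMod 2)
    (hq : ∀ u v, q (u + v) = q u + q v + (f.Q (u + v) - f.Q u - f.Q v)) : CForm (FP.orth (ZMod 2)) V where
  B := f.B
  Q := q
  B_add_left := f.B_add_left
  B_smul_left := f.B_smul_left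
  B_symm := f.B_symm
  Q_add u v := by rw [hq, ← orth_B]; rfl
  Q_smul a v := by
    have := hq 0 0
    obtain rfl | rfl : a = 0 ∨ a = 1 := by decide +revert
    · simpa using this
    · simp
  Q_diag v := ⟨q v, rfl, by rw [orth_B_self, show (2 : ZMod 2) = 0 from rfl]; simp [CharTwo.add_self_eq_zero]⟩

theorem key {V : Type} [AddCommGroup V] [Module (ZMod 2) V] [FiniteDimensional (ZMod 2) V] {f : CForm (FP.orth (ZMod 2)) V} (hf : f.Nondeg) {m : ℕ}
    (hm : finrank (ZMod 2) V = 2 * m) (w : V) : (∃ g : V ≃ₗ[ZMod 2] V, ∀ v, f.Q v + f.B v w = f.Q (g v)) ↔ f.Q w = 0 := by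
  have h2 : f.B w w = 0 := by rw [orth_B_self]; exact mul_eq_zero_of_left rfl _
  have sq : ∀ a : ZMod 2, a * a = a := by decide
  constructor
  · rintro ⟨g, hg⟩
    by_contra h
    have h1 : f.Q w = 1 := by revert h; generalize f.Q w = a; decide +revert
    have e : f.nQ 0 = f.nQ 1 := Nat.card_congr (g.toEquiv.symm.trans (Equiv.addRight w) |>.subtypeEquiv fun v => by
      obtain ⟨v, rfl⟩ := g.surjective v
      simp [← hg, orth_Q_add, h1, add_right_comm _ (1 : ZMod 2)])
    obtain ⟨a1, a2⟩ := orth_nQ_even m hf hm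
    have a3 := a2 1 one_ne_zero
    rw [← e, a1, Nat.card_zmod] at a3
    have a4 := f.sgn_mul_sgn
    have : (2 : ℤ) ^ m * 2 = 0 := by push_cast at a3; linear_combination f.sgn * a3 - 2 ^ m * 2 * a4
    simp at this
  · intro h
    refine ⟨LinearEquiv.ofInvolutive (LinearMap.id + (f.left w).smulRight w) fun v => ?_, fun v => ?_⟩
    · simp [f.B_add_left, f.B_smul_left, h2, add_assoc, ← add_smul, CharTwo.add_self_eq_zero]
    · show _ = f.Q (v + f.B v w • w)
      simp [orth_Q_add, orth_Q_smul, h, sq]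

/-- On the 2m-dimensional space over the field of two elements (m ≥ 1) let f be the alternating form obtained by polarizing the plus-type form Σ xᵢyᵢ, and let q be any quadratic form polarizing to f. For a vector w, the function q + f(·, w) again polarizes to f, and it is equivalent to q under an invertible linear map (that is, has the same type) if and only if q(w) = 0. -/
theorem result (m : ℕ) (hm : 1 ≤ m) (q : (Fin m ⊕ Fin m → ZMod 2) → ZMod 2) (hq : (∀ u v : (Fin m ⊕ Fin m → ZMod 2), q (u + v) = q u + q v + (Cfsg.quadFormPlus m (ZMod 2) (u + v) - Cfsg.quadFormPlus m (ZMod 2) u - Cfsg.quadFormPlus m (ZMod 2) v))) (w : (Fin m ⊕ Fin m → ZMod 2)) :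
    (∀ u v : (Fin m ⊕ Fin m → ZMod 2), (q (u + v) + (Cfsg.quadFormPlus m (ZMod 2) (u + v + w) - Cfsg.quadFormPlus m (ZMod 2) (u + v) - Cfsg.quadFormPlus m (ZMod 2) w)) =
        (q u + (Cfsg.quadFormPlus m (ZMod 2) (u + w) - Cfsg.quadFormPlus m (ZMod 2) u - Cfsg.quadFormPlus m (ZMod 2) w)) + (q v + (Cfsg.quadFormPlus m (ZMod 2) (v + w) - Cfsg.quadFormPlus m (ZMod 2) v - Cfsg.quadFormPlus m (ZMod 2) w)) +
        (Cfsg.quadFormPlus m (ZMod 2) (u + v) - Cfsg.quadFormPlus m (ZMod 2) u - Cfsg.quadFormPlus m (ZMod 2) v)) ∧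
    ((∃ g : (Fin m ⊕ Fin m → ZMod 2) ≃ₗ[ZMod 2] (Fin m ⊕ Fin m → ZMod 2), ∀ v, q v + (Cfsg.quadFormPlus m (ZMod 2) (v + w) - Cfsg.quadFormPlus m (ZMod 2) v - Cfsg.quadFormPlus m (ZMod 2) w) = q (g v)) ↔ q w = 0) := by
  have e : ∀ u v, Cfsg.quadFormPlus m (ZMod 2) (u + v) - Cfsg.quadFormPlus m (ZMod 2) u - Cfsg.quadFormPlus m (ZMod 2) v =
    (ofQuad (plusQ (ZMod 2) m)).B u v := fun u v => rfl
  refine ⟨fun u v => by rw [hq]; simp only [e, B_add_left]; ring, ?_⟩
  exact key (f := frm (ofQuad (plusQ (ZMod 2) m)) q hq) (plusQ_nondeg _ m) (m := m) (by simp [two_mul]) w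

end Cfsg.Agent.S2564
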