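import Cfsg.Statements.S2561
import Cfsg.Agent.H5.Orth6
import Cfsg.Agent.S2564

set_option autoImplicit false
open Cfsg

namespace Cfsg.Agent.S2561

open CfsgH5 CfsgH5.CForm Module

/-- Fix the non-singular alternating form on the 2m-dimensional space over the field of two elements obtained by polarizing the plus-type form Σ xᵢyᵢ (m ≥ 1). The functions q on the space with q(u + v) = q(u) + q(v) + f(u, v) (the quadratic forms polarizing to f) number 2^(2m); each is equivalent under an invertible linear map either to the plus-type form or to the minus-type form Σ xᵢyᵢ + (z₁² + z₁z₂ + z₂²); and those of plus type number 2^(2m−1) + 2^(m−1), those of minus type 2^(2m−1) − 2^(m−1). -/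
theorem result (m : ℕ) (hm : 1 ≤ m) :
    Nat.card {q : (Fin m ⊕ Fin m → ZMod 2) → ZMod 2 // (∀ u v : (Fin m ⊕ Fin m → ZMod 2), q (u + v) = q u + q v + (Cfsg.quadFormPlus m (ZMod 2) (u + v) - Cfsg.quadFormPlus m (ZMod 2) u - Cfsg.quadFormPlus m (ZMod 2) v))} = 2 ^ (2 * m) ∧
    (∀ q : (Fin m ⊕ Fin m → ZMod 2) → ZMod 2, (∀ u v : (Fin m ⊕ Fin m → ZMod 2), q (u + v) = q u + q v + (Cfsg.quadFormPlus m (ZMod 2) (u + v) - Cfsg.quadFormPlus m (ZMod 2) u - Cfsg.quadFormPlus m (ZMod 2) v)) →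
      (∃ g : (Fin m ⊕ Fin m → ZMod 2) ≃ₗ[ZMod 2] (Fin m ⊕ Fin m → ZMod 2), ∀ v, q v = Cfsg.quadFormPlus m (ZMod 2) (g v)) ∨
      (∃ g : (Fin m ⊕ Fin m → ZMod 2) ≃ₗ[ZMod 2] ((Fin (m - 1) ⊕ Fin (m - 1)) ⊕ Fin 2 → ZMod 2), ∀ v, q v = Cfsg.quadFormMinus (m - 1) (ZMod 2) 1 1 (g v))) ∧
    Nat.card {q : (Fin m ⊕ Fin m → ZMod 2) → ZMod 2 // (∀ u v : (Fin m ⊕ Fin m → ZMod 2), q (u + v) = q u + q v + (Cfsg.quadFormPlus m (ZMod 2) (u + v) - Cfsg.quadFormPlus m (ZMod 2) u - Cfsg.quadFormPlus m (ZMod 2) v)) ∧ ∃ g : (Fin m ⊕ Fin m → ZMod 2) ≃ₗ[ZMod 2] (Fin m ⊕ Fin m → ZMod 2), ∀ v, q v = Cfsg.quadFormPlus m (ZMod 2) (g v)} = 2 ^ (2 * m - 1) + 2 ^ (m - 1) ∧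
    Nat.card {q : (Fin m ⊕ Fin m → ZMod 2) → ZMod 2 // (∀ u v : (Fin m ⊕ Fin m → ZMod 2), q (u + v) = q u + q v + (Cfsg.quadFormPlus m (ZMod 2) (u + v) - Cfsg.quadFormPlus m (ZMod 2) u - Cfsg.quadFormPlus m (ZMod 2) v)) ∧ ∃ g : (Fin m ⊕ Fin m → ZMod 2) ≃ₗ[ZMod 2] ((Fin (m - 1) ⊕ Fin (m - 1)) ⊕ Fin 2 → ZMod 2), ∀ v, q v = Cfsg.quadFormMinus (m - 1) (ZMod 2) 1 1 (g v)} = 2 ^ (2 * m - 1) - 2 ^ (m - 1) := by
  have hac : ∀ z₁ z₂ : ZMod 2, z₁ ^ 2 + 1 * z₁ * z₂ + 1 * z₂ ^ 2 = 0 → z₁ = 0 ∧ z₂ = 0 := by decide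
  let f := ofQuad (plusQ (ZMod 2) m)
  have hf : f.Nondeg := plusQ_nondeg _ m
  have d : finrank (ZMod 2) (Fin m ⊕ Fin m → ZMod 2) = 2 * m := by simp [two_mul]
  have d' : finrank (ZMod 2) ((Fin (m - 1) ⊕ Fin (m - 1)) ⊕ Fin 2 → ZMod 2) = 2 * m := by simp; omega
  let P : ((Fin m ⊕ Fin m → ZMod 2) → ZMod 2) → Prop := fun q => ∀ u v, q (u + v) = q u + q v + (f.Q (u + v) - f.Q u - f.Q v)
  have k1 : ∀ w, P fun v => f.Q v + f.B v w := fun w u v => by simp only [B_add_left]; ring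
  have k2 : ∀ R : ((Fin m ⊕ Fin m → ZMod 2) → ZMod 2) → Prop, Nat.card {q // P q ∧ R q} = Nat.card {w // R fun v => f.Q v + f.B v w} := fun R => by
    symm
    refine Nat.card_eq_of_bijective (fun w => ⟨_, k1 w, w.2⟩) ⟨fun a b h => Subtype.ext (hf.ext_right fun u => ?_), fun ⟨q, h1, h2⟩ => ?_⟩
    · exact add_left_cancel (congrFun (congrArg Subtype.val h) u)
    · obtain ⟨w, hw⟩ := hf.riesz ((AddMonoidHom.mk' (fun v => q v - f.Q v) fun u v => by rw [h1]; ring).toZModLinearMap 2)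
      have : (fun v => f.Q v + f.B v w) = q := funext fun v => by rw [hw]; simp
      exact ⟨⟨w, this ▸ h2⟩, Subtype.ext this⟩
  have k3 : ∀ q, P q → ((∃ g : (Fin m ⊕ Fin m → ZMod 2) ≃ₗ[ZMod 2] ((Fin (m - 1) ⊕ Fin (m - 1)) ⊕ Fin 2 → ZMod 2), ∀ v, q v = Cfsg.quadFormMinus (m - 1) (ZMod 2) 1 1 (g v)) ↔
      ¬ ∃ g : (Fin m ⊕ Fin m → ZMod 2) ≃ₗ[ZMod 2] (Fin m ⊕ Fin m → ZMod 2), ∀ v, q v = f.Q (g v)) := fun q hq => by
    have iso : ∀ {W : Type} [AddCommGroup W] [Module (ZMod 2) W] (g : CForm (FP.orth (ZMod 2)) W) (e : _ ≃ₗ[ZMod 2] W), (∀ v, q v = g.Q (e v)) →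
      (S2564.frm f q hq).IsIso g e := fun g e h => ⟨fun u v => by rw [orth_B, orth_B, ← map_add, ← h, ← h, ← h]; rfl, fun v => (h v).symm⟩
    constructor
    · rintro ⟨g, hg⟩ ⟨g', hg'⟩
      exact minusQ_not_isPlus _ hac ((iso (ofQuad (minusQ (m - 1) 1 1)) g hg).isPlus ((iso f g' hg').symm.isPlus (plusQ_isPlus m)))
    · intro h
      obtain ⟨e, he⟩ := orth_exists_isIso_even m (f := S2564.frm f q hq) hf (minusQ_nondeg _ hac) d d' (iff_of_false (fun k => h (by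
        obtain ⟨e, he⟩ := orth_exists_isIso_even m (f := S2564.frm f q hq) hf hf d d (iff_of_true k (plusQ_isPlus m))
        exact ⟨e, fun v => (he.2 v).symm⟩)) (minusQ_not_isPlus _ hac))
      exact ⟨e, fun v => (he.2 v).symm⟩
  obtain ⟨a1, a2⟩ := orth_nQ_even m hf d
  have a3 := a2 1 one_ne_zero
  rw [(plusQ_isPlus m).sgn, Nat.card_zmod] at a1 a3
  obtain ⟨m, rfl⟩ := Nat.exists_eq_add_of_le' hm
  simp only [show 2 * (m + 1) = 2 * m + 1 + 1 by ring, pow_succ _ (2 * m + 1), pow_succ _ m, Nat.add_sub_cancel] at a1 a3 ⊢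
  refine ⟨?_, fun q hq => or_iff_not_imp_left.mpr (k3 q hq).mpr, (k2 _).trans ?_, ?_⟩
  · refine (Nat.card_congr (Equiv.subtypeEquivRight fun q => (and_iff_left trivial).symm)).trans ((k2 fun _ => True).trans ?_)
    simp [two_mul, pow_add]; ring
  · refine (Nat.card_congr (Equiv.subtypeEquivRight (S2564.key hf d))).trans ?_
    zify; unfold nQ at a1; push_cast at a1; linarith
  · refine (Nat.card_congr (Equiv.subtypeEquivRight fun q => and_congr_right (k3 q))).trans ?_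
    rw [k2]
    have : ∀ a : ZMod 2, ¬ a = 0 ↔ a = 1 := by decide
    simp only [S2564.key hf d, this]
    apply Nat.eq_sub_of_add_eq
    zify; unfold nQ at a3; push_cast at a3; linarith

end Cfsg.Agent.S2561
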