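import Cfsg.Statements.S2562
import Cfsg.Agent.H5.Orth6

set_option autoImplicit false
open Cfsg

namespace Cfsg.Agent.S2562

open CfsgH5 CfsgH5.CForm Module

/-- Witt indices over the field of two elements, m ≥ 1: for the plus-type form Σ xᵢyᵢ in dimension 2m some m-dimensional subspace is totally singular and no totally singular subspace has larger dimension; for the minus-type form Σ xᵢyᵢ + (z₁² + z₁z₂ + z₂²) in dimension 2m the maximal dimension of a totally singular subspace is m − 1. -/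
theorem result (m : ℕ) (hm : 1 ≤ m) :
    (∃ U : Submodule (ZMod 2) (Fin m ⊕ Fin m → ZMod 2), (∀ u ∈ U, Cfsg.quadFormPlus m (ZMod 2) u = 0) ∧ Module.finrank (ZMod 2) ↥U = m) ∧
    (∀ U : Submodule (ZMod 2) (Fin m ⊕ Fin m → ZMod 2), (∀ u ∈ U, Cfsg.quadFormPlus m (ZMod 2) u = 0) → Module.finrank (ZMod 2) ↥U ≤ m) ∧
    (∃ U : Submodule (ZMod 2) ((Fin (m - 1) ⊕ Fin (m - 1)) ⊕ Fin 2 → ZMod 2), (∀ u ∈ U, Cfsg.quadFormMinus (m - 1) (ZMod 2) 1 1 u = 0) ∧ Module.finrank (ZMod 2) ↥U = m - 1) ∧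
    (∀ U : Submodule (ZMod 2) ((Fin (m - 1) ⊕ Fin (m - 1)) ⊕ Fin 2 → ZMod 2), (∀ u ∈ U, Cfsg.quadFormMinus (m - 1) (ZMod 2) 1 1 u = 0) → Module.finrank (ZMod 2) ↥U ≤ m - 1) := by
  have hac : ∀ z₁ z₂ : ZMod 2, z₁ ^ 2 + 1 * z₁ * z₂ + 1 * z₂ ^ 2 = 0 → z₁ = 0 ∧ z₂ = 0 := by decide
  refine ⟨?_, fun U hU => ?_, ?_, fun U hU => ?_⟩
  · obtain ⟨W, h1, h2⟩ := plusQ_isPlus (F := ZMod 2) m
    exact ⟨W, TS_orth.1 h1, by simp at h2; omega⟩
  · have := TS.two_mul_finrank_le (plusQ_nondeg _ m) (TS_orth.2 hU)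
    simp at this; omega
  · have he : Function.Injective (Sum.inl ∘ Sum.inl : Fin (m - 1) → (Fin (m - 1) ⊕ Fin (m - 1)) ⊕ Fin 2) := Sum.inl_injective.comp Sum.inl_injective
    refine ⟨LinearMap.range (extZero _ (Sum.inl ∘ Sum.inl)), fun w hw => ?_, by rw [finrank_range_extZero he, Fintype.card_fin]⟩
    rw [mem_range_extZero he] at hw
    simp [Cfsg.quadFormMinus, hw]
  · have := TS.two_mul_finrank_le (minusQ_nondeg (m - 1) hac) (TS_orth.2 hU)
    have h2 := fun h => minusQ_not_isPlus (m - 1) hac ⟨U, TS_orth.2 hU, h⟩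
    simp at this h2; omega

end Cfsg.Agent.S2562
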