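import Cfsg.Statements.S2563
import Cfsg.Agent.H5.Ht1

set_option autoImplicit false
open Cfsg

namespace Cfsg.Agent.S2563

open CfsgH5 CfsgH5.Ht

/-- For k ≥ 1 the symmetric group of degree 4k + 4 embeds in a full orthogonal group in dimension 4k + 2 over the field of two elements: in the isometry group of the plus-type form Σ xᵢyᵢ when k is odd, and in that of the minus-type form Σ xᵢyᵢ + (z₁² + z₁z₂ + z₂²) when k is even (through its action on even partitions of a (4k+4)-set, with the form 'half the size of a part, modulo 2'). -/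
theorem result (k : ℕ) (hk : 1 ≤ k) :
    (Odd k → ∃ φ : Equiv.Perm (Fin (4 * k + 4)) →* ↥(Cfsg.isometryGroup (ZMod 2) (Cfsg.quadFormPlus (2 * k + 1) (ZMod 2))), Function.Injective φ) ∧
    (Even k → ∃ φ : Equiv.Perm (Fin (4 * k + 4)) →* ↥(Cfsg.isometryGroup (ZMod 2) (Cfsg.quadFormMinus (2 * k) (ZMod 2) 1 1)), Function.Injective φ) := by
  have hF : Nat.card (ZMod 2) = 2 := Nat.card_zmod 2
  have a : ∀ z₁ z₂ : ZMod 2, z₁ ^ 2 + 1 * z₁ * z₂ + 1 * z₂ ^ 2 = 0 → z₁ = 0 ∧ z₂ = 0 := by decide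
  exact ⟨fun h => heart_orth hF hk (plusQ_nondeg _ _) (by simp; omega) (iff_of_true (plusQ_isPlus _) h),
    fun h => heart_orth hF hk (minusQ_nondeg _ a) (by simp; omega)
      (iff_of_false (minusQ_not_isPlus _ a) (Nat.not_odd_iff_even.2 h))⟩

end Cfsg.Agent.S2563
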