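import Cfsg.Statements.S2567
import Cfsg.Agent.H5.SLBasic

set_option autoImplicit false
open Cfsg

namespace Cfsg.Agent.S2567

/-- Lifting elements of prime order from PGL to GL: let F be a finite field with q elements, r a prime not dividing q − 1, and x an element of order r in GL_n(F) modulo its centre (the scalar matrices). Then x has exactly one preimage in GL_n(F) of order r. -/
theorem result {F : Type*} [Field F] [Fintype F] {q n r : ℕ} (hF : Fintype.card F = q) (hr : r.Prime) (hdiv : ¬ r ∣ q - 1) (x : GL (Fin n) F ⧸ Subgroup.center (GL (Fin n) F)) (hx : orderOf x = r) : ∃! g : GL (Fin n) F, (QuotientGroup.mk g : GL (Fin n) F ⧸ Subgroup.center (GL (Fin n) F)) = x ∧ orderOf g = r := by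
  haveI := Fact.mk hr
  rcases Nat.eq_zero_or_pos n with rfl | hn
  · rw [Subsingleton.elim x 1, orderOf_one] at hx
    exact absurd hx hr.one_lt.ne
  haveI : Nonempty (Fin n) := ⟨⟨0, hn⟩⟩
  have hc : Nat.card (Subgroup.center (GL (Fin n) F)) = q - 1 := by
    rw [CfsgH5.card_center_GL, Nat.card_units, Nat.card_eq_fintype_card, hF]
  have hcop : (Nat.card (Subgroup.center (GL (Fin n) F))).Coprime r := hc ▸ ((Nat.Prime.coprime_iff_not_dvd hr).mpr hdiv).symm
  obtain ⟨g, rfl⟩ := QuotientGroup.mk_surjective x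
  have h1 : g ^ r ∈ Subgroup.center (GL (Fin n) F) := by
    rw [← QuotientGroup.eq_one_iff, QuotientGroup.mk_pow, ← hx, pow_orderOf_eq_one]
  obtain ⟨z, hz⟩ := (powCoprime hcop).surjective ⟨_, h1⟩
  have hz' : z.1 ^ r = g ^ r := congrArg Subtype.val hz
  have hm : (QuotientGroup.mk (g * z.1⁻¹) : GL (Fin n) F ⧸ Subgroup.center (GL (Fin n) F)) = QuotientGroup.mk g := by
    rw [QuotientGroup.mk_mul, (QuotientGroup.eq_one_iff _).mpr (inv_mem z.2), mul_one]
  have ho : orderOf (g * z.1⁻¹) = r := orderOf_eq_prime (by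
    rw [Commute.mul_pow (Subgroup.mem_center_iff.mp (inv_mem z.2) g), inv_pow, hz', mul_inv_cancel]) (fun e => by
      rw [← hm, e, QuotientGroup.mk_one, orderOf_one] at hx; exact hr.one_lt.ne hx)
  refine ⟨g * z.1⁻¹, ⟨hm, ho⟩, fun y hy => ?_⟩
  have h2 := QuotientGroup.eq.mp (hy.1.trans hm.symm)
  have h3 : (⟨_, h2⟩ : Subgroup.center (GL (Fin n) F)) = 1 := (powCoprime hcop).injective (Subtype.ext (by
    have := Commute.mul_pow (Subgroup.mem_center_iff.mp h2 y) r
    rw [mul_inv_cancel_left, ← ho, pow_orderOf_eq_one, ho, ← hy.2, pow_orderOf_eq_one, one_mul, hy.2] at this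
    simpa using this.symm))
  exact inv_mul_eq_one.mp (congrArg Subtype.val h3)

end Cfsg.Agent.S2567
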