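import Cfsg.Statements.S2568
import Cfsg.Agent.H5.Gl4

set_option autoImplicit false
open Cfsg

namespace Cfsg.Agent.S2568

open CfsgH5.Gl Module Polynomial Matrix

/-- Number of conjugacy classes of elements of a given prime order r, coprime to the characteristic, in GL_n(q): if i is the multiplicative order of q modulo r and t = (r − 1)/i, the classes correspond to the non-zero t-tuples of natural numbers (a_1, …, a_t) with i(a_1 + ⋯ + a_t) ≤ n (a_j is the multiplicity of the j-th Frobenius orbit of nontrivial r-th roots of unity among the eigenvalues), so there are exactly C(⌊n/i⌋ + t, t) − 1 of them. -/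
theorem result {F : Type*} [Field F] [Fintype F] {p q : ℕ} [Fact p.Prime] [CharP F p] (hF : Fintype.card F = q) (n r i t : ℕ) (hr : r.Prime) (hrp : r ≠ p) (hi : i = orderOf (q : ZMod r)) (ht : t * i = r - 1) : Nat.card {C : ConjClasses (GL (Fin n) F) // ∃ g : GL (Fin n) F, ConjClasses.mk g = C ∧ orderOf g = r} = Nat.choose (n / i + t) t - 1 := by
  obtain ⟨T, h1, h2, h3, -, h4⟩ := cyclo_factors (F := F) hr hrp
  rw [hF, ← hi] at h2 h3
  have := hr.two_le
  have hi0 : 0 < i := Nat.pos_of_ne_zero (by rintro rfl; omega)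
  obtain rfl : T.card = t := Nat.eq_of_mul_eq_mul_right hi0 (h3.trans ht.symm)
  rw [card_order_prime hr, card_classes (fun g : GL (Fin n) F => toLin' g.1) _ (fun a b _ _ => isConj_GL), ← card_ms_le T _ h1,
    ← card_ms_wt T _ h1 natDegree i n hi0 (natDegree_X_sub_C 1) h2]
  congr 1
  refine Nat.card_congr (Equiv.subtypeEquivRight fun s => ⟨fun h => ?_, fun h => ?_⟩)
  · have := (exists_GL_pow_iff hr.ne_zero (fun a ha => (h.1 a ha).monic.ne_zero)).mp h.2
    exact ⟨fun a ha => (h4 a).mp ⟨h.1 a ha, this.1 a ha⟩, by simpa using this.2⟩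
  · have := fun a ha => (h4 a).mpr (h.1 a ha)
    exact ⟨fun a ha => (this a ha).1, (exists_GL_pow_iff hr.ne_zero (fun a ha => (this a ha).1.monic.ne_zero)).mpr
      ⟨fun a ha => (this a ha).2, by simpa using h.2⟩⟩

end Cfsg.Agent.S2568
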