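import Cfsg.Statements.S2569
import Cfsg.Agent.H5.Gl4

set_option autoImplicit false
open Cfsg

namespace Cfsg.Agent.S2569

open CfsgH5.Gl Module Polynomial Matrix

/-- In GL_n over a finite field of characteristic p, the conjugacy class of a semisimple element (an element of order prime to p) under the special linear group is its whole GL-conjugacy class: for every such x and every invertible g there is h of determinant one with h x h⁻¹ = g x g⁻¹. -/
theorem result {F : Type*} [Field F] [Fintype F] {p : ℕ} [Fact p.Prime] [CharP F p] {n : ℕ} (x g : GL (Fin n) F) (hx : (orderOf x).Coprime p) : ∃ h : GL (Fin n) F, (h : Matrix (Fin n) (Fin n) F).det = 1 ∧ h * x * h⁻¹ = g * x * g⁻¹ := by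
  have h0 : g.1.det ≠ 0 := g.det_ne_zero
  rcases Nat.eq_zero_or_pos n with rfl | hn
  · exact ⟨g, det_fin_zero, rfl⟩
  obtain ⟨u, hu, h⟩ := exists_HT (toLin' x.1)
  have hz := fun a ha => (hu a ha).monic.ne_zero
  have h5 := h.dim hz
  rw [finrank_fintype_fun_eq_card, Fintype.card_fin] at h5
  obtain ⟨a, ha⟩ := Multiset.exists_mem_of_ne_zero (s := u) (by rintro rfl; simp at h5; omega)
  have h1 := ((exists_GL_pow_iff (orderOf_pos x).ne' hz).mp ⟨x, pow_orderOf_eq_one x, h⟩).1 a ha
  have hr0 : (orderOf x : F) ≠ 0 := fun k => (Nat.Prime.coprime_iff_not_dvd Fact.out).mp hx.symm ((CharP.cast_eq_zero_iff F p _).mp k)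
  haveI := Fact.mk ((hu a ha).irr_of_sqf (X_pow_sub_one_separable_iff.mpr hr0).squarefree h1)
  haveI : FiniteDimensional F (AdjoinRoot a) := fd_quot (hz a ha)
  haveI : Finite (AdjoinRoot a) := Module.finite_of_finite F
  obtain ⟨y, hy⟩ := FiniteField.norm_surjective F (AdjoinRoot a) (g.1.det)⁻¹
  obtain ⟨k, k1, k2⟩ := h.exists_comm_det hz ha y
  have k3 : LinearMap.det k = (g.1.det)⁻¹ := k2.trans hy
  obtain ⟨z, z1, z2⟩ := exists_GL_of_comm k1 (k3 ▸ inv_ne_zero h0)
  refine ⟨g * z, by rw [Units.val_mul, det_mul, z2, k3, mul_inv_cancel₀ h0], ?_⟩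
  have : z * x = x * z := Units.ext z1
  rw [mul_assoc g, this]; group

end Cfsg.Agent.S2569
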