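import Cfsg.Statements.S2572
import Cfsg.Agent.H5.Uc1

set_option autoImplicit false
open Cfsg

namespace Cfsg.Agent.S2572

open CfsgH5 CfsgH5.Gl CfsgH5.El Module Polynomial Matrix

/-- Centraliser of a transvection in GL_n(q), n ≥ 2: if t − 1 has rank one and square zero, the centraliser of t in GL_n(q) has order q^(2n−3) (q − 1) |GL_(n−2)(q)| (a group of order q^(2n−3) extended by GL_1(q) × GL_(n−2)(q)). -/
theorem result {F : Type*} [Field F] [Fintype F] {q n : ℕ} (hF : Fintype.card F = q) (hn : 2 ≤ n) (t : GL (Fin n) F) (ht : Cfsg.IsTransvection (t : Matrix (Fin n) (Fin n) F)) : Nat.card ↥(Subgroup.centralizer ({t} : Set (GL (Fin n) F))) = q ^ (2 * n - 3) * (q - 1) * ∏ i : Fin (n - 2), (q ^ (n - 2) - q ^ (i : ℕ)) := by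
  subst hF
  obtain ⟨m, rfl⟩ : ∃ m, n = m + 2 := ⟨n - 2, by omega⟩
  have h1 : (t.1 - 1) ^ 2 = 0 := by rw [sq]; exact ht.2
  obtain ⟨u, hu, h⟩ := exists_HT (toLin' t.1)
  have h0 := fun a ha => (hu a ha).monic.ne_zero
  have h2 : (toLin' t.1 - algebraMap F _ 1) ^ 2 = 0 := by rw [toLin_sub, h1, map_zero]
  have h3 := h.unip_ker hu h2
  have h4 := ker_add_rank ((t.1 - 1) ^ 1)
  rw [← toLin_sub, pow_one, pow_one, h3, ht.1, Fintype.card_fin] at h4
  have h5 := h.dim h0
  rw [finrank_fintype_fun_eq_card, Fintype.card_fin] at h5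
  have h6 := h.unip hu h2
  have h7 : u = (u.map natDegree).map fun e => (X - C 1 : F[X]) ^ e := by
    rw [Multiset.map_map]
    conv_lhs => rw [← Multiset.map_id u]
    exact Multiset.map_congr rfl fun a ha => by obtain ⟨e, -, -, rfl⟩ := h6 a ha; simp [-map_one]
  obtain ⟨c, j, e⟩ := two_parts (μ := u.map natDegree) fun a ha => by
    obtain ⟨b, hb, rfl⟩ := Multiset.mem_map.1 ha
    obtain ⟨e, k1, k2, rfl⟩ := h6 b hb
    simp [-map_one]; omega
  have h8 := congrArg Multiset.card e
  rw [e] at h5 h7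
  simp at h5 h8
  obtain rfl : j = 1 := by omega
  obtain rfl : c = m := by omega
  have := Uc.card_cent (J := t.1) (d := (Fin.cons 2 fun _ => 1 : Fin (c + 1) → ℕ)) (D := 3)
    (fun k => by refine Fin.cases ?_ (fun _ => ?_) k <;> simp) (fun k => by refine Fin.cases ?_ (fun _ => ?_) k <;> simp)
    (by convert h; rw [h7, add_comm (Multiset.replicate c 1)]; simp [Fin.univ_succ, Function.comp_def, ← Multiset.cons_coe, Multiset.coe_replicate])
  have a0 : (Finset.univ.filter fun k => (Fin.cons 2 fun _ => 1 : Fin (c + 1) → ℕ) k = 0).card = 0 := by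
    simp [Fin.card_filter_univ_succ]
  have a1 : (Finset.univ.filter fun k => (Fin.cons 2 fun _ => 1 : Fin (c + 1) → ℕ) k = 1).card = c := by
    simp [Fin.card_filter_univ_succ]
  have a2 : (Finset.univ.filter fun k => (Fin.cons 2 fun _ => 1 : Fin (c + 1) → ℕ) k = 2).card = 1 := by
    simp [Fin.card_filter_univ_succ]
  simp only [Finset.sum_range_succ, Finset.prod_range_succ, Finset.range_zero, Finset.sum_empty,
    Finset.prod_empty] at this
  rw [a0, a1, a2] at this
  refine Eq.trans (Nat.card_congr (Equiv.subtypeEquivRight fun g => ?_)) (this.trans ?_)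
  · rw [Subgroup.mem_centralizer_singleton_iff, Units.ext_iff]; rfl
  · simp [show 2 * (c + 2) - 3 = 2 * c + 1 by omega, mul_comm c 2]
    rw [mul_assoc, mul_comm (_ - 1)]; rfl

end Cfsg.Agent.S2572
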