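import Cfsg.Statements.S2573
import Cfsg.Agent.H5.Gl4

set_option autoImplicit false
open Cfsg

namespace Cfsg.Agent.S2573

open CfsgH5.Gl Module Polynomial Matrix

theorem gen {F V : Type*} [Field F] [AddCommGroup V] [Module F V] [FiniteDimensional F V] {f : End F V} {n : ℕ}
    (h : HT f {(X - C 1) ^ n}) (W : Submodule F V) (hW : ∀ v ∈ W, f v ∈ W) : W = LinearMap.ker ((f - 1) ^ finrank F W) := by
  have h0 : ∀ a ∈ ({(X - C 1) ^ n} : Multiset F[X]), a ≠ 0 := by simpa using pow_ne_zero _ (X_sub_C_ne_zero (1 : F))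
  have h1 : (f - 1) ^ n = 0 := by
    have := (h.aeval_eq_zero ((X - C 1) ^ n)).mpr (by simp)
    rwa [map_pow, map_sub, aeval_X, aeval_C, map_one] at this
  have hN : ∀ v ∈ W, (f - 1) v ∈ W := fun v hv => W.sub_mem (hW v hv) hv
  have h2 : IsNilpotent ((f - 1).restrict hN) := ⟨n, by
    rw [Module.End.pow_restrict]; ext v; simp [h1]⟩
  have h3 := LinearMap.aeval_self_charpoly ((f - 1).restrict hN)
  rw [h2.charpoly_eq_X_pow_finrank, map_pow, aeval_X, Module.End.pow_restrict] at h3
  refine Submodule.eq_of_le_of_finrank_le (fun v hv => ?_) ?_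
  · exact congrArg Subtype.val (LinearMap.congr_fun h3 ⟨v, hv⟩)
  · have := h.ker h0 ((X - C 1) ^ finrank F W)
    rw [map_pow, map_sub, aeval_X, aeval_C, map_one, Multiset.map_singleton, Multiset.sum_singleton, cd_pow (X_sub_C_ne_zero 1), natDegree_X_sub_C] at this
    rw [this]; omega

/-- The invariant subspaces of a regular unipotent matrix form a chain: over a finite field, if u is an n × n matrix with (u − 1)^n = 0 and rank(u − 1) = n − 1, then every subspace W of F^n with u W ⊆ W is the kernel of (u − 1)^(dim W); so u has at most one invariant subspace of each dimension. -/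
theorem result {F : Type*} [Field F] [Finite F] {n : ℕ} (u : Matrix (Fin n) (Fin n) F) (hnil : (u - 1) ^ n = 0) (hreg : (u - 1).rank = n - 1) (W : Submodule F (Fin n → F)) (hW : ∀ v ∈ W, u.mulVec v ∈ W) : W = LinearMap.ker (Matrix.mulVecLin ((u - 1) ^ Module.finrank F W)) := by
  rcases Nat.eq_zero_or_pos n with rfl | hn
  · exact Subsingleton.elim _ _
  have := gen (reg_HT' hnil (by simp; omega)) W hW
  rwa [← map_one (algebraMap F (End F (Fin n → F))), toLin_sub] at this

end Cfsg.Agent.S2573
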