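import Cfsg.Statements.S2574
import Cfsg.Agent.H5.Gc4
import Cfsg.Agent.S2573

set_option autoImplicit false
open Cfsg

namespace Cfsg.Agent.S2574

open CfsgH5 CfsgH5.CForm CfsgH5.Gl CfsgH5.Gc Module Polynomial Matrix

/-- A regular unipotent element of the symplectic group has totally isotropic small invariant subspaces: over a finite field, if u ∈ Sp_2m(F) satisfies (u − 1)^(2m) = 0 and rank(u − 1) = 2m − 1, and W is a u-invariant subspace with 2 dim W ≤ 2m, then the alternating form vanishes identically on W. -/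
theorem result {F : Type*} [Field F] [Finite F] {m : ℕ} (u : Matrix.symplecticGroup (Fin m) F) (hnil : ((u : Matrix (Fin m ⊕ Fin m) (Fin m ⊕ Fin m) F) - 1) ^ (2 * m) = 0) (hreg : ((u : Matrix (Fin m ⊕ Fin m) (Fin m ⊕ Fin m) F) - 1).rank = 2 * m - 1) (W : Submodule F (Fin m ⊕ Fin m → F)) (hW : ∀ v ∈ W, (u : Matrix (Fin m ⊕ Fin m) (Fin m ⊕ Fin m) F).mulVec v ∈ W) (hdim : 2 * Module.finrank F W ≤ 2 * m) : ∀ v ∈ W, ∀ w ∈ W, Cfsg.sympForm m F v w = 0 := by
  rcases Nat.eq_zero_or_pos m with rfl | hm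
  · intro v _ w _; simp [sympForm_apply]
  have hf := spForm_nondeg (F := F) m
  have h := reg_HT' (A := u.1) hnil (by simp; omega)
  have h1 := S2573.gen h W hW
  have h2 := S2573.gen h ((spForm F m).perp W) fun v hv =>
    (stabS_perp (spEquiv m u).2 (mem_stabS_of_le (g := (spEquiv m u).1) hW) v).mp hv
  have h3 := hf.finrank_perp W
  rw [finrank_sum_fun] at h3
  intro v hv w hw
  refine (show v ∈ (spForm F m).perp W from ?_) w hw
  rw [h1] at hv
  rw [h2]
  exact End.pow_map_zero_of_le (by omega) hv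

end Cfsg.Agent.S2574
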