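import Cfsg.Statements.S2575
import Cfsg.Agent.H5.Orth1

set_option autoImplicit false
open Cfsg

namespace Cfsg.Agent.S2575

open Matrix

theorem key {F : Type*} [Field F] [Fintype F] (hq : Odd (Fintype.card F)) {n : ℕ} (hn : n ≠ 0) :
    (∃ c : F, c ^ n = -1) ↔ padicValNat 2 n < padicValNat 2 (Fintype.card F - 1) := by
  classical
  have h1 : Fintype.card F - 1 ≠ 0 := by have := Fintype.one_lt_card (α := F); omega
  have h2 := CfsgH5.two_ne_of_odd hq
  rw [← Nat.succ_le_iff, ← padicValNat_dvd_iff_le h1]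
  obtain ⟨k, l, hl, rfl⟩ := Nat.exists_eq_two_pow_mul_odd hn
  rw [padicValNat.mul (by positivity) hl.pos.ne', padicValNat.prime_pow, padicValNat.eq_zero_of_not_dvd hl.not_two_dvd_nat, add_zero]
  have ne : (-1 : F) ≠ 1 := fun h => h2 (by linear_combination -h)
  constructor
  · rintro ⟨c, hc⟩
    have h0 : c ^ l ≠ 0 := fun h => by rw [pow_mul', h, zero_pow (by positivity)] at hc; simp at hc
    rw [← orderOf_eq_prime_pow (x := c ^ l) (p := 2) (n := k) (by rwa [← pow_mul', hc]) (by rw [pow_succ, pow_mul, ← pow_mul' c, hc]; simp)]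
    exact orderOf_dvd_of_pow_eq_one (FiniteField.pow_card_sub_one_eq_one _ h0)
  · rintro ⟨t, ht⟩
    obtain ⟨g, hg⟩ := IsCyclic.exists_ofOrder_eq_natCard (α := Fˣ)
    rw [Nat.card_units, Nat.card_eq_fintype_card, ht, ← orderOf_units] at hg
    have t0 : 0 < 2 ^ k * t := Nat.pos_of_ne_zero fun h => h1 (by rw [ht, Nat.succ_eq_add_one, pow_succ', mul_assoc, h, mul_zero])
    have : g.1 ^ (2 ^ k * t) = -1 := (mul_self_eq_one_iff.mp (by rw [← pow_add, ← two_mul, ← mul_assoc, ← pow_succ', ← hg, pow_orderOf_eq_one])).resolve_left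
      (pow_ne_one_of_lt_orderOf t0.ne' (by rw [hg, Nat.succ_eq_add_one, pow_succ', mul_assoc]; omega))
    exact ⟨g.1 ^ t, by rw [pow_mul, ← pow_mul g.1, mul_comm t, this, hl.neg_one_pow]⟩

/-- Which diagonal involutions of PGL_n(q) lie in PSL_n(q), q odd: for the diagonal matrix t with i entries −1 and n − i entries 1, some non-zero scalar multiple of t has determinant one if and only if i is even or the 2-part of q − 1 exceeds the 2-part of n (that is, −1 is an n-th power in the field exactly in the latter case). -/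
theorem result {F : Type*} [Field F] [Fintype F] {q : ℕ} (hF : Fintype.card F = q) (hq : Odd q) {n : ℕ} (hn : 1 ≤ n) (i : ℕ) (hi : i ≤ n) : (∃ c : F, c ≠ 0 ∧ (c • Matrix.diagonal (fun j : Fin n => if (j : ℕ) < i then (-1 : F) else 1)).det = 1) ↔ (Even i ∨ padicValNat 2 n < padicValNat 2 (q - 1)) := by
  subst hF
  have e : ∏ j : Fin n, (if (j : ℕ) < i then (-1 : F) else 1) = (-1) ^ i := by
    rw [Finset.prod_ite, Finset.prod_const, Finset.prod_const_one, mul_one, Fin.card_filter_val_lt, min_eq_right hi]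
  simp only [det_smul, det_diagonal, e, Fintype.card_fin, ← key hq (show n ≠ 0 by omega)]
  rcases Nat.even_or_odd i with h | h
  · exact iff_of_true ⟨1, one_ne_zero, by simp [h.neg_one_pow]⟩ (Or.inl h)
  · simp only [h.neg_one_pow, Nat.not_even_iff_odd.mpr h, false_or, mul_neg_one, neg_eq_iff_eq_neg]
    exact exists_congr fun c => and_iff_right_of_imp fun k e => by rw [e, zero_pow (by omega)] at k; simp at k

end Cfsg.Agent.S2575
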