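import Cfsg.Statements.S2576
import Cfsg.Agent.H5.Orth1

set_option autoImplicit false
open Cfsg

namespace Cfsg.Agent.S2576

open Matrix

/-- Which involutions of PGL_2m(q) coming from a scalar of the quadratic extension field lie in PSL_2m(q), q odd: let μ generate the Sylow 2-subgroup of the multiplicative group of the field with q elements (μ has order the 2-part of q − 1) and let t be the block-diagonal matrix with m diagonal blocks [[0, 1], [μ, 0]] (so t² is the scalar μ and t is an involution modulo scalars). Then some non-zero scalar multiple of t has determinant one if and only if q ≡ 3 (mod 4) or the 2-part of q − 1 is less than the 2-part of 2m. -/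
theorem result {F : Type*} [Field F] [Fintype F] {q : ℕ} (hF : Fintype.card F = q) (hq : Odd q) {m : ℕ} (hm : 1 ≤ m) (μ : F) (hμ : orderOf μ = 2 ^ padicValNat 2 (q - 1)) : (∃ c : F, c ≠ 0 ∧ (c • Matrix.blockDiagonal (fun _ : Fin m => !![(0 : F), 1; μ, 0])).det = 1) ↔ (q % 4 = 3 ∨ padicValNat 2 (q - 1) < padicValNat 2 (2 * m)) := by
  subst hF
  have h1 : Fintype.card F - 1 ≠ 0 := by have := Fintype.one_lt_card (α := F); omega
  have e : ∀ c : F, (c • Matrix.blockDiagonal (fun _ : Fin m => !![(0 : F), 1; μ, 0])).det = c ^ (2 * m) * (-μ) ^ m := fun c => by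
    simp [det_blockDiagonal, det_fin_two]
  simp only [e]
  obtain ⟨a, t, ht, h2⟩ := Nat.exists_eq_two_pow_mul_odd h1
  obtain ⟨k, l, hl, rfl⟩ := Nat.exists_eq_two_pow_mul_odd (show m ≠ 0 by omega)
  have v : ∀ k l, Odd l → padicValNat 2 (2 ^ k * l) = k := fun k l hl => by
    rw [padicValNat.mul (by positivity) hl.pos.ne', padicValNat.prime_pow, padicValNat.eq_zero_of_not_dvd hl.not_two_dvd_nat, add_zero]
  have v2 : padicValNat 2 (2 * (2 ^ k * l)) = k + 1 := by rw [← mul_assoc, ← pow_succ', v _ _ hl]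
  rw [h2, v _ _ ht] at hμ ⊢
  rw [v2]
  have hq' := Nat.odd_iff.mp hq
  have ht' := Nat.odd_iff.mp ht
  rcases a with _ | _ | a
  · omega
  · refine iff_of_true ⟨1, one_ne_zero, ?_⟩ (Or.inl (by omega))
    have : μ = -1 := (mul_self_eq_one_iff.mp (by rw [← sq]; exact orderOf_dvd_iff_pow_eq_one.mp hμ.dvd)).resolve_left (by rintro rfl; simp at hμ)
    simp [this]
  rw [or_iff_right (by rw [pow_succ, pow_succ, mul_right_comm, mul_right_comm _ _ t] at h2; omega)]
  constructor
  · rintro ⟨c, h0, hc⟩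
    by_contra hk
    obtain ⟨b, hb⟩ : ∃ b, a + 1 = k + b := ⟨a + 1 - k, by omega⟩
    have h3 := congrArg (· ^ (2 ^ b * t)) hc
    have e1 : 2 * (2 ^ k * l) * (2 ^ b * t) = (Fintype.card F - 1) * l := by rw [h2, hb]; ring
    have e2 : 2 ^ k * l * (2 ^ b * t) = 2 ^ (a + 1) * (l * t) := by rw [hb]; ring
    simp only [mul_pow, ← pow_mul, e1, e2, one_pow] at h3
    rw [pow_mul, FiniteField.pow_card_sub_one_eq_one _ h0, one_pow, one_mul, Even.neg_pow ⟨2 ^ a * (l * t), by ring⟩, ← orderOf_dvd_iff_pow_eq_one, hμ,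
      pow_succ, Nat.mul_dvd_mul_iff_left (by positivity)] at h3
    exact (hl.mul ht).not_two_dvd_nat h3
  · intro hk
    obtain ⟨b, rfl⟩ : ∃ b, k = a + 1 + 1 + b := ⟨k - (a + 1 + 1), by omega⟩
    refine ⟨1, one_ne_zero, ?_⟩
    rw [one_pow, one_mul, Even.neg_pow ⟨2 ^ (a + 1 + b) * l, by ring⟩, ← orderOf_dvd_iff_pow_eq_one, hμ]
    exact ⟨2 ^ b * l, by ring⟩

end Cfsg.Agent.S2576
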