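import Cfsg.Statements.S2578
import Cfsg.Agent.H5.Gl4
import Cfsg.Agent.H5.SLBasic

set_option autoImplicit false
open Cfsg

namespace Cfsg.Agent.S2578

open CfsgH5.Gl Module Polynomial Matrix

/-- Regular unipotent classes of SL_n(q): for n ≥ 2 over the field with q elements, the matrices u of determinant one with (u − 1)^n = 0 and rank(u − 1) = n − 1 form a single GL_n(q)-class which splits into exactly gcd(n, q − 1) conjugacy classes of SL_n(q). -/
theorem result {F : Type*} [Field F] [Fintype F] {q : ℕ} (hF : Fintype.card F = q) {n : ℕ} (hn : 2 ≤ n) : Nat.card {C : ConjClasses (Matrix.SpecialLinearGroup (Fin n) F) // ∃ u : Matrix.SpecialLinearGroup (Fin n) F, ConjClasses.mk u = C ∧ ((u : Matrix (Fin n) (Fin n) F) - 1) ^ n = 0 ∧ ((u : Matrix (Fin n) (Fin n) F) - 1).rank = n - 1} = Nat.gcd n (q - 1) := by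
  haveI : Nonempty (Fin n) := ⟨⟨0, by omega⟩⟩
  obtain ⟨A, h1, h2⟩ := exists_reg (F := F) (Fin n)
  rw [Fintype.card_fin] at h1 h2
  let x : SpecialLinearGroup (Fin n) F := ⟨A, by simpa using det_aeval_unip h1 X⟩
  have hA := reg_HT' h1 (by simp; omega)
  have := card_split SpecialLinearGroup.toGL (GeneralLinearGroup.det : GL (Fin n) F →* Fˣ) SpecialLinearGroup.toGL_injective CfsgH5.range_toGL x
  rw [MonoidHom.range_eq_top.mpr GeneralLinearGroup.det_surjective, Subgroup.relIndex_top_right] at this
  have h3 : (Subgroup.centralizer {SpecialLinearGroup.toGL x}).map (GeneralLinearGroup.det : GL (Fin n) F →* Fˣ) = (powMonoidHom n).range := by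
    obtain ⟨φ, -, a2, a3⟩ := cent_cyc (A := SpecialLinearGroup.toGL x) hA
    ext c
    constructor
    · rintro ⟨g, hg, rfl⟩
      obtain ⟨u, rfl⟩ : g ∈ φ.range := a2 ▸ hg
      obtain ⟨r, hr⟩ := Ideal.Quotient.mk_surjective u.1
      have e : (φ u).1.det = r.eval 1 ^ n := by rw [a3 u r hr.symm]; simpa using det_aeval_unip h1 r
      exact ⟨Units.mk0 (r.eval 1) (fun k => (φ u).det_ne_zero (by rw [e, k, zero_pow (by omega)])), Units.ext e.symm⟩
    · rintro ⟨c, rfl⟩
      exact ⟨GeneralLinearGroup.scalar _ c, Subgroup.mem_centralizer_singleton_iff.mpr (Units.ext (scalar_commute _ (fun _ => Commute.all _ _) _).eq), Units.ext (by simp)⟩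
  rw [h3, IsCyclic.index_powMonoidHom_range, Nat.card_units, Nat.card_eq_fintype_card (α := F), hF, Nat.gcd_comm] at this
  rw [← this]
  refine Nat.card_congr (Equiv.subtypeEquivRight fun C => exists_congr fun u => and_congr_right fun _ => ?_)
  rw [isConj_GL]
  constructor
  · exact fun h => hA.sim (reg_HT' h.1 (by simp; omega))
  · intro h
    have k := rank_sub_of_isConj (isConj_iff_sim.mpr h)
    have k1 := k n
    have k2 := k 1
    rw [pow_one, pow_one] at k2
    refine ⟨?_, k2.symm.trans h2⟩
    rw [show (SpecialLinearGroup.toGL x).1 = A from rfl, h1, rank_zero] at k1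
    exact toLin'.map_eq_zero_iff.mp (LinearMap.range_eq_bot.mp (Submodule.finrank_eq_zero.mp k1.symm))

end Cfsg.Agent.S2578
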