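import Cfsg.Statements.S2582
import Cfsg.Agent.H5.Un1

set_option autoImplicit false
open Cfsg

namespace Cfsg.Agent.S2582

open CfsgH5 CfsgH5.CForm CfsgH5.Gl CfsgH5.Gc CfsgH5.Un Module Polynomial Matrix

theorem gen {F V : Type*} [Field F] [AddCommGroup V] [Module F V] [FiniteDimensional F V] {f : CForm (FP.symp F) V} (hf : f.Nondeg) {t : ℕ} {d : Fin t → ℕ}
    (hd : ∀ k, 1 ≤ d k) (hsum : ∑ k, d k = finrank F V) :
    (∃ x : f.Isom, Sim (toLin' (Cfsg.jordanTypeMatrix d F)) x.1.toLinearMap) ↔ ∀ j : ℕ, Odd j → Even (Finset.univ.filter (fun k : Fin t => d k = j)).card := by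
  classical
  have h := HT_jordan (F := F) hd
  have hs : ∀ a ∈ Finset.univ.val.map fun k => ((X : F[X]) - C 1) ^ d k, ∃ e, 1 ≤ e ∧ a = (X - C 1) ^ e := fun a ha => by
    obtain ⟨k, -, rfl⟩ := Multiset.mem_map.mp ha; exact ⟨_, hd k, rfl⟩
  have pp := fun a ha => (hs a ha).elim fun e h => h.2 ▸ pp_pow 1 h.1
  refine ⟨fun ⟨x, hx⟩ j hj => count_jordan (F := F) d j ▸ symp_parity hf x.2 pp (h.of_sim hx) hj, fun k => ?_⟩
  obtain ⟨W, _, _, _, g, a1, x, a2, a3⟩ := real_of_count (P := FP.symp F) (fun _ => rfl) _ hs fun j hj => by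
    rcases Nat.even_or_odd j with ⟨l, e⟩ | e
    · exact Or.inl (show 2 * (l - 1) + 2 = j by omega ▸ reg_symp _)
    · exact Or.inr (count_jordan (F := F) d j ▸ k j e)
  obtain ⟨y, hy⟩ := exists_sim_of_isIso (symp_exists_isIso _ a1 hf ((h.sim a3).choose.finrank_eq.symm.trans (by simpa using hsum)) rfl) a2
  exact ⟨y, (h.sim a3).trans hy⟩

/-- Which unipotent Jordan types occur in the finite symplectic group: over a finite field, a unipotent matrix with Jordan block sizes d_1, …, d_t (sum 2m, all at least 1) is similar to an element of Sp_2m(F) if and only if every odd block size occurs an even number of times. -/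
theorem result {F : Type*} [Field F] [Fintype F] {m t : ℕ} (d : Fin t → ℕ) (hd : ∀ k, 1 ≤ d k) (hsum : ∑ k, d k = 2 * m) : (∃ e : ((k : Fin t) × Fin (d k)) ≃ (Fin m ⊕ Fin m), ∃ A : Matrix.symplecticGroup (Fin m) F, IsConj (Matrix.reindex e e (Cfsg.jordanTypeMatrix d F)) (A : Matrix (Fin m ⊕ Fin m) (Fin m ⊕ Fin m) F)) ↔ ∀ j : ℕ, Odd j → Even (Finset.univ.filter (fun k : Fin t => d k = j)).card := by
  rw [← gen (spForm_nondeg (F := F) m) hd (by rw [finrank_sum_fun, hsum])]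
  constructor
  · rintro ⟨e, A, h⟩
    exact ⟨spEquiv m A, (sim_reindex e _).trans (isConj_iff_sim.mp h)⟩
  · rintro ⟨x, hx⟩
    obtain ⟨A, rfl⟩ := (spEquiv m).surjective x
    exact ⟨Fintype.equivOfCardEq (by simp [hsum, two_mul]), A, isConj_iff_sim.mpr ((sim_reindex _ _).symm.trans hx)⟩

end Cfsg.Agent.S2582
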