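import Cfsg.Statements.S2583
import Cfsg.Agent.H5.Un1

set_option autoImplicit false
open Cfsg

namespace Cfsg.Agent.S2583

open CfsgH5 CfsgH5.CForm CfsgH5.Gl CfsgH5.Gc CfsgH5.Un Module Polynomial Matrix

theorem nondeg {F V : Type*} [Field F] [AddCommGroup V] [Module F V] {Q : QuadraticForm F V} (h : (ofQuad Q).Nondeg) : (QuadraticMap.polarBilin Q).Nondegenerate :=
  ⟨fun v hv => h.left hv, fun v hv => h v hv⟩

theorem transfer {F W : Type*} [Field F] [AddCommGroup W] [Module F W] [FiniteDimensional F W] {g : CForm (FP.orth F) W} (hg : g.Nondeg) {x : W ≃ₗ[F] W}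
    (hx : x ∈ g.Isom) {n : ℕ} (hn : finrank F W = n) : ∃ Q : QuadraticForm F (Fin n → F), (QuadraticMap.polarBilin Q).Nondegenerate ∧
      ∃ A : Cfsg.isometryGroup F ⇑Q, Sim x.toLinearMap (toLin' A.1.1) := by
  let e : W ≃ₗ[F] (Fin n → F) := LinearEquiv.ofFinrankEq _ _ (by simpa using hn)
  have h : g.IsIso (ofQuad (g.comap e.symm.toLinearMap).toQuad) e := ⟨fun u v => by rw [orth_B, orth_B, ← map_add]; simp, fun v => by simp⟩
  obtain ⟨y, hy⟩ := exists_sim_of_isIso ⟨e, h⟩ hx
  obtain ⟨A, rfl⟩ := (orthEquiv _).surjective y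
  exact ⟨_, nondeg (h.nondeg hg), A, hy⟩

/-- Which unipotent Jordan types occur in a finite orthogonal group in odd characteristic: over a finite field of odd order, a unipotent matrix with Jordan block sizes d_1, …, d_t (sum n, all at least 1) is similar to an isometry of some quadratic form on F^n with non-degenerate polar form if and only if every even block size occurs an even number of times. -/
theorem result {F : Type*} [Field F] [Fintype F] (h2 : (2 : F) ≠ 0) {n t : ℕ} (d : Fin t → ℕ) (hd : ∀ k, 1 ≤ d k) (hsum : ∑ k, d k = n) : (∃ Q : QuadraticForm F (Fin n → F), (QuadraticMap.polarBilin Q).Nondegenerate ∧ ∃ e : ((k : Fin t) × Fin (d k)) ≃ Fin n, ∃ A : ↥(Cfsg.isometryGroup F ⇑Q), IsConj (Matrix.reindex e e (Cfsg.jordanTypeMatrix d F)) ((A : Matrix.GeneralLinearGroup (Fin n) F) : Matrix (Fin n) (Fin n) F)) ↔ ∀ j : ℕ, Even j → 0 < j → Even (Finset.univ.filter (fun k : Fin t => d k = j)).card := by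
  classical
  have h := HT_jordan (F := F) hd
  have hs : ∀ a ∈ Finset.univ.val.map fun k => ((X : F[X]) - C 1) ^ d k, ∃ e, 1 ≤ e ∧ a = (X - C 1) ^ e := fun a ha => by
    obtain ⟨k, -, rfl⟩ := Multiset.mem_map.mp ha; exact ⟨_, hd k, rfl⟩
  have pp := fun a ha => (hs a ha).elim fun e h => h.2 ▸ pp_pow 1 h.1
  refine ⟨fun ⟨Q, hQ, e, A, hA⟩ j hj j0 => count_jordan (F := F) d j ▸ orth_parity h2 (ofQuad_nondeg hQ) (orthEquiv Q A).2 pp
    (h.of_sim ((sim_reindex e _).trans (isConj_iff_sim.mp hA))) hj j0, fun k => ?_⟩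
  obtain ⟨W, _, _, _, g, a1, x, a2, a3⟩ := real_of_count (P := FP.orth F) (fun _ => rfl) _ hs fun j hj => by
    rcases Nat.even_or_odd j with e | ⟨l, rfl⟩
    · exact Or.inr (count_jordan (F := F) d j ▸ k j e hj)
    · exact Or.inl (reg_orth h2 _)
  obtain ⟨Q, b1, A, b2⟩ := transfer a1 a2 ((h.sim a3).choose.finrank_eq.symm.trans (by simpa using hsum))
  exact ⟨Q, b1, Fintype.equivOfCardEq (by simp [hsum]), A, isConj_iff_sim.mpr ((sim_reindex _ _).symm.trans ((h.sim a3).trans b2))⟩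

end Cfsg.Agent.S2583
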