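import Cfsg.Statements.S2585
import Cfsg.Agent.H5.Gc4

set_option autoImplicit false
open Cfsg

namespace Cfsg.Agent.S2585

open CfsgH5 CfsgH5.CForm CfsgH5.Gl CfsgH5.Gc Module Polynomial Matrix

theorem aux {F V : Type*} [Field F] [Finite F] [CharP F 2] [AddCommGroup V] [Module F V] [FiniteDimensional F V] {f : CForm (FP.symp F) V} (hf : f.Nondeg)
    (Q : QuadraticForm F V) (hQ : ∀ u v, QuadraticMap.polar Q u v = f.B u v) {x : V ≃ₗ[F] V} (hx : x ∈ f.Isom) :
    ∃ Q' : QuadraticForm F V, (∀ u v, QuadraticMap.polar Q' u v = f.B u v) ∧ ∀ v, Q' (x v) = Q' v := by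
  have two : (2 : F) = 0 := CharTwo.two_eq_zero
  have ad : ∀ u v, Q (u + v) = Q u + Q v + f.B u v := fun u v => by rw [← hQ, QuadraticMap.polar]; ring
  let s := (frobeniusEquiv F 2).symm
  have s1 : ∀ a, s a ^ 2 = a := fun a => (frobeniusEquiv F 2).apply_symm_apply a
  have s2 : ∀ a, s (a * a) = a := fun a => by rw [← sq]; exact (frobeniusEquiv F 2).symm_apply_apply a
  obtain ⟨u, hu⟩ := hf.riesz
    { toFun := fun v => s (Q (x v) + Q v)
      map_add' := fun u v => by rw [← map_add s, map_add x, ad, ad, f.Isom_B hx]; congr 1; linear_combination f.B u v * two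
      map_smul' := fun c v => by rw [map_smul, Q.map_smul, Q.map_smul, ← smul_add, smul_eq_mul, map_mul, s2]; rfl }
  have hu' : ∀ v, f.B v u ^ 2 = Q (x v) + Q v := fun v => by rw [hu]; exact s1 _
  have : u ∈ LinearMap.range (x.toLinearMap - (1 : F) • 1) := by
    rw [← hf.perp_perp (LinearMap.range _), perp_range hf hx (by simp), mem_perp']
    intro v hv
    have : x v = v := by simpa [sub_eq_zero] using hv
    exact pow_eq_zero_iff two_ne_zero |>.mp (by rw [hu', this, CharTwo.add_self_eq_zero])
  obtain ⟨w, rfl⟩ := this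
  refine ⟨Q + QuadraticMap.linMulLin (f.left (x w)) (f.left (x w)), fun u v => ?_, fun v => ?_⟩
  · rw [← hQ]; simp [QuadraticMap.polar, f.B_add_left]; linear_combination f.B u (x w) * f.B v (x w) * two
  · have := hu' v
    simp [f.Isom_B hx] at this ⊢
    linear_combination -this + (f.B v w * f.B v w - f.B v w * f.B v (x w) - Q v) * two

/-- Over a finite field of characteristic two every element of the symplectic group is orthogonal for a suitable quadratic form: for each A in Sp_2m(F) there is a quadratic form Q on F^(2m) whose polar form is the alternating form defining Sp_2m(F) (so Q is non-degenerate) and which A preserves. Equivalently, for m ≥ 1, Sp_2m(F) is the union of the conjugates of its two orthogonal subgroups O⁺_2m(F) and O⁻_2m(F). -/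
theorem result {F : Type*} [Field F] [Fintype F] [CharP F 2] {m : ℕ} (A : Matrix.symplecticGroup (Fin m) F) : ∃ Q : QuadraticForm F (Fin m ⊕ Fin m → F), (∀ u v : Fin m ⊕ Fin m → F, QuadraticMap.polar ⇑Q u v = Cfsg.sympForm m F u v) ∧ ∀ v : Fin m ⊕ Fin m → F, Q ((A : Matrix (Fin m ⊕ Fin m) (Fin m ⊕ Fin m) F).mulVec v) = Q v := by
  exact aux (spForm_nondeg m) (plusQ F m) (fun u v => by
    rw [plusQ_coe, polar_plus, spForm_B, sympForm_apply]; simp [CharTwo.sub_eq_add, add_comm]) (spEquiv m A).2

end Cfsg.Agent.S2585
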