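import Cfsg.Statements.S2584
import Cfsg.Agent.H5.Un1
import Cfsg.Agent.S2582
import Cfsg.Agent.S2583
import Cfsg.Agent.S2585

set_option autoImplicit false
open Cfsg

namespace Cfsg.Agent.S2584

open CfsgH5 CfsgH5.CForm CfsgH5.Gl CfsgH5.Gc CfsgH5.Un Module Polynomial Matrix

/-- Which unipotent Jordan types occur in a finite orthogonal group in characteristic two: over a finite field of characteristic 2 and in even dimension 2m, a unipotent matrix with Jordan block sizes d_1, …, d_t (sum 2m, all at least 1) is similar to an isometry of some quadratic form on F^(2m) with non-degenerate polar form if and only if every odd block size occurs an even number of times (the same condition as for the symplectic group, which contains these orthogonal groups). -/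
theorem result {F : Type*} [Field F] [Fintype F] [CharP F 2] {m t : ℕ} (d : Fin t → ℕ) (hd : ∀ k, 1 ≤ d k) (hsum : ∑ k, d k = 2 * m) : (∃ Q : QuadraticForm F (Fin (2 * m) → F), (QuadraticMap.polarBilin Q).Nondegenerate ∧ ∃ e : ((k : Fin t) × Fin (d k)) ≃ Fin (2 * m), ∃ A : ↥(Cfsg.isometryGroup F ⇑Q), IsConj (Matrix.reindex e e (Cfsg.jordanTypeMatrix d F)) ((A : Matrix.GeneralLinearGroup (Fin (2 * m)) F) : Matrix (Fin (2 * m)) (Fin (2 * m)) F)) ↔ ∀ j : ℕ, Odd j → Even (Finset.univ.filter (fun k : Fin t => d k = j)).card := by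
  constructor
  · rintro ⟨Q, hQ, e, A, hA⟩
    have ha : (QuadraticMap.polarBilin Q).IsAlt := fun v => by simp [QuadraticMap.polar_self, two_smul, CharTwo.add_self_eq_zero]
    exact (S2582.gen (ofAlt_nondeg ha hQ) hd (by simpa using hsum)).mp ⟨⟨(orthEquiv Q A).1, mem_Isom_symp.mpr (orthEquiv Q A).2.1⟩,
      (sim_reindex e _).trans (isConj_iff_sim.mp hA)⟩
  · intro k
    obtain ⟨x, hx⟩ := (S2582.gen (spForm_nondeg (F := F) m) hd (by rw [finrank_sum_fun, hsum])).mpr k
    obtain ⟨Q, h1, h2⟩ := S2585.aux (spForm_nondeg m) (plusQ F m) (fun u v => by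
      rw [plusQ_coe, polar_plus, spForm_B, sympForm_apply]; simp [CharTwo.sub_eq_add, add_comm]) x.2
    obtain ⟨Q, b1, A, b2⟩ := S2583.transfer (g := ofQuad Q) (fun v hv => spForm_nondeg m v fun u => (h1 u v).symm.trans (hv u)) (mem_Isom_orth.mpr h2)
      (finrank_sum_fun m)
    exact ⟨Q, b1, Fintype.equivOfCardEq (by simp [hsum]), A, isConj_iff_sim.mpr ((sim_reindex _ _).symm.trans (hx.trans b2))⟩

end Cfsg.Agent.S2584
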