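import Cfsg.Statements.S2586
import Cfsg.Agent.H5.Gl4

set_option autoImplicit false
open Cfsg

namespace Cfsg.Agent.S2586

open CfsgH5.Gl Module Polynomial Matrix

/-- Over a finite field, every element of the symplectic group Sp_2m(F) is conjugate by an invertible matrix to its inverse. -/
theorem result {F : Type*} [Field F] [Finite F] {m : ℕ} (A : Matrix.symplecticGroup (Fin m) F) : IsConj (A : Matrix (Fin m ⊕ Fin m) (Fin m ⊕ Fin m) F) ((A⁻¹ : Matrix.symplecticGroup (Fin m) F) : Matrix (Fin m ⊕ Fin m) (Fin m ⊕ Fin m) F) := by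
  refine (isConj_transpose _).trans ⟨⟨-J (Fin m) F, J (Fin m) F, by simp [J_squared], by simp [J_squared]⟩, ?_⟩
  show _ * _ = _ * _
  rw [SymplecticGroup.coe_inv]
  simp [mul_assoc, J_squared]

end Cfsg.Agent.S2586
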