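import Cfsg.Statements.S2589
import Cfsg.Agent.H5.Gc2

set_option autoImplicit false
open Cfsg

namespace Cfsg.Agent.S2589

open CfsgH5 CfsgH5.CForm CfsgH5.Gl CfsgH5.Gc Module Polynomial Matrix

/-- Two semisimple elements of the finite symplectic group Sp_2m(F) (elements of order prime to the characteristic) are conjugate in Sp_2m(F) if and only if they are conjugate in GL_2m(F). -/
theorem result {F : Type*} [Field F] [Fintype F] {p : ℕ} [Fact p.Prime] [CharP F p] {m : ℕ} (A B : Matrix.symplecticGroup (Fin m) F) (hA : (orderOf A).Coprime p) : IsConj A B ↔ IsConj (A : Matrix (Fin m ⊕ Fin m) (Fin m ⊕ Fin m) F) (B : Matrix (Fin m ⊕ Fin m) (Fin m ⊕ Fin m) F) := by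
  rw [isConj_iff_sim, ← isConj_equiv (spEquiv m)]
  exact symp_isConj (spForm_nondeg m) (N := orderOf A) (by rw [← map_pow, pow_orderOf_eq_one, map_one])
    (fun k => (Nat.Prime.coprime_iff_not_dvd Fact.out).mp hA.symm ((CharP.cast_eq_zero_iff F p _).mp k))

end Cfsg.Agent.S2589
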