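import Cfsg.Statements.S2590
import Cfsg.Agent.H5.Gc2

set_option autoImplicit false
open Cfsg

namespace Cfsg.Agent.S2590

open CfsgH5 CfsgH5.CForm CfsgH5.Gl CfsgH5.Gc Module Polynomial Matrix

/-- Two semisimple elements of odd order of a finite orthogonal group (isometry group of a quadratic form on F^n with non-degenerate polar form, F finite of characteristic p; the elements have odd order prime to p) are conjugate in the orthogonal group if and only if they are conjugate in GL_n(F). -/
theorem result {F : Type*} [Field F] [Fintype F] {p : ℕ} [Fact p.Prime] [CharP F p] {n : ℕ} (Q : QuadraticForm F (Fin n → F)) (hQ : (QuadraticMap.polarBilin Q).Nondegenerate) (A B : ↥(Cfsg.isometryGroup F ⇑Q)) (hodd : Odd (orderOf A)) (hA : (orderOf A).Coprime p) : IsConj A B ↔ IsConj ((A : Matrix.GeneralLinearGroup (Fin n) F) : Matrix (Fin n) (Fin n) F) ((B : Matrix.GeneralLinearGroup (Fin n) F) : Matrix (Fin n) (Fin n) F) := by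
  rw [isConj_iff_sim, ← isConj_equiv (orthEquiv Q)]
  exact orth_isConj (ofQuad_nondeg hQ) (N := orderOf A) (by rw [← map_pow, pow_orderOf_eq_one, map_one])
    (fun k => (Nat.Prime.coprime_iff_not_dvd Fact.out).mp hA.symm ((CharP.cast_eq_zero_iff F p _).mp k)) hodd

end Cfsg.Agent.S2590
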