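import Cfsg.Statements.S2591
import Cfsg.Agent.H5.Ru1

set_option autoImplicit false
open Cfsg

namespace Cfsg.Agent.S2591

open CfsgH5 CfsgH5.Ru CfsgH5.CForm CfsgH5.Gc Module

/-- Over a finite field of odd order and for m ≥ 1, the regular unipotent elements of Sp_2m(F) (u − 1 nilpotent of rank 2m − 1, a single Jordan block) form exactly two conjugacy classes of Sp_2m(F) (one class under the similarity group, which splits in two). -/
theorem result {F : Type*} [Field F] [Fintype F] {q : ℕ} (hF : Fintype.card F = q) (hq : Odd q) {m : ℕ} (hm : 1 ≤ m) : Nat.card {C : ConjClasses ↥(Matrix.symplecticGroup (Fin m) F) // ∃ u : Matrix.symplecticGroup (Fin m) F, ConjClasses.mk u = C ∧ ((u : Matrix (Fin m ⊕ Fin m) (Fin m ⊕ Fin m) F) - 1) ^ (2 * m) = 0 ∧ ((u : Matrix (Fin m ⊕ Fin m) (Fin m ⊕ Fin m) F) - 1).rank = 2 * m - 1} = 2 := by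
  subst hF
  have h2 := two_ne_of_odd hq
  obtain ⟨x, y, hx, hy, h⟩ := exists_two (spForm_nondeg m) h2 (finrank_sum_fun m) hm
  obtain ⟨x, rfl⟩ := (spEquiv m).surjective x
  obtain ⟨y, rfl⟩ := (spEquiv m).surjective y
  have k : ∀ u v : Matrix.symplecticGroup (Fin m) F, RU (spEquiv m u).1 → RU (spEquiv m v).1 →
      (ConjClasses.mk u = ConjClasses.mk v ↔ (Sq (spForm F m) (spEquiv m u).1 ↔ Sq (spForm F m) (spEquiv m v).1)) :=
    fun u v hu hv => by
      rw [ConjClasses.mk_eq_mk_iff_isConj, ← isConj_equiv (spEquiv m),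
        conj_iff (spForm_nondeg m) h2 hu hv (by rw [finrank_sum_fun]; omega)]
  refine Nat.card_eq_two_iff.2 ⟨⟨_, x, rfl, (ru_iff hm x).1 hx⟩, ⟨_, y, rfl, (ru_iff hm y).1 hy⟩,
    fun e => h ((k x y hx hy).1 (congrArg Subtype.val e)), Set.eq_univ_of_forall ?_⟩
  rintro ⟨_, u, rfl, hu⟩
  have hu' := (ru_iff hm u).2 hu
  simp only [Set.mem_insert_iff, Set.mem_singleton_iff, Subtype.mk.injEq, k u x hu' hx, k u y hu' hy]
  tauto

end Cfsg.Agent.S2591
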