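import Cfsg.Statements.S2593
import Cfsg.Agent.H5.In2

set_option autoImplicit false
open Cfsg

namespace Cfsg.Agent.S2593

open CfsgH5 CfsgH5.CForm CfsgH5.In Module

/-- Number of conjugacy classes of involutions in the symplectic group Sp_2m(F) over a finite field of characteristic two (m ≥ 1): for each s with 1 ≤ s ≤ m there is one class with rank(t − 1) = s if s is odd and two if s is even (according as v ↦ f(v, tv), f the symplectic form, vanishes identically or not), so m + ⌊m/2⌋ classes in all. -/
theorem result {F : Type*} [Field F] [Fintype F] [CharP F 2] {m : ℕ} (hm : 1 ≤ m) : Nat.card {C : ConjClasses ↥(Matrix.symplecticGroup (Fin m) F) // ∃ g : Matrix.symplecticGroup (Fin m) F, ConjClasses.mk g = C ∧ orderOf g = 2} = m + m / 2 := by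
  have hf := spForm_nondeg (F := F) m
  refine count_Isom hf (fun _ => rfl) CharTwo.two_eq_zero (spEquiv m) (finrank_sum_fun m) (fun k => ⟨fun ⟨K, k1, k2⟩ => ?_, fun h => ?_⟩) fun k hk => ?_
  · have := k1.two_mul_finrank_le hf
    rw [finrank_sum_fun] at this; omega
  · exact symp_exists_TS hf (by rw [finrank_sum_fun]; omega)
  · obtain ⟨K, k1, k2⟩ := symp_exists_TS hf (k := k + 1) (by rw [finrank_sum_fun]; omega)
    obtain ⟨K0, w, h1, h2, h3, h4, -⟩ := exists_sup_span_of_finrank_succ k2
    exact ⟨K0, w, k1.mono h1, h4, h3, fun a ha => k1.2 _ h2 _ (h1 ha), rfl⟩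

end Cfsg.Agent.S2593
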