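import Cfsg.Statements.S2594
import Cfsg.Agent.S2680

set_option autoImplicit false
open Cfsg

namespace Cfsg.Agent.S2594

open CfsgH5 CfsgH5.CForm CfsgH5.In Module

/-- Over a finite field with q elements, q even, an element t of Sp_2m(F) with rank(t − 1) = 1 (a symplectic transvection) has centraliser in Sp_2m(F) of order q^(2m−1) · |Sp_(2m−2)(q)| = q^(2m−1) · q^((m−1)²) · Π_(i=1)^(m−1) (q^(2i) − 1). -/
theorem result {F : Type*} [Field F] [Fintype F] [CharP F 2] {q : ℕ} (hF : Fintype.card F = q) {m : ℕ} (hm : 1 ≤ m) (t : Matrix.symplecticGroup (Fin m) F) (ht : ((t : Matrix (Fin m ⊕ Fin m) (Fin m ⊕ Fin m) F) - 1).rank = 1) : Nat.card ↥(Subgroup.centralizer ({t} : Set ↥(Matrix.symplecticGroup (Fin m) F))) = q ^ (2 * m - 1) * (q ^ ((m - 1) ^ 2) * ∏ i : Fin (m - 1), (q ^ (2 * ((i : ℕ) + 1)) - 1)) := by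
  have h2 : t ^ 2 = 1 := by
    rw [rank_eq (spEquiv_apply m t)] at ht
    have h := perp_W (spForm_nondeg m) (spEquiv m t).2
    refine (spEquiv m).injective (Subtype.ext (LinearEquiv.ext fun v => ?_))
    obtain ⟨w, -, hw⟩ := finrank_eq_one_iff'.1 ht
    have : NN (spEquiv m t).1 v ∈ LinearMap.ker (NN (spEquiv m t).1) := h.le fun u hu => by
      obtain ⟨a, ha⟩ := hw ⟨_, v, rfl⟩
      obtain ⟨b, hb⟩ := hw ⟨u, hu⟩
      rw [show u = b • w.1 from (congrArg Subtype.val hb).symm, show NN (spEquiv m t).1 v = a • w.1 from (congrArg Subtype.val ha).symm]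
      simp [B_smul_left, symp_B_self]
    rw [map_pow, map_one, sq]
    simp only [LinearMap.mem_ker, LinearMap.sub_apply, LinearEquiv.coe_coe, End.one_apply, map_sub] at this
    change (spEquiv m t).1 ((spEquiv m t).1 v) = v
    ext i
    have := congrFun this i
    simp only [Pi.sub_apply, Pi.zero_apply] at this
    linear_combination this + ((spEquiv m t).1 v i - v i) * (CharTwo.two_eq_zero (R := F))
  obtain ⟨-, n, n1, n2⟩ := S2680.aux hF t h2 ht
  rw [n1, (n2 0).1 rfl, spO_eq, spO_eq]; simp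

end Cfsg.Agent.S2594
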