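import Cfsg.Statements.S2599
import Cfsg.Agent.H5.Fm2

set_option autoImplicit false
open Cfsg

namespace Cfsg.Agent.S2599

open CfsgH5 CfsgH5.CForm CfsgH5.Fm CfsgH5.Au

/-- An irreducible invariant subspace of a semisimple isometry is non-degenerate or totally singular: let Q be a quadratic form on F^n (F finite of characteristic p) with non-degenerate polar form f, x an isometry of Q of order prime to p, and U a non-zero x-invariant subspace containing no x-invariant subspace other than 0 and U. Then U meets its f-orthogonal trivially, or Q vanishes on U, or p = 2, U is a line spanned by a non-singular vector and x fixes U pointwise. -/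
theorem result {F : Type*} [Field F] [Fintype F] {p : ℕ} [Fact p.Prime] [CharP F p] {n : ℕ} (Q : QuadraticForm F (Fin n → F)) (hQ : (QuadraticMap.polarBilin Q).Nondegenerate) (x : ↥(Cfsg.isometryGroup F ⇑Q)) (hx : (orderOf x).Coprime p) (U : Submodule F (Fin n → F)) (hU0 : U ≠ ⊥) (hUx : ∀ u ∈ U, ((x : Matrix.GeneralLinearGroup (Fin n) F) : Matrix (Fin n) (Fin n) F).mulVec u ∈ U) (hirr : ∀ W : Submodule F (Fin n → F), W ≤ U → (∀ w ∈ W, ((x : Matrix.GeneralLinearGroup (Fin n) F) : Matrix (Fin n) (Fin n) F).mulVec w ∈ W) → W = ⊥ ∨ W = U) : U ⊓ LinearMap.BilinForm.orthogonal (QuadraticMap.polarBilin Q) U = ⊥ ∨ (∀ u ∈ U, Q u = 0) ∨ (p = 2 ∧ Module.finrank F U = 1 ∧ (∃ u ∈ U, Q u ≠ 0) ∧ ∀ u ∈ U, ((x : Matrix.GeneralLinearGroup (Fin n) F) : Matrix (Fin n) (Fin n) F).mulVec u = u) := by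
  rw [orthogonal_eq]
  let g := orthEquiv Q x
  have hg : ∀ v, g.1 v = ((x : GL (Fin n) F) : Matrix (Fin n) (Fin n) F).mulVec v := orthEquiv_apply Q x
  simp only [← hg] at hUx hirr ⊢
  rcases hirr (U ⊓ (ofQuad Q).perp U) inf_le_left (fun w hw => ⟨hUx w hw.1,
    (stabS_perp g.2 (mem_stabS_of_le hUx) w).1 hw.2⟩) with h | h
  · exact .inl h
  have hB : ∀ u ∈ U, ∀ v ∈ U, (ofQuad Q).B u v = 0 := fun u hu v hv => (h.ge hu).2 v hv
  refine .inr ?_
  by_cases h2 : (2 : F) = 0
  swap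
  · refine .inl fun u hu => ?_
    have := hB u hu u hu
    rw [orth_B_self] at this
    exact (mul_eq_zero.1 this).resolve_left h2
  let W : Submodule F (Fin n → F) :=
    { carrier := {u | u ∈ U ∧ Q u = 0}
      add_mem' := fun {a b} ha hb => ⟨U.add_mem ha.1 hb.1, ((ofQuad Q).Q_add_of_perp (hB a ha.1 b hb.1)).trans
        (by simp [ha.2, hb.2])⟩
      zero_mem' := ⟨U.zero_mem, by simp⟩
      smul_mem' := fun a v hv => ⟨U.smul_mem a hv.1, by simp [QuadraticMap.map_smul, hv.2]⟩ }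
  rcases hirr W (fun w hw => hw.1) (fun w hw => ⟨hUx w hw.1, ((ofQuad Q).Isom_Q g.2 w).trans hw.2⟩) with k | k
  swap
  · exact .inl fun u hu => (k.ge hu).2
  have hW : ∀ u ∈ U, ∀ v ∈ U, Q u = Q v → u = v := fun u hu v hv e => sub_eq_zero.1 (k.le ⟨U.sub_mem hu hv, by
    have := (ofQuad Q).Q_sub u v
    simp only [ofQuad_Q, hB u hu v hv, e, map_zero, sub_zero] at this
    rw [this, ← two_mul, h2, zero_mul]⟩)
  obtain ⟨u, hu, hu0⟩ := (Submodule.ne_bot_iff _).1 hU0
  have hQu : Q u ≠ 0 := fun e => hu0 (hW u hu 0 U.zero_mem (by simpa using e))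
  refine .inr ⟨?_, ?_, ⟨u, hu, hQu⟩, fun v hv => hW _ (hUx v hv) v hv ((ofQuad Q).Isom_Q g.2 v)⟩
  · exact ((Nat.prime_dvd_prime_iff_eq Fact.out Nat.prime_two).1 ((CharP.cast_eq_zero_iff F p 2).1 (by simpa using h2)))
  · rw [show U = F ∙ u from le_antisymm (fun v hv => ?_) (by simpa using hu), finrank_span_singleton hu0]
    obtain ⟨l, hl⟩ := exists_sq_of_two_eq_zero h2 (Q v / Q u)
    exact Submodule.mem_span_singleton.2 ⟨l, hW _ (U.smul_mem l hu) v hv (by
      rw [QuadraticMap.map_smul, ← sq, hl, smul_eq_mul, div_mul_cancel₀ _ hQu])⟩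

end Cfsg.Agent.S2599
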