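import Cfsg.Statements.S2601
import Cfsg.Agent.H5.Au6

set_option autoImplicit false
open Cfsg

namespace Cfsg.Agent.S2601

/-- Structure of the outer automorphism group of PSL_n(q), n ≥ 3, q = p^f: it has a normal cyclic subgroup of order gcd(n, q − 1) (the diagonal automorphisms) whose quotient is the direct product of a cyclic group of order f (field automorphisms) and a group of order 2 (the inverse-transpose graph automorphism). -/
theorem result {F : Type*} [Field F] [Fintype F] {p f n : ℕ} [Fact p.Prime] (hf : 1 ≤ f) (hF : Fintype.card F = p ^ f) (hn : 3 ≤ n) : ∃ φ : Cfsg.Out (Matrix.ProjectiveSpecialLinearGroup (Fin n) F) →* Multiplicative (ZMod f × ZMod 2), Function.Surjective φ ∧ IsCyclic φ.ker ∧ Nat.card φ.ker = Nat.gcd n (p ^ f - 1) := by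
  obtain ⟨φ, h1, h2⟩ := CfsgH5.Au.exists_out_PSL (ι := Fin n) (F := F) (by simp; omega)
  obtain ⟨h3, h5⟩ := CfsgH5.Au.out_diag_PSL (ι := Fin n) (F := F) (by simp; omega)
  obtain ⟨e⟩ := CfsgH5.Au.ringAut_equiv hF
  have hc : IsCyclic ℤˣ := isCyclic_of_prime_card (p := 2) (by simp)
  let e2 : ℤˣ ≃* Multiplicative (ZMod 2) := by
    have := (zmodCyclicMulEquiv hc).symm
    rwa [show Nat.card ℤˣ = 2 by simp] at this
  let E : (F ≃+* F) × ℤˣ ≃* Multiplicative (ZMod f × ZMod 2) :=
    (e.prodCongr e2).trans (MulEquiv.prodMultiplicative _ _).symm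
  have hk : (E.toMonoidHom.comp φ).ker = φ.ker := by
    ext x; simp [MonoidHom.mem_ker]
  refine ⟨E.toMonoidHom.comp φ, fun y => ?_, ?_, ?_⟩
  · obtain ⟨x, hx⟩ := (h2 (E.symm y)).2 (Or.inr (by simpa using hn))
    exact ⟨x, by simp [hx]⟩
  · rw [hk, h1]; exact h3
  · rw [hk, h1, h5, Nat.card_eq_fintype_card, hF, Fintype.card_fin]

end Cfsg.Agent.S2601
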