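import Cfsg.Statements.S2602
import Cfsg.Agent.H5.Au6

set_option autoImplicit false
open Cfsg

namespace Cfsg.Agent.S2602

/-- Structure of the outer automorphism group of PSL_2(q), q = p^f ≥ 4: it has a normal cyclic subgroup of order gcd(2, q − 1) (diagonal automorphisms) with cyclic quotient of order f (field automorphisms); there is no graph automorphism in dimension 2. -/
theorem result {F : Type*} [Field F] [Fintype F] {p f : ℕ} [Fact p.Prime] (hf : 1 ≤ f) (hF : Fintype.card F = p ^ f) (h4 : 4 ≤ p ^ f) : ∃ φ : Cfsg.Out (Matrix.ProjectiveSpecialLinearGroup (Fin 2) F) →* Multiplicative (ZMod f), Function.Surjective φ ∧ IsCyclic φ.ker ∧ Nat.card φ.ker = Nat.gcd 2 (p ^ f - 1) := by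
  obtain ⟨φ, h1, h2⟩ := CfsgH5.Au.exists_out_PSL (ι := Fin 2) (F := F) (by simp)
  obtain ⟨h3, h5⟩ := CfsgH5.Au.out_diag_PSL (ι := Fin 2) (F := F) (by simp)
  obtain ⟨e⟩ := CfsgH5.Au.ringAut_equiv hF
  have hk : (e.toMonoidHom.comp ((MonoidHom.fst _ _).comp φ)).ker = φ.ker := by
    ext x
    have := (h2 _).1 ⟨x, rfl⟩
    simp only [Fintype.card_fin, show ¬ 3 ≤ 2 by omega, or_false] at this
    simp [MonoidHom.mem_ker, Prod.ext_iff, this]
  refine ⟨e.toMonoidHom.comp ((MonoidHom.fst _ _).comp φ), fun y => ?_, ?_, ?_⟩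
  · obtain ⟨x, hx⟩ := (h2 (e.symm y, 1)).2 (Or.inl rfl)
    exact ⟨x, by simp [hx]⟩
  · rw [hk, h1]; exact h3
  · rw [hk, h1, h5, Nat.card_eq_fintype_card, hF, Fintype.card_fin]

end Cfsg.Agent.S2602
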