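import Cfsg.Statements.S2609
import Cfsg.Agent.H5.Fm2

set_option autoImplicit false
open Cfsg

namespace Cfsg.Agent.S2609

open CfsgH5 CfsgH5.CForm CfsgH5.Fm CfsgH5.Au

theorem aux {F : Type*} [Field F] [Finite F] {n : ℕ} (Q : QuadraticForm F (Fin n → F))
    (hf : (ofQuad Q).Nondeg) (hs : (ofQuad Q).Split) (vs : List (Fin n → F)) (hvs : ∀ v ∈ vs, Q v ≠ 0) :
    ∃ s : (ofQuad Q).Isom, (∀ x, s.1 x = (vs.map (fun v => Cfsg.reflectionMatrix ⇑Q v)).prod.mulVec x) ∧
      dick hf hs s = (-1) ^ vs.length ∧ (vs.map (fun v => Q v)).prod ≠ 0 ∧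
      sp hf hs s = sqc (vs.map (fun v => Q v)).prod := by
  induction vs with
  | nil => exact ⟨1, by simp, by simp, by simp, by simp⟩
  | cons d vs ih =>
    obtain ⟨s, h1, h2, h3, h4⟩ := ih fun v hv => hvs v (by simp [hv])
    have hd : Q d ≠ 0 := hvs d (by simp)
    refine ⟨⟨_, rf_mem d⟩ * s, fun x => ?_, ?_, ?_, ?_⟩
    · rw [List.map_cons, List.prod_cons, ← Matrix.mulVec_mulVec, ← h1, reflectionMatrix_mulVec]; rfl
    · rw [map_mul, dick_rf hf hs hd, h2, List.length_cons, pow_succ']
    · rw [List.map_cons, List.prod_cons]; exact mul_ne_zero hd h3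
    · rw [map_mul, sp_rf hf hs hd, h4, List.map_cons, List.prod_cons, sqc_mul hd h3]; rfl

/-- Spinor norm criterion for Ω over a finite field of odd order: let Q be a quadratic form on F^n, n ≥ 2, with non-degenerate polar form, and let g be an isometry written as a product of reflections in non-singular vectors v_1, …, v_k. Then g lies in Ω (the commutator subgroup of the orthogonal group) if and only if k is even and Q(v_1)⋯Q(v_k) is a square; in particular, for g of determinant one, whether that product is a square does not depend on the chosen factorisation (it is the spinor norm of g). -/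
theorem result {F : Type*} [Field F] [Fintype F] (h2 : (2 : F) ≠ 0) {n : ℕ} (hn : 2 ≤ n) (Q : QuadraticForm F (Fin n → F)) (hQ : (QuadraticMap.polarBilin Q).Nondegenerate) (g : ↥(Cfsg.isometryGroup F ⇑Q)) (vs : List (Fin n → F)) (hvs : ∀ v ∈ vs, Q v ≠ 0) (hg : ((g : Matrix.GeneralLinearGroup (Fin n) F) : Matrix (Fin n) (Fin n) F) = (vs.map (fun v => Cfsg.reflectionMatrix ⇑Q v)).prod) : g ∈ Cfsg.Omega F ⇑Q ↔ (Even vs.length ∧ IsSquare (vs.map (fun v => Q v)).prod) := by
  have hf := ofQuad_nondeg hQ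
  obtain ⟨s, h1, h3, -, h4⟩ := aux Q hf (split_of_two_ne h2) vs hvs
  obtain rfl : orthEquiv Q g = s := Subtype.ext (LinearEquiv.ext fun x => by rw [h1, orthEquiv_apply, hg])
  rw [mem_Omega, mem_comm hf (split_of_two_ne h2), h3, h4, sqc_eq_one,
    neg_one_pow_eq_one_iff_even (by decide)]

end Cfsg.Agent.S2609
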