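import Cfsg.Statements.S2610
import Cfsg.Agent.H5.Fm2

set_option autoImplicit false
open Cfsg

namespace Cfsg.Agent.S2610

open CfsgH5 CfsgH5.CForm CfsgH5.Fm CfsgH5.Au

/-- For a quadratic form Q on F^n with non-degenerate polar form, F finite of odd order and n ≥ 2 even, the isometry −1 lies in Ω (the commutator subgroup of the orthogonal group) if and only if the discriminant of Q (the determinant of the Gram matrix of its polar form) is a square. -/
theorem result {F : Type*} [Field F] [Fintype F] (h2 : (2 : F) ≠ 0) {n : ℕ} (hn : 2 ≤ n) (he : Even n) (Q : QuadraticForm F (Fin n → F)) (hQ : (QuadraticMap.polarBilin Q).Nondegenerate) : (∃ g : ↥(Cfsg.isometryGroup F ⇑Q), g ∈ Cfsg.Omega F ⇑Q ∧ ((g : Matrix.GeneralLinearGroup (Fin n) F) : Matrix (Fin n) (Fin n) F) = -1) ↔ IsSquare (Matrix.of (fun i j : Fin n => QuadraticMap.polar ⇑Q (Pi.single i 1) (Pi.single j 1))).det := by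
  have hf := ofQuad_nondeg hQ
  obtain ⟨m, hm⟩ : ∃ m, n = 2 * (m + 1) := by
    obtain ⟨k, rfl⟩ := he; exact ⟨k - 1, by omega⟩
  have hm' : Module.finrank F (Fin n → F) = 2 * (m + 1) := by simpa using hm
  have := isSquare_disc_iff hf h2 (Pi.basisFun F (Fin n)) hm'
  simp only [disc, Pi.basisFun_apply, ofQuad_B] at this
  rw [exists_neg_mem_Omega_iff, neg_mem_commutator_iff hf h2 hm', this, ← sgn_eq_one]
  have h4 := sqc_neg_one_pow h2 (m + 1)
  have h5 : Odd (Fintype.card F ^ (m + 1)) := by
    have := card_odd_of_two_ne h2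
    rw [Nat.card_eq_fintype_card] at this
    exact (Nat.odd_iff.2 this).pow
  rw [Nat.odd_iff] at h5
  split_ifs with h <;> simp only [h, true_iff, false_iff] ; omega

end Cfsg.Agent.S2610
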