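import Cfsg.Statements.S2611
import Cfsg.Agent.H5.Fm2

set_option autoImplicit false
open Cfsg

namespace Cfsg.Agent.S2611

open CfsgH5 CfsgH5.CForm CfsgH5.Fm CfsgH5.Au Matrix

theorem aux {F : Type*} [Field F] [Fintype F] {m : ℕ} (hs : (ofQuad (plusQ F m)).Split)
    (A : Matrix (Fin m) (Fin m) F) (hA : A.det ≠ 0) : ∃ s : (ofQuad (plusQ F m)).Isom,
      (∀ v, s.1 v = fromBlocks A 0 0 A⁻¹ᵀ *ᵥ v) ∧ dick (plusQ_nondeg F m) hs s = 1 ∧
      sp (plusQ_nondeg F m) hs s = sqc A.det := by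
  have hf := plusQ_nondeg F m
  have hmul : ∀ A B : Matrix (Fin m) (Fin m) F, A.det ≠ 0 → B.det ≠ 0 →
      (∃ s : (ofQuad (plusQ F m)).Isom, (∀ v, s.1 v = fromBlocks A 0 0 A⁻¹ᵀ *ᵥ v) ∧ dick hf hs s = 1 ∧
      sp hf hs s = sqc A.det) → (∃ s : (ofQuad (plusQ F m)).Isom, (∀ v, s.1 v = fromBlocks B 0 0 B⁻¹ᵀ *ᵥ v) ∧
      dick hf hs s = 1 ∧ sp hf hs s = sqc B.det) → ∃ s : (ofQuad (plusQ F m)).Isom,
      (∀ v, s.1 v = fromBlocks (A * B) 0 0 (A * B)⁻¹ᵀ *ᵥ v) ∧ dick hf hs s = 1 ∧ sp hf hs s = sqc (A * B).det := by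
    rintro A B hA hB ⟨s, h1, h2, h3⟩ ⟨t, k1, k2, k3⟩
    refine ⟨s * t, fun v => ?_, by simp [h2, k2], by rw [_root_.map_mul, h3, k3, det_mul, sqc_mul hA hB]⟩
    change s.1 (t.1 v) = _
    rw [h1, k1, mulVec_mulVec, fromBlocks_multiply, Matrix.mul_inv_rev, transpose_mul]; simp
  refine diagonal_transvection_induction_of_det_ne_zero _ A hA (fun D hD => ?_) (fun t => ?_) hmul
  · rw [det_diagonal] at hD
    have hD' : ∀ i, D i ≠ 0 := fun i => Finset.prod_ne_zero_iff.1 hD i (by simp)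
    have : ∀ S : Finset (Fin m), ∃ s : (ofQuad (plusQ F m)).Isom, (∀ v k, s.1 v k =
        Sum.elim (fun i => if i ∈ S then D i else 1) (fun i => if i ∈ S then (D i)⁻¹ else 1) k * v k) ∧
        dick hf hs s = 1 ∧ sp hf hs s = sqc (∏ i ∈ S, D i) := by
      intro S
      induction S using Finset.induction_on with
      | empty => exact ⟨1, by rintro v (k | k) <;> simp, by simp, by simp⟩
      | insert i S hi ih =>
        obtain ⟨s, h1, h2, h3⟩ := ih
        obtain ⟨t, ht⟩ := exists_tor (plus_hyp m i) (hD' i)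
        refine ⟨s * ⟨t, ht.mem_Isom⟩, fun v k => ?_, by rw [_root_.map_mul, h2, dick_tor hf hs ht, mul_one], ?_⟩
        · change s.1 (t v) k = _
          rw [h1, tor_diag (by simp) (plus_B_inr m · _) (plus_B_inl m · _) ht]
          rcases k with k | k <;> by_cases hk : k = i <;> simp [hk, hi]
        · rw [_root_.map_mul, h3, sp_tor hf hs ht, Finset.prod_insert hi, mul_comm,
            sqc_mul (hD' i) (Finset.prod_ne_zero_iff.2 fun j _ => hD' j)]
    obtain ⟨s, h1, h2, h3⟩ := this Finset.univ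
    refine ⟨s, fun v => funext fun k => ?_, h2, by rw [h3, det_diagonal]⟩
    rw [h1, show (diagonal D)⁻¹ = diagonal fun i => (D i)⁻¹ from inv_eq_left_inv (by simp [hD']),
      diagonal_transpose, fromBlocks_diagonal, mulVec_diagonal]
    rcases k with k | k <;> simp
  · obtain ⟨i, j, hij, c⟩ := t
    obtain ⟨g, hg⟩ := orth_exists_eich (f := ofQuad (plusQ F m)) (x := Pi.single (.inl i) 1)
      (a := c • Pi.single (.inr j) 1) (plus_hyp m i).hx (by simp [plus_B_inl, hij])
    have := (mem_comm hf hs).1 (eich_mem_comm hf hs (g := ⟨g, hg.mem_Isom⟩) hg)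
    refine ⟨⟨g, hg.mem_Isom⟩, fun v => ?_, this.1, by rw [this.2, TransvectionStruct.det]; simp⟩
    have e : (transvection i j c)⁻¹ = transvection i j (-c) :=
      inv_eq_left_inv (by rw [transvection_mul_transvection_same _ _ hij]; simp)
    change g v = fromBlocks (transvection i j c) 0 0 (transvection i j c)⁻¹ᵀ *ᵥ v
    rw [e, hg.app, fromBlocks_mulVec]
    ext (k | k) <;> simp [plus_B_inl, plus_B_inr, plusQ_apply, transvection, add_mulVec, Pi.single_apply,
      single_mulVec, Function.update_apply] <;> split_ifs <;> simp [mul_comm, sub_eq_add_neg]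

/-- For the hyperbolic quadratic form Σ x_i y_i on F^(2m) (F finite, m ≥ 1, excluding m = 2 over the field of two elements) and an invertible m × m matrix A, the block-diagonal isometry diag(A, (A⁻¹)ᵀ), which stabilises the two maximal totally singular subspaces x = 0 and y = 0, lies in Ω⁺_2m(F) (the commutator subgroup of the orthogonal group) if and only if det A is a square in F. -/
theorem result {F : Type*} [Field F] [Fintype F] {m : ℕ} (hm : 1 ≤ m) (h : Fintype.card F ≠ 2 ∨ m ≠ 2) (A : GL (Fin m) F) : (∃ g : ↥(Cfsg.isometryGroup F (Cfsg.quadFormPlus m F)), g ∈ Cfsg.Omega F (Cfsg.quadFormPlus m F) ∧ ((g : Matrix.GeneralLinearGroup (Fin m ⊕ Fin m) F) : Matrix (Fin m ⊕ Fin m) (Fin m ⊕ Fin m) F) = Matrix.fromBlocks (A : Matrix (Fin m) (Fin m) F) 0 0 ((A : Matrix (Fin m) (Fin m) F)⁻¹).transpose) ↔ IsSquare (A : Matrix (Fin m) (Fin m) F).det := by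
  obtain ⟨s, h1, h2, h3⟩ := aux (split_plus h) (A : Matrix (Fin m) (Fin m) F) A.det_ne_zero
  refine (exists_Omega_mat (Q := plusQ F m) h1).trans ?_
  rw [mem_comm (plusQ_nondeg F m) (split_plus h), h2, h3, sqc_eq_one]; simp

end Cfsg.Agent.S2611
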