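import Cfsg.Statements.S2612
import Cfsg.Agent.H5.Fm2

set_option autoImplicit false
open Cfsg

namespace Cfsg.Agent.S2612

open CfsgH5 CfsgH5.CForm CfsgH5.Fm CfsgH5.Au

/-- For the hyperbolic quadratic form Σ x_i y_i on F^(2m) (F finite, m ≥ 1, excluding m = 2 over the field of two elements), Ω⁺_2m(F) (the commutator subgroup of the orthogonal group) contains an element interchanging the two complementary maximal totally singular subspaces {y = 0} and {x = 0} if and only if m is even (dimension divisible by 4). -/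
theorem result {F : Type*} [Field F] [Fintype F] {m : ℕ} (hm : 1 ≤ m) (h : Fintype.card F ≠ 2 ∨ m ≠ 2) : (∃ g : ↥(Cfsg.isometryGroup F (Cfsg.quadFormPlus m F)), g ∈ Cfsg.Omega F (Cfsg.quadFormPlus m F) ∧ (∀ v : Fin m ⊕ Fin m → F, (∀ i, v (Sum.inr i) = 0) → ∀ i, (((g : Matrix.GeneralLinearGroup (Fin m ⊕ Fin m) F) : Matrix (Fin m ⊕ Fin m) (Fin m ⊕ Fin m) F).mulVec v) (Sum.inl i) = 0) ∧ (∀ v : Fin m ⊕ Fin m → F, (∀ i, v (Sum.inl i) = 0) → ∀ i, (((g : Matrix.GeneralLinearGroup (Fin m ⊕ Fin m) F) : Matrix (Fin m ⊕ Fin m) (Fin m ⊕ Fin m) F).mulVec v) (Sum.inr i) = 0)) ↔ Even m := by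
  have hf := plusQ_nondeg F m
  have hs := split_plus h
  refine (exists_Omega (Q := plusQ F m) fun g => (∀ v : Fin m ⊕ Fin m → F, (∀ i, v (.inr i) = 0) →
    ∀ i, g v (.inl i) = 0) ∧ ∀ v : Fin m ⊕ Fin m → F, (∀ i, v (.inl i) = 0) → ∀ i, g v (.inr i) = 0).trans ?_
  have key : ∀ g : (ofQuad (plusQ F m)).Isom, (∀ v : Fin m ⊕ Fin m → F, (∀ i, v (.inr i) = 0) →
      ∀ i, g.1 v (.inl i) = 0) → (Even m ↔ dick hf hs g = 1) := fun g hg => by
    rw [← dick_iff_par hf hs (finrank_sum_fun m).symm (TS_U0 m) (finrank_U0 m),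
      show U0 F m ⊓ (U0 F m).map g.1.toLinearMap = ⊥ from ?_]
    · simp
    rw [eq_bot_iff]
    rintro _ ⟨h1, v, hv, rfl⟩
    ext (i | i)
    exacts [hg v (mem_U0.1 hv) i, mem_U0.1 h1 i]
  refine ⟨fun ⟨g, h1, h2, _⟩ => (key g h2).2 ((mem_comm hf hs).1 h1).1, fun he => ?_⟩
  let t : (ofQuad (plusQ F m)).Isom := ⟨LinearEquiv.funCongrLeft F F (Equiv.sumComm _ _),
    mem_Isom_orth.2 fun v => by simp [plusQ_apply, mul_comm]⟩
  obtain ⟨k, h1, h2⟩ := adjust hf hs (stabS F (U0 F m : Set _) ⊓ stabS F (U1 F m : Set _))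
    (adjust_tor hf hs (plus_hyp m ⟨0, hm⟩) fun g l hg => by
      have := tor_diag (by simp) (plus_B_inr m · _) (plus_B_inl m · _) hg
      exact ⟨mem_stabS_of_le fun w hw => mem_U0.2 fun i => by rw [this, mem_U0.1 hw, mul_zero],
        mem_stabS_of_le fun w hw => mem_U1.2 fun i => by rw [this, mem_U1.1 hw, mul_zero]⟩)
    ((key t fun v hv i => hv i).1 he)
  exact ⟨_, h2, fun v hv i => mem_U0.1 ((h1.1 v).1 (mem_U0.2 hv)) i,
    fun v hv i => mem_U1.1 ((h1.2 v).1 (mem_U1.2 hv)) i⟩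

end Cfsg.Agent.S2612
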