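import Cfsg.Statements.S2616
import Cfsg.Agent.H5.Fm2

set_option autoImplicit false
open Cfsg

namespace Cfsg.Agent.S2616

open CfsgH5 CfsgH5.CForm CfsgH5.Fm CfsgH5.Au

theorem aniso {F : Type*} [Field F] {ζ : F} (hζ : ∀ t : F, t ^ 2 + t + ζ ≠ 0) (x y : F)
    (h : x ^ 2 + 1 * x * y + ζ * y ^ 2 = 0) : x = 0 ∧ y = 0 := by
  by_cases hy : y = 0
  · subst hy; simpa using h
  · exact absurd (by field_simp; linear_combination h) (hζ (x / y))

/-- Standard bases of a non-degenerate quadratic space of even dimension 2m over a finite field: either there is a hyperbolic basis e_i, f_i (Q(e_i) = Q(f_i) = 0, B(e_i, f_j) = δ_ij, the e's pairwise orthogonal and the f's pairwise orthogonal, B the polar form), or there is an elliptic basis: hyperbolic pairs e_i, f_i for i < m − 1 together with x, y orthogonal to them with Q(x) = 1, B(x, y) = 1, Q(y) = ζ where t² + t + ζ has no root in the field. -/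
theorem result {F V : Type*} [Field F] [Finite F] [AddCommGroup V] [Module F V] [FiniteDimensional F V] {m : ℕ} (hm : 1 ≤ m) (hV : Module.finrank F V = 2 * m) (Q : QuadraticForm F V) (hQ : (QuadraticMap.polarBilin Q).Nondegenerate) : (∃ b : Module.Basis (Fin m ⊕ Fin m) F V, (∀ i, Q (b (Sum.inl i)) = 0 ∧ Q (b (Sum.inr i)) = 0) ∧ (∀ i j, QuadraticMap.polar ⇑Q (b (Sum.inl i)) (b (Sum.inr j)) = if i = j then 1 else 0) ∧ (∀ i j, QuadraticMap.polar ⇑Q (b (Sum.inl i)) (b (Sum.inl j)) = 0 ∧ QuadraticMap.polar ⇑Q (b (Sum.inr i)) (b (Sum.inr j)) = 0)) ∨ (∃ (b : Module.Basis ((Fin (m - 1) ⊕ Fin (m - 1)) ⊕ Fin 2) F V) (ζ : F), (∀ t : F, t ^ 2 + t + ζ ≠ 0) ∧ (∀ i, Q (b (Sum.inl (Sum.inl i))) = 0 ∧ Q (b (Sum.inl (Sum.inr i))) = 0) ∧ (∀ i j, QuadraticMap.polar ⇑Q (b (Sum.inl (Sum.inl i))) (b (Sum.inl (Sum.inr j))) = if i = j then 1 else 0) ∧ (∀ i j, QuadraticMap.polar ⇑Q (b (Sum.inl (Sum.inl i))) (b (Sum.inl (Sum.inl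 j))) = 0 ∧ QuadraticMap.polar ⇑Q (b (Sum.inl (Sum.inr i))) (b (Sum.inl (Sum.inr j))) = 0) ∧ (∀ i (k : Fin 2), QuadraticMap.polar ⇑Q (b (Sum.inl (Sum.inl i))) (b (Sum.inr k)) = 0 ∧ QuadraticMap.polar ⇑Q (b (Sum.inl (Sum.inr i))) (b (Sum.inr k)) = 0) ∧ Q (b (Sum.inr 0)) = 1 ∧ QuadraticMap.polar ⇑Q (b (Sum.inr 0)) (b (Sum.inr 1)) = 1 ∧ Q (b (Sum.inr 1)) = ζ) := by
  have hf := ofQuad_nondeg hQ
  by_cases hp : (ofQuad Q).IsPlus
  · obtain ⟨e, k1, k2⟩ := orth_exists_isIso_even m (plusQ_nondeg F m) hf (finrank_sum_fun m) hV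
      (iff_of_true (plusQ_isPlus m) hp)
    simp only [ofQuad_Q, ofQuad_B] at k1 k2
    refine .inl ⟨(Pi.basisFun F _).map e, fun i => ?_, fun i j => ?_, fun i j => ?_⟩ <;>
      simp [k1, k2, plusQ_apply, plusQ_coe, polar_plus, Pi.single_apply, eq_comm]
  · obtain ⟨ζ, hζ⟩ : ∃ ζ : F, ∀ t : F, t ^ 2 + t + ζ ≠ 0 := by
      by_contra hc
      push Not at hc
      have : Function.Surjective fun t : F => t ^ 2 + t := fun z =>
        (hc (-z)).imp fun t ht => by linear_combination ht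
      exact absurd (Finite.injective_iff_surjective.2 this (a₁ := 0) (a₂ := -1) (by simp)) (by simp)
    obtain ⟨e, k1, k2⟩ := orth_exists_isIso_even m (minusQ_nondeg (m - 1) (aniso hζ)) hf (by simp; omega) hV
      (iff_of_false (minusQ_not_isPlus _ (aniso hζ)) hp)
    simp only [ofQuad_Q, ofQuad_B] at k1 k2
    refine .inr ⟨(Pi.basisFun F _).map e, ζ, hζ, fun i => ?_, fun i j => ?_, fun i j => ?_, fun i j => ?_,
      ?_, ?_, ?_⟩ <;>
      simp [k1, k2, minusQ_coe, Cfsg.quadFormMinus, polar_minus, Pi.single_apply, eq_comm]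

end Cfsg.Agent.S2616
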