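import Cfsg.Statements.S2617
import Cfsg.Agent.H5.Fm2

set_option autoImplicit false
open Cfsg

namespace Cfsg.Agent.S2617

open CfsgH5 CfsgH5.CForm CfsgH5.Fm CfsgH5.Au

theorem aniso {F : Type*} [Field F] {ζ : F} (hζ : ∀ t : F, t ^ 2 + t + ζ ≠ 0) (x y : F)
    (h : x ^ 2 + 1 * x * y + ζ * y ^ 2 = 0) : x = 0 ∧ y = 0 := by
  by_cases hy : y = 0
  · subst hy; simpa using h
  · exact absurd (by field_simp; linear_combination h) (hζ (x / y))

/-- The two standard quadratic forms of even dimension 2m over a finite field are not isometric: there is no linear isomorphism carrying the elliptic form Σ_(i<m−1) x_i y_i + z₁² + z₁z₂ + ζ z₂² (t² + t + ζ without roots) to the hyperbolic form Σ_(i<m) x_i y_i (they have different Witt index). -/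
theorem result {F : Type*} [Field F] [Finite F] {m : ℕ} (hm : 1 ≤ m) (ζ : F) (hζ : ∀ t : F, t ^ 2 + t + ζ ≠ 0) (g : (Fin m ⊕ Fin m → F) ≃ₗ[F] ((Fin (m - 1) ⊕ Fin (m - 1)) ⊕ Fin 2 → F)) : ¬ (∀ v : Fin m ⊕ Fin m → F, Cfsg.quadFormMinus (m - 1) F 1 ζ (g v) = Cfsg.quadFormPlus m F v) := by
  intro h
  have k : (ofQuad (plusQ F m)).IsIso (ofQuad (minusQ (m - 1) 1 ζ)) g :=
    ⟨fun u v => by rw [orth_B, orth_B, ← map_add]; simp only [ofQuad_Q, minusQ_coe, plusQ_coe, h], h⟩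
  exact minusQ_not_isPlus (m - 1) (aniso hζ) (k.isPlus (plusQ_isPlus m))

end Cfsg.Agent.S2617
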