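import Cfsg.Statements.S2619
import Cfsg.Agent.H5.Fm2

set_option autoImplicit false
open Cfsg

namespace Cfsg.Agent.S2619

/-- Over a finite field of characteristic two, given an alternating bilinear form B on a finite-dimensional space, a basis (v_i) and scalars (λ_i), there is exactly one quadratic form whose polar form is B and whose value at each v_i is λ_i. -/
theorem result {F V ι : Type*} [Field F] [Finite F] [CharP F 2] [AddCommGroup V] [Module F V] [Fintype ι] (b : Module.Basis ι F V) (B : LinearMap.BilinForm F V) (hB : B.IsAlt) (c : ι → F) : ∃! Q : QuadraticForm F V, QuadraticMap.polarBilin Q = B ∧ ∀ i, Q (b i) = c i := by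
-----
  classical
  letI : LinearOrder ι := linearOrderOfSTO WellOrderingRel
  let B' : LinearMap.BilinForm F V := b.constr F fun i => b.constr F fun j =>
    if i < j then B (b i) (b j) else if i = j then c i else 0
  have hB' : ∀ i j, B' (b i) (b j) = if i < j then B (b i) (b j) else if i = j then c i else 0 := by
    intro i j; simp only [B', Module.Basis.constr_basis]
  have k : QuadraticMap.polarBilin B'.toQuadraticMap = B := by
    rw [LinearMap.BilinMap.polarBilin_toQuadraticMap]
    refine b.ext fun i => b.ext fun j => ?_
    simp only [LinearMap.add_apply, LinearMap.flip_apply, hB']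
    rcases lt_trichotomy i j with h | rfl | h
    · simp [h, h.not_gt, h.ne']
    · simp [hB.self_eq_zero, CharTwo.add_self_eq_zero]
    · simp [h, h.not_gt, h.ne', ← hB.neg_eq (b j), CharTwo.neg_eq]
  refine ⟨B'.toQuadraticMap, ⟨k, fun i => by simp [hB']⟩, ?_⟩
  · have key : ∀ Q Q' : QuadraticForm F V, QuadraticMap.polarBilin Q = QuadraticMap.polarBilin Q' →
        (∀ i, Q (b i) = Q' (b i)) → Q = Q' := fun Q Q' h1 h2 => by
      ext v
      have : v ∈ Submodule.span F (Set.range b) := by simp
      induction this using Submodule.span_induction with
      | mem x hx => obtain ⟨i, rfl⟩ := hx; exact h2 i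
      | zero => simp
      | add x y _ _ hx hy =>
        have := congrArg (fun C => C x y) h1
        simp only [QuadraticMap.polarBilin_apply_apply] at this
        rw [QuadraticMap.map_add Q, QuadraticMap.map_add Q', hx, hy, this]
      | smul a x _ hx => simp [QuadraticMap.map_smul, hx]
    rintro Q ⟨h1, h2⟩
    exact key _ _ (h1.trans k.symm) fun i => by simp [hB', h2]

end Cfsg.Agent.S2619
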