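import Cfsg.Statements.S2623
import Cfsg.Agent.H5.Fm2

set_option autoImplicit false
open Cfsg

namespace Cfsg.Agent.S2623

open CfsgH5 CfsgH5.CForm CfsgH5.Fm CfsgH5.Au

/-- Over a finite field of odd order, two quadratic forms on F^n with non-degenerate polar forms are isometric (related by an invertible linear change of variables) if and only if their discriminants (determinants of the Gram matrices of their polar forms) lie in the same square class. -/
theorem result {F : Type*} [Field F] [Fintype F] (h2 : (2 : F) ≠ 0) {n : ℕ} (Q₁ Q₂ : QuadraticForm F (Fin n → F)) (h₁ : (QuadraticMap.polarBilin Q₁).Nondegenerate) (h₂ : (QuadraticMap.polarBilin Q₂).Nondegenerate) : (∃ g : (Fin n → F) ≃ₗ[F] (Fin n → F), ∀ v, Q₂ (g v) = Q₁ v) ↔ IsSquare ((Matrix.of (fun i j : Fin n => QuadraticMap.polar ⇑Q₁ (Pi.single i 1) (Pi.single j 1))).det * (Matrix.of (fun i j : Fin n => QuadraticMap.polar ⇑Q₂ (Pi.single i 1) (Pi.single j 1))).det) := by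
  have k₁ := ofQuad_nondeg h₁
  have k₂ := ofQuad_nondeg h₂
  let b := Pi.basisFun F (Fin n)
  have e₁ : (Matrix.of (fun i j : Fin n => QuadraticMap.polar ⇑Q₁ (Pi.single i 1) (Pi.single j 1))).det =
      disc (ofQuad Q₁) b := by simp [disc, b, ofQuad_B]
  have e₂ : (Matrix.of (fun i j : Fin n => QuadraticMap.polar ⇑Q₂ (Pi.single i 1) (Pi.single j 1))).det =
      disc (ofQuad Q₂) b := by simp [disc, b, ofQuad_B]
  have n₁ := disc_ne_zero k₁ h2 b
  have n₂ := disc_ne_zero k₂ h2 b
  have key : ∀ (c : F) (g : (Fin n → F) ≃ₗ[F] (Fin n → F)), ((ofQuad Q₁).scale c).IsIso (ofQuad Q₂) g →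
      ∃ t, t ≠ 0 ∧ c ^ n * disc (ofQuad Q₁) b = t ^ 2 * disc (ofQuad Q₂) b := fun c g hg => by
    obtain ⟨t, ht, k⟩ := disc_rel (f := ofQuad Q₂) b (b.map g)
    refine ⟨t, ht, Eq.trans ?_ k⟩
    unfold disc
    rw [show (Matrix.of fun i j => (ofQuad Q₂).B (b.map g i) (b.map g j)) =
      c • Matrix.of fun i j => (ofQuad Q₁).B (b i) (b j) from by ext i j; exact hg.1 _ _, Matrix.det_smul,
      Fintype.card_fin]
  rw [e₁, e₂]
  constructor
  · rintro ⟨g, hg⟩
    obtain ⟨t, ht, k⟩ := key 1 g ⟨fun u v => by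
      rw [orth_B, orth_B, ← map_add]; simp only [hg, scale, ofQuad_Q, one_mul], fun v => by simp [hg, scale]⟩
    exact ⟨t * disc (ofQuad Q₂) b, by linear_combination (disc (ofQuad Q₂) b) * k⟩
  · intro h
    rcases Nat.even_or_odd' n with ⟨m, hm | hm⟩
    · rw [← sqc_eq_one, sqc_mul n₁ n₂, Units.ext_iff, Units.val_mul, sqc_disc k₁ h2 b (by simpa using hm),
        sqc_disc k₂ h2 b (by simpa using hm), mul_mul_mul_comm, ← Units.val_mul, Int.units_mul_self] at h
      obtain ⟨e, he⟩ := orth_exists_isIso_even m k₁ k₂ (by simpa using hm) (by simpa using hm) (by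
        by_cases p₁ : (ofQuad Q₁).IsPlus <;> by_cases p₂ : (ofQuad Q₂).IsPlus <;>
          simp_all [IsPlus.sgn, sgn_of_not])
      exact ⟨e, he.2⟩
    · obtain ⟨c, e, hc, he⟩ := orth_exists_similar_odd m k₁ k₂ (by simpa using hm) (by simpa using hm)
      obtain ⟨t, ht, k⟩ := key c e he
      obtain ⟨s, hs⟩ := h
      have hs0 : s ≠ 0 := by rintro rfl; exact mul_ne_zero n₁ n₂ (by simpa using hs)
      have hc' : c = (t * disc (ofQuad Q₂) b / (c ^ m * s)) ^ 2 := by
        field_simp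
        rw [show c ^ n = c ^ (2 * m + 1) by rw [hm]] at k
        linear_combination (disc (ofQuad Q₂) b) * k - c ^ (2 * m + 1) * hs
      refine ⟨e.trans (scal _ (Units.mk0 (t * disc (ofQuad Q₂) b / (c ^ m * s)) (fun h => hc (by rw [hc', h]; simp)))⁻¹), fun v => ?_⟩
      have := he.2 v
      simp only [scale, ofQuad_Q] at this
      simp only [LinearEquiv.trans_apply, scal_apply, QuadraticMap.map_smul, this, smul_eq_mul,
        Units.val_inv_eq_inv_val, Units.val_mk0]
      rw [← mul_inv, ← sq, ← hc', inv_mul_cancel_left₀ hc]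

end Cfsg.Agent.S2623
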