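import Cfsg.Statements.S2625
import Cfsg.Agent.H5.Fm2

set_option autoImplicit false
open Cfsg

namespace Cfsg.Agent.S2625

open CfsgH5 CfsgH5.CForm CfsgH5.Fm CfsgH5.Au

/-- For a quadratic form Q on F^n with non-degenerate polar form, F finite and n odd (so |F| is odd), the multiplier of any similarity is a square: if g is an invertible linear map with Q(g v) = c·Q(v) for all v then c is a square. -/
theorem result {F : Type*} [Field F] [Fintype F] {n : ℕ} (hn : Odd n) (Q : QuadraticForm F (Fin n → F)) (hQ : (QuadraticMap.polarBilin Q).Nondegenerate) (g : (Fin n → F) ≃ₗ[F] (Fin n → F)) (c : F) (hg : ∀ v, Q (g v) = c * Q v) : IsSquare c := by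
  by_cases hc : c = 0
  · simp [hc]
  have := (isSim_orth (f := ofQuad Q) (θ := Γ.lin g) hc hg).det_sq (ofQuad_nondeg hQ)
  obtain ⟨m, rfl⟩ := hn
  simp only [FP.orth_σ, Module.finrank_fintype_fun_eq_card, Fintype.card_fin] at this
  refine ⟨LinearMap.det (g : (Fin (2 * m + 1) → F) →ₗ[F] _) / c ^ m, ?_⟩
  field_simp
  linear_combination -this

end Cfsg.Agent.S2625
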