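import Cfsg.Statements.S2628
import Cfsg.Agent.H5.Fm2

set_option autoImplicit false
open Cfsg

namespace Cfsg.Agent.S2628

open CfsgH5 CfsgH5.CForm CfsgH5.Fm CfsgH5.Au

/-- For the orthogonal direct sum Q ⊕ Q of two copies of a quadratic form Q with non-degenerate polar form on F^k (F finite), every isometry g of Q acting diagonally, diag(g, g), lies in Ω(Q ⊕ Q), the commutator subgroup of the orthogonal group of Q ⊕ Q. (Excluded: k = 2 over the field of two elements, where Q ⊕ Q is the hyperbolic 4-space whose orthogonal group's commutator subgroup is smaller than the group usually called Ω.) -/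
theorem result {F : Type*} [Field F] [Fintype F] {k : ℕ} (h : Fintype.card F ≠ 2 ∨ k ≠ 2) (Q : QuadraticForm F (Fin k → F)) (hQ : (QuadraticMap.polarBilin Q).Nondegenerate) (g : ↥(Cfsg.isometryGroup F ⇑Q)) : ∃ x : ↥(Cfsg.isometryGroup F (fun v : Fin k ⊕ Fin k → F => Q (v ∘ Sum.inl) + Q (v ∘ Sum.inr))), x ∈ Cfsg.Omega F (fun v : Fin k ⊕ Fin k → F => Q (v ∘ Sum.inl) + Q (v ∘ Sum.inr)) ∧ ((x : Matrix.GeneralLinearGroup (Fin k ⊕ Fin k) F) : Matrix (Fin k ⊕ Fin k) (Fin k ⊕ Fin k) F) = Matrix.fromBlocks ((g : Matrix.GeneralLinearGroup (Fin k) F) : Matrix (Fin k) (Fin k) F) 0 0 ((g : Matrix.GeneralLinearGroup (Fin k) F) : Matrix (Fin k) (Fin k) F) := by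
  have k₁ := ofQuad_nondeg hQ
  have k := sumQ_nondeg k₁ k₁
  have s := split_of_card k (h.imp id fun h => by simp; omega)
  refine (exists_Omega_mat (Q := sumQ Q Q) (blkI_mat g g)).2 ?_
  let t : (ofQuad (sumQ Q Q)).Isom := ⟨LinearEquiv.funCongrLeft F F (Equiv.sumComm _ _),
    mem_Isom_orth.2 fun v => add_comm _ _⟩
  have e : blkI Q Q (orthEquiv Q g, orthEquiv Q g) * t =
      blkI Q Q (orthEquiv Q g, 1) * t * blkI Q Q (orthEquiv Q g, 1) := by
    ext v (i | i) <;> rfl
  have key : ∀ φ : (ofQuad (sumQ Q Q)).Isom →* ℤˣ, φ (blkI Q Q (orthEquiv Q g, orthEquiv Q g)) = 1 := fun φ => by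
    have := congrArg φ e
    rw [map_mul, map_mul, map_mul, mul_right_comm, Int.units_mul_self] at this
    exact mul_right_cancel this
  exact (mem_comm k s).2 ⟨key _, key _⟩

end Cfsg.Agent.S2628
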