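import Cfsg.Statements.S2634
import Cfsg.Agent.H5.Fm2

set_option autoImplicit false
open Cfsg

namespace Cfsg.Agent.S2634

open CfsgH5 CfsgH5.CForm CfsgH5.Fm CfsgH5.Au

/-- Over a finite field of characteristic two, Ω (the commutator subgroup of the orthogonal group of a quadratic form Q on F^n with non-degenerate polar form; excluding dimension 4 over the field of two elements) acts transitively on the non-singular 1-spaces: for u, v with Q(u) ≠ 0 and Q(v) ≠ 0 some element of Ω carries the line through u to the line through v. -/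
theorem result {F : Type*} [Field F] [Fintype F] [CharP F 2] {n : ℕ} (h : Fintype.card F ≠ 2 ∨ n ≠ 4) (Q : QuadraticForm F (Fin n → F)) (hQ : (QuadraticMap.polarBilin Q).Nondegenerate) (u v : Fin n → F) (hu : Q u ≠ 0) (hv : Q v ≠ 0) : ∃ g : ↥(Cfsg.isometryGroup F ⇑Q), g ∈ Cfsg.Omega F ⇑Q ∧ (F ∙ ((g : Matrix.GeneralLinearGroup (Fin n) F) : Matrix (Fin n) (Fin n) F).mulVec u) = F ∙ v := by
  have hf := ofQuad_nondeg hQ
  have hs := split_of_card hf (by simpa using h)
  have h2 : (2 : F) = 0 := CharTwo.two_eq_zero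
  obtain ⟨l, hl⟩ := exists_sq_of_two_eq_zero h2 (Q u / Q v)
  have hl0 : l ≠ 0 := by rintro rfl; exact div_ne_zero hu hv (by simpa using hl.symm)
  obtain ⟨g, hg, k⟩ := witt_one hf (u := u) (u' := l • v) (by rintro rfl; simp at hu)
    (smul_ne_zero hl0 (by rintro rfl; simp at hv)) (by rw [orth_Q_smul, hl]; exact div_mul_cancel₀ _ hv)
  refine (exists_Omega fun g => (F ∙ g u) = F ∙ v).2 ?_
  rw [commutator_eq_ker_dick hf hs h2, ← Submodule.span_singleton_smul_eq hl0.isUnit v, ← k]
  rcases Int.units_eq_one_or (dick hf hs ⟨g, hg⟩) with e | e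
  · exact ⟨_, e, rfl⟩
  · refine ⟨⟨g, hg⟩ * ⟨_, rf_mem u⟩, by rw [MonoidHom.mem_ker, map_mul, e, dick_rf hf hs hu]; simp, ?_⟩
    change (F ∙ g ((ofQuad Q).rf u u)) = _
    rw [rf_self hu, map_neg, ← neg_one_smul F, Submodule.span_singleton_smul_eq isUnit_one.neg]

end Cfsg.Agent.S2634
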