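import Cfsg.Statements.S2635
import Cfsg.Agent.H5.Fm2

set_option autoImplicit false
open Cfsg

namespace Cfsg.Agent.S2635

open CfsgH5 CfsgH5.CForm CfsgH5.Fm CfsgH5.Au

/-- Over a finite field of characteristic two, for a quadratic form Q on F^n with non-degenerate polar form, n ≥ 2, other than dimension 4 over the field of two elements, Ω (the commutator subgroup of the orthogonal group) is exactly the subgroup generated by the products of two reflections (orthogonal transvections) x ↦ x − Q(v)⁻¹ f(x, v) v, Q(v) ≠ 0: the products of an even number of reflections. -/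
theorem result {F : Type*} [Field F] [Fintype F] [CharP F 2] {n : ℕ} (hn : 2 ≤ n) (h : Fintype.card F ≠ 2 ∨ n ≠ 4) (Q : QuadraticForm F (Fin n → F)) (hQ : (QuadraticMap.polarBilin Q).Nondegenerate) : Cfsg.Omega F ⇑Q = Subgroup.closure {g : ↥(Cfsg.isometryGroup F ⇑Q) | ∃ u v : Fin n → F, Q u ≠ 0 ∧ Q v ≠ 0 ∧ ((g : Matrix.GeneralLinearGroup (Fin n) F) : Matrix (Fin n) (Fin n) F) = Cfsg.reflectionMatrix ⇑Q u * Cfsg.reflectionMatrix ⇑Q v} := by
  have hf := ofQuad_nondeg hQ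
  have hs := split_of_card hf (by simpa using h)
  have h2 : (2 : F) = 0 := CharTwo.two_eq_zero
  have hr : ∀ v, orthEquiv Q ((orthEquiv Q).symm ⟨_, rf_mem v⟩) = ⟨_, rf_mem v⟩ := fun v => by simp
  refine le_antisymm (fun g hg => ?_) ((Subgroup.closure_le _).2 ?_)
  · generalize hS : (Subgroup.closure _ : Subgroup (Cfsg.isometryGroup F ⇑Q)) = S
    have k : ∀ u v, Q u ≠ 0 → Q v ≠ 0 → (orthEquiv Q).symm (⟨_, rf_mem u⟩ * ⟨_, rf_mem v⟩) ∈ S :=
      fun u v hu hv => hS ▸ Subgroup.subset_closure ⟨u, v, hu, hv, by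
        rw [map_mul, ← orthEquiv_symm_rf, ← orthEquiv_symm_rf]; rfl⟩
    have := rf_induction hf hs (fun s => ∀ hs' : s ∈ (ofQuad Q).Isom,
      (dick hf hs ⟨s, hs'⟩ = 1 → (orthEquiv Q).symm ⟨s, hs'⟩ ∈ S) ∧
      (dick hf hs ⟨s, hs'⟩ = -1 → ∀ d, Q d ≠ 0 → (orthEquiv Q).symm (⟨s, hs'⟩ * ⟨_, rf_mem d⟩) ∈ S))
      (fun _ => ⟨fun _ => (map_one (orthEquiv Q).symm).symm ▸ one_mem S, fun h =>
        absurd ((map_one (dick hf hs)).symm.trans h) (by decide)⟩)
      (fun s d h1 hd ih h3 => by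
        have e : (⟨_, h3⟩ : (ofQuad Q).Isom) = ⟨s, h1⟩ * ⟨_, rf_mem d⟩ := rfl
        rw [e, map_mul, dick_rf hf hs hd]
        refine ⟨fun h => (ih h1).2 (by simpa [neg_eq_iff_eq_neg] using h) d hd, fun h d' hd' => ?_⟩
        rw [mul_assoc, map_mul]
        exact mul_mem ((ih h1).1 (by simpa using h)) (k d d' hd hd')) _ (orthEquiv Q g).2 (orthEquiv Q g).2
    rw [mem_Omega, commutator_eq_ker_dick hf hs h2] at hg
    simpa using this.1 hg
  · rintro g ⟨u, v, hu, hv, k⟩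
    obtain rfl : g = (orthEquiv Q).symm ⟨_, rf_mem u⟩ * (orthEquiv Q).symm ⟨_, rf_mem v⟩ :=
      Subtype.ext (Units.ext (by rw [k, ← orthEquiv_symm_rf, ← orthEquiv_symm_rf]; rfl))
    rw [SetLike.mem_coe, mem_Omega, commutator_eq_ker_dick hf hs h2, MonoidHom.mem_ker, map_mul, hr, hr,
      map_mul, dick_rf hf hs hu, dick_rf hf hs hv]; simp

end Cfsg.Agent.S2635
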