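import Cfsg.Statements.S2636
import Cfsg.Agent.H5.Rs1

set_option autoImplicit false
open Cfsg

namespace Cfsg.Agent.S2636

open CfsgH5 Module Matrix

theorem twist {G : Type*} [Group G] (τ : G →* G) (Z : Subgroup G) (hZ : Z ≤ Subgroup.center G) :
    Nat.card {g // τ g * g⁻¹ ∈ Z} = Nat.card {y // y ∈ Z ∧ ∃ g, τ g * g⁻¹ = y} * Nat.card (τ.eqLocus (MonoidHom.id G)) := by
  let S : Subgroup G :=
    { carrier := {g | τ g * g⁻¹ ∈ Z}
      one_mem' := by simp
      mul_mem' := fun {a b} ha hb => by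
        have := Subgroup.mem_center_iff.mp (hZ hb) (τ a)
        rw [Set.mem_setOf_eq, map_mul, _root_.mul_inv_rev, show τ a * τ b * (b⁻¹ * a⁻¹) = τ a * (τ b * b⁻¹) * a⁻¹ by group, this, mul_assoc]
        exact mul_mem hb ha
      inv_mem' := fun {a} ha => by
        have := Subgroup.mem_center_iff.mp (hZ ha) a⁻¹
        rw [Set.mem_setOf_eq, map_inv, show (τ a)⁻¹ * a⁻¹⁻¹ = (a⁻¹ * (τ a * a⁻¹) * a)⁻¹ by group, this, inv_mul_cancel_right]
        exact inv_mem ha }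
  exact card_eq_of_fibers S _ (fun g (h : τ g = g) => show τ g * g⁻¹ ∈ Z by rw [h, mul_inv_cancel]; exact one_mem _) (fun g => τ g * g⁻¹)
    {y | y ∈ Z ∧ ∃ g, τ g * g⁻¹ = y} (fun y => ⟨fun ⟨a, g, b⟩ => ⟨g, show τ g * g⁻¹ ∈ Z from b ▸ a, b⟩, fun ⟨g, a, b⟩ => ⟨b ▸ a, g, b⟩⟩) fun g _ h _ => by
      show _ ↔ τ _ = g⁻¹ * h
      rw [map_mul, map_inv, inv_mul_eq_iff_eq_mul, ← mul_assoc, eq_comm, mul_inv_eq_iff_eq_mul]

theorem fixf {F : Type*} [Field F] [Fintype F] (σ : F ≃+* F) {q r : ℕ} (hσ : orderOf σ = r) (hF : Fintype.card F = q ^ r) :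
    ∃ F₀ : Subfield F, (∀ x, x ∈ F₀ ↔ σ x = x) ∧ Nat.card F₀ = q := by
  classical
  haveI : Finite (F ≃+* F) := Finite.of_injective _ DFunLike.coe_injective
  haveI := Fintype.ofFinite (Subgroup.zpowers σ)
  refine ⟨FixedPoints.subfield (Subgroup.zpowers σ) F, fun x => ⟨fun h => h ⟨σ, Subgroup.mem_zpowers σ⟩, fun h g => ?_⟩, ?_⟩
  · exact (Subgroup.zpowers_le (H := MulAction.stabilizer (F ≃+* F) x)).mpr h g.2
  · have h := Module.card_eq_pow_finrank (K := FixedPoints.subfield (Subgroup.zpowers σ) F) (V := F)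
    rw [FixedPoints.finrank_eq_card, ← Nat.card_eq_fintype_card (α := Subgroup.zpowers σ), Nat.card_zpowers, hσ, hF] at h
    rw [Nat.card_eq_fintype_card]
    exact (Nat.pow_left_injective (hσ ▸ (orderOf_pos σ).ne') h).symm

theorem exists_map {F : Type*} [Field F] {σ : F ≃+* F} {F₀ : Subfield F} (h : ∀ x, x ∈ F₀ ↔ σ x = x) {n : ℕ} (g : GL (Fin n) F) :
    GeneralLinearGroup.map σ.toRingHom g = g ↔ ∃ k, GeneralLinearGroup.map F₀.subtype k = g := by
  constructor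
  · intro e
    have e2 : GeneralLinearGroup.map σ.toRingHom g⁻¹ = g⁻¹ := by rw [map_inv, e]
    let l : ∀ g : GL (Fin n) F, GeneralLinearGroup.map σ.toRingHom g = g → Matrix (Fin n) (Fin n) F₀ := fun g e i j => ⟨g.1 i j, (h _).mpr (congrArg (·.1 i j) e)⟩
    have k : ∀ g e, (l g e).map F₀.subtype = g.1 := fun _ _ => rfl
    exact ⟨⟨l g e, l g⁻¹ e2, Matrix.map_injective F₀.subtype.injective (show Matrix.map _ F₀.subtype = Matrix.map _ F₀.subtype by rw [Matrix.map_mul, k g e, k g⁻¹ e2]; simp),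
      Matrix.map_injective F₀.subtype.injective (show Matrix.map _ F₀.subtype = Matrix.map _ F₀.subtype by rw [Matrix.map_mul, k g e, k g⁻¹ e2]; simp)⟩, Units.ext rfl⟩
  · rintro ⟨k, rfl⟩
    exact Units.ext (Matrix.ext fun i j => (h _).mp (k.1 i j).2)

theorem entry {F : Type*} [Field F] (σ : F ≃+* F) {n : ℕ} (hn : 1 ≤ n) {g : GL (Fin n) F} {c : F} (h : g.1.map σ = c • g.1) :
    ∃ a : Fˣ, σ a = c * a := by
  haveI : Nonempty (Fin n) := ⟨⟨0, hn⟩⟩
  obtain ⟨i, j, h0⟩ : ∃ i j, g.1 i j ≠ 0 := by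
    by_contra k; push Not at k; exact g.ne_zero (Matrix.ext k)
  exact ⟨Units.mk0 _ h0, congrFun₂ h i j⟩

theorem iff_scal {F : Type*} [Field F] (σ : F ≃+* F) {n : ℕ} (g : GL (Fin n) F) (c : Fˣ) :
    GeneralLinearGroup.scalar _ c = GeneralLinearGroup.map σ.toRingHom g * g⁻¹ ↔ g.1.map σ = c.1 • g.1 := by
  rw [eq_mul_inv_iff_mul_eq, eq_comm, Units.ext_iff, smul_eq_diagonal_mul]; rfl

theorem scal_inj {F : Type*} [Field F] {n : ℕ} (hn : 1 ≤ n) : Function.Injective (GeneralLinearGroup.scalar (R := F) (Fin n)) :=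
  fun a b h => Units.ext (by simpa using congrArg (·.1 ⟨0, hn⟩ ⟨0, hn⟩) h)

theorem card_range {A : Type*} [Group A] [Finite A] (D : A →* A) {a b : ℕ} (h1 : Nat.card A = a) (h2 : Nat.card D.ker = b) : Nat.card D.range = a / b := by
  rw [← Subgroup.index_ker, ← h1, ← D.ker.index_mul_card, h2, Nat.mul_div_cancel _ (h2 ▸ Nat.card_pos)]

/-- Centraliser of a field automorphism in PGL_n: let F be the field with q = q₀^r elements, σ a field automorphism of F of prime order r (so its fixed field has q₀ elements) and n ≥ 1. The invertible matrices g whose entrywise image under σ is a scalar multiple of g — those whose coset modulo scalars is fixed by σ — number (q − 1)/(q₀ − 1) · |GL_n(q₀)|; equivalently the centraliser in PGL_n(q) of the induced automorphism has the order of PGL_n(q₀). -/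
theorem result {F : Type*} [Field F] [Fintype F] {q₀ r n : ℕ} (hr : r.Prime) (hn : 1 ≤ n) (hF : Fintype.card F = q₀ ^ r) (σ : F ≃+* F) (hσ : orderOf σ = r) : Nat.card {g : GL (Fin n) F // ∃ c : F, c ≠ 0 ∧ (g : Matrix (Fin n) (Fin n) F).map σ = c • (g : Matrix (Fin n) (Fin n) F)} = (q₀ ^ r - 1) / (q₀ - 1) * ∏ i : Fin n, (q₀ ^ n - q₀ ^ (i : ℕ)) := by
  obtain ⟨F₀, h1, h2⟩ := fixf σ hσ hF
  haveI := Fintype.ofFinite F₀
  have := twist (GeneralLinearGroup.map σ.toRingHom) (GeneralLinearGroup.scalar (R := F) (Fin n)).range (by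
    rintro _ ⟨c, rfl⟩
    exact Subgroup.mem_center_iff.mpr fun g => Units.ext (scalar_commute _ (fun _ => Commute.all _ _) _).eq.symm)
  let D : Fˣ →* Fˣ := Units.map σ.toRingHom.toMonoidHom / MonoidHom.id _
  have hD : ∀ a c : Fˣ, D a = c ↔ σ a = c * a := fun a c => by
    simp [D, div_eq_iff_eq_mul, Units.ext_iff]
  refine (Nat.card_congr (Equiv.subtypeEquivRight fun g => ?_)).trans (this.trans (congrArg₂ _ ?_ ?_))
  · exact ⟨fun ⟨c, a, b⟩ => ⟨Units.mk0 c a, (iff_scal σ g _).mpr b⟩, fun ⟨c, a⟩ => ⟨c, c.ne_zero, (iff_scal σ g _).mp a⟩⟩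
  · rw [← card_range D (a := q₀ ^ r - 1) (b := q₀ - 1) (by rw [Nat.card_units, Nat.card_eq_fintype_card, hF]) (by
      rw [← h2, ← Nat.card_units]
      symm
      exact Nat.card_eq_of_bijective (fun a => ⟨Units.map F₀.subtype.toMonoidHom a, (hD _ 1).mpr (by simpa using (h1 _).mp a.1.2)⟩)
        ⟨fun a b h => Units.ext (Subtype.ext (congrArg (·.1.1) h)), fun a => ⟨Units.mk0 ⟨a.1, (h1 _).mpr (by simpa using (hD _ 1).mp a.2)⟩
          (fun e => a.1.ne_zero (congrArg Subtype.val e)), Subtype.ext (Units.ext rfl)⟩⟩)]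
    symm
    refine Nat.card_eq_of_bijective (fun c => ⟨GeneralLinearGroup.scalar _ c.1, ⟨_, rfl⟩, ?_⟩) ⟨fun a b h => Subtype.ext (scal_inj hn (congrArg (·.1) h)), ?_⟩
    · obtain ⟨_, a, rfl⟩ := c
      refine ⟨GeneralLinearGroup.scalar _ a, ((iff_scal σ _ _).mpr ?_).symm⟩
      ext i j; simp [diagonal_apply, apply_ite σ, (hD a _).mp rfl]
    · rintro ⟨_, ⟨c, rfl⟩, g, hg⟩
      obtain ⟨a, ha⟩ := entry σ hn ((iff_scal σ _ _).mp hg.symm)
      exact ⟨⟨c, a, (hD _ _).mpr ha⟩, rfl⟩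
  · rw [← h2, Nat.card_eq_fintype_card (α := F₀), ← card_GL_field]
    symm
    exact Nat.card_eq_of_bijective (fun k => ⟨_, (exists_map h1 _).mpr ⟨k, rfl⟩⟩)
      ⟨fun a b h => Units.ext (Matrix.map_injective F₀.subtype.injective (congrArg (·.1.1) h)), fun g => ((exists_map h1 _).mp g.2).imp fun _ => Subtype.ext⟩

end Cfsg.Agent.S2636
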