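import Cfsg.Statements.S2637
import Cfsg.Agent.H5.Rs1

set_option autoImplicit false
open Cfsg

namespace Cfsg.Agent.S2637

open CfsgH5 CfsgH5.CForm CfsgH5.Rs CfsgH5.Gc Module Matrix

theorem uOrd_cast {q : ℕ} (hq : 1 ≤ q) (n : ℕ) :
    (uOrd q n : ℤ) = (q : ℤ) ^ (n * (n - 1) / 2) * ∏ i : Fin n, ((q : ℤ) ^ ((i : ℕ) + 1) - (-1) ^ ((i : ℕ) + 1)) := by
  rw [uOrd, Fin.prod_univ_eq_prod_range (fun i => (q : ℤ) ^ (i + 1) - (-1) ^ (i + 1))]
  push_cast
  refine congrArg _ (Finset.prod_congr rfl fun i _ => ?_)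
  split_ifs with h
  · simp [h.add_one.neg_one_pow]
  · simp [(Nat.not_even_iff_odd.mp h).add_one.neg_one_pow, Nat.one_le_pow _ _ hq]

theorem aux {F V : Type*} [Field F] [Fintype F] [AddCommGroup V] [Module F V] [FiniteDimensional F V] {f : CForm (FP.symp F) V} (hf : f.Nondeg) {m : ℕ}
    (hm : finrank F V = 2 * m) (x : f.Isom) (hx : ∀ v, x.1 (x.1 v) = -v - x.1 v) (h3 : ∀ r : F, r ^ 2 ≠ -1 + -1 * r) :
    Nat.card (Subgroup.centralizer {x}) = uOrd (Fintype.card F) m := by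
  haveI := Fact.mk h3
  obtain ⟨σ, H, s1, s2⟩ := quadAlg_UF (F := F) (a := -1) (b := -1) (by simp)
  have s3 : σ ⟨0, 1⟩ = ⟨-1, -1⟩ := mul_left_cancel₀ (a := ⟨0, 1⟩) (fun h => one_ne_zero (congrArg QuadraticAlgebra.im h)) (by rw [s2]; ext <;> simp [QuadraticAlgebra.re_one, QuadraticAlgebra.im_one])
  have s4 : ∀ a b, σ ⟨a, b⟩ = ⟨a - b, -b⟩ := fun a b => by
    rw [show (⟨a, b⟩ : QuadraticAlgebra F (-1) (-1)) = algebraMap F _ a + algebraMap F _ b * ⟨0, 1⟩ by ext <;> simp, map_add, map_mul, s1, s1, s3]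
    ext <;> simp [sub_eq_add_neg]
  let ψ : QuadraticAlgebra F (-1) (-1) →ₐ[F] End F V := QuadraticAlgebra.lift ⟨x.1.toLinearMap, LinearMap.ext fun v => by simp [hx, sub_eq_add_neg]⟩
  letI : Module (QuadraticAlgebra F (-1) (-1)) V := Module.compHom V ψ.toRingHom
  have sm : ∀ (z : QuadraticAlgebra F (-1) (-1)) (v : V), z • v = z.re • v + z.im • x.1 v := fun _ _ => rfl
  haveI : IsScalarTower F (QuadraticAlgebra F (-1) (-1)) V := ⟨fun a z v => by simp [sm, smul_smul]⟩
  haveI : FiniteDimensional (QuadraticAlgebra F (-1) (-1)) V := Module.Finite.of_restrictScalars_finite F _ _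
  have b1 : ∀ u v, f.B u (x.1 v) = - f.B u v - f.B (x.1 u) v := fun u v => by
    have := f.Isom_B x.2 (x.1 u) v
    have h2 := f.Isom_B x.2 u v
    have h3 := f.Isom_B x.2 u (x.1 v)
    simp only [hx, B_sub_left, B_neg_left, B_sub_right, B_neg_right] at this h3
    linear_combination -this - h2
  let h : CForm (FP.unit σ H.invol) V := ofHerm H.ne_id H.invol (fun u v => ⟨f.B (x.1 u) v + f.B u v, f.B u v⟩)
    (fun u v w => by ext <;> simp [f.B_add_left]; ring) (fun a u w => by ext <;> simp [sm, f.B_add_left, f.B_smul_left, hx] <;> ring)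
    (fun u v => by rw [s4, symp_B_symm f u, symp_B_symm f u, b1]; ext <;> simp)
  have n1 : h.Nondeg := fun v hv => hf v fun u => congrArg QuadraticAlgebra.im (hv u)
  obtain ⟨φ, h1, h2⟩ := exists_emb h f fun g hg => mem_Isom_symp.mpr fun u v => congrArg QuadraticAlgebra.im (h.Isom_B hg u v)
  have d : finrank (QuadraticAlgebra F (-1) (-1)) V = m := by
    have := finrank_mul_finrank F (QuadraticAlgebra F (-1) (-1)) V
    rw [QuadraticAlgebra.finrank_eq_two] at this
    omega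
  rw [← Nat.card_eq_fintype_card, ← unit_card_Isom H m n1 d, Nat.card_congr (MonoidHom.ofInjective h1).toEquiv]
  congr 2
  ext g
  rw [Subgroup.mem_centralizer_singleton_iff]
  constructor
  · intro e
    have e : ∀ v, g.1 (x.1 v) = x.1 (g.1 v) := fun v => congrArg (fun z => z.1 v) e
    exact ⟨⟨{ g.1.toAddEquiv with map_smul' := fun z v => by simp [sm, e] }, mem_Isom_unit.mpr fun u v => by
      simp only [h, ofHerm]; ext <;> simp [← e, f.Isom_B g.2]⟩, Subtype.ext (LinearEquiv.ext fun v => h2 _ v)⟩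
  · rintro ⟨g, rfl⟩
    refine Subtype.ext (LinearEquiv.ext fun v => ?_)
    simpa [sm, h2] using g.1.map_smul ⟨0, 1⟩ v

/-- Centraliser of a fixed-point-free element of order three in Sp_2m(q) when q ≡ 2 (mod 3): if x ∈ Sp_2m(F) (|F| = q, m ≥ 1) satisfies x³ = 1 and x − 1 is invertible, then its centraliser in Sp_2m(F) has the order of the unitary group GU_m(q), namely q^(m(m−1)/2) Π_(i=1)^m (q^i − (−1)^i) (x lies in the centre of a subgroup GU_m(q) of Sp_2m(q)). -/
theorem result {F : Type*} [Field F] [Fintype F] {q : ℕ} (hF : Fintype.card F = q) (hq : q % 3 = 2) {m : ℕ} (hm : 1 ≤ m) (x : Matrix.symplecticGroup (Fin m) F) (hx3 : x ^ 3 = 1) (hfpf : IsUnit ((x : Matrix (Fin m ⊕ Fin m) (Fin m ⊕ Fin m) F) - 1)) : (Nat.card ↥(Subgroup.centralizer ({x} : Set ↥(Matrix.symplecticGroup (Fin m) F))) : ℤ) = (q : ℤ) ^ (m * (m - 1) / 2) * ∏ i : Fin m, ((q : ℤ) ^ ((i : ℕ) + 1) - (-1) ^ ((i : ℕ) + 1)) := by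
  subst hF
  rw [← uOrd_cast Fintype.card_pos, ← aux (spForm_nondeg m) (by simp [two_mul]) (spEquiv m x) (fun v => ?_) (fun r h => ?_)]
  · exact congrArg _ (Nat.card_congr ((spEquiv m).toEquiv.subtypeEquiv fun g => by
      simp [Subgroup.mem_centralizer_singleton_iff, ← map_mul]))
  · have h1 : (x.1 - 1) * (x.1 * x.1 + x.1 + 1) = (x.1 - 1) * 0 := by
      have : x.1 ^ 3 = 1 := congrArg Subtype.val hx3
      rw [mul_zero, ← sub_eq_zero.mpr this]; noncomm_ring
    have := congrArg (· *ᵥ v) (hfpf.mul_left_cancel h1)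
    simp only [add_mulVec, one_mulVec, zero_mulVec, ← mulVec_mulVec] at this
    simp only [spEquiv_apply]
    linear_combination this
  · have h0 : r ≠ 0 := by rintro rfl; simp at h
    have h3 : r ^ 3 = 1 := by linear_combination (r - 1) * h
    have h4 := FiniteField.pow_card r
    rw [← Nat.div_add_mod (Fintype.card F) 3, hq, pow_add, pow_mul, h3, one_pow, one_mul, sq] at h4
    obtain rfl := mul_left_cancel₀ h0 (h4.trans (mul_one r).symm)
    haveI : CharP F 3 := (CharP.charP_iff_prime_eq_zero Nat.prime_three).mpr (by linear_combination h)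
    obtain ⟨n, -, hn⟩ := FiniteField.card F 3
    have : 3 ∣ Fintype.card F := hn ▸ dvd_pow_self 3 n.ne_zero
    omega

end Cfsg.Agent.S2637
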