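import Cfsg.Statements.S2638
import Cfsg.Agent.H5.Gl4

set_option autoImplicit false
open Cfsg

namespace Cfsg.Agent.S2638

open CfsgH5.Gl Module Polynomial Matrix

/-- If an element x of GL_n(q), n ≥ 1, has prime order r and the multiplicative order of q modulo r is n (r is a primitive prime divisor of q^n − 1, so x acts irreducibly), then the centraliser of x in GL_n(q) is cyclic of order q^n − 1 (the multiplicative group of the field with q^n elements, a Singer cycle). -/
theorem result {F : Type*} [Field F] [Fintype F] {p q : ℕ} [Fact p.Prime] [CharP F p] (hF : Fintype.card F = q) {n r : ℕ} (hn : 1 ≤ n) (hr : r.Prime) (hrp : r ≠ p) (hi : orderOf (q : ZMod r) = n) (x : GL (Fin n) F) (hx : orderOf x = r) : IsCyclic ↥(Subgroup.centralizer ({x} : Set (GL (Fin n) F))) ∧ Nat.card ↥(Subgroup.centralizer ({x} : Set (GL (Fin n) F))) = q ^ n - 1 := by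
  obtain ⟨T, h1, h2, h3, h5, h4⟩ := cyclo_factors (F := F) hr hrp
  rw [hF, hi] at h2
  obtain ⟨s, hs, h⟩ := exists_HT (toLin' x.1)
  have h0 := fun a ha => (hs a ha).monic.ne_zero
  obtain ⟨k1, k2⟩ := (exists_GL_pow_iff hr.ne_zero h0).mp ⟨x, hx ▸ pow_orderOf_eq_one x, h⟩
  obtain ⟨a, ha, hT⟩ : ∃ a ∈ s, a ∈ T := by
    by_contra k
    push Not at k
    have := (h.aeval_eq_zero (X - C 1)).mpr fun a ha => by rw [((h4 a).mp ⟨hs a ha, k1 a ha⟩).resolve_right (k a ha)]
    rw [aeval_toLin', toLin'.map_eq_zero_iff, map_sub, aeval_X, aeval_C, map_one, sub_eq_zero] at this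
    rw [show x = 1 from Units.ext this, orderOf_one] at hx
    exact hr.one_lt.ne hx
  obtain ⟨t, rfl⟩ := Multiset.exists_cons_of_mem ha
  obtain rfl : t = 0 := by
    rw [Multiset.map_cons, Multiset.sum_cons, h2 a hT, Fintype.card_fin, Nat.add_eq_left, Multiset.sum_eq_zero_iff] at k2
    refine Multiset.eq_zero_of_forall_notMem fun b hb => ?_
    obtain ⟨π, -, b2, e, b3, rfl⟩ := hs b (Multiset.mem_cons_of_mem hb)
    have := k2 _ (Multiset.mem_map_of_mem _ hb)
    have := b2.natDegree_pos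
    rw [natDegree_pow] at *; nlinarith
  obtain ⟨φ, a1, a2, -⟩ := cent_cyc (A := x) (a := a) h
  haveI := Fact.mk ((h5 a).mp hT).2.1
  haveI : FiniteDimensional F (AdjoinRoot a) := fd_quot (h0 a ha)
  haveI : Finite (AdjoinRoot a) := Module.finite_of_finite F
  let e : (AdjoinRoot a)ˣ ≃* φ.range := MonoidHom.ofInjective a1
  rw [← a2]
  refine ⟨(MulEquiv.isCyclic e).mp inferInstance, ?_⟩
  rw [← Nat.card_congr e.toEquiv, Nat.card_units, Module.natCard_eq_pow_finrank (K := F), Nat.card_eq_fintype_card, hF, ← h2 a hT]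
  exact congrArg (q ^ · - 1) finrank_quotient_span_eq_natDegree

end Cfsg.Agent.S2638
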