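import Cfsg.Statements.S2639
import Cfsg.Agent.H5.Rs1

set_option autoImplicit false
open Cfsg

namespace Cfsg.Agent.S2639

open CfsgH5 CfsgH5.CForm CfsgH5.Rs Module

/-- The unitary group embeds in the symplectic group of twice the dimension over the subfield: for a field K with q² elements and a field F with q elements (isomorphic to the subfield of K of order q), there is an injective homomorphism GU_m(q) → Sp_2m(F). -/
theorem result {K F : Type*} [Field K] [Fintype K] [Field F] [Fintype F] {q : ℕ} (hK : Fintype.card K = q ^ 2) (hF : Fintype.card F = q) (m : ℕ) : ∃ φ : ↥(Cfsg.GU m K q) →* ↥(Matrix.symplecticGroup (Fin m) F), Function.Injective φ := by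
  subst hF
  letI := (exists_ringHom F K hK).some.toAlgebra
  have H := frobq_UF hK
  obtain ⟨g, h1, h2⟩ := exists_unit_symp H (hermC_nondeg H m)
  obtain ⟨φ, h3, -⟩ := exists_emb _ _ h2
  obtain ⟨e, he⟩ := symp_exists_isIso (2 * m) h1 (spForm_nondeg m) (by rw [← finrank_mul_finrank F K, finrank_eq hK]; simp) (by simp [two_mul])
  exact emb_of (guEquiv H m) h3 (he.isomEquiv.trans (spEquiv m).symm)

end Cfsg.Agent.S2639
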