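import Cfsg.Statements.S2640
import Cfsg.Agent.H5.Rs1

set_option autoImplicit false
open Cfsg

namespace Cfsg.Agent.S2640

open CfsgH5 CfsgH5.CForm CfsgH5.Rs Module

/-- For m even, the unitary group GU_m(q) (over the field with q² elements) embeds in the orthogonal group O⁺_2m(q) of the hyperbolic form Σ x_i y_i over the field with q elements (there is an injective homomorphism). -/
theorem result {K F : Type*} [Field K] [Fintype K] [Field F] [Fintype F] {q : ℕ} (hK : Fintype.card K = q ^ 2) (hF : Fintype.card F = q) (m : ℕ) (hm : Even m) : ∃ φ : ↥(Cfsg.GU m K q) →* ↥(Cfsg.isometryGroup F (Cfsg.quadFormPlus m F)), Function.Injective φ := by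
  subst hF
  letI := (exists_ringHom F K hK).some.toAlgebra
  have H := frobq_UF hK
  obtain ⟨g, h1, h2, -, h4⟩ := exists_unit_orth H (hermC_nondeg H m)
  obtain ⟨φ, h3, -⟩ := exists_emb _ _ h2
  obtain ⟨e, he⟩ := orth_exists_isIso_even m h1 (plusQ_nondeg F m) (by rw [← finrank_mul_finrank F K, finrank_eq hK]; simp) (by simp [two_mul])
    (iff_of_true (sgn_eq_one.mp (by simpa [hm.neg_one_pow] using h4)) (plusQ_isPlus m))
  exact emb_of (guEquiv H m) h3 (he.isomEquiv.trans (orthEquiv _).symm)

end Cfsg.Agent.S2640
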