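import Cfsg.Statements.S2642
import Cfsg.Agent.H5.Gc3

set_option autoImplicit false
open Cfsg

namespace Cfsg.Agent.S2642

open CfsgH5 CfsgH5.CForm CfsgH5.Gl CfsgH5.Gc Module Polynomial Matrix

/-- Number of conjugacy classes of elements of order p in the general unitary group GU_n(q), q a power of p: every unipotent Jordan type occurs and the classes correspond to the partitions of n with all parts at most p other than the all-ones partition, exactly as in GL_n; so there are (number of partitions of n with parts ≤ p) − 1 classes. -/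
theorem result {K : Type*} [Field K] [Fintype K] {p q n : ℕ} [Fact p.Prime] [CharP K p] (hK : Fintype.card K = q ^ 2) : Nat.card {C : ConjClasses ↥(Cfsg.GU n K q) // ∃ g : ↥(Cfsg.GU n K q), ConjClasses.mk g = C ∧ orderOf g = p} = (Finset.univ.filter (fun μ : Nat.Partition n => ∀ a ∈ μ.parts, a ≤ p)).card - 1 := by
  have hp : p.Prime := Fact.out
  have H := frobq_UF hK
  rw [card_order_prime hp, card_classes (fun g : Cfsg.GU n K q => toLin' g.1.1) _ (fun a b _ _ => GU_isConj H a b), ← card_unip_types (F := K)]
  congr 1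
  refine Nat.card_congr (Equiv.subtypeEquivRight fun s => and_congr_right fun hs => ?_)
  have := exists_GL_pow_iff (ι := Fin n) hp.ne_zero (fun a ha => (hs a ha).monic.ne_zero)
  rw [Fintype.card_fin, show (X : K[X]) ^ p - 1 = (X - C 1) ^ p by rw [sub_pow_char]; simp] at this
  rw [← this]
  constructor
  · rintro ⟨g, h1, h2⟩
    exact ⟨g.1, congrArg Subtype.val h1, h2⟩
  · rintro ⟨g, h1, h2⟩
    have h3 : (g.1 - 1) ^ p = 0 := by
      have k := aeval_toLin' g.1 ((X - C 1) ^ p)
      rw [(h2.aeval_eq_zero _).mpr (this.mp ⟨g, h1, h2⟩).1] at k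
      simpa using toLin'.map_eq_zero_iff.mp k.symm
    obtain ⟨B, hB⟩ := GU_exists_unip H g h3
    obtain ⟨c, hc⟩ := isConj_iff.mp (isConj_GL.mpr hB)
    exact ⟨B, Subtype.ext (by simp [← hc, h1]), h2.of_sim hB⟩

end Cfsg.Agent.S2642
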