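import Cfsg.Statements.S2643
import Cfsg.Agent.H5.Gc4

set_option autoImplicit false
open Cfsg

namespace Cfsg.Agent.S2643

open CfsgH5 CfsgH5.CForm CfsgH5.Gl CfsgH5.Gc Module Polynomial Matrix

/-- Regular unipotent classes of SU_n(q), n ≥ 2: the elements u of the special unitary group (isometries of Σ u_i v_i^q of determinant one over the field with q² elements) with (u − 1)^n = 0 and rank(u − 1) = n − 1 form exactly gcd(n, q + 1) conjugacy classes of SU_n(q). -/
theorem result {K : Type*} [Field K] [Fintype K] {q n : ℕ} (hK : Fintype.card K = q ^ 2) (hn : 2 ≤ n) : Nat.card {C : ConjClasses ↥(Cfsg.SU n K q) // ∃ u : ↥(Cfsg.SU n K q), ConjClasses.mk u = C ∧ (((u : GL (Fin n) K) : Matrix (Fin n) (Fin n) K) - 1) ^ n = 0 ∧ (((u : GL (Fin n) K) : Matrix (Fin n) (Fin n) K) - 1).rank = n - 1} = Nat.gcd n (q + 1) := by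
  have H := frobq_UF hK
  have hf := hermC_nondeg H n
  haveI : Nonempty (Fin n) := ⟨⟨0, by omega⟩⟩
  obtain ⟨A, h1, h2⟩ := exists_reg (F := K) (Fin n)
  rw [Fintype.card_fin] at h1 h2
  have hd : A.det = 1 := by simpa using det_aeval_unip h1 X
  obtain ⟨B, hB⟩ := GU_exists_unip H (SpecialLinearGroup.toGL ⟨A, hd⟩) h1
  have hA := reg_HT' h1 (by simp; omega)
  have key : ∀ u : Matrix (Fin n) (Fin n) K, Sim (toLin' A) (toLin' u) ↔ (u - 1) ^ n = 0 ∧ (u - 1).rank = n - 1 := fun u => by
    constructor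
    · intro h
      have k := rank_sub_of_isConj (isConj_iff_sim.mpr h)
      have k1 := k n
      have k2 := k 1
      rw [pow_one, pow_one] at k2
      refine ⟨?_, k2.symm.trans h2⟩
      rw [h1, rank_zero] at k1
      exact toLin'.map_eq_zero_iff.mp (LinearMap.range_eq_bot.mp (Submodule.finrank_eq_zero.mp k1.symm))
    · exact fun h => hA.sim (reg_HT' h.1 (by simp; omega))
  have b1 := ((key _).mp hB).1
  let ι : Cfsg.SU n K q →* Cfsg.GU n K q := (SpecialLinearGroup.toGL.comp (Cfsg.SU n K q).subtype).codRestrict _ (fun u => u.2)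
  let π : Cfsg.GU n K q →* Kˣ := (GeneralLinearGroup.det : GL (Fin n) K →* Kˣ).comp (Cfsg.GU n K q).subtype
  let x : Cfsg.SU n K q := ⟨⟨B.1.1, by simpa using det_aeval_unip b1 X⟩, B.2⟩
  have hx : ι x = B := Subtype.ext (Units.ext rfl)
  have := card_split ι π (fun a b h => Subtype.ext (SpecialLinearGroup.toGL_injective (congrArg Subtype.val h))) (by
    ext g
    constructor
    · rintro ⟨u, rfl⟩; exact Units.ext u.1.2
    · intro h; exact ⟨⟨⟨g.1.1, congrArg Units.val h⟩, g.2⟩, Subtype.ext (Units.ext rfl)⟩) x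
  have r1 : π.range = rootsOfUnity (q + 1) K := by
    ext c
    rw [mem_rootsOfUnity', ← H.norm_eq]
    constructor
    · rintro ⟨g, rfl⟩
      have k := det_norm hf (guEquiv H n g).2
      rwa [show LinearMap.det (guEquiv H n g).1.toLinearMap = g.1.1.det from toLinHom_det _ g] at k
    · intro h
      obtain ⟨g, g1, g2⟩ := unit_exists_det H.ne_id hf (by simp; omega) _ h
      obtain ⟨g, rfl⟩ := (mem_hermIsom_iff H n g).mp g1
      exact ⟨g, Units.ext ((toLinHom_det _ _).symm.trans g2)⟩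
  have r2 : (Subgroup.centralizer {B}).map π = (rootsOfUnity (q + 1) K).map (powMonoidHom n) := by
    ext c
    constructor
    · rintro ⟨g, hg, rfl⟩
      have hg' : g.1.1 * B.1.1 = B.1.1 * g.1.1 := congrArg (fun z => z.1.1) (Subgroup.mem_centralizer_singleton_iff.mp hg)
      obtain ⟨r, hr⟩ := (hA.of_sim hB).comm_poly (g := toLin' g.1.1) (by rw [End.mul_eq_comp, ← toLin'_mul, hg', toLin'_mul]; rfl)
      have e0 : aeval B.1.1 r = g.1.1 := toLin'.injective (by rw [← aeval_toLin', hr])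
      have e : g.1.1.det = r.eval 1 ^ n := by rw [← e0]; simpa using det_aeval_unip b1 r
      have e2 : r.eval 1 * frobq hK (r.eval 1) = 1 := norm_of_nilp hf (guEquiv H n g).2 (by
        obtain ⟨s, hs⟩ := X_sub_C_dvd_sub_C_eval (p := r) (a := 1)
        have : (guEquiv H n g).1.toLinearMap - r.eval 1 • 1 = aeval (toLin' B.1.1) ((X - C 1) * s) := by
          rw [← hs, map_sub, hr, aeval_C, Algebra.algebraMap_eq_smul_one]; rfl
        refine ⟨n, ?_⟩
        rw [this, ← map_pow, mul_pow, map_mul, map_pow, map_sub, aeval_X, aeval_C, toLin_sub, b1, map_zero, zero_mul])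
      exact ⟨Units.mk0 (r.eval 1) (left_ne_zero_of_mul_eq_one e2), by rw [SetLike.mem_coe, mem_rootsOfUnity', ← H.norm_eq]; exact e2, Units.ext e.symm⟩
    · rintro ⟨c, hc, rfl⟩
      rw [SetLike.mem_coe, mem_rootsOfUnity'] at hc
      refine ⟨⟨GeneralLinearGroup.scalar _ c, fun u v => ?_⟩, Subgroup.mem_centralizer_singleton_iff.mpr (Subtype.ext (Units.ext (scalar_commute _ (fun _ => Commute.all _ _) _).eq)), Units.ext (by simp [π])⟩
      simp only [Cfsg.hermForm]
      refine Finset.sum_congr rfl fun i _ => ?_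
      simp [mul_pow]
      linear_combination u i * v i ^ q * hc
  haveI nz : NeZero (q + 1) := ⟨by omega⟩
  have r3 : ((rootsOfUnity (q + 1) K).map (powMonoidHom n)).subgroupOf (rootsOfUnity (q + 1) K) = (powMonoidHom n).range := by
    ext c
    exact ⟨fun ⟨d, h1, h2⟩ => ⟨⟨d, h1⟩, Subtype.ext h2⟩, fun ⟨d, h⟩ => ⟨d.1, d.2, congrArg Subtype.val h⟩⟩
  rw [hx, r1, r2, Subgroup.relIndex, r3, IsCyclic.index_powMonoidHom_range, H.card_roots_succ, Nat.gcd_comm] at this
  rw [← this]
  refine Nat.card_congr (Equiv.subtypeEquivRight fun C => exists_congr fun u => and_congr_right fun _ => ?_)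
  rw [GU_isConj H]
  exact (key _).symm.trans ⟨hB.symm.trans, hB.trans⟩

end Cfsg.Agent.S2643
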