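import Cfsg.Statements.S2665
import Cfsg.Agent.H5.Gl1

set_option autoImplicit false
open scoped MatrixGroups
open Cfsg

namespace Cfsg.Agent.S2665

open Module Polynomial Matrix

theorem exists_fix {K V : Type*} [Field K] [IsAlgClosed K] [AddCommGroup V] [Module K V] [FiniteDimensional K V] [Nontrivial V] {σ : K →+* K} {q : ℕ}
    (hq : 2 ≤ q) (hσ : ∀ x, σ x = x ^ q) (φ : V →ₛₗ[σ] V) (hφ : Function.Injective φ) : ∃ w, w ≠ 0 ∧ φ w = w := by
  classical
  obtain ⟨v, hv⟩ := exists_ne (0 : V)
  let u : ℕ → V := fun i => φ^[i] v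
  have us : ∀ i, u (i + 1) = φ (u i) := fun i => Function.iterate_succ_apply' _ _ _
  have ex : ∃ d, u d ∈ Submodule.span K (u '' (Finset.range d : Set ℕ)) := by
    by_contra h
    push Not at h
    have : ∀ d, finrank K (Submodule.span K (u '' (Finset.range d : Set ℕ))) = d := fun d => by
      induction d with
      | zero => rw [Finset.range_zero, Finset.coe_empty, Set.image_empty, Submodule.span_empty, finrank_bot]
      | succ d ih => rw [Finset.range_add_one, Finset.coe_insert, Set.image_insert_eq, Submodule.span_insert, sup_comm, Submodule.finrank_sup_span_singleton (h d), ih]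
    exact absurd (this _ ▸ Submodule.finrank_le (Submodule.span K (u '' (Finset.range (finrank K V + 1) : Set ℕ)))) (by omega)
  obtain ⟨e, he⟩ : ∃ e, Nat.find ex = e + 1 := Nat.exists_eq_succ_of_ne_zero fun h => hv (by have := Nat.find_spec ex; rw [h] at this; simpa [u] using this)
  have h1 := Nat.find_min ex (m := e) (by omega)
  obtain ⟨a, ha⟩ := (Submodule.mem_span_image_finset_iff_exists_fun' K).mp (he ▸ Nat.find_spec ex)
  let c : ℕ → K[X] := fun i => Nat.rec (C (a 0) * X ^ q) (fun i p => p ^ q + C (a (i + 1)) * X ^ q) i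
  have c0 : c 0 = C (a 0) * X ^ q := rfl
  have cs : ∀ i, c (i + 1) = c i ^ q + C (a (i + 1)) * X ^ q := fun i => rfl
  have d1 : ∀ i, X ^ q ∣ c i := fun i => by
    induction i with
    | zero => exact dvd_mul_left _ _
    | succ i ih => exact dvd_add (dvd_pow ih (by omega)) (dvd_mul_left _ _)
  have d2 : ∀ i, c i = 0 → ∀ j ≤ i, a j = 0 := fun i => by
    induction i with
    | zero => intro h j hj; simpa [c0, Nat.le_zero.mp hj] using h
    | succ i ih =>
      intro h j hj
      have h3 : c i = 0 := by
        by_contra k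
        have k1 := natDegree_le_of_dvd (d1 i) k
        have k2 := congrArg natDegree (eq_neg_of_add_eq_zero_left ((cs i).symm.trans h))
        have k3 := natDegree_C_mul_le (a (i + 1)) (X ^ q)
        rw [natDegree_pow, natDegree_neg] at k2
        rw [natDegree_X_pow] at k1 k3
        nlinarith
      rcases Nat.le_succ_iff.mp hj with k | rfl
      · exact ih h3 j k
      · simpa [cs, h3, show q ≠ 0 by omega] using h
  obtain ⟨r, hr⟩ := (pow_dvd_pow X hq).trans (d1 e)
  have r0 : r ≠ 0 := fun h => by
    have k := d2 e (by rw [hr, h, mul_zero])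
    rw [Finset.sum_eq_zero fun j hj => by rw [k j (Nat.lt_succ_iff.mp (Finset.mem_range.mp hj)), zero_smul]] at ha
    exact hv (hφ.iterate (e + 1) (ha.symm.trans (Function.iterate_fixed (map_zero φ) _).symm))
  obtain ⟨t, ht⟩ := IsAlgClosed.exists_root (X * r - 1) (by
    rw [degree_sub_eq_left_of_degree_lt (by rw [degree_one, degree_mul, degree_X, degree_eq_natDegree r0]; norm_cast; omega), degree_mul, degree_X,
      degree_eq_natDegree r0]; norm_cast; omega)
  have t1 : t * r.eval t = 1 := by simpa [sub_eq_zero] using ht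
  have t2 : (c e).eval t = t := by simp [hr, sq, mul_assoc, t1]
  refine ⟨∑ i ∈ Finset.range (e + 1), (c i).eval t • u i, fun h => h1 ?_, ?_⟩
  · rw [Finset.sum_range_succ, t2] at h
    rw [← Submodule.smul_mem_iff _ (left_ne_zero_of_mul_eq_one t1), eq_neg_of_add_eq_zero_right h]
    exact neg_mem (Submodule.sum_mem _ fun i hi => Submodule.smul_mem _ _ (Submodule.subset_span ⟨i, hi, rfl⟩))
  · simp only [map_sum, LinearMap.map_smulₛₗ, ← us, hσ]
    rw [Finset.sum_range_succ, t2, ← ha, Finset.sum_range_succ', Finset.sum_range_succ']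
    simp only [c0, cs, eval_add, eval_mul, eval_pow, eval_C, eval_X, add_smul, Finset.sum_add_distrib, smul_add, Finset.smul_sum, smul_smul, mul_comm (t ^ q), add_assoc]

theorem exists_li {K : Type*} [Field K] [IsAlgClosed K] {σ : K →+* K} {q : ℕ} (hq : 2 ≤ q) (hσ : ∀ x, σ x = x ^ q) (n : ℕ) :
    ∀ (V : Type _) [AddCommGroup V] [Module K V] [FiniteDimensional K V] (φ : V →ₛₗ[σ] V), Function.Injective φ → finrank K V = n →
      ∃ b : Fin n → V, LinearIndependent K b ∧ ∀ i, φ (b i) = b i := by
  induction n with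
  | zero => exact fun V _ _ _ φ _ _ => ⟨Fin.elim0, linearIndependent_empty_type, by simp⟩
  | succ n ih =>
    intro V _ _ _ φ hφ h
    haveI := Module.nontrivial_of_finrank_eq_succ h
    obtain ⟨w, w0, hw⟩ := exists_fix hq hσ φ hφ
    have hle : (K ∙ w) ≤ (K ∙ w).comap φ := (Submodule.span_singleton_le_iff_mem _ _).mpr (by rw [Submodule.mem_comap, hw]; exact Submodule.mem_span_singleton_self w)
    obtain ⟨b, b1, b2⟩ := ih (V ⧸ (K ∙ w)) (Submodule.mapQ _ _ φ hle) ((injective_iff_map_eq_zero _).mpr fun x hx => by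
      obtain ⟨x, rfl⟩ := Submodule.Quotient.mk_surjective _ x
      obtain ⟨c, hc⟩ := Submodule.mem_span_singleton.mp ((Submodule.Quotient.mk_eq_zero _).mp hx)
      obtain ⟨c, rfl⟩ := IsAlgClosed.exists_pow_nat_eq c (n := q) (by omega)
      exact (Submodule.Quotient.mk_eq_zero _).mpr (Submodule.mem_span_singleton.mpr ⟨c, hφ (by rw [← hc, LinearMap.map_smulₛₗ, hσ, hw])⟩)) (by
      have := Submodule.finrank_quotient_add_finrank (K ∙ w)
      rw [finrank_span_singleton w0] at this; omega)
    have : ∀ i, ∃ x, Submodule.mkQ _ x = b i ∧ φ x = x := fun i => by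
      obtain ⟨x, hx⟩ := Submodule.Quotient.mk_surjective _ (b i)
      obtain ⟨c, hc⟩ := Submodule.mem_span_singleton.mp ((Submodule.Quotient.eq _).mp (show Submodule.Quotient.mk (φ x) = Submodule.Quotient.mk x by
        have := b2 i
        rwa [← hx] at this))
      obtain ⟨t, ht⟩ := IsAlgClosed.exists_root (X ^ q + (C c - X) : K[X]) (by
        rw [degree_add_eq_left_of_degree_lt, degree_X_pow]
        · norm_cast; omega
        · rw [← neg_sub, degree_neg, degree_X_sub_C, degree_X_pow]; exact_mod_cast hq)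
      refine ⟨x + t • w, by simp [hx], ?_⟩
      rw [map_add, LinearMap.map_smulₛₗ, hσ, hw, eq_add_of_sub_eq hc.symm, show t ^ q = t - c by have k : t ^ q + (c - t) = 0 := (by simpa using ht); linear_combination k]
      module
    choose l l1 l2 using this
    have b3 : LinearIndependent K (Submodule.mkQ _ ∘ l) := (funext l1 : Submodule.mkQ _ ∘ l = b) ▸ b1
    refine ⟨Fin.cons w l, linearIndependent_finCons.mpr ⟨b3.of_comp _, fun k => w0 ?_⟩, fun i => Fin.cases hw l2 i⟩
    obtain ⟨c, hc⟩ := (Submodule.mem_span_range_iff_exists_fun K).mp k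
    have := Fintype.linearIndependent_iff.mp b3 c (by simpa [(Submodule.Quotient.mk_eq_zero _).mpr (Submodule.mem_span_singleton_self w)] using congrArg (K ∙ w).mkQ hc)
    simp [← hc, this]

/-- The Lang–Steinberg Theorem for the general linear group. Let `K` be an algebraically closed field of prime characteristic `p`, let `q = p^f` with `f ≥ 1`, and let `σ` be the endomorphism of GL_n(K) raising every matrix entry to the `q`-th power. Then every element `g` of GL_n(K) can be written `g = x · σ(x)⁻¹` for some `x` in GL_n(K): the map `x ↦ x σ(x)⁻¹` is surjective. -/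
theorem result {K : Type*} [Field K] [IsAlgClosed K] (p : ℕ) [Fact p.Prime] [CharP K p]
    (f : ℕ) (hf : 1 ≤ f) (n : ℕ) (g : GL (Fin n) K) :
    ∃ x : GL (Fin n) K, g = x * (Matrix.GeneralLinearGroup.map (iterateFrobenius K p f) x)⁻¹ := by
  obtain ⟨b, b1, b2⟩ := exists_li (σ := iterateFrobenius K p f) (q := p ^ f) (Nat.one_lt_pow (by omega) (Fact.out : p.Prime).one_lt) (fun _ => rfl) n (Fin n → K)
    { toFun := fun v => g.1 *ᵥ (iterateFrobenius K p f ∘ v)
      map_add' := fun u v => by rw [← mulVec_add]; congr 1; ext; simp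
      map_smul' := fun c v => by rw [← mulVec_smul]; congr 1; ext; simp }
    (fun u v h => (iterateFrobenius K p f).injective.comp_left (mulVec_injective_iff_isUnit.mpr g.isUnit h)) (by simp)
  obtain ⟨x, hx⟩ := (linearIndependent_cols_iff_isUnit (A := (of b)ᵀ)).mp b1
  refine ⟨x, eq_mul_inv_of_mul_eq (Units.ext (Matrix.ext fun i j => ?_))⟩
  simpa [hx, Matrix.mul_apply, mulVec, dotProduct] using congrFun (b2 j) i

end Cfsg.Agent.S2665
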