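import Mathlib
import Cfsg.Statements.S2666
import Cfsg.Agent.S2668

set_option autoImplicit false
open Cfsg

namespace Cfsg.Agent.S2666

open Cfsg.Agent.S2668

/-- Shintani descent, in an abstract form. Let `σ` be an automorphism of a group `X` such that the maps `a ↦ a·σ(a)⁻¹` and `a ↦ a·σᵉ(a)⁻¹` are surjective on `X` (the Lang–Steinberg property, which holds when `X` is a connected algebraic group and `σ` a Steinberg endomorphism), where `e ≥ 1`. Write `G` for the subgroup of fixed points of `σᵉ` and `H` for the subgroup of fixed points of `σ`. The `G`-conjugacy classes in the coset `G σ` of the semidirect product of `G` by `σ` correspond to the orbits of `G` on itself under twisted conjugation `g ↦ k g σ(k)⁻¹`, and the `e`-th power of `g σ` has `G`-part the norm `g σ(g) ⋯ σ^(e-1)(g)`. For `g` in `G` and any `a` with `g = a σ(a)⁻¹`, put `x = σᵉ(a)⁻¹ a`. Then: (1) `x` lies in `H`, and `a⁻¹ · (g σ(g) ⋯ σ^(e-1)(g)) · a =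 x`; (2) for `g, g'` in `G` with such elements `a, b` and `x, x'`, the elements `g, g'` are twisted-conjugate under `G` if and only if `x, x'` are conjugate in `H`; (3) every element of `H` arises as such an `x`. So `g ↦ x` induces a well-defined bijection from the twisted `G`-classes of `G` onto the conjugacy classes of `H` (the Shintani map). -/
theorem result {X : Type*} [Group X] (σ : MulAut X) (e : ℕ) (he : 1 ≤ e)
    (hL : ∀ g : X, ∃ a : X, g = a * (σ a)⁻¹) (hLe : ∀ g : X, ∃ a : X, g = a * ((σ ^ e) a)⁻¹) :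
    (∀ g ∈ (MulEquiv.toMonoidHom (σ ^ e)).eqLocus (MonoidHom.id X), ∀ a : X, g = a * (σ a)⁻¹ →
        ((σ ^ e) a)⁻¹ * a ∈ (MulEquiv.toMonoidHom σ).eqLocus (MonoidHom.id X) ∧
          a⁻¹ * ((List.range e).map (fun i => (σ ^ i) g)).prod * a = ((σ ^ e) a)⁻¹ * a) ∧
    (∀ g ∈ (MulEquiv.toMonoidHom (σ ^ e)).eqLocus (MonoidHom.id X), ∀ g' ∈ (MulEquiv.toMonoidHom (σ ^ e)).eqLocus (MonoidHom.id X), ∀ a b : X,
        g = a * (σ a)⁻¹ → g' = b * (σ b)⁻¹ →
          ((∃ k ∈ (MulEquiv.toMonoidHom (σ ^ e)).eqLocus (MonoidHom.id X), g' = k * g * (σ k)⁻¹) ↔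
            (∃ h ∈ (MulEquiv.toMonoidHom σ).eqLocus (MonoidHom.id X), ((σ ^ e) b)⁻¹ * b = h * (((σ ^ e) a)⁻¹ * a) * h⁻¹))) ∧
    (∀ x ∈ (MulEquiv.toMonoidHom σ).eqLocus (MonoidHom.id X), ∃ g ∈ (MulEquiv.toMonoidHom (σ ^ e)).eqLocus (MonoidHom.id X), ∃ a : X,
        g = a * (σ a)⁻¹ ∧ ((σ ^ e) a)⁻¹ * a = x) := by
  refine ⟨fun g hg a ha => ?_, fun g hg g' hg' a b ha hb => ?_, fun x hx => ?_⟩
  · subst ha
    exact ⟨fixed σ e a hg, by rw [norm_eq]; group⟩
  · subst ha hb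
    constructor
    · rintro ⟨k, hk, h⟩
      have hk' : (σ ^ e) k = k := hk
      have h1 : σ (b⁻¹ * k * a) = b⁻¹ * k * a := by
        simp only [map_mul, map_inv]
        calc (σ b)⁻¹ * σ k * σ a = b⁻¹ * (b * (σ b)⁻¹) * σ k * σ a := by group
          _ = _ := by rw [h]; group
      refine ⟨b⁻¹ * k * a, h1, ?_⟩
      have h2 := pow_fixed σ h1 e
      simp only [map_mul, map_inv, hk'] at h2
      conv_rhs => arg 1; arg 1; rw [← h2]
      group
    · rintro ⟨h, hh, h'⟩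
      have hh' : σ h = h := hh
      refine ⟨b * h * a⁻¹, ?_, ?_⟩
      · show (σ ^ e) _ = b * h * a⁻¹
        simp only [map_mul, map_inv, pow_fixed σ hh' e]
        calc (σ ^ e) b * h * ((σ ^ e) a)⁻¹ =
            (σ ^ e) b * (h * (((σ ^ e) a)⁻¹ * a) * h⁻¹) * h * a⁻¹ := by group
          _ = _ := by rw [← h']; group
      · simp only [map_mul, map_inv, hh']
        group
  · have hx' : σ x = x := hx
    obtain ⟨c, hc⟩ := hLe x⁻¹
    have h1 : ((σ ^ e) c⁻¹)⁻¹ * c⁻¹ = x := by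
      rw [← inv_inv x, hc]; simp
    refine ⟨c⁻¹ * (σ c⁻¹)⁻¹, ?_, c⁻¹, rfl, h1⟩
    show (σ ^ e) _ = c⁻¹ * (σ c⁻¹)⁻¹
    have hcm : (σ ^ e) (σ c) = σ ((σ ^ e) c) := by
      rw [← MulAut.mul_apply, ← pow_succ, pow_succ', MulAut.mul_apply]
    rw [← h1] at hx'
    simp only [map_mul, map_inv, inv_inv, hcm] at hx' ⊢
    calc ((σ ^ e) c)⁻¹ * σ ((σ ^ e) c) = ((σ ^ e) c)⁻¹ * (σ ((σ ^ e) c) * (σ c)⁻¹) * σ c := by group
      _ = _ := by rw [hx']; group

end Cfsg.Agent.S2666
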