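import Cfsg.Statements.S2669


set_option autoImplicit false
open Cfsg

namespace Cfsg.Agent.S2669

/-- Shintani descent preserves numbers of fixed points on coset spaces (abstract form). Let `σ` be an automorphism of a group `X` and `e ≥ 1`; write `G` for the fixed points of `σᵉ` and `H` for the fixed points of `σ`, and assume `G` is finite. Let `Y` be a `σ`-stable subgroup of `X` on which the maps `a ↦ a σ(a)⁻¹` and `a ↦ a σᵉ(a)⁻¹` are surjective (as for a closed connected `σ`-stable subgroup of an algebraic group). Let `g ∈ G`, let `a ∈ X` satisfy `g = a σ(a)⁻¹` and put `x = σᵉ(a)⁻¹ a` (the Shintani image, an element of `H`). The element `g σ` of the semidirect product acts on the cosets of `Y ∩ G` in `G` by `k (Y ∩ G) ↦ g σ(k) (Y ∩ G)`, fixing that coset exactly when `k⁻¹ g σ(k) ∈ Y`; and `x` fixes the coset `h (Y ∩ H)` of `H` exactly when `h⁻¹ x h ∈ Y`. Then the two numbers of fixed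 cosets agree; in cross-multiplied form, `#{k ∈ G : k⁻¹ g σ(k) ∈ Y} · |Y ∩ H| = #{h ∈ H : h⁻¹ x h ∈ Y} · |Y ∩ G|`. -/
theorem result {X : Type*} [Group X] (σ : MulAut X) (e : ℕ) (he : 1 ≤ e)
    [Finite ↥((MulEquiv.toMonoidHom (σ ^ e)).eqLocus (MonoidHom.id X))]
    (Y : Subgroup X) (hY : ∀ y : X, y ∈ Y ↔ σ y ∈ Y)
    (hYL : ∀ y ∈ Y, ∃ a ∈ Y, y = a * (σ a)⁻¹) (hYLe : ∀ y ∈ Y, ∃ a ∈ Y, y = a * ((σ ^ e) a)⁻¹)
    (g : X) (hg : g ∈ (MulEquiv.toMonoidHom (σ ^ e)).eqLocus (MonoidHom.id X)) (a : X) (ha : g = a * (σ a)⁻¹) :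
    Nat.card {k : ↥((MulEquiv.toMonoidHom (σ ^ e)).eqLocus (MonoidHom.id X)) // (k : X)⁻¹ * g * σ k ∈ Y} *
        Nat.card ↥(Y ⊓ (MulEquiv.toMonoidHom σ).eqLocus (MonoidHom.id X)) =
      Nat.card {h : ↥((MulEquiv.toMonoidHom σ).eqLocus (MonoidHom.id X)) // (h : X)⁻¹ * (((σ ^ e) a)⁻¹ * a) * h ∈ Y} *
        Nat.card ↥(Y ⊓ (MulEquiv.toMonoidHom (σ ^ e)).eqLocus (MonoidHom.id X)) := by
-----
  have fx : ∀ h, σ h = h → (σ ^ e) h = h := fun h hh => pow_mem (show σ ∈ MulAction.stabilizer (MulAut X) h from hh) e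
  have ye : ∀ y ∈ Y, (σ ^ e) y ∈ Y := fun y hy => by
    clear hYLe hg fx he
    induction e with
    | zero => exact hy
    | succ e ih => rw [pow_succ']; exact (hY _).mp ih
  generalize σ ^ e = τ at *
  subst ha
  let W := {p : X × X // σ p.1 = p.1 ∧ p.2 ∈ Y ∧ p.1⁻¹ * ((τ a)⁻¹ * a) * p.1 = (τ p.2)⁻¹ * p.2}
  rw [← Nat.card_prod, ← Nat.card_prod]
  trans Nat.card W
  · choose y y1 y2 using fun k : {k : ↥((MulEquiv.toMonoidHom τ).eqLocus (MonoidHom.id X)) // (k : X)⁻¹ * (a * (σ a)⁻¹) * σ k ∈ Y} => hYL _ k.2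
    have y3 : ∀ k, σ (a⁻¹ * k.1.1 * y k) = a⁻¹ * k.1.1 * y k := fun k => by
      rw [map_mul, map_mul, map_inv, ← mul_inv_eq_iff_eq_mul.mp (show (a⁻¹ * k.1.1 * y k) * (σ (y k))⁻¹ = (σ a)⁻¹ * σ k.1.1 by rw [mul_assoc, ← y2]; group)]
    refine Nat.card_eq_of_bijective (fun p => ⟨(a⁻¹ * p.1.1.1 * y p.1 * p.2.1, y p.1 * p.2.1), by rw [map_mul, y3]; exact congrArg _ p.2.2.2,
      mul_mem (y1 _) p.2.2.1, ?_⟩) ⟨fun p p' h => ?_, fun ⟨⟨h, z⟩, h1, h2, h3⟩ => ?_⟩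
    · have e1 := fx _ (y3 p.1)
      have e2 := fx _ p.2.2.2
      have e3 : τ p.1.1.1 = p.1.1.1 := p.1.1.2
      rw [map_mul, map_mul, map_inv, e3] at e1
      rw [map_mul, e2, show τ (y p.1) = ((τ a)⁻¹ * p.1.1.1)⁻¹ * (a⁻¹ * p.1.1.1 * y p.1) by rw [← e1]; group]
      group
    · have e1 := congrArg (·.1.1) h
      have e2 := congrArg (·.1.2) h
      simp only [mul_assoc] at e1 e2
      rw [e2, mul_left_cancel_iff, mul_right_cancel_iff] at e1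
      have e3 : p.1 = p'.1 := Subtype.ext (Subtype.ext e1)
      rw [e3, mul_left_cancel_iff] at e2
      exact Prod.ext e3 (Subtype.ext e2)
    · simp only at h1 h2 h3
      let k : {k : ↥((MulEquiv.toMonoidHom τ).eqLocus (MonoidHom.id X)) // (k : X)⁻¹ * (a * (σ a)⁻¹) * σ k ∈ Y} :=
        ⟨⟨a * h * z⁻¹, show τ _ = a * h * z⁻¹ by rw [map_mul, map_mul, map_inv, fx h h1, ← mul_inv_eq_iff_eq_mul.mpr h3]; group⟩, by
          simpa [h1, mul_assoc] using mul_mem h2 (inv_mem ((hY z).mp h2))⟩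
      have e1 := y3 k
      refine ⟨(k, ⟨(y k)⁻¹ * z, mul_mem (Y.inv_mem (y1 k)) h2, show σ _ = (y k)⁻¹ * z from ?_⟩), Subtype.ext (Prod.ext (by simp [k, mul_assoc]) (by simp))⟩
      generalize y k = w at e1 ⊢
      simp only [k, mul_assoc, inv_mul_cancel_left, map_mul, h1, mul_left_cancel_iff] at e1
      rw [← inv_inj]
      simpa using e1
  · choose y y1 y2 using fun h : {h : ↥((MulEquiv.toMonoidHom σ).eqLocus (MonoidHom.id X)) // (h : X)⁻¹ * ((τ a)⁻¹ * a) * h ∈ Y} => hYLe _ (inv_mem h.2)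
    symm
    refine Nat.card_eq_of_bijective (fun p => ⟨(p.1.1.1, p.2.1 * (y p.1)⁻¹), p.1.1.2, mul_mem p.2.2.1 (Y.inv_mem (y1 _)), ?_⟩)
      ⟨fun p p' h => ?_, fun ⟨⟨h, z⟩, h1, h2, h3⟩ => ?_⟩
    · rw [← inv_inj, y2, map_mul, show τ p.2.1 = p.2.1 from p.2.2.2, map_inv]; group
    · have e3 : p.1 = p'.1 := Subtype.ext (Subtype.ext (congrArg (·.1.1) h))
      have e2 := congrArg (·.1.2) h
      simp only [e3, mul_right_cancel_iff] at e2
      exact Prod.ext e3 (Subtype.ext e2)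
    · simp only at h1 h2 h3
      let k : {h : ↥((MulEquiv.toMonoidHom σ).eqLocus (MonoidHom.id X)) // (h : X)⁻¹ * ((τ a)⁻¹ * a) * h ∈ Y} :=
        ⟨⟨h, h1⟩, h3 ▸ mul_mem (inv_mem (ye z h2)) h2⟩
      have e1 := y2 k
      refine ⟨(k, ⟨z * y k, mul_mem h2 (y1 k), show τ _ = z * y k from ?_⟩), Subtype.ext (Prod.ext rfl (by simp))⟩
      rw [show (k.1.1⁻¹ * ((τ a)⁻¹ * a) * k.1.1) = _ from h3] at e1
      rw [map_mul, show τ z = z * ((τ z)⁻¹ * z)⁻¹ by group, e1]; group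

end Cfsg.Agent.S2669
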