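import Cfsg.Statements.S2671
import Cfsg.Agent.H5.Gc7

set_option autoImplicit false
open Cfsg

namespace Cfsg.Agent.S2671

open CfsgH5 CfsgH5.CForm CfsgH5.Gl CfsgH5.Gc Module Polynomial Matrix

/-- Number of conjugacy classes of elements of odd prime order r in the general unitary group GU_n(q), for r not dividing q(q + 1): let i be the multiplicative order of q modulo r, b = i if i is odd and b = i/2 if i is even, and s = (r − 1)/b. If i ≢ 2 (mod 4) the eigenvalue orbits pair off into dual pairs of totally isotropic blocks and there are C(⌊n/(2b)⌋ + s/2, s/2) − 1 classes; if i ≡ 2 (mod 4) each orbit gives a non-degenerate block of dimension i/2 and there are C(⌊2n/i⌋ + s, s) − 1 classes. -/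
theorem result {K : Type*} [Field K] [Fintype K] {p q n r i b s : ℕ} [Fact p.Prime] [CharP K p] (hK : Fintype.card K = q ^ 2) (hr : r.Prime) (hr2 : r ≠ 2) (hrp : r ≠ p) (hi : i = orderOf (q : ZMod r)) (hi2 : i ≠ 2) (hb : b = if Odd i then i else i / 2) (hs : s * b = r - 1) : Nat.card {C : ConjClasses ↥(Cfsg.GU n K q) // ∃ g : ↥(Cfsg.GU n K q), ConjClasses.mk g = C ∧ orderOf g = r} = if i % 4 = 2 then Nat.choose (2 * n / i + s) s - 1 else Nat.choose (n / (2 * b) + s / 2) (s / 2) - 1 := by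
  classical
  have H := frobq_UF hK
  have hf := hermC_nondeg H n
  haveI := Fact.mk hr
  haveI : Fact (2 < r) := ⟨lt_of_le_of_ne hr.two_le hr2.symm⟩
  obtain ⟨j, hj⟩ : ∃ j, q = p ^ j := by
    obtain ⟨f, hp, e⟩ := FiniteField.card K p
    obtain ⟨j, -, hj⟩ := (Nat.dvd_prime_pow hp).mp (show q ∣ p ^ (f : ℕ) from e ▸ hK ▸ dvd_pow_self q two_ne_zero)
    exact ⟨j, hj⟩
  have h0 := card_ne_zmod (F := K) hr hrp
  rw [hK, Nat.cast_pow] at h0
  have hq : (q : ZMod r) ≠ 0 := fun e => h0 (by rw [e]; simp)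
  have i0 : 0 < i := hi ▸ (isOfFinOrder_iff_pow_eq_one.mpr ⟨r - 1, by have := hr.two_le; omega, ZMod.pow_card_sub_one_eq_one hq⟩).orderOf_pos
  have hb' : b = orderOf (Fintype.card K : ZMod r) := by
    rw [hK, Nat.cast_pow, orderOf_pow' _ two_ne_zero, ← hi, hb]
    split_ifs with h
    · rw [(Nat.coprime_two_right.mpr h).gcd_eq_one, Nat.div_one]
    · rw [Nat.gcd_eq_right (Nat.not_odd_iff_even.mp h).two_dvd]
  have k : (∃ k, (Fintype.card K : ZMod r) ^ k = -(p ^ j : ℕ)) ↔ i % 4 = 2 := by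
    rw [hK, ← hj, Nat.cast_pow]
    have e1 : (q : ZMod r) ^ i = 1 := hi ▸ pow_orderOf_eq_one _
    constructor
    · rintro ⟨k, hk⟩
      have e2 : (q : ZMod r) ^ (2 * k + (2 * i - 1)) = -1 := by
        rw [pow_add, pow_mul, hk, neg_mul, ← pow_succ', show 2 * i - 1 + 1 = i * 2 by omega, pow_mul, e1, one_pow]
      have e3 : i ∣ 2 * (2 * k + (2 * i - 1)) := hi.dvd.trans (orderOf_dvd_of_pow_eq_one (by rw [pow_mul', e2]; simp))
      have e4 : ¬ i ∣ 2 * k + (2 * i - 1) := fun e => ZMod.neg_one_ne_one (e2.symm.trans (orderOf_dvd_iff_pow_eq_one.mp (hi ▸ e)))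
      have e5 : ¬ Odd i := fun e => e4 ((Nat.coprime_two_right.mpr e).dvd_of_dvd_mul_left e3)
      have e6 : ¬ 4 ∣ i := fun e => by have := e.trans e3; omega
      rw [Nat.odd_iff] at e5
      omega
    · intro h
      have : (q : ZMod r) ^ (i / 2) = -1 := (mul_self_eq_one_iff.mp (by rw [← pow_add, show i / 2 + i / 2 = i by omega, e1])).resolve_left
        (pow_ne_one_of_lt_orderOf (by omega) (by omega))
      exact ⟨i / 4 + 1, by rw [← pow_mul, show 2 * (i / 4 + 1) = i / 2 + 1 by omega, pow_succ, this, neg_one_mul]⟩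
  rw [count_gen (guEquiv H n) hr (fun x y _ => unit_isConj H.ne_id hf)
    (fun s hs => (type_unit H hf hr.two_le (natCast_ne hr hrp) hs).trans (and_congr_right' (and_congr_right' (and_iff_left (Or.inr trivial)).symm))),
    card_SD H.invol (j := j) (fun x => by rw [← hj]; exact H.pow x) hr hrp hb' hs]
  simp only [k, not_true, and_false, if_false, Nat.sub_zero, finrank_fintype_fun_eq_card, Fintype.card_fin]
  split_ifs with h
  · rw [hb, if_neg (by rw [Nat.odd_iff]; omega)]
    conv_rhs => rw [show i = 2 * (i / 2) by omega, Nat.mul_div_mul_left _ _ two_pos]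
  · rfl

end Cfsg.Agent.S2671
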