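import Cfsg.Statements.S2672
import Cfsg.Agent.H5.Pc1

set_option autoImplicit false
open Cfsg

namespace Cfsg.Agent.S2672

open CfsgH5 CfsgH5.El CfsgH5.Gl CfsgH5.Gc CfsgH5.CForm CfsgH5.Pc Module Matrix

/-- Number of conjugacy classes of elements of odd prime order r in PGU_n(q) = GU_n(q)/scalars (n ≥ 3) when r divides q + 1: as in the linear case with q − 1 replaced by q + 1, the classes correspond to the rotation orbits on r-tuples of eigenvalue multiplicities summing to n with every entry < n, plus r − 1 further classes when r divides n; in all (C(n+r−1, r−1) − r − [r ∣ n])/r + r·[r ∣ n]. -/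
theorem result {K : Type*} [Field K] [Fintype K] {q n r : ℕ} (hK : Fintype.card K = q ^ 2) (hn : 3 ≤ n) (hr : r.Prime) (hr2 : r ≠ 2) (hrq : r ∣ q + 1) : Nat.card {C : ConjClasses (↥(Cfsg.GU n K q) ⧸ Subgroup.center ↥(Cfsg.GU n K q)) // ∃ g : ↥(Cfsg.GU n K q) ⧸ Subgroup.center ↥(Cfsg.GU n K q), ConjClasses.mk g = C ∧ orderOf g = r} = (Nat.choose (n + r - 1) (r - 1) - r - (if r ∣ n then 1 else 0)) / r + r * (if r ∣ n then 1 else 0) := by
  have H := frobq_UF hK
  have hf := hermC_nondeg H n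
  obtain ⟨ζ, -, hζ⟩ := N_prim H hrq
  have hρ : Function.Injective ((Units.coeHom _).comp (Cfsg.GU n K q).subtype) :=
    Units.val_injective.comp Subtype.val_injective
  have dg : ∀ d : Fin n → K, (∀ i, d i * frobq hK (d i) = 1) →
      ∃ x, ((Units.coeHom _).comp (Cfsg.GU n K q).subtype) x = diagonal d := fun d hd => by
    refine ⟨⟨⟨diagonal d, diagonal fun i => frobq hK (d i), by simp [hd], by simp [mul_comm, hd]⟩,
      fun u v => ?_⟩, rfl⟩
    refine Finset.sum_congr rfl fun i _ => ?_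
    simp only [Units.coeHom_apply, mulVec_diagonal, ← H.pow, map_mul]
    linear_combination (u i * frobq hK (v i)) * hd i
  obtain ⟨x, y, hxy⟩ := unit_exists_hyp H hf (by simp; omega)
  have : Nontrivial (Fin n → K) := nontrivial_of_ne x 0 hxy.x_ne
  refine count' hρ (fun a b => (GU_isConj H a b).trans isConj_iff_sim.symm) hr hζ (fun c => ?_)
    (fun d hd => dg d fun i => ?_) (by omega) fun z a h1 h2 => ?_
  · obtain ⟨l, hl⟩ := (mem_center_iff_scalar hf (rich_of_ker (unit_ker H.ne_id)) hxy E_le_Isom le_rfl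
      (z := guEquiv H n c)).1 (Subgroup.mem_center_iff.2 fun g => by
        obtain ⟨g, rfl⟩ := (guEquiv H n).surjective g
        rw [← map_mul, ← map_mul, Subgroup.mem_center_iff.1 c.2])
    exact ⟨l, scal_iff.2 (LinearMap.ext hl)⟩
  · obtain ⟨k, hk⟩ := hrq
    rw [H.norm_eq, hk, pow_mul, hd, one_pow]
  · have : Nonempty (Fin n) := ⟨⟨0, by omega⟩⟩
    have a0 : a ≠ 0 := by rintro rfl; exact Units.ne_zero z.1.1 (by simpa using h2)
    have a1 : a * frobq hK a = 1 := (scal_mem_Isom hf (l := Units.mk0 a a0)).1 (by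
      convert (guEquiv H n z).2
      exact LinearEquiv.ext fun v => by simp [show z.1.1.1 = _ from h2, smul_mulVec])
    have k := NQ.odd H hr hr2 hrq (z := a) ⟨a1, fun b hb e => by
      obtain ⟨x, hx⟩ := dg (fun _ => b) fun _ => hb
      have hx' := hx.trans (smul_one_eq_diagonal b).symm
      refine h1 ⟨x, central_of hρ hx'⟩ (Subtype.ext (hρ ?_))
      rw [Subgroup.coe_pow, map_pow, hx', _root_.smul_pow, e, one_pow, h2]⟩
    refine ⟨k, fun h => ?_⟩
    obtain ⟨x, hx, hx'⟩ := kum_unit H hf hr a1 k (by simpa using h)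
    obtain ⟨x', e⟩ := (guEquiv H n).surjective ⟨x, hx⟩
    refine ⟨x', hρ ?_⟩
    rw [map_pow, h2, pow_iff, ← hx', ← show (guEquiv H n x').1 = x from congrArg Subtype.val e]
    rfl

end Cfsg.Agent.S2672
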