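import Cfsg.Statements.S2674
import Cfsg.Agent.H5.Gc7

set_option autoImplicit false
open Cfsg

namespace Cfsg.Agent.S2674

open CfsgH5 CfsgH5.CForm CfsgH5.Gl CfsgH5.Gc Module Polynomial Matrix

theorem pow_half {r : ℕ} (hr : r.Prime) {q : ZMod r} (hq : q ≠ 0) {i m : ℕ} (hi : i = orderOf q) (h1 : ¬ Odd i) (h2 : i ∣ 2 * m) :
    q ^ m = (-1) ^ (2 * m / i) := by
  haveI := Fact.mk hr
  have h0 : 0 < orderOf q := (isOfFinOrder_iff_pow_eq_one.mpr ⟨r - 1, by have := hr.two_le; omega, ZMod.pow_card_sub_one_eq_one hq⟩).orderOf_pos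
  obtain ⟨k, rfl⟩ := Nat.not_odd_iff_even.mp h1
  obtain ⟨l, hl⟩ := h2
  have : q ^ k = -1 := (mul_self_eq_one_iff.mp (by rw [← pow_add, hi, pow_orderOf_eq_one])).resolve_left (pow_ne_one_of_lt_orderOf (by omega) (by omega))
  rw [hl, Nat.mul_div_cancel_left _ (by omega), ← this, ← pow_mul, show m = k * l by linarith]

/-- Number of conjugacy classes of elements of odd prime order r ≠ p in the orthogonal group O⁺_2m(q) of Σ x_j y_j (m ≥ 1): with i the multiplicative order of q mod r and t = (r − 1)/i — if i is odd, C(⌊m/i⌋ + t/2, t/2) − 1; if i is even, C(⌊2m/i⌋ + t, t) − 1 minus, when i divides 2m with odd quotient, the C(2m/i + t − 1, t − 1) tuples using the whole space (an odd number of elliptic i-blocks fills an elliptic, not a hyperbolic, space). -/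
theorem result {F : Type*} [Field F] [Fintype F] {p q : ℕ} [Fact p.Prime] [CharP F p] (hF : Fintype.card F = q) (m r i t : ℕ) (hm : 1 ≤ m) (hr : r.Prime) (hr2 : r ≠ 2) (hrp : r ≠ p) (hi : i = orderOf (q : ZMod r)) (ht : t * i = r - 1) : Nat.card {C : ConjClasses ↥(Cfsg.isometryGroup F (Cfsg.quadFormPlus m F)) // ∃ g : ↥(Cfsg.isometryGroup F (Cfsg.quadFormPlus m F)), ConjClasses.mk g = C ∧ orderOf g = r} = if Odd i then Nat.choose (m / i + t / 2) (t / 2) - 1 else Nat.choose (2 * m / i + t) t - 1 - (if i ∣ 2 * m ∧ Odd (2 * m / i) then Nat.choose (2 * m / i + t - 1) (t - 1) else 0) := by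
  subst hF
  haveI : Fact (2 < r) := ⟨lt_of_le_of_ne hr.two_le hr2.symm⟩
  have hf := plusQ_nondeg F m
  rw [← plusQ_coe, count_gen (orthEquiv _) hr (fun x y h => orth_isConj hf h (natCast_ne hr hrp) (hr.odd_of_ne_two hr2))
    (fun s hs => type_even hr hr2 hrp hf (m := m) (by simp; omega) hs), card_SD' hr hr2 hrp hi ht, show (2 * m) / 2 = m by omega, (plusQ_isPlus m).sgn,
    Int.cast_one]
  by_cases h : Odd i
  · rw [if_pos h, if_pos h, if_neg, Nat.sub_zero]
    exact fun k => k.2 (orderOf_dvd_iff_pow_eq_one.mp (hi ▸ Nat.dvd_of_mul_dvd_mul_left two_pos k.1))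
  · rw [if_neg h, if_neg h, Nat.sub_right_comm]
    refine congrArg _ (ite_congr (propext (and_congr_right fun k => ?_)) (fun _ => rfl) (fun _ => rfl))
    rw [pow_half hr (card_ne_zmod hr hrp) hi h k, neg_one_pow_eq_one_iff_even ZMod.neg_one_ne_one, Nat.not_even_iff_odd]

end Cfsg.Agent.S2674
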