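import Cfsg.Statements.S2675
import Cfsg.Agent.H5.Gc7
import Cfsg.Agent.S2674

set_option autoImplicit false
open Cfsg

namespace Cfsg.Agent.S2675

open CfsgH5 CfsgH5.CForm CfsgH5.Gl CfsgH5.Gc Module Polynomial Matrix

/-- Number of conjugacy classes of elements of odd prime order r ≠ p in the orthogonal group O⁻_2m(q) of an elliptic form Σ_(j<m−1) x_j y_j + z₁² + a z₁z₂ + c z₂² (binary part anisotropic, m ≥ 1): with i the multiplicative order of q mod r and t = (r − 1)/i — if i is odd, C(⌊m/i⌋ + t/2, t/2) − 1 minus, when i divides m, the C(m/i + t/2 − 1, t/2 − 1) tuples filling the whole space (dual pairs of totally singular blocks fill a hyperbolic space); if i is even, C(⌊2m/i⌋ + t, t) − 1 minus, when i divides 2m with even quotient, the C(2m/i + t − 1, t − 1) tuples filling the whole space with an even number of elliptic blocks. -/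
theorem result {F : Type*} [Field F] [Fintype F] {p q : ℕ} [Fact p.Prime] [CharP F p] (hF : Fintype.card F = q) (m r i t : ℕ) (hm : 1 ≤ m) (a c : F) (hac : ∀ z₁ z₂ : F, z₁ ^ 2 + a * z₁ * z₂ + c * z₂ ^ 2 = 0 → z₁ = 0 ∧ z₂ = 0) (hr : r.Prime) (hr2 : r ≠ 2) (hrp : r ≠ p) (hi : i = orderOf (q : ZMod r)) (ht : t * i = r - 1) : Nat.card {C : ConjClasses ↥(Cfsg.isometryGroup F (Cfsg.quadFormMinus (m - 1) F a c)) // ∃ g : ↥(Cfsg.isometryGroup F (Cfsg.quadFormMinus (m - 1) F a c)), ConjClasses.mk g = C ∧ orderOf g = r} = if Odd i then Nat.choose (m / i + t / 2) (t / 2) - 1 - (if i ∣ m then Nat.choose (m / i + t / 2 - 1) (t / 2 - 1) else 0) else Nat.choose (2 * m / i + t) t - 1 - (if i ∣ 2 * m ∧ Even (2 * m / i) then Nat.choose (2 * m / i + t - 1) (t - 1) else 0) := by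
  subst hF
  haveI : Fact (2 < r) := ⟨lt_of_le_of_ne hr.two_le hr2.symm⟩
  have hf := minusQ_nondeg (m - 1) hac
  rw [← minusQ_coe, count_gen (orthEquiv _) hr (fun x y h => orth_isConj hf h (natCast_ne hr hrp) (hr.odd_of_ne_two hr2))
    (fun s hs => type_even hr hr2 hrp hf (m := m) (by simp; omega) hs), card_SD' hr hr2 hrp hi ht, show (2 * m) / 2 = m by omega,
    sgn_of_not (minusQ_not_isPlus _ hac), Int.cast_neg, Int.cast_one]
  by_cases h : Odd i
  · rw [if_pos h, if_pos h, Nat.sub_right_comm]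
    refine congrArg _ (ite_congr (propext ((and_congr_left' (Nat.mul_dvd_mul_iff_left two_pos)).trans (and_iff_left_of_imp fun k => ?_))) (fun _ => rfl) (fun _ => rfl))
    rw [orderOf_dvd_iff_pow_eq_one.mp (hi ▸ k)]
    exact ZMod.neg_one_ne_one.symm
  · rw [if_neg h, if_neg h, Nat.sub_right_comm]
    refine congrArg _ (ite_congr (propext (and_congr_right fun k => ?_)) (fun _ => rfl) (fun _ => rfl))
    rw [S2674.pow_half hr (card_ne_zmod hr hrp) hi h k, neg_one_pow_eq_neg_one_iff_odd ZMod.neg_one_ne_one, Nat.not_odd_iff_even]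

end Cfsg.Agent.S2675
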