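import Cfsg.Statements.S2677
import Cfsg.Agent.H5.Rs1
import Cfsg.Agent.S2636
import Cfsg.Agent.S2637

set_option autoImplicit false
open Cfsg

namespace Cfsg.Agent.S2677

open CfsgH5 CfsgH5.Gc Module Matrix S2636

theorem mem_iff {F : Type*} [Field F] {σ : F →+* F} {q n : ℕ} (H : UF σ q) (g : GL (Fin n) F) :
    g ∈ Cfsg.GU n F q ↔ (g.1.map (· ^ q))ᵀ * g.1 = 1 := by
  have k : ∀ u v, Cfsg.hermForm n F q (g.1 *ᵥ u) (g.1 *ᵥ v) = Cfsg.hermForm n F q u (((g.1.map (· ^ q))ᵀ * g.1) *ᵥ v) := fun u v => by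
    have := B_adj (hermC_nondeg H n) (toLin' g.1) u (g.1 *ᵥ v)
    rw [adj_herm] at this
    rw [← mulVec_mulVec]; exact this.symm
  constructor
  · intro h
    exact mat_ext_mulVec fun v => (hermC_nondeg H n).ext_right fun u => by rw [one_mulVec]; exact (k u v).symm.trans (h u v)
  · intro h u v
    exact (k u v).trans (by rw [h, one_mulVec])

theorem map_eq {F K : Type*} [Field F] [Field K] (φ : F →+* K) {n q q' : ℕ} (h : ∀ x, φ x ^ q' = φ (x ^ q)) (g : Matrix (Fin n) (Fin n) F) :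
    ((g.map φ).map (· ^ q'))ᵀ * g.map φ = 1 ↔ (g.map (· ^ q))ᵀ * g = 1 := by
  rw [← (Matrix.map_injective φ.injective).eq_iff (b := 1), Matrix.map_one _ (map_zero φ) (map_one φ), Matrix.map_mul, transpose_map, Matrix.map_map, Matrix.map_map]
  exact Eq.congr_left (congrArg (fun f => (g.map f)ᵀ * g.map φ) (funext h))

/-- Centraliser of a field automorphism of odd prime order in PGU_n(q): let q = q₀^r with r an odd prime, K the field with q² elements and σ a field automorphism of K of order r (fixed field of order q₀²). The elements g of GU_n(q) whose entrywise image under σ is a scalar multiple of g — those whose coset modulo the q + 1 unitary scalars is fixed by σ — number (q + 1)/(q₀ + 1) · |GU_n(q₀)|; equivalently the centraliser in PGU_n(q) of the induced automorphism has the order of PGU_n(q₀). -/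
theorem result {K : Type*} [Field K] [Fintype K] {q₀ q r n : ℕ} (hr : r.Prime) (hr2 : r ≠ 2) (hn : 1 ≤ n) (hq : q = q₀ ^ r) (hK : Fintype.card K = q ^ 2) (σ : K ≃+* K) (hσ : orderOf σ = r) : (Nat.card {g : ↥(Cfsg.GU n K q) // ∃ c : K, c ≠ 0 ∧ ((g : GL (Fin n) K) : Matrix (Fin n) (Fin n) K).map σ = c • ((g : GL (Fin n) K) : Matrix (Fin n) (Fin n) K)} : ℤ) = ((q + 1) / (q₀ + 1) : ℕ) * ((q₀ : ℤ) ^ (n * (n - 1) / 2) * ∏ i : Fin n, ((q₀ : ℤ) ^ ((i : ℕ) + 1) - (-1) ^ ((i : ℕ) + 1))) := by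
  subst hq
  have H := frobq_UF hK
  obtain ⟨F₀, h1, h2⟩ := fixf σ (q := q₀ ^ 2) hσ (by rw [hK, ← pow_mul, ← pow_mul, mul_comm])
  haveI := Fintype.ofFinite F₀
  have H₀ := frobq_UF (Nat.card_eq_fintype_card.symm.trans h2)
  have p0 : ∀ x : F₀, x ^ q₀ ^ r = x ^ q₀ := fun x => by
    obtain ⟨k, rfl⟩ := hr.odd_of_ne_two hr2
    rw [pow_succ, pow_mul q₀, ← h2, Nat.card_eq_fintype_card, pow_mul, FiniteField.pow_card_pow]
  have p1 : ∀ g : GL (Fin n) F₀, GeneralLinearGroup.map F₀.subtype g ∈ Cfsg.GU n K (q₀ ^ r) ↔ g ∈ Cfsg.GU n F₀ q₀ := fun g => by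
    rw [mem_iff H, mem_iff H₀]
    exact map_eq F₀.subtype (fun x => by rw [← map_pow, p0]) _
  have p2 : ∀ c : Kˣ, GeneralLinearGroup.scalar (Fin n) c ∈ Cfsg.GU n K (q₀ ^ r) ↔ c ∈ rootsOfUnity (q₀ ^ r + 1) K := fun c => by
    rw [mem_iff H, mem_rootsOfUnity', show (GeneralLinearGroup.scalar (Fin n) c).1 = diagonal fun _ => c.1 from rfl,
      diagonal_map (by simp [show q₀ ≠ 0 by have := H₀.two_le; omega]), diagonal_transpose, diagonal_mul_diagonal, ← pow_succ, ← diagonal_one, diagonal_eq_diagonal_iff]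
    exact ⟨fun h => h ⟨0, hn⟩, fun h _ => h⟩
  let τ : Cfsg.GU n K (q₀ ^ r) →* Cfsg.GU n K (q₀ ^ r) := ((GeneralLinearGroup.map σ.toRingHom).comp (Subgroup.subtype _)).codRestrict _ fun g =>
    (mem_iff H _).mpr ((map_eq σ.toRingHom (fun x => (map_pow _ _ _).symm) _).mpr ((mem_iff H _).mp g.2))
  have := twist τ ((GeneralLinearGroup.scalar (R := K) (Fin n)).range.subgroupOf _) (by
    rintro ⟨_, h⟩ ⟨c, rfl⟩
    exact Subgroup.mem_center_iff.mpr fun g => Subtype.ext (Units.ext (scalar_commute _ (fun _ => Commute.all _ _) _).eq.symm))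
  haveI nz : NeZero (q₀ ^ r + 1) := ⟨by omega⟩
  let D : rootsOfUnity (q₀ ^ r + 1) K →* rootsOfUnity (q₀ ^ r + 1) K := restrictRootsOfUnity σ _ / MonoidHom.id _
  have hD : ∀ a c, D a = c ↔ σ a.1 = c.1 * a.1 := fun a c => by
    simp [D, div_eq_iff_eq_mul, Units.ext_iff, Subtype.ext_iff]
  rw [← S2637.uOrd_cast (by have := H₀.two_le; omega), ← Nat.cast_mul, Nat.cast_inj]
  refine (Nat.card_congr (Equiv.subtypeEquivRight fun g => ?_)).trans (this.trans (congrArg₂ _ ?_ ?_))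
  · exact ⟨fun ⟨c, a, b⟩ => ⟨Units.mk0 c a, (iff_scal σ g.1 _).mpr b⟩, fun ⟨c, a⟩ => ⟨c, c.ne_zero, (iff_scal σ g.1 _).mp a⟩⟩
  · haveI nz2 : NeZero (q₀ + 1) := ⟨by omega⟩
    have k : ∀ a : F₀, a.1 ^ (q₀ ^ r + 1) = 1 ↔ a ^ (q₀ + 1) = 1 := fun a => by
      rw [pow_succ a, ← p0, ← pow_succ, Subtype.ext_iff]; rfl
    rw [← card_range D (a := q₀ ^ r + 1) (b := q₀ + 1) H.card_roots_succ (by
      rw [← H₀.card_roots_succ]
      symm
      exact Nat.card_eq_of_bijective (fun a => ⟨⟨Units.map F₀.subtype.toMonoidHom a, (mem_rootsOfUnity' _ _).mpr ((k _).mpr ((mem_rootsOfUnity' _ _).mp a.2))⟩,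
        (hD _ 1).mpr (by simpa using (h1 _).mp a.1.1.2)⟩)
        ⟨fun a b h => Subtype.ext (Units.ext (Subtype.ext (congrArg (·.1.1.1) h))), fun a => ⟨⟨Units.mk0 ⟨a.1.1, (h1 _).mpr (by simpa using (hD _ 1).mp a.2)⟩
          (fun e => a.1.1.ne_zero (congrArg Subtype.val e)), (mem_rootsOfUnity' _ _).mpr ((k _).mp ((mem_rootsOfUnity' _ _).mp a.1.2))⟩,
            Subtype.ext (Subtype.ext (Units.ext rfl))⟩⟩)]
    symm
    refine Nat.card_eq_of_bijective (fun c => ⟨⟨GeneralLinearGroup.scalar _ c.1.1, (p2 _).mpr c.1.2⟩, ⟨_, rfl⟩, ?_⟩)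
      ⟨fun a b h => Subtype.ext (Subtype.ext (scal_inj hn (congrArg (·.1.1) h))), ?_⟩
    · obtain ⟨_, a, rfl⟩ := c
      refine ⟨⟨GeneralLinearGroup.scalar _ a.1, (p2 _).mpr a.2⟩, Subtype.ext ((iff_scal σ _ _).mpr ?_).symm⟩
      ext i j; simp [diagonal_apply, apply_ite σ, (hD a _).mp rfl]
    · rintro ⟨⟨y, hc⟩, ⟨c, e⟩, g, hg⟩
      obtain rfl : GeneralLinearGroup.scalar _ c = y := e
      obtain ⟨a, ha⟩ := entry σ hn ((iff_scal σ _ _).mp (congrArg Subtype.val hg).symm)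
      have c1 := (mem_rootsOfUnity' _ _).mp ((p2 c).mp hc)
      have c2 : a.1 ^ (q₀ ^ r + 1) ∈ F₀ := (h1 _).mpr (by rw [map_pow, ha, mul_pow, c1, one_mul])
      obtain ⟨b, hb⟩ := H₀.exists_norm (b := ⟨_, c2⟩) (by
        rw [H₀.pow, ← p0]
        exact Subtype.ext (show (a.1 ^ _) ^ _ = a.1 ^ _ by rw [← H.pow, ← H.norm_eq, map_mul, H.invol, mul_comm]))
      rw [H₀.pow, ← p0, ← pow_succ'] at hb
      have c3 : b.1 ^ (q₀ ^ r + 1) = a.1 ^ (q₀ ^ r + 1) := congrArg Subtype.val hb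
      have c4 : b.1 ≠ 0 := fun e => pow_ne_zero _ a.ne_zero (c3.symm.trans (by rw [e, zero_pow (by omega)]))
      exact ⟨⟨⟨c, (p2 c).mp hc⟩, ⟨a / Units.mk0 _ c4, (mem_rootsOfUnity' _ _).mpr (by simp [div_pow, c3])⟩,
        (hD _ _).mpr (by simp [ha, (h1 _).mp b.2, mul_div_assoc])⟩, rfl⟩
  · rw [← card_GU H₀]
    symm
    refine Nat.card_eq_of_bijective (fun k => ⟨⟨_, (p1 _).mpr k.2⟩, Subtype.ext ((exists_map h1 _).mpr ⟨k.1, rfl⟩)⟩)
      ⟨fun a b h => Subtype.ext (Units.ext (Matrix.map_injective F₀.subtype.injective (congrArg (·.1.1.1) h))), fun g => ?_⟩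
    obtain ⟨k, hk⟩ := (exists_map h1 _).mp (congrArg Subtype.val g.2)
    exact ⟨⟨k, (p1 k).mp (by rw [hk]; exact g.1.2)⟩, Subtype.ext (Subtype.ext hk)⟩

end Cfsg.Agent.S2677
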