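import Cfsg.Statements.S2678
import Cfsg.Agent.H5.Rs1

set_option autoImplicit false
open Cfsg

namespace Cfsg.Agent.S2678

open CfsgH5 CfsgH5.CForm CfsgH5.Rs Module

/-- Field-extension embedding of symplectic groups: for a field K with q² elements and a field F with q elements there is an injective homomorphism Sp_2a(K) → Sp_4a(F). -/
theorem result {K F : Type*} [Field K] [Fintype K] [Field F] [Fintype F] {q : ℕ} (hK : Fintype.card K = q ^ 2) (hF : Fintype.card F = q) (a : ℕ) : ∃ φ : ↥(Matrix.symplecticGroup (Fin a) K) →* ↥(Matrix.symplecticGroup (Fin (2 * a)) F), Function.Injective φ := by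
  subst hF
  letI := (exists_ringHom F K hK).some.toAlgebra
  obtain ⟨g, h1, h2⟩ := exists_symp_symp (F := F) (spForm_nondeg (F := K) a)
  obtain ⟨φ, h3, -⟩ := exists_emb _ _ h2
  obtain ⟨e, he⟩ := symp_exists_isIso (2 * (2 * a)) h1 (spForm_nondeg (2 * a)) (by rw [← finrank_mul_finrank F K, finrank_eq hK]; simp [two_mul]) (by simp [two_mul])
  exact emb_of (spEquiv a) h3 (he.isomEquiv.trans (spEquiv _).symm)

end Cfsg.Agent.S2678
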