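import Cfsg.Statements.S2679
import Cfsg.Agent.H5.Rs1

set_option autoImplicit false
open Cfsg

namespace Cfsg.Agent.S2679

open CfsgH5 CfsgH5.CForm CfsgH5.Rs Module Matrix

theorem isom_of_basis {F V ι : Type*} [Field F] [AddCommGroup V] [Module F V] {P : FP F} {f : CForm P V} (b : Basis ι F V) {g : V →ₗ[F] V}
    (hB : ∀ i j, f.B (g (b i)) (g (b j)) = f.B (b i) (b j)) (hQ : ∀ i, f.Q (g (b i)) = f.Q (b i)) (v : V) : f.Q (g v) = f.Q v := by
  have k1 : ∀ u j, f.B (g u) (g (b j)) = f.B u (b j) := fun u j =>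
    LinearMap.congr_fun (b.ext (f₁ := f.left (g (b j)) ∘ₗ g) (f₂ := f.left (b j)) fun i => hB i j) u
  have k2 : ∀ u v, f.B (g u) (g v) = f.B u v := fun u v =>
    LinearMap.congr_fun (b.ext (f₁ := f.left (g v) ∘ₗ g) (f₂ := f.left v) fun i => by simp [f.B_symm (g v), f.B_symm v, k1]) u
  induction b.mem_span v using Submodule.span_induction with
  | mem x hx => obtain ⟨i, rfl⟩ := hx; exact hQ i
  | zero => simp
  | add x y _ _ a b => rw [map_add, f.Q_add, f.Q_add, a, b, k2]
  | smul c x _ a => rw [map_smul, f.Q_smul, f.Q_smul, a]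

/-- An elliptic orthogonal group embeds in the hyperbolic orthogonal group of the same dimension over the quadratic extension: for a field F with q elements and a field K with q² elements there is an injective homomorphism from O⁻_2m(F) (isometries of Σ_(j<m−1) x_j y_j + z₁² + a z₁z₂ + c z₂², binary part anisotropic) to O⁺_2m(K) (isometries of Σ_(j<m) x_j y_j over K). -/
theorem result {F K : Type*} [Field F] [Fintype F] [Field K] [Fintype K] {q : ℕ} (hF : Fintype.card F = q) (hK : Fintype.card K = q ^ 2) {m : ℕ} (hm : 1 ≤ m) (a c : F) (hac : ∀ z₁ z₂ : F, z₁ ^ 2 + a * z₁ * z₂ + c * z₂ ^ 2 = 0 → z₁ = 0 ∧ z₂ = 0) : ∃ φ : ↥(Cfsg.isometryGroup F (Cfsg.quadFormMinus (m - 1) F a c)) →* ↥(Cfsg.isometryGroup K (Cfsg.quadFormPlus m K)), Function.Injective φ := by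
  subst hF
  let φ := (exists_ringHom F K hK).some
  letI := φ.toAlgebra
  have hd : 4 * c - a ^ 2 ≠ 0 := fun h => by
    obtain ⟨h1, h2⟩ := hac (-a) 2 (by linear_combination h)
    obtain ⟨s, rfl⟩ := exists_sq_of_two_eq_zero h2 c
    exact one_ne_zero (hac s 1 (by linear_combination s ^ 2 * h2 - s * h1)).2
  have hd' : 4 * φ c - φ a ^ 2 ≠ 0 := by simpa [map_ofNat] using (map_ne_zero φ).mpr hd
  haveI : Fact (∀ r : F, r ^ 2 ≠ -c + -a * r) := ⟨fun r h => one_ne_zero (hac r 1 (by linear_combination h)).2⟩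
  obtain ⟨ψ⟩ := FiniteField.nonempty_algHom_of_finrank_dvd (F := F) (K := QuadraticAlgebra F (-c) (-a)) (L := K)
    (by rw [finrank_eq hK, QuadraticAlgebra.finrank_eq_two])
  obtain ⟨ω, hω⟩ : ∃ ω : K, ω ^ 2 + φ a * ω + φ c = 0 := ⟨ψ ⟨0, 1⟩, by
    rw [show φ a = ψ (algebraMap F _ a) from (ψ.commutes a).symm, show φ c = ψ (algebraMap F _ c) from (ψ.commutes c).symm, ← map_pow, ← map_mul, ← map_add,
      ← map_add, map_eq_zero]
    ext <;> simp [sq]⟩
  let f := ofQuad (minusQ (m - 1) (φ a) (φ c))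
  have n1 : f.Nondeg := fun r hr => by
    replace hr : ∀ u, QuadraticMap.polar (Cfsg.quadFormMinus (m - 1) K (φ a) (φ c)) r u = 0 := fun u => f.B_zero_symm (hr u)
    have h0 := hr (Pi.single (.inr 0) 1)
    have h1 := hr (Pi.single (.inr 1) 1)
    simp [polar_minus] at h0 h1
    funext j
    rcases j with (j | j) | j
    · simpa [polar_minus, Pi.single_apply] using hr (Pi.single (.inl (.inr j)) 1)
    · simpa [polar_minus, Pi.single_apply] using hr (Pi.single (.inl (.inl j)) 1)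
    · fin_cases j
      exacts [mul_left_cancel₀ hd' (by simp only [Fin.zero_eta, Pi.zero_apply]; linear_combination 2 * φ c * h0 - φ a * h1),
        mul_left_cancel₀ hd' (by simp only [Fin.mk_one, Pi.zero_apply]; linear_combination 2 * h1 - φ a * h0)]
  have he : Function.Injective (Sum.inl ∘ Sum.inl : Fin (m - 1) → (Fin (m - 1) ⊕ Fin (m - 1)) ⊕ Fin 2) := Sum.inl_injective.comp Sum.inl_injective
  have p1 : f.IsPlus := by
    refine ⟨_, TS.sup_span (W := LinearMap.range (extZero K (Sum.inl ∘ Sum.inl))) (x := Sum.elim 0 ![ω, 1]) (TS_orth.2 fun w hw => ?_) ?_ fun w hw => ?_, ?_⟩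
    · rw [mem_range_extZero he] at hw
      simp [f, minusQ_coe, Cfsg.quadFormMinus, hw]
    · simpa [f, minusQ_coe, Cfsg.quadFormMinus] using hω
    · rw [mem_range_extZero he] at hw
      simp [f, ofQuad_B, minusQ_coe, polar_minus, hw]
    · rw [Submodule.finrank_sup_span_singleton, finrank_range_extZero he]
      · simp; omega
      · rw [mem_range_extZero he]
        exact fun h => by simpa using h (.inr 1) (by simp)
  obtain ⟨e, h1⟩ := orth_exists_isIso_even m n1 (plusQ_nondeg K m) (by simp; omega) (by simp [two_mul]) (iff_of_true p1 (plusQ_isPlus m))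
  have q1 : ∀ v, Cfsg.quadFormMinus (m - 1) K (φ a) (φ c) (φ ∘ v) = φ (Cfsg.quadFormMinus (m - 1) F a c v) := fun v => by simp [Cfsg.quadFormMinus]
  have q2 : ∀ (g : Cfsg.isometryGroup F (Cfsg.quadFormMinus (m - 1) F a c)) v, f.Q (toLin' (g.1.1.map φ) (φ ∘ v)) = f.Q (φ ∘ v) := fun g v => by
    rw [toLin'_apply, show g.1.1.map φ *ᵥ (φ ∘ v) = φ ∘ (g.1.1 *ᵥ v) from funext fun i => (RingHom.map_mulVec ..).symm]
    exact (q1 _).trans ((congrArg φ (g.2 v v)).trans (q1 _).symm)
  have q3 : ∀ i, Pi.basisFun K ((Fin (m - 1) ⊕ Fin (m - 1)) ⊕ Fin 2) i = φ ∘ Pi.single i 1 := fun i => by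
    ext j; simp [Pi.single_apply]
  let χ : Cfsg.isometryGroup F (Cfsg.quadFormMinus (m - 1) F a c) →* Cfsg.isometryGroup K (minusQ (m - 1) (φ a) (φ c)) :=
    ((GeneralLinearGroup.map φ).comp (Subgroup.subtype _)).codRestrict _ fun g u _ => isom_of_basis (f := f) (Pi.basisFun K _) (g := toLin' (g.1.1.map φ))
      (fun i j => by rw [orth_B, orth_B, ← map_add, q3, q3, q2, q2, ← show φ ∘ (_ + _) = φ ∘ _ + φ ∘ _ from funext fun _ => map_add .., q2])
      (fun i => by rw [q3, q2]) u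
  exact emb_of (MulEquiv.refl _) (φ := χ) (fun x y h => Subtype.ext (Units.ext (Matrix.map_injective φ.injective (congrArg (·.1.1) h))))
    ((orthEquiv _).trans (h1.isomEquiv.trans (orthEquiv _).symm))

end Cfsg.Agent.S2679
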