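import Cfsg.Statements.S2682
import Cfsg.Agent.S2680

set_option autoImplicit false
open Cfsg

namespace Cfsg.Agent.S2682

open CfsgH5.In

/-- Centraliser order of an involution t of Sp_2m(q), q even, with s = rank(t − 1) even and f(v, tv) ≠ 0 for some v, f the symplectic form (type c_s): |C(t)| = q^(2ms − (3s² − 3s)/2 − 1) · |Sp_(s−2)(q)| · |Sp_(2m−2s)(q)|. -/
theorem result {F : Type*} [Field F] [Fintype F] [CharP F 2] {q : ℕ} (hF : Fintype.card F = q) {m s : ℕ} (t : Matrix.symplecticGroup (Fin m) F) (ht : t ^ 2 = 1) (hs : ((t : Matrix (Fin m ⊕ Fin m) (Fin m ⊕ Fin m) F) - 1).rank = s) (heven : Even s) (hna : ∃ v : Fin m ⊕ Fin m → F, Cfsg.sympForm m F v ((t : Matrix (Fin m ⊕ Fin m) (Fin m ⊕ Fin m) F).mulVec v) ≠ 0) : Nat.card ↥(Subgroup.centralizer ({t} : Set ↥(Matrix.symplecticGroup (Fin m) F))) = q ^ (2 * m * s - (3 * s ^ 2 - 3 * s) / 2 - 1) * ((q : ℕ) ^ (((s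 - 2) / 2) ^ 2) * ∏ i : Fin ((s - 2) / 2), (q ^ (2 * ((i : ℕ) + 1)) - 1)) * ((q : ℕ) ^ ((m - s) ^ 2) * ∏ i : Fin (m - s), (q ^ (2 * ((i : ℕ) + 1)) - 1)) := by
  obtain ⟨h, n, n1, n2⟩ := S2680.aux hF t ht hs
  have h0 : s ≠ 0 := by
    rintro rfl
    obtain ⟨v, hv⟩ := hna
    rw [rank_eq (CfsgH5.spEquiv_apply m t), Submodule.finrank_eq_zero, LinearMap.range_eq_bot] at hs
    exact hv ((S2680.alt_iff t).1 (fun v => by simp [hs]) v)
  obtain ⟨j, rfl⟩ : ∃ j, s = 2 * j + 2 := ⟨s / 2 - 1, by grind⟩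
  obtain ⟨k, rfl⟩ := Nat.exists_eq_add_of_le h
  rw [n1, (n2 j).2.2 rfl (not_forall.2 hna), spO_eq, spO_eq, show (2 * j + 2 - 2) / 2 = j by omega, ← mul_assoc (q ^ _) (q ^ (2 * j + 1)), ← pow_add]
  congr 3
  have : 2 * (2 * j + 2 + k) * (2 * j + 2) = 8 * j ^ 2 + 16 * j + 8 + 4 * (j * k) + 4 * k := by ring
  have : (2 * j + 2) ^ 2 = 4 * j ^ 2 + 8 * j + 4 := by ring
  omega

end Cfsg.Agent.S2682
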