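import Cfsg.Statements.S2690
import Cfsg.Agent.H5.Au6

set_option autoImplicit false
open Cfsg

namespace Cfsg.Agent.S2690

/-- Every automorphism of a simple projective special linear group PSL_n(F) over a finite field (n ≥ 2; |F| ≥ 4 when n = 2) is a product δ φ γ of an inner-diagonal automorphism δ (induced by an invertible matrix), a standard field automorphism φ (one automorphism of F applied to every entry, possibly the identity) and γ either the identity or the inverse-transpose automorphism. -/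
theorem result {F : Type*} [Field F] [Fintype F] {p f : ℕ} [Fact p.Prime] (hF : Fintype.card F = p ^ f) (hf : 1 ≤ f) {n : ℕ} (hn : 2 ≤ n) (hs : n = 2 → 4 ≤ Fintype.card F) (β : MulAut (Matrix.ProjectiveSpecialLinearGroup (Fin n) F)) :
    ∃ (δ φ γ : MulAut (Matrix.ProjectiveSpecialLinearGroup (Fin n) F)) (σ : F ≃+* F), Cfsg.IsInnerDiagonalAutPSL δ ∧ Cfsg.IsStdFieldAutPSL σ φ ∧ (γ = 1 ∨ Cfsg.IsInverseTransposeAutPSL γ) ∧ β = δ * φ * γ := by
  open CfsgH5.Au in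
  obtain ⟨θ, h⟩ := aut_PSL (by simpa using hn) β
  obtain ⟨g, hg⟩ := CfsgH5.Au.exists_mkΓ θ
  have key : CfsgH5.Au.ΨL _ F θ = CfsgH5.Au.ΨL _ F (CfsgH5.Au.Γ.lin (CfsgH5.Au.gl g)) *
      CfsgH5.Au.ΨL _ F (CfsgH5.Au.std _ θ.σ) := by
    rw [← map_mul]; exact congrArg _ hg.symm
  rcases h with h | ⟨-, h⟩
  · exact ⟨_, _, 1, θ.σ, CfsgH5.Au.innerDiag_PSL.2 ⟨_, rfl⟩, CfsgH5.Au.stdField_PSL.2 rfl, Or.inl rfl,
      by rw [h, key, mul_one]⟩
  · exact ⟨_, _, _, θ.σ, CfsgH5.Au.innerDiag_PSL.2 ⟨_, rfl⟩, CfsgH5.Au.stdField_PSL.2 rfl,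
      Or.inr (CfsgH5.Au.invTr_PSL.2 rfl), by rw [h, key]⟩

end Cfsg.Agent.S2690
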