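import Cfsg.Statements.S2691
import Cfsg.Agent.H5.Au11

set_option autoImplicit false
open Cfsg

namespace Cfsg.Agent.S2691

/-- The automorphism group of a simple projective special unitary group PSU_n(q), n ≥ 3, (n, q) ≠ (3, 2), realised over the field F with q² elements through the Hermitian form Σ uᵢ vᵢ^q, is generated by the automorphisms induced by the semilinear maps v ↦ g σ(v) with g a general unitary matrix and σ an automorphism of F (the image of the projective semilinear unitary group). -/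
theorem result {F : Type*} [Field F] [Fintype F] {p f q : ℕ} [Fact p.Prime] (hq : q = p ^ f) (hf : 1 ≤ f) (hF : Fintype.card F = q ^ 2) {n : ℕ} (hn : 3 ≤ n) (hs : ¬ (n = 3 ∧ q = 2)) :
    Cfsg.gammaPSU n F q = ⊤ := by
  have H := CfsgH5.frobq_UF hF
  refine eq_top_iff.2 fun β _ => ?_
  obtain ⟨θ, rfl⟩ := CfsgH5.Au.aut_PSU H hn hs β
  obtain ⟨g, hg, k⟩ := CfsgH5.Au.ΨSU_decomp H (by omega : 2 ≤ n) θ
  obtain ⟨g, rfl⟩ := CfsgH5.Au.gl_surjective g
  rw [k, ← map_mul]
  exact Subgroup.subset_closure ⟨g, θ.1.σ, (CfsgH5.Au.mem_GU H).2 hg,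
    (CfsgH5.Au.induced_PSU H _ ((CfsgH5.Au.mkΓ_mem_Sim (CfsgH5.Au.isSim_std_su H n _)).2
      (CfsgH5.Au.lin_mem_Sim _ hg))).2 rfl⟩

end Cfsg.Agent.S2691
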