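import Cfsg.Statements.S2692
import Cfsg.Agent.H5.Au11

set_option autoImplicit false
open Cfsg

namespace Cfsg.Agent.S2692

/-- Every automorphism of a simple PSU_n(q), n ≥ 3, (n, q) ≠ (3, 2), realised over the field F with q² elements, is a product δ φ of an inner-diagonal automorphism δ (induced by a general unitary matrix) and a standard field automorphism φ (one automorphism of F applied to every entry, possibly the identity; the standard field automorphisms of even order are the graph automorphisms here). -/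
theorem result {F : Type*} [Field F] [Fintype F] {p f q : ℕ} [Fact p.Prime] (hq : q = p ^ f) (hf : 1 ≤ f) (hF : Fintype.card F = q ^ 2) {n : ℕ} (hn : 3 ≤ n) (hs : ¬ (n = 3 ∧ q = 2)) (β : MulAut (Cfsg.PSU n F q)) :
    ∃ (δ φ : MulAut (Cfsg.PSU n F q)) (σ : F ≃+* F), Cfsg.IsInnerDiagonalAutPSU δ ∧ Cfsg.IsFieldAutPSUOf σ φ ∧ β = δ * φ := by
  have H := CfsgH5.frobq_UF hF
  obtain ⟨θ, rfl⟩ := CfsgH5.Au.aut_PSU H hn hs β
  obtain ⟨g, hg, k⟩ := CfsgH5.Au.ΨSU_decomp H (by omega : 2 ≤ n) θ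
  exact ⟨_, _, θ.1.σ, (CfsgH5.Au.innerDiag_PSU H _).2 ⟨g, hg, rfl⟩, (CfsgH5.Au.stdField_PSU H _).2 rfl, k⟩

end Cfsg.Agent.S2692
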