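import Cfsg.Statements.S2693
import Cfsg.Agent.H5.Au11

set_option autoImplicit false
open Cfsg

namespace Cfsg.Agent.S2693

/-- The automorphism group of a simple projective symplectic group PSp_{2m}(F) over a finite field of characteristic p, with m ≥ 2 and (2m, p) ≠ (4, 2), is generated by the automorphisms induced by the semilinear maps v ↦ g σ(v) with g conformal symplectic and σ an automorphism of F (the image of the projective semilinear symplectic group). For (2m, p) = (4, 2) the statement fails: a duality of the underlying polar space gives a further automorphism. -/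
theorem result {F : Type*} [Field F] [Fintype F] {p : ℕ} [Fact p.Prime] [CharP F p] {m : ℕ} (hm : 2 ≤ m) (h4 : m = 2 → p ≠ 2) :
    Cfsg.gammaPSp m F = ⊤ := by
  refine eq_top_iff.2 fun β _ => ?_
  obtain ⟨⟨θ, hθ⟩, rfl⟩ := CfsgH5.Au.aut_PSp (F := F) (m := m) (by
    rcases Nat.lt_or_ge m 3 with h | h
    · refine Or.inr ⟨hm, fun h2 => h4 (by omega) ?_⟩
      exact (Nat.prime_dvd_prime_iff_eq Fact.out Nat.prime_two).1
        ((CharP.cast_eq_zero_iff F p 2).1 (by simpa using h2))
    · exact Or.inl h) β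
  obtain ⟨g, hg⟩ := CfsgH5.Au.exists_mkΓ θ
  have h : CfsgH5.Au.mkΓ g θ.σ ∈ _ := hg ▸ hθ
  exact Subgroup.subset_closure ⟨g, θ.σ, CfsgH5.Au.mem_GSp.2
    ((CfsgH5.Au.mkΓ_mem_Sim (CfsgH5.Au.isSim_std_sp m _)).1 h),
    (CfsgH5.Au.induced_PSp h).2 (by simp only [hg])⟩

end Cfsg.Agent.S2693
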