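import Cfsg.Statements.S2697
import Cfsg.Agent.H5.Au13

set_option autoImplicit false
open Cfsg

namespace Cfsg.Agent.S2697

/-- Let T = PSL_n(F) be simple over a finite field (n ≥ 2; |F| ≥ 4 when n = 2) and let x be a field automorphism or a graph-field automorphism of T of prime order r. Then an element y of the coset Inndiag(T)·x (that is, y = δ x with δ in the inner-diagonal group, the image of PGL_n(F)) has order r if and only if y is conjugate to x by an element of Inndiag(T). -/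
theorem result {F : Type*} [Field F] [Fintype F] {p f : ℕ} [Fact p.Prime] (hF : Fintype.card F = p ^ f) (hf : 1 ≤ f) {n : ℕ} (hn : 2 ≤ n) (hs : n = 2 → 4 ≤ Fintype.card F) (x δ : MulAut (Matrix.ProjectiveSpecialLinearGroup (Fin n) F)) (hx : Cfsg.IsFieldAutClassPSL x ∨ Cfsg.IsGraphFieldAutClassPSL x) {r : ℕ} (hr : r.Prime) (hxr : orderOf x = r) (hδ : δ ∈ Cfsg.inndiagPSL n F) :
    orderOf (δ * x) = r ↔ Cfsg.IsConjUnder (Cfsg.inndiagPSL n F) x (δ * x) := by
  have h2 : 2 ≤ Fintype.card (Fin n) := by simpa using hn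
  rw [CfsgH5.Au.inndiag_PSL] at hδ ⊢
  have := CfsgH5.Au.DL_normal (F := F) h2
  rcases hx with ⟨α, σ, -, h⟩ | ⟨h3, α, φ, γ, σ, hσ, h, k, e⟩
  · rw [CfsgH5.Au.stdField_PSL] at h
    have ho : orderOf σ = r := by
      rw [← hxr, ← CfsgH5.Au.orderOf_conj_eq h]
      exact ((CfsgH5.Au.pj_ΨL h2).orderOf_std rfl).symm
    exact CfsgH5.Au.lang_red h hxr hδ (ho ▸ CfsgH5.Au.lang_PSL h2 σ)
  · rw [CfsgH5.Au.stdField_PSL] at h
    rw [CfsgH5.Au.invTr_PSL] at k
    subst h k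
    obtain ⟨k1, k2⟩ := CfsgH5.Au.gf_order (r := r) (θ := CfsgH5.Au.std (Fin n) σ) (by simpa using h3)
      (by rw [← hxr, ← CfsgH5.Au.orderOf_conj_eq e, pow_orderOf_eq_one])
    obtain rfl := hr.even_iff.1 k2
    obtain ⟨q, H⟩ := CfsgH5.Au.gf_UF hσ k1
    refine CfsgH5.Au.lang_red e hxr hδ ?_
    rintro _ ⟨g, rfl⟩ k
    rw [MonoidHom.comp_apply, ← mul_assoc, ← map_mul] at k ⊢
    exact CfsgH5.Au.herm_conj H hn (by simp) k

end Cfsg.Agent.S2697
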