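import Cfsg.Statements.S2699
import Cfsg.Agent.H5.Gr4

set_option autoImplicit false
open Cfsg

namespace Cfsg.Agent.S2699

open CfsgH5 CfsgH5.Gr CfsgH5.Au CfsgH5.CForm Module

theorem two {F : Type*} [Field F] [Finite F] [CharP F 2] {n m : ℕ} (hn : 3 ≤ n) (hnm : n = 2 * m + 1)
    {a : (Fin n → F) ≃ₗ[F] (Fin n → F)} (s : (be a).IsSymm) (k : ¬ (be a).IsAlt) :
    Nonempty (↥(DL (Fin n) F ⊓ Subgroup.centralizer {ga a}) ≃* (spForm F m).Isom) := by
  have h2 : (2 : F) = 0 := CharP.cast_eq_zero F 2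
  let B : LinearMap.BilinForm F (F × (Fin m ⊕ Fin m → F)) :=
    LinearMap.BilinForm.comp (LinearMap.mul F F) (LinearMap.fst _ _ _) (LinearMap.fst _ _ _) +
      (Matrix.toBilin' (Matrix.J (Fin m) F)).comp (LinearMap.snd _ _ _) (LinearMap.snd _ _ _)
  have hB : ∀ u v, B u v = u.1 * v.1 + (spForm F m).B u.2 v.2 := fun u v => by
    simp [B, Matrix.toBilin'_apply', spForm_B, Cfsg.sympForm]
  have sB : B.IsSymm := ⟨fun u v => by
    rw [hB, hB, symp_B_symm]; linear_combination - (spForm F m).B v.2 u.2 * h2⟩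
  have nB : ∀ v, (∀ u, B u v = 0) → v = 0 := fun v h =>
    Prod.ext (by simpa [hB] using h (1, 0)) (spForm_nondeg m _ fun u => by simpa [hB] using h (0, u))
  obtain ⟨e, he⟩ := iso_two (by simp [hnm]; omega) sB s ⟨fun v h => nB v fun u => by rw [sB.eq, h], nB⟩ (be_nd a)
    (fun h => by simpa [hB] using h (1, 0)) k
  refine cent_two (by simp; omega) h2 he (MonoidHom.mk' (fun g => (LinearEquiv.refl F F).prodCongr g.1) fun _ _ => rfl)
    (fun g g' h => Subtype.ext (LinearEquiv.ext fun v => congrArg (fun x => (x (0, v)).2) h)) fun g => ⟨?_, fun h => ?_⟩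
  · rintro ⟨g, rfl⟩ u v
    rw [hB, hB, ← (spForm F m).Isom_B g.2 u.2]; rfl
  · have h1 : ∀ u, (g u).1 = u.1 := fun u => sq_inj2 h2 (by simpa [hB, symp_B_self, sq] using h u u)
    have h3 : ∀ u v, (spForm F m).B (g u).2 (g v).2 = (spForm F m).B u.2 v.2 := fun u v => by
      simpa [hB, h1] using h u v
    let t := LinearMap.snd _ _ _ ∘ₗ g.toLinearMap ∘ₗ LinearMap.inr F F (Fin m ⊕ Fin m → F)
    have ti : Function.Injective t := (injective_iff_map_eq_zero _).2 fun v hv => spForm_nondeg (F := F) m _ fun u => by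
      rw [← h3 (0, u) (0, v), show (g (0, v)).2 = 0 from hv]; simp
    have h4 : ∀ c, (g (c, 0)).2 = 0 := fun c => spForm_nondeg (F := F) m _ fun u => by
      obtain ⟨u, rfl⟩ := LinearMap.injective_iff_surjective.1 ti u
      exact (h3 (0, u) (c, 0)).trans (by simp)
    refine ⟨⟨LinearEquiv.ofInjectiveEndo t ti, mem_Isom_symp.2 fun u v => h3 (0, u) (0, v)⟩,
      LinearEquiv.ext fun v => Prod.ext (h1 v).symm ?_⟩
    change (g (0, v.2)).2 = _
    conv_rhs => rw [show v = (v.1, 0) + (0, v.2) by simp, map_add, Prod.snd_add, h4, zero_add]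

/-- Let T = PSL_n(F) over the field with p^f elements with n ≥ 3 odd, n = 2m + 1, and G = Inndiag(T) the image of PGL_n(F). Every involutory graph automorphism γ of T (an inner-diagonal automorphism followed by inverse-transpose, of order 2) has centralizer C_G(γ) isomorphic to the projective conformal orthogonal group of the form x₀² + Σ xᵢ yᵢ in dimension n (for q even this group is isomorphic to Sp_{n−1}(q)), and any two involutory graph automorphisms are G-conjugate. -/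
theorem result {F : Type*} [Field F] [Fintype F] {p f : ℕ} [Fact p.Prime] (hF : Fintype.card F = p ^ f) (hf : 1 ≤ f) {n : ℕ} (hn : 3 ≤ n) {m : ℕ} (hnm : n = 2 * m + 1) (γ γ' : MulAut (Matrix.ProjectiveSpecialLinearGroup (Fin n) F)) (hγ : Cfsg.IsGraphAutClassPSL γ) (hγ2 : orderOf γ = 2) (hγ' : Cfsg.IsGraphAutClassPSL γ') (hγ'2 : orderOf γ' = 2) :
    Nonempty (↥(Cfsg.inndiagPSL n F ⊓ Subgroup.centralizer {γ}) ≃* Cfsg.PGO F (Cfsg.quadFormOdd m F)) ∧ Cfsg.IsConjUnder (Cfsg.inndiagPSL n F) γ γ' := by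
  obtain ⟨-, a, rfl⟩ := graph_iff.1 hγ
  obtain ⟨-, b, rfl⟩ := graph_iff.1 hγ'
  have h3 : 3 ≤ Fintype.card (Fin n) := by simpa using hn
  have na : ∀ a : (Fin n → F) ≃ₗ[F] (Fin n → F), ¬ (be a).IsAlt := fun a h => by
    obtain ⟨k, hk⟩ := alt_even h; simp at hk; omega
  have sa := ((order_ga h3).1 hγ2).resolve_right (na a)
  have sb := ((order_ga h3).1 hγ'2).resolve_right (na b)
  rw [inndiag_PSL]
  by_cases h2 : (2 : F) = 0
  · have := CharTwo.of_one_ne_zero_of_two_eq_zero one_ne_zero h2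
    obtain ⟨e1⟩ := two hn hnm sa (na a)
    obtain ⟨e2⟩ := Cfsg.Agent.S0304.result (F := F) m
    obtain ⟨e3⟩ := pgo_two h2 (oddQ F m) (v := Pi.single (.inl ()) 1) (by simp [oddQ_coe, Cfsg.quadFormOdd])
    exact ⟨⟨((e1.trans (spEquiv m).symm).trans e2.symm).trans e3⟩, conj_two (by omega) sa sb (na a) (na b)⟩
  · have hr : finrank F (Fin n → F) = 2 * m + 1 := by simpa using hnm
    obtain ⟨c, e, -, he⟩ := orth_exists_similar_odd m (oddQ_nondeg h2 m) (ofSymm_nondeg h2 sa (be_nd a))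
      (by simp; omega) hr
    obtain ⟨c', e', he'⟩ := orth_exists_similar_odd m (ofSymm_nondeg h2 sa (be_nd a)) (ofSymm_nondeg h2 sb (be_nd b))
      hr hr
    exact ⟨cent_orth (by omega) h2 sa he, (conj_symm (by omega) h2 sa sb).2 ⟨c', e', he'⟩⟩

end Cfsg.Agent.S2699
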