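import Cfsg.Statements.S2700
import Cfsg.Agent.H5.Gr2

set_option autoImplicit false
open Cfsg

namespace Cfsg.Agent.S2700

open CfsgH5 CfsgH5.Gr CfsgH5.Au

/-- Let T = PSL_n(F) over a finite field of odd order with n = 2m ≥ 4 even, and G = Inndiag(T) the image of PGL_n(F). The involutory graph automorphisms of T fall into exactly three G-classes, with representatives γ₁, γ₂, γ₃ whose centralizers in G are isomorphic respectively to the projective conformal symplectic group PGSp_n(F), the projective conformal orthogonal group of the plus-type form Σ xᵢ yᵢ, and that of a minus-type form Σ xᵢ yᵢ + z₁² + a z₁ z₂ + b z₂² (anisotropic binary part) in dimension n. -/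
theorem result {F : Type*} [Field F] [Fintype F] (hodd : Odd (Fintype.card F)) {n m : ℕ} (hm : 2 ≤ m) (hnm : n = 2 * m) :
    ∃ (γ₁ γ₂ γ₃ : MulAut (Matrix.ProjectiveSpecialLinearGroup (Fin n) F)) (a b : F), (∀ z₁ z₂ : F, z₁ ^ 2 + a * z₁ * z₂ + b * z₂ ^ 2 = 0 → z₁ = 0 ∧ z₂ = 0) ∧ Cfsg.IsGraphAutClassPSL γ₁ ∧ orderOf γ₁ = 2 ∧ Cfsg.IsGraphAutClassPSL γ₂ ∧ orderOf γ₂ = 2 ∧ Cfsg.IsGraphAutClassPSL γ₃ ∧ orderOf γ₃ = 2 ∧ ¬ Cfsg.IsConjUnder (Cfsg.inndiagPSL n F) γ₁ γ₂ ∧ ¬ Cfsg.IsConjUnder (Cfsg.inndiagPSL n F) γ₁ γ₃ ∧ ¬ Cfsg.IsConjUnder (Cfsg.inndiagPSL n F) γ₂ γ₃ ∧ (∀ γ : MulAut (Matrix.ProjectiveSpecialLinearGroup (Fin n) F), Cfsg.IsGraphAutClassPSL γ → orderOf γ = 2 → Cfsg.IsConjUnder (Cfsg.inndiagPSL n F) γ₁ γ ∨ Cfsg.IsConjUnder (Cfsg.inndiagPSL n F) γ₂ γ ∨ Cfsg.IsConjUnder (Cfsg.inndiagPSL n F) γ₃ γ) ∧ Nonempty (↥(Cfsg.inndiagPSL n F ⊓ Subgroup.centralizer {γ₁}) ≃* Cfsg.PGSp m F)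 ∧ Nonempty (↥(Cfsg.inndiagPSL n F ⊓ Subgroup.centralizer {γ₂}) ≃* Cfsg.PGO F (Cfsg.quadFormPlus m F)) ∧ Nonempty (↥(Cfsg.inndiagPSL n F ⊓ Subgroup.centralizer {γ₃}) ≃* Cfsg.PGO F (Cfsg.quadFormMinus (m - 1) F a b)) := by
  have h2 := two_ne_of_odd hodd
  have hc : Fintype.card (Fin n) = 2 * m := by simpa using hnm
  have h3 : 3 ≤ Fintype.card (Fin n) := by omega
  have : Nonempty (Fin n) := Fintype.card_pos_iff.1 (by omega)
  obtain ⟨a, b, hab⟩ := Gc.exists_quad_aniso (F := F)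
  obtain ⟨a1, h1⟩ := exists_alt (F := F) hc
  obtain ⟨a2, s2, p2⟩ := exists_type (ι := Fin n) h2 (plusQ_nondeg F m) (by simp; omega)
  obtain ⟨a3, s3, p3⟩ := exists_type (ι := Fin n) h2 (minusQ_nondeg (m - 1) hab) (by simp; omega)
  have q2 := p2.1 (plusQ_isPlus m)
  have q3 := mt p3.2 (minusQ_not_isPlus _ hab)
  have g : ∀ a : (Fin n → F) ≃ₗ[F] (Fin n → F), Cfsg.IsGraphAutClassPSL (ga a) := fun a =>
    graph_iff.2 ⟨by omega, a, rfl⟩
  rw [inndiag_PSL]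
  refine ⟨ga a1, ga a2, ga a3, a, b, hab, g _, (order_ga h3).2 (.inr h1), g _, (order_ga h3).2 (.inl s2), g _,
    (order_ga h3).2 (.inl s3), fun k => not_alt_symm h2 (alt_of_conj (by omega) h1 k) s2,
    fun k => not_alt_symm h2 (alt_of_conj (by omega) h1 k) s3,
    fun k => q3 (((conj_even hc (by omega) h2 s2 s3).1 k).1 q2), fun γ hγ ho => ?_, cent_sp hc (by omega) h1,
    cent_even hc (by omega) h2 s2 (plusQ_nondeg F m) (by simp [two_mul]) p2,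
    cent_even hc (by omega) h2 s3 (minusQ_nondeg (m - 1) hab) (by simp; omega) p3⟩
  obtain ⟨-, c, rfl⟩ := graph_iff.1 hγ
  rcases (order_ga h3).1 ho with k | k
  · by_cases p : (CForm.ofSymm (be c)).IsPlus
    · exact .inr (.inl ((conj_even hc (by omega) h2 s2 k).2 (iff_of_true q2 p)))
    · exact .inr (.inr ((conj_even hc (by omega) h2 s3 k).2 (iff_of_false q3 p)))
  · exact .inl (conj_alt (by omega) h1 k)

end Cfsg.Agent.S2700
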