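import Cfsg.Statements.S2701
import Cfsg.Agent.H5.Gr4

set_option autoImplicit false
open Cfsg

namespace Cfsg.Agent.S2701

open CfsgH5 CfsgH5.Gr CfsgH5.Au CfsgH5.CForm Module Matrix

/-- Let T = PSL_n(F) over a finite field of characteristic 2 with n = 2m ≥ 4 even, and G = Inndiag(T) the image of PGL_n(F). The involutory graph automorphisms of T fall into exactly two G-classes, with representatives γ₁ and γ₃ whose centralizers in G are isomorphic respectively to the symplectic group Sp_n(F) and to the centralizer in Sp_n(F) of a symplectic transvection. -/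
theorem result {F : Type*} [Field F] [Fintype F] [CharP F 2] {n m : ℕ} (hm : 2 ≤ m) (hnm : n = 2 * m) :
    ∃ (γ₁ γ₃ : MulAut (Matrix.ProjectiveSpecialLinearGroup (Fin n) F)) (t : ↥(Matrix.symplecticGroup (Fin m) F)), Cfsg.IsTransvection (t : Matrix (Fin m ⊕ Fin m) (Fin m ⊕ Fin m) F) ∧ Cfsg.IsGraphAutClassPSL γ₁ ∧ orderOf γ₁ = 2 ∧ Cfsg.IsGraphAutClassPSL γ₃ ∧ orderOf γ₃ = 2 ∧ ¬ Cfsg.IsConjUnder (Cfsg.inndiagPSL n F) γ₁ γ₃ ∧ (∀ γ : MulAut (Matrix.ProjectiveSpecialLinearGroup (Fin n) F), Cfsg.IsGraphAutClassPSL γ → orderOf γ = 2 → Cfsg.IsConjUnder (Cfsg.inndiagPSL n F) γ₁ γ ∨ Cfsg.IsConjUnder (Cfsg.inndiagPSL n F) γ₃ γ) ∧ Nonempty (↥(Cfsg.inndiagPSL n F ⊓ Subgroup.centralizer {γ₁}) ≃* ↥(Matrix.symplecticGroup (Fin m) F)) ∧ Nonempty (↥(Cfsg.inndiagPSL n F ⊓ Subgroup.centralizer {γ₃}) ≃* ↥(Subgroup.centralizer ({t} : Set ↥(Matrix.symplecticGroup (Fin m) F)))) := by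
  have h2 : (2 : F) = 0 := CharP.cast_eq_zero F 2
  have hc : Fintype.card (Fin n) = 2 * m := by simpa using hnm
  have h3 : 3 ≤ Fintype.card (Fin n) := by omega
  let f := spForm F m
  have nd : f.Nondeg := spForm_nondeg m
  have sy : ∀ u v, f.B u v = f.B v u := fun u v => by rw [symp_B_symm]; linear_combination - f.B v u * h2
  let w : Fin m ⊕ Fin m → F := Pi.single (.inl ⟨0, by omega⟩) 1
  have w0 : w ≠ 0 := by simp [w]
  obtain ⟨x, hx⟩ : ∃ x, f.B x w = 1 := by
    obtain ⟨x, hx⟩ : ∃ x, f.B x w ≠ 0 := by by_contra! k; exact w0 (nd _ k)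
    exact ⟨(f.B x w)⁻¹ • x, by rw [f.B_smul_left, inv_mul_cancel₀ hx]⟩
  obtain ⟨t, ht⟩ := symp_exists_transvection (f := f) w 1
  have ta : ∀ v, t v = v + f.B v w • w := fun v => by simpa using ht.app v
  let T := (spEquiv m).symm ⟨t, ht.mem_Isom⟩
  have Ta : ∀ v, (T.1 - 1) *ᵥ v = f.B v w • w := fun v => by
    rw [sub_mulVec, ← spEquiv_apply, one_mulVec]; simp [T, ta]
  let B : LinearMap.BilinForm F (Fin m ⊕ Fin m → F) := Matrix.toBilin' (Matrix.J (Fin m) F)
  have hB : ∀ u v, B u v = f.B u v := fun u v => by simp [B, f, Matrix.toBilin'_apply', spForm_B, Cfsg.sympForm]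
  let B3 : LinearMap.BilinForm F (Fin m ⊕ Fin m → F) :=
    B + LinearMap.BilinForm.comp (LinearMap.mul F F) (B.flip w) (B.flip w)
  have hB3 : ∀ u v, B3 u v = f.B u v + f.B u w * f.B v w := fun u v => by simp [B3, hB]
  have s3 : B3.IsSymm := ⟨fun u v => by rw [hB3, hB3, sy, mul_comm]⟩
  have n3 : ∀ v, (∀ u, B3 u v = 0) → v = 0 := fun v h => by
    have k : v + f.B v w • w = 0 := nd _ fun u => by
      rw [← h u, hB3, ← hB, map_add, map_smul, hB, hB, smul_eq_mul, mul_comm]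
    have := h w
    rw [hB3, symp_B_self, zero_mul, add_zero, sy] at this
    simpa [this] using k
  let e : (Fin n → F) ≃ₗ[F] (Fin m ⊕ Fin m → F) := LinearEquiv.ofFinrankEq _ _ (by simp [hnm, two_mul])
  obtain ⟨a1, h1⟩ := exists_be (B := B.comp e.toLinearMap e.toLinearMap)
    fun v h => e.map_eq_zero_iff.1 (nd _ fun u => by simpa [hB] using h (e.symm u))
  obtain ⟨a3, h4⟩ := exists_be (B := B3.comp e.toLinearMap e.toLinearMap)
    fun v h => e.map_eq_zero_iff.1 (n3 _ fun u => by simpa using h (e.symm u))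
  have al : (be a1).IsAlt := fun v => by simp [h1, hB, symp_B_self]
  have na : ¬ (be a3).IsAlt := fun h => by simpa [h4, hB3, hx, symp_B_self] using h (e.symm x)
  have sa : (be a3).IsSymm := ⟨fun u v => by rw [h4]; exact s3.eq _ _⟩
  have g : ∀ a : (Fin n → F) ≃ₗ[F] (Fin n → F), Cfsg.IsGraphAutClassPSL (ga a) := fun a =>
    graph_iff.2 ⟨by omega, a, rfl⟩
  let φ := f.Isom.subtype.comp (spEquiv (F := F) m).toMonoidHom
  have φi : Function.Injective φ := Subtype.val_injective.comp (spEquiv m).injective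
  rw [inndiag_PSL]
  refine ⟨ga a1, ga a3, T, ⟨?_, ?_⟩, g _, (order_ga h3).2 (.inr al), g _, (order_ga h3).2 (.inl sa),
    fun k => na (alt_of_conj (by omega) al k), fun γ hγ ho => ?_,
    cent_two (by omega) h2 (e := e.symm) (B := f.B) (fun u v => by simp [h1, hB]) φ φi fun g => ?_,
    cent_two (by omega) h2 (e := e.symm) (B := fun u v => B3 u v) (fun u v => by simp [h4])
      (φ.comp (Subgroup.subtype _)) (φi.comp Subtype.val_injective) fun g => ⟨?_, fun h => ?_⟩⟩
  · rw [Matrix.rank, ← finrank_span_singleton (K := F) w0]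
    refine congrArg (fun S : Submodule F _ => finrank F S) (le_antisymm ?_ (Submodule.span_le.2 ?_))
    · rintro _ ⟨v, rfl⟩
      exact Submodule.mem_span_singleton.2 ⟨_, (Ta v).symm⟩
    · rintro _ rfl
      exact ⟨x, (Ta x).trans (by rw [hx, one_smul])⟩
  · refine Matrix.toLin'.injective (LinearMap.ext fun v => ?_)
    rw [toLin'_apply, ← mulVec_mulVec, Ta, Ta, f.B_smul_left, symp_B_self]; simp
  · obtain ⟨-, c, rfl⟩ := graph_iff.1 hγ
    by_cases k : (be c).IsAlt
    · exact .inl (conj_alt (by omega) al k)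
    · exact .inr (conj_two (by omega) sa (((order_ga h3).1 ho).resolve_right k) na k)
  · rw [← mem_Isom_symp]
    exact ⟨fun ⟨l, e⟩ => e ▸ (spEquiv m l).2, fun h => ⟨(spEquiv m).symm ⟨g, h⟩, by simp [φ]⟩⟩
  · rintro ⟨⟨l, hl⟩, rfl⟩ u v
    have i := (spEquiv m l).2
    have c : ∀ v, φ l (t v) = t (φ l v) := fun v => by
      have := congrArg (fun z => φ z v) (Subgroup.mem_centralizer_singleton_iff.1 hl)
      simpa [φ, T] using this
    have k : φ l w = f.B (φ l x) w • w := by simpa [ta, hx] using c x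
    have k1 : f.B (φ l x) w = 1 := sq_inj2 h2 (by
      rw [one_pow, ← hx, ← f.Isom_B i x w, sq]
      change _ = f.B (φ l x) (φ l w)
      rw [k, ← hB (φ l x) (_ • _), map_smul, hB, smul_eq_mul])
    rw [k1, one_smul] at k
    have k2 : ∀ v, f.B (φ l v) w = f.B v w := fun v => by rw [← f.Isom_B i v w]; exact congrArg _ k.symm
    change B3 (φ l u) (φ l v) = _
    rw [hB3, hB3, k2, k2, ← f.Isom_B i u v]; rfl
  · have k2 : ∀ v, f.B (g v) w = f.B v w := fun v => sq_inj2 h2 (by simpa [hB3, symp_B_self, sq] using h v v)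
    have i : g ∈ f.Isom := mem_Isom_symp.2 fun u v => by simpa [hB3, k2] using h u v
    have k : g w = w := sub_eq_zero.1 (nd _ fun u => by
      obtain ⟨u, rfl⟩ := g.surjective u
      rw [← hB, map_sub, hB, hB, f.Isom_B i, k2, sub_self])
    refine ⟨⟨(spEquiv m).symm ⟨g, i⟩, Subgroup.mem_centralizer_singleton_iff.2 (φi (LinearEquiv.ext fun v => ?_))⟩,
      by simp [φ]⟩
    simp [φ, T, ta, k, k2]

end Cfsg.Agent.S2701
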