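import Cfsg.Statements.S2702
import Cfsg.Agent.H5.Gr3

set_option autoImplicit false
open Cfsg

namespace Cfsg.Agent.S2702

open CfsgH5 CfsgH5.Gr CfsgH5.Au

/-- Let T = PSL_n(F) over the field with q = p^f elements, n ≥ 3, G = Inndiag(T) the image of PGL_n(F), and γ an involutory graph automorphism of T. The G-class of γ is the union of exactly c T-classes, where: if n is even and q is odd, c = gcd(n/2, q − 1) when C_G(γ) is isomorphic to the projective conformal symplectic group PGSp_n(F) (symplectic type) and c = gcd(n, q − 1)/2 otherwise; and c = gcd(n, q − 1) when n is odd or q is even. -/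
theorem result {F : Type*} [Field F] [Fintype F] {p f : ℕ} [Fact p.Prime] (hF : Fintype.card F = p ^ f) (hf : 1 ≤ f) {n : ℕ} (hn : 3 ≤ n) (γ : MulAut (Matrix.ProjectiveSpecialLinearGroup (Fin n) F)) (hγ : Cfsg.IsGraphAutClassPSL γ) (hγ2 : orderOf γ = 2) :
    ((Even n ∧ Odd p ∧ Nonempty (↥(Cfsg.inndiagPSL n F ⊓ Subgroup.centralizer {γ}) ≃* Cfsg.PGSp (n / 2) F)) → Cfsg.splitClassCount (Cfsg.inndiagPSL n F) (Cfsg.Inn (Matrix.ProjectiveSpecialLinearGroup (Fin n) F)) γ = Nat.gcd (n / 2) (p ^ f - 1)) ∧ ((Even n ∧ Odd p ∧ ¬ Nonempty (↥(Cfsg.inndiagPSL n F ⊓ Subgroup.centralizer {γ}) ≃* Cfsg.PGSp (n / 2) F)) → Cfsg.splitClassCount (Cfsg.inndiagPSL n F) (Cfsg.Inn (Matrix.ProjectiveSpecialLinearGroup (Fin n) F)) γ = Nat.gcd n (p ^ f - 1) / 2) ∧ (¬ (Even n ∧ Odd p) → Cfsg.splitClassCount (Cfsg.inndiagPSL n F) (Cfsg.Inn (Matrix.ProjectiveSpecialLinearGroup (Fin n) F)) γ = Nat.gcd n (p ^ f - 1)) := by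
  obtain ⟨-, a, rfl⟩ := graph_iff.1 hγ
  have h3 : 3 ≤ Fintype.card (Fin n) := by simpa using hn
  have : Nonempty (Fin n) := Fintype.card_pos_iff.1 (by omega)
  have ho := (order_ga h3).1 hγ2
  rw [inndiag_PSL, ← hF, ← Nat.card_eq_fintype_card]
  refine ⟨?_, ?_, fun h => ?_⟩
  · rintro ⟨⟨m, hm⟩, hp, ⟨e⟩⟩
    have h2 : (2 : F) ≠ 0 := two_ne_of_odd (hF ▸ hp.pow)
    have hc : Fintype.card (Fin n) = 2 * (n / 2) := by simp; omega
    rcases ho with k | k
    · obtain ⟨b, hb⟩ := exists_alt (F := F) hc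
      obtain ⟨e'⟩ := cent_sp hc (by omega) hb
      exact absurd (Nat.card_congr (e.trans e'.symm).toEquiv) (card_ne h2 hc (by omega) k hb)
    · exact split_alt hc (by omega) k
  · rintro ⟨⟨m, hm⟩, hp, e⟩
    have h2 : (2 : F) ≠ 0 := two_ne_of_odd (hF ▸ hp.pow)
    have hc : Fintype.card (Fin n) = 2 * (n / 2) := by simp; omega
    rcases ho with k | k
    · rw [split_symm h2 hc (by omega) k, ← hc, Fintype.card_fin]
    · exact absurd (cent_sp hc (by omega) k) e
  · rw [split_gen (by omega) a, Fintype.card_fin]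
    rw [Fintype.card_fin]
    by_contra! k
    refine h ⟨Nat.not_odd_iff_even.1 k.1, ?_⟩
    have := card_odd_of_two_ne k.2
    rw [Nat.card_eq_fintype_card, hF] at this
    exact (Nat.odd_pow_iff (by omega)).1 (Nat.odd_iff.2 this)

end Cfsg.Agent.S2702
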