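import Cfsg.Statements.S2703
import Cfsg.Agent.H5.Gr2

set_option autoImplicit false
open Cfsg

namespace Cfsg.Agent.S2703

open CfsgH5 CfsgH5.Gr CfsgH5.Au

/-- Let T = PSL_n(F) over the field with q elements, q odd, n = 2m ≥ 4 even, and ι the inverse-transpose automorphism. Its centralizer in G = Inndiag(T) (the image of PGL_n(F)) is isomorphic to the projective conformal orthogonal group of the plus-type form Σ xᵢ yᵢ in dimension n when n(q − 1)/4 is even, and to that of a minus-type form (Σ xᵢ yᵢ + z₁² + a z₁ z₂ + b z₂² with anisotropic binary part) when n(q − 1)/4 is odd. -/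
theorem result {F : Type*} [Field F] [Fintype F] (hodd : Odd (Fintype.card F)) {n m : ℕ} (hm : 2 ≤ m) (hnm : n = 2 * m) (ι : MulAut (Matrix.ProjectiveSpecialLinearGroup (Fin n) F)) (hι : Cfsg.IsInverseTransposeAutPSL ι) :
    (Even (n * (Fintype.card F - 1) / 4) → Nonempty (↥(Cfsg.inndiagPSL n F ⊓ Subgroup.centralizer {ι}) ≃* Cfsg.PGO F (Cfsg.quadFormPlus m F))) ∧ (¬ Even (n * (Fintype.card F - 1) / 4) → ∃ a b : F, (∀ z₁ z₂ : F, z₁ ^ 2 + a * z₁ * z₂ + b * z₂ ^ 2 = 0 → z₁ = 0 ∧ z₂ = 0) ∧ Nonempty (↥(Cfsg.inndiagPSL n F ⊓ Subgroup.centralizer {ι}) ≃* Cfsg.PGO F (Cfsg.quadFormMinus (m - 1) F a b))) := by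
  have h2 := two_ne_of_odd hodd
  obtain rfl := invTr_PSL.1 hι
  have hc : Fintype.card (Fin n) = 2 * m := by simpa using hnm
  have e : n * (Fintype.card F - 1) / 4 = m * (Fintype.card F - 1) / 2 := by
    rw [hnm, mul_assoc]; omega
  rw [inndiag_PSL, ← ga_one, e, ← Fm.pow_mod_four_iff hodd, ← one_plus h2 hc]
  refine ⟨fun h => cent_even hc (by omega) h2 one_symm (plusQ_nondeg F m) (by simp [two_mul])
    (iff_of_true (plusQ_isPlus m) h), fun h => ?_⟩
  obtain ⟨a, b, hab⟩ := Gc.exists_quad_aniso (F := F)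
  exact ⟨a, b, hab, cent_even hc (by omega) h2 one_symm (minusQ_nondeg (m - 1) hab) (by simp; omega)
    (iff_of_false (minusQ_not_isPlus _ hab) h)⟩

end Cfsg.Agent.S2703
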