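import Cfsg.Statements.S2704
import Cfsg.Agent.H5.Au13

set_option autoImplicit false
open Cfsg

namespace Cfsg.Agent.S2704

/-- Let T = PSL_n(F) over the field F with p^f elements, n ≥ 3, and G = Inndiag(T) the image of PGL_n(F). If x is an involutory graph-field automorphism of T then f is even; x is G-conjugate to every other involutory graph-field automorphism; C_G(x) is isomorphic to the projective general unitary group PGU_n(q₀) with q₀² = p^f, realised over F itself through the Hermitian form Σ uᵢ vᵢ^{q₀}; and the G-class of x is the union of exactly gcd(n, q₀ − 1) T-classes. -/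
theorem result {F : Type*} [Field F] [Fintype F] {p f : ℕ} [Fact p.Prime] (hF : Fintype.card F = p ^ f) (hf : 1 ≤ f) {n : ℕ} (hn : 3 ≤ n) (x : MulAut (Matrix.ProjectiveSpecialLinearGroup (Fin n) F)) (hx : Cfsg.IsGraphFieldAutClassPSL x) (hx2 : orderOf x = 2) :
    Even f ∧ (∀ y : MulAut (Matrix.ProjectiveSpecialLinearGroup (Fin n) F), Cfsg.IsGraphFieldAutClassPSL y → orderOf y = 2 → Cfsg.IsConjUnder (Cfsg.inndiagPSL n F) x y) ∧ Nonempty (↥(Cfsg.inndiagPSL n F ⊓ Subgroup.centralizer {x}) ≃* Cfsg.PGU n F (p ^ (f / 2))) ∧ Cfsg.splitClassCount (Cfsg.inndiagPSL n F) (Cfsg.Inn (Matrix.ProjectiveSpecialLinearGroup (Fin n) F)) x = Nat.gcd n (p ^ (f / 2) - 1) := by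
  have h2 : 2 ≤ Fintype.card (Fin n) := by simp; omega
  rw [CfsgH5.Au.inndiag_PSL]
  have hN := CfsgH5.Au.DL_normal (F := F) h2
  have key : ∀ y : MulAut (Matrix.ProjectiveSpecialLinearGroup (Fin n) F), Cfsg.IsGraphFieldAutClassPSL y →
      orderOf y = 2 → ∃ (α : MulAut (Matrix.ProjectiveSpecialLinearGroup (Fin n) F)) (σ : F ≃+* F),
        Even f ∧ CfsgH5.UF (σ : F →+* F) (p ^ (f / 2)) ∧
        α * y * α⁻¹ = CfsgH5.Au.ΨL _ F (CfsgH5.Au.std _ σ) * CfsgH5.Au.grL _ F := by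
    rintro y ⟨h3, α, φ, γ, σ, hσ, h, k, e⟩ hy
    rw [CfsgH5.Au.stdField_PSL] at h
    rw [CfsgH5.Au.invTr_PSL] at k
    subst h k
    obtain ⟨k1, -⟩ := CfsgH5.Au.gf_order (r := 2) (θ := CfsgH5.Au.std (Fin n) σ) (by simpa using h3)
      (by rw [← hy, ← CfsgH5.Au.orderOf_conj_eq e, pow_orderOf_eq_one])
    obtain ⟨q, H⟩ := CfsgH5.Au.gf_UF hσ k1
    have hf2 : Even f := even_iff_two_dvd.2 (orderOf_eq_prime k1 hσ ▸ CfsgH5.Au.orderOf_dvd_f hF σ)
    obtain rfl : q = p ^ (f / 2) := by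
      refine Nat.pow_left_injective two_ne_zero ?_
      simp only
      rw [← H.card, Nat.card_eq_fintype_card, hF, ← pow_mul, Nat.div_mul_cancel hf2.two_dvd]
    exact ⟨α, σ, hf2, H, e⟩
  obtain ⟨α, σ, k1, H, e⟩ := key x hx hx2
  obtain ⟨⟨e1⟩, k⟩ := CfsgH5.Au.cent_gf H (n := n) (by omega)
  obtain ⟨e'⟩ := CfsgH5.Au.cent_equiv (CfsgH5.Au.DL (Fin n) F) e
  refine ⟨k1, fun y hy hy2 => ?_, ⟨e'.trans e1⟩, by rw [CfsgH5.Au.split_conj CfsgH5.Au.inn_le_DL e, k]⟩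
  obtain ⟨β, τ, -, H', e2⟩ := key y hy hy2
  obtain rfl : σ = τ := RingEquiv.ext fun a => (H.pow a).trans (H'.pow a).symm
  have sq : ∀ z : MulAut (Matrix.ProjectiveSpecialLinearGroup (Fin n) F), orderOf z = 2 →
      ∀ γ, γ * z * γ⁻¹ = CfsgH5.Au.ΨL _ F (CfsgH5.Au.std _ σ) * CfsgH5.Au.grL _ F →
      Cfsg.IsConjUnder (CfsgH5.Au.DL (Fin n) F)
        (CfsgH5.Au.ΨL _ F (CfsgH5.Au.std _ σ) * CfsgH5.Au.grL _ F) z := by
    intro z hz γ hγ
    obtain ⟨χ, c1, c2⟩ := CfsgH5.Au.exists_χ_PSL (F := F) h2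
    have hc : χ z = (σ, -1) := by
      have := congrArg χ hγ
      rw [map_mul, map_mul, map_mul, map_inv, c1, c2 (by simpa using hn)] at this
      have cm : χ γ * χ z = χ z * χ γ := Prod.ext (CfsgH5.Au.ringAut_comm _ _) (mul_comm _ _)
      rw [cm, mul_inv_cancel_right] at this
      simpa using this
    obtain ⟨θ, rfl | ⟨h3, rfl⟩⟩ := CfsgH5.Au.aut_PSL h2 z
    · rw [c1] at hc
      simpa using congrArg Prod.snd hc
    · rw [map_mul, c1, c2 h3] at hc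
      exact CfsgH5.Au.herm_conj H (by omega) (by simpa using congrArg Prod.fst hc)
        (hz ▸ pow_orderOf_eq_one _)
  obtain ⟨a, ha, k2⟩ := sq x hx2 α e
  obtain ⟨b, hb, k3⟩ := sq y hy2 β e2
  exact ⟨b * a⁻¹, mul_mem hb (inv_mem ha), by rw [k3, k2]; group⟩

end Cfsg.Agent.S2704
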