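import Cfsg.Statements.S2705
import Cfsg.Agent.H5.Au15

set_option autoImplicit false
open Cfsg

namespace Cfsg.Agent.S2705

/-- Let T = PSU_n(q) be simple (n ≥ 3, (n, q) ≠ (3, 2), q = p^f), realised over the field F with q² elements, G = Inndiag(T) the image of PGU_n(q) in Aut(T), and x a field automorphism of T (conjugate to a standard field automorphism of odd order) of odd prime order r. Then r divides f; C_G(x) is isomorphic to PGU_n(q₀) with q₀ = p^(f/r), realised over a field F₀ with q₀² elements; and the G-class of x is the union of exactly gcd(n, (q + 1)/(q₀ + 1)) T-classes. -/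
theorem result {F : Type*} [Field F] [Fintype F] {p f q : ℕ} [Fact p.Prime] (hq : q = p ^ f) (hf : 1 ≤ f) (hF : Fintype.card F = q ^ 2) {n : ℕ} (hn : 3 ≤ n) (hs : ¬ (n = 3 ∧ q = 2)) (x : MulAut (Cfsg.PSU n F q)) (hx : Cfsg.IsFieldAutClassPSU x) {r : ℕ} (hr : r.Prime) (hro : Odd r) (hxr : orderOf x = r) (F₀ : Type*) [Field F₀] [Fintype F₀] (hF₀ : Fintype.card F₀ = p ^ (2 * (f / r))) :
    r ∣ f ∧ Nonempty (↥(Cfsg.inndiagPSU n F q ⊓ Subgroup.centralizer {x}) ≃* Cfsg.PGU n F₀ (p ^ (f / r))) ∧ Cfsg.splitClassCount (Cfsg.inndiagPSU n F q) (Cfsg.Inn (Cfsg.PSU n F q)) x = Nat.gcd n ((q + 1) / (p ^ (f / r) + 1)) := by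
  have H := CfsgH5.frobq_UF hF
  rw [CfsgH5.Au.inndiag_PSU H (by omega)]
  have := CfsgH5.Au.πS_normal _ _ (CfsgH5.Au.aut_PSU H hn hs)
  obtain ⟨α, φ, σ, -, ho, k, h⟩ := hx
  rw [CfsgH5.Au.stdField_PSU H (by omega)] at k
  subst k
  obtain rfl : orderOf σ = r := by
    rw [← hxr, ← CfsgH5.Au.orderOf_conj_eq h]
    exact ((CfsgH5.Au.pj_ΨS _ _ (CfsgH5.Au.KS_su H hn)).orderOf_std rfl).symm
  have hF' : Fintype.card F = p ^ (2 * f) := by rw [hF, hq, ← pow_mul, mul_comm]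
  have hd : orderOf σ ∣ f :=
    (Nat.coprime_two_right.2 ho).dvd_of_dvd_mul_left (CfsgH5.Au.orderOf_dvd_f hF' σ)
  obtain ⟨j, E⟩ := CfsgH5.Au.exists_emb' hF' σ F₀ (by rw [hF₀, Nat.mul_div_assoc _ hd])
  have H₀ := CfsgH5.frobq_UF (F := F₀) (q := p ^ (f / orderOf σ)) (by rw [hF₀, ← pow_mul]; congr 1; ring)
  obtain ⟨⟨e⟩, k⟩ := CfsgH5.Au.cent_PSU H H₀ (CfsgH5.Au.compat_of_odd H H₀ ho
    (by rw [← pow_mul, Nat.div_mul_cancel hd, hq])) hn E
  obtain ⟨e'⟩ := CfsgH5.Au.cent_equiv (CfsgH5.Au.DSU H (Nat.le_of_succ_le hn)) h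
  exact ⟨hd, ⟨e'.trans e⟩, by rw [CfsgH5.Au.split_conj (CfsgH5.Au.inn_le_πS _ _) h, k]⟩

end Cfsg.Agent.S2705
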