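import Cfsg.Statements.S2708
import Cfsg.Agent.H5.Gu1
import Cfsg.Agent.S2701

set_option autoImplicit false
open Cfsg

namespace Cfsg.Agent.S2708

open CfsgH5 CfsgH5.Gr CfsgH5.Gu CfsgH5.Au

/-- Let T = PSU_n(q) with n = 2m ≥ 4 even and q even, realised over the field F (of characteristic 2) with q² elements, and G = Inndiag(T) the image of PGU_n(q). The involutory graph automorphisms of T fall into exactly two G-classes, with representatives whose centralizers in G are isomorphic respectively to the symplectic group Sp_n(F₀) and to the centralizer in Sp_n(F₀) of a symplectic transvection, F₀ a field with q elements. -/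
theorem result {F : Type*} [Field F] [Fintype F] [CharP F 2] {q : ℕ} (hF : Fintype.card F = q ^ 2) {n m : ℕ} (hm : 2 ≤ m) (hnm : n = 2 * m) (F₀ : Type*) [Field F₀] [Fintype F₀] (hF₀ : Fintype.card F₀ = q) :
    ∃ (γ₁ γ₃ : MulAut (Cfsg.PSU n F q)) (t : ↥(Matrix.symplecticGroup (Fin m) F₀)), Cfsg.IsTransvection (t : Matrix (Fin m ⊕ Fin m) (Fin m ⊕ Fin m) F₀) ∧ Cfsg.IsGraphAutClassPSU γ₁ ∧ orderOf γ₁ = 2 ∧ Cfsg.IsGraphAutClassPSU γ₃ ∧ orderOf γ₃ = 2 ∧ ¬ Cfsg.IsConjUnder (Cfsg.inndiagPSU n F q) γ₁ γ₃ ∧ (∀ γ : MulAut (Cfsg.PSU n F q), Cfsg.IsGraphAutClassPSU γ → orderOf γ = 2 → Cfsg.IsConjUnder (Cfsg.inndiagPSU n F q) γ₁ γ ∨ Cfsg.IsConjUnder (Cfsg.inndiagPSU n F q) γ₃ γ) ∧ Nonempty (↥(Cfsg.inndiagPSU n F q ⊓ Subgroup.centralizer {γ₁}) ≃* ↥(Matrix.symplecticGroup (Fin m) F₀)) ∧ Nonempty (↥(Cfsg.inndiagPSU n F q ⊓ Subgroup.centralizer {γ₃}) ≃* ↥(Subgroup.centralizer ({t} : Set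 ↥(Matrix.symplecticGroup (Fin m) F₀)))) := by
  obtain ⟨ρ, j, H, E⟩ := exists_data hF hF₀
  have hn : 3 ≤ n := by omega
  have : CharP F₀ 2 := j.charP j.injective 2
  obtain ⟨γ₁, γ₃, t, ht, g1, o1, g3, o3, n1, al, ⟨e1⟩, ⟨e3⟩⟩ := Cfsg.Agent.S2701.result (F := F₀) hm hnm
  obtain ⟨-, a1, rfl⟩ := graph_iff.1 g1
  obtain ⟨-, a3, rfl⟩ := graph_iff.1 g3
  obtain ⟨θ1, P1, z1, h1⟩ := exists_D' H E hn o1
  obtain ⟨θ3, P3, z3, h3⟩ := exists_D' H E hn o3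
  rw [inndiag_PSL] at n1 al e1 e3
  rw [inndiag_PSU H (by omega)]
  refine ⟨_, _, t, ht, h1.graph hn, h1.order hn, h3.graph hn, h3.order hn,
    mt (h1.conj E hn h3).1 n1, fun γ hγ ho => ?_,
    (h1.cent E hn).map fun f => f.trans e1, (h3.cent E hn).map fun f => f.trans e3⟩
  obtain ⟨θ, P, ζ, c, h, rfl⟩ := exists_D (H := H) E hn hγ ho
  rw [h1.conj E hn h, h3.conj E hn h]
  exact al _ (graph_iff.2 ⟨hn, c, rfl⟩) (h.order' E hn)

end Cfsg.Agent.S2708
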