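import Cfsg.Statements.S2709
import Cfsg.Agent.H5.Gu1

set_option autoImplicit false
open Cfsg

namespace Cfsg.Agent.S2709

open CfsgH5 CfsgH5.Gr CfsgH5.Gu CfsgH5.Au

/-- Let T = PSU_n(q) be simple (n ≥ 3, (n,q) ≠ (3,2), q = p^f), realised over the field F with q² elements, G = Inndiag(T) the image of PGU_n(q), and γ an involutory graph automorphism of T. The G-class of γ is the union of exactly c T-classes, where: if n is even and q is odd, c = gcd(n/2, q + 1) when C_G(γ) is isomorphic to PGSp_n(F₀) for a field F₀ with q elements (symplectic type) and c = gcd(n, q + 1)/2 otherwise; and c = gcd(n, q + 1) when n is odd or q is even. -/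
theorem result {F : Type*} [Field F] [Fintype F] {p f q : ℕ} [Fact p.Prime] (hq : q = p ^ f) (hf : 1 ≤ f) (hF : Fintype.card F = q ^ 2) {n : ℕ} (hn : 3 ≤ n) (hs : ¬ (n = 3 ∧ q = 2)) (F₀ : Type*) [Field F₀] [Fintype F₀] (hF₀ : Fintype.card F₀ = q) (γ : MulAut (Cfsg.PSU n F q)) (hγ : Cfsg.IsGraphAutClassPSU γ) (hγ2 : orderOf γ = 2) :
    ((Even n ∧ Odd q ∧ Nonempty (↥(Cfsg.inndiagPSU n F q ⊓ Subgroup.centralizer {γ}) ≃* Cfsg.PGSp (n / 2) F₀)) → Cfsg.splitClassCount (Cfsg.inndiagPSU n F q) (Cfsg.Inn (Cfsg.PSU n F q)) γ = Nat.gcd (n / 2) (q + 1)) ∧ ((Even n ∧ Odd q ∧ ¬ Nonempty (↥(Cfsg.inndiagPSU n F q ⊓ Subgroup.centralizer {γ}) ≃* Cfsg.PGSp (n / 2) F₀)) → Cfsg.splitClassCount (Cfsg.inndiagPSU n F q) (Cfsg.Inn (Cfsg.PSU n F q)) γ = Nat.gcd n (q + 1) / 2) ∧ (¬ (Even n ∧ Odd q) → Cfsg.splitClassCount (Cfsg.inndiagPSU n F q) (Cfsg.Inn (Cfsg.PSU n F q)) γ = Nat.gcd n (q + 1)) := by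
  obtain ⟨ρ, j, H, E⟩ := exists_data hF hF₀
  obtain ⟨θ, P, ζ, a, h, rfl⟩ := exists_D (H := H) E hn hγ hγ2
  have h3 : 3 ≤ Fintype.card (Fin n) := by simpa using hn
  have : Nonempty (Fin n) := Fintype.card_pos_iff.1 (by omega)
  have ho := (order_ga h3).1 (h.order' E hn)
  obtain ⟨c⟩ := h.cent E hn
  rw [inndiag_PSU H (by omega)]
  refine ⟨?_, ?_, fun k => h.split_gen E hn ?_⟩
  · rintro ⟨⟨m, hm⟩, hp, ⟨e⟩⟩
    have h2 : (2 : F₀) ≠ 0 := two_ne_of_odd (hF₀ ▸ hp)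
    have hc : Fintype.card (Fin n) = 2 * (n / 2) := by simp; omega
    rcases ho with k | k
    · obtain ⟨b, hb⟩ := exists_alt (F := F₀) hc
      obtain ⟨e'⟩ := cent_sp hc (by omega) hb
      exact absurd (Nat.card_congr ((c.symm.trans e).trans e'.symm).toEquiv) (card_ne h2 hc (by omega) k hb)
    · exact h.split_alt E hn (by omega) k
  · rintro ⟨⟨m, hm⟩, hp, e⟩
    have h2 : (2 : F₀) ≠ 0 := two_ne_of_odd (hF₀ ▸ hp)
    have hc : Fintype.card (Fin n) = 2 * (n / 2) := by simp; omega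
    rcases ho with k | k
    · exact h.split_symm E hn h2 hp (m := m) (by omega) k
    · exact absurd ((cent_sp hc (by omega) k).map fun f => c.trans f) e
  · rwa [not_and_or, Nat.not_even_iff_odd, Nat.not_odd_iff_even] at k

end Cfsg.Agent.S2709
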