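import Cfsg.Statements.S2710
import Cfsg.Agent.H5.Gu1

set_option autoImplicit false
open Cfsg

namespace Cfsg.Agent.S2710

open CfsgH5 CfsgH5.Gr CfsgH5.Gu CfsgH5.Au

/-- Let T = PSU_n(q) with n ≥ 4 divisible by 4 (n = 2m) and q odd, realised over the field F with q² elements, G = Inndiag(T) the image of PGU_n(q), and φ the standard field automorphism of T attached to the q-th power map of F (it induces inverse-transpose on the unitary matrices and is a graph automorphism). Its centralizer in G is isomorphic to the projective conformal orthogonal group of the plus-type form Σ xᵢ yᵢ in dimension n over a field F₀ with q elements. (Dimensions n ≡ 2 (mod 4) are not covered.) -/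
theorem result {F : Type*} [Field F] [Fintype F] {q : ℕ} (hodd : Odd q) (hF : Fintype.card F = q ^ 2) {n m : ℕ} (hm : 2 ≤ m) (hnm : n = 2 * m) (h4 : 4 ∣ n) (F₀ : Type*) [Field F₀] [Fintype F₀] (hF₀ : Fintype.card F₀ = q) (σ : F ≃+* F) (hσ : ∀ a : F, σ a = a ^ q) (φ : MulAut (Cfsg.PSU n F q)) (hφ : Cfsg.IsFieldAutPSUOf σ φ) :
    Nonempty (↥(Cfsg.inndiagPSU n F q ⊓ Subgroup.centralizer {φ}) ≃* Cfsg.PGO F₀ (Cfsg.quadFormPlus m F₀)) := by
  have H : UF (σ : F →+* F) q := ⟨inferInstance, by rw [Nat.card_eq_fintype_card, hF], hσ⟩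
  obtain ⟨j, E⟩ := exists_emb σ F₀ (by rw [order_ρ H, H.2, Nat.card_eq_fintype_card, hF₀])
  have hn : 3 ≤ n := by omega
  obtain rfl := (stdField_PSU H (by omega)).1 hφ
  have h : D j H ⟨std _ σ, 1, isSim_std_su H n σ⟩ 1 1 1 := ⟨one_ne_zero, rfl, fun _ => rfl, fun u v => by
    simp [hermC_B, Cfsg.hermForm, be_one, dotProduct, ← hσ, E.fix]⟩
  have h2 : (2 : F₀) ≠ 0 := two_ne_of_odd (hF₀ ▸ hodd)
  have hc : Fintype.card (Fin n) = 2 * m := by simpa using hnm
  obtain ⟨c⟩ := h.cent E hn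
  rw [inndiag_PSU H (by omega)]
  refine (cent_even hc (by omega) h2 one_symm (plusQ_nondeg F₀ m) (by simp [two_mul])
    (iff_of_true (plusQ_isPlus m) ((one_plus h2 hc).2 ?_))).map fun f => c.trans f
  obtain ⟨k, rfl⟩ : ∃ k, m = 2 * k := ⟨m / 2, by omega⟩
  obtain ⟨i, rfl⟩ := hodd
  rw [hF₀, pow_mul, Nat.pow_mod, show (2 * i + 1) ^ 2 = 4 * (i * i + i) + 1 by ring]
  simp

end Cfsg.Agent.S2710
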