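import Cfsg.Statements.S2712
import Cfsg.Agent.H5.Au15

set_option autoImplicit false
open Cfsg

namespace Cfsg.Agent.S2712

/-- Let T = PSp_{2m}(F) be simple over the field F with p^f elements (m ≥ 2, (2m, |F|) ≠ (4, 2)), G = Inndiag(T) the image of the projective conformal symplectic group PGSp_{2m}(F), and x a field automorphism of T of prime order r. Then r divides f; C_G(x) is isomorphic to PGSp_{2m}(F₀) for a field F₀ with p^(f/r) elements; and the G-class of x is the union of exactly gcd(gcd(2, p^f − 1), r) T-classes. -/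
theorem result {F : Type*} [Field F] [Fintype F] {p f : ℕ} [Fact p.Prime] (hF : Fintype.card F = p ^ f) (hf : 1 ≤ f) {m : ℕ} (hm : 2 ≤ m) (hs : m = 2 → 3 ≤ Fintype.card F) (x : MulAut (Cfsg.PSp m F)) (hx : Cfsg.IsFieldAutClassPSp x) {r : ℕ} (hr : r.Prime) (hxr : orderOf x = r) (F₀ : Type*) [Field F₀] [Fintype F₀] (hF₀ : Fintype.card F₀ = p ^ (f / r)) :
    r ∣ f ∧ Nonempty (↥(Cfsg.inndiagPSp m F ⊓ Subgroup.centralizer {x}) ≃* Cfsg.PGSp m F₀) ∧ Cfsg.splitClassCount (Cfsg.inndiagPSp m F) (Cfsg.Inn (Cfsg.PSp m F)) x = Nat.gcd (Nat.gcd 2 (p ^ f - 1)) r := by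
  rw [CfsgH5.Au.inndiag_PSp]
  have := CfsgH5.Au.DSp_normal (F := F) hm
  obtain ⟨α, σ, -, h⟩ := hx
  rw [CfsgH5.Au.stdField_PSp] at h
  obtain rfl : orderOf σ = r := by
    rw [← hxr, ← CfsgH5.Au.orderOf_conj_eq h]
    exact ((CfsgH5.Au.pj_ΨS _ _ (CfsgH5.Au.KS_sp hm)).orderOf_std rfl).symm
  obtain ⟨j, E⟩ := CfsgH5.Au.exists_emb' hF σ F₀ hF₀
  obtain ⟨⟨e⟩, k⟩ := CfsgH5.Au.cent_PSp hm E
  obtain ⟨e'⟩ := CfsgH5.Au.cent_equiv (CfsgH5.Au.DSp F m) h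
  have hd := CfsgH5.Au.orderOf_dvd_f hF σ
  refine ⟨hd, ⟨e'.trans e⟩, ?_⟩
  rw [CfsgH5.Au.split_conj (CfsgH5.Au.inn_le_πS _ _) h, k, Nat.card_eq_fintype_card,
    Nat.card_eq_fintype_card, hF, show p ^ f = Fintype.card F₀ ^ orderOf σ by
      rw [hF₀, ← pow_mul, Nat.div_mul_cancel hd]]
  exact CfsgH5.Au.gcd_two_geom Fintype.one_lt_card hr.pos

end Cfsg.Agent.S2712
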