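import Cfsg.Statements.S2715
import Cfsg.Agent.H5.Ch8

set_option autoImplicit false
open Cfsg

namespace Cfsg.Agent.S2715

open CfsgH5 CfsgH5.Au CfsgH5.Oe CfsgH5.Ch
set_option maxHeartbeats 2000000

/-- Let T = PΩ⁺_{2m}(F) (m ≥ 4, |F| = p^f; the form Σ xᵢ yᵢ), G = Inndiag(T) the image of the class-preserving similarities in Aut(T), and x a field automorphism of T of prime order r. Then r divides f; C_G(x) is isomorphic to Inndiag(PΩ⁺_{2m}(F₀)) for a field F₀ with p^(f/r) elements; and the G-class of x is the union of exactly c T-classes, where c = 1 if r is odd or p = 2, and otherwise (r = 2, p odd) c = 2 when m is odd and p^(f/2) ≡ 1 (mod 4), and c = 4 in the remaining cases. -/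
theorem result {F : Type*} [Field F] [Fintype F] {p f : ℕ} [Fact p.Prime] (hF : Fintype.card F = p ^ f) (hf : 1 ≤ f) {m : ℕ} (hm : 4 ≤ m) (x : MulAut (Cfsg.POmega F (Cfsg.quadFormPlus m F))) (hx : Cfsg.IsFieldAutClassPOmega (Cfsg.quadFormPlus m F) x) {r : ℕ} (hr : r.Prime) (hxr : orderOf x = r) (F₀ : Type*) [Field F₀] [Fintype F₀] (hF₀ : Fintype.card F₀ = p ^ (f / r)) :
    r ∣ f ∧ Nonempty (↥(Cfsg.inndiagPOmegaPlus m F ⊓ Subgroup.centralizer {x}) ≃* ↥(Cfsg.inndiagPOmegaPlus m F₀)) ∧ ((Odd r ∨ p = 2) → Cfsg.splitClassCount (Cfsg.inndiagPOmegaPlus m F) (Cfsg.Inn (Cfsg.POmega F (Cfsg.quadFormPlus m F))) x = 1) ∧ ((r = 2 ∧ p ≠ 2 ∧ Odd m ∧ p ^ (f / 2) % 4 = 1) → Cfsg.splitClassCount (Cfsg.inndiagPOmegaPlus m F) (Cfsg.Inn (Cfsg.POmega F (Cfsg.quadFormPlus m F))) x = 2) ∧ ((r = 2 ∧ p ≠ 2 ∧ ¬ (Odd m ∧ p ^ (f / 2) % 4 = 1)) → Cfsg.splitClassCount (Cfsg.inndiagPOmegaPlus m F) (Cfsg.Inn (Cfsg.POmega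 F (Cfsg.quadFormPlus m F))) x = 4) := by
  have E := evP F (by omega : 3 ≤ m)
  have E₀ := evP F₀ (by omega : 3 ≤ m)
  have N := DI_normal (F := F) hm
  obtain ⟨α, φ, σ, h1, h2, h3⟩ := hx
  obtain rfl := (stdField_PO E.nd E.five (isSim_std_plus m σ)).1 h2
  replace h3 : _ = ΨS cm_orth E.om (stP m σ) := h3
  replace hxr := (orderOf_conj_eq h3).trans hxr
  obtain ⟨e'⟩ := cent_equiv (Cfsg.inndiagPOmegaPlus m F) h3
  have sc := split_conj (H := Cfsg.inndiagPOmegaPlus m F) (K := Cfsg.Inn _)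
    ((E.inn_le_DI E.om).trans (inndiag_plus (by omega : 3 ≤ m)).ge) h3
  obtain ⟨d, ⟨c1⟩, c2⟩ := E.field_pack E.om hF (θ := stP m σ) h1 hr hxr hF₀ E₀ E₀.om
    (iff_of_true (plusQ_isPlus m) ⟨plusQ_isPlus m, par_std (by omega) _⟩)
  have k := fun (r2 : r = 2) (h2 : p ≠ 2) => split_field (by omega : 3 ≤ m) E.om (r2 ▸ E.ord_σ E.om (θ := stP m σ) h1 hr hxr)
    (F₀ := F₀) (by rw [hF, hF₀, ← pow_mul, ← r2, Nat.div_mul_cancel d])
    (hF₀ ▸ ((Fact.out : p.Prime).odd_of_ne_two h2).pow)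
  rw [hF₀] at k
  rw [← inndiag_plus (by omega : 3 ≤ m)] at c2 k
  refine ⟨d, ⟨e'.trans (((MulEquiv.subgroupCongr (congrArg (· ⊓ _) (inndiag_plus (by omega : 3 ≤ m)))).trans c1).trans
    (MulEquiv.subgroupCongr (inndiag_plus (by omega : 3 ≤ m)).symm))⟩, fun c => sc.trans (c.elim c2 ?_),
    fun ⟨a, b, c⟩ => sc.trans ((k a b).trans (if_pos (a ▸ c))),
    fun ⟨a, b, c⟩ => sc.trans ((k a b).trans (if_neg (a ▸ c)))⟩
  rintro rfl
  have h2 : (2 : F) = 0 := by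
    have := FiniteField.cast_card_eq_zero F
    rw [hF] at this
    exact pow_eq_zero_iff (by omega : f ≠ 0) |>.1 (by simpa using this)
  rw [inndiag_plus (by omega : 3 ≤ m)]
  exact E.split_one E.om (.inl h2) (.inl h2)

end Cfsg.Agent.S2715
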