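import Cfsg.Statements.S2717
import Cfsg.Agent.H5.Oe10

set_option autoImplicit false
open Cfsg

namespace Cfsg.Agent.S2717

open CfsgH5 CfsgH5.Au CfsgH5.Oe

set_option maxHeartbeats 2000000

/-- Let T = PΩ⁺_{2m}(F) with m ≥ 5 (dimension 2m ≠ 8) and |F| = p^f, G = Inndiag(T), and x an involutory graph-field automorphism of T. Then f is even; any two involutory graph-field automorphisms of T are G-conjugate; C_G(x) is isomorphic to Inndiag(PΩ⁻_{2m}(F₀)) for a field F₀ with p^(f/2) elements (some anisotropic binary part over F₀); and the G-class of x is the union of exactly c T-classes with c = 1 if p = 2, c = 4 if p is odd, m is odd and p^(f/2) ≡ 1 (mod 4), and c = 2 otherwise. -/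
theorem result {F : Type*} [Field F] [Fintype F] {p f : ℕ} [Fact p.Prime] (hF : Fintype.card F = p ^ f) (hf : 1 ≤ f) {m : ℕ} (hm : 5 ≤ m) (x : MulAut (Cfsg.POmega F (Cfsg.quadFormPlus m F))) (hx : Cfsg.IsGraphFieldAutClassPOmegaPlus m x) (hx2 : orderOf x = 2) (F₀ : Type*) [Field F₀] [Fintype F₀] (hF₀ : Fintype.card F₀ = p ^ (f / 2)) :
    Even f ∧ (∀ y : MulAut (Cfsg.POmega F (Cfsg.quadFormPlus m F)), Cfsg.IsGraphFieldAutClassPOmegaPlus m y → orderOf y = 2 → Cfsg.IsConjUnder (Cfsg.inndiagPOmegaPlus m F) x y) ∧ (∃ a₀ b₀ : F₀, (∀ z₁ z₂ : F₀, z₁ ^ 2 + a₀ * z₁ * z₂ + b₀ * z₂ ^ 2 = 0 → z₁ = 0 ∧ z₂ = 0) ∧ Nonempty (↥(Cfsg.inndiagPOmegaPlus m F ⊓ Subgroup.centralizer {x}) ≃* ↥(Cfsg.inndiagPOmegaMinus (m - 1) F₀ a₀ b₀))) ∧ (p = 2 → Cfsg.splitClassCount (Cfsg.inndiagPOmegaPlus m F) (Cfsg.Inn (Cfsg.POmega F (Cfsg.quadFormPlus m F))) x = 1) ∧ ((p ≠ 2 ∧ Odd m ∧ p ^ (f / 2) % 4 =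 1) → Cfsg.splitClassCount (Cfsg.inndiagPOmegaPlus m F) (Cfsg.Inn (Cfsg.POmega F (Cfsg.quadFormPlus m F))) x = 4) ∧ ((p ≠ 2 ∧ ¬ (Odd m ∧ p ^ (f / 2) % 4 = 1)) → Cfsg.splitClassCount (Cfsg.inndiagPOmegaPlus m F) (Cfsg.Inn (Cfsg.POmega F (Cfsg.quadFormPlus m F))) x = 2) := by
  obtain ⟨n, rfl⟩ : ∃ n, m = n + 1 := ⟨m - 1, by omega⟩
  have E := evP F (by omega : 3 ≤ n + 1)
  obtain ⟨θ, rfl, h, hp⟩ := gf_plus hm hx
  obtain ⟨a₀, b₀, h₀⟩ := Gc.exists_quad_aniso (F := F₀)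
  have E₀ := evM h₀ (by omega : 2 ≤ n)
  obtain ⟨d, c1, -⟩ := E.field_pack E.om hF h Nat.prime_two hx2 hF₀ E₀ E₀.om
    (iff_of_false (minusQ_not_isPlus n h₀) fun ⟨_, c⟩ => absurd (c.symm.trans hp) (by decide))
  have k := fun h2 : p ≠ 2 => split_gf (by omega) E.om (aut_plus hm) h hx2 hp (F₀ := F₀)
    (by rw [hF, hF₀, ← pow_mul, Nat.div_mul_cancel d]) (hF₀ ▸ ((Fact.out : p.Prime).odd_of_ne_two h2).pow)
  rw [hF₀] at k
  rw [inndiag_plus (by omega)]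
  refine ⟨even_iff_two_dvd.2 d, fun y hy hy2 => ?_, ⟨a₀, b₀, h₀, ?_⟩, ?_, fun c => (k c.1).trans (if_pos c.2),
    fun c => (k c.1).trans (if_neg c.2)⟩
  · obtain ⟨θ', rfl, h', hp'⟩ := gf_plus hm hy
    have o := E.ord_σ E.om h Nat.prime_two hx2
    exact E.lang E.om (invol_unique (E.ord_σ E.om h' Nat.prime_two hy2) o)
      (orderOf_dvd_iff_pow_eq_one.1 (hx2.trans o.symm).dvd) (orderOf_dvd_iff_pow_eq_one.1 (hy2.trans o.symm).dvd)
      fun _ => hp'.trans hp.symm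
  · change Nonempty (_ ≃* Cfsg.inndiagPOmegaMinus n F₀ a₀ b₀)
    rw [inndiag_minus h₀ (by omega)]
    exact c1
  · rintro rfl
    have h2 : (2 : F) = 0 := by
      have := FiniteField.cast_card_eq_zero F
      rw [hF] at this
      exact pow_eq_zero_iff (by omega : f ≠ 0) |>.1 (by simpa using this)
    exact E.split_one E.om (.inl h2) (.inl h2)

end Cfsg.Agent.S2717
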