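import Cfsg.Statements.S2719
import Cfsg.Agent.H5.Oe9

set_option autoImplicit false
open Cfsg

namespace Cfsg.Agent.S2719

open CfsgH5 CfsgH5.Au CfsgH5.Oe

/-- Let T = PΩ⁻_{2m+2}(F) with m ≥ 3 and |F| = q odd (form with anisotropic binary part z₁² + a z₁ z₂ + b z₂²), G = Inndiag(T), and γ an involutory graph automorphism of T (an automorphism in the image of the semisimilarity group, not inner-diagonal, of order 2). Then the G-class of γ is either a single T-class or the union of exactly two T-classes, and it is the union of two unless m is even and q ≡ 1 (mod 4). -/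
theorem result {F : Type*} [Field F] [Fintype F] (hodd : Odd (Fintype.card F)) {m : ℕ} (hm : 3 ≤ m) (a b : F) (hab : (∀ z₁ z₂ : F, z₁ ^ 2 + a * z₁ * z₂ + b * z₂ ^ 2 = 0 → z₁ = 0 ∧ z₂ = 0)) (γ : MulAut (Cfsg.POmega F (Cfsg.quadFormMinus m F a b))) (hγ : Cfsg.IsGraphAutClassPOmegaMinus m a b γ) (hγ2 : orderOf γ = 2) :
    (Cfsg.splitClassCount (Cfsg.inndiagPOmegaMinus m F a b) (Cfsg.Inn (Cfsg.POmega F (Cfsg.quadFormMinus m F a b))) γ = 1 ∨ Cfsg.splitClassCount (Cfsg.inndiagPOmegaMinus m F a b) (Cfsg.Inn (Cfsg.POmega F (Cfsg.quadFormMinus m F a b))) γ = 2) ∧ (¬ (Even m ∧ Fintype.card F % 4 = 1) → Cfsg.splitClassCount (Cfsg.inndiagPOmegaMinus m F a b) (Cfsg.Inn (Cfsg.POmega F (Cfsg.quadFormMinus m F a b))) γ = 2) := by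
  have E := evM hab (by omega : 2 ≤ m)
  obtain ⟨h1, h2, -⟩ := hγ
  obtain ⟨⟨θ, k⟩, rfl⟩ := (gamma_PO E.nd E.five).le h1
  obtain ⟨g, rfl⟩ := Γ.exists_lin (θ := θ) (by
    by_contra c
    exact minusQ_not_isPlus m hab (E.isPlus_of_two E.om (θ := ⟨θ, k⟩) c hγ2))
  rw [inndiag_minus hab (by omega)] at h2 ⊢
  have d := (Int.units_eq_one_or _).resolve_left fun c => h2 ((E.mem_DI E.om (g := ⟨g, k⟩)).2 c)
  have t := two_ne_of_odd hodd
  refine ⟨(E.split_graph E.om t d hγ2).1, fun h => ?_⟩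
  by_cases c : Even m
  · refine (E.split_graph E.om t d hγ2).2 ((sn_ng_minus hodd hab (by omega)).2 ⟨c, ?_⟩)
    have := Nat.odd_iff.1 hodd
    simp only [c, true_and] at h
    omega
  · exact (E.split_graph_even E.om t (Nat.even_add_one.2 c) d hγ2 :)

end Cfsg.Agent.S2719
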