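import Cfsg.Statements.S2726
import Cfsg.Agent.H5.Oe4

set_option autoImplicit false
open Cfsg

namespace Cfsg.Agent.S2726

open CfsgH5 CfsgH5.Au CfsgH5.Oe

/-- Let T = PΩ⁻_{2m+2}(F) with m ≥ 3 and |F| = q odd (form with anisotropic binary part). Inside Aut(T), the image G̃ of the conformal orthogonal group of the form modulo the image of the special orthogonal group is elementary abelian of order 4. -/
theorem result {F : Type*} [Field F] [Fintype F] (hodd : Odd (Fintype.card F)) {m : ℕ} (hm : 3 ≤ m) (a b : F) (hab : (∀ z₁ z₂ : F, z₁ ^ 2 + a * z₁ * z₂ + b * z₂ ^ 2 = 0 → z₁ = 0 ∧ z₂ = 0)) :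
    (∃ φ : ↥(Cfsg.pgoAut F (Cfsg.quadFormMinus m F a b)) →* Multiplicative (ZMod 2 × ZMod 2), Function.Surjective φ ∧ φ.ker = (Cfsg.psoAut F (Cfsg.quadFormMinus m F a b)).subgroupOf (Cfsg.pgoAut F (Cfsg.quadFormMinus m F a b))) := by
  have E := evM hab (by omega : 2 ≤ m)
  refine E.quot_V4 E.om (two_ne_of_odd hodd) (pgoAut_eq E.nd E.five) fun g => ?_
  rw [← E.pso_iff E.om (two_ne_of_odd hodd), ← psoAut_eq]; rfl

end Cfsg.Agent.S2726
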