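import Cfsg.Statements.S2734
import Cfsg.Agent.H6.FoldFix

set_option autoImplicit false
open Cfsg

namespace Cfsg.Agent.S2734

/-- In the Chevalley group of type D₄ over a finite field F (the matrix group generated by the root elements), a graph automorphism attached to a symmetry π of the Dynkin diagram (sending each fundamental root element x_p(t) to x_{π(p)}(t) and each x_{−p}(t) to x_{−π(p)}(t)) that has order 3 — a standard triality graph automorphism, π being a 3-cycle of the three outer nodes — has fixed-point subgroup isomorphic to the Chevalley group of type G₂ over F. -/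
theorem result {F : Type*} [Field F] [Fintype F] (τ : MulAut ↥(Cfsg.Lie.chevD4.group F)) (hτ : Cfsg.Lie.chevD4.IsGraphAut τ) (hτ3 : orderOf τ = 3) :
    Nonempty (↥(MonoidHom.eqLocus τ.toMonoidHom (MonoidHom.id ↥(Cfsg.Lie.chevD4.group F))) ≃* ↥(Cfsg.Lie.chevG2.group F)) := by
  obtain ⟨π, hπ, h⟩ := CfsgH6.goodD4.isGraphAut_iff.1 hτ
  simp only [CfsgH6.lenD4.graphExp_eq, pow_one] at h
  have h1 : ¬ ∀ i, π (π i) = i := fun e => by
    have : τ ^ 2 = 1 := MulEquiv.ext fun g => (CfsgH6.goodD4.grp F).hom_ext_pm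
      (φ := τ.toMonoidHom.comp τ.toMonoidHom) (ψ := MonoidHom.id _)
      (fun i t => by simp [(h _ _).1, e]) (fun i t => by simp [(h _ _).2, e]) (CfsgH6.goodD4.mem_grp F g)
    have := orderOf_dvd_of_pow_eq_one this
    rw [hτ3] at this
    exact absurd this (by decide)
  obtain ⟨l, hl, e⟩ := CfsgH6.sym_cases CfsgH6.symD4 hπ
  have h2 : π = CfsgH6.pD4 ∨ π = CfsgH6.pD4⁻¹ := by
    simp only [List.mem_cons, List.not_mem_nil, or_false] at hl
    rcases hl with rfl | rfl | rfl | rfl | rfl | rfl
    pick_goal 4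
    · exact Or.inl (Equiv.ext fun i => Fin.ext (e i))
    pick_goal 4
    · exact Or.inr (Equiv.ext fun i => Fin.ext (e i))
    all_goals exact absurd (fun i => Fin.ext (by rw [e, e]; revert i; decide +kernel)) h1
  rcases h2 with rfl | rfl
  · obtain ⟨ψ, h2, h3, -⟩ := CfsgH6.fold_D4 τ.toMonoidHom (fun i t => (h i t).1) (fun i t => (h i t).2)
    exact ⟨((MonoidHom.ofInjective h2).trans (MulEquiv.subgroupCongr h3)).symm⟩
  · obtain ⟨ψ, h2, h3, -⟩ := CfsgH6.fold_D4 τ.symm.toMonoidHom
      (fun i t => τ.symm_apply_eq.2 (by rw [(h _ _).1, CfsgH6.perm_inv_apply]))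
      (fun i t => τ.symm_apply_eq.2 (by rw [(h _ _).2, CfsgH6.perm_inv_apply]))
    exact ⟨((MonoidHom.ofInjective h2).trans (MulEquiv.subgroupCongr (h3.trans
      (Subgroup.ext fun g => τ.symm_apply_eq.trans eq_comm)))).symm⟩

end Cfsg.Agent.S2734
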