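import Cfsg.Statements.S2735
import Cfsg.Agent.H5.Au19

set_option autoImplicit false
open Cfsg

namespace Cfsg.Agent.S2735

/-- Let T = Ω_{2m+1}(F) (m ≥ 3, |F| odd) and x a field automorphism of T of prime order r. Then an element y of the coset Inndiag(T)·x (y = δ x with δ induced by a similarity of the form) has order r if and only if y is conjugate to x by an element of Inndiag(T). (T has no graph or graph-field automorphisms.) -/
theorem result {F : Type*} [Field F] [Fintype F] (hodd : Odd (Fintype.card F)) {m : ℕ} (hm : 3 ≤ m) (x δ : MulAut (Cfsg.POmega F (Cfsg.quadFormOdd m F))) (hx : Cfsg.IsFieldAutClassPOmega (Cfsg.quadFormOdd m F) x) {r : ℕ} (hr : r.Prime) (hxr : orderOf x = r) (hδ : δ ∈ Cfsg.inndiagPOmegaOdd m F) :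
    orderOf (δ * x) = r ↔ Cfsg.IsConjUnder (Cfsg.inndiagPOmegaOdd m F) x (δ * x) := by
  have h2 := CfsgH5.two_ne_of_odd hodd
  rw [CfsgH5.Au.inndiag_POdd h2 hm] at hδ ⊢
  have := CfsgH5.Au.πS_normal _ _ (CfsgH5.Au.aut_POdd h2 hm)
  obtain ⟨α, φ, σ, -, k, h⟩ := hx
  obtain rfl := (CfsgH5.Au.stdField_PO (CfsgH5.oddQ_nondeg h2 m) (CfsgH5.Au.five_odd hm)
    (CfsgH5.Au.isSim_std_odd m σ)).1 k
  have ho' : orderOf σ = r := by
    rw [← hxr, ← CfsgH5.Au.orderOf_conj_eq h]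
    exact ((CfsgH5.Au.pj_ΨS _ _ (CfsgH5.Au.KS_O (CfsgH5.oddQ_nondeg h2 m) (CfsgH5.Au.five_odd hm))).orderOf_std rfl).symm
  exact CfsgH5.Au.lang_red (hD := this) h hxr hδ (ho' ▸ CfsgH5.Au.lang_POdd h2 hm σ)

end Cfsg.Agent.S2735
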