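import Cfsg.Statements.S2738
import Cfsg.Agent.H1.L34b

set_option autoImplicit false
open Cfsg

namespace Cfsg.Agent.S2738

/-- The special linear group SL(3, 4) has centre of order 3 and does not split over it: no subgroup is a complement to the centre (so SL(3, 4) is a non-split central extension of PSL(3, 4) by a group of order 3). -/
theorem result (F : Type*) [Field F] [Fintype F] (hF : Fintype.card F = 4) : Nat.card ↥(Subgroup.center (Matrix.SpecialLinearGroup (Fin 3) F)) = 3 ∧ ¬ ∃ K : Subgroup (Matrix.SpecialLinearGroup (Fin 3) F), Subgroup.IsComplement' (Subgroup.center (Matrix.SpecialLinearGroup (Fin 3) F)) K := by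
  open CfsgH1.Mg CfsgH1.Mc CfsgH1.Mh CfsgH1.Mi CfsgH1.L34 CfsgH7 CfsgH7.Gol MulAction in
  open scoped commutatorElement in
  · have h : Nat.card (Subgroup.center (Matrix.SpecialLinearGroup (Fin 3) F)) = 3 := by
      rw [CfsgH5.card_center_SL, Nat.card_eq_fintype_card, hF]; rfl
    refine ⟨h, fun ⟨K, hK⟩ => ?_⟩
    have h1 : commutator (Matrix.SpecialLinearGroup (Fin 3) F) ≤ K := by
      rw [commutator_def, Subgroup.commutator_le]
      intro x _ y _
      obtain ⟨⟨⟨a, ha⟩, ⟨k, hk⟩⟩, rfl⟩ := hK.2 x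
      obtain ⟨⟨⟨b, hb⟩, ⟨l, hl⟩⟩, rfl⟩ := hK.2 y
      have ha' := Subgroup.mem_center_iff.1 ha
      have hb' := Subgroup.mem_center_iff.1 hb
      have : ⁅a * k, b * l⁆ = ⁅k, l⁆ := by
        simp only [commutatorElement_def, mul_inv_rev]
        calc _ = a * (k * b) * l * k⁻¹ * a⁻¹ * l⁻¹ * b⁻¹ := by group
          _ = (a * (b * k * l * k⁻¹)) * a⁻¹ * l⁻¹ * b⁻¹ := by rw [hb']; group
          _ = b * (k * l * k⁻¹ * l⁻¹) * b⁻¹ := by rw [← ha']; group
          _ = _ := by rw [← hb']; group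
      exact this ▸ K.mul_mem (K.mul_mem (K.mul_mem hk hl) (K.inv_mem hk)) (K.inv_mem hl)
    rw [CfsgH5.commutator_SL_eq_top (by simp), top_le_iff] at h1
    have h2 := hK.disjoint
    rw [h1, disjoint_top] at h2
    rw [h2] at h
    simp at h

end Cfsg.Agent.S2738
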