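import Cfsg.Statements.S2739
import Cfsg.Agent.H1.L34b

set_option autoImplicit false
open scoped Pointwise
open Cfsg

namespace Cfsg.Agent.S2739

/-- In the projective special linear group PSL(3, 4) all subgroups of order 3 are conjugate. -/
theorem result (F : Type*) [Field F] [Fintype F] (hF : Fintype.card F = 4) (X Y : Subgroup (Matrix.ProjectiveSpecialLinearGroup (Fin 3) F)) (hX : Nat.card ↥X = 3) (hY : Nat.card ↥Y = 3) : ∃ g : Matrix.ProjectiveSpecialLinearGroup (Fin 3) F, MulAut.conj g • X = Y := by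
  open CfsgH1.Mg CfsgH1.Mc CfsgH1.Mh CfsgH1.Mi CfsgH1.L34 CfsgH7 CfsgH7.Gol MulAction in
  open scoped commutatorElement in
  · have : Fact (Nat.Prime 3) := ⟨by norm_num⟩
    have key : ∀ X : Subgroup (Matrix.ProjectiveSpecialLinearGroup (Fin 3) F), Nat.card X = 3 →
        ∃ x, orderOf x = 3 ∧ Subgroup.zpowers x = X := fun X hX => by
      have : Finite X := Nat.finite_of_card_ne_zero (by omega)
      obtain ⟨x, hx⟩ := exists_prime_orderOf_dvd_card' (G := X) 3 hX.symm.dvd
      rw [← Subgroup.orderOf_coe] at hx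
      exact ⟨x, hx, Subgroup.eq_of_le_of_card_ge (by simp) (by rw [Nat.card_zpowers, hx, hX])⟩
    obtain ⟨x, hx, rfl⟩ := key X hX
    obtain ⟨y, hy, rfl⟩ := key Y hY
    obtain ⟨g, rfl⟩ := isConj_iff.1 (conj_of hF (fun _ => c3) x y hx hy)
    exact ⟨g, MonoidHom.map_zpowers _ _⟩

end Cfsg.Agent.S2739
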