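import Cfsg.Statements.S2758
import Mathlib
import Cfsg.Agent.H2.BG0
import Cfsg.Agent.L0.Fus7
import Cfsg.Agent.L0.Invol
import Cfsg.Agent.L0.IsoP
import Cfsg.Agent.L0.Isolated

set_option autoImplicit false
open Cfsg

namespace Cfsg.Agent.S2758

open Cfsg Subgroup CfsgH2 CfsgL0

/-- For an odd prime p and a finite group G the following are equivalent: the dihedral group of order 2p is involved in G; some element of 2-power order normalizes but does not centralize some p-subgroup of G; some element of 2-power order inverts some nonidentity element of p-power order. -/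
theorem result {G : Type*} [Group G] [Finite G] {p : ℕ} [Fact p.Prime] (hp : p ≠ 2) : (Cfsg.Involves (DihedralGroup p) G ↔ ∃ (x : G) (P : Subgroup G), (∃ k : ℕ, orderOf x = 2 ^ k) ∧ IsPGroup p ↥P ∧ x ∈ Subgroup.normalizer (P : Set G) ∧ x ∉ Subgroup.centralizer (P : Set G)) ∧ (Cfsg.Involves (DihedralGroup p) G ↔ ∃ x y : G, (∃ k : ℕ, orderOf x = 2 ^ k) ∧ (∃ k : ℕ, orderOf y = p ^ k) ∧ y ≠ 1 ∧ x * y * x⁻¹ = y⁻¹) := by
  have hp' : p.Prime := Fact.out
  have hodd : Odd p := hp'.odd_of_ne_two hp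
  have AB : Involves (DihedralGroup p) G → ∃ (x : G) (P : Subgroup G), (∃ k : ℕ, orderOf x = 2 ^ k) ∧ IsPGroup p ↥P ∧
      x ∈ N[P] ∧ x ∉ C[P] := by
    intro h
    obtain ⟨K, f, hf⟩ := CfsgL0.involves_iff.1 h
    haveI : NeZero p := ⟨hp'.ne_zero⟩
    set R := zpowers (DihedralGroup.r 1 : DihedralGroup p)
    have hR : ∀ i, DihedralGroup.r i ∈ R := fun i => ⟨(i.val : ℤ), by simp⟩
    have hR' : ∀ y ∈ R, ∃ i, y = DihedralGroup.r i := by rintro _ ⟨k, rfl⟩; exact ⟨k, by simp⟩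
    have hRn : R.Normal := ⟨fun y hy g => by
      obtain ⟨i, rfl⟩ := hR' y hy
      rcases g with j | j <;> simpa using hR _⟩
    obtain ⟨P, hP⟩ := exists_syl p (R.comap f)
    have h1 : P.map f = R := by
      have := hP.map f
      rw [map_comap_eq_self_of_surjective hf] at this
      exact this.eq_of_pgroup (isPGroup_of_card' (by rw [Nat.card_zpowers, DihedralGroup.orderOf_r_one]))
    obtain ⟨g, hg⟩ := hf (DihedralGroup.sr 0)
    obtain ⟨k, hk, n, hn, rfl⟩ := hP.frattini (g := g) (le_normalizer_of_normal (mem_top g))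
    obtain ⟨a, ha, b, hb, e, h2, h3⟩ := exists_pi_parts {2} n
    have hb' : f b ∈ R := by
      rcases e2 : f b with j | j
      · exact hR j
      · refine absurd ?_ ((piN_compl_singleton Nat.prime_two).1 h3)
        rw [← DihedralGroup.orderOf_sr j, ← e2]; exact orderOf_map_dvd f b
    obtain ⟨y, hy, e3⟩ : DihedralGroup.r 1 ∈ P.map f := h1 ▸ hR 1
    refine ⟨a, P.map K.subtype, by simpa using (piN_singleton Nat.prime_two (orderOf_pos a).ne').1 h2, hP.pg.map _,
      le_normalizer_map K.subtype (mem_map_of_mem K.subtype (zpowers_le.2 hn ha)), fun hc => ?_⟩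
    have c : y * a = a * y := Subtype.ext (mem_cent_iff.1 hc _ (mem_map_of_mem _ hy))
    have c2 := congrArg f c
    rw [map_mul, map_mul, e3] at c2
    rcases e4 : f a with j | j
    · obtain ⟨i, hi⟩ := hR' _ (R.mul_mem hk (R.mul_mem (e4 ▸ hR j) hb'))
      rw [← map_mul, ← e, ← map_mul, hg] at hi
      cases hi
    · rw [e4] at c2
      simp only [DihedralGroup.r_mul_sr, DihedralGroup.sr_mul_r, DihedralGroup.sr.injEq] at c2
      have : ((2 : ℕ) : ZMod p) = 0 := by push_cast; linear_combination -c2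
      exact hp ((Nat.prime_dvd_prime_iff_eq hp' Nat.prime_two).1 ((ZMod.natCast_eq_zero_iff 2 p).1 this))
  have BC : (∃ (x : G) (P : Subgroup G), (∃ k : ℕ, orderOf x = 2 ^ k) ∧ IsPGroup p ↥P ∧ x ∈ N[P] ∧ x ∉ C[P]) →
      ∃ x y : G, (∃ k : ℕ, orderOf x = 2 ^ k) ∧ (∃ k : ℕ, orderOf y = p ^ k) ∧ y ≠ 1 ∧ x * y * x⁻¹ = y⁻¹ := by
    rintro ⟨x, P, ⟨k, hk⟩, hP, hn, hc⟩
    have ex : ∃ i, x ^ 2 ^ i ∈ C[P] := ⟨k, by rw [← hk, pow_orderOf_eq_one]; exact one_mem _⟩
    classical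
    obtain ⟨i, hi⟩ : ∃ i, Nat.find ex = i + 1 := Nat.exists_eq_succ_of_ne_zero fun e => hc (by
      simpa [e] using Nat.find_spec ex)
    have h1 := Nat.find_spec ex
    have h2 := Nat.find_min ex (m := i) (by omega)
    rw [hi, pow_succ, pow_mul, sq] at h1
    set t := x ^ 2 ^ i
    have ht : t ∈ N[P] := Subgroup.pow_mem _ hn _
    rw [mem_cent_iff] at h2
    push Not at h2
    obtain ⟨u, hu, h2⟩ := h2
    refine ⟨t, u⁻¹ * (t * u * t⁻¹), ?_, pgroup_mem_order hP (P.mul_mem (P.inv_mem hu) (conj_mem_of_norm ht hu)),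
      fun e => h2 ?_, ?_⟩
    · obtain ⟨j, -, hj⟩ := (Nat.dvd_prime_pow Nat.prime_two).1 (hk ▸ orderOf_pow_dvd (x := x) (2 ^ i))
      exact ⟨j, hj⟩
    · rw [inv_mul_eq_one] at e
      rw [e]; nth_rw 2 [← e]; group
    · have := mem_cent_iff.1 h1 u hu
      calc t * (u⁻¹ * (t * u * t⁻¹)) * t⁻¹ = t * u⁻¹ * t⁻¹ * (t * t * u) * (t * t)⁻¹ := by group
        _ = _ := by rw [← this]; group
  have CA : (∃ x y : G, (∃ k : ℕ, orderOf x = 2 ^ k) ∧ (∃ k : ℕ, orderOf y = p ^ k) ∧ y ≠ 1 ∧ x * y * x⁻¹ = y⁻¹) →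
      Involves (DihedralGroup p) G := by
    rintro ⟨x, y, ⟨k, hk⟩, ⟨l, hl⟩, h1, h2⟩
    obtain ⟨z, hz, hz'⟩ := exists_prime_order_mem (H := zpowers y) hp'
      (dvd_card_of_pgroup (pg_zpowers_of_order hl) (by simpa using h1))
    have h3 : x * z * x⁻¹ = z⁻¹ := by
      obtain ⟨i, rfl⟩ := mem_zpowers_iff.1 hz
      rw [← conj_zpow, h2, inv_zpow]
    set Z := zpowers (x * x)
    have hx : x ∈ N[Z] := cent_le_norm _ (by rw [cent_zpowers]; exact mem_centralizer_singleton_iff.2 (mul_assoc _ _ _).symm)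
    have hzN : z ∈ N[Z] := cent_le_norm _ (by
      rw [cent_zpowers]
      refine mem_centralizer_singleton_iff.2 ?_
      have : x * (x * z * x⁻¹) * x⁻¹ = z := by rw [h3, ← conj_inv, h3, inv_inv]
      calc z * (x * x) = x * (x * z * x⁻¹) * x⁻¹ * (x * x) := by rw [this]
        _ = x * x * z := by group)
    set s := qmk Z ⟨x, hx⟩
    set ρ := qmk Z ⟨z, hzN⟩
    have hZ : PG[2, Z] := CfsgH2.isPGroup_zpowers (k := k) (by rw [← sq, ← pow_mul, mul_comm, pow_mul, ← hk, pow_orderOf_eq_one, one_pow])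
    have e1 : s * s = 1 := by rw [← map_mul, qmk_eq_one]; exact mem_zpowers _
    have e2 : s * ρ * s⁻¹ = ρ⁻¹ := by
      rw [← map_inv, ← map_inv, ← map_mul, ← map_mul]; exact congrArg _ (Subtype.ext h3)
    have e3 : ρ ≠ 1 := fun e => by
      have : z = 1 := eq_one_of_coprime_order hZ (qmk_eq_one.1 e) (by rw [hz']; exact hodd.coprime_two_right)
      rw [this, orderOf_one] at hz'; exact hp'.one_lt.ne hz'
    have e4 : orderOf ρ = p := orderOf_eq_prime (by
      rw [← map_pow, ← map_one (qmk Z)]; exact congrArg _ (Subtype.ext (hz' ▸ pow_orderOf_eq_one z))) e3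
    obtain ⟨e⟩ := dihedral_iso s ρ e1 e2 (fun h => by
      obtain ⟨i, hi⟩ := mem_zpowers_iff.1 h
      refine e3 (eq_one_of_odd_of_mul_self (e4 ▸ hodd) ?_)
      rw [← hi] at e2
      rw [← eq_inv_iff_mul_eq_one, ← e2]; group)
    rw [e4] at e
    exact involves_of_inj (involves_of_surj (CfsgL0.involves_iff.2 ⟨_, e.toMonoidHom, e.surjective⟩) (qmk Z) qmk_surj) _
      (subtype_injective _)
  exact ⟨⟨AB, fun h => CA (BC h)⟩, fun h => BC (AB h), CA⟩

end Cfsg.Agent.S2758
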