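import Cfsg.Statements.S2759
import Mathlib
import Cfsg.Agent.H9.S3I

set_option autoImplicit false
open Cfsg

namespace Cfsg.Agent.S2759

/-- For a finite group G, the symmetric group of degree 4 is involved in G if and only if there is a 2-subgroup T of G such that the symmetric group of degree 3 is involved in N(T)/C(T). -/
theorem result {G : Type*} [Group G] [Finite G] : Cfsg.Involves (Equiv.Perm (Fin 4)) G ↔ ∃ T : Subgroup G, IsPGroup 2 ↥T ∧ Cfsg.Involves (Equiv.Perm (Fin 3)) (↥(Subgroup.normalizer (T : Set G)) ⧸ (Subgroup.centralizer (T : Set G)).subgroupOf (Subgroup.normalizer (T : Set G))) := by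
  open Subgroup Cfsg CfsgH2 Function in
  open scoped commutatorElement in
  open CfsgS3 in
  constructor
  · intro h
    obtain ⟨K, _, i, f, hi, hf⟩ := involves_iff.1 h
    haveI : Finite K := Finite.of_injective i hi
    have sf : Surjective f := by rwa [← MonoidHom.range_eq_top, MonoidHom.range_eq_map]
    obtain ⟨π, sπ, pπ, cπ⟩ := exists_s3
    obtain ⟨T, s⟩ := exists_syl 2 (π.ker.comap f)
    have e := s.map f
    rw [map_comap_eq_self_of_surjective sf] at e
    let j : N[T] →* N[T.map i] ⧸ C[T.map i].subgroupOf N[T.map i] := (QuotientGroup.mk' _).comp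
      ((i.comp N[T].subtype).codRestrict _ fun g => le_normalizer_map i (mem_map_of_mem i g.2))
    have k : j.ker ≤ (π.comp (f.comp N[T].subtype)).ker := fun g hg => cπ fun x hx => by
      obtain ⟨y, hy, rfl⟩ := (e.eq_of_pgroup pπ).ge hx
      have := (QuotientGroup.eq_one_iff _).1 hg (i y) (mem_map_of_mem i hy)
      exact (map_mul f y g.1).symm.trans ((congrArg f (hi ((map_mul i y g.1).trans
        (this.trans (map_mul i g.1 y).symm)))).trans (map_mul f g.1 y))
    refine ⟨T.map i, s.pg.map i, involves_iff.2 ⟨_, _, QuotientGroup.kerLift j, QuotientGroup.lift j.ker _ k,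
      QuotientGroup.kerLift_injective j, map_top_of_surjective _ fun y => ?_⟩⟩
    obtain ⟨x, rfl⟩ := (sπ.comp sf) y
    obtain ⟨n, hn, w, hw, rfl⟩ := s.frattini' (g := x) (le_normalizer_of_normal (mem_top x))
    refine ⟨(⟨n, hn⟩ : N[T]), ?_⟩
    rw [comp_apply, map_mul, map_mul, show π (f w) = 1 from hw, mul_one]
    rfl
  · rintro ⟨T, pT, h⟩
    obtain ⟨K, _, i, f, hi, hf⟩ := involves_iff.1 h
    haveI : Finite K := Finite.of_injective i hi
    obtain ⟨a, x, ⟨k, ak⟩, ox, e⟩ := exists_inv f (by rwa [← MonoidHom.range_eq_top, MonoidHom.range_eq_map])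
    obtain ⟨b, hb⟩ := QuotientGroup.mk'_surjective _ (i a)
    obtain ⟨y, hy⟩ := QuotientGroup.mk'_surjective _ (i x)
    obtain ⟨u, hu, v, -, rfl, o1, o2⟩ := exists_pi_parts {2} y
    have kr : ∀ g : N[T], QuotientGroup.mk' (C[T].subgroupOf N[T]) g = 1 ↔ g.1 ∈ C[T] := fun g =>
      QuotientGroup.eq_one_iff g
    have u1 : QuotientGroup.mk' (C[T].subgroupOf N[T]) u = 1 := by
      have := mem_map_of_mem (QuotientGroup.mk' (C[T].subgroupOf N[T])) hu
      rw [MonoidHom.map_zpowers, hy] at this
      have d := orderOf_dvd_of_mem this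
      rw [Nat.card_zpowers, orderOf_injective i hi, ox] at d
      exact orderOf_eq_one_iff.1 ((o1.of_dvd (orderOf_map_dvd _ _)).eq_one
        (((piN_compl_singleton Nat.prime_two).2 (by decide)).of_dvd d))
    rw [map_mul, u1, one_mul] at hy
    refine i4_top.2 (i4_gen (k := k) pT b.2 v.2 (by
      rw [Subgroup.orderOf_coe]; exact (piN_compl_singleton' Nat.prime_two).1 o2) (fun c => ?_)
      ((kr (v ^ 3)).1 ?_) ((kr (b * v * b⁻¹ * v)).1 ?_) ((kr (b ^ 2 ^ k)).1 ?_))
    · rw [← kr, hy, map_eq_one_iff i hi] at c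
      rw [c, orderOf_one] at ox
      exact absurd ox (by decide)
    · rw [map_pow, hy, ← map_pow, ← ox, pow_orderOf_eq_one, map_one]
    · rw [map_mul, map_mul, map_mul, map_inv, hy, hb, ← map_inv, ← map_mul, ← map_mul, e, ← map_mul,
        inv_mul_cancel, map_one]
    · rw [map_pow, hb, ← map_pow, ak, map_one]

end Cfsg.Agent.S2759
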