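import Cfsg.Statements.S2761
import Mathlib
import Cfsg.Agent.L0.Qd

set_option autoImplicit false
open Cfsg

namespace Cfsg.Agent.S2761

open Cfsg Subgroup CfsgH2 CfsgL0 Matrix Multiplicative
open scoped MatrixGroups

/-- The group Qd(2), the natural semidirect product of an elementary abelian group of order 4 by SL₂(2) (realised as the affine subgroup of SL₃(2)), is isomorphic to the symmetric group of degree 4. -/
theorem result : Nonempty (↥(Cfsg.qd 2) ≃* Equiv.Perm (Fin 4)) := by
  let f : QD (ZMod 2) →* Equiv.Perm (Fin 2 → ZMod 2) := MonoidHom.mk' (fun x =>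
    (SpecialLinearGroup.toLin' x.right).toEquiv.trans (Equiv.addLeft x.left.toAdd)) fun x y => by
      ext v : 1
      change x.left.toAdd + x.right.1 *ᵥ y.left.toAdd + (x.right * y.right).1 *ᵥ v =
        x.left.toAdd + x.right.1 *ᵥ (y.left.toAdd + y.right.1 *ᵥ v)
      rw [mulVec_add, mulVec_mulVec, sl_mul, add_assoc]
  have hf : Function.Injective f := (injective_iff_map_eq_one _).2 fun x hx => by
    have k : ∀ v, x.left.toAdd + x.right.1 *ᵥ v = v := fun v => DFunLike.congr_fun hx v
    have k0 := k 0
    rw [mulVec_zero, add_zero] at k0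
    refine SemidirectProduct.ext k0 (sl_ext (ι := AddMonoidHom.id _) Function.injective_id fun v => ?_)
    have := k v
    rw [k0, zero_add] at this
    exact this.trans (one_mulVec v).symm
  refine ⟨qdE.symm.trans ((MulEquiv.ofBijective f ((Nat.bijective_iff_injective_and_card _).2
    ⟨hf, ?_⟩)).trans (Fintype.equivFinOfCardEq (by simp)).permCongrHom)⟩
  rw [Nat.card_congr SemidirectProduct.equivProd, Nat.card_prod, Nat.card_perm,
    Nat.card_eq_fintype_card (α := SL(2, ZMod 2))]
  simp
  decide

end Cfsg.Agent.S2761
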