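import Cfsg.Statements.S2762
import Mathlib
import Cfsg.Agent.L0.Qd

set_option autoImplicit false
open Cfsg

namespace Cfsg.Agent.S2762

open Cfsg Subgroup CfsgH2 CfsgL0 Matrix Multiplicative
open scoped MatrixGroups

/-- Structure of Qd over a finite field F of characteristic p (the affine subgroup of SL₃(F)): its largest normal p-subgroup is the group of translations (matrices with upper-left block the identity), the block-diagonal matrices form a complement isomorphic to SL₂(F), and the translation subgroup is a natural SL₂(F)-module for that complement. -/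
theorem result {F : Type*} [Field F] [Fintype F] {p : ℕ} [Fact p.Prime] [CharP F p] : (∀ M : ↥(Cfsg.qdOver F), M ∈ Cfsg.pCore p ↥(Cfsg.qdOver F) ↔ ((M : Matrix.SpecialLinearGroup (Fin 3) F) : Matrix (Fin 3) (Fin 3) F) 0 0 = 1 ∧ ((M : Matrix.SpecialLinearGroup (Fin 3) F) : Matrix (Fin 3) (Fin 3) F) 0 1 = 0 ∧ ((M : Matrix.SpecialLinearGroup (Fin 3) F) : Matrix (Fin 3) (Fin 3) F) 1 0 = 0 ∧ ((M : Matrix.SpecialLinearGroup (Fin 3) F) : Matrix (Fin 3) (Fin 3) F) 1 1 = 1) ∧ ∃ K : Subgroup ↥(Cfsg.qdOver F), (∀ M : ↥(Cfsg.qdOver F), M ∈ K ↔ ((M : Matrix.SpecialLinearGroup (Fin 3) F) : Matrix (Fin 3) (Fin 3) F) 0 2 = 0 ∧ ((M : Matrix.SpecialLinearGroup (Fin 3) F) : Matrix (Fin 3) (Fin 3) F) 1 2 = 0) ∧ K ⊓ Cfsg.pCore p ↥(Cfsg.qdOver F) = ⊥ ∧ K ⊔ Cfsg.pCore p ↥(Cfsg.qdOver F) = ⊤ ∧ Nonempty (↥K ≃* Matrix.SpecialLinearGroup (Fin 2) F) ∧ Cfsg.IsNaturalSL2Module F (Cfsg.pCore p ↥(Cfsg.qdOver F)) K := by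
  have q := isQd_QD.map (qdE (F := F))
  have ii : Function.Injective (qdE.toMonoidHom.comp (SemidirectProduct.inr : SL(2, F) →* QD F)) :=
    Function.LeftInverse.injective q.sec
  rw [q.pCore_eq]
  refine ⟨fun M => ?_, MonoidHom.range _, fun M => ?_, ?_, ?_, ⟨(MonoidHom.ofInjective ii).symm⟩,
    haveI := q.normal; le_normalizer_of_normal, (SemidirectProduct.rightHom.comp qdE.symm.toMonoidHom).comp (Subgroup.subtype _),
    (MulEquiv.toAdditiveRight (MonoidHom.ofInjective q.inj)).symm, fun M => ⟨⟨_, M, rfl⟩, q.sec M⟩, ?_, ?_⟩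
  · obtain ⟨x, rfl⟩ := qdE.surjective M
    rw [← q.ker, MonoidHom.mem_ker]
    simp only [MonoidHom.comp_apply, MulEquiv.coe_toMonoidHom, MulEquiv.symm_apply_apply]
    refine ⟨fun h => ?_, fun ⟨h0, h1, h2, h3⟩ => Subtype.ext (Matrix.ext fun i j => ?_)⟩
    · replace h : x.right = 1 := h
      rw [qdE_coe, h]
      exact ⟨rfl, rfl, rfl, rfl⟩
    · fin_cases i <;> fin_cases j
      exacts [h0, h1, h2, h3]
  · obtain ⟨x, rfl⟩ := qdE.surjective M
    refine ⟨by rintro ⟨N, h⟩; rw [← h]; exact ⟨rfl, rfl⟩, fun ⟨h0, h1⟩ => ⟨x.right, congrArg qdE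
      (SemidirectProduct.ext (toAdd.injective (funext fun i => ?_)) rfl)⟩⟩
    fin_cases i
    exacts [h0.symm, h1.symm]
  · rw [← q.ker, eq_bot_iff]
    rintro _ ⟨⟨M, rfl⟩, h⟩
    rw [(q.sec M).symm.trans h, map_one]; exact one_mem _
  · refine top_le_iff.1 fun x _ => ?_
    obtain ⟨v, hv⟩ := q.form x
    rw [hv]
    exact mul_mem (mem_sup_right ⟨_, rfl⟩) (mem_sup_left ⟨_, rfl⟩)
  · rw [q.cent, ← q.ker]; rfl
  · intro l v
    obtain ⟨v, rfl⟩ := (MonoidHom.ofInjective q.inj).surjective v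
    refine ⟨MonoidHom.ofInjective q.inj (ofAdd _), (q.conj l v.toAdd).symm, ?_⟩
    change toAdd ((MonoidHom.ofInjective q.inj).symm _) = _ *ᵥ toAdd ((MonoidHom.ofInjective q.inj).symm _)
    simp only [toMul_ofMul, MulEquiv.symm_apply_apply]
    rfl

end Cfsg.Agent.S2762
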