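import Cfsg.Statements.S2764
import Cfsg.Agent.H2.PU6

set_option autoImplicit false
open Cfsg

namespace Cfsg.Agent.S2764
open CfsgH2

/-- Pushing up for a rank-one quotient: let G be a finite group and p a prime with C_G(O_p(G)) ≤ O_p(G), suppose G/K ≅ PSL₂(p^n) for some normal subgroup K and some n ≥ 1, that a Sylow p-subgroup S of G lies in exactly one maximal subgroup of G, and that no nontrivial characteristic subgroup of S is normal in G. Then G/O_p(G) ≅ SL₂(p^n), and every noncentral chief factor U/W of G inside O_p(G) is a natural SL₂-module over the field with p^n elements for the action of G/W. -/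
theorem result {G : Type*} [Group G] [Finite G] {p : ℕ} [Fact p.Prime] (S : Sylow p G) (hE₁ : Subgroup.centralizer (Cfsg.pCore p G : Set G) ≤ Cfsg.pCore p G) (hE₂ : ∃! M : Subgroup G, IsCoatom M ∧ (S : Subgroup G) ≤ M) (K : Subgroup G) [K.Normal] (F : Type) [Field F] [Fintype F] (n : ℕ) (hn : 1 ≤ n) (hF : Fintype.card F = p ^ n) (hE₃ : Nonempty (G ⧸ K ≃* Matrix.ProjectiveSpecialLinearGroup (Fin 2) F)) (hd : ∀ T : Subgroup ↥(S : Subgroup G), T ≠ ⊥ → T.Characteristic → ¬ (T.map (S : Subgroup G).subtype).Normal) : Nonempty (G ⧸ Cfsg.pCore p G ≃* Matrix.SpecialLinearGroup (Fin 2) F) ∧ ∀ (U W : Subgroup G) [W.Normal], U ≤ Cfsg.pCore p G → Cfsg.IsChiefFactor U W → ¬ ⁅U, (⊤ : Subgroup G)⁆ ≤ W → Cfsg.IsNaturalSL2Module F (U.map (QuotientGroup.mk' W)) (⊤ : Subgroup (G ⧸ W)) := by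
  open Subgroup Function in open scoped commutatorElement in
  open Subgroup Function in open scoped commutatorElement in
  open CfsgL0 CfsgBG in
  obtain ⟨M, t, e⟩ := t1_top hE₂ hF hE₃
  haveI := charP_of_card' hF
  have c := hE₁
  rw [pCore_eq'] at c
  have k : ∀ {V B W}, P0 p S M ⊤ O[{p}, ⊤] ΩZ[p, O[{p}, ⊤]] V B W → ∀ (U W : Subgroup G) [W.Normal],
      U ≤ Cfsg.pCore p G → Cfsg.IsChiefFactor U W → ¬ ⁅U, (⊤ : Subgroup G)⁆ ≤ W →
      Cfsg.IsNaturalSL2Module F (U.map (QuotientGroup.mk' W)) (⊤ : Subgroup (G ⧸ W)) :=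
    fun h U W _ l a b => by
      obtain ⟨s, f⟩ := h.chief (chf_top_iff.1 a) (l.trans pCore_eq'.le) b
      rw [← map_top_of_surjective _ (QuotientGroup.mk'_surjective W)]
      exact (s.s3 F e).natural_map (top_le_norm_iff.2 a.2.1) _ (by
        rw [f, QuotientGroup.ker_mk', inf_eq_right.2 a.1.le])
  rcases t.push_char (inf_le_right.trans c) fun T a b n => hd T a b (top_le_norm_iff.1 n) with
    ⟨B, h⟩ | ⟨V, B, W, h⟩
  · obtain ⟨ρ, ψ, s, f⟩ := h.iso e
    exact ⟨quot_iso_top ρ s.sr (pCore_eq' (G := G) (p := p) ▸ f), k h.p0⟩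
  · obtain ⟨-, ρ, s, f⟩ := h.main e
    exact ⟨quot_iso_top ρ s (pCore_eq' (G := G) (p := p) ▸ f), k h.toP0⟩

end Cfsg.Agent.S2764
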