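import Cfsg.Statements.S2765
import Cfsg.Agent.H2.PU6

set_option autoImplicit false
open Cfsg

namespace Cfsg.Agent.S2765
open CfsgH2

/-- In the same pushing-up situation (G finite, C_G(O_p(G)) ≤ O_p(G), G/K ≅ PSL₂(p^n) with n ≥ 1, a Sylow p-subgroup S in exactly one maximal subgroup, no nontrivial characteristic subgroup of S normal in G), one of the following holds: (I) S has nilpotency class 2, exponent 4 if p = 2 and exponent p otherwise, and G has exactly one noncentral chief factor inside O_p(G); or (II) p = 3, S has class 3 and exponent 9, and G has exactly two noncentral chief factors inside O_p(G). 'Exactly one' is phrased as: some noncentral chief factor U/W inside O_p(G) with G acting hypercentrally on W and on O_p(G)/U; 'exactly two' analogously with a chain. -/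
theorem result {G : Type*} [Group G] [Finite G] {p : ℕ} [Fact p.Prime] (S : Sylow p G) (hE₁ : Subgroup.centralizer (Cfsg.pCore p G : Set G) ≤ Cfsg.pCore p G) (hE₂ : ∃! M : Subgroup G, IsCoatom M ∧ (S : Subgroup G) ≤ M) (K : Subgroup G) [K.Normal] (F : Type) [Field F] [Fintype F] (n : ℕ) (hn : 1 ≤ n) (hF : Fintype.card F = p ^ n) (hE₃ : Nonempty (G ⧸ K ≃* Matrix.ProjectiveSpecialLinearGroup (Fin 2) F)) (hd : ∀ T : Subgroup ↥(S : Subgroup G), T ≠ ⊥ → T.Characteristic → ¬ (T.map (S : Subgroup G).subtype).Normal) : ((S : Subgroup G).lowerCentralSeries 2 = ⊥ ∧ (S : Subgroup G).lowerCentralSeries 1 ≠ ⊥ ∧ (p = 2 → Monoid.exponent ↥(S : Subgroup G) = 4) ∧ (p ≠ 2 → Monoid.exponent ↥(S : Subgroup G) = p) ∧ (∃ U W : Subgroup G, W ≤ U ∧ U ≤ (Cfsg.pCore p G) ∧ Cfsg.IsChiefFactor U W ∧ ¬ ⁅U, (⊤ : Subgroup G)⁆ ≤ W ∧ (∃ k : ℕ, Cfsg.iterCommutator W ⊤ k = ⊥) ∧ (∃ k : ℕ, Cfsg.iterCommutator (Cfsg.pCore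 p G) ⊤ k ≤ U))) ∨ (p = 3 ∧ (S : Subgroup G).lowerCentralSeries 3 = ⊥ ∧ (S : Subgroup G).lowerCentralSeries 2 ≠ ⊥ ∧ Monoid.exponent ↥(S : Subgroup G) = 9 ∧ (∃ U₁ W₁ U₂ W₂ : Subgroup G, W₁ ≤ U₁ ∧ U₁ ≤ W₂ ∧ W₂ ≤ U₂ ∧ U₂ ≤ (Cfsg.pCore p G) ∧ Cfsg.IsChiefFactor U₁ W₁ ∧ Cfsg.IsChiefFactor U₂ W₂ ∧ ¬ ⁅U₁, (⊤ : Subgroup G)⁆ ≤ W₁ ∧ ¬ ⁅U₂, (⊤ : Subgroup G)⁆ ≤ W₂ ∧ (∃ k : ℕ, Cfsg.iterCommutator W₁ ⊤ k = ⊥) ∧ (∃ k : ℕ, Cfsg.iterCommutator W₂ ⊤ k ≤ U₁) ∧ (∃ k : ℕ, Cfsg.iterCommutator (Cfsg.pCore p G) ⊤ k ≤ U₂))) := by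
  open Subgroup Function in open scoped commutatorElement in
  open Subgroup Function in open scoped commutatorElement in
  open CfsgL0 CfsgBG in
  obtain ⟨M, t, e⟩ := t1_top hE₂ hF hE₃
  haveI := charP_of_card' hF
  rw [pCore_eq'] at hE₁ ⊢
  rcases t.push_char (inf_le_right.trans hE₁) fun T a b n => hd T a b (top_le_norm_iff.1 n) with
    ⟨B, h⟩ | ⟨V, B, W, h⟩
  · exact .inl ⟨h.cl, h.nab, h.exp.1, h.exp.2, _, _, inf_le_left, h.ZQ, chf_top_iff.2 (h.chf e), h.nc,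
      ⟨1, comm_eq_bot_iff.2 inf_le_right⟩, _, h.p0.iter h.cl⟩
  · obtain rfl := (h.main e).1
    obtain ⟨a, ha, c, hc, k⟩ := h.cub'
    have m := h.sm h.nc
    refine .inr ⟨rfl, h.cl, fun f => k ?_, exp_eq (p := 3) (n := 1) (h.ex rfl) fun f => k (exp_three f ha hc),
      _, _, V, V ⊓ stab ⊤ _, inf_le_left, le_inf (h.ZW.trans h.WV) (le_stab_self h.nZ), inf_le_left, h.VQ,
      chf_top_iff.2 (h.chf e), chf_top_iff.2 (m.chf h.toR1 e le_top h.nV h.nZ (h.cV.trans inf_le_left)),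
      h.toR1.nc, fun f => ?_, ⟨1, comm_eq_bot_iff.2 inf_le_right⟩,
      ⟨1, (commutator_comm _ _).le.trans ((commutator_mono le_rfl inf_le_right).trans comm_stab_le)⟩,
      _, h.iter h.cl⟩
    · rw [← inv_eq_one, commutatorElement_inv]
      exact f.le (commutator_mem_commutator (commutator_mem_commutator hc ha) hc)
    · obtain ⟨x, hx, x0⟩ := SetLike.not_le_iff_exists.1 h.nle
      refine h.nle (relIndex_eq_one.1 (m.ix.symm.trans (relIndex_eq_one.2 fun v hv => m.fa x hx x0 v hv ?_)))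
      exact commutatorElement_inv v x ▸ inv_mem (f (commutator_mem_commutator hv (mem_top x))).2

end Cfsg.Agent.S2765
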