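import Cfsg.Statements.S2766
import Cfsg.Agent.H2.PU8

set_option autoImplicit false
open Cfsg

namespace Cfsg.Agent.S2766
open CfsgH2

/-- Let p ≥ 5 be prime and G a maximal p-local subgroup of a finite group H (G is the normalizer of a nontrivial p-subgroup and lies in no other such normalizer). Suppose C_G(O_p(G)) ≤ O_p(G), G/K ≅ PSL₂(p^n) for some normal K and n ≥ 1, a Sylow p-subgroup S of G lies in exactly one maximal subgroup of G, and N_H(S) is not contained in G. Then G = G₀ × E for subgroups G₀ ≅ Qd(p^n) (the natural semidirect product of the plane over the field with p^n elements by SL₂) and E an elementary abelian p-group. -/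
theorem result {H : Type*} [Group H] [Finite H] {p : ℕ} [Fact p.Prime] (hp : 5 ≤ p) (G : Subgroup H) (hloc : ∃ R : Subgroup H, IsPGroup p ↥R ∧ R ≠ ⊥ ∧ G = Subgroup.normalizer (R : Set H)) (hmax : ∀ R : Subgroup H, IsPGroup p ↥R → R ≠ ⊥ → G ≤ Subgroup.normalizer (R : Set H) → Subgroup.normalizer (R : Set H) = G) (S : Sylow p ↥G) (hE₁ : Subgroup.centralizer (Cfsg.pCore p ↥G : Set ↥G) ≤ Cfsg.pCore p ↥G) (hE₂ : ∃! M : Subgroup ↥G, IsCoatom M ∧ (S : Subgroup ↥G) ≤ M) (K : Subgroup ↥G) [K.Normal] (F : Type) [Field F] [Fintype F] (n : ℕ) (hn : 1 ≤ n) (hF : Fintype.card F = p ^ n) (hE₃ : Nonempty (↥G ⧸ K ≃* Matrix.ProjectiveSpecialLinearGroup (Fin 2) F)) (hN : ¬ Subgroup.normalizer (((S : Subgroup ↥G).map G.subtype : Subgroup H) : Set H) ≤ G) : ∃ G₀ E : Subgroup H, Cfsg.IsInternalDirectProduct G₀ E G ∧ Cfsg.IsElementaryAbelian p E ∧ Nonempty (↥G₀ ≃* ↥(Cfsg.qdOver F)) := by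
  open Subgroup Function in open scoped commutatorElement in
  open Subgroup Function in open scoped commutatorElement in
  open CfsgL0 CfsgBG in
  obtain ⟨M, t, e⟩ := t1_top hE₂ hF hE₃
  haveI := charP_of_card' hF
  have hf := G.subtype_injective
  have tp : (⊤ : Subgroup G).map G.subtype = G := by simp [← MonoidHom.range_eq_map]
  have t' := t.map G.subtype (by simp)
  rw [← relIndex_map_map_of_injective _ _ hf, ← inj_piCoreOf hf, tp] at e
  rw [tp] at t'
  have c : G ⊓ C[O[{p}, G]] ≤ O[{p}, G] := fun x hx => by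
    rw [← map_pCore_subtype] at hx ⊢
    exact ⟨⟨x, hx.1⟩, hE₁ ((inj_mem_cent hf).1 hx.2), rfl⟩
  generalize (S : Subgroup G).map G.subtype = T at *
  have a := t'.am c le_rfl fun K l n k => by_contra fun f =>
    hN (k.trans (hmax K (t'.um.syl.pg.to_le l) f n).le)
  rcases a.main with ⟨τ, hτ, k⟩ | ⟨τ, -, k⟩
  · have h' := a.cjS hτ
    have i : O[{p}, G].relIndex T = (O[{p}, G]:^τ).relIndex T := by
      rw [← relIndex_map_cj τ _ T, map_cj_eq hτ]
    have h := a.p1 h' i k
    have d := (a.der_eq h' (a.crit2 h' i (h'.ZQ.trans h'.QS) (a.ZQ.trans a.QS) k)).trans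
      (inf_comm O[{p}, G] _ ▸ (h'.der_eq a.toR1 h.BQ).symm)
    have ab : ⁅O[{p}, G], O[{p}, G]⁆ = ⊥ := by_contra fun f => k (by
      rw [a.Qg ((hmax _ (a.syl.pg.to_le (comm_le_norm a.QS a.QS)) f (le_norm_commutator a.nQ a.nQ)).le
        (map_cj_eq_iff.1 ((map_commutator _ _ _).trans d.symm)))]
      exact a.ZQ)
    have z : ΩZ[p, O[{p}, G]] = O[{p}, G] := le_antisymm OZ_le (le_OZ ⟨comm_self_eq_bot_iff.1 ab,
      fun x hx => h.eo (by omega) x (a.QS hx)⟩ le_rfl (comm_eq_bot_iff.1 ab))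
    rw [z] at h
    exact h.qd hp e
  · obtain ⟨_, _, _, h⟩ := a.p2 k
    have := (h.main e).1
    omega

end Cfsg.Agent.S2766
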