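import Cfsg.Statements.S2768
import Cfsg.Agent.H2.PU9

set_option autoImplicit false
open Cfsg

namespace Cfsg.Agent.S2768
open CfsgH2

/-- Let G be a finite group and p a prime with C_G(O_p(G)) ≤ O_p(G), such that a Sylow p-subgroup S lies in exactly one maximal subgroup of G and G/K ≅ PSL₂(p^n) for some normal K and n ≥ 1. Put J̃(S) = C_S(Z(J(S))), where J(S) is generated by the abelian subgroups of S of largest order. If Z(S) is not normal in G, then J̃(S) is a Sylow p-subgroup of its normal closure ⟨J̃(S)^G⟩. -/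
theorem result {G : Type*} [Group G] [Finite G] {p : ℕ} [Fact p.Prime] (S : Sylow p G) (hE₁ : Subgroup.centralizer (Cfsg.pCore p G : Set G) ≤ Cfsg.pCore p G) (hE₂ : ∃! M : Subgroup G, IsCoatom M ∧ (S : Subgroup G) ≤ M) (K : Subgroup G) [K.Normal] (F : Type) [Field F] [Fintype F] (n : ℕ) (hn : 1 ≤ n) (hF : Fintype.card F = p ^ n) (hE₃ : Nonempty (G ⧸ K ≃* Matrix.ProjectiveSpecialLinearGroup (Fin 2) F)) (hZ : ¬ ((S : Subgroup G) ⊓ Subgroup.centralizer ((S : Subgroup G) : Set G)).Normal) : ∃ P : Sylow p ↥(Subgroup.normalClosure (((S : Subgroup G) ⊓ Subgroup.centralizer (Cfsg.centerThompsonAOf (S : Subgroup G) : Set G)) : Set G)), (P : Subgroup ↥(Subgroup.normalClosure (((S : Subgroup G) ⊓ Subgroup.centralizer (Cfsg.centerThompsonAOf (S : Subgroup G) : Set G)) : Set G))) = (((S : Subgroup G) ⊓ Subgroup.centralizer (Cfsg.centerThompsonAOf (S : Subgroup G) : Set G))).subgroupOf (Subgroup.normalClosure (((S : Subgroup G) ⊓ Subgroup.centralizer (Cfsg.centerThompsonAOf (S : Subgroup G) : Set G)) : Set G)) :=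 by
  open Subgroup Function in open scoped commutatorElement in
  open Subgroup Function in open scoped commutatorElement in
  open CfsgL0 CfsgBG in
  obtain ⟨M, t, e⟩ := t1_top' hE₂ hF hE₃
  rw [pCore_eq'] at hE₁
  obtain ⟨H, -, n, k⟩ := t.bau' (inf_le_right.trans hE₁) (dvd_zero p) (fun s hs _ => e s hs)
    (by rwa [omegaOne_zero, top_le_norm_iff])
  rw [omegaOne_zero, ← ZJA_eq] at k
  haveI := top_le_norm_iff.1 n
  have l : (S : Subgroup G) ⊓ C[centerThompsonAOf (S : Subgroup G)] ≤ S := inf_le_left
  have : ∀ X : Subgroup G, (S : Subgroup G) ⊓ H = X → X ≤ S → ∃ P : Sylow p (normalClosure (X : Set G)),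
      (P : Subgroup (normalClosure (X : Set G))) = X.subgroupOf _ := fun X k l => by
    refine (syl_iff_exists le_normalClosure).2 ?_
    have := t.um.syl.inf_norm le_top (le_top.trans (normalizer_eq_top (normalClosure (X : Set G))).ge)
    have l2 : X ≤ H := k.ge.trans inf_le_right
    rwa [le_antisymm ((inf_le_inf_left _ (normalClosure_le_normal l2)).trans k.le)
      (le_inf l le_normalClosure)] at this
  have := this _ k l
  rw [coe_inf] at this
  exact this

end Cfsg.Agent.S2768
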