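import Cfsg.Statements.S2769
import Cfsg.Agent.H2.PU9

set_option autoImplicit false
open Cfsg

namespace Cfsg.Agent.S2769
open CfsgH2

/-- Let G be a finite group and p a prime with C_G(O_p(G)) ≤ O_p(G), S a Sylow p-subgroup lying in exactly one maximal subgroup of G, and G/K ≅ PSL₂(p^n) for some normal K and n ≥ 1. Let J(S) be generated by the abelian subgroups of S of largest order. If [Z(J(S)), S] ≠ 1, then either [Z(J(S)), S] ∩ Z(S) is normal in G or C_S(Z(J(S))) is normal in G. -/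
theorem result {G : Type*} [Group G] [Finite G] {p : ℕ} [Fact p.Prime] (S : Sylow p G) (hE₁ : Subgroup.centralizer (Cfsg.pCore p G : Set G) ≤ Cfsg.pCore p G) (hE₂ : ∃! M : Subgroup G, IsCoatom M ∧ (S : Subgroup G) ≤ M) (K : Subgroup G) [K.Normal] (F : Type) [Field F] [Fintype F] (n : ℕ) (hn : 1 ≤ n) (hF : Fintype.card F = p ^ n) (hE₃ : Nonempty (G ⧸ K ≃* Matrix.ProjectiveSpecialLinearGroup (Fin 2) F)) (h : ⁅(Cfsg.centerThompsonAOf (S : Subgroup G)), (S : Subgroup G)⁆ ≠ ⊥) : (⁅(Cfsg.centerThompsonAOf (S : Subgroup G)), (S : Subgroup G)⁆ ⊓ ((S : Subgroup G) ⊓ Subgroup.centralizer ((S : Subgroup G) : Set G))).Normal ∨ (((S : Subgroup G) ⊓ Subgroup.centralizer (Cfsg.centerThompsonAOf (S : Subgroup G) : Set G))).Normal := by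
  open Subgroup Function in open scoped commutatorElement in
  open Subgroup Function in open scoped commutatorElement in
  open CfsgL0 CfsgBG in
  obtain ⟨M, t, e⟩ := t1_top' hE₂ hF hE₃
  rw [pCore_eq'] at hE₁
  rw [ZJA_eq, ← omegaOne_zero (H := Z[J[0, (S : Subgroup G)]]), ← top_le_norm_iff, ← top_le_norm_iff]
  by_cases z : ⊤ ≤ N[ΩZ[0, (S : Subgroup G)]]
  · rw [omegaOne_zero] at z
    exact .inl (norm_of_central (inf_le_right.trans (t.central inf_le_right z)))
  rcases t.bau (inf_le_right.trans hE₁) (dvd_zero p) (fun s hs _ => e s hs) z with k | ⟨A, a⟩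
  · exact .inr k.2
  · obtain ⟨H, -, -, -, h1, h2⟩ := a.bau
    refine .inl (norm_of_central ?_)
    rw [← h2, cent_sup]
    exact le_inf (inf_le_right.trans inf_le_right) (inf_le_left.trans h1)

end Cfsg.Agent.S2769
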