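import Cfsg.Statements.S2772
import Mathlib
import Cfsg.Agent.H9.Sims
import Cfsg.Agent.S0618
import Cfsg.Agent.H3.Burnside

set_option autoImplicit false
open Cfsg

namespace Cfsg.Agent.S2772

/-- Sims' Theorem in local form: let H be a finite non-abelian simple group and G a maximal subgroup of H with C_G(O₂(G)) ≤ O₂(G), such that N_H(S) is not contained in G for a Sylow 2-subgroup S of G and G/O₂(G) is dihedral of order 2q for a prime q. Then G is isomorphic to the symmetric group of degree 4 or to its direct product with a group of order 2. -/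
theorem result {H : Type*} [Group H] [Finite H] [IsSimpleGroup H] (hna : ¬ IsMulCommutative H) (G : Subgroup H) (hG : IsCoatom G) (hchar : Subgroup.centralizer (Cfsg.pCore 2 ↥G : Set ↥G) ≤ Cfsg.pCore 2 ↥G) (S : Sylow 2 ↥G) (hN : ¬ Subgroup.normalizer (((S : Subgroup ↥G).map G.subtype : Subgroup H) : Set H) ≤ G) (q : ℕ) (hq : q.Prime) (hD : Nonempty (↥G ⧸ Cfsg.pCore 2 ↥G ≃* DihedralGroup q)) : Nonempty (↥G ≃* Equiv.Perm (Fin 4)) ∨ Nonempty (↥G ≃* Equiv.Perm (Fin 4) × Multiplicative (ZMod 2)) := by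
  open Subgroup CfsgH9 in
  haveI := Fact.mk Nat.prime_two
  obtain ⟨f⟩ := hD
  have iQ : (Op 2 G).relIndex G = 2 * q := by
    rw [Op, relIndex_map_subtype, index, Nat.card_congr f.toEquiv, DihedralGroup.nat_card]
  have c : ChP 2 G := chP_iff_sub.2 hchar
  have s1 := syl_of_sylow S
  obtain ⟨n, hn, nG⟩ := SetLike.not_le_iff_exists.1 hN
  have eZ := map_OZ (p := 2) G.subtype_injective (S : Subgroup G)
  have eJ := CfsgL0.inj_J (e := 2) (P := (S : Subgroup G)) G.subtype_injective
  generalize (S : Subgroup G).map G.subtype = T at *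
  have G0 : G ≠ ⊥ := fun e => by
    have := hq.two_le
    rw [relIndex_eq_one.2 (e.le.trans bot_le)] at iQ; omega
  have nc : G.normalCore = ⊥ := (IsSimpleGroup.eq_bot_or_eq_top_of_normal _ inferInstance).resolve_right
    fun e => hG.1 (top_le_iff.1 (e ▸ normalCore_le G))
  have ne : G ≠ cj n G := fun e => by
    rcases hG.le_iff.1 (le_normalizer (H := G)) with k | k
    · haveI := normal_of_top_le k.ge
      exact G0 (eq_bot_iff.2 (nc ▸ normal_le_normalCore.2 le_rfl))
    · exact nG (k ▸ cj_eq_iff.1 e.symm)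
  have h := tw_of_coatom hG nc ne rfl
  have eT : cj n T = T := cj_eq_of_mem_normalizer hn
  have nb : ∀ N ≤ T, G ≤ normalizer (N : Set H) → cj n G ≤ normalizer (N : Set H) → N = ⊥ :=
    fun N l n1 n2 => by_contra fun k => h.not_le (n2.trans (h.n1 N k (l.trans s1.le) n1))
  have nb' : ∀ N ≤ T, G ≤ normalizer (N : Set H) → n ∈ normalizer (N : Set H) → N = ⊥ := fun N l a b =>
    nb N l a (by rw [← cj_eq_of_mem_normalizer b, ← cj_normalizer]; exact cj_mono _ a)
  have T0 : T ≠ ⊥ := s1.ne_bot ((Dvd.intro _ iQ.symm).trans (relIndex_dvd_card _ _))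
  have z1 : ¬ G ≤ centralizer (OZ 2 T : Set H) := fun k => OZ_ne_bot s1.pg T0
    (nb' _ (OZ_le _) (k.trans (centralizer_le_normalizer _)) (le_normalizer_OZ le_rfl hn))
  have nT : ¬ G ≤ T := fun k => z1 (k.trans (le_centralizer_OZ T))
  have iT : T.relIndex G = q := ((Nat.dvd_prime hq).1 (Nat.Coprime.dvd_of_dvd_mul_left
    (coprime_iff_not_dvd.2 s1.nd) (iQ ▸ relIndex_dvd_of_le_left _ s1.Op_le))).resolve_left
      fun e => nT (relIndex_eq_one.1 e)
  have mx : ∀ X, T ≤ X → ¬ G ≤ X → X ⊓ G ≤ T := fun X l k x hx => by_contra fun xT => k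
    ((sup_zpowers_eq s1.le (iT ▸ hq) hx.2 xT).ge.trans (sup_le l (zpowers_le.2 hx.1)))
  obtain ⟨k, ek⟩ := s1.pg.exists_card_eq
  have cG : Nat.card G = 2 ^ k * q := by rw [← card_mul_relIndex s1.le, ek, iT]
  haveI := CfsgH3.burnside_paqb (G := G) 2 q k 1 Nat.prime_two hq (by rw [cG, pow_one])
  have o : pPrimeCore 2 G = ⊥ :=
    (map_eq_bot_iff_of_injective _ G.subtype_injective).1 (chP_iff.1 c).2
  have q3 : q = 3 := by
    obtain ⟨-, E, -, -, -, _, ⟨φ⟩⟩ := Cfsg.Agent.S0618.result
      (CfsgH1.isPSolvable_of_isSolvable Nat.prime_two) o fun tf => nT fun g hg => by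
        obtain ⟨x, hx, c, hc, m, hm, e⟩ := tf S ⟨g, hg⟩
        rw [o, mem_bot] at hx
        have hc' := mem_map_of_mem G.subtype hc
        have hm' := mem_map_of_mem G.subtype hm
        rw [map_subtype_centralizer, eZ] at hc'
        rw [map_subtype_normalizer, ← eJ] at hm'
        rw [show g = (c : H) * m by simpa [hx] using congrArg Subtype.val e]
        refine mul_mem (mx _ (le_centralizer_OZ T) z1 hc') (mx _ ?_ (fun k => ?_) hm')
        · exact fun t ht => cj_eq_iff.1 ((CfsgL0.J_map_cj t).symm.trans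
            (congrArg _ (cj_eq_of_mem ht)))
        · exact CfsgL0.J_ne_bot dvd_rfl s1.pg T0 (nb' _ (map_subtype_le _) k (cj_eq_iff.1
            ((CfsgL0.J_map_cj n).symm.trans (congrArg _ eT))))
    have d := ((Nat.card_congr φ.toEquiv).symm.dvd.trans (card_quotient_dvd_card _)).trans
      (card_subgroup_dvd_card E)
    rw [CfsgH2.card_sl2, cG] at d
    exact ((Nat.prime_dvd_prime_iff_eq Nat.prime_three hq).1 (Nat.Coprime.dvd_of_dvd_mul_left
      (Nat.Coprime.pow_right k (by norm_num)) ((by norm_num : 3 ∣ _).trans d))).symm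
  subst q3
  refine sims_amal s1 (eT ▸ s1.cj n) iQ ?_ c (c.cj n) z1 ?_ nb
  · rw [← cj_Op]
    exact (relIndex_map_map_of_injective _ _ (MulAut.conj n).injective).trans iQ
  · rwa [← eT, ← cj_OZ, ← cj_centralizer, cj_le_cj]

end Cfsg.Agent.S2772
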