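import Cfsg.Statements.S2779
import Mathlib
import Cfsg.Agent.H9.NatM

set_option autoImplicit false
open Cfsg

namespace Cfsg.Agent.S2779

/-- Let L act on the elementary abelian p-group V (inside a finite group, by conjugation, faithfully) as SL₂(F) on its natural module, F a field with p^n elements, and let S be a Sylow p-subgroup of L. Then [V, S, S] = 1; |V| = p^(2n) and |C_V(S)| = p^n; and for every nonidentity s ∈ S and every v ∈ V outside C_V(S): C_V(s) = C_V(S) = [V, S] = [V, s] = the subgroup generated by the commutators [v, t], t ∈ S. -/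
theorem result {G : Type*} [Group G] [Finite G] {p : ℕ} [Fact p.Prime] {F : Type*} [Field F] [Fintype F] (n : ℕ) (hF : Fintype.card F = p ^ n) (V L : Subgroup G) (hnat : Cfsg.IsNaturalSL2Module F V L) (hf : L ⊓ Subgroup.centralizer (V : Set G) = ⊥) (S : Sylow p ↥L) (T : Subgroup G) (hT : T = ((S : Subgroup ↥L).map L.subtype)) : ⁅⁅V, T⁆, T⁆ = ⊥ ∧ Nat.card V = p ^ (2 * n) ∧ Nat.card ↥(V ⊓ Subgroup.centralizer ((T : Subgroup G) : Set G)) = p ^ n ∧ ∀ s ∈ T, s ≠ 1 → (V ⊓ Subgroup.centralizer ({s} : Set G)) = (V ⊓ Subgroup.centralizer ((T : Subgroup G) : Set G)) ∧ ⁅V, T⁆ = (V ⊓ Subgroup.centralizer ((T : Subgroup G) : Set G)) ∧ ⁅V, Subgroup.zpowers s⁆ = (V ⊓ Subgroup.centralizer ((T : Subgroup G) : Set G)) ∧ ∀ v ∈ V, v ∉ Subgroup.centralizer (T : Set G) → Subgroup.closure {x : G | ∃ t ∈ T, x = v * t * v⁻¹ * t⁻¹} = (V ⊓ Subgroup.centralizer ((T : Subgroup G) : Set G)) := by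
  open Subgroup Cfsg CfsgH2 Function in
  open scoped commutatorElement in
  open CfsgJW CfsgL0 Matrix Multiplicative in open scoped commutatorElement in
  haveI := charP_of_card_eq_prime_pow hF
  obtain ⟨κ, i, h⟩ := exists_ns hnat hf (hT ▸ syl_sub S : Syl p T L)
  refine ⟨comm_eq_bot_iff.2 (h.comm_le.trans inf_le_right), by
    rw [h.cardV, Nat.card_eq_fintype_card, hF, ← pow_mul, mul_comm], by
    rw [h.cardZ, Nat.card_eq_fintype_card, hF], fun s hs s1 => ?_⟩
  obtain ⟨a, rfl⟩ := h.exT hs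
  have a0 : a ≠ 0 := fun e => s1 (by rw [e, uT_zero, map_one])
  have k : V ⊓ C[T] ≤ ⁅V, zpowers (i (uT a))⁆ := fun x hx => by
    obtain ⟨c, rfl⟩ := h.exZ hx
    have := commutator_mem_commutator (h.mem ![0, -(c / a)]) (mem_zpowers (i (uT a)))
    rw [h.comm] at this
    simpa [mul_div_cancel₀ _ a0] using this
  have l : ⁅V, zpowers (i (uT a))⁆ ≤ ⁅V, T⁆ := commutator_mono le_rfl (zpowers_le.2 hs)
  refine ⟨le_antisymm (fun x hx => ?_) (inf_le_inf_left _ (centralizer_le (by simpa using hs))),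
    le_antisymm h.comm_le (k.trans l), le_antisymm (l.trans h.comm_le) k, fun v hv v0 =>
    le_antisymm ((closure_le _).2 ?_) fun x hx => ?_⟩
  · obtain ⟨v, rfl⟩ := h.ex hx.1
    exact ⟨hx.1, (h.cT v).2 ((mul_eq_zero.1 ((h.fixT a v).1 hx.2)).resolve_left a0)⟩
  · rintro _ ⟨t, ht, rfl⟩
    exact h.comm_le (commutator_mem_commutator hv ht)
  · obtain ⟨c, rfl⟩ := h.exZ hx
    obtain ⟨v, rfl⟩ := h.ex hv
    have v1 : v 1 ≠ 0 := mt (h.cT v).2 v0
    refine subset_closure ⟨_, h.memT (-(c / v 1)), ?_⟩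
    rw [← commutatorElement_def, h.comm]
    simp [div_mul_cancel₀ _ v1]

end Cfsg.Agent.S2779
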