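import Cfsg.Statements.S2780
import Mathlib
import Cfsg.Agent.H9.NatM

set_option autoImplicit false
open Cfsg

namespace Cfsg.Agent.S2780

/-- Let L act on the elementary abelian p-group V (inside a finite group, faithfully) as SL₂(F) on its natural module, F a field with p^n elements, S a Sylow p-subgroup of L. Then: for every g ∈ L not normalizing S, V is the internal direct product of C_V(S) and C_V(gSg⁻¹); every nonidentity element of L of order prime to p acts on V without nonidentity fixed points; and C_V(S) and V/C_V(S) are irreducible for N_L(S): the only N_L(S)-invariant subgroups of C_V(S) are 1 and C_V(S), and the only N_L(S)-invariant subgroups between C_V(S) and V are those two. -/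
theorem result {G : Type*} [Group G] [Finite G] {p : ℕ} [Fact p.Prime] {F : Type*} [Field F] [Fintype F] (n : ℕ) (hF : Fintype.card F = p ^ n) (V L : Subgroup G) (hnat : Cfsg.IsNaturalSL2Module F V L) (hf : L ⊓ Subgroup.centralizer (V : Set G) = ⊥) (S : Sylow p ↥L) (T : Subgroup G) (hT : T = ((S : Subgroup ↥L).map L.subtype)) : (∀ g ∈ L, g ∉ Subgroup.normalizer (T : Set G) → Cfsg.IsInternalDirectProduct (V ⊓ Subgroup.centralizer ((T : Subgroup G) : Set G)) (V ⊓ Subgroup.centralizer ((T.map (MulAut.conj g).toMonoidHom : Subgroup G) : Set G)) V) ∧ (∀ x ∈ L, x ≠ 1 → (orderOf x).Coprime p → (V ⊓ Subgroup.centralizer ({x} : Set G)) = ⊥) ∧ (∀ U : Subgroup G, U ≤ (V ⊓ Subgroup.centralizer ((T : Subgroup G) : Set G)) → L ⊓ Subgroup.normalizer (T : Set G) ≤ Subgroup.normalizer (U : Set G) → U = ⊥ ∨ U = (V ⊓ Subgroup.centralizer ((T : Subgroup G) : Set G))) ∧ (∀ U : Subgroup G, (V ⊓ Subgroup.centralizer ((T : Subgroup G) : Set G)) ≤ U → U ≤ V → L ⊓ Subgroup.normalizer (T : Set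 G) ≤ Subgroup.normalizer (U : Set G) → U = (V ⊓ Subgroup.centralizer ((T : Subgroup G) : Set G)) ∨ U = V) := by
  open Subgroup Cfsg CfsgH2 Function in
  open scoped commutatorElement in
  open CfsgJW CfsgL0 Matrix Multiplicative in open scoped commutatorElement in
  haveI := charP_of_card_eq_prime_pow hF
  obtain ⟨κ, i, h⟩ := exists_ns hnat hf (hT ▸ syl_sub S : Syl p T L)
  refine ⟨fun g hg g0 => ?_, fun x hx x1 o => eq_bot_iff.2 fun y hy => ?_, fun U l n => ?_,
    fun U l1 l2 n => ?_⟩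
  · obtain ⟨M, rfl⟩ := h.ri.ge hg
    have M0 : M.1 1 0 ≠ 0 := fun e => g0 (h.norm e).2
    have k : ∀ c, κ (ofAdd (M.1 *ᵥ ![c, 0])) ∈ V ⊓ C[T.map (CfsgH2.cj (i M))] := fun c =>
      ⟨h.mem _, by rw [centralizer_map_cj, ← h.cj]; exact conj_mem_map_cj (h.memZ c).2⟩
    refine ⟨inf_le_left, inf_le_left, fun a ha b hb => h.ab ha.1 hb.1, eq_bot_iff.2 fun x hx => ?_,
      le_antisymm (sup_le inf_le_left inf_le_left) fun x hx => ?_⟩
    · have m : x ∈ C[T.map (CfsgH2.cj (i M))] := hx.2.2
      obtain ⟨v, rfl⟩ := h.ex hx.1.1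
      rw [centralizer_map_cj, mem_map_cj, ← map_inv, ← inv_inv (i M), ← map_inv, h.cj, h.cT] at m
      have v1 := (h.cT v).1 hx.1.2
      rw [sl_inv] at m
      have v0 : v 0 = 0 := by simpa [mulVec, dotProduct, v1, M0] using m
      rw [show v = 0 from funext fun k => by fin_cases k; exacts [v0, v1]]
      exact κ.map_one ▸ one_mem _
    · obtain ⟨v, rfl⟩ := h.ex hx
      have := mul_mem_sup (h.memZ (v 0 - M.1 0 0 * (v 1 / M.1 1 0))) (k (v 1 / M.1 1 0))
      rwa [← map_mul, ← ofAdd_add, show _ + _ = v from funext fun k => by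
        fin_cases k <;> simp [mulVec, dotProduct, mul_div_cancel₀ _ M0]] at this
  · obtain ⟨M, rfl⟩ := h.ri.ge hx
    obtain ⟨v, rfl⟩ := h.ex hy.1
    by_contra c
    have v0 : v ≠ 0 := fun e => c (by rw [e]; exact κ.map_one ▸ one_mem _)
    have d := exists_mulVec_eq_zero_iff.1 ⟨v, v0, show (M.1 - 1) *ᵥ v = 0 by
      rw [sub_mulVec, (h.fix M v).1 hy.2, one_mulVec, sub_self]⟩
    have d2 := M.2
    rw [det_fin_two] at d d2
    simp only [Matrix.sub_apply, one_apply_eq, one_apply_ne (by decide : (0 : Fin 2) ≠ 1),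
      one_apply_ne (by decide : (1 : Fin 2) ≠ 0), sub_zero] at d
    have q : (M.1 - 1) * (M.1 - 1) = 0 := by
      ext a b
      fin_cases a <;> fin_cases b <;> simp [Matrix.mul_apply, Fin.sum_univ_two]
      · linear_combination (M.1 0 0 - 1) * d2 - M.1 0 0 * d
      · linear_combination M.1 0 1 * d2 - M.1 0 1 * d
      · linear_combination M.1 1 0 * d2 - M.1 1 0 * d
      · linear_combination (M.1 1 1 - 1) * d2 - M.1 1 1 * d
    have pw : ∀ k : ℕ, (M ^ k).1 = 1 + (k : F) • (M.1 - 1) := fun k => by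
      induction k with
      | zero => simp
      | succ k ih =>
        rw [pow_succ, sl_mul, ih, show M.1 = 1 + (M.1 - 1) by abel, add_sub_cancel_left, add_mul,
          one_mul, smul_mul_assoc, mul_add, q, mul_one, add_zero, Nat.cast_succ, add_smul, one_smul]
        abel
    have e : i M ^ p = 1 := by
      rw [← map_pow, show M ^ p = 1 from Subtype.ext (by rw [pw]; simp), map_one]
    exact x1 (orderOf_eq_one_iff.1 (o.eq_one_of_dvd (orderOf_dvd_of_pow_eq_one e)))
  · refine or_iff_not_imp_left.2 fun u => le_antisymm l fun x hx => ?_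
    obtain ⟨⟨y, hy⟩, y0⟩ := ne_bot_iff_exists_ne_one.1 u
    obtain ⟨c, rfl⟩ := h.exZ (l hy)
    obtain ⟨d, rfl⟩ := h.exZ hx
    have z : κ (ofAdd ![0, 0]) = 1 := by
      rw [show (![0, 0] : Fin 2 → F) = 0 from funext fun k => by fin_cases k <;> rfl]; exact κ.map_one
    have c0 : c ≠ 0 := fun e => y0 (Subtype.ext (by subst e; exact z))
    by_cases d0 : d = 0
    · rw [d0, z]; exact one_mem _
    have := conj_mem_of_norm (n (h.norm (M := dg _ (div_ne_zero d0 c0)) rfl)) hy
    rw [h.cj, dg_mulVec] at this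
    simpa [div_mul_cancel₀ _ c0] using this
  · refine or_iff_not_imp_left.2 fun u => le_antisymm l2 fun x hx => ?_
    obtain ⟨y, hy, y0⟩ := SetLike.exists_of_lt (lt_of_le_of_ne l1 (Ne.symm u))
    obtain ⟨w, rfl⟩ := h.ex (l2 hy)
    obtain ⟨v, rfl⟩ := h.ex hx
    have w1 : w 1 ≠ 0 := fun e => y0 ⟨h.mem _, (h.cT w).2 e⟩
    by_cases v1 : v 1 = 0
    · exact l1 ⟨h.mem _, (h.cT v).2 v1⟩
    have := conj_mem_of_norm (n (h.norm (M := dg _ (div_ne_zero w1 v1)) rfl)) hy
    rw [h.cj, dg_mulVec] at this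
    have := mul_mem (l1 (h.memZ (v 0 - w 1 / v 1 * w 0))) this
    rwa [← map_mul, ← ofAdd_add, show _ + _ = v from funext fun k => by
      fin_cases k <;> simp [div_mul_cancel₀ _ w1]] at this

end Cfsg.Agent.S2780
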