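import Cfsg.Statements.S2781
import Mathlib
import Cfsg.Agent.H9.Loc

set_option autoImplicit false
open Cfsg

namespace Cfsg.Agent.S2781

/-- Let H act faithfully by conjugation on the elementary abelian p-subgroup V of a finite group, let O^p(H) be the subgroup of H generated by its elements of order prime to p, and T a Sylow p-subgroup of O^p(H). If V is generated by the H-conjugates of C_V(T) (V is the smallest H-invariant subgroup containing C_V(T)), then V = [V, O^p(H)]·C_V(O^p(H)). -/
theorem result {G : Type*} [Group G] [Finite G] {p : ℕ} [Fact p.Prime] (V H : Subgroup G) (hV : Cfsg.IsElementaryAbelian p V) (hHV : H ≤ Subgroup.normalizer (V : Set G)) (hf : H ⊓ Subgroup.centralizer (V : Set G) = ⊥) (R : Subgroup G) (hR : R = (Cfsg.pResidual p ↥H).map H.subtype) (S : Sylow p ↥R) (T : Subgroup G) (hT : T = ((S : Subgroup ↥R).map R.subtype)) (hgen : ∀ W : Subgroup G, H ≤ Subgroup.normalizer (W : Set G) → (V ⊓ Subgroup.centralizer ((T : Subgroup G) : Set G)) ≤ W → V ≤ W) : ⁅V, R⁆ ⊔ (V ⊓ Subgroup.centralizer ((R : Subgroup G) : Set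 G)) = V := by
  open Subgroup CfsgH9 in
  rw [Oup_eq] at hR
  have n : H ≤ normalizer (R : Set G) := hR ▸ le_normalizer_Oup le_normalizer
  have n2 : R ≤ normalizer (V : Set G) := (hR ▸ Oup_le H : R ≤ H).trans hHV
  refine le_antisymm (sup_le (commutator_le_left_of n2) inf_le_left) (hgen _
    (le_normalizer_sup (le_normalizer_commutator hHV n)
      (le_normalizer_inf hHV (le_normalizer_centralizer n))) ?_)
  refine ((hT ▸ syl_of_sylow S : Syl p T R).fixed_le (ea_comm hV) (ea_isPGroup hV) n2 le_rfl).trans ?_
  exact sup_le le_sup_right (le_sup_of_le_left (commutator_mono inf_le_left (Oup_le _)))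

end Cfsg.Agent.S2781
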