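import Cfsg.Statements.S2787
import Mathlib
import Cfsg.Agent.L0.Quad2
import Cfsg.Agent.H6.Ree6
import Cfsg.Agent.H8.SL2s

set_option autoImplicit false
open Cfsg

namespace Cfsg.Agent.S2787

open Subgroup CfsgH2 CfsgL0 Cfsg Matrix
open scoped MatrixGroups

theorem not_sec {X : Type*} [Group X] [Finite X] {p : ℕ} [hp : Fact p.Prime] (hp2 : p ≠ 2)
    (h : ∀ T : Subgroup X, IsPGroup 2 T → ∀ x ∈ T, ∀ y ∈ T, x * x ≠ 1 → y * y ≠ 1 → x * y = y * x) {K : Subgroup X} (f : K →* SL(2, ZMod p))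
    (hf : Function.Surjective f) : False := by
  have : Fact (Nat.Prime 2) := ⟨Nat.prime_two⟩
  obtain ⟨a, b, hab⟩ := ZMod.sq_add_sq p (-1)
  let y : SL(2, ZMod p) := ⟨!![a, b; b, -a], by simp; linear_combination -hab⟩
  have hy : y.1 = !![a, b; b, -a] := rfl
  have hw : (wS2 : SL(2, ZMod p)).1 = !![0, -1; 1, 0] := rfl
  have e1 : y * y = -1 := Subtype.ext (by
    change y.1 * y.1 = -1
    rw [hy, mul_fin_two, one_fin_two]
    ext i j; fin_cases i <;> fin_cases j <;> simp <;> first | ring1 | linear_combination hab)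
  have e2 : (wS2 : SL(2, ZMod p)) * wS2 = -1 := Subtype.ext (by
    change wS2.1 * wS2.1 = -1
    rw [hw, mul_fin_two, one_fin_two]
    ext i j; fin_cases i <;> fin_cases j <;> simp)
  have e3 : y * wS2 = -1 * (wS2 * y) := Subtype.ext (by
    change y.1 * wS2.1 = -1 * (wS2.1 * y.1)
    rw [hw, hy, mul_fin_two, mul_fin_two]
    ext i j; fin_cases i <;> fin_cases j <;> simp)
  have n1 : (-1 : SL(2, ZMod p)) ≠ 1 := fun e3 => by
    have := congrArg (fun M : SL(2, ZMod p) => M.1 0 0) e3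
    change (-1 : ZMod p) = 1 at this
    exact hp2 ((Nat.prime_dvd_prime_iff_eq hp.out Nat.prime_two).1
      ((ZMod.natCast_eq_zero_iff 2 p).1 (by push_cast; linear_combination -this)))
  have k : ∀ x : SL(2, ZMod p), x * x = -1 → PG[2, zpowers x] := fun x hx =>
    CfsgH2.isPGroup_zpowers (k := 2) (by rw [show 2 ^ 2 = 2 * 2 from rfl, pow_mul, sq x, hx]; simp)
  have pT := isPGroup_sup (k _ e1) (k _ e2) (.inl (zpowers_le.2 (mem_norm_zpowers (by
    rw [e3, mul_assoc, mul_inv_cancel_right, ← e2]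
    exact mul_mem (mul_mem (mem_zpowers _) (mem_zpowers _)) (mem_zpowers _)))))
  obtain ⟨S, hS⟩ := exists_syl 2 ((zpowers y ⊔ zpowers wS2).comap f)
  have h1 := hS.map f
  rw [map_comap_eq_self_of_surjective hf] at h1
  have e := h1.eq_of_pgroup pT
  obtain ⟨u, hu, eu⟩ := e.ge (mem_sup_left (mem_zpowers _))
  obtain ⟨v, hv, ev⟩ := e.ge (mem_sup_right (mem_zpowers _))
  have nn {u : K} (e : f u * f u = -1) : u.1 * u.1 ≠ 1 := fun k => n1 (by rw [← e, ← map_mul, show u * u = 1 from Subtype.ext k, map_one])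
  have := congrArg f (Subtype.ext (h _ (hS.pg.map K.subtype) u ⟨u, hu, rfl⟩ v ⟨v, hv, rfl⟩ (nn (eu ▸ e1)) (nn (ev ▸ e2))) : u * v = v * u)
  rw [map_mul, map_mul, eu, ev] at this
  rw [this, right_eq_mul] at e3
  exact n1 e3

/-- Let p be a prime and let H act by conjugation on the elementary abelian p-subgroup V of a finite group, irreducibly (no H-invariant subgroups of V other than 1 and V) and nontrivially, and suppose H/C_H(V) is isomorphic to PSL₂(F) for a field F with p^n elements, p^n odd, or p = 3 and H/C_H(V) is isomorphic to a Ree group ²G₂(3^(2m+1)), m ≥ 1. Then no subgroup A of H acting nontrivially on V acts quadratically: [V, A, A] = 1 forces [V, A] = 1. -/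
theorem result {G : Type*} [Group G] [Finite G] {p : ℕ} [Fact p.Prime] (V H : Subgroup G) (hV : Cfsg.IsElementaryAbelian p V) (hHV : H ≤ Subgroup.normalizer (V : Set G)) (hirr : ∀ U : Subgroup G, U ≤ V → H ≤ Subgroup.normalizer (U : Set G) → U = ⊥ ∨ U = V) (hnt : ¬ H ≤ Subgroup.centralizer (V : Set G)) [hn : ((Subgroup.centralizer (V : Set G)).subgroupOf H).Normal] (hq : (∃ (F : Type) (_ : Field F) (_ : Fintype F) (n : ℕ), Fintype.card F = p ^ n ∧ Odd (Fintype.card F) ∧ Nonempty (↥H ⧸ (Subgroup.centralizer (V : Set G)).subgroupOf H ≃* Matrix.ProjectiveSpecialLinearGroup (Fin 2) F)) ∨ (p = 3 ∧ Cfsg.Lie.IsoRee (↥H ⧸ (Subgroup.centralizer (V : Set G)).subgroupOf H))) (A : Subgroup G) (hA : A ≤ H) (hquad : ⁅⁅V, A⁆, A⁆ = ⊥) : ⁅V, A⁆ = ⊥ := by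
  have hp := ‹Fact p.Prime›
  have : Fact (Nat.Prime 2) := ⟨Nat.prime_two⟩
  obtain ⟨hp2, h2⟩ : p ≠ 2 ∧ ∀ T : Subgroup (H ⧸ C[V].subgroupOf H), IsPGroup 2 T → ∀ x ∈ T, ∀ y ∈ T, x * x ≠ 1 → y * y ≠ 1 → x * y = y * x := by
    rcases hq with ⟨F, _, _, n, h1, h2, ⟨e⟩⟩ | ⟨rfl, K, _, _, m, -, hK, ⟨e⟩⟩
    · refine ⟨?_, fun T pT x hx y hy x2 y2 => e.injective ?_⟩
      · rintro rfl
        rcases n with _ | n
        · exact Fintype.one_lt_card.ne' h1
        · exact absurd (h1 ▸ h2) (by simp [Nat.even_pow])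
      obtain ⟨P, hP⟩ := ((pT.map e.toMonoidHom).comap_of_ker_isPGroup CfsgH8.πS (isPGroup_of_exp fun x hx => by
        rcases CfsgH8.isSc_SL2.1 (CfsgH8.πS_eq_one.1 hx) with rfl | rfl <;> simp)).exists_le_sylow
      obtain ⟨C, N, hT, l, -⟩ := CfsgH8.sylow_two_SL2 (Nat.odd_iff.1 h2) P
      have k {x} (hx : x ∈ T) (x2 : x * x ≠ 1) : ∃ c ∈ C, CfsgH8.πS c = e x := by
        obtain ⟨c, hc⟩ := CfsgH8.πS_surj (e x)
        refine ⟨c, by_contra fun n => x2 (e.injective ?_), hc⟩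
        rw [map_mul, ← hc, ← map_mul, hT.sq c (l (hP ⟨x, hx, hc.symm⟩)) n, map_one]
        exact CfsgH8.πS_eq_one.2 (CfsgH8.isSc_SL2.2 (.inr rfl))
      obtain ⟨c, hc, e1⟩ := k hx x2
      obtain ⟨d, hd, e2⟩ := k hy y2
      rw [map_mul, map_mul, ← e1, ← e2, ← map_mul, ← map_mul, hT.tor.comm hc hd]
    obtain ⟨X, -⟩ := CfsgH6.exists_ree hK
    exact ⟨by norm_num, fun T pT x hx _ _ x2 _ => (x2 (e.injective (by
      rw [map_mul, map_one, ← sq]; exact (X.elem (pT.map e.toMonoidHom)).2 _ ⟨x, hx, rfl⟩))).elim⟩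
  refine commutator_eq_bot_iff_le_centralizer.2 (le_centralizer_iff.1 fun g hg => by_contra fun n => ?_)
  have pV : PG[p, V] := isPGroup_of_exp hV.2
  obtain ⟨L, l, j, φ, ij, lj, sφ, hφ⟩ := nat2_of_not_core hp2 hV hHV (hA hg) (eq_bot_iff.2 (hquad ▸ commutator_mono
    (commutator_mono le_rfl (zpowers_le.2 hg)) (zpowers_le.2 hg))) fun ⟨D, gD, lD, nD, k⟩ => by
      have lt := comm_lt_of_piRes pV (lD.trans hHV) k fun e => hnt fun x _ y hy => by rw [mem_bot.1 (e.le hy), one_mul, mul_one]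
      exact n (le_centralizer_iff.1 (commutator_eq_bot_iff_le_centralizer.1 ((hirr _ lt.le (le_norm_commutator hHV nD)).resolve_right lt.ne)) gD)
  let π := (QuotientGroup.mk' (C[V].subgroupOf H)).comp (inclusion l)
  have kπ : π.rangeRestrict.ker ≤ φ.ker := fun g hg => Subtype.ext (Matrix.ext_iff_mulVec.2 fun v => by
    have := (QuotientGroup.eq_one_iff _).1 (congrArg Subtype.val hg) _ (lj ⟨Multiplicative.ofAdd v, rfl⟩)
    simpa using (ij ((mul_inv_eq_iff_eq_mul.2 this.symm).symm.trans (hφ g v))).symm)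
  refine not_sec hp2 h2 (π.rangeRestrict.liftOfSurjective π.rangeRestrict_surjective ⟨φ, kπ⟩) fun y => ?_
  obtain ⟨x, rfl⟩ := sφ y
  exact ⟨π.rangeRestrict x, MonoidHom.liftOfRightInverse_comp_apply ..⟩

end Cfsg.Agent.S2787
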