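import Cfsg.Statements.S2799
import Mathlib
import Cfsg.Agent.H9.JW

set_option autoImplicit false
open Cfsg

namespace Cfsg.Agent.S2799

/-- Let S be a Sylow p-subgroup of the finite group G, J(S) the subgroup generated by the abelian subgroups of S of largest order, and x an element of S lying in the centre of N_G(J(S)). Assume that p is odd, or that x is a p-th power of an element of Z(S), or that the symmetric group of degree 4 is not involved in G. Then x is weakly closed in S with respect to G: every G-conjugate of x that lies in S equals x. -/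
theorem result {G : Type*} [Group G] [Finite G] {p : ℕ} [Fact p.Prime] (S : Sylow p G) (x : G) (hxS : x ∈ (S : Subgroup G)) (hxZ : x ∈ (Subgroup.center ↥(Subgroup.normalizer ((Cfsg.thompsonSubgroupAOf (S : Subgroup G)) : Set G))).map (Subgroup.normalizer ((Cfsg.thompsonSubgroupAOf (S : Subgroup G)) : Set G)).subtype) (h : p ≠ 2 ∨ (∃ z ∈ (S : Subgroup G) ⊓ Subgroup.centralizer ((S : Subgroup G) : Set G), z ^ p = x) ∨ ¬ Cfsg.Involves (Equiv.Perm (Fin 4)) G) : ∀ g : G, g * x * g⁻¹ ∈ (S : Subgroup G) → g * x * g⁻¹ = x := by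
  open Subgroup Cfsg CfsgH2 Function in
  open scoped commutatorElement in
  open CfsgJW CfsgL0 in
  rw [JA_eq] at hxZ
  have hC : x ∈ C[⊤ ⊓ N[J[0, (S : Subgroup G)]]] := by
    obtain ⟨y, hy, rfl⟩ := hxZ
    exact mem_cent_iff.2 fun g hg => congrArg Subtype.val (mem_center_iff.1 hy ⟨g, hg.2⟩)
  intro g hg
  rcases h with h | ⟨z, hz, rfl⟩ | h
  · exact jw_odd h (syl_top S) ⟨hxS, hC⟩ trivial hg
  · exact jw_pow (syl_top S) ⟨pow_mem_phi ((syl_top S).pg.to_le inf_le_left) hz, hC⟩ trivial hg
  · by_cases c : p = 2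
    · subst c
      exact jw_s4 (mt i4_top.2 h) (syl_top S) ⟨hxS, hC⟩ trivial hg
    · exact jw_odd c (syl_top S) ⟨hxS, hC⟩ trivial hg

end Cfsg.Agent.S2799
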