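import Cfsg.Statements.S2800
import Cfsg.Agent.H2.S4T

set_option autoImplicit false
open Cfsg

namespace Cfsg.Agent.S2800
open CfsgH2

/-- Let S be a Sylow p-subgroup of the finite group G and J(S) the subgroup generated by the abelian subgroups of S of largest order. Suppose p is odd, or the symmetric group of degree 4 is not involved in G. If both C_G(Z(S)) and N_G(J(S)) have normal p-complements, then G has a normal p-complement. -/
theorem result {G : Type*} [Group G] [Finite G] {p : ℕ} [Fact p.Prime] (S : Sylow p G) (h : p ≠ 2 ∨ ¬ Cfsg.Involves (Equiv.Perm (Fin 4)) G) (hC : Cfsg.HasNormalPComplement p ↥(Subgroup.centralizer (((S : Subgroup G) ⊓ Subgroup.centralizer ((S : Subgroup G) : Set G) : Subgroup G) : Set G))) (hN : Cfsg.HasNormalPComplement p ↥(Subgroup.normalizer ((Cfsg.thompsonSubgroupAOf (S : Subgroup G)) : Set G))) : Cfsg.HasNormalPComplement p G := by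
  open Subgroup Function in open scoped commutatorElement in
  rw [CfsgL0.JA_eq] at hN
  exact npc_top_iff.2 (npc_thompson' (dvd_zero p) h (syl_top S) ((npc_iff.1 hN).mono inf_le_right)
    ((npc_iff.1 hC).mono inf_le_right))

end Cfsg.Agent.S2800
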