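import Mathlib
import Cfsg.Statements.S3084
import Cfsg.Agent.H2.PG4

set_option autoImplicit false
open Cfsg

namespace Cfsg.Agent.S3084

open Matrix

theorem xs {Q : Type*} [Group Q] [Finite Q] (hp : IsPGroup 2 Q) (hc : Nat.card (Subgroup.center Q) = 2)
    (hd : commutator Q ≤ Subgroup.center Q) (hn : ∃ a b : Q, a * b ≠ b * a) : IsExtraspecial 2 Q := by
  rw [CfsgH2.extraspecial_top_iff]
  refine ⟨⟨hp.to_subgroup _, by rwa [CfsgH2.center_top], by rwa [CfsgH2.center_top]⟩, fun h => ?_⟩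
  obtain ⟨a, b, hab⟩ := hn
  exact hab (congrArg Subtype.val (h.is_comm.comm (⟨a, trivial⟩ : (⊤ : Subgroup Q)) ⟨b, trivial⟩))

def sg (a : ZMod 2) : ℝ := if a = 0 then 1 else -1

theorem z2 (a : ZMod 2) : a = 0 ∨ a = 1 := by revert a; decide
theorem z2' : (1 + 1 : ZMod 2) = 0 := by decide
theorem sg_zero : sg 0 = 1 := by simp [sg]
theorem sg_one : sg 1 = -1 := by simp [sg]
theorem sg_add (a b : ZMod 2) : sg (a + b) = sg a * sg b := by
  rcases z2 a with rfl | rfl <;> rcases z2 b with rfl | rfl <;> simp [sg_zero, sg_one, z2']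
theorem sg_sq (a : ZMod 2) : sg a * sg a = 1 := by
  rcases z2 a with rfl | rfl <;> simp [sg_zero, sg_one]
theorem sg_inj {a b : ZMod 2} (h : sg a = sg b) : a = b := by
  rcases z2 a with rfl | rfl <;> rcases z2 b with rfl | rfl <;> simp [sg_zero, sg_one] at h ⊢ <;> norm_num at h
theorem sg_ne (a : ZMod 2) : sg a ≠ 0 := fun h => by simpa [h] using sg_sq a

section
variable {U : Type*} [AddCommGroup U] [Module (ZMod 2) U] {ι : Type} [Fintype ι] [DecidableEq ι]

theorem uu (u : U) : u + u = 0 := by rw [← two_smul (ZMod 2), show (2 : ZMod 2) = 0 from rfl, zero_smul]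

theorem sum_sg [Fintype U] (f : U →ₗ[ZMod 2] ZMod 2) (hf : f ≠ 0) : ∑ v, sg (f v) = 0 := by
  obtain ⟨w, hw⟩ : ∃ w, f w ≠ 0 := by
    by_contra h; push Not at h; exact hf (LinearMap.ext h)
  have h1 : f w = 1 := (z2 _).resolve_left hw
  have := Equiv.sum_comp (Equiv.addLeft w) (fun v => sg (f v))
  simp only [Equiv.coe_addLeft, map_add, sg_add, h1, sg_one, neg_mul, one_mul, Finset.sum_neg_distrib] at this
  linarith

structure Sys (β : U →ₗ[ZMod 2] U →ₗ[ZMod 2] ZMod 2) (E : U → Matrix ι ι ℝ) : Prop where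
  ne : Nonempty ι
  nd : ∀ u, u ≠ 0 → (β + β.flip) u ≠ 0
  e0 : E 0 = 1
  mul : ∀ u v, E u * E v = sg (β u v) • E (u + v)
  tr : ∀ u, (E u)ᵀ = sg (β u u) • E u
  trace : ∀ u, u ≠ 0 → (E u).trace = 0

theorem exSys [Finite U] (β : U →ₗ[ZMod 2] U →ₗ[ZMod 2] ZMod 2) (nd : ∀ u, u ≠ 0 → (β + β.flip) u ≠ 0) :
    ∃ (N : ℕ) (E : U → Matrix (Fin N) (Fin N) ℝ), Sys β E := by
  classical
  obtain ⟨N, ⟨φ⟩⟩ := Finite.exists_equiv_fin U
  refine ⟨N, fun u => Matrix.of fun i j => if φ.symm i = u + φ.symm j then sg (β u (φ.symm j)) else 0,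
    ⟨φ 0⟩, nd, ?_, fun u v => ?_, fun u => ?_, fun u hu => ?_⟩
  · ext i j; simp [sg_zero, Matrix.one_apply]
  · ext i k
    simp only [Matrix.mul_apply, Matrix.of_apply, Matrix.smul_apply, smul_eq_mul]
    rw [Finset.sum_eq_single (φ (v + φ.symm k))]
    · simp only [Equiv.symm_apply_apply, if_true, add_assoc, map_add, LinearMap.add_apply, sg_add]
      split_ifs <;> ring
    · intro j _ hj
      rw [if_neg (c := φ.symm j = _), mul_zero]
      intro h; apply hj; rw [← h]; simp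
    · simp
  · ext i j
    simp only [Matrix.transpose_apply, Matrix.of_apply, Matrix.smul_apply, smul_eq_mul]
    by_cases h : φ.symm i = u + φ.symm j
    · rw [if_pos h, if_pos (by rw [h, ← add_assoc, uu, zero_add]), h, map_add, sg_add]
    · rw [if_neg h, if_neg, mul_zero]
      intro h'; apply h; rw [h', ← add_assoc, uu, zero_add]
  · simp [Matrix.trace, hu]

variable {β : U →ₗ[ZMod 2] U →ₗ[ZMod 2] ZMod 2} {E : U → Matrix ι ι ℝ}

theorem Sys.mt (h : Sys β E) (u : U) : E u * (E u)ᵀ = 1 := by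
  rw [h.tr, Matrix.mul_smul, h.mul, smul_smul, sg_sq, one_smul, uu, h.e0]
theorem Sys.tm (h : Sys β E) (u : U) : (E u)ᵀ * E u = 1 := mul_eq_one_comm.1 (h.mt u)
theorem Sys.comm (h : Sys β E) (u v : U) : E u * E v = sg ((β + β.flip) u v) • (E v * E u) := by
  rw [h.mul, h.mul, smul_smul, add_comm v u]
  congr 1
  simp only [LinearMap.add_apply, LinearMap.flip_apply, sg_add, mul_assoc, sg_sq, mul_one]
theorem Sys.t1 (h : Sys β E) : (1 : Matrix ι ι ℝ).trace ≠ 0 := by
  have := h.ne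
  simp
theorem Sys.inj (h : Sys β E) {u v : U} {a b : ZMod 2} (e : sg a • E u = sg b • E v) : a = b ∧ u = v := by
  have h1 : u = v := by
    by_contra hn
    have h2 := congrArg (fun x => (x * E v).trace) e
    simp only [Matrix.smul_mul, h.mul, uu, h.e0, Matrix.trace_smul] at h2
    rw [h.trace (u + v) (fun e => hn (by rw [← add_zero u, ← uu v, ← add_assoc, e, zero_add]))] at h2
    simp only [smul_eq_mul, mul_zero] at h2
    exact mul_ne_zero (sg_ne _) (mul_ne_zero (sg_ne _) h.t1) h2.symm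
  subst h1
  refine ⟨?_, rfl⟩
  have h2 := congrArg (fun x => (x * (E u)ᵀ).trace) e
  simp only [Matrix.smul_mul, h.mt, Matrix.trace_smul, smul_eq_mul] at h2
  exact sg_inj (mul_right_cancel₀ h.t1 h2)

def W (E : U → Matrix ι ι ℝ) : Submodule ℝ (Matrix ι ι ℝ) := Submodule.span ℝ (Set.range E)

theorem EW (u : U) : E u ∈ W E := Submodule.subset_span ⟨u, rfl⟩

theorem Sys.W_mul (h : Sys β E) {x y : Matrix ι ι ℝ} (hx : x ∈ W E) (hy : y ∈ W E) : x * y ∈ W E := by
  induction hx, hy using Submodule.span_induction₂ with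
  | mem_mem x y hx hy =>
    obtain ⟨l, rfl⟩ := hx
    obtain ⟨l', rfl⟩ := hy
    rw [h.mul]; exact Submodule.smul_mem _ _ (EW _)
  | zero_left => simp
  | zero_right => simp
  | add_left x y z _ _ _ h1 h2 => rw [add_mul]; exact add_mem h1 h2
  | add_right x y z _ _ _ h1 h2 => rw [mul_add]; exact add_mem h1 h2
  | smul_left r x y _ _ h => rw [smul_mul_assoc]; exact Submodule.smul_mem _ _ h
  | smul_right r x y _ _ h => rw [mul_smul_comm]; exact Submodule.smul_mem _ _ h

theorem Sys.W_tr (h : Sys β E) {x : Matrix ι ι ℝ} (hx : x ∈ W E) : xᵀ ∈ W E := by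
  induction hx using Submodule.span_induction with
  | mem x hx => obtain ⟨l, rfl⟩ := hx; rw [h.tr]; exact Submodule.smul_mem _ _ (EW _)
  | zero => simp
  | add x y _ _ h1 h2 => rw [Matrix.transpose_add]; exact add_mem h1 h2
  | smul r x _ h => rw [Matrix.transpose_smul]; exact Submodule.smul_mem _ _ h

theorem Sys.avg [Fintype U] (h : Sys β E) {u : U} (hu : u ≠ 0) : ∑ v, E v * E u * (E v)ᵀ = 0 := by
  have : ∀ v, E v * E u * (E v)ᵀ = sg ((β + β.flip) u v) • E u := fun v => by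
    have := h.comm u v
    rw [← one_smul ℝ (E v * E u), ← sg_sq ((β + β.flip) u v), mul_smul, ← this, Matrix.smul_mul, mul_assoc, h.mt, mul_one]
  simp_rw [this]
  rw [← Finset.sum_smul, sum_sg _ (h.nd u hu), zero_smul]

theorem Sys.cent [Finite U] (h : Sys β E) {x : Matrix ι ι ℝ} (hx : x ∈ W E) (hc : ∀ v, E v * x = x * E v) :
    ∃ c : ℝ, x = c • 1 := by
  have := Fintype.ofFinite U
  have h1 : ∀ x ∈ W E, ∑ v, E v * x * (E v)ᵀ ∈ Submodule.span ℝ {(1 : Matrix ι ι ℝ)} := by
    intro x hx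
    induction hx using Submodule.span_induction with
    | mem x hx =>
      obtain ⟨u, rfl⟩ := hx
      by_cases hu : u = 0
      · subst hu
        simp only [h.e0, mul_one, h.mt]
        exact Submodule.sum_mem _ fun _ _ => Submodule.mem_span_singleton_self _
      · rw [h.avg hu]; simp
    | zero => simp
    | add x y _ _ h1 h2 => simp only [mul_add, add_mul, Finset.sum_add_distrib]; exact add_mem h1 h2
    | smul r x _ h => simp only [Matrix.mul_smul, Matrix.smul_mul, ← Finset.smul_sum]; exact Submodule.smul_mem _ _ h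
  have h2 := h1 x hx
  simp only [hc, mul_assoc, h.mt, mul_one, Finset.sum_const, Finset.card_univ] at h2
  obtain ⟨c, hc⟩ := Submodule.mem_span_singleton.1 h2
  have h3 : (Fintype.card U : ℝ) ≠ 0 := by simp
  refine ⟨(Fintype.card U : ℝ)⁻¹ * c, ?_⟩
  rw [mul_smul, hc, ← Nat.cast_smul_eq_nsmul ℝ, smul_smul, inv_mul_cancel₀ h3, one_smul]

theorem Sys.ker [Finite U] (h : Sys β E) {x : Matrix ι ι ℝ} (hx : x ∈ W E) (ho : x * xᵀ = 1)
    (hc : ∀ v, ∃ a, x * E v = sg a • (E v * x)) : ∃ a w, x = sg a • E w := by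
  obtain ⟨w, hw⟩ : ∃ w, (x * (E w)ᵀ).trace ≠ 0 := by
    by_contra hn
    push Not at hn
    have : ∀ y ∈ W E, (x * yᵀ).trace = 0 := by
      intro y hy
      induction hy using Submodule.span_induction with
      | mem x hx => obtain ⟨u, rfl⟩ := hx; exact hn u
      | zero => simp
      | add x y _ _ h1 h2 => rw [Matrix.transpose_add, mul_add, Matrix.trace_add, h1, h2, add_zero]
      | smul r x _ h => rw [Matrix.transpose_smul, Matrix.mul_smul, Matrix.trace_smul, h, smul_zero]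
    exact h.t1 (ho ▸ this x hx)
  obtain ⟨c, hc⟩ := h.cent (h.W_mul hx (h.W_tr (EW w))) (fun v => by
    obtain ⟨a, ha⟩ := hc v
    have h1 : x * (E w)ᵀ * E v = sg (a + (β + β.flip) w v) • (E v * (x * (E w)ᵀ)) := by
      rw [h.tr, Matrix.mul_smul, Matrix.smul_mul, mul_assoc, h.comm w v, Matrix.mul_smul, ← mul_assoc, ha]
      simp only [Matrix.mul_smul, Matrix.smul_mul, smul_smul, sg_add, mul_assoc]
      congr 1; ring
    have h2 := congrArg (fun y => (y * (E v)ᵀ).trace) h1
    simp only [Matrix.smul_mul, Matrix.trace_smul, smul_eq_mul] at h2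
    rw [mul_assoc, h.mt, mul_one, Matrix.trace_mul_comm (E v * _), ← mul_assoc, h.tm, one_mul] at h2
    have h3 : sg (a + (β + β.flip) w v) = 1 := by
      apply mul_right_cancel₀ hw; rw [← h2, one_mul]
    rw [h1, h3, one_smul])
  have h1 : x = c • E w := by
    rw [← mul_one x, ← h.tm w, ← mul_assoc, hc, Matrix.smul_mul, one_mul]
  have h2 : c * c = 1 := by
    rw [h1, Matrix.transpose_smul, Matrix.smul_mul, Matrix.mul_smul, smul_smul, h.mt] at ho
    have := congrArg Matrix.trace ho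
    rw [Matrix.trace_smul, smul_eq_mul] at this
    exact mul_right_cancel₀ h.t1 (by rw [this, one_mul])
  rcases mul_self_eq_one_iff.1 h2 with rfl | rfl
  · exact ⟨0, w, by rw [sg_zero, h1]⟩
  · exact ⟨1, w, by rw [sg_one, h1]⟩

theorem exf [Module.Finite (ZMod 2) U] (δ : U →ₗ[ZMod 2] U →ₗ[ZMod 2] ZMod 2) (hδ : ∀ u, δ u u = 0) :
    ∃ f : U → ZMod 2, ∀ u v, f (u + v) = f u + f v + δ u v := by
  let b := Module.finBasis (ZMod 2) U
  let γ : U →ₗ[ZMod 2] U →ₗ[ZMod 2] ZMod 2 := b.constr (ZMod 2) fun i => b.constr (ZMod 2) fun j => if i < j then δ (b i) (b j) else 0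
  have hs : ∀ u v, δ u v = δ v u := fun u v => by
    have := hδ (u + v)
    simp only [map_add, LinearMap.add_apply, hδ, zero_add, add_zero] at this
    rw [← add_zero (δ u v), ← this, add_comm (δ v u), ← add_assoc, uu, zero_add]
  have : γ + γ.flip = δ := by
    apply LinearMap.ext_basis b b
    intro i j
    simp only [γ, LinearMap.add_apply, LinearMap.flip_apply, Module.Basis.constr_basis]
    rcases lt_trichotomy i j with h | rfl | h
    · simp [h, h.not_gt]
    · simp [hδ]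
    · simp [h, h.not_gt, hs]
  refine ⟨fun u => γ u u, fun u v => ?_⟩
  simp only [← this, map_add, LinearMap.add_apply, LinearMap.flip_apply]
  ring

theorem Sys.lift [Finite U] (h : Sys β E) (r : U →ₗ[ZMod 2] U) (hr : ∀ u, β (r u) (r u) = β u u) :
    ∃ x ∈ W E, x * xᵀ = 1 ∧ ∀ v, ∃ a, x * E v = sg a • (E (r v) * x) := by
  have := Fintype.ofFinite U
  obtain ⟨f, hf⟩ := exf (β.compl₁₂ r r + β) (fun u => by simp [hr, uu])
  simp only [LinearMap.add_apply, LinearMap.compl₁₂_apply] at hf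
  let F : U → Matrix ι ι ℝ := fun u => sg (f u) • E (r u)
  have hF : ∀ u v, F u * F v = sg (β u v) • F (u + v) := fun u v => by
    simp only [F, Matrix.smul_mul, Matrix.mul_smul, h.mul, smul_smul, hf, sg_add, map_add]
    congr 1
    linear_combination (-(sg (f v) * sg (f u) * sg (β (r u) (r v)))) * sg_sq (β u v)
  have hF' : ∀ u, (F u)ᵀ * F u = 1 := fun u => by
    simp only [F, Matrix.transpose_smul, Matrix.smul_mul, Matrix.mul_smul, smul_smul, sg_sq, one_smul, h.tm]
  let T : Matrix ι ι ℝ → Matrix ι ι ℝ := fun x => ∑ u, F u * x * (E u)ᵀ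
  have hT : ∀ x v, T x * E v = F v * T x := fun x v => by
    simp only [T, Finset.sum_mul, Finset.mul_sum]
    rw [← Equiv.sum_comp (Equiv.addLeft v)]
    apply Finset.sum_congr rfl
    intro u _
    have h1 : (E (v + u))ᵀ * E v = sg (β v u) • (E u)ᵀ := by
      have := congrArg (fun y => sg (β v u) • (yᵀ * E v)) (h.mul v u)
      simp only [Matrix.transpose_mul, Matrix.transpose_smul, Matrix.smul_mul, smul_smul, sg_sq, one_smul, mul_assoc, h.tm, mul_one] at this
      exact this.symm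
    simp only [Equiv.coe_addLeft]
    rw [mul_assoc, h1, ← mul_assoc, ← mul_assoc, hF]
    simp only [Matrix.mul_smul, Matrix.smul_mul]
  obtain ⟨w, hw⟩ : ∃ w, T (E w) ≠ 0 := by
    by_contra hn
    push Not at hn
    have h1 : ∑ w, E w * (T (E w))ᵀ = 0 := by simp [hn]
    simp only [T, Matrix.transpose_sum, Matrix.transpose_mul, Matrix.transpose_transpose, Finset.mul_sum, ← mul_assoc] at h1
    rw [Finset.sum_comm, Finset.sum_eq_single 0] at h1
    · simp only [h.e0, mul_one, h.mt, one_mul, Finset.sum_const, Finset.card_univ, F, map_zero, Matrix.transpose_smul, Matrix.transpose_one] at h1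
      have h2 := congrArg Matrix.trace h1
      rw [Matrix.trace_smul, Matrix.trace_smul, Matrix.trace_zero, nsmul_eq_mul, smul_eq_mul] at h2
      exact mul_ne_zero (by simp) (mul_ne_zero (sg_ne _) h.t1) h2
    · intro u _ hu
      rw [← Finset.sum_mul, h.avg hu, zero_mul]
    · simp
  have hW : T (E w) ∈ W E := Submodule.sum_mem _ fun u _ =>
    h.W_mul (h.W_mul (Submodule.smul_mem _ _ (EW _)) (EW _)) (h.W_tr (EW _))
  have hT' := hT (E w)
  generalize T (E w) = y at hw hW hT'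
  obtain ⟨c, hc⟩ := h.cent (h.W_mul (h.W_tr hW) hW) (fun v => by
    have h1 : (y * E v)ᵀ * (y * E v) = yᵀ * y := by
      rw [hT', Matrix.transpose_mul, mul_assoc, ← mul_assoc (F v)ᵀ, hF', one_mul]
    conv_lhs => rw [← h1]
    rw [Matrix.transpose_mul, mul_assoc, ← mul_assoc (E v), h.mt, one_mul, mul_assoc])
  have hc0 : 0 < c := by
    obtain ⟨i, j, hij⟩ : ∃ i j, y i j ≠ 0 := by
      by_contra hn; push Not at hn; exact hw (Matrix.ext hn)
    have h1 := congrFun (congrFun hc j) j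
    simp only [Matrix.mul_apply, Matrix.transpose_apply, Matrix.smul_apply, Matrix.one_apply_eq, smul_eq_mul, mul_one] at h1
    rw [← h1]
    exact Finset.sum_pos' (fun _ _ => mul_self_nonneg _) ⟨i, Finset.mem_univ _, mul_self_pos.2 hij⟩
  refine ⟨(Real.sqrt c)⁻¹ • y, Submodule.smul_mem _ _ hW, ?_, fun v => ⟨f v, ?_⟩⟩
  · rw [mul_eq_one_comm, Matrix.transpose_smul, Matrix.smul_mul, Matrix.mul_smul, hc, smul_smul, smul_smul,
      ← mul_inv, Real.mul_self_sqrt hc0.le, inv_mul_cancel₀ hc0.ne', one_smul]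
  · rw [Matrix.smul_mul, hT', Matrix.mul_smul, smul_comm]
    simp only [F, Matrix.smul_mul]

variable {K : Type*} [Group K]

def Sys.R (h : Sys β E) (ρ : Representation (ZMod 2) K U) : Subgroup (Matrix ι ι ℝ)ˣ where
  carrier := {x | (x : Matrix ι ι ℝ) ∈ W E ∧ (x : Matrix ι ι ℝ) * (x : Matrix ι ι ℝ)ᵀ = 1 ∧
    ∃ k, ∀ v, ∃ a, (x : Matrix ι ι ℝ) * E v = sg a • (E (ρ k v) * x)}
  one_mem' := ⟨by simpa [h.e0] using (EW 0 : E 0 ∈ W E), by simp, 1, fun v => ⟨0, by simp [sg_zero]⟩⟩
  mul_mem' := by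
    rintro x y ⟨x1, x2, k, x3⟩ ⟨y1, y2, l, y3⟩
    refine ⟨h.W_mul x1 y1, ?_, k * l, fun v => ?_⟩
    · rw [Units.val_mul, Matrix.transpose_mul, mul_assoc, ← mul_assoc (y : Matrix ι ι ℝ), y2, one_mul, x2]
    · obtain ⟨a, ha⟩ := y3 v
      obtain ⟨b, hb⟩ := x3 (ρ l v)
      refine ⟨a + b, ?_⟩
      rw [Units.val_mul, mul_assoc, ha, Matrix.mul_smul, ← mul_assoc, hb, Matrix.smul_mul, smul_smul, sg_add, mul_assoc]
      simp
  inv_mem' := by
    rintro x ⟨x1, x2, k, x3⟩
    have h1 : ((x⁻¹ : (Matrix ι ι ℝ)ˣ) : Matrix ι ι ℝ) = (x : Matrix ι ι ℝ)ᵀ := Units.inv_eq_of_mul_eq_one_right x2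
    refine ⟨h1 ▸ h.W_tr x1, ?_, k⁻¹, fun v => ?_⟩
    · rw [h1, Matrix.transpose_transpose]; exact mul_eq_one_comm.1 x2
    · obtain ⟨a, ha⟩ := x3 (ρ k⁻¹ v)
      refine ⟨a, ?_⟩
      rw [Units.inv_mul_eq_iff_eq_mul, Matrix.mul_smul, ← mul_assoc, ha, Matrix.smul_mul, smul_smul, sg_sq, one_smul,
        mul_assoc, Units.mul_inv, mul_one]
      simp

theorem Sys.uniq (h : Sys β E) {ρ : Representation (ZMod 2) K U} (hρ : Function.Injective ρ) {x : (Matrix ι ι ℝ)ˣ} {k l : K}
    (hk : ∀ v, ∃ a, (x : Matrix ι ι ℝ) * E v = sg a • (E (ρ k v) * x))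
    (hl : ∀ v, ∃ a, (x : Matrix ι ι ℝ) * E v = sg a • (E (ρ l v) * x)) : k = l := by
  apply hρ
  ext v
  obtain ⟨a, ha⟩ := hk v
  obtain ⟨b, hb⟩ := hl v
  rw [ha, ← Matrix.smul_mul, ← Matrix.smul_mul, Units.mul_left_inj] at hb
  exact (h.inj hb).2

theorem Sys.exπ [Finite U] (h : Sys β E) {ρ : Representation (ZMod 2) K U} (hρ : Function.Injective ρ)
    (hr : ∀ k u, β (ρ k u) (ρ k u) = β u u) : ∃ π : h.R ρ →* K, Function.Surjective π ∧
      ∀ (x : h.R ρ) v, ∃ a, (x.1 : Matrix ι ι ℝ) * E v = sg a • (E (ρ (π x) v) * x.1) := by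
  choose π hπ using fun x : h.R ρ => x.2.2.2
  refine ⟨MonoidHom.mk' π fun x y => h.uniq hρ (hπ _) fun v => ?_, fun k => ?_, hπ⟩
  · obtain ⟨a, ha⟩ := hπ y v
    obtain ⟨b, hb⟩ := hπ x (ρ (π y) v)
    refine ⟨a + b, ?_⟩
    rw [Subgroup.coe_mul, Units.val_mul, mul_assoc, ha, Matrix.mul_smul, ← mul_assoc, hb, Matrix.smul_mul, smul_smul, sg_add, mul_assoc]
    simp
  · obtain ⟨x, x1, x2, x3⟩ := h.lift (ρ k) (hr k)
    exact ⟨⟨⟨x, xᵀ, x2, mul_eq_one_comm.1 x2⟩, x1, x2, k, x3⟩, h.uniq hρ (hπ _) x3⟩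
end

/-- Let K be a group acting faithfully and linearly on a finite-dimensional vector space U of dimension 2n ≥ 2 over the field with two elements, preserving a quadratic form q whose polar bilinear form is non-degenerate and which vanishes on some n-dimensional subspace (a non-singular form of plus type). Then there is a finite group R with a normal extraspecial 2-subgroup Q of order 2^(2n+1), an isomorphism of R/Q with K, and a surjective homomorphism χ from Q onto (the additive group of) U with kernel the centre of Q, such that χ carries conjugation by any r in R to the action of the image of r in K, and an element a of Q squares to the identity exactly when q vanishes at χ(a). -/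
theorem result {K : Type*} [Group K] {U : Type*} [AddCommGroup U] [Module (ZMod 2) U] [Module.Finite (ZMod 2) U] (n : ℕ) (hn1 : 1 ≤ n) (hn : Module.finrank (ZMod 2) U = 2 * n) (ρ : Representation (ZMod 2) K U) (hρ : Function.Injective ρ) (q : QuadraticForm (ZMod 2) U) (hq : ∀ (k : K) (u : U), q (ρ k u) = q u) (hnd : (QuadraticMap.polarBilin q).Nondegenerate) (hplus : ∃ W : Submodule (ZMod 2) U, Module.finrank (ZMod 2) ↥W = n ∧ ∀ w ∈ W, q w = 0) : ∃ (R : Type) (_ : Group R) (_ : Finite R) (Q : Subgroup R) (hN : Q.Normal) (e : R ⧸ Q ≃* K) (χ : ↥Q →* Multiplicative U), Cfsg.IsExtraspecial 2 ↥Q ∧ Nat.card ↥Q = 2 ^ (2 * n + 1) ∧ Function.Surjective χ ∧ χ.ker = Subgroup.center ↥Q ∧ (∀ (r : R) (a : ↥Q), χ ⟨r * a * r⁻¹, hN.conj_mem (a : R) a.2 r⟩ = Multiplicative.ofAdd (ρ (e (r : R ⧸ Q)) (Multiplicative.toAdd (χ a)))) ∧ ∀ a : ↥Q, a * a = 1 ↔ q (Multiplicative.toAdd (χ a)) = 0 := by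
  have hU : Finite U := Module.finite_of_finite (ZMod 2)
  have hcU : Nat.card U = 2 ^ (2 * n) := by rw [Module.natCard_eq_pow_finrank (K := ZMod 2), hn]; simp
  have hK : Finite K := by
    have : Finite (U →ₗ[ZMod 2] U) := Finite.of_injective _ DFunLike.coe_injective
    exact Finite.of_injective _ hρ
  let β := q.toBilin (Module.finBasis (ZMod 2) U)
  have hβ : ∀ u, β u u = q u := fun u => by
    rw [← QuadraticMap.toQuadraticMap_toBilin q (Module.finBasis (ZMod 2) U)]; rfl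
  have hB : β + β.flip = q.polarBilin := by
    rw [← QuadraticMap.toQuadraticMap_toBilin q (Module.finBasis (ZMod 2) U), LinearMap.BilinMap.polarBilin_toQuadraticMap]
  obtain ⟨N, E, h⟩ := exSys β (fun u hu e => hu (hnd.1 u (fun v => by rw [← hB, e]; rfl)))
  obtain ⟨π, hπ, hπ'⟩ := h.exπ hρ (fun k u => by rw [hβ, hβ, hq])
  have hg : ∀ (a : ZMod 2) (w : U), ∃ x : π.ker, (x.1.1 : Matrix (Fin N) (Fin N) ℝ) = sg a • E w := fun a w => by
    have h1 : (sg a • E w) * (sg a • E w)ᵀ = 1 := by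
      rw [Matrix.transpose_smul, Matrix.smul_mul, Matrix.mul_smul, smul_smul, sg_sq, one_smul, h.mt]
    have h2 : ∀ v, ∃ b, (sg a • E w) * E v = sg b • (E (ρ 1 v) * (sg a • E w)) := fun v =>
      ⟨(β + β.flip) w v, by rw [Matrix.smul_mul, h.comm w v, Matrix.mul_smul, smul_comm]; simp⟩
    exact ⟨⟨⟨⟨_, _, h1, mul_eq_one_comm.1 h1⟩, Submodule.smul_mem _ _ (EW _), h1, 1, h2⟩, h.uniq hρ (hπ' _) h2⟩, rfl⟩
  have hk : ∀ x : π.ker, ∃ a w, (x.1.1 : Matrix (Fin N) (Fin N) ℝ) = sg a • E w := fun x =>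
    h.ker x.1.2.1 x.1.2.2.1 (fun v => by simpa [show π x.1 = 1 from x.2] using hπ' x.1 v)
  choose g hg using hg
  choose α ω hk using hk
  have hext : ∀ x y : π.ker, (x.1.1 : Matrix (Fin N) (Fin N) ℝ) = y.1.1 → x = y := fun x y e =>
    Subtype.ext (Subtype.ext (Units.ext e))
  have hω : ∀ (x : π.ker) a w, (x.1.1 : Matrix (Fin N) (Fin N) ℝ) = sg a • E w → ω x = w := fun x a w e =>
    (h.inj ((hk x).symm.trans e)).2
  have hmul : ∀ x y : π.ker, ((x * y).1.1 : Matrix (Fin N) (Fin N) ℝ) = sg (α x + α y + β (ω x) (ω y)) • E (ω x + ω y) := fun x y => by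
    simp only [Subgroup.coe_mul, Units.val_mul, hk, Matrix.smul_mul, Matrix.mul_smul, h.mul, smul_smul, sg_add]
    congr 1; ring
  let χ : π.ker →* Multiplicative U := MonoidHom.mk' (fun x => Multiplicative.ofAdd (ω x)) fun x y => by
    rw [hω _ _ _ (hmul x y)]; rfl
  have hχ : ∀ x, χ x = Multiplicative.ofAdd (ω x) := fun _ => rfl
  let eq : π.ker ≃ ZMod 2 × U := ⟨fun x => (α x, ω x), fun p => g p.1 p.2, fun x => hext _ _ (by rw [hg, hk]),
    fun p => by have := h.inj ((hk (g p.1 p.2)).symm.trans (hg _ _)); exact Prod.ext this.1 this.2⟩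
  have hfQ : Finite π.ker := Finite.of_equiv _ eq.symm
  have hcQ : Nat.card π.ker = 2 ^ (2 * n + 1) := by
    rw [Nat.card_congr eq, Nat.card_prod, hcU, Nat.card_zmod]; ring
  have hfR : Finite (h.R ρ) := by
    have : Finite (h.R ρ ⧸ π.ker) := Finite.of_equiv _ (QuotientGroup.quotientKerEquivOfSurjective π hπ).symm.toEquiv
    exact Finite.of_subgroup_quotient π.ker
  have hs : Function.Surjective χ := fun w => ⟨g 0 w.toAdd, by rw [hχ, hω _ _ _ (hg _ _)]; rfl⟩
  have hcomm : ∀ x y : π.ker, x * y = y * x ↔ (β + β.flip) (ω x) (ω y) = 0 := fun x y => by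
    simp only [LinearMap.add_apply, LinearMap.flip_apply]
    constructor
    · intro e
      have := (h.inj ((hmul x y).symm.trans (e ▸ hmul y x))).1
      rw [add_comm (α y), add_right_inj] at this
      rw [this, uu]
    · intro e
      apply hext
      rw [hmul, hmul, add_comm (ω x), add_comm (α x)]
      congr 3
      rw [← add_zero (β _ _), ← e, ← add_assoc, uu, zero_add]
  have hker : χ.ker = Subgroup.center π.ker := by
    ext x
    rw [MonoidHom.mem_ker, hχ, Subgroup.mem_center_iff]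
    constructor
    · intro e y
      have : ω x = 0 := e
      rw [hcomm, this, map_zero]
    · intro e
      by_contra hn
      apply h.nd (ω x) hn
      ext v
      have := (hcomm _ _).1 (e (g 0 v)).symm
      rwa [hω _ _ _ (hg _ _)] at this
  refine ⟨h.R ρ, inferInstance, hfR, π.ker, inferInstance, QuotientGroup.quotientKerEquivOfSurjective π hπ, χ,
    xs (IsPGroup.of_card hcQ) ?_ ?_ ?_, hcQ, hs, hker, fun r a => ?_, fun a => ?_⟩
  · have h1 := Subgroup.card_mul_index χ.ker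
    rw [Subgroup.index_ker, MonoidHom.range_eq_top.2 hs, Subgroup.card_top, hcQ, hker, Nat.card_congr Multiplicative.toAdd, hcU, pow_succ'] at h1
    exact Nat.eq_of_mul_eq_mul_right (by positivity) h1
  · rw [← hker]; exact Abelianization.commutator_subset_ker χ
  · have : Nontrivial U := Module.nontrivial_of_finrank_pos (R := ZMod 2) (by omega)
    obtain ⟨u, hu⟩ := exists_ne (0 : U)
    by_contra hn
    push Not at hn
    have : g 0 u ∈ χ.ker := by rw [hker, Subgroup.mem_center_iff]; exact fun y => hn _ _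
    rw [MonoidHom.mem_ker, hχ, hω _ _ _ (hg _ _)] at this
    exact hu this
  · obtain ⟨b, hb⟩ := hπ' r (ω a)
    rw [hχ, hχ, hω _ (α a + b) (ρ (π r) (ω a))]
    · rfl
    · simp only [Subgroup.coe_mul, Units.val_mul, hk, Matrix.mul_smul, hb, Matrix.smul_mul, smul_smul, sg_add, Subgroup.coe_inv]
      rw [mul_assoc, Units.mul_inv, mul_one]
  · rw [hχ, toAdd_ofAdd, ← hβ]
    have h1 := hmul a a
    rw [uu, uu, zero_add] at h1
    constructor
    · intro e
      rw [e] at h1
      exact (h.inj (a := 0) (u := 0) (by rw [← h1, sg_zero, h.e0]; simp)).1.symm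
    · intro e
      apply hext
      rw [h1, e, sg_zero, h.e0]; simp

end Cfsg.Agent.S3084
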