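import Cfsg.Statements.S3085
import Mathlib
import Cfsg.Agent.H9.Griess

set_option autoImplicit false
open Cfsg

namespace Cfsg.Agent.S3085

/-- Let Q be an extraspecial 2-group of order 2^(2n+1) with n ≥ 3 that is of plus type (it contains an elementary abelian subgroup of order 2^(n+1)). Then the group of inner automorphisms of Q has no complement in the full automorphism group of Q: the extension of the inner automorphism group (elementary abelian of order 2^(2n)) by the outer automorphism group (the orthogonal group of plus type) does not split. -/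
theorem result {Q : Type*} [Group Q] [Finite Q] (n : ℕ) (hn : 3 ≤ n) (hQ : Cfsg.IsExtraspecial 2 Q) (hcard : Nat.card Q = 2 ^ (2 * n + 1)) (hplus : ∃ E : Subgroup Q, Cfsg.IsElementaryAbelian 2 E ∧ Nat.card ↥E = 2 ^ (n + 1)) (L : Subgroup (MulAut Q)) : ¬ (Cfsg.Inn Q).IsComplement' L := by
  open Subgroup Cfsg CfsgH2 Function in
  open scoped commutatorElement in
  intro hL
  obtain ⟨k, rfl⟩ : ∃ k, n = k + 3 := ⟨n - 3, by omega⟩
  have hW := (extraspecial_top_iff.1 hQ).1
  obtain ⟨E, hE, hEc⟩ := hplus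
  have hc : Nat.card (⊤ : Subgroup Q) = 2 ^ (2 * (k + 3) + 1) := by rw [Subgroup.card_top, hcard]
  have hc' : Nat.card (⊤ : Subgroup (CfsgH9.Griess.Hs k)) = 2 ^ (2 * (k + 3) + 1) := by
    rw [Subgroup.card_top, CfsgH9.Griess.card_Hs]
  have p1 := hW.pos_of_el hc ⟨hE, hEc⟩ le_top
  have p2 := CfsgH9.Griess.wx.pos_of_el hc' CfsgH9.Griess.el_EE le_top
  have hpos : (0 : ℤ) < 2 ^ (k + 3 + 1) := by positivity
  have d1 := (hW.DD_cases hc).resolve_right (by intro h; rw [h] at p1; linarith)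
  have d2 := (CfsgH9.Griess.wx.DD_cases hc').resolve_right (by intro h; rw [h] at p2; linarith)
  obtain ⟨e⟩ := equiv_of_DD hW CfsgH9.Griess.wx (by rw [hcard, CfsgH9.Griess.card_Hs])
    (d1.trans d2.symm)
  have hconj : ∀ u : Q, MulAut.congr e (MulAut.conj u) = MulAut.conj (e u) := by
    intro u; ext1 v; simp
  refine CfsgH9.Griess.model (L.map (MulAut.congr e).toMonoidHom) (fun α => ?_) ?_
  · obtain ⟨⟨⟨_, ⟨u, rfl⟩⟩, l⟩, hl, -⟩ := hL.existsUnique ((MulAut.congr e).symm α)⁻¹
    refine ⟨e u, (l : MulAut Q)⁻¹, L.inv_mem l.2, ?_⟩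
    have : (l : MulAut Q)⁻¹ = (MulAut.congr e).symm α * MulAut.conj u := by
      simp only at hl
      rw [← inv_inv ((MulAut.congr e).symm α), ← hl]; group
    rw [this, MulEquiv.coe_toMonoidHom, map_mul, hconj, MulEquiv.apply_symm_apply]
  · rintro _ ⟨l, hl, rfl⟩ ⟨w, hw⟩
    have h1 : l ∈ Cfsg.Inn Q := ⟨e.symm w, (MulAut.congr e).injective (by
      rw [hconj, MulEquiv.apply_symm_apply]; exact hw)⟩
    have h2 := Subgroup.disjoint_def.1 hL.disjoint h1 hl
    rw [h2, map_one]

end Cfsg.Agent.S3085
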