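import Cfsg.Statements.S3103
import Cfsg.Agent.H2.Pq4
import Cfsg.Agent.L0.PCon
import Cfsg.Agent.S0256

set_option autoImplicit false
open Cfsg

namespace Cfsg.Agent.S3103
open CfsgH2
section
open Subgroup Function
open scoped commutatorElement

theorem exists_end_mat {V : Type*} [AddCommGroup V] [Finite V] {p n : ℕ} [hp : Fact p.Prime] [Module (ZMod p) V]
    (hc : Nat.card V ≤ p ^ n) : ∃ f : AddMonoid.End V →* Matrix (Fin n) (Fin n) (ZMod p), Injective f := by
  have h1 : Module.finrank (ZMod p) V ≤ n := by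
    rw [← Nat.pow_le_pow_iff_right hp.out.one_lt]
    have := Module.natCard_eq_pow_finrank (K := ZMod p) (V := V)
    rw [Nat.card_zmod] at this
    exact this ▸ hc
  let W := V × (Fin (n - Module.finrank (ZMod p) V) → ZMod p)
  let b : Module.Basis (Fin n) (ZMod p) W := Module.finBasisOfFinrankEq _ _ (by simp [W, h1])
  let r : AddMonoid.End V →* (W →ₗ[ZMod p] W) :=
    { toFun := fun a => (AddMonoidHom.toZModLinearMap p a).prodMap LinearMap.id
      map_one' := rfl
      map_mul' := fun _ _ => rfl }
  refine ⟨(LinearMap.toMatrixAlgEquiv b).toMonoidHom.comp r, (LinearMap.toMatrixAlgEquiv b).injective.comp fun x y e => ?_⟩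
  exact AddMonoidHom.ext fun g => congrArg Prod.fst (LinearMap.congr_fun e (g, 0))

open scoped IsMulCommutative in
theorem exists_aut_mat {E : Type*} [Group E] [Finite E] {p n : ℕ} [hp : Fact p.Prime] [IsMulCommutative E]
    (h : ∀ x : E, x ^ p = 1) (hc : Nat.card E ≤ p ^ n) :
    ∃ f : MulAut E →* Matrix (Fin n) (Fin n) (ZMod p), Injective f := by
  letI : Module (ZMod p) (Additive E) := AddCommGroup.zmodModule fun x => Additive.toMul.injective (h x.toMul)
  obtain ⟨f, hf⟩ := exists_end_mat (V := Additive E) hc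
  let r : MulAut E →* AddMonoid.End (Additive E) :=
    { toFun := fun a => MonoidHom.toAdditive a.toMonoidHom
      map_one' := rfl
      map_mul' := fun _ _ => rfl }
  exact ⟨f.comp r, hf.comp fun x y e => MulEquiv.ext fun g => congrArg Additive.toMul (DFunLike.congr_fun e (.ofMul g))⟩

theorem exists_A8 {A : Type*} [Group A] (f : A →* Matrix (Fin 4) (Fin 4) (ZMod 2)) (hf : Injective f) :
    ∃ g : A →* alternatingGroup (Fin 8), Injective g := by
  obtain ⟨e⟩ := Cfsg.Agent.S0256.result (F := ZMod 2) (ZMod.card 2)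
  have u : ∀ c : ZMod 2, c ≠ 0 → c = 1 := by decide
  let s : A →* Matrix.SpecialLinearGroup (Fin 4) (ZMod 2) :=
    { toFun := fun a => ⟨f a, u _ ((Matrix.isUnit_iff_isUnit_det _).1 ((Group.isUnit a).map f)).ne_zero⟩
      map_one' := Subtype.ext (map_one f)
      map_mul' := fun a b => Subtype.ext (map_mul f a b) }
  refine ⟨e.toMonoidHom.comp ((QuotientGroup.mk' _).comp s), e.injective.comp ((injective_iff_map_eq_one _).2 fun a h => ?_)⟩
  obtain ⟨r, h1, h2⟩ := Matrix.SpecialLinearGroup.mem_center_iff.1 ((QuotientGroup.eq_one_iff _).1 h)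
  rw [u r fun c => by simp [c] at h1, map_one] at h2
  exact hf (h2.symm.trans (map_one f).symm)

end

/-- Let X be a finite 2-constrained group with no nontrivial normal subgroup of odd order such that O₂(X) has sectional 2-rank at most 4. Then X/O₂(X) is isomorphic to a subgroup of the alternating group of degree 8. -/
theorem result {X : Type*} [Group X] [Finite X] (hc : Cfsg.IsPConstrained 2 X) (hO : Cfsg.oddCore X = ⊥)
    (h4 : Cfsg.SectionalPRankLE 2 4 ↥(Cfsg.pCore 2 X)) :
    ∃ f : X ⧸ Cfsg.pCore 2 X →* ↥(alternatingGroup (Fin 8)), Function.Injective f := by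
  open Subgroup Function in open scoped commutatorElement in
  · open CfsgL0 in
    have c := con_top_iff.2 ((pcon_iff_of_bot hO).1 hc)
    set Q := pCore 2 X
    have pQ : IsPGroup 2 Q := isPGroup_pCore
    have nQ : ∀ A : Subgroup X, A ≤ N[Q] := fun A => le_top.trans (top_le_norm_iff.2 inferInstance)
    haveI : Φ[Q].Normal := normal_of_top_le_norm ((nQ ⊤).trans norm_le_norm_phi)
    let π := QuotientGroup.mk' Φ[Q]
    haveI : (Q.map π).Normal := Normal.map inferInstance _ (QuotientGroup.mk'_surjective _)
    have e : IsElementaryAbelian 2 (Q.map π) := elem_of_phi_eq_bot (pQ.map π) (by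
      rw [← map_phi π pQ, Subgroup.map_eq_bot_iff, QuotientGroup.ker_mk'])
    haveI := e.1
    obtain ⟨f, hf⟩ := exists_aut_mat (E := Q.map π) (n := 4) (fun x => Subtype.ext (e.2 x x.2)) (by
      have := (sr_of_sec h4).phi (pQ.to_subgroup _) le_rfl
      rw [CfsgH1.frattiniOf_top, relIndex_top_right] at this
      rwa [← relIndex_ker, QuotientGroup.ker_mk', relIndex, subgroupOf, comap_map_eq_self_of_injective (subtype_injective _)])
    obtain ⟨g, hg⟩ := exists_A8 f hf
    let φ : X →* MulAut (Q.map π) := MulAut.conjNormal.comp π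
    have m : ∀ x, x ∈ φ.ker ↔ ∀ y ∈ Q, ⁅y, x⁆ ∈ Φ[Q] := fun x => by
      refine ⟨fun h y hy => ?_, fun h => MulEquiv.ext fun ⟨_, y, hy, rfl⟩ => Subtype.ext ?_⟩
      · have : π x * π y * (π x)⁻¹ = π y := congrArg Subtype.val (DFunLike.congr_fun h (⟨π y, y, hy, rfl⟩ : Q.map π))
        rw [← QuotientGroup.eq_one_iff, ← QuotientGroup.mk'_apply, map_commutatorElement, commutatorElement_eq_one_iff_mul_comm]
        exact (mul_inv_eq_iff_eq_mul.1 this).symm
      · have := h y hy
        rw [← QuotientGroup.eq_one_iff, ← QuotientGroup.mk'_apply, map_commutatorElement, commutatorElement_eq_one_iff_mul_comm] at this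
        exact mul_inv_eq_iff_eq_mul.2 this.symm
    have k : φ.ker = Q := by
      refine le_antisymm (le_pCore (isPGroup_iff_piN.2 fun q hq d => ?_)) fun x hx => (m x).2 fun y hy =>
        comm_le_phi pQ.isNilpotent (commutator_mem_commutator hy hx)
      by_contra f
      obtain ⟨x, hx, o⟩ := exists_prime_order_mem hq d
      have co := (Nat.coprime_primes hq Nat.prime_two).2 f
      have := coprime_le_cent_of_phi (nQ (zpowers x)) (coprime_of_not_dvd (by
        rw [Nat.card_zpowers, o]; exact (coprime_iff_not_dvd Nat.prime_two).1 co) pQ)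
        (commutator_le.2 fun y hy z hz => (m z).1 (zpowers_le.2 hx hz) y hy)
      rw [eq_one_of_coprime_order pQ (c (this (mem_zpowers x))) (o ▸ co), orderOf_one] at o
      exact hq.ne_one o.symm
    exact ⟨QuotientGroup.lift Q (g.comp φ) fun x hx => (congrArg g (k.ge hx)).trans (map_one g),
      (injective_iff_map_eq_one _).2 fun x => QuotientGroup.induction_on x fun x h =>
        (QuotientGroup.eq_one_iff x).2 (k.le (hg (h.trans (map_one g).symm)))⟩

end Cfsg.Agent.S3103
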