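import Cfsg.Statements.S3110
import Mathlib
import Cfsg.Agent.H9.Kill

set_option autoImplicit false
open Cfsg

namespace Cfsg.Agent.S3110

/-- Let G be a finite group in which every 2-local subgroup is 2-constrained and some Sylow 2-subgroup has a self-centralizing abelian normal subgroup of 2-rank at least 3, and let S be any Sylow 2-subgroup of G. Then there is a subgroup W of G of odd order such that, for every subgroup B of S of 2-rank at least 2, W is generated by the largest normal odd-order subgroups O(C_G(b)) of the centralizers of the non-identity elements b of B, and W is normalized by the normalizer of every such B. -/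
theorem result {G : Type*} [Group G] [Finite G]
    (h2c : ∀ T : Subgroup G, IsPGroup 2 T → T ≠ ⊥ → Cfsg.IsPConstrained 2 ↥(Subgroup.normalizer (T : Set G)))
    (S : Sylow 2 G) (A : Subgroup ↥(S : Subgroup G)) (hAn : A.Normal) (hAab : IsMulCommutative ↥A)
    (hAC : Subgroup.centralizer (A : Set ↥(S : Subgroup G)) = A) (hA3 : ¬ Cfsg.PRankLE 2 2 ↥A) (S' : Sylow 2 G) :
    ∃ W : Subgroup G, Odd (Nat.card ↥W) ∧
      ∀ B : Subgroup G, B ≤ (S' : Subgroup G) → ¬ Cfsg.PRankLE 2 1 ↥B →
        W = (⨆ b : {b : G // b ∈ B ∧ b ≠ 1}, Cfsg.centralizerPPrimeCore 2 (b : G)) ∧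
        Subgroup.normalizer (B : Set G) ≤ Subgroup.normalizer (W : Set G) := by
  open Subgroup CfsgH9 in
  obtain ⟨E, e1, e2, e3, e4⟩ := exists_normal_ea (S := ⊤) le_normalizer_of_normal
    (isMulCommutative_iff_comm.1 hAab) hA3
  obtain ⟨g, -, hg⟩ := (syl_sylow S).conj (syl_sylow S')
  have a1 : cj g (E.map (S : Subgroup G).subtype) ≤ S' := hg ▸ cj_mono g (map_subtype_le _)
  have a2 : (S' : Subgroup G) ≤ normalizer (cj g (E.map (S : Subgroup G).subtype) : Set G) := by
    have := normal_of_top_le e2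
    rw [← hg, ← cj_normalizer]
    exact cj_mono g (le_normalizer_map_subtype E)
  have a3 := ea_cj g (ea_map (S : Subgroup G).subtype e3)
  have a4 : 2 ^ 3 ≤ Nat.card (cj g (E.map (S : Subgroup G).subtype)) := by
    rwa [card_cj, card_map_of_injective (subtype_injective _)]
  have hL : ∀ t : G, orderOf t = 2 → PLay 2 (centralizer ({t} : Set G)) = ⊥ := fun t ht => by
    have := PLay_mono (p := 2) (sn_centralizer_normalizer ⊤ (zpowers t))
    rw [top_inf_eq, top_inf_eq, isPConstrained_iff_PLay.1 (h2c _ (isPGroup_zpowers_of_prime ht)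
      (by simpa using ne_one_of_orderOf_prime ht)), centralizer_zpowers] at this
    exact le_bot_iff.1 this
  obtain ⟨W, w1, w2⟩ := exists_core_W a1 a3 a4 (fc_of_normal S'.isPGroup' a1 a2 a3 a4) hL
  have e : ∀ b : G, centralizerPPrimeCore 2 b = Opp 2 (centralizer ({b} : Set G)) := fun b => by
    rw [centralizerPPrimeCore_eq, top_inf_eq]
  simp only [e]
  refine ⟨W, odd_iff_coprime_two.2 w1, fun B h1 h2 => ?_⟩
  obtain ⟨V, v1, v2⟩ := not_pRankLE_iff.1 h2
  have k : W = signalizerClosure B fun b => Opp 2 (centralizer ({b} : Set G)) := by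
    refine le_antisymm ((w2 V ⟨v1.trans h1, v2⟩).ge.trans (sigCl_mono v1)) (sigCl_le fun b b1 b2 => ?_)
    have pb := S'.isPGroup'.to_le (zpowers_le.2 (h1 b1))
    obtain ⟨t, t1, t2⟩ := exists_orderOf_prime_of_ne_bot pb (by simpa using b2)
    obtain ⟨U, u1, u2⟩ := exists_v2_mem S'.isPGroup' ⟨v1.trans h1, v2⟩ (zpowers_le.2 (h1 b1) t1) t2
    refine ((Opp_le_Lbar _).trans (Lbar_le_Opp_of_PLay_eq_bot (P := zpowers b) (hL t t2) ?_
      (le_Op (.of_normal (zpowers_le.2 (mem_centralizer_singleton_iff.2 rfl))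
        ((centralizer_zpowers b).ge.trans (centralizer_le_normalizer _))) pb)
      (by rw [centralizer_zpowers]; exact inf_le_right))).trans
      (w2 U u1 ▸ le_sigCl (θ := fun a => Opp 2 (centralizer ({a} : Set G))) u2
        (ne_one_of_orderOf_prime t2))
    rw [← centralizer_zpowers b]
    exact centralizer_le_centralizer_singleton t1
  refine ⟨k, fun x hx => cj_eq_iff.1 ?_⟩
  rw [k, cj_sigCl fun b _ _ => cj_core x b, cj_eq_of_mem_normalizer hx]

end Cfsg.Agent.S3110
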