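import Cfsg.Statements.S3116
import Cfsg.Agent.H3.Hv2

set_option autoImplicit false
open Cfsg

namespace Cfsg.Agent.S3116
open Subgroup CfsgH2 CfsgHv MulAction
open CfsgH4 (GQ mul_inv_mem_of_relIndex_two mem_cent_of_odd_cyclic gq_of_equiv npc_of_cyclic)
open scoped commutatorElement
theorem aux {X : Type*} [Group X] [Finite X] (h2 : IsPGroup 2 X) (r : X) (hi : (zpowers r).index = 2) (n : ℕ)
    (ho : ∀ y, y ∉ zpowers r → y ^ n = 1) (hr : r ^ n ≠ 1) : IsPGroup 2 (MulAut X) := by
  obtain ⟨H, _, _, i, j, hi', hj, h1, -⟩ := exists_hol X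
  refine isPGroup_iff_piN.2 fun q hq hd => ?_
  by_contra hne
  haveI := Fact.mk hq
  obtain ⟨σ, hσ⟩ := exists_prime_orderOf_dvd_card' q hd
  have go : Odd (orderOf (j σ)) := by rw [orderOf_injective j hj, hσ]; exact hq.odd_of_ne_two hne
  have hn : (zpowers r).Normal := normal_of_index_eq_two hi
  have := cent_of_cyc (S := (⊤ : Subgroup X).map i) (A := zpowers (i r)) (x := i r) (n := n)
    ((h2.to_subgroup ⊤).map i) inferInstance
    (by rw [← MonoidHom.map_zpowers]; exact map_le_norm_map _ (top_le_norm_iff.2 hn))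
    (by rw [← MonoidHom.map_zpowers, relIndex_map_map_of_injective _ _ hi', relIndex_top_right, hi])
    (by
      rintro _ ⟨y, -, rfl⟩ h
      rw [← map_pow, ho y fun h' => h (MonoidHom.map_zpowers i r ▸ mem_map_of_mem i h'), map_one])
    le_rfl (mem_inf.2 ⟨mem_map_of_mem i (mem_top r), mem_zpowers _⟩)
    (by rw [← map_pow]; exact fun h => hr (hi' (h.trans (map_one i).symm))) go
    (hol_norm h1 ⊤ (mem_map_of_mem j (mem_top σ)))
  have h3 : σ = 1 := MulEquiv.ext fun x => (hol_cent hi' h1).1 this x (mem_top x)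
  rw [h3, orderOf_one] at hσ
  exact hq.one_lt.ne hσ

/-- The automorphism group of a dihedral 2-group of order at least 8, or of a quasi-dihedral (semidihedral) 2-group of order at least 16, is a 2-group. -/
theorem result {X : Type*} [Group X] [Finite X] (h2 : IsPGroup 2 X)
    (h : (∃ n : ℕ, 4 ≤ n ∧ Nonempty (X ≃* DihedralGroup n)) ∨ Cfsg.IsQuasiDihedral X) : IsPGroup 2 (MulAut X) := by
  rcases h with ⟨n, hn, ⟨e⟩⟩ | ⟨n, hn, hc, x, y, hx, hy, hr⟩
  · obtain ⟨r, -, ho, hi, -, h1⟩ := dihedral_amb (S := ⊤) (by omega) (topEquiv.trans e)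
    refine aux h2 r (by simpa using hi) 2 (fun y h => (h1 y (mem_top y) h).1) fun h => ?_
    have := Nat.le_of_dvd two_pos (ho ▸ orderOf_dvd_of_pow_eq_one h)
    omega
  · obtain ⟨m, rfl⟩ : ∃ m, n = m + 1 := ⟨n - 1, by omega⟩
    rw [Nat.add_sub_cancel, ← inv_mul_half] at hr
    have hi : (zpowers x).index = 2 := by
      have := (zpowers x).card_mul_index
      rw [Nat.card_zpowers, hx, hc, pow_succ 2 (m + 1)] at this
      exact Nat.eq_of_mul_eq_mul_left (by positivity) this
    have x4 : ∀ k, k ∣ 2 ^ m → x ^ k ≠ 1 := fun k hk h => by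
      have := Nat.le_of_dvd (by positivity) ((hx ▸ orderOf_dvd_of_pow_eq_one h).trans hk)
      rw [pow_succ] at this
      have : 0 < 2 ^ m := by positivity
      omega
    have d4 : 4 ∣ 2 ^ m := pow_dvd_pow 2 (show 2 ≤ m by omega)
    have hz := half_sq hx
    have yn : y ∉ zpowers x := fun h => by
      rw [← commute_of_mem_zpowers (mem_zpowers x) h, mul_inv_cancel_right] at hr
      refine x4 4 d4 ?_
      have e : x * x = x ^ 2 ^ m := by rw [← mul_inv_cancel_left x (x ^ 2 ^ m), ← hr]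
      rw [show x ^ 4 = x * x * (x * x) by simp [pow_succ, mul_assoc], e, hz]
    refine aux h2 x hi 4 (fun w hw => ?_) (x4 4 d4)
    have := mul_inv_mem_of_relIndex_two (P := ⊤) (by simpa using hi) (mem_top w) (mem_top y) hw yn
    obtain ⟨k, hk⟩ := mem_zpowers_iff.1 this
    obtain rfl : w = x ^ k * y := by rw [hk]; simp
    have y2 : y * y = 1 := CfsgL0.inv_mul_self hy
    have c1 : Commute x⁻¹ (x ^ 2 ^ m) := (Commute.refl x).inv_left.pow_right _
    have e1 : x ^ k * y * (x ^ k * y) = (x ^ 2 ^ m) ^ k := by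
      calc x ^ k * y * (x ^ k * y) = x ^ k * (y * x * y⁻¹) ^ k * (y * y) := by rw [conj_zpow]; group
        _ = _ := by rw [hr, y2, c1.mul_zpow]; group
    rw [show (4 : ℕ) = 2 * 2 from rfl, pow_mul, pow_two (x ^ k * y), e1, pow_two, ← Commute.mul_zpow (Commute.refl _), hz, one_zpow]


end Cfsg.Agent.S3116
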