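import Cfsg.Statements.S3356
import Mathlib
import Cfsg.Agent.H2.Misc

set_option autoImplicit false
open Cfsg

namespace Cfsg.Agent.S3356

section
open Subgroup Cfsg CfsgH2 Function
open scoped commutatorElement

section
open scoped commutatorElement
variable {G : Type*} [Group G] [Finite G] {H N K L : Subgroup G} {m c : ℕ}
@[reducible] def act (L : Subgroup G) (Y : Set G) (h : ∀ g ∈ L, ∀ y ∈ Y, g * y * g⁻¹ ∈ Y) : MulAction L Y where
  smul g y := ⟨g * y * g.1⁻¹, h _ g.2 _ y.2⟩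
  one_smul y := Subtype.ext (by change (1 : G) * y * 1⁻¹ = y; simp)
  mul_smul a b y := Subtype.ext (by
    change (a : G) * b * y * (a * b : G)⁻¹ = a * (b * y * (b : G)⁻¹) * (a : G)⁻¹; group)
theorem dv {Y : Set G} (h : ∀ g ∈ L, ∀ y ∈ Y, g * y * g⁻¹ ∈ Y) {s : ℕ}
    (hs : ∀ y ∈ Y, C1[y].relIndex L = s) : s ∣ Y.ncard := by
  classical
  letI := act L Y h
  haveI := Fintype.ofFinite (MulAction.orbitRel.Quotient L Y)
  rw [← Nat.card_coe_set_eq, Nat.card_congr (MulAction.selfEquivSigmaOrbits L Y), Nat.card_sigma]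
  refine Finset.dvd_sum fun ω _ => ?_
  rw [Nat.card_coe_set_eq, ← MulAction.index_stabilizer, ← hs _ ω.out.2]
  refine dvd_of_eq (congrArg index (Subgroup.ext fun g => ?_))
  rw [mem_subgroupOf, mem_centralizer_singleton_iff, ← mul_inv_eq_iff_eq_mul]
  exact ⟨fun e => Subtype.ext e, fun e => congrArg Subtype.val e⟩
theorem cls (L : Subgroup G) (x : G) : {y | ∃ n ∈ L, n * x * n⁻¹ = y}.ncard ∣ Nat.card L := by
  letI := act L {y | ∃ n ∈ L, n * x * n⁻¹ = y} (by
    rintro g hg _ ⟨n, hn, rfl⟩; exact ⟨_, mul_mem hg hn, by group⟩)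
  haveI : MulAction.IsPretransitive L {y | ∃ n ∈ L, n * x * n⁻¹ = y} := ⟨by
    rintro ⟨_, a, ha, rfl⟩ ⟨_, b, hb, rfl⟩
    exact ⟨⟨_, mul_mem hb (inv_mem ha)⟩, Subtype.ext (by
      change b * a⁻¹ * (a * x * a⁻¹) * (b * a⁻¹)⁻¹ = b * x * b⁻¹; group)⟩⟩
  rw [← Nat.card_coe_set_eq, ← MulAction.index_stabilizer_of_transitive L
    (⟨x, 1, one_mem _, by group⟩ : {y | ∃ n ∈ L, n * x * n⁻¹ = y})]
  exact index_dvd_card _
structure HT (H N : Subgroup G) (m : ℕ) : Prop where
  fa : H ⊓ C[N] = ⊥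
  ix : ∀ x ∈ N, x ≠ 1 → C1[x].relIndex H = m
  lt : m ≠ Nat.card H
theorem HT.cop (h : HT H N m) (l : K ≤ N) (n : H ≤ N[K]) : (Nat.card K).Coprime m := by
  have := dv (L := H) (Y := (K : Set G) \ {1}) (fun g hg y hy => ⟨conj_mem_of_norm (n hg) hy.1,
    fun e => hy.2 (conj_eq_one_iff.1 e)⟩) fun y hy => h.ix y (l hy.1) hy.2
  rw [Set.ncard_diff_singleton_of_mem K.one_mem] at this
  exact ((Nat.coprime_self_sub_right (Nat.card_pos (α := K))).2 (Nat.coprime_one_right _)).coprime_dvd_right this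
theorem HT.cd (h : HT H N m) {x : G} (hx : x ∈ N) (x1 : x ≠ 1) : Nat.card ↥(C1[x] ⊓ H) * m = Nat.card H :=
  h.ix x hx x1 ▸ card_inf_mul_relIndex _ _
theorem HT.blk (h : HT H N m) (r : Setoid G) (hr : ∀ g ∈ H, ∀ y z, r y z → r (g * y * g⁻¹) (g * z * g⁻¹))
    {x : G} (hY : ∀ y, r x y → y ∈ N ∧ y ≠ 1) (cp : {y | r x y}.ncard.Coprime m) {y : G} (hy : r x y) :
    C1[x] ⊓ H ≤ C1[y] := by
  let L : Subgroup G :=
    { carrier := {g | g ∈ H ∧ r x (g * x * g⁻¹)}
      one_mem' := ⟨one_mem _, by simpa using r.refl x⟩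
      mul_mem' := fun {a b} ha hb => ⟨mul_mem ha.1 hb.1, r.trans ha.2 (by
        simpa [mul_assoc] using hr a ha.1 _ _ hb.2)⟩
      inv_mem' := fun {a} ha => ⟨inv_mem ha.1, r.symm (by
        simpa [mul_assoc] using hr _ (inv_mem ha.1) _ _ ha.2)⟩ }
  have l : L ≤ H := fun _ k => k.1
  have l2 : ∀ y, r x y → C1[y] ⊓ H ≤ L := fun y hy g hg => ⟨hg.2, r.trans hy (r.symm (by
    have := hr g hg.2 _ _ hy
    rwa [mem_centralizer_singleton_iff.1 hg.1, mul_inv_cancel_right] at this))⟩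
  have m0 : 0 < m := Nat.pos_of_mul_pos_left ((h.cd (hY _ hy).1 (hY _ hy).2).symm ▸ Nat.card_pos)
  have e : ∀ y, r x y → C1[y].relIndex L * L.relIndex H = m := fun y hy => by
    rw [← h.ix y (hY _ hy).1 (hY _ hy).2, ← inf_relIndex_right C1[y] H, ← relIndex_mul_relIndex _ _ _ (l2 y hy) l,
      ← inf_relIndex_right C1[y] L, ← inf_relIndex_right (_ ⊓ H) L, inf_assoc, inf_eq_right.2 l]
  have d := dv (L := L) (Y := {y | r x y}) (s := C1[y].relIndex L)
    (fun g hg z hz => r.trans hg.2 (hr g hg.1 _ _ hz)) fun z hz =>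
      Nat.eq_of_mul_eq_mul_right (relIndex_pos _ _) ((e z hz).trans (e y hy).symm)
  exact (l2 x (r.refl x)).trans (relIndex_eq_one.1 (Nat.eq_one_of_dvd_coprimes cp d (Dvd.intro _ (e y hy))))
theorem HT.nc (h : HT H N m) {x : G} (hx : x ∈ N) (x1 : x ≠ 1) : ¬ C1[x] ⊓ H ≤ C[N] := fun k => by
  have := h.cd hx x1
  rw [show C1[x] ⊓ H = ⊥ from eq_bot_iff.2 (h.fa ▸ le_inf inf_le_right k), card_bot, one_mul] at this
  exact h.lt this
theorem HT.irr (h : HT H N m) (l : K ≤ N) (n : H ≤ N[K]) : K = ⊥ ∨ K = N := by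
  by_contra! k
  obtain ⟨z, hz, z1⟩ := (bot_or_exists_ne_one K).resolve_left k.1
  have a : ∀ x ∈ N, x ∉ K → C1[x] ⊓ H ≤ C[K] := fun x hx xK g hg => mem_cent_iff.2 fun y hy => by
    have := mem_centralizer_singleton_iff.1 (h.blk (QuotientGroup.leftRel K) (fun g hg y z e => by
      rw [QuotientGroup.leftRel_apply] at e ⊢
      simpa [mul_assoc] using conj_mem_of_norm (n hg) e) (x := x) (fun y e => by
        rw [QuotientGroup.leftRel_apply] at e
        exact ⟨(mul_mem_cancel_left (inv_mem hx)).1 (l e), fun f => xK (by simpa [f] using e)⟩) (by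
        convert h.cop l n
        rw [← Set.ncard_image_of_injective _ (mul_right_injective x⁻¹)]
        congr 1
        ext y
        simp [QuotientGroup.leftRel_apply]) (y := x * y) (by
          rw [QuotientGroup.leftRel_apply]; simpa using hy) hg)
    rw [← mul_assoc, mem_centralizer_singleton_iff.1 hg.1, mul_assoc, mul_assoc, mul_right_inj] at this
    exact this.symm
  have m0 : 0 < m := Nat.pos_of_mul_pos_left ((h.cd (l hz) z1).symm ▸ Nat.card_pos)
  have b : ∀ x ∈ N, x ∉ K → C1[x] ⊓ H = C1[z] ⊓ H := fun x hx xK => eq_of_le_of_card_ge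
    (le_inf ((a x hx xK).trans (cent_le_cent1 hz)) inf_le_right) (Nat.eq_of_mul_eq_mul_right m0
      ((h.cd (l hz) z1).trans (h.cd hx fun e => xK (e ▸ one_mem _)).symm)).le
  obtain ⟨x, hx, xK⟩ := SetLike.not_le_iff_exists.1 fun e => k.2 (le_antisymm l e)
  refine h.nc (l hz) z1 fun g hg => mem_cent_iff.2 fun y hy => ?_
  by_cases yK : y ∈ K
  · exact mem_cent_iff.1 (a x hx xK ((b x hx xK).ge hg)) y yK
  · exact (mem_centralizer_singleton_iff.1 ((b y hy yK).ge hg).1).symm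
theorem wie {X : Type*} [Group X] [Finite X] [Nontrivial X] (hp : ⁅(⊤ : Subgroup X), (⊤ : Subgroup X)⁆ = ⊤) :
    ∃ x : X, ∀ M : Subgroup X, M.Normal → x ∈ M → M = ⊤ := by
  classical
  let S := {M : Subgroup X | (M.Normal ∧ M ≠ ⊤) ∧ ∀ K, M ≤ K → K.Normal ∧ K ≠ ⊤ → K ≤ M}
  have t : ∀ M ∈ S, ∀ A : Subgroup X, A.Normal → ¬ A ≤ M → A ⊔ M = ⊤ := fun M hM A hA n => by
    haveI := hM.1.1
    exact by_contra fun k => n (le_sup_left.trans (hM.2 _ le_sup_right ⟨inferInstance, k⟩))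
  have key : ∀ s : Finset (Subgroup X), (∀ M ∈ s, M ∈ S) → (∃ x, ∀ M ∈ s, x ∉ M) ∧ (s.inf id).Normal ∧
      ∀ M ∈ S, M ∉ s → ¬ s.inf id ≤ M := fun s => by
    induction s using Finset.induction_on with
    | empty => exact fun _ => ⟨⟨1, by simp⟩, by simpa using normal_top, fun M hM _ k => hM.1.2 (top_le_iff.1 k)⟩
    | insert A s hA ih =>
      intro hs
      obtain ⟨⟨x, hx⟩, nn, h2⟩ := ih fun M k => hs M (Finset.mem_insert_of_mem k)
      have a := hs A (Finset.mem_insert_self _ _)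
      haveI := a.1.1
      rw [Finset.inf_insert, id]
      refine ⟨?_, inferInstance, fun M hM n k => ?_⟩
      · by_cases xA : x ∈ A
        · obtain ⟨y, hy, yA⟩ := SetLike.not_le_iff_exists.1 (h2 A a hA)
          refine ⟨x * y, fun M k => ?_⟩
          rcases Finset.mem_insert.1 k with rfl | k
          · exact fun e => yA ((mul_mem_cancel_left xA).1 e)
          · exact fun e => hx M k ((mul_mem_cancel_right (Finset.inf_le (f := id) k hy)).1 e)
        · exact ⟨x, fun M k => (Finset.mem_insert.1 k).elim (· ▸ xA) (hx M)⟩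
      · haveI := hM.1.1
        rw [Finset.mem_insert, not_or] at n
        have e1 := t M hM A a.1.1 fun l => n.1 (le_antisymm (a.2 M l hM.1) l)
        have e2 := t M hM _ nn (h2 M hM n.2)
        refine hM.1.2 (top_le_iff.1 (hp.ge.trans ?_))
        nth_rewrite 1 [← e1, ← e2]
        rw [← QuotientGroup.ker_mk' M, ← Subgroup.map_eq_bot_iff, map_commutator, Subgroup.map_sup, Subgroup.map_sup,
          QuotientGroup.ker_mk', QuotientGroup.map_mk'_self, sup_bot_eq, sup_bot_eq, ← map_commutator,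
          Subgroup.map_eq_bot_iff, QuotientGroup.ker_mk']
        exact (commutator_le_inf _ _).trans k
  obtain ⟨x, hx⟩ := (key (Set.toFinite S).toFinset fun M k => (Set.Finite.mem_toFinset _).1 k).1
  refine ⟨x, fun M hM k => by_contra fun n => ?_⟩
  obtain ⟨A, l, hA, hB⟩ := exists_maximal_ge (fun M : Subgroup X => M.Normal ∧ M ≠ ⊤) ⟨hM, n⟩
  exact hx A ((Set.Finite.mem_toFinset _).2 ⟨hA, fun K a b => (hB K b a).le⟩) (l k)
theorem HT.ab [N.Normal] (h : HT H N m) (h0 : N ≠ ⊥) : ⁅N, N⁆ = ⊥ := by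
  refine (h.irr (comm_le_left le_normalizer) le_normalizer_of_normal).resolve_right fun e => ?_
  haveI := (nontrivial_iff_ne_bot N).2 h0
  obtain ⟨x, hx⟩ := wie (X := N) (map_injective N.subtype_injective (by
    rw [map_commutator, map_subtype_top, e]))
  have x1 : (x : G) ≠ 1 := fun f => bot_ne_top (hx ⊥ inferInstance (Subtype.ext f))
  refine h.nc x.2 x1 fun g hg => le_cent1_iff.1 fun y hy => ?_
  have : normalClosure {x} ≤ C1[g].subgroupOf N := (closure_le _).2 fun z hz => by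
    obtain ⟨w, hw, k⟩ := Group.mem_conjugatesOfSet_iff.1 hz
    rw [Set.mem_singleton_iff.1 hw] at k
    obtain ⟨n, rfl⟩ := isConj_iff.1 k
    refine mem_centralizer_singleton_iff.2 (mem_centralizer_singleton_iff.1 (h.blk
      ⟨fun y z => ∃ n ∈ N, n * y * n⁻¹ = z, fun y => ⟨1, one_mem _, by group⟩,
        fun ⟨n, a, b⟩ => ⟨_, inv_mem a, by rw [← b]; group⟩,
        fun ⟨n, a, b⟩ ⟨k, c, d⟩ => ⟨_, mul_mem c a, by rw [← d, ← b]; group⟩⟩
      (fun g _ y z ⟨n, a, b⟩ => ⟨_, Normal.conj_mem ‹_› n a g, by rw [← b]; group⟩)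
      (fun y ⟨n, a, b⟩ => b ▸ ⟨Normal.conj_mem ‹_› _ x.2 n, mt conj_eq_one_iff.1 x1⟩)
      ((h.cop le_rfl le_normalizer_of_normal).coprime_dvd_left (cls N x)) ⟨n, n.2, rfl⟩ hg)).symm
  exact this ((hx (normalClosure {x}) inferInstance (subset_normalClosure rfl)).ge (mem_top ⟨y, hy⟩))
end

end

/-- Let G be a finite 3/2-transitive permutation group: G acts faithfully and transitively on a finite set, the point stabilizers are non-trivial, and for each point a all orbits of G_a on the remaining points have the same size. Suppose G has a regular normal subgroup N and G is not a Frobenius group (some two-point stabilizer is non-trivial). Then N is an elementary abelian p-group for some prime p, and every non-trivial normal subgroup of G contains N (so N is the unique minimal normal subgroup). -/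
theorem result {G Ω : Type*} [Group G] [Finite G]
    [MulAction G Ω] [FaithfulSMul G Ω] [Finite Ω] (htrans : MulAction.IsPretransitive G Ω)
    (hne : ∀ a : Ω, MulAction.stabilizer G a ≠ ⊥)
    (hhalf : ∀ a b c : Ω, b ≠ a → c ≠ a →
      Nat.card (MulAction.orbit (MulAction.stabilizer G a) b) = Nat.card (MulAction.orbit (MulAction.stabilizer G a) c))
    (N : Subgroup G) [hN : N.Normal] (hNt : MulAction.IsPretransitive N Ω) (hNr : ∀ a : Ω, MulAction.stabilizer N a = ⊥)
    (hnotF : ∃ a b : Ω, a ≠ b ∧ MulAction.stabilizer G a ⊓ MulAction.stabilizer G b ≠ ⊥) :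
    (∃ p : ℕ, p.Prime ∧ IsMulCommutative N ∧ ∀ x ∈ N, x ^ p = 1) ∧
    (∀ M : Subgroup G, M.Normal → M ≠ ⊥ → N ≤ M) := by
  open Subgroup Cfsg CfsgH2 Function in
  open scoped commutatorElement in
  obtain ⟨a, b, ab, hab⟩ := hnotF
  have tr : ∀ ω, ∃ n ∈ N, n • a = ω := fun ω => let ⟨n, e⟩ := hNt.1 a ω; ⟨n, n.2, e⟩
  have rg : ∀ n ∈ N, n • a = a → n = 1 := fun n hn e =>
    congrArg Subtype.val (mem_bot.1 ((hNr a).le (show (⟨n, hn⟩ : N) ∈ _ from e)))
  set H := MulAction.stabilizer G a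
  have st : ∀ x ∈ N, MulAction.stabilizer H (x • a) = C1[x].subgroupOf H := fun x hx =>
    Subgroup.ext fun g => by
      have : g • x • a = (g * x * g.1⁻¹) • a := by
        rw [mul_smul, mul_smul, show g.1⁻¹ • a = a from inv_mem g.2]; rfl
      rw [MulAction.mem_stabilizer_iff, this, mem_subgroupOf, mem_centralizer_singleton_iff,
        ← mul_inv_eq_iff_eq_mul, ← inv_smul_eq_iff, ← mul_smul]
      exact ⟨fun e => (inv_mul_eq_one.1 (rg _ (mul_mem (inv_mem hx) (hN.conj_mem x hx g)) e)).symm,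
        fun e => by rw [e, inv_mul_cancel, one_smul]⟩
  obtain ⟨x, hx, rfl⟩ := tr b
  have x1 : x ≠ 1 := fun e => ab (by rw [e, one_smul])
  have fx : ∀ g : G, (∀ n ∈ N, n * g = g * n) → g • a = a → g = 1 := fun g h1 h2 =>
    eq_of_smul_eq_smul (α := Ω) fun ω => by
      obtain ⟨n, hn, rfl⟩ := tr ω
      rw [← mul_smul, ← h1 n hn, mul_smul, h2, one_smul]
  have h : HT H N (C1[x].relIndex H) := ⟨eq_bot_iff.2 fun g hg => fx g (mem_cent_iff.1 hg.2) hg.1,
    fun y hy y1 => by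
      have := hhalf a (y • a) (x • a) (fun e => y1 (rg y hy e)) ab.symm
      rwa [Nat.card_coe_set_eq, Nat.card_coe_set_eq, ← MulAction.index_stabilizer,
        ← MulAction.index_stabilizer, st x hx, st y hy] at this, fun e => hab (by
      have := card_inf_mul_relIndex C1[x] H
      rw [e, Nat.mul_eq_right Nat.card_pos.ne', card_eq_one] at this
      exact eq_bot_iff.2 fun g hg => this.le ⟨(st x hx).le (show (⟨g, hg.1⟩ : H) ∈ _ from hg.2), hg.1⟩)⟩
  have N0 : N ≠ ⊥ := fun e => x1 (mem_bot.1 (e.le hx))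
  have c := commutator_eq_bot_iff_le_centralizer.1 (h.ab N0)
  have cm : ∀ u ∈ N, ∀ v ∈ N, u * v = v * u := fun u hu v hv => mem_cent_iff.1 (c hv) u hu
  refine ⟨?_, fun M hM M0 => (h.irr (inf_le_left (b := M)) le_normalizer_of_normal).elim (fun e => ?_)
    fun e => e.ge.trans inf_le_right⟩
  · obtain ⟨p, hp, d⟩ := Nat.exists_prime_and_dvd (mt card_eq_one.1 N0)
    obtain ⟨y, hy, o⟩ := exists_prime_order_mem hp d
    let K : Subgroup G :=
      { carrier := {u | u ∈ N ∧ u ^ p = 1}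
        one_mem' := ⟨one_mem _, one_pow _⟩
        mul_mem' := fun {u v} hu hv => ⟨mul_mem hu.1 hv.1, by
          rw [Commute.mul_pow (cm u hu.1 v hv.1), hu.2, hv.2, one_mul]⟩
        inv_mem' := fun {u} hu => ⟨inv_mem hu.1, by rw [inv_pow, hu.2, inv_one]⟩ }
    refine ⟨p, hp, isMulComm_iff.2 cm, fun u hu => (((h.irr (K := K) (fun _ k => k.1) fun g _ =>
      mem_norm_of_conj fun v hv => ⟨hN.conj_mem _ hv.1 g, by rw [conj_pow, hv.2]; group⟩).resolve_left
        fun e => hp.ne_one ?_).ge hu).2⟩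
    rw [← o, mem_bot.1 (e.le ⟨hy, o ▸ pow_orderOf_eq_one y⟩), orderOf_one]
  · obtain ⟨g, hg, g1⟩ := (bot_or_exists_ne_one M).resolve_left M0
    have cg := mem_cent_iff.1 (le_centralizer_iff.1 (commutator_eq_bot_iff_le_centralizer.1 (eq_bot_iff.2
      (e ▸ commutator_le_inf N M))) hg)
    obtain ⟨n, hn, k⟩ := tr (g • a)
    have := fx (n⁻¹ * g) (fun u hu => by rw [← mul_assoc, cm u hu _ (inv_mem hn), mul_assoc, cg u hu,
      mul_assoc]) (by rw [mul_smul, ← k, inv_smul_smul])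
    exact absurd (mem_bot.1 (e.le ⟨inv_mul_eq_one.1 this ▸ hn, hg⟩)) g1

end Cfsg.Agent.S3356
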