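import Mathlib
import Cfsg.Statements.S3358
import Cfsg.Agent.H8.FC10

set_option autoImplicit false
open Cfsg

namespace Cfsg.Agent.S3358

open Subgroup CfsgH1 CfsgH2 CfsgH8.FC Function

theorem comm_of_prime {G : Type*} [Group G] [Finite G] (h : FC ℂ G) {x y : G} (ox : (orderOf x).Prime)
    (e : x ∈ N[zpowers y]) (c : (orderOf x).Coprime (orderOf y)) : x * y = y * x := by
  haveI : Nontrivial G := ⟨x, 1, fun e => by simp [e, Nat.not_prime_one] at ox⟩
  obtain ⟨m, L, _, _, H, hH, ⟨f⟩, -⟩ := h.cpl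
  obtain ⟨K, F⟩ := exists_frob hH
  let i := H.subtype.comp f.toMonoidHom
  have hi : Injective i := H.subtype_injective.comp f.injective
  have := F.mem_cent_of_prime (x := i x) (A := zpowers (i y)) (f x).2 (by rwa [orderOf_injective i hi])
    (zpowers_le.2 (f y).2) inferInstance (by
      rw [← MonoidHom.map_zpowers]; exact le_normalizer_map i ⟨x, e, rfl⟩)
    (by rwa [Nat.card_zpowers, orderOf_injective i hi, orderOf_injective i hi])
  exact hi (by rw [map_mul, map_mul, this _ (Subgroup.mem_zpowers _)])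

theorem pres {G : Type*} [Group G] [Finite G] {x y : G} {r : ℕ} (s : zpowers y ⊔ zpowers x = ⊤)
    (c : Nat.card G = orderOf y * orderOf x) (e : x⁻¹ * y * x = y ^ r) :
    Nonempty (G ≃* PresentedGroup
      ({FreeGroup.of (0 : Fin 2) ^ orderOf x, FreeGroup.of (1 : Fin 2) ^ orderOf y,
        (FreeGroup.of (0 : Fin 2))⁻¹ * FreeGroup.of 1 * FreeGroup.of 0 * (FreeGroup.of (1 : Fin 2) ^ r)⁻¹} :
        Set (FreeGroup (Fin 2)))) := by
  set R := ({FreeGroup.of (0 : Fin 2) ^ orderOf x, FreeGroup.of (1 : Fin 2) ^ orderOf y,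
    (FreeGroup.of (0 : Fin 2))⁻¹ * FreeGroup.of 1 * FreeGroup.of 0 * (FreeGroup.of (1 : Fin 2) ^ r)⁻¹} :
    Set (FreeGroup (Fin 2)))
  let φ : PresentedGroup R →* G := PresentedGroup.toGroup (f := ![x, y]) (by
    rintro _ (rfl | rfl | rfl) <;> simp [e])
  have sj : Surjective φ := MonoidHom.range_eq_top.1 (eq_top_iff.2 (s.ge.trans (sup_le
    (zpowers_le.2 ⟨.of 1, PresentedGroup.toGroup.of _⟩) (zpowers_le.2 ⟨.of 0, PresentedGroup.toGroup.of _⟩))))
  let X : PresentedGroup R := .of 0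
  let Y : PresentedGroup R := .of 1
  have h1 : X ^ orderOf x = 1 := PresentedGroup.one_of_mem (rels := R) (Or.inl rfl)
  have h2 : Y ^ orderOf y = 1 := PresentedGroup.one_of_mem (rels := R) (Or.inr (Or.inl rfl))
  have h3 : X⁻¹ * Y * X * (Y ^ r)⁻¹ = 1 := PresentedGroup.one_of_mem (rels := R) (Or.inr (Or.inr rfl))
  haveI := (isOfFinOrder_iff_pow_eq_one.2 ⟨_, orderOf_pos y, h2⟩).finite_zpowers.to_subtype
  have n : X ∈ N[zpowers Y] := inv_mem_iff.1 (mem_normalizer_fintype (by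
    rintro _ ⟨k, rfl⟩
    rw [← conj_zpow, inv_inv, mul_inv_eq_one.1 h3]
    exact zpow_mem (pow_mem (Subgroup.mem_zpowers Y) r) k))
  have d := card_sup_zpowers_dvd n (h1 ▸ one_mem _)
  rw [show zpowers Y ⊔ zpowers X = ⊤ from eq_top_iff.2 fun g _ => PresentedGroup.generated_by R _
    (Fin.forall_fin_two.2 ⟨mem_sup_right (Subgroup.mem_zpowers _), mem_sup_left (Subgroup.mem_zpowers _)⟩) g,
    card_top, Nat.card_zpowers] at d
  have d' := d.trans (mul_dvd_mul_right (orderOf_dvd_of_pow_eq_one h2) _)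
  rw [← c] at d'
  haveI := Nat.finite_of_card_ne_zero (ne_zero_of_dvd_ne_zero Nat.card_pos.ne' d')
  exact ⟨(MulEquiv.ofBijective φ (sj.bijective_of_nat_card_le (Nat.le_of_dvd Nat.card_pos d'))).symm⟩

theorem zg_pres {G : Type*} [Group G] [Finite G] (h : FC ℂ G) [z : IsZGroup G] :
    ∃ n m r : ℕ, 0 < n ∧ 0 < m ∧ Nat.Coprime (r - 1) m ∧ Nat.Coprime n m ∧ 1 ≤ r ∧
      r ^ (n / ∏ p ∈ n.primeFactors, p) % m = 1 % m ∧ Nonempty (G ≃* PresentedGroup
        ({FreeGroup.of (0 : Fin 2) ^ n, FreeGroup.of (1 : Fin 2) ^ m,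
          (FreeGroup.of (0 : Fin 2))⁻¹ * FreeGroup.of 1 * FreeGroup.of 0 * (FreeGroup.of (1 : Fin 2) ^ r)⁻¹} :
          Set (FreeGroup (Fin 2)))) := by
  obtain ⟨H, hH⟩ := exists_right_complement'_of_coprime z.coprime_commutator_index
  have h1 : Abelianization G ≃* H := hH.symm.QuotientMulEquiv
  obtain ⟨x, rfl⟩ := isCyclic_iff_zpowers.1 (isCyclic_of_surjective _ h1.surjective)
  obtain ⟨y, hy⟩ := isCyclic_iff_zpowers.1 z.isCyclic_commutator
  have c := z.coprime_commutator_index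
  rw [hH.symm.index_eq_card, ← hy, Nat.card_zpowers, Nat.card_zpowers] at c
  haveI n : (zpowers y).Normal := hy ▸ inferInstance
  obtain ⟨r, e⟩ := (mem_powers_iff_mem_zpowers).2 (n.conj_mem' _ (Subgroup.mem_zpowers y) x)
  replace e : x⁻¹ * y * x = y ^ (r + orderOf y) := by rw [pow_add, pow_orderOf_eq_one, mul_one, ← e]
  have r1 : 1 ≤ r + orderOf y := (orderOf_pos y).trans_le (Nat.le_add_left _ _)
  generalize r + orderOf y = r at e r1
  have s := hH.sup_eq_top
  have c2 := hH.card_mul_card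
  rw [← hy] at s c2
  refine ⟨_, _, r, orderOf_pos x, orderOf_pos y, ?_, c.symm, r1, ?_, pres s (by simpa using c2.symm) e⟩
  · haveI : (zpowers (y ^ (r - 1))).Normal := top_le_norm_iff.1 ((top_le_norm_iff.2 n).trans
      (norm_le_norm_of_cyclic inferInstance (zpowers_le.2 (pow_mem (Subgroup.mem_zpowers y) _))))
    let q := QuotientGroup.mk' (zpowers (y ^ (r - 1)))
    have a := isMulComm_sup_zpowers (H := zpowers (q y)) (x := q x) inferInstance (by
      rw [cent_zpowers, mem_centralizer_singleton_iff, ← map_mul, ← map_mul]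
      refine QuotientGroup.eq.2 ?_
      rw [show (x * y)⁻¹ * (y * x) = y⁻¹ * (x⁻¹ * y * x) by group, e, ← Nat.sub_add_cancel r1, pow_succ',
        inv_mul_cancel_left, Nat.add_sub_cancel]
      exact Subgroup.mem_zpowers _)
    rw [← MonoidHom.map_zpowers, ← MonoidHom.map_zpowers, ← Subgroup.map_sup, s] at a
    have : commutator G ≤ q.ker := by
      rw [← Subgroup.map_eq_bot_iff, commutator_def, map_commutator]; exact comm_self_eq_bot_iff.2 a
    rw [QuotientGroup.ker_mk'] at this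
    exact mem_zpowers_pow_iff.1 (this (hy.le (Subgroup.mem_zpowers y)))
  have k : ∀ i, x ^ i * y = y * x ^ i → orderOf (r : ZMod (orderOf y)) ∣ i := fun i c => by
    have : ∀ i, (x ^ i)⁻¹ * y * x ^ i = y ^ r ^ i := fun i => by
      induction i with
      | zero => simp
      | succ i ih => rw [pow_succ r, pow_mul, ← ih, pow_succ' x, mul_inv_rev,
          show (x ^ i)⁻¹ * x⁻¹ * y * (x * x ^ i) = (x ^ i)⁻¹ * (x⁻¹ * y * x) * (x ^ i)⁻¹⁻¹ by group, e,
          ← conj_pow, inv_inv]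
    have := this i
    rw [mul_assoc, ← c, inv_mul_cancel_left, ← pow_one y, ← pow_mul, one_mul, pow_eq_pow_iff_modEq,
      ← ZMod.natCast_eq_natCast_iff] at this
    exact orderOf_dvd_of_pow_eq_one (by simpa using this.symm)
  obtain ⟨t, ht⟩ := k (orderOf x) (by simp)
  have d : ∏ p ∈ (orderOf x).primeFactors, p ∣ t := Finset.prod_primes_dvd _
    (fun p hp => (Nat.prime_of_mem_primeFactors hp).prime) fun p hp => by
      have d := Nat.dvd_of_mem_primeFactors hp
      have o : orderOf (x ^ (orderOf x / p)) = p := orderOf_pow_orderOf_div (orderOf_pos x).ne' d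
      have := (Nat.dvd_div_iff_mul_dvd d).1 (k _ (comm_of_prime h (o.symm ▸ Nat.prime_of_mem_primeFactors hp)
        (le_top.trans (top_le_norm_iff.2 n) (mem_top _)) (o.symm ▸ c.symm.coprime_dvd_left d)))
      have e := ht
      generalize orderOf (r : ZMod (orderOf y)) = u at this e
      rw [e, mul_comm] at this
      exact Nat.dvd_of_mul_dvd_mul_left (Nat.pos_of_mul_pos_right (e ▸ orderOf_pos x)) this
  rw [← ZMod.natCast_eq_natCast_iff', Nat.cast_pow, Nat.cast_one, ← orderOf_dvd_iff_pow_eq_one,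
    Nat.dvd_div_iff_mul_dvd (Nat.prod_primeFactors_dvd _), mul_comm]
  exact (mul_dvd_mul_left _ d).trans ht.symm.dvd

/-- Structure of solvable Frobenius complements. Let G be a finite solvable group that occurs as a Frobenius complement. Then G has a normal subgroup G₀ such that G/G₀ is isomorphic to a subgroup of Sym(4) (G₀ is the kernel of a homomorphism to Sym(4)), all Sylow subgroups of G₀ are cyclic, and G₀ has a presentation ⟨x, y | x^n = 1, y^m = 1, x⁻¹ y x = y^r⟩ with n, m ≥ 1, gcd(r − 1, m) = gcd(n, m) = 1 and r^(n/n′) ≡ 1 (mod m), where n′ is the product of the distinct primes dividing n. -/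
theorem result {G : Type*} [Group G] [Finite G] (hsol : Group.IsSolvable G)
    (hFC : ∃ (L : Type) (_ : Group L) (_ : Finite L) (H : Subgroup L), Cfsg.IsFrobeniusComplement H ∧ Nonempty (G ≃* H)) :
    ∃ G₀ : Subgroup G, G₀.Normal ∧
      (∃ f : G →* Equiv.Perm (Fin 4), f.ker = G₀) ∧
      (∀ (p : ℕ) [Fact p.Prime] (P : Sylow p G₀), IsCyclic P) ∧
      ∃ n m r : ℕ, 0 < n ∧ 0 < m ∧ Nat.Coprime (r - 1) m ∧ Nat.Coprime n m ∧ 1 ≤ r ∧
        r ^ (n / ∏ p ∈ n.primeFactors, p) % m = 1 % m ∧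
        Nonempty (G₀ ≃* PresentedGroup
          ({FreeGroup.of (0 : Fin 2) ^ n, FreeGroup.of (1 : Fin 2) ^ m,
            (FreeGroup.of (0 : Fin 2))⁻¹ * FreeGroup.of 1 * FreeGroup.of 0 * (FreeGroup.of (1 : Fin 2) ^ r)⁻¹} :
            Set (FreeGroup (Fin 2)))) := by
  obtain ⟨L, _, _, H, hH, ⟨e⟩⟩ := hFC
  have h := fc_of_compl (k := ℂ) hH e
  obtain ⟨f, z⟩ : ∃ f : G →* Equiv.Perm (Fin 4), IsZGroup f.ker := by
    rcases h.sol_cases with z | ⟨f, -, z⟩ | ⟨f, z, -⟩
    · exact ⟨1, by rwa [MonoidHom.ker_one]⟩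
    · let e := (Finite.equivFinOfCardEq (IsKleinFour.card_four (G := DihedralGroup 2))).permCongrHom
      refine ⟨(e.toMonoidHom.comp (MulAction.toPermHom _ _)).comp f, ?_⟩
      rwa [← MonoidHom.comap_ker, (MonoidHom.ker_eq_bot_iff _).2
        (e.injective.comp MulAction.toPerm_injective), MonoidHom.comap_bot]
    · exact ⟨f, z⟩
  exact ⟨f.ker, inferInstance, ⟨f, rfl⟩, fun _ _ _ => inferInstance, zg_pres (h.sub _)⟩

end Cfsg.Agent.S3358
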