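import Mathlib
import Cfsg.Statements.S3362
import Cfsg.Agent.H8.Mono
import Cfsg.Agent.S0425

set_option autoImplicit false
open Cfsg

namespace Cfsg.Agent.S3362

open CfsgH8.Mono Equiv
open scoped Pointwise
set_option maxRecDepth 100000

def L : List ℕ := [63, 219, 237, 246, 350, 363, 373, 413, 430, 435, 455, 504, 591, 627, 636, 670, 679, 697, 725, 746, 791, 813, 826, 857, 870, 907, 948, 972, 978, 993, 1117, 1127, 1146, 1175, 1195, 1212, 1230, 1265, 1295, 1334, 1337, 1363, 1388, 1434, 1445, 1481, 1492, 1506, 1563, 1582, 1589, 1622, 1641, 1677, 1714, 1731, 1752, 1764, 1820, 1827, 1861, 1866, 1904, 1926, 1937, 1960, 2135, 2158, 2169, 2191, 2229, 2234, 2268, 2275, 2331, 2343, 2364, 2381, 2418, 2454, 2473, 2506, 2513, 2532, 2589, 2603, 2614, 2650, 2661, 2707, 2732, 2758, 2761, 2800, 2830, 2865, 2883, 2900, 2920, 2949, 2968, 2978, 3102, 3117, 3123, 3147, 3188, 3225, 3238, 3269, 3282, 3304, 3349, 3370, 3398,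 3416, 3425, 3459, 3468, 3504, 3591, 3640, 3660, 3665, 3682, 3722, 3732, 3745, 3849, 3858, 3876, 4032]

def blk (m : ℕ) : Finset (Fin 12) := Finset.univ.filter fun p => m.testBit p = true

def B : Set (Finset (Fin 12)) := blk '' {m | m ∈ L}

theorem h1 : ∀ m ∈ L, (blk m).card = 6 := by decide +kernel

theorem h4a : (List.range 4096).all (fun n => (blk n).card != 5 ||
    (L.filter fun q => Nat.land n q == n).length == 1) = true := by decide +kernel

theorem st : IsSteinerSystem 5 6 B := by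
  refine ⟨fun _ ⟨m, hm, e⟩ => e ▸ h1 m hm, fun s hs => ?_⟩
  let n := Nat.ofBits fun i : Fin 12 => decide (i ∈ s)
  have hn : n < 2 ^ 12 := Nat.ofBits_lt_two_pow _
  have e3 : ∀ p : Fin 12, n.testBit p = true ↔ p ∈ s := fun p => by simp [n]
  have e4 : ∀ m, (Nat.land n m == n) = true ↔ s ⊆ blk m := fun m => by
    rw [beq_iff_eq]
    constructor
    · intro h p hp
      have := (e3 p).2 hp
      rw [← h] at this
      exact Finset.mem_filter.2 ⟨Finset.mem_univ _, (Bool.and_eq_true_iff.1 ((Nat.testBit_and _ _ _).symm.trans this)).2⟩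
    · intro h
      refine Nat.eq_of_testBit_eq fun i => (Nat.testBit_and _ _ _).trans ?_
      by_cases hi : i < 12
      · cases c : n.testBit i
        · rfl
        · exact (Finset.mem_filter.1 (h ((e3 ⟨i, hi⟩).1 c))).2
      · rw [Nat.testBit_eq_false_of_lt (hn.trans_le (Nat.pow_le_pow_right two_pos (not_lt.1 hi)))]; rfl
  have e5 := List.all_eq_true.1 h4a n (List.mem_range.2 hn)
  have e6 : blk n = s := by ext p; simp [e3, blk]
  rw [e6, hs, bne_self_eq_false, Bool.false_or, beq_iff_eq, List.length_eq_one_iff] at e5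
  obtain ⟨q, hq⟩ := e5
  have e7 : ∀ r, r ∈ L ∧ s ⊆ blk r ↔ r = q := fun r => by
    rw [← e4, ← List.mem_singleton (a := r), ← hq, List.mem_filter]
  refine ⟨blk q, ⟨⟨q, ((e7 q).2 rfl).1, rfl⟩, ((e7 q).2 rfl).2⟩, ?_⟩
  rintro _ ⟨⟨r, a, rfl⟩, b⟩
  rw [(e7 r).1 ⟨a, b⟩]

theorem pres (g : Perm (Fin 12))
    (h : L.all (fun m => L.any fun m' => (List.finRange 12).all fun i => m'.testBit (g i) == m.testBit i) = true) :
    g ∈ setSystemAut B := by
  rw [MulAction.mem_stabilizer_iff]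
  refine Set.eq_of_subset_of_ncard_le ?_ (Set.ncard_smul_set _ _).ge
  rintro _ ⟨_, ⟨m, hm, rfl⟩, rfl⟩
  obtain ⟨m', hm', h'⟩ := List.any_eq_true.1 (List.all_eq_true.1 h m hm)
  refine ⟨m', hm', ?_⟩
  ext p
  obtain ⟨i, rfl⟩ := g.surjective p
  have := beq_iff_eq.1 (List.all_eq_true.1 h' i (List.mem_finRange i))
  change _ ↔ g • i ∈ g • blk m
  rw [Finset.smul_mem_smul_finset_iff]
  simp [blk, this]

/-- An explicit construction of the Mathieu groups of degrees 11 and 12. On the points 0, …, 11 let s = (3 4 5)(6 7 8)(9 10 11), t = (3 6 9)(4 7 10)(5 8 11), u = (4 6 5 9)(7 8 11 10), v = (4 7 5 11)(6 10 9 8), w = (4 10 5 8)(6 11 9 7), x₁ = (0 3)(6 7)(8 10)(9 11), x₂ = (0 1)(6 9)(7 10)(8 11), x₃ = (1 2)(6 11)(7 9)(8 10) (each written as a product of transpositions). Then the group M₁₂ generated by all eight permutations is sharply 5-transitive on the 12 points and has order 95040, and the group M₁₁ generated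 by the first seven has order 7920 and is the stabilizer of the point 2 in M₁₂. -/
theorem result
    (s t u v w x₁ x₂ x₃ : Equiv.Perm (Fin 12))
    (hs : s = Equiv.swap (3 : Fin 12) 5 * Equiv.swap (3 : Fin 12) 4 * Equiv.swap (6 : Fin 12) 8 * Equiv.swap (6 : Fin 12) 7 * Equiv.swap (9 : Fin 12) 11 * Equiv.swap (9 : Fin 12) 10) (ht : t = Equiv.swap (3 : Fin 12) 9 * Equiv.swap (3 : Fin 12) 6 * Equiv.swap (4 : Fin 12) 10 * Equiv.swap (4 : Fin 12) 7 * Equiv.swap (5 : Fin 12) 11 * Equiv.swap (5 : Fin 12) 8)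
    (hu : u = Equiv.swap (4 : Fin 12) 9 * Equiv.swap (4 : Fin 12) 5 * Equiv.swap (4 : Fin 12) 6 * Equiv.swap (7 : Fin 12) 10 * Equiv.swap (7 : Fin 12) 11 * Equiv.swap (7 : Fin 12) 8) (hv : v = Equiv.swap (4 : Fin 12) 11 * Equiv.swap (4 : Fin 12) 5 * Equiv.swap (4 : Fin 12) 7 * Equiv.swap (6 : Fin 12) 8 * Equiv.swap (6 : Fin 12) 9 * Equiv.swap (6 : Fin 12) 10) (hw : w = Equiv.swap (4 : Fin 12) 8 * Equiv.swap (4 : Fin 12) 5 * Equiv.swap (4 : Fin 12) 10 * Equiv.swap (6 : Fin 12) 7 * Equiv.swap (6 : Fin 12) 9 * Equiv.swap (6 : Fin 12) 11)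
    (hx₁ : x₁ = Equiv.swap (0 : Fin 12) 3 * Equiv.swap (6 : Fin 12) 7 * Equiv.swap (8 : Fin 12) 10 * Equiv.swap (9 : Fin 12) 11) (hx₂ : x₂ = Equiv.swap (0 : Fin 12) 1 * Equiv.swap (6 : Fin 12) 9 * Equiv.swap (7 : Fin 12) 10 * Equiv.swap (8 : Fin 12) 11)
    (hx₃ : x₃ = Equiv.swap (1 : Fin 12) 2 * Equiv.swap (6 : Fin 12) 11 * Equiv.swap (7 : Fin 12) 9 * Equiv.swap (8 : Fin 12) 10)
    (M₁₂ M₁₁ : Subgroup (Equiv.Perm (Fin 12))) (hM₁₂ : M₁₂ = Subgroup.closure {s, t, u, v, w, x₁, x₂, x₃})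
    (hM₁₁ : M₁₁ = Subgroup.closure {s, t, u, v, w, x₁, x₂}) :
    MulAction.IsMultiplyPretransitive M₁₂ (Fin 12) 5 ∧ (∀ y : Fin 5 ↪ Fin 12, MulAction.stabilizer M₁₂ y = ⊥) ∧
    Nat.card M₁₂ = 95040 ∧ Nat.card M₁₁ = 7920 ∧
    M₁₁ = M₁₂ ⊓ MulAction.stabilizer (Equiv.Perm (Fin 12)) (2 : Fin 12) := by
  obtain ⟨a1, a2, a3⟩ := S0425.result (α := Fin 12) rfl st
  have l1 : M₁₁ ≤ M₁₂ := by
    rw [hM₁₁, hM₁₂]; exact Subgroup.closure_mono (by intro x; simp only [Set.mem_insert_iff, Set.mem_singleton_iff]; tauto)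
  have l2 : M₁₂ ≤ setSystemAut B := by
    rw [hM₁₂, Subgroup.closure_le]
    rintro _ (rfl | rfl | rfl | rfl | rfl | rfl | rfl | rfl) <;> refine pres _ ?_
    · rw [hs]; decide +kernel
    · rw [ht]; decide +kernel
    · rw [hu]; decide +kernel
    · rw [hv]; decide +kernel
    · rw [hw]; decide +kernel
    · rw [hx₁]; decide +kernel
    · rw [hx₂]; decide +kernel
    · rw [hx₃]; decide +kernel
  have g1 : ∀ g ∈ [s, t, u, v, w, x₁, x₂], g ∈ M₁₁ := fun g hg => hM₁₁ ▸ Subgroup.subset_closure (by simpa using hg)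
  have g2 : ∀ g ∈ [s, t, u, v, w, x₁, x₂, x₃], g ∈ M₁₂ := fun g hg => hM₁₂ ▸ Subgroup.subset_closure (by simpa using hg)
  have k1 : ∀ σ ∈ setSystemAut B, (∀ x ∈ [(2 : Fin 12)], σ x = x) → σ ∈ M₁₁ := by
    subst hs ht hu hv hw hx₁ hx₂
    refine sift (l1.trans l2) g1 _ 1 [[6], [], [5, 6], [0, 5, 6], [0, 0, 5, 6], [1, 5, 6], [0, 1, 5, 6], [0, 0, 1, 5, 6], [1, 1, 5, 6], [3, 1, 5, 6], [4, 1, 5, 6]]
      (by decide) (by decide +kernel) ?_
    refine sift (l1.trans l2) g1 _ 0 [[], [5], [0, 5], [0, 0, 5], [1, 5], [0, 1, 5], [0, 0, 1, 5], [1, 1, 5], [3, 1, 5], [4, 1, 5]]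
      (by decide) (by decide +kernel) ?_
    refine sift (l1.trans l2) g1 _ 3 [[], [0], [0, 0], [1], [0, 1], [0, 0, 1], [1, 1], [3, 1], [4, 1]]
      (by decide) (by decide +kernel) ?_
    refine sift (l1.trans l2) g1 _ 4 [[], [2, 2], [2], [3], [2, 3], [3, 4], [4], [4, 2]]
      (by decide) (by decide +kernel) ?_
    intro τ hτ h
    have h1 : (⟨τ, hτ⟩ : setSystemAut B) = 1 := by
      rw [← Subgroup.mem_bot, ← a3 ⟨![4, 3, 0, 1, 2], by decide⟩, MulAction.mem_stabilizer_iff]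
      ext1 i
      exact h _ (by fin_cases i <;> simp)
    rw [show τ = 1 from congrArg Subtype.val h1]
    exact one_mem _
  have k2 : M₁₂ = setSystemAut B := by
    refine le_antisymm l2 fun σ hσ => ?_
    subst hs ht hu hv hw hx₁ hx₂ hx₃
    exact sift l2 g2 [] 2 [[6, 7], [7], [], [5, 6, 7], [0, 5, 6, 7], [0, 0, 5, 6, 7], [1, 5, 6, 7], [0, 1, 5, 6, 7], [0, 0, 1, 5, 6, 7], [1, 1, 5, 6, 7], [3, 1, 5, 6, 7], [4, 1, 5, 6, 7]]
      (by decide) (by decide +kernel) (fun σ a b => l1 (k1 σ a b)) σ hσ (by simp)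
  have k3 : M₁₁ = M₁₂ ⊓ MulAction.stabilizer (Equiv.Perm (Fin 12)) (2 : Fin 12) := by
    refine le_antisymm (le_inf l1 ?_) fun σ hσ => k1 σ (l2 hσ.1) (by simpa using hσ.2)
    rw [hM₁₁, Subgroup.closure_le]
    subst hs ht hu hv hw hx₁ hx₂
    rintro _ (rfl | rfl | rfl | rfl | rfl | rfl | rfl) <;> rw [SetLike.mem_coe, MulAction.mem_stabilizer_iff] <;> decide
  rw [← k2] at a1 a2 a3
  refine ⟨a2, a3, a1.2, ?_, k3⟩
  haveI := MulAction.is_one_pretransitive_iff.1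
    (MulAction.isMultiplyPretransitive_of_le (G := M₁₂) (α := Fin 12) (m := 1) (n := 5) (by norm_num) (by simp))
  have h1 := (MulAction.stabilizer M₁₂ (2 : Fin 12)).card_mul_index
  rw [MulAction.index_stabilizer_of_transitive, a1.2] at h1
  have h2 : Nat.card (MulAction.stabilizer M₁₂ (2 : Fin 12)) = Nat.card M₁₁ := by
    rw [← Nat.card_congr (Subgroup.subgroupOfEquivOfLe l1).toEquiv, k3, Subgroup.inf_subgroupOf_left]
    rfl
  rw [h2, Nat.card_fin] at h1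
  omega

end Cfsg.Agent.S3362
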