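import Mathlib
import Cfsg.Statements.S3374
import Cfsg.Agent.H8.FC10

set_option autoImplicit false
open Cfsg

namespace Cfsg.Agent.S3374

open CfsgH8 CfsgH8.FC Function

/-- SL(2,5) occurs as a Frobenius complement: there is a finite group L with a subgroup H isomorphic to SL(2,5) which is a non-trivial proper subgroup meeting each conjugate gHg⁻¹ with g outside H trivially. -/
theorem result :
    ∃ (L : Type) (_ : Group L) (_ : Finite L) (H : Subgroup L),
      Cfsg.IsFrobeniusComplement H ∧ Nonempty (H ≃* Matrix.SpecialLinearGroup (Fin 2) (ZMod 5)) := by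
  obtain ⟨φ, h1, h2⟩ := exists_hom_SL25 (G := Matrix.SpecialLinearGroup (Fin 2) (ZMod 11))
    (x := ⟨!![0, 10; 1, 10], by decide⟩) (y := ⟨!![0, 3; 7, 7], by decide⟩) (by decide) (by decide)
    (by decide) (by decide)
  have hφ := inj_SL25 φ (by rw [h1]; exact fun e => absurd (congrArg Subtype.val e) (by decide)) (by rw [map_pow, map_mul, h1, h2]; decide)
  haveI : Nontrivial SL25 := ⟨s5x, 1, by decide⟩
  letI := slAct φ
  haveI : Fact (Nat.Prime 11) := ⟨by norm_num⟩
  exact (free_sl hφ (by rw [card_SL25]; decide)).cpl.out'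

end Cfsg.Agent.S3374
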