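import Cfsg.Statements.S3375
import Mathlib
import Cfsg.Agent.H9.SLT

set_option autoImplicit false
open Cfsg

namespace Cfsg.Agent.S3375

section
open Subgroup CfsgH9
open scoped commutatorElement

theorem fpf {H : Type*} [Group H] [Finite H] (γ : MulAut H) (h2 : ∀ x, γ (γ x) = x) (A : Subgroup H)
    (hA : ∀ a ∈ A, γ a ∈ A) (h : ∀ a ∈ A, γ a = a → a = 1) : ∀ a ∈ A, γ a = a⁻¹ := by
  let f : A → A := fun a => ⟨(a : H)⁻¹ * γ a, mul_mem (inv_mem a.2) (hA _ a.2)⟩
  have inj : Function.Injective f := fun a b e => by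
    have e1 : (a : H)⁻¹ * γ a = (b : H)⁻¹ * γ b := congrArg Subtype.val e
    have := h _ (mul_mem b.2 (inv_mem a.2)) (by
      rw [map_mul, map_inv]
      calc γ b * (γ a)⁻¹ = b * ((b : H)⁻¹ * γ b) * (γ a)⁻¹ := by group
        _ = _ := by rw [← e1]; group)
    exact Subtype.ext (mul_inv_eq_one.1 this).symm
  intro a ha
  obtain ⟨b, e⟩ := Finite.surjective_of_injective inj ⟨a, ha⟩
  have e1 : (b : H)⁻¹ * γ b = a := congrArg Subtype.val e
  rw [← e1, map_mul, map_inv, h2]; group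
theorem ab {H : Type*} [Group H] (γ : MulAut H) (A : Subgroup H) (h : ∀ a ∈ A, γ a = a⁻¹) :
    ∀ a ∈ A, ∀ b ∈ A, a * b = b * a := fun a ha b hb => by
  have := h _ (mul_mem ha hb)
  rw [map_mul, h a ha, h b hb, ← mul_inv_rev] at this
  exact (inv_injective this).symm

end

/-- Let γ be an automorphism of order 2 of a finite group H. (i) If γ fixes only the identity, then H is abelian and γ inverts every element. (ii) If γ has exactly two fixed points and H has a subgroup of index 2, then H has a γ-invariant abelian subgroup of index 2 on which γ acts by inversion. -/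
theorem result {H : Type*} [Group H] [Finite H] (γ : MulAut H) (hγ : orderOf γ = 2) :
    ((∀ h : H, γ h = h → h = 1) → (∀ a b : H, a * b = b * a) ∧ ∀ h : H, γ h = h⁻¹) ∧
    ((Nat.card {h : H // γ h = h} = 2 ∧ ∃ M : Subgroup H, M.index = 2) →
      ∃ A : Subgroup H, A.index = 2 ∧ IsMulCommutative A ∧ (∀ a ∈ A, γ a ∈ A) ∧ ∀ a ∈ A, γ a = a⁻¹) := by
  open Subgroup CfsgH9 in
  have h2 : ∀ x, γ (γ x) = x := fun x => by
    have := pow_orderOf_eq_one γ
    rw [hγ, pow_two] at this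
    exact congrArg (fun f : MulAut H => f x) this
  refine ⟨fun h => ?_, fun ⟨hc, M, hM⟩ => ?_⟩
  · have := fpf γ h2 ⊤ (fun _ _ => trivial) fun a _ => h a
    exact ⟨fun a b => ab γ ⊤ this a trivial b trivial, fun a => this a trivial⟩
  obtain ⟨K, hK, hk⟩ : ∃ K : Subgroup H, K.index = 2 ∧ ∀ x, x ∈ K ↔ γ x ∈ K := by
    by_cases c : ∀ x, x ∈ M ↔ γ x ∈ M
    · exact ⟨M, hM, c⟩
    obtain ⟨a, ha⟩ := not_forall.1 c
    refine ⟨⟨⟨⟨{x | x ∈ M ↔ γ x ∈ M}, fun {x y} hx hy => ?_⟩, by simp⟩, fun {x} hx => ?_⟩,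
      index_eq_two_iff.2 ⟨a, fun b => ?_⟩, fun x => ?_⟩
    · simp only [Set.mem_setOf_eq, map_mul, mul_mem_iff_of_index_two hM] at *
      tauto
    · simpa using hx
    · change Xor' (b * a ∈ M ↔ γ (b * a) ∈ M) (b ∈ M ↔ γ b ∈ M)
      simp only [map_mul, mul_mem_iff_of_index_two hM, Xor']
      tauto
    · change (x ∈ M ↔ γ x ∈ M) ↔ (γ x ∈ M ↔ γ (γ x) ∈ M)
      rw [h2]; exact Iff.comm
  let C : Subgroup H := (γ.toMonoidHom).eqLocus (MonoidHom.id H)
  have cC : Nat.card C = 2 := hc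
  let f : H ⧸ C → K := Quotient.lift (fun x => ⟨x * (γ x)⁻¹, by
      rw [mul_mem_iff_of_index_two hK, inv_mem_iff]; exact hk x⟩) fun x y e => Subtype.ext (by
    have e1 : γ (x⁻¹ * y) = x⁻¹ * y := QuotientGroup.leftRel_apply.1 e
    rw [map_mul, map_inv] at e1
    change x * (γ x)⁻¹ = y * (γ y)⁻¹
    calc _ = x * ((γ x)⁻¹ * γ y) * (γ y)⁻¹ := by group
      _ = _ := by rw [e1]; group)
  have inj : Function.Injective f := fun a b => Quotient.inductionOn₂ a b fun x y e => by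
    have e1 : x * (γ x)⁻¹ = y * (γ y)⁻¹ := congrArg Subtype.val e
    refine QuotientGroup.eq.2 ?_
    change γ (x⁻¹ * y) = x⁻¹ * y
    rw [map_mul, map_inv]
    calc _ = x⁻¹ * (x * (γ x)⁻¹) * γ y := by group
      _ = _ := by rw [e1]; group
  have bj := (Nat.bijective_iff_injective_and_card f).2 ⟨inj, by
    have a1 := C.card_mul_index
    have a2 := K.card_mul_index
    rw [cC] at a1
    rw [hK] at a2
    change C.index = _
    omega⟩
  have iv : ∀ a ∈ K, γ a = a⁻¹ := fun a ha => by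
    obtain ⟨b, e⟩ := bj.2 ⟨a, ha⟩
    induction b using Quotient.inductionOn with
    | _ b =>
    have e1 : b * (γ b)⁻¹ = a := congrArg Subtype.val e
    rw [← e1, map_mul, map_inv, h2]; group
  exact ⟨K, hK, ⟨⟨fun a b => Subtype.ext (ab γ K iv _ a.2 _ b.2)⟩⟩, fun a ha => (hk a).1 ha, iv⟩

end Cfsg.Agent.S3375
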