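import Mathlib
import Cfsg.Statements.S3377
import Cfsg.Agent.H8.Pres

set_option autoImplicit false
open Cfsg

namespace Cfsg.Agent.S3377


open CfsgH8

/-- The alternating group of degree 5 has the presentation ⟨x, y | x³ = 1, y⁵ = 1, (xy)² = 1⟩: the group so presented is isomorphic to Alt(5). -/
theorem result :
    Nonempty (PresentedGroup ({FreeGroup.of (0 : Fin 2) ^ 3, FreeGroup.of (1 : Fin 2) ^ 5,
        (FreeGroup.of (0 : Fin 2) * FreeGroup.of 1) ^ 2} : Set (FreeGroup (Fin 2))) ≃* alternatingGroup (Fin 5)) := by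
  obtain ⟨φ, h1, h2⟩ := exists_hom_A5 (G := PresentedGroup ({FreeGroup.of (0 : Fin 2) ^ 3,
      FreeGroup.of (1 : Fin 2) ^ 5, (FreeGroup.of (0 : Fin 2) * FreeGroup.of 1) ^ 2} : Set _))
    (x := PresentedGroup.of 0) (y := PresentedGroup.of 1)
    (PresentedGroup.one_of_mem (x := FreeGroup.of 0 ^ 3) (by simp))
    (PresentedGroup.one_of_mem (x := FreeGroup.of 1 ^ 5) (by simp))
    (PresentedGroup.one_of_mem (x := (FreeGroup.of 0 * FreeGroup.of 1) ^ 2) (by simp))
  obtain ⟨e, -⟩ := nonempty_presented ![a5x, a5y] (by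
      simp only [Set.mem_insert_iff, Set.mem_singleton_iff, forall_eq_or_imp, forall_eq, map_pow,
        map_mul, FreeGroup.lift_apply_of]
      decide +kernel)
    (eq_top_iff.2 (closure_a5.ge.trans (Subgroup.closure_mono (by
      rintro _ ⟨k, hk, rfl⟩
      obtain rfl | rfl : k = 0 ∨ k = 1 := by have : k < 2 := hk; omega
      exacts [⟨0, rfl⟩, ⟨1, rfl⟩])))) φ (Fin.forall_fin_two.2 ⟨h1, h2⟩)
  exact ⟨e⟩

end Cfsg.Agent.S3377
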