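import Mathlib
import Cfsg.Statements.S3378
import Cfsg.Agent.H8.FC6
import Cfsg.Agent.H4.ZS
import Cfsg.Agent.H8.SmallId

set_option autoImplicit false
open Cfsg

namespace Cfsg.Agent.S3378

open Subgroup CfsgH1 CfsgH2 CfsgH3 CfsgH4 CfsgH8 CfsgH8.FC Function

theorem sol_of {G : Type*} [Group G] [Finite G]
    (h : Nat.card G ∣ 24 ∨ Nat.card G ∣ 40 ∨ Nat.card G ∣ 30) : Group.IsSolvable G := by
  rcases h with h | h | h
  · exact burnside_paqb 2 3 3 1 Nat.prime_two Nat.prime_three h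
  · exact burnside_paqb 2 5 3 1 Nat.prime_two Nat.prime_five h
  · haveI := IsZGroup.of_squarefree (Squarefree.squarefree_of_dvd h (by
      rw [show 30 = 2 * (3 * 5) from rfl, Nat.squarefree_mul (by decide), Nat.squarefree_mul (by decide)]
      exact ⟨Nat.prime_two.squarefree, Nat.prime_three.squarefree, Nat.prime_five.squarefree⟩))
    infer_instance

theorem sol_ext {G : Type*} [Group G] (N : Subgroup G) [N.Normal] [Group.IsSolvable N]
    [Group.IsSolvable (G ⧸ N)] : Group.IsSolvable G :=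
  Group.isSolvable_of_ker_le_range N.subtype (QuotientGroup.mk' N) (by simp)

/-- Every non-solvable group of order 120 whose Sylow 2-subgroups are quaternion of order 8 is isomorphic to SL(2,5), and SL(2,5) has the presentation ⟨x, y, z | x³ = y⁵ = z² = 1, z⁻¹xz = x, z⁻¹yz = y, (xy)² = z⟩. -/
theorem result :
    (∀ (G : Type*) [Group G] [Finite G], Nat.card G = 120 → ¬ Group.IsSolvable G →
      (∀ P : Sylow 2 G, Nonempty ((P : Subgroup G) ≃* QuaternionGroup 2)) →
      Nonempty (G ≃* Matrix.SpecialLinearGroup (Fin 2) (ZMod 5))) ∧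
    Nonempty (PresentedGroup ({FreeGroup.of (0 : Fin 3) ^ 3, FreeGroup.of (1 : Fin 3) ^ 5, FreeGroup.of (2 : Fin 3) ^ 2,
        (FreeGroup.of (2 : Fin 3))⁻¹ * FreeGroup.of 0 * FreeGroup.of 2 * (FreeGroup.of (0 : Fin 3))⁻¹,
        (FreeGroup.of (2 : Fin 3))⁻¹ * FreeGroup.of 1 * FreeGroup.of 2 * (FreeGroup.of (1 : Fin 3))⁻¹,
        (FreeGroup.of (0 : Fin 3) * FreeGroup.of 1) ^ 2 * (FreeGroup.of (2 : Fin 3))⁻¹} : Set (FreeGroup (Fin 3)))
      ≃* Matrix.SpecialLinearGroup (Fin 2) (ZMod 5)) := by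
  refine ⟨fun G _ _ c ns hP => ?_, ?_⟩
  · obtain ⟨P⟩ : Nonempty (Sylow 2 G) := inferInstance
    obtain ⟨a, b, q⟩ := gq_of_equiv (m := 1) le_rfl (hP P).some
    have u := @q.uniq _ _ _ _ _ _ _ (syl_top P)
    have k : ∀ m < 121, ∀ n < 121, m * n = 120 ∧ ¬ 2 ∣ m ∧ m ≠ 1 → m ∣ 30 ∧ (n ∣ 24 ∨ n ∣ 40) := by
      decide +kernel
    have O : pPrimeCore 2 G = ⊥ := by
      by_contra e
      have e1 := (pPrimeCore 2 G).card_mul_index.trans c
      obtain ⟨h1, h2⟩ := k _ (Nat.lt_succ_of_le (Nat.le_of_dvd (by decide) ⟨_, e1.symm⟩)) _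
        (Nat.lt_succ_of_le (Nat.le_of_dvd (by decide) (Dvd.intro_left _ e1))) ⟨e1,
        not_dvd_card_pPrimeCore 2, mt card_eq_one.1 e⟩
      haveI := sol_of (Or.inr (Or.inr h1))
      haveI := sol_of (G := G ⧸ pPrimeCore 2 G) (or_assoc.1 (Or.inl h2))
      exact ns (sol_ext (pPrimeCore 2 G))
    have z := brauer_suzuki (fun x y => u) O q.ord_t
    have oz := q.ord_t
    generalize a ^ 2 ^ 1 = t at z oz
    have l := zpowers_le.2 z
    haveI : (zpowers t).Normal := ⟨fun n hn g => by rwa [mem_center_iff.1 (l hn), mul_inv_cancel_right]⟩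
    have c2 : Nat.card (G ⧸ zpowers t) = 60 := by
      have := (zpowers t).card_mul_index
      rw [Nat.card_zpowers, oz, index_eq_card] at this; omega
    have k2 : ∀ m n, m * n = 60 → n ≠ 1 → m ∣ 24 ∨ m ∣ 40 ∨ m ∣ 30 := fun m n e h => by
      have d : m ∣ 60 := ⟨n, e.symm⟩
      have := Nat.le_of_dvd (by decide) d
      interval_cases m <;> simp_all
    haveI : IsSimpleGroup (G ⧸ zpowers t) := @IsSimpleGroup.mk _ _
      (Finite.one_lt_card_iff_nontrivial.1 (by omega)) fun N _ => by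
        by_contra e
        rw [not_or] at e
        have e1 := N.card_mul_index.trans c2
        haveI := sol_of (k2 _ _ e1 (mt index_eq_one.1 e.2))
        haveI := sol_of (G := _ ⧸ N) (k2 _ _ ((mul_comm _ _).trans e1) (mt card_eq_one.1 e.1))
        haveI := sol_ext N
        exact ns (sol_ext (zpowers t))
    obtain ⟨e⟩ := equiv_A5_of_simple c2
    let f := e.toMonoidHom.comp (QuotientGroup.mk' (zpowers t))
    have s : Surjective f := e.surjective.comp (QuotientGroup.mk'_surjective _)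
    have m : ∀ {g}, f g = 1 ↔ g ∈ zpowers t := e.map_eq_one_iff.trans (QuotientGroup.eq_one_iff _)
    have m2 : ∀ {g}, f g = 1 → g ^ 2 = 1 := fun h => orderOf_dvd_iff_pow_eq_one.1
      (oz ▸ orderOf_dvd_of_mem_zpowers (m.1 h))
    obtain ⟨x, hx⟩ := s a5x
    obtain ⟨y, hy⟩ := s a5y
    have e3 : f ((x ^ 4 * y ^ 6) ^ 2) = 1 := by rw [map_pow, map_mul, map_pow, map_pow, hx, hy]; decide +kernel
    obtain ⟨φ, h1, h2⟩ := exists_hom_SL25 (x := x ^ 4) (y := y ^ 6)
      (by rw [← pow_mul, show 4 * 3 = 3 * 2 * 2 from rfl, pow_mul, pow_mul,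
        m2 (g := x ^ 3) (by rw [map_pow, hx]; decide),
        one_pow])
      (by rw [← pow_mul, show 6 * 5 = 5 * 2 * 3 from rfl, pow_mul, pow_mul,
        m2 (g := y ^ 5) (by rw [map_pow, hy]; decide),
        one_pow])
      (by rw [show 4 = 2 * 2 from rfl, pow_mul (_ * _)]; exact m2 e3) (mem_center_iff.1 (l (m.1 e3)) _).symm
    have n : ∀ {g}, g ^ 2 = 1 → f g = 1 := fun {g} h => m.2 (by
      by_cases g1 : g = 1
      · exact g1 ▸ one_mem _
      · rw [u (orderOf_eq_prime h g1) oz (mem_center_iff.1 z g)]; exact Subgroup.mem_zpowers t)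
    refine ⟨(MulEquiv.ofBijective φ ((inj_SL25 φ (fun e => ?_) fun e => ?_).bijective_of_nat_card_le
      (c.trans card_SL25.symm).le)).symm⟩
    · have := congrArg f (h1.symm.trans e)
      rw [map_pow, hx, map_one] at this
      exact absurd this (by decide)
    · rw [map_pow, map_mul, h1, h2] at e
      have := n e
      rw [map_mul, map_pow, map_pow, hx, hy] at this
      exact absurd this (by decide +kernel)
  set R := ({FreeGroup.of (0 : Fin 3) ^ 3, FreeGroup.of (1 : Fin 3) ^ 5, FreeGroup.of (2 : Fin 3) ^ 2,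
        (FreeGroup.of (2 : Fin 3))⁻¹ * FreeGroup.of 0 * FreeGroup.of 2 * (FreeGroup.of (0 : Fin 3))⁻¹,
        (FreeGroup.of (2 : Fin 3))⁻¹ * FreeGroup.of 1 * FreeGroup.of 2 * (FreeGroup.of (1 : Fin 3))⁻¹,
        (FreeGroup.of (0 : Fin 3) * FreeGroup.of 1) ^ 2 * (FreeGroup.of (2 : Fin 3))⁻¹} : Set (FreeGroup (Fin 3)))
  let X : Fin 3 → PresentedGroup R := .of
  have h1 : X 0 ^ 3 = 1 := PresentedGroup.one_of_mem (rels := R) (by simp [R])
  have h2 : X 1 ^ 5 = 1 := PresentedGroup.one_of_mem (rels := R) (by simp [R])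
  have h3 : X 2 ^ 2 = 1 := PresentedGroup.one_of_mem (rels := R) (by simp [R])
  have h4 : (X 2)⁻¹ * X 0 * X 2 * (X 0)⁻¹ = 1 := PresentedGroup.one_of_mem (rels := R) (by simp [R])
  have h5 : (X 0 * X 1) ^ 2 * (X 2)⁻¹ = 1 := PresentedGroup.one_of_mem (rels := R) (by simp [R])
  rw [mul_inv_eq_one] at h4 h5
  obtain ⟨φ, k1, k2⟩ := exists_hom_SL25 h1 h2 (by rw [show 4 = 2 * 2 from rfl, pow_mul, h5, h3])
    (by rw [h5, ← h4, ← mul_assoc, ← mul_assoc, mul_inv_cancel, one_mul, h4])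
  obtain ⟨e, -⟩ := nonempty_presented (rels := R) ![s5x, s5y, (s5x * s5y) ^ 2] (by
      rintro _ (rfl | rfl | rfl | rfl | rfl | rfl) <;> simp <;> decide)
    (eq_top_s5 (subset_closure ⟨0, rfl⟩) (subset_closure ⟨1, rfl⟩)) φ fun i => by
      fin_cases i
      exacts [k1, k2, (by rw [map_pow, map_mul, k1, k2, h5] : φ ((s5x * s5y) ^ 2) = X 2)]
  exact ⟨e⟩

end Cfsg.Agent.S3378
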