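import Cfsg.Statements.S3379
import Cfsg.Agent.H3.Hv1

set_option autoImplicit false
open Cfsg

namespace Cfsg.Agent.S3379
open Subgroup CfsgH2

/-- Let G be a finite group all of whose Sylow subgroups are cyclic. Then G is generated by two elements x and y of coprime orders n and m with x⁻¹yx = y^r, where gcd(r − 1, m) = 1 and r^n ≡ 1 (mod m). -/
theorem result {G : Type*} [Group G] [Finite G]
    (hZ : ∀ (p : ℕ) [Fact p.Prime] (P : Sylow p G), IsCyclic (P : Subgroup G)) :
    ∃ (x y : G) (n m r : ℕ), Subgroup.closure {x, y} = ⊤ ∧ orderOf x = n ∧ orderOf y = m ∧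
      x⁻¹ * y * x = y ^ r ∧ Nat.Coprime (r - 1) m ∧ Nat.Coprime n m ∧ 1 ≤ r ∧ r ^ n % m = 1 % m := by
  haveI hG : IsZGroup G := ⟨fun p hp P => @hZ p ⟨hp⟩ P⟩
  obtain ⟨H, hH⟩ := exists_right_complement'_of_coprime (IsZGroup.coprime_commutator_index G)
  have h1 : Abelianization G ≃* H := hH.symm.QuotientMulEquiv
  obtain ⟨x, hx⟩ := isCyclic_iff_zpowers.1 (isCyclic_of_surjective _ h1.surjective)
  obtain ⟨y, hy⟩ := isCyclic_iff_zpowers.1 hG.isCyclic_commutator
  have hn : (zpowers y).Normal := hy ▸ inferInstance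
  obtain ⟨r, hr⟩ := mem_powers_iff_mem_zpowers.2 (hn.conj_mem' y (mem_zpowers y) x)
  have hr : x⁻¹ * y * x = y ^ (r + orderOf y) := by rw [pow_add, pow_orderOf_eq_one, mul_one]; exact hr.symm
  have r1 : 1 ≤ r + orderOf y := le_add_left (orderOf_pos y)
  generalize r + orderOf y = r at hr r1
  have tp : zpowers y ⊔ zpowers x = ⊤ := by rw [hx, hy]; exact hH.sup_eq_top
  refine ⟨x, y, _, _, r, ?_, rfl, rfl, hr, ?_, ?_, r1, ?_⟩
  · rw [Set.pair_comm, Set.insert_eq, Subgroup.closure_union, ← zpowers_eq_closure, ← zpowers_eq_closure, tp]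
  · haveI : (zpowers (y ^ (r - 1))).Normal := ⟨by
      rintro _ ⟨i, rfl⟩ g
      obtain ⟨j, hj⟩ := hn.conj_mem y (mem_zpowers y) g
      simp only at hj ⊢
      rw [← conj_zpow, ← conj_pow, ← hj, ← zpow_natCast (y ^ j), ← zpow_mul y, mul_comm, zpow_mul, zpow_natCast]
      exact zpow_mem (zpow_mem (mem_zpowers _) _) _⟩
    let π := QuotientGroup.mk' (zpowers (y ^ (r - 1)))
    have c : Commute (π y) (π x) := by
      have : π (y ^ (r - 1)) = 1 := (QuotientGroup.eq_one_iff _).2 (mem_zpowers _)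
      have e : π (x⁻¹ * y * x) = π y := by
        rw [hr, show y ^ r = y ^ (r - 1) * y by rw [← pow_succ, Nat.sub_add_cancel r1], map_mul, this, one_mul]
      rw [map_mul, map_mul, map_inv, mul_assoc, inv_mul_eq_iff_eq_mul] at e
      exact e
    have dec : ∀ g, ∃ i j : ℤ, y ^ i * x ^ j = g := fun g => by
      obtain ⟨_, ⟨i, rfl⟩, j, rfl⟩ := (mem_sup_zpowers (le_normalizer_of_normal (mem_top x))).1 (tp ▸ mem_top g)
      exact ⟨i, j, rfl⟩
    refine mem_zpowers_pow_iff.1 ((QuotientGroup.ker_mk' _).le ((commutator_le.2 fun a _ b _ => ?_ :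
      ⁅(⊤ : Subgroup G), ⊤⁆ ≤ π.ker) (hy.le (mem_zpowers y))))
    obtain ⟨i, j, rfl⟩ := dec a
    obtain ⟨k, l, rfl⟩ := dec b
    rw [MonoidHom.mem_ker, map_commutatorElement, commutatorElement_eq_one_iff_commute]
    simp only [map_mul, map_zpow]
    exact (((Commute.refl _).zpow_zpow _ _).mul_right (c.zpow_zpow _ _)).mul_left
      ((c.symm.zpow_zpow _ _).mul_right ((Commute.refl _).zpow_zpow _ _))
  · rw [← Nat.card_zpowers, ← Nat.card_zpowers, hx, hy, ← hH.symm.index_eq_card]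
    exact (IsZGroup.coprime_commutator_index G).symm
  · have : ∀ n : ℕ, (x ^ n)⁻¹ * y * x ^ n = y ^ r ^ n := fun n => by
      induction n with
      | zero => simp
      | succ n ih =>
        rw [pow_succ r, mul_comm (r ^ n), pow_mul, ← hr, show x⁻¹ * y * x = x⁻¹ * y * x⁻¹⁻¹ by simp, conj_pow, ← ih]
        group
    have e := this (orderOf x)
    rw [pow_orderOf_eq_one, inv_one, one_mul, mul_one] at e
    exact pow_eq_pow_iff_modEq.1 (e.symm.trans (pow_one y).symm)


end Cfsg.Agent.S3379
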