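import Mathlib
import Cfsg.Statements.S3380
import Cfsg.Agent.H2.MaxCl3

set_option autoImplicit false
open Cfsg

namespace Cfsg.Agent.S3380

open Finset

theorem cen {G : Type*} [Group G] [Finite G] {p : ℕ} [Fact p.Prime] (hG : IsPGroup p G) (N : Subgroup G) [N.Normal]
    (hN : N ≠ ⊥) : ∃ z ∈ N, z ≠ 1 ∧ z ∈ Subgroup.center G := by
  have h1 : p ∣ Nat.card N := by
    rcases (hG.to_subgroup N).card_eq_or_dvd with h | h
    · exact absurd (Subgroup.card_eq_one.1 h) hN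
    · exact h
  have h2 : IsPGroup p (ConjAct G) := hG.of_equiv ConjAct.toConjAct
  obtain ⟨b, hb, hb1⟩ := h2.exists_fixed_point_of_prime_dvd_card_of_fixed_point N h1 (a := 1) (fun g => smul_one g)
  refine ⟨b.1, b.2, fun h => hb1 (Subtype.ext h.symm), Subgroup.mem_center_iff.2 fun g => ?_⟩
  have := congrArg Subtype.val (hb (ConjAct.toConjAct g))
  change g * b.1 * g⁻¹ = b.1 at this
  rwa [mul_inv_eq_iff_eq_mul] at this

/-- Let a finite p-group G act faithfully and irreducibly on a non-trivial finite vector space V over the field with q elements (q prime), and suppose G is not cyclic, generalized quaternion, dihedral or semidihedral. Then G has a subgroup H of index p and V is the direct sum of p subspaces, each invariant under H, on none of which H acts faithfully, and which every element of G outside H permutes in a single p-cycle. -/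
theorem result
    (q : ℕ) [Fact q.Prime] {V : Type*} [AddCommGroup V] [Module (ZMod q) V] [Finite V] [Nontrivial V]
    {G : Type*} [Group G] [Finite G] (p : ℕ) [Fact p.Prime] (hG : IsPGroup p G)
    (ρ : G →* (V ≃ₗ[ZMod q] V)) (hρ : Function.Injective ρ)
    (hirr : ∀ W : Submodule (ZMod q) V, (∀ g : G, ∀ w ∈ W, ρ g w ∈ W) → W = ⊥ ∨ W = ⊤)
    (hnc : ¬ IsCyclic G) (hnq : ∀ n : ℕ, ¬ Nonempty (G ≃* QuaternionGroup n))
    (hnd : ∀ n : ℕ, ¬ Nonempty (G ≃* DihedralGroup n)) (hnsd : ¬ Cfsg.IsQuasiDihedral G) :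
    ∃ (H : Subgroup G) (W : Fin p → Submodule (ZMod q) V), H.index = p ∧
      iSup W = ⊤ ∧ iSupIndep W ∧
      (∀ h ∈ H, ∀ i, ∀ w ∈ W i, ρ h w ∈ W i) ∧
      (∀ i, ∃ h ∈ H, h ≠ 1 ∧ ∀ w ∈ W i, ρ h w = w) ∧
      ∀ g : G, g ∉ H → ∃ σ : Equiv.Perm (Fin p), orderOf σ = p ∧ ∀ i, (W i).map (ρ g : V →ₗ[ZMod q] V) = W (σ i) := by
  classical
  have hp : p.Prime := Fact.out
  haveI : NeZero p := ⟨hp.ne_zero⟩
  obtain ⟨E, hEn, hE⟩ : ∃ E : Subgroup G, E.Normal ∧ CfsgH2.El p 2 E := by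
    by_cases h : ∀ A ≤ (⊤ : Subgroup G), ⊤ ≤ Subgroup.normalizer (A : Set G) → IsMulCommutative A → IsCyclic A
    · exfalso
      rcases CfsgH2.cyc_or_mc (hG.to_subgroup ⊤) h with h | ⟨rfl, a, b, m, h⟩
      · exact hnc (isCyclic_of_surjective _ Subgroup.topEquiv.surjective)
      rcases h.rel with ⟨h1, h2⟩ | ⟨h1, h2⟩ | ⟨h0, h1, h2⟩
      · exact hnd _ ⟨Subgroup.topEquiv.symm.trans (h.toCy2.dihedral h1 h2).some⟩
      · exact hnq _ ⟨Subgroup.topEquiv.symm.trans (h.toCy2.quaternion h1 h2).some⟩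
      · exact hnsd (h.toCy2.quasi h0 h1 h2)
    · push Not at h
      obtain ⟨A, -, h1, h2, h3⟩ := h
      obtain ⟨E, -, h4, h5⟩ := CfsgH2.exists_normal_el2_of_comm (hG.to_subgroup ⊤) (hG.to_subgroup A) h1 h2 h3
      exact ⟨E, Subgroup.normalizer_eq_top_iff.1 (top_le_iff.1 h4), h5⟩
  have hE0 : E ≠ ⊥ := by
    rintro rfl
    have := hE.card
    rw [Subgroup.card_bot] at this
    exact absurd (Nat.one_lt_pow two_ne_zero hp.one_lt) (by omega)
  obtain ⟨z, hzE, hz1, hzc⟩ := cen hG E hE0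
  have hzp : z ^ p = 1 := hE.el.2 z hzE
  have hzo : orderOf z = p := orderOf_eq_prime hzp hz1
  have hzc' := Subgroup.mem_center_iff.1 hzc
  haveI : (Subgroup.zpowers z).Normal := ⟨fun x hx g => by
    rwa [Subgroup.mem_center_iff.1 (Subgroup.zpowers_le.2 hzc hx) g, mul_inv_cancel_right]⟩
  obtain ⟨y, hyE, hyz, hyc⟩ : ∃ y ∈ E, y ∉ Subgroup.zpowers z ∧ ∀ g, y⁻¹ * (g * y * g⁻¹) ∈ Subgroup.zpowers z := by
    haveI := hEn.map (QuotientGroup.mk' (Subgroup.zpowers z)) (QuotientGroup.mk'_surjective _)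
    obtain ⟨_, ⟨y, hy, rfl⟩, h1, h2⟩ := cen (hG.to_quotient (Subgroup.zpowers z)) (E.map (QuotientGroup.mk' _)) (by
      rw [Ne, Subgroup.map_eq_bot_iff, QuotientGroup.ker_mk']
      intro h
      have := Subgroup.card_le_of_le h
      rw [hE.card, Nat.card_zpowers, hzo] at this
      have h2 := Nat.pow_lt_pow_right hp.one_lt (show 1 < 2 by norm_num)
      rw [pow_one] at h2
      omega)
    refine ⟨y, hy, fun h => h1 ((QuotientGroup.eq_one_iff y).2 h), fun g => ?_⟩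
    have h3 : (g : G ⧸ Subgroup.zpowers z) * y = y * g := Subgroup.mem_center_iff.1 h2 g
    rw [← QuotientGroup.eq, QuotientGroup.mk_mul, QuotientGroup.mk_mul, h3]
    simp
  have hyp : y ^ p = 1 := hE.el.2 y hyE
  have hmul : ∀ (a b : G) (v : V), ρ (a * b) v = ρ a (ρ b v) := fun a b v => by rw [map_mul]; rfl
  let Fx : G → Submodule (ZMod q) V := fun t => LinearMap.eqLocus (ρ t).toLinearMap LinearMap.id
  have hF : ∀ t v, v ∈ Fx t ↔ ρ t v = v := fun t v => Iff.rfl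
  have hfpf : ∀ u ∈ Subgroup.center G, u ≠ 1 → ∀ v, ρ u v = v → v = 0 := by
    intro u hu hu1 v hv
    rcases hirr (Fx u) (fun g w hw => by
      rw [hF, ← hmul, ← Subgroup.mem_center_iff.1 hu g, hmul, (hF _ _).1 hw]) with h | h
    · exact (Submodule.mem_bot _).1 (h ▸ (hF u v).2 hv)
    · refine absurd (hρ ?_) hu1
      rw [map_one]
      ext w
      exact (hF u w).1 (h ▸ Submodule.mem_top)
  have hpq : (p : ZMod q) ≠ 0 := by
    rw [Ne, ZMod.natCast_eq_zero_iff, Nat.prime_dvd_prime_iff_eq Fact.out hp]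
    rintro rfl
    letI : MulAction G V := MulAction.compHom V ρ
    have h1 : q ∣ Nat.card V := by
      rw [Module.natCard_eq_pow_finrank (K := ZMod q), Nat.card_zmod]
      exact dvd_pow_self _ Module.finrank_pos.ne'
    obtain ⟨b, hb, hb1⟩ := hG.exists_fixed_point_of_prime_dvd_card_of_fixed_point V h1 (a := 0) (fun g => map_zero (ρ g))
    exact hb1 (hfpf z hzc hz1 b (hb z)).symm
  let Nn : G → V →ₗ[ZMod q] V := fun x => ∑ j ∈ range p, (ρ (x ^ j)).toLinearMap
  have hN : ∀ x v, Nn x v = ∑ j ∈ range p, ρ (x ^ j) v := fun x v => by simp [Nn]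
  have hN1 : ∀ x, x ^ p = 1 → ∀ v, Nn x v ∈ Fx x := by
    intro x hx v
    rw [hF, hN, map_sum]
    have h1 := sum_range_succ' (fun j => ρ (x ^ j) v) p
    rw [sum_range_succ, hx, pow_zero, add_left_inj] at h1
    rw [h1]
    exact sum_congr rfl fun j _ => by rw [← hmul, pow_succ']
  have hN2 : ∀ u ∈ Subgroup.zpowers z, u ≠ 1 → ∀ v, Nn u v = 0 := fun u hu hu1 v =>
    hfpf u (Subgroup.zpowers_le.2 hzc hu) hu1 _ (hN1 u (hE.el.2 u (Subgroup.zpowers_le.2 hzE hu)) v)
  have hcm : ∀ i : ℕ, Commute y (z ^ i) := fun i => Commute.pow_right (hzc' y) i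
  have hzi : ∀ {i j : ℕ}, i < p → j < p → z ^ i = z ^ j → i = j := fun hi hj h =>
    pow_injOn_Iio_orderOf (hzo ▸ hi) (hzo ▸ hj) h
  let W : Fin p → Submodule (ZMod q) V := fun i => Fx (y * z ^ i.val)
  have hWp : ∀ i : ℕ, (y * z ^ i) ^ p = 1 := fun i => hE.el.2 _ (mul_mem hyE (pow_mem hzE i))
  have htop : iSup W = ⊤ := by
    rw [eq_top_iff]
    intro v _
    have h1 : ∑ i ∈ range p, Nn (y * z ^ i) v = (p : ZMod q) • v := by
      simp only [hN]
      rw [sum_comm, sum_eq_single 0]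
      · simp [Nat.cast_smul_eq_nsmul]
      · intro j hj hj0
        have h2 := hN2 (z ^ j) (Subgroup.npow_mem_zpowers z j) (fun h => hj0 (hzi (mem_range.1 hj) hp.pos (by simpa using h))) v
        rw [hN] at h2
        rw [← map_zero (ρ (y ^ j)), ← h2, map_sum]
        exact sum_congr rfl fun i _ => by rw [← hmul, (hcm i).mul_pow, ← pow_mul, ← pow_mul, mul_comm i]
      · simp [hp.pos]
    rw [← inv_smul_smul₀ hpq v, ← h1]
    exact Submodule.smul_mem _ _ (sum_mem fun i hi =>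
      Submodule.mem_iSup_of_mem (⟨i, mem_range.1 hi⟩ : Fin p) (hN1 _ (hWp i) v))
  have hpow : ∀ x v, ρ x v = v → ∀ j : ℕ, ρ (x ^ j) v = v := by
    intro x v h j
    induction j with
    | zero => simp
    | succ j ih => rw [pow_succ, hmul, h, ih]
  let φ : G →* Subgroup.zpowers z := MonoidHom.mk' (fun g => ⟨y⁻¹ * (g * y * g⁻¹), hyc g⟩) fun a b => Subtype.ext (by
    have h1 := Subgroup.mem_center_iff.1 (Subgroup.zpowers_le.2 hzc (hyc b)) a
    change y⁻¹ * (a * b * y * (a * b)⁻¹) = y⁻¹ * (a * y * a⁻¹) * (y⁻¹ * (b * y * b⁻¹))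
    calc _ = y⁻¹ * (a * y * a⁻¹) * (a * (y⁻¹ * (b * y * b⁻¹)) * a⁻¹) := by group
      _ = _ := by rw [h1, mul_inv_cancel_right])
  have hφ : ∀ g, ∃ c : Fin p, (φ g : G) = z ^ c.val := fun g => by
    obtain ⟨k, hk, h⟩ := (mem_zpowers_iff_mem_range_orderOf.1 (φ g).2) |> mem_image.1
    exact ⟨⟨k, hzo ▸ mem_range.1 hk⟩, h.symm⟩
  have hconj : ∀ g (c : Fin p), (φ g : G) = z ^ c.val → ∀ i : Fin p, g * (y * z ^ i.val) = y * z ^ (i + c).val * g := by
    intro g c h i
    have h1 : g * y = y * z ^ c.val * g := by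
      rw [← h]; change _ = y * (y⁻¹ * (g * y * g⁻¹)) * g; group
    rw [Fin.val_add, ← pow_eq_pow_mod _ hzp, add_comm, pow_add, ← mul_assoc, h1, mul_assoc _ g,
      Subgroup.mem_center_iff.1 (pow_mem hzc i.val) g]
    simp only [mul_assoc]
  have hmap : ∀ g (c : Fin p), (φ g : G) = z ^ c.val → ∀ i : Fin p, ∀ w ∈ W i, ρ g w ∈ W (i + c) := by
    intro g c h i w hw
    rw [hF, ← hmul, ← hconj g c h i, hmul, (hF _ _).1 hw]
  have hne : ∀ i : ℕ, y * z ^ i ≠ 1 := fun i h =>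
    hyz (by rw [eq_inv_of_mul_eq_one_left h]; exact inv_mem (Subgroup.npow_mem_zpowers z i))
  refine ⟨φ.ker, W, ?_, htop, ?_, fun h hh i w hw => ?_, fun i => ⟨y * z ^ i.val, ?_, hne _, fun w hw => hw⟩, fun g hg => ?_⟩
  · rw [Subgroup.index_ker]
    have h1 := φ.range.card_subgroup_dvd_card
    rw [Nat.card_zpowers, hzo] at h1
    refine ((Nat.dvd_prime hp).1 h1).resolve_left fun h => ?_
    have h2 : y ∈ Subgroup.center G := Subgroup.mem_center_iff.2 fun g => by
      have h3 : φ g ∈ (⊥ : Subgroup _) := Subgroup.card_eq_one.1 h ▸ ⟨g, rfl⟩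
      have h4 : y⁻¹ * (g * y * g⁻¹) = 1 := congrArg Subtype.val (Subgroup.mem_bot.1 h3)
      rwa [inv_mul_eq_one, eq_mul_inv_iff_mul_eq, eq_comm] at h4
    have h3 : iSup W = ⊥ := iSup_eq_bot.2 fun i => eq_bot_iff.2 fun w hw =>
      hfpf _ (mul_mem h2 (pow_mem hzc _)) (hne i) w hw
    exact bot_ne_top (h3.symm.trans htop)
  · rw [iSupIndep_def]
    intro k
    have h1 : ⨆ j, ⨆ (_ : j ≠ k), W j ≤ LinearMap.ker (Nn (y * z ^ k.val)) := by
      refine iSup₂_le fun j hj w hw => ?_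
      have h2 := hN2 (z ^ k.val * (z ^ j.val)⁻¹) (mul_mem (Subgroup.npow_mem_zpowers z _) (inv_mem (Subgroup.npow_mem_zpowers z _)))
        (fun h => hj (Fin.ext (hzi k.2 j.2 (mul_inv_eq_one.1 h)).symm)) w
      rw [LinearMap.mem_ker, ← h2, hN, hN]
      refine sum_congr rfl fun i _ => ?_
      have h3 : z ^ k.val * (z ^ j.val)⁻¹ ∈ Subgroup.center G := mul_mem (pow_mem hzc _) (inv_mem (pow_mem hzc _))
      have h4 : y * z ^ k.val = z ^ k.val * (z ^ j.val)⁻¹ * (y * z ^ j.val) := by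
        rw [← Subgroup.mem_center_iff.1 h3]; group
      rw [h4, Commute.mul_pow (Subgroup.mem_center_iff.1 h3 _).symm, hmul, hpow _ w hw]
    refine Disjoint.mono_right h1 (Submodule.disjoint_def.2 fun w hw hw' => ?_)
    rw [LinearMap.mem_ker, hN, sum_congr rfl fun j _ => hpow _ w hw j, sum_const, card_range, ← Nat.cast_smul_eq_nsmul (ZMod q)] at hw'
    exact (smul_eq_zero.1 hw').resolve_left hpq
  · simpa using hmap h 0 (by rw [(MonoidHom.mem_ker).1 hh]; simp) i w hw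
  · rw [MonoidHom.mem_ker]
    apply Subtype.ext
    change y⁻¹ * (y * z ^ i.val * y * (y * z ^ i.val)⁻¹) = 1
    rw [mul_assoc y, ← (hcm i).eq]; group
  · obtain ⟨c, hc⟩ := hφ g
    have hc0 : c ≠ 0 := by
      rintro rfl
      exact hg (Subtype.ext (by simpa using hc))
    refine ⟨Equiv.addRight c, orderOf_eq_prime ?_ fun h => hc0 (by simpa using congrArg (· 0) h), fun i => ?_⟩
    · have : p • c = 0 := by simpa using card_nsmul_eq_zero (x := c)
      simp [this]
    · refine le_antisymm ?_ fun w hw => ?_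
      · rintro _ ⟨w, hw, rfl⟩
        exact hmap g c hc i w hw
      · refine ⟨(ρ g).symm w, ?_, by simp⟩
        apply (ρ g).injective
        change ρ g (ρ (y * z ^ i.val) ((ρ g).symm w)) = ρ g ((ρ g).symm w)
        rw [← hmul, hconj g c hc i, hmul, LinearEquiv.apply_symm_apply]
        exact hw

end Cfsg.Agent.S3380
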