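import Mathlib
import Cfsg.Statements.S3381

set_option autoImplicit false
open Cfsg

namespace Cfsg.Agent.S3381

open Finset

/-- Let G be a finite group acting faithfully and linearly on a non-trivial finite vector space V over the field with q elements (q prime) so that every non-zero vector has a stabilizer of order 2, and suppose G has a central involution. Then V has q^(2r) elements for some r and G contains exactly q^r + 1 non-central involutions. -/
theorem result
    (q : ℕ) [Fact q.Prime] {V : Type*} [AddCommGroup V] [Module (ZMod q) V] [Finite V] [Nontrivial V]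
    {G : Type*} [Group G] [Finite G] (ρ : G →* (V ≃ₗ[ZMod q] V)) (hρ : Function.Injective ρ)
    (hstab : ∀ v : V, v ≠ 0 → Nat.card {g : G // ρ g v = v} = 2)
    (z : G) (hz : orderOf z = 2) (hzc : z ∈ Subgroup.center G) :
    ∃ r : ℕ, Nat.card V = q ^ (2 * r) ∧
      Nat.card {g : G // orderOf g = 2 ∧ g ∉ Subgroup.center G} = q ^ r + 1 := by
  classical
  have hst : ∀ v : V, v ≠ 0 → ∃ t : G, t ≠ 1 ∧ ρ t v = v ∧ ∀ s, ρ s v = v → s = 1 ∨ s = t := by
    intro v hv
    obtain ⟨y, hy, hu⟩ := (Nat.card_eq_two_iff' (⟨1, by simp⟩ : {g : G // ρ g v = v})).1 (hstab v hv)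
    refine ⟨y.1, fun h => hy (Subtype.ext h), y.2, fun s hs => ?_⟩
    by_cases h : s = 1
    · exact Or.inl h
    · exact Or.inr (congrArg Subtype.val (hu ⟨s, hs⟩ fun h' => h (congrArg Subtype.val h')))
  have hmul : ∀ (a b : G) (v : V), ρ (a * b) v = ρ a (ρ b v) := fun a b v => by rw [map_mul]; rfl
  have huniq : ∀ v : V, v ≠ 0 → ∀ s t : G, s ≠ 1 → t ≠ 1 → ρ s v = v → ρ t v = v → s = t := by
    intro v hv s t hs ht h1 h2
    obtain ⟨u, -, -, hu⟩ := hst v hv
    rw [(hu s h1).resolve_left hs, (hu t h2).resolve_left ht]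
  have hcen : ∀ z : G, orderOf z = 2 → z ∈ Subgroup.center G → (∀ v, ρ z v = -v) ∧ (2 : ZMod q) ≠ 0 := by
    intro z hz hzc
    have hz1 : z ≠ 1 := by rintro rfl; simp at hz
    have hz2 : z * z = 1 := by rw [← pow_two, ← hz, pow_orderOf_eq_one]
    have h1 : ∀ u, ρ z u = u ∨ ρ z u = -u := by
      intro u
      by_contra hc
      push Not at hc
      have hu : u ≠ 0 := fun h => hc.1 (by simp [h])
      obtain ⟨t, ht, ht1, -⟩ := hst u hu
      have h2 : ρ z u + u ≠ 0 := fun h => hc.2 (eq_neg_of_add_eq_zero_left h)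
      have h3 := huniq _ h2 t z ht hz1 (by rw [map_add, ← hmul, Subgroup.mem_center_iff.1 hzc t, hmul, ht1])
        (by rw [map_add, ← hmul, hz2, map_one, add_comm]; rfl)
      exact hc.1 (h3 ▸ ht1)
    obtain ⟨u0, hu0⟩ : ∃ u0, ρ z u0 ≠ u0 := by
      by_contra h
      push Not at h
      exact hz1 (hρ (by rw [map_one]; ext v; exact h v))
    have h2 := (h1 u0).resolve_left hu0
    refine ⟨fun u => ?_, fun h => hu0 ?_⟩
    · rcases h1 u with h | h
      · rcases h1 (u + u0) with h3 | h3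
        · rw [map_add, h, add_right_inj] at h3
          exact absurd h3 hu0
        · rw [map_add, h2, neg_add, add_left_inj] at h3
          exact h3
      · exact h
    · rw [h2, neg_eq_iff_add_eq_zero, ← two_smul (ZMod q), h, zero_smul]
  obtain ⟨hzn, h2⟩ := hcen z hz hzc
  have hz1 : z ≠ 1 := by rintro rfl; simp at hz
  have hz2 : z * z = 1 := by rw [← pow_two, ← hz, pow_orderOf_eq_one]
  have hneg : ∀ v : V, -v = v → v = 0 := by
    intro v h
    rw [neg_eq_iff_add_eq_zero, ← two_smul (ZMod q)] at h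
    exact (smul_eq_zero.1 h).resolve_left h2
  let F : G → Submodule (ZMod q) V := fun t => LinearMap.eqLocus (ρ t).toLinearMap LinearMap.id
  have hF : ∀ t v, v ∈ F t ↔ ρ t v = v := fun t v => Iff.rfl
  let I : G → Prop := fun t => t * t = 1 ∧ t ≠ 1 ∧ t ≠ z
  have hI : ∀ t, (orderOf t = 2 ∧ t ∉ Subgroup.center G) ↔ I t := by
    intro t
    constructor
    · rintro ⟨h1, h3⟩
      refine ⟨by rw [← pow_two, ← h1, pow_orderOf_eq_one], by rintro rfl; simp at h1, fun h => h3 (h ▸ hzc)⟩
    · rintro ⟨h1, h3, h4⟩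
      have ho : orderOf t = 2 := orderOf_eq_prime (by rw [pow_two, h1]) h3
      refine ⟨ho, fun hc => h4 (hρ ?_)⟩
      ext v
      rw [(hcen t ho hc).1, hzn]
  have hIz : ∀ t, I t → I (t * z) := by
    rintro t ⟨h1, h3, h4⟩
    refine ⟨?_, fun h => h4 ?_, fun h => h3 (by simpa using h)⟩
    · rw [mul_assoc, ← mul_assoc z, ← Subgroup.mem_center_iff.1 hzc t, mul_assoc, hz2, mul_one, h1]
    · rw [← mul_left_inj z, h, hz2]
  have hinj : ∀ s t : G, s ≠ 1 → t ≠ 1 → s ≠ t → Function.Injective (fun x : F s × F t => (x.1 : V) + x.2) := by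
    rintro s t hs ht hst' ⟨a, b⟩ ⟨c, d⟩ h
    simp only at h
    have h3 : (a : V) - c = d - b := by rw [sub_eq_sub_iff_add_eq_add, h, add_comm]
    have h4 : (a : V) - c = 0 := by
      by_contra h5
      exact hst' (huniq _ h5 s t hs ht ((hF _ _).1 (sub_mem a.2 c.2)) ((hF _ _).1 (h3 ▸ sub_mem d.2 b.2)))
    rw [h4] at h3
    exact Prod.ext (Subtype.ext (sub_eq_zero.1 h4)) (Subtype.ext (sub_eq_zero.1 h3.symm).symm)
  have hle : ∀ s t : G, s ≠ 1 → t ≠ 1 → s ≠ t → Nat.card (F s) * Nat.card (F t) ≤ Nat.card V := by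
    intro s t hs ht hst'
    rw [← Nat.card_prod]
    exact Nat.card_le_card_of_injective _ (hinj s t hs ht hst')
  have hne : ∀ t : G, t ≠ t * z := fun t h => hz1 (by simpa using h)
  have heq : ∀ t, I t → Nat.card (F t) * Nat.card (F (t * z)) = Nat.card V := by
    intro t ht
    rw [← Nat.card_prod]
    refine Nat.card_eq_of_bijective _ ⟨hinj t (t * z) ht.2.1 (hIz t ht).2.1 (hne t), fun v => ?_⟩
    have htt : ρ t (ρ t v) = v := by rw [← hmul, ht.1, map_one]; rfl
    refine ⟨(⟨(2 : ZMod q)⁻¹ • (v + ρ t v), ?_⟩, ⟨(2 : ZMod q)⁻¹ • (v - ρ t v), ?_⟩), ?_⟩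
    · rw [hF, map_smul, map_add, htt, add_comm]
    · rw [hF, hmul, hzn, map_neg, map_smul, map_sub, htt, ← smul_neg, neg_sub]
    · simp only
      rw [← smul_add, add_add_sub_cancel, ← two_smul (ZMod q), smul_smul, inv_mul_cancel₀ h2, one_smul]
  have hnz : ∀ t, I t → ∃ v, v ≠ 0 ∧ ρ t v = v := by
    intro t ht
    by_contra h
    push Not at h
    refine ht.2.2 (hρ ?_)
    ext v
    rw [hzn]
    by_contra h3
    have htt : ρ t (ρ t v) = v := by rw [← hmul, ht.1, map_one]; rfl
    exact h (ρ t v + v) (fun h4 => h3 (eq_neg_of_add_eq_zero_left h4)) (by rw [map_add, htt, add_comm])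
  have hstI : ∀ v : V, v ≠ 0 → ∃ t, I t ∧ ρ t v = v := by
    intro v hv
    obtain ⟨t, h1, h3, h4⟩ := hst v hv
    refine ⟨t, ⟨(h4 (t * t) (by rw [hmul, h3, h3])).resolve_right (fun h => h1 (by simpa using h)), h1, ?_⟩, h3⟩
    rintro rfl
    exact hv (hneg v (by rw [← hzn, h3]))
  have hsq : ∀ t, I t → Nat.card (F t) * Nat.card (F t) = Nat.card V := by
    have key : ∀ t, I t → Nat.card (F t) ≤ Nat.card (F (t * z)) := by
      intro t ht
      obtain ⟨a, ha, ha1⟩ := hnz t ht
      obtain ⟨b, hb, hb1⟩ := hnz _ (hIz t ht)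
      have hb2 : ρ t b = -b := by rw [hmul, hzn, map_neg] at hb1; rw [← neg_neg (ρ t b), hb1]
      have hab : a + b ≠ 0 := by
        intro h
        have h3 : b = -a := eq_neg_of_add_eq_zero_right h
        rw [h3, map_neg, ha1] at hb2
        exact ha (hneg a (by simpa using hb2))
      obtain ⟨s, hs, hs1⟩ := hstI _ hab
      have h3 : s ≠ t := by
        rintro rfl
        rw [map_add, ha1, hb2, add_right_inj] at hs1
        exact hb (hneg b hs1)
      have h4 : s * z ≠ t := by
        rintro rfl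
        have h5 : ρ s a = -a := by rw [hmul, hzn, map_neg] at ha1; rw [← neg_neg (ρ s a), ha1]
        have h6 : ρ s b = b := by rw [mul_assoc, hz2, mul_one] at hb1; exact hb1
        rw [map_add, h5, h6, add_left_inj] at hs1
        exact ha (hneg a hs1)
      have e1 := hle s t hs.2.1 ht.2.1 h3
      have e2 := hle _ t (hIz s hs).2.1 ht.2.1 h4
      have e3 := heq s hs
      have e4 := heq t ht
      have e5 : 0 < Nat.card V := Nat.card_pos
      have e6 : 0 < Nat.card (F t) := Nat.card_pos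
      have e7 := Nat.mul_le_mul e1 e2
      have e8 : Nat.card V * (Nat.card (F t) * Nat.card (F t)) ≤ Nat.card V * (Nat.card (F t) * Nat.card (F (t * z))) := by
        rw [e4]
        calc _ = Nat.card (F s) * Nat.card (F t) * (Nat.card (F (s * z)) * Nat.card (F t)) := by rw [← e3]; ring
          _ ≤ _ := e7
      exact Nat.le_of_mul_le_mul_left (Nat.le_of_mul_le_mul_left e8 e5) e6
    intro t ht
    have h3 := key _ (hIz t ht)
    rw [mul_assoc, hz2, mul_one] at h3
    rw [← heq t ht, le_antisymm (key t ht) h3]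
  obtain ⟨v0, hv0⟩ := exists_ne (0 : V)
  obtain ⟨t0, ht0, -⟩ := hstI v0 hv0
  have hq := Module.natCard_eq_pow_finrank (K := ZMod q) (V := F t0)
  rw [Nat.card_zmod] at hq
  have hall : ∀ t, I t → Nat.card (F t) = Nat.card (F t0) := fun t ht =>
    Nat.mul_self_inj.1 ((hsq t ht).trans (hsq t0 ht0).symm)
  refine ⟨Module.finrank (ZMod q) (F t0), by rw [← hsq t0 ht0, hq]; ring, ?_⟩
  rw [← hq]
  haveI := Fintype.ofFinite V
  haveI := Fintype.ofFinite G
  choose! τ hτ1 hτ2 using hstI
  have hc := card_eq_sum_card_fiberwise (s := (univ : Finset V).erase 0) (t := univ.filter I) (f := τ)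
    (fun v hv => by simpa using hτ1 v (by simpa using hv))
  rw [sum_congr rfl (g := fun _ => Nat.card (F t0) - 1), sum_const, smul_eq_mul, card_erase_of_mem (mem_univ _), card_univ,
    ← Nat.card_eq_fintype_card, ← hsq t0 ht0] at hc
  · have h3 : Nat.card {g : G // orderOf g = 2 ∧ g ∉ Subgroup.center G} = #(univ.filter I) := by
      rw [Nat.card_eq_fintype_card, Fintype.card_subtype]
      exact congrArg card (filter_congr fun t _ => hI t)
    rw [h3]
    obtain ⟨a, ha, ha1⟩ := hnz t0 ht0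
    have h4 : 1 < Nat.card (F t0) := by
      haveI : Nontrivial (F t0) := ⟨⟨⟨a, ha1⟩, 0, fun h => ha (congrArg Subtype.val h)⟩⟩
      exact Finite.one_lt_card
    obtain ⟨m, hm⟩ : ∃ m, Nat.card (F t0) = m + 1 := ⟨Nat.card (F t0) - 1, by omega⟩
    rw [hm] at hc h4 ⊢
    have h5 : (m + 1) * (m + 1) - 1 = (m + 1 + 1) * m := by
      rw [Nat.sub_eq_iff_eq_add (by nlinarith)]; ring
    rw [h5, Nat.add_sub_cancel] at hc
    exact (Nat.eq_of_mul_eq_mul_right (by omega) hc).symm
  · intro t ht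
    have ht : I t := (mem_filter.1 ht).2
    rw [← hall t ht, Nat.card_eq_fintype_card, Fintype.card_subtype, ← card_erase_of_mem (a := (0 : V)) (by simp)]
    congr 1
    ext v
    simp only [mem_filter, mem_erase, mem_univ, and_true, true_and]
    refine and_congr_right fun hv => ⟨fun h => h ▸ hτ2 v hv, fun h => huniq v hv _ _ (hτ1 v hv).2.1 ht.2.1 (hτ2 v hv) h⟩

end Cfsg.Agent.S3381
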