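import Mathlib
import Cfsg.Statements.S3382

set_option autoImplicit false
open Cfsg

namespace Cfsg.Agent.S3382

open Matrix

theorem aut2 {G : Type*} [Group G] [Finite G] (hG : IsPGroup 2 G) (r : ℕ) (A Z : G → Prop)
    (hA : ∀ x, A x ↔ ∀ h, h ^ r ≠ 1 → h * x = x * h) (hZ : ∀ x, Z x ↔ ∀ h, h * x = x * h)
    (c : ∀ x y, A x → A y → x * y = y * x) (i : ∀ x y, ¬ A x → ¬ A y → A (x⁻¹ * y))
    (z : ∀ x y, Z x → Z y → x ^ 2 = 1 → y ^ 2 = 1 → x ≠ 1 → y ≠ 1 → x = y)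
    (o : ∀ x y, A x → A y → x ^ 2 = 1 → y ^ 2 = 1 → ¬ Z x → ¬ Z y → Z (x * y)) : IsPGroup 2 (MulAut G) := fun α => by
  obtain ⟨k, m, hm, e⟩ := Nat.exists_eq_two_pow_mul_odd (orderOf_pos α).ne'
  refine ⟨k, ?_⟩
  have e : (α ^ 2 ^ k) ^ m = 1 := by rw [← pow_mul, ← e, pow_orderOf_eq_one]
  generalize α ^ 2 ^ k = β at *
  have s : ∀ x, β (x⁻¹ * β x) = x⁻¹ * β x → β x = x := fun x h => by
    have : ∀ n : ℕ, (β ^ n) x = x * (x⁻¹ * β x) ^ n := fun n => by
      induction n with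
      | zero => simp
      | succ n ih => rw [pow_succ', MulAut.mul_apply, ih, map_mul, map_pow, h, pow_succ', ← mul_assoc, mul_inv_cancel_left]
    have t := this m
    obtain ⟨j, hj⟩ := hG (x⁻¹ * β x)
    rw [e, MulAut.one_apply, left_eq_mul] at t
    have := pow_gcd_eq_one.2 ⟨t, hj⟩
    rw [(Nat.coprime_two_right.2 hm).pow_right, pow_one, inv_mul_eq_one] at this
    exact this.symm
  have a : ∀ x, A (β x) ↔ A x := fun x => by
    rw [hA, hA, β.surjective.forall]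
    simp only [← map_mul, ← map_pow, ne_eq, β.apply_eq_iff_eq, β.map_eq_one_iff]
  have b : ∀ x, Z (β x) ↔ Z x := fun x => by
    rw [hZ, hZ, β.surjective.forall]
    simp only [← map_mul, β.apply_eq_iff_eq]
  have p : ∀ x, x ^ 2 = 1 → β x ^ 2 = 1 := fun x h => by rw [← map_pow, h, map_one]
  have f1 : ∀ x, Z x → x ^ 2 = 1 → β x = x := fun x h t => by
    by_cases n : x = 1
    · simp [n]
    exact z _ _ ((b x).2 h) h (p x t) t (by simpa) n
  have m' : ∀ x y, A x → A y → A (x⁻¹ * y) := fun x y u v => (hA _).2 fun h t =>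
    (Commute.mul_right (Commute.inv_right ((hA _).1 u h t)) ((hA _).1 v h t))
  have q : ∀ x, A x → β (x ^ 2) = x ^ 2 → (x⁻¹ * β x) ^ 2 = 1 := fun x h t => by
    rw [(Commute.inv_left (c _ _ h ((a x).2 h))).mul_pow, ← map_pow, t, inv_pow, inv_mul_cancel]
  have f2 : ∀ x, A x → x ^ 2 = 1 → β x = x := fun x h t => by
    by_cases n : Z x
    · exact f1 x n t
    refine s x (f1 _ ?_ (q x h (by rw [t, map_one])))
    rw [inv_eq_of_mul_eq_one_left ((sq x).symm.trans t)]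
    exact o _ _ h ((a x).2 h) t (p x t) n (mt (b x).1 n)
  have f3 : ∀ n x, A x → x ^ 2 ^ n = 1 → β x = x := fun n => by
    induction n with
    | zero => exact fun x _ h => by simp [show x = 1 by simpa using h]
    | succ n ih => exact fun x h t => s x (f2 _ (m' _ _ h ((a x).2 h)) (q x h (ih _ ((hA _).2 fun g u =>
        Commute.pow_right ((hA _).1 h g u) 2) (by rw [← pow_mul, ← pow_succ', t]))))
  have f4 : ∀ x, A x → β x = x := fun x h => (hG x).elim fun n => f3 n x h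
  ext x
  by_cases h : A x
  exacts [f4 x h, s x (f4 _ (i _ _ h (mt (a x).1 h)))]

/-- The matrices in the group. -/
def P {F : Type*} [Field F] (M : Matrix (Fin 2) (Fin 2) F) : Prop := ∃ a s : F, a ≠ 0 ∧ (s = 1 ∨ s = -1) ∧
  (M = !![a, 0; 0, s * a⁻¹] ∨ M = !![0, s * a⁻¹; a, 0])

instance decP {F : Type*} [Field F] [Fintype F] [DecidableEq F] : DecidablePred (P (F := F)) := fun _ => by
  unfold P; infer_instance

theorem aut {G F : Type*} [Group G] [Finite G] [Field F] (μ : G →* Matrix (Fin 2) (Fin 2) F) (j : Function.Injective μ)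
    (h : ∀ M, (∃ g, μ g = M) ↔ P M) (m r : ℕ) (hm : ∀ a : F, a ≠ 0 → a ^ 2 ^ m = 1) (A Z : Matrix (Fin 2) (Fin 2) F → Prop)
    (hA : ∀ x, P x → (A x ↔ ∀ h, P h → h ^ r ≠ 1 → h * x = x * h)) (hZ : ∀ x, P x → (Z x ↔ ∀ h, P h → h * x = x * h))
    (c : ∀ x, P x → ∀ y, P y → A x → A y → x * y = y * x) (i : ∀ x, P x → ∀ y, P y → ¬ A x → ¬ A (x * y) → A y)
    (z : ∀ x, P x → ∀ y, P y → Z x → Z y → x ^ 2 = 1 → y ^ 2 = 1 → x ≠ 1 → y ≠ 1 → x = y)
    (o : ∀ x, P x → ∀ y, P y → A x → A y → x ^ 2 = 1 → y ^ 2 = 1 → ¬ Z x → ¬ Z y → Z (x * y)) : IsPGroup 2 (MulAut G) := by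
  have p : ∀ g, P (μ g) := fun g => (h _).1 ⟨g, rfl⟩
  have e : ∀ g k, μ g ^ k = 1 ↔ g ^ k = 1 := fun g k => by rw [← map_pow, map_eq_one_iff μ j]
  refine aut2 (fun g => ⟨m + 2, (e _ _).1 ?_⟩) r (fun g => A (μ g)) (fun g => Z (μ g)) (fun x => ?_) (fun x => ?_)
    (fun x y a b => j (by simpa using c _ (p x) _ (p y) a b)) (fun x y a b => i _ (p x) _ (p _) a (by simpa [← map_mul]))
    (fun x y a b u v s t => j (z _ (p x) _ (p y) a b ((e _ _).2 u) ((e _ _).2 v) ((map_ne_one_iff μ j).2 s)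
      ((map_ne_one_iff μ j).2 t))) fun x y a b u v s t => by
        simpa using o _ (p x) _ (p y) a b ((e _ _).2 u) ((e _ _).2 v) s t
  · obtain ⟨a, s, a0, hs, t | t⟩ := p g <;> rw [t]
    · have s2 : s ^ 2 = 1 := sq_eq_one_iff.2 hs
      rw [show !![a, 0; 0, s * a⁻¹] = diagonal ![a, s * a⁻¹] by ext i j; fin_cases i <;> fin_cases j <;> simp, diagonal_pow,
        ← diagonal_one]
      congr 1
      ext i
      fin_cases i
      · simp [pow_add, pow_mul, hm a a0]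
      · simp [mul_pow, pow_succ 2, pow_mul, hm a a0, pow_right_comm s _ 2, s2]
    · rw [pow_add, pow_mul', show !![0, s * a⁻¹; a, 0] ^ 2 ^ 2 = 1 by
        rcases hs with rfl | rfl <;> simp [pow_succ, a0, one_fin_two], one_pow]
  · simp only [hA _ (p x), ← h, forall_exists_index, forall_apply_eq_imp_iff, ne_eq, e, ← map_mul, j.eq_iff]
  · simp only [hZ _ (p x), ← h, forall_exists_index, forall_apply_eq_imp_iff, ← map_mul, j.eq_iff]

set_option synthInstance.maxSize 2000 in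
/-- Let q = 2^m + 1 be a prime other than 5. Then the automorphism group of the group of linear maps of F_q² of the forms (x, y) ↦ (a x, ± a⁻¹ y) and (x, y) ↦ (± a⁻¹ y, a x) with a ≠ 0 is itself a 2-group. -/
theorem result (q m : ℕ) [Fact q.Prime] (hq : q = 2 ^ m + 1) (hq5 : q ≠ 5)
    (T : Subgroup ((Fin 2 → ZMod q) ≃ₗ[ZMod q] (Fin 2 → ZMod q)))
    (hT : ∀ f, f ∈ T ↔ ∃ a s : ZMod q, a ≠ 0 ∧ (s = 1 ∨ s = -1) ∧
      ((∀ v, f v = ![a * v 0, s * a⁻¹ * v 1]) ∨ (∀ v, f v = ![s * a⁻¹ * v 1, a * v 0]))) :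
    IsPGroup 2 (MulAut T) := by
  rename_i inst
  let μ : T →* Matrix (Fin 2) (Fin 2) (ZMod q) := (LinearMap.toMatrixAlgEquiv' (R := ZMod q)).toMonoidHom.comp
    ((LinearEquiv.automorphismGroup.toLinearMapMonoidHom).comp T.subtype)
  have j : Function.Injective μ := fun f g e => Subtype.ext (LinearEquiv.toLinearMap_injective
    (LinearMap.toMatrixAlgEquiv'.injective e))
  have v : ∀ g w, μ g *ᵥ w = g.1 w := fun g w => LinearMap.toMatrix'_mulVec g.1.toLinearMap w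
  have h : ∀ M, (∃ g, μ g = M) ↔ P M := fun M => by
    refine ⟨?_, fun ⟨a, s, a0, hs, t⟩ => ?_⟩
    · rintro ⟨g, rfl⟩
      obtain ⟨a, s, a0, hs, t⟩ := (hT _).1 g.2
      exact ⟨a, s, a0, hs, t.imp (fun t => toLin'.injective (LinearMap.ext fun w => by simp [v, t, vecHead, vecTail]))
        fun t => toLin'.injective (LinearMap.ext fun w => by simp [v, t, vecHead, vecTail])⟩
    · have d : IsUnit M.det := by rcases t with rfl | rfl <;> rcases hs with rfl | rfl <;> simp [a0]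
      refine ⟨⟨M.toLinearEquiv' (M.invertibleOfIsUnitDet d), (hT _).2 ⟨a, s, a0, hs, t.imp ?_ ?_⟩⟩, LinearMap.toMatrix'_toLin' M⟩ <;>
        rintro rfl w <;> change _ *ᵥ w = _ <;> ext i <;> fin_cases i <;> simp [vecHead, vecTail]
  haveI : Finite T := Finite.of_injective _ j
  have hm : ∀ a : ZMod q, a ≠ 0 → a ^ 2 ^ m = 1 := fun a n => by simpa [hq] using ZMod.pow_card_sub_one_eq_one n
  obtain rfl | rfl | rfl | h3 : m = 0 ∨ m = 1 ∨ m = 2 ∨ 3 ≤ m := by omega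
  · obtain rfl : q = 2 := hq
    obtain rfl : inst = Nat.fact_prime_two := rfl
    refine aut μ j h _ 2 hm (fun _ => True) (fun _ => True) ?_ ?_ ?_ ?_ ?_ ?_ <;> decide +kernel
  · obtain rfl : q = 3 := hq
    obtain rfl : inst = Nat.fact_prime_three := rfl
    refine aut μ j h _ 2 hm (fun M => M.det = 1) (fun M => M = 1 ∨ M = -1) ?_ ?_ ?_ ?_ ?_ ?_ <;> decide +kernel
  · exact absurd hq hq5
  obtain ⟨g, hg⟩ := IsCyclic.exists_ofOrder_eq_natCard (α := (ZMod q)ˣ)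
  have g4 : (g : ZMod q) ^ 4 ≠ 1 := fun e => by
    have := Nat.le_of_dvd four_pos (orderOf_dvd_of_pow_eq_one (Units.ext e : g ^ 4 = 1))
    have := Nat.pow_le_pow_right two_pos h3
    rw [hg, Nat.card_eq_fintype_card, ZMod.card_units] at *
    omega
  have g0 := g.ne_zero
  generalize (g : ZMod q) = g at *
  have h2 : (2 : ZMod q) ≠ 0 := fun e => by
    have := Nat.le_of_dvd two_pos ((ZMod.natCast_eq_zero_iff 2 q).1 e)
    have := Nat.pow_le_pow_right two_pos h3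
    omega
  have p1 : P !![g, 0; 0, 1 * g⁻¹] := ⟨g, 1, g0, .inl rfl, .inl rfl⟩
  have p2 : P !![0, 1 * (1 : ZMod q)⁻¹; 1, 0] := ⟨1, 1, one_ne_zero, .inl rfl, .inr rfl⟩
  refine aut μ j h _ 4 hm (fun M => M 0 1 = 0) (fun M => M 0 1 = 0 ∧ M 0 0 = M 1 1) ?_ ?_ ?_ ?_ ?_ ?_
  · rintro _ ⟨a, s, a0, hs, rfl | rfl⟩
    · refine iff_of_true rfl ?_
      rintro _ ⟨b, t, b0, ht, rfl | rfl⟩ n
      · simp [mul_comm]
      · exact absurd (by rcases ht with rfl | rfl <;> simp [pow_succ, b0, one_fin_two]) n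
    · refine iff_of_false (by rcases hs with rfl | rfl <;> simpa) fun k => g4 ?_
      have := congrFun (congrFun (k _ p1 fun e => g4 (by simpa [pow_succ] using congrFun (congrFun e 0) 0)) 1) 0
      simp [mul_comm a, a0] at this
      grind
  · rintro _ ⟨a, s, a0, hs, rfl | rfl⟩
    · refine ⟨fun ⟨_, e⟩ => ?_, fun k => ⟨rfl, by simpa using congrFun (congrFun (k _ p2) 1) 0⟩⟩
      obtain e : a = s * a⁻¹ := e
      rw [← e]
      rintro _ ⟨b, t, b0, ht, rfl | rfl⟩ <;> simp [mul_comm]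
    · refine iff_of_false (by rcases hs with rfl | rfl <;> simp [a0]) fun k => g4 ?_
      have := congrFun (congrFun (k _ p1) 1) 0
      simp [mul_comm a, a0] at this
      grind
  all_goals
    rintro _ ⟨a, s, a0, rfl | rfl, rfl | rfl⟩ _ ⟨b, t, b0, rfl | rfl, rfl | rfl⟩ <;>
      simp [a0, b0, mul_comm, pow_two, one_fin_two] <;> grind

end Cfsg.Agent.S3382
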