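import Cfsg.Statements.S3383
import Cfsg.Agent.H1.Frob

set_option autoImplicit false
open Cfsg

namespace Cfsg.Agent.S3383
open CfsgH3
open Subgroup CfsgH2

/-- Let H be a Frobenius complement in a finite group L and K the Frobenius kernel (as a subgroup). Then K is characteristic in L, and every normal subgroup of L either contains K or is contained in K. -/
theorem result {L : Type*} [Group L] [Finite L]
    (H : Subgroup L) (hH : Cfsg.IsFrobeniusComplement H)
    (K : Subgroup L) (hK : (K : Set L) = Cfsg.frobeniusKernel H) :
    K.Characteristic ∧ ∀ N : Subgroup L, N.Normal → K ≤ N ∨ N ≤ K := by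
  obtain ⟨K', h⟩ := CfsgH1.exists_frob hH
  obtain rfl : K = K' := SetLike.coe_injective (hK.trans h.kernel_eq)
  refine ⟨characteristic_iff_le_comap.2 fun φ x hx => h.mem_ker_of_coprime (mem_top _) ?_, fun N hN =>
    (h.le_or_le le_top le_normalizer_of_normal).symm⟩
  rw [MulEquiv.coe_toMonoidHom, MulEquiv.orderOf_eq]
  exact h.coprime.symm.coprime_dvd_left (K.orderOf_dvd_natCard hx)


end Cfsg.Agent.S3383
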