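import Cfsg.Statements.S3419
import Mathlib
import Cfsg.Agent.H9.AltSp

set_option autoImplicit false
open Cfsg

namespace Cfsg.Agent.S3419

/-- Let n ≥ 5 and let G be a finite group with the same order and the same set of element orders as the alternating group of degree n. Then G is not solvable. -/
theorem result {G : Type*} [Group G] [Finite G] (n : ℕ) (hn : 5 ≤ n)
    (hcard : Nat.card G = Nat.card ↥(alternatingGroup (Fin n)))
    (hspec : Set.range (orderOf : G → ℕ) = Set.range (orderOf : ↥(alternatingGroup (Fin n)) → ℕ)) :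
    ¬ Group.IsSolvable G := by
  open Subgroup Cfsg CfsgH2 Function in
  open scoped commutatorElement in
  have h2 := CfsgAS.two_mul_card (by omega) hcard
  by_cases h11 : 11 ≤ n
  · obtain ⟨p, q, hp, hq, h3, h4, h5⟩ := CfsgAS.two_primes h11
    have o1 := hp.eq_two_or_odd
    have o2 := hq.eq_two_or_odd
    refine CfsgAS.not_solvable hp hq (by omega) (CfsgAS.dvd_of_le h2 hp (by omega) h5)
      (CfsgAS.not_sq_dvd h2 hp (by omega)) (CfsgAS.dvd_of_le h2 hq (by omega) (by omega))
      (fun h => CfsgAS.not_sq_dvd h2 hq h4 ((pow_dvd_pow q (by omega)).trans h))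
      (CfsgAS.not_dvd_pred hp hq h4 h5 hn (by omega)) ?_ ?_
      (CfsgAS.spec_no hspec hp hq (by omega) (by omega))
    · intro h
      have := Nat.le_of_dvd (by omega) ((Nat.modEq_iff_dvd' (by omega)).1 h.symm)
      omega
    · intro h
      have h6 := (Nat.modEq_iff_dvd' (Nat.one_le_pow _ _ hq.pos)).1 h.symm
      have e : q ^ 2 - 1 = (q + 1) * (q - 1) := by
        have := Nat.sq_sub_sq q 1
        rwa [one_pow] at this
      rw [e] at h6
      rcases (Nat.Prime.dvd_mul hp).1 h6 with h7 | h7
      · have := Nat.le_of_dvd (by omega) h7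
        omega
      · have := Nat.le_of_dvd (by omega) h7
        omega
  by_cases h7 : 7 ≤ n
  · have hp : Nat.Prime 7 := by norm_num
    have hq : Nat.Prime 5 := by norm_num
    refine CfsgAS.not_solvable hp hq (by omega) (CfsgAS.dvd_of_le h2 hp (by omega) h7)
      (CfsgAS.not_sq_dvd h2 hp (by omega)) (CfsgAS.dvd_of_le h2 hq (by omega) (by omega))
      (fun h => ?_) (by decide) (by decide) (by decide)
      (CfsgAS.spec_no hspec hp hq (by omega) (by omega))
    have h8 : 5 ^ 3 ∣ n.factorial := h2 ▸ h.mul_left 2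
    exact absurd (h8.trans (Nat.factorial_dvd_factorial (by omega : n ≤ 10))) (by decide)
  · have hp : Nat.Prime 5 := by norm_num
    have hq : Nat.Prime 3 := by norm_num
    refine CfsgAS.not_solvable hp hq (by omega) (CfsgAS.dvd_of_le h2 hp (by omega) hn)
      (CfsgAS.not_sq_dvd h2 hp (by omega)) (CfsgAS.dvd_of_le h2 hq (by omega) (by omega))
      (fun h => ?_) (by decide) (by decide) (by decide)
      (CfsgAS.spec_no hspec hp hq (by omega) (by omega))
    have h8 : 3 ^ 3 ∣ n.factorial := h2 ▸ h.mul_left 2
    exact absurd (h8.trans (Nat.factorial_dvd_factorial (by omega : n ≤ 6))) (by decide)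

end Cfsg.Agent.S3419
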