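import Cfsg.Statements.S3420
import Mathlib
import Cfsg.Agent.H9.AltSp

set_option autoImplicit false
open Cfsg

namespace Cfsg.Agent.S3420

/-- Let n ≥ 11 and let G be a finite group with the same order and the same set of element orders as the alternating group of degree n. Then G has normal subgroups N < H such that H/N is a non-abelian simple group whose order is divisible by every prime p with n/2 < p ≤ n. -/
theorem result {G : Type*} [Group G] [Finite G] (n : ℕ) (hn : 11 ≤ n)
    (hcard : Nat.card G = Nat.card ↥(alternatingGroup (Fin n)))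
    (hspec : Set.range (orderOf : G → ℕ) = Set.range (orderOf : ↥(alternatingGroup (Fin n)) → ℕ)) :
    ∃ (N H : Subgroup G) (_ : N.Normal), H.Normal ∧ N < H ∧
      IsSimpleGroup (↥H ⧸ N.subgroupOf H) ∧ ¬ IsMulCommutative (↥H ⧸ N.subgroupOf H) ∧
      ∀ p : ℕ, p.Prime → n < 2 * p → p ≤ n → p ∣ Nat.card (↥H ⧸ N.subgroupOf H) := by
  open Subgroup Cfsg CfsgH2 Function in
  open scoped commutatorElement in
  have h2 := CfsgAS.two_mul_card (by omega) hcard
  obtain ⟨p, q, hp, hq, h3, h4, h5⟩ := CfsgAS.two_primes hn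
  have key : ∀ a b : ℕ, a.Prime → b.Prime → n < 2 * a → a ≤ n → n < 2 * b → b ≤ n →
      ∀ H : Subgroup G, H.Normal → a ∣ o[H] → b ∣ o[H] := by
    intro a b ha hb a1 a2 b1 b2 H hH hd
    by_cases e : a = b
    · exact e ▸ hd
    · exact CfsgAS.dvd_of_normal ha hb e (CfsgAS.not_sq_dvd h2 ha a1)
        (CfsgAS.dvd_of_le h2 hb (by omega) b2) (CfsgAS.not_dvd_pred ha hb b1 a2 (by omega) a1)
        (CfsgAS.spec_no hspec ha hb e (by omega)) H hd
  obtain ⟨N, H, hN, hH, hlt, h6, h7, h8⟩ := CfsgAS.exists_section hp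
    (CfsgAS.dvd_of_le h2 hp (by omega) h5) (CfsgAS.not_sq_dvd h2 hp (by omega))
  have hall : ∀ r : ℕ, r.Prime → n < 2 * r → r ≤ n → r ∣ Nat.card (↥H ⧸ N.subgroupOf H) := by
    intro r hr r1 r2
    have e := card_eq_card_quotient_mul_card_subgroup (N.subgroupOf H)
    rw [card_subgroupOf hlt.le] at e
    have h9 := key p r hp hr (by omega) h5 r1 r2 H hH h6
    rw [e] at h9
    refine ((Nat.Prime.dvd_mul hr).1 h9).resolve_right fun h => h7 ?_
    exact key r p hr hp r1 r2 (by omega) h5 N hN h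
  refine ⟨N, H, hN, hH, hlt, h8, fun hc => ?_, hall⟩
  letI : CommGroup (↥H ⧸ N.subgroupOf H) := { mul_comm := hc.1.1 }
  have h9 : (Nat.card (↥H ⧸ N.subgroupOf H)).Prime := IsSimpleGroup.prime_card
  have e1 := (Nat.prime_dvd_prime_iff_eq hp h9).1 (hall p hp (by omega) h5)
  have e2 := (Nat.prime_dvd_prime_iff_eq hq h9).1 (hall q hq h4 (by omega))
  omega

end Cfsg.Agent.S3420
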