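import Mathlib
import Cfsg.Statements.S3430
import Cfsg.Agent.H8.Zsig2

set_option autoImplicit false
open Cfsg

namespace Cfsg.Agent.S3430

theorem key (q n m : ℕ) (hq : 2 ≤ q) (hn : 2 ≤ n) (h1 : m ∣ q ^ n - 1)
    (h2 : ∀ i : ℕ, 1 ≤ i → i < n → Nat.Coprime m (q ^ i - 1)) (h3 : n + 1 < m) :
    ∃ p : ℕ, p.Prime ∧ p ∣ q ^ n - 1 ∧ (∀ i : ℕ, 1 ≤ i → i < n → ¬ p ∣ q ^ i - 1) ∧ (n + 1 < p ∨ p ^ 2 ∣ q ^ n - 1) := by
  by_contra! H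
  have h4 : ∀ p, p.Prime → p ∣ m → p = n + 1 ∧ ¬ p ^ 2 ∣ m := by
    intro p hp hm
    have h5 : ∀ i : ℕ, 1 ≤ i → i < n → ¬ p ∣ q ^ i - 1 := fun i a b c =>
      hp.ne_one (Nat.dvd_one.1 ((h2 i a b).gcd_eq_one ▸ Nat.dvd_gcd hm c))
    obtain ⟨h6, h7⟩ := H p hp (hm.trans h1) h5
    refine ⟨le_antisymm h6 ?_, fun h => h7 (h.trans h1)⟩
    have o1 := (CfsgH8.dvd_iff_ord (by omega)).1 (hm.trans h1)
    have o2 : 0 < orderOf (q : ZMod p) := Nat.pos_of_dvd_of_pos o1 (by omega)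
    have o3 : n ≤ orderOf (q : ZMod p) := by
      by_contra h
      exact h5 _ o2 (by omega) ((CfsgH8.dvd_iff_ord (by omega)).2 dvd_rfl)
    have := Nat.le_of_dvd (by have := hp.two_le; omega) (CfsgH8.ord_dvd_sub hp o2)
    have := hp.two_le
    omega
  obtain ⟨p, hp, c, rfl⟩ := Nat.exists_prime_and_dvd (show m ≠ 1 by omega)
  obtain ⟨rfl, h5⟩ := h4 p hp (Dvd.intro _ rfl)
  obtain ⟨s, hs, d, rfl⟩ := Nat.exists_prime_and_dvd (show c ≠ 1 by rintro rfl; omega)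
  obtain ⟨rfl, -⟩ := h4 s hs ⟨(n + 1) * d, by ring⟩
  exact h5 ⟨d, by ring⟩

/-- Let q, n ≥ 2 be integers. Unless (n = 2 and q + 1 = 2^s·3^t for some s ≥ 0 and t ≤ 1), or (q = 2 and n ∈ {4, 6, 10, 12, 18}), or (q = 3 and n ∈ {4, 6}), or (q, n) = (5, 6), there is a prime p dividing q^n − 1 but no q^i − 1 with 1 ≤ i < n (a primitive prime divisor), such that p > n + 1 or p² divides q^n − 1. -/
theorem result (q n : ℕ) (hq : 2 ≤ q) (hn : 2 ≤ n)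
    (h1 : ¬ (n = 2 ∧ ∃ s t : ℕ, t ≤ 1 ∧ q + 1 = 2 ^ s * 3 ^ t))
    (h2 : ¬ (q = 2 ∧ (n = 4 ∨ n = 6 ∨ n = 10 ∨ n = 12 ∨ n = 18)))
    (h3 : ¬ (q = 3 ∧ (n = 4 ∨ n = 6))) (h4 : ¬ (q = 5 ∧ n = 6)) :
    ∃ p : ℕ, p.Prime ∧ p ∣ q ^ n - 1 ∧ (∀ i : ℕ, 1 ≤ i → i < n → ¬ p ∣ q ^ i - 1) ∧ (n + 1 < p ∨ p ^ 2 ∣ q ^ n - 1) := by
  rcases (by omega : n = 2 ∨ 3 ≤ n) with rfl | h3n
  · obtain ⟨s, m, hm, e⟩ := Nat.exists_eq_two_pow_mul_odd (show q + 1 ≠ 0 by omega)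
    apply key q 2 m hq hn
    · rw [show q ^ 2 - 1 = (q + 1) * (q - 1) from Nat.sq_sub_sq q 1, e]
      exact ⟨2 ^ s * (q - 1), by ring⟩
    · intro i a b
      obtain rfl : i = 1 := by omega
      apply Nat.coprime_of_dvd
      intro p hp c d
      have h5 : p ∣ q + 1 := e ▸ c.mul_left _
      rw [pow_one] at d
      have h6 := Nat.dvd_sub h5 d
      rw [show q + 1 - (q - 1) = 2 by omega, Nat.prime_dvd_prime_iff_eq hp Nat.prime_two] at h6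
      subst h6
      obtain ⟨t, ht⟩ := hm
      omega
    · by_contra h
      obtain ⟨t, ht⟩ := hm
      rcases (by omega : m = 1 ∨ m = 3) with rfl | rfl
      · exact h1 ⟨rfl, s, 0, by omega, by simpa using e⟩
      · exact h1 ⟨rfl, s, 1, by omega, by simpa using e⟩
  by_cases hx : (q, n) ∈ CfsgH8.exc
  · simp only [CfsgH8.exc, List.mem_cons, Prod.mk.injEq, List.not_mem_nil, or_false] at hx
    have : (q = 2 ∧ n = 3) ∨ (q = 2 ∧ n = 8) ∨ (q = 2 ∧ n = 20) ∨ (q = 4 ∧ n = 3) ∨ (q = 4 ∧ n = 6) := by omega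
    rcases this with ⟨rfl, rfl⟩ | ⟨rfl, rfl⟩ | ⟨rfl, rfl⟩ | ⟨rfl, rfl⟩ | ⟨rfl, rfl⟩
    · exact key 2 3 7 hq hn (by norm_num) (CfsgH8.cop_PP.1 (by decide +kernel)) (by norm_num)
    · exact key 2 8 17 hq hn (by norm_num) (CfsgH8.cop_PP.1 (by decide +kernel)) (by norm_num)
    · exact key 2 20 41 hq hn (by norm_num) (CfsgH8.cop_PP.1 (by decide +kernel)) (by norm_num)
    · exact key 4 3 7 hq hn (by norm_num) (CfsgH8.cop_PP.1 (by decide +kernel)) (by norm_num)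
    · exact key 4 6 13 hq hn (by norm_num) (CfsgH8.cop_PP.1 (by decide +kernel)) (by norm_num)
  · obtain ⟨m, a, b, c⟩ := CfsgH8.prim_big hq h3n hx
    exact key q n m hq hn a b (by omega)

end Cfsg.Agent.S3430
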