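import Cfsg.Statements.S3704
import Cfsg.Agent.H3.Hv1
import Cfsg.Agent.H3.More
import Cfsg.Agent.S0157

set_option autoImplicit false
open Cfsg

namespace Cfsg.Agent.S3704
open MulAction CfsgH3

/-- Let G be a finite group acting faithfully and 2-transitively on a finite set Ω of size n, and let H be a subgroup of index n in G which is not transitive on Ω and fixes no point of Ω. Then H has exactly two orbits on Ω. -/
theorem result {G Ω : Type*} [Group G] [Finite G] [MulAction G Ω] [FaithfulSMul G Ω] [Finite Ω] (h2 : MulAction.IsMultiplyPretransitive G Ω 2) (H : Subgroup G) (hidx : H.index = Nat.card Ω) (hnt : ¬ MulAction.IsPretransitive H Ω) (hfix : ∀ a : Ω, ∃ h : H, h • a ≠ a) : Nat.card (MulAction.orbitRel.Quotient H Ω) = 2 := by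
  classical
  have := Fintype.ofFinite G
  have n2 : 2 ≤ Nat.card Ω := by
    by_contra h
    haveI := Finite.card_le_one_iff_subsingleton.1 (show Nat.card Ω ≤ 1 by omega)
    exact hnt ⟨fun a b => ⟨1, Subsingleton.elim _ _⟩⟩
  haveI : IsPretransitive G Ω := isPretransitive_of_is_two_pretransitive
  have hχ := (Cfsg.Agent.S0157.result Ω n2).2 h2
  set χ := fun g : G => (Nat.card (fixedBy Ω g) : ℂ) - 1
  have hψ := (isCharacter_one (G := H)).ind
  obtain ⟨m, hm⟩ := hψ.exists_nat_classInner hχ.isCharacter
  have e1 : classInner (indFun H fun _ => 1) (fun _ => 1) = ((1 : ℕ) : ℂ) := by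
    rw [classInner_indFun_left _ (isClassFunction_const 1)]; simpa using isIrr_one.classInner_self
  have ne : (fun _ => 1) ≠ χ := fun e => by
    have := (isCharacter_fixedBy (G := G) Ω)
    have a := classInner_fixedBy_one (G := G) Ω
    haveI : Nonempty Ω := (Nat.card_pos_iff.1 (by omega)).1
    haveI : Unique (Quotient (orbitRel G Ω)) :=
      (pretransitive_iff_unique_quotient_of_nonempty G Ω).1 inferInstance |>.some
    have b : classInner χ (fun _ => 1) = 0 :=
      (classInner_sub_left _ (fun _ => 1) _).trans (by rw [a, Nat.card_unique, isIrr_one.classInner_self]; simp)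
    rw [← e, isIrr_one.classInner_self] at b
    exact one_ne_zero b
  have c1 := hψ.sub_constituent isIrr_one e1 le_rfl
  have c2 := c1.sub_constituent hχ (n := m) (by
    rw [classInner_sub_left, classInner_smul_left, hm, isIrr_one.classInner_of_ne hχ ne]; simp) le_rfl
  obtain ⟨r, hr⟩ := c2.exists_nat_apply_one
  simp only [Pi.sub_apply, Pi.smul_apply, indFun_apply_one, hidx, χ, fixedBy_one_eq_univ, Nat.card_univ,
    smul_eq_mul] at hr
  have e2 : (Nat.card (orbitRel.Quotient H Ω) : ℂ) = m + 1 := by
    have a := (classInner_fixedBy_one (G := H) Ω).symm.trans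
      (classInner_indFun_right (H := H) (fun _ => 1) (isCharacter_fixedBy (G := G) Ω).isClassFunction).symm
    rw [show (fun g : G => (Nat.card (fixedBy Ω g) : ℂ)) = χ + fun _ => 1 by ext; simp [χ], classInner_add_left,
      hχ.isCharacter.classInner_comm hψ, isCharacter_one.classInner_comm hψ, hm, e1] at a
    simpa using a
  have e3 : Nat.card (orbitRel.Quotient H Ω) = m + 1 := by exact_mod_cast e2
  have e4 : Nat.card Ω + m = r + 1 + m * Nat.card Ω := by
    apply Nat.cast_injective (R := ℂ); push_cast at hr ⊢; linear_combination hr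
  have m0 : m ≠ 0 := fun e => hnt ((pretransitive_iff_subsingleton_quotient _ _).2
    (Nat.card_eq_one_iff_unique.1 (by rw [e3, e])).1)
  have : m ≤ 1 := by nlinarith
  omega


end Cfsg.Agent.S3704
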