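import Mathlib
import Cfsg.Statements.S3707

set_option autoImplicit false
open Cfsg

namespace Cfsg.Agent.S3707

open MulAction
open scoped Pointwise

def J (G : Type*) {Ω : Type*} [Group G] [MulAction G Ω] (A : Set Ω) : Prop :=
  ∀ x ∈ A, ∀ y ∈ A, ∃ g : G, (∀ z ∉ A, g • z = z) ∧ g • x = y

theorem J_smul {G Ω : Type*} [Group G] [MulAction G Ω] {A : Set Ω} (h : J G A) (g : G) : J G (g • A) := by
  rintro _ ⟨x, hx, rfl⟩ _ ⟨y, hy, rfl⟩
  obtain ⟨k, h1, h2⟩ := h x hx y hy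
  refine ⟨g * k * g⁻¹, fun z hz => ?_, by simp [mul_smul, h2]⟩
  rw [Set.mem_smul_set_iff_inv_smul_mem] at hz
  simp [mul_smul, h1 _ hz]

theorem J_union {G Ω : Type*} [Group G] [MulAction G Ω] {A B : Set Ω} (hA : J G A) (hB : J G B)
    (h : (A ∩ B).Nonempty) : J G (A ∪ B) := by
  obtain ⟨c, hc1, hc2⟩ := h
  have key : ∀ x ∈ A ∪ B, ∃ g : G, (∀ z ∉ A ∪ B, g • z = z) ∧ g • x = c := by
    rintro x (hx | hx)
    · obtain ⟨g, h1, h2⟩ := hA x hx c hc1
      exact ⟨g, fun z hz => h1 z fun h => hz (Or.inl h), h2⟩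
    · obtain ⟨g, h1, h2⟩ := hB x hx c hc2
      exact ⟨g, fun z hz => h1 z fun h => hz (Or.inr h), h2⟩
  intro x hx y hy
  obtain ⟨g, h1, h2⟩ := key x hx
  obtain ⟨k, h3, h4⟩ := key y hy
  exact ⟨k⁻¹ * g, fun z hz => by rw [mul_smul, h1 z hz, inv_smul_eq_iff, h3 z hz], by rw [mul_smul, h2, ← h4, inv_smul_smul]⟩

/-- Let G be a finite primitive permutation group on Ω of degree n and Γ ⊂ Ω a subset with 1 < #Γ ≤ n/2 such that the pointwise stabilizer of Ω ∖ Γ is transitive on Γ. Then G is 3-transitive on Ω. -/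
theorem result {G Ω : Type*} [Group G] [Finite G] [MulAction G Ω] [FaithfulSMul G Ω] [Finite Ω] (hprim : MulAction.IsPreprimitive G Ω) (Γ : Set Ω) (h1 : 1 < Γ.ncard) (h2 : 2 * Γ.ncard ≤ Nat.card Ω) (htr : ∀ x ∈ Γ, ∀ y ∈ Γ, ∃ g : G, (∀ z ∉ Γ, g • z = z) ∧ g • x = y) : MulAction.IsMultiplyPretransitive G Ω 3 := by
  classical
  have hc := Set.ncard_add_ncard_compl Γ
  have h2t : IsMultiplyPretransitive G Ω 2 := by
    refine hprim.is_two_pretransitive (s := Γᶜ) (n := Γᶜ.ncard - 1) (by omega) (by omega) ⟨?_⟩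
    rintro ⟨x, hx⟩ ⟨y, hy⟩
    obtain ⟨g, h1, h2⟩ := htr x (not_not.1 hx) y (not_not.1 hy)
    exact ⟨⟨g, (mem_fixingSubgroup_iff G).2 h1⟩, Subtype.ext h2⟩
  rw [is_two_pretransitive_iff] at h2t
  obtain ⟨M, ⟨hM, hMn⟩, hmax⟩ := Set.exists_max_image {A : Set Ω | J G A ∧ A.ncard + 2 ≤ Nat.card Ω} Set.ncard
    (Set.toFinite _) ⟨Γ, htr, by omega⟩
  have hΓM := hmax Γ ⟨htr, by omega⟩
  have hs : ∀ g : G, (g • M).ncard = M.ncard := fun g => Set.ncard_smul_set g M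
  have hU : ∀ g h : G, (g • M ∩ h • M).Nonempty → (g • M ∪ h • M).ncard + 2 ≤ Nat.card Ω → g • M = h • M := by
    intro g h h3 h4
    have h5 := hmax _ ⟨J_union (J_smul hM g) (J_smul hM h) h3, h4⟩
    have e1 := Set.eq_of_subset_of_ncard_le (Set.subset_union_left (s := g • M) (t := h • M)) (by rw [hs]; exact h5)
    have e2 := Set.eq_of_subset_of_ncard_le (Set.subset_union_right (s := g • M) (t := h • M)) (by rw [hs]; exact h5)
    exact e1.trans e2.symm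
  have hcM := Set.ncard_add_ncard_compl M
  obtain ⟨a0, ha0, b0, hb0, hab0⟩ := (Set.one_lt_ncard (Set.toFinite Mᶜ)).1 (by omega)
  by_cases h3 : M.ncard + 2 = Nat.card Ω
  · have hMc : Mᶜ = {a0, b0} := (Set.eq_of_subset_of_ncard_le (Set.pair_subset ha0 hb0) (by rw [Set.ncard_pair hab0]; omega)).symm
    have key : ∀ x : Fin 3 ↪ Ω, ∃ g : G, g • x 0 = a0 ∧ g • x 1 = b0 ∧ g • x 2 ∈ M := by
      intro x
      obtain ⟨g, e1, e2⟩ := h2t (x.injective.ne (show (0 : Fin 3) ≠ 1 by decide)) hab0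
      refine ⟨g, e1, e2, ?_⟩
      by_contra h
      have : g • x 2 ∈ ({a0, b0} : Set Ω) := hMc ▸ h
      rw [← e1, ← e2] at this
      simp at this
    rw [isMultiplyPretransitive_iff]
    intro x y
    obtain ⟨g, e1, e2, e3⟩ := key x
    obtain ⟨k, f1, f2, f3⟩ := key y
    obtain ⟨j, j1, j2⟩ := hM _ e3 _ f3
    refine ⟨k⁻¹ * j * g, ?_⟩
    ext i
    rw [Function.Embedding.smul_apply, mul_smul, mul_smul, inv_smul_eq_iff]
    fin_cases i
    · change j • g • x 0 = k • y 0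
      rw [e1, f1, j1 a0 ha0]
    · change j • g • x 1 = k • y 1
      rw [e2, f2, j1 b0 hb0]
    · exact j2
  exfalso
  by_cases h4 : 2 * M.ncard + 1 ≤ Nat.card Ω
  · have hB : IsBlock G M := by
      rw [isBlock_iff_smul_eq_smul_of_nonempty]
      intro g h hne
      refine hU g h hne ?_
      have e1 := Set.ncard_union_add_ncard_inter (g • M) (h • M)
      have e2 := (Set.ncard_pos (Set.toFinite _)).2 hne
      rw [hs, hs] at e1
      omega
    rcases hprim.isTrivialBlock_of_isBlock hB with h | h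
    · have := Set.ncard_le_one_iff_subsingleton.2 h
      omega
    · exact ha0 (h ▸ Set.mem_univ a0)
  have uq : ∀ (g h : G) (a b : Ω), a ≠ b → a ∉ g • M → b ∉ g • M → a ∉ h • M → b ∉ h • M → g • M = h • M := by
    intro g h a b hab e1 e2 e3 e4
    have e5 : g • M ∪ h • M ⊆ {a, b}ᶜ := by
      rintro x hx (rfl | rfl)
      · exact hx.elim e1 e3
      · exact hx.elim e2 e4
    have e6 := Set.ncard_le_ncard e5
    have e7 := Set.ncard_add_ncard_compl ({a, b} : Set Ω)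
    rw [Set.ncard_pair hab] at e7
    refine hU g h ?_ (by omega)
    have e8 := Set.ncard_union_add_ncard_inter (g • M) (h • M)
    rw [hs, hs] at e8
    exact (Set.ncard_pos (Set.toFinite _)).1 (by omega)
  have ex : ∀ a b : Ω, a ≠ b → ∃ (g : G) (y : Ω), a ∉ g • M ∧ b ∉ g • M ∧ y ∉ g • M ∧ y ≠ a ∧ y ≠ b := by
    intro a b hab
    obtain ⟨g, e1, e2⟩ := h2t hab0 hab
    have e3 := Set.ncard_add_ncard_compl (g • M)
    rw [hs] at e3
    obtain ⟨y, hy, hy'⟩ := Set.exists_mem_notMem_of_ncard_lt_ncard (s := {a, b}) (t := (g • M)ᶜ) (by rw [Set.ncard_pair hab]; omega)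
    refine ⟨g, y, ?_, ?_, hy, fun h => hy' (Or.inl h), fun h => hy' (Or.inr h)⟩
    · rw [← e1, Set.smul_mem_smul_set_iff]; exact ha0
    · rw [← e2, Set.smul_mem_smul_set_iff]; exact hb0
  have sub : ∀ (g : G) (c y x : Ω), c ∉ Γ → y ∉ Γ → c ≠ y → c ∉ g • M → y ∉ g • M → x ∈ Γ → x ∉ g • M →
      ∀ x' ∈ Γ, x' ∉ g • M := by
    intro g c y x e1 e2 e3 e4 e5 e6 e7 x' hx'
    obtain ⟨j, j1, j2⟩ := htr x e6 x' hx'
    have e8 := uq (j * g) g c y e3 (by rw [← j1 c e1, mul_smul, Set.smul_mem_smul_set_iff]; exact e4)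
      (by rw [← j1 y e2, mul_smul, Set.smul_mem_smul_set_iff]; exact e5) e4 e5
    rw [← e8, ← j2, mul_smul, Set.smul_mem_smul_set_iff]
    exact e7
  obtain ⟨x, hx, x', hx', hxx⟩ := (Set.one_lt_ncard (Set.toFinite Γ)).1 h1
  have hne : ∀ c, c ∉ Γ → c ≠ x := fun c h h' => h (h' ▸ hx)
  choose! g y g1 g2 g3 g4 g5 using fun c (h : c ∉ Γ) => ex c x (hne c h)
  by_cases h5 : ∃ c, c ∉ Γ ∧ ∀ z ∈ Γ, z ∉ g c • M
  · obtain ⟨c, hc1, hc2⟩ := h5
    obtain ⟨c', hc'⟩ : (g c • M).Nonempty := (Set.ncard_pos (Set.toFinite _)).1 (by rw [hs]; omega)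
    have e1 : c' ∉ Γ := fun h => hc2 c' h hc'
    by_cases e2 : y c' ∈ Γ
    · have := uq (g c) (g c') x (y c') (g5 c' e1).symm (g2 c hc1) (hc2 _ e2) (g2 c' e1) (g3 c' e1)
      exact g1 c' e1 (this ▸ hc')
    · have e3 := sub (g c') c' (y c') x e1 e2 (g4 c' e1).symm (g1 c' e1) (g3 c' e1) hx (g2 c' e1)
      have := uq (g c) (g c') x x' hxx (g2 c hc1) (hc2 _ hx') (g2 c' e1) (e3 x' hx')
      exact g1 c' e1 (this ▸ hc')
  · push Not at h5
    have e1 : ∀ c, c ∉ Γ → ∀ d, d ∉ Γ → d ∉ g c • M → d = c := by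
      intro c hc d hd hd'
      by_contra h
      obtain ⟨z, hz, hz'⟩ := h5 c hc
      exact sub (g c) d c x hd hc h hd' (g1 c hc) hx (g2 c hc) z hz hz'
    have e2 := Set.ncard_le_ncard_of_injOn (s := Γᶜ) (t := Γ \ {x}) y
      (fun c hc => ⟨by_contra fun h => g4 c hc (e1 c hc _ h (g3 c hc)), g5 c hc⟩)
      (fun c hc d hd h => by
        have := uq (g c) (g d) x (y c) (g5 c hc).symm (g2 c hc) (g3 c hc) (g2 d hd) (h ▸ g3 d hd)
        exact e1 d hd c hc (this ▸ g1 c hc))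
    rw [Set.ncard_diff_singleton_of_mem hx] at e2
    omega

end Cfsg.Agent.S3707
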