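import Cfsg.Statements.S3733
import Cfsg.Agent.H1.Schmidt

set_option autoImplicit false
open Cfsg

namespace Cfsg.Agent.S3733

/-- Let A and V be subgroups of a finite group with V abelian and nontrivial and A normalizing V. Suppose a nonempty finite family of proper subgroups of A partitions A: every non-identity element of A lies in exactly one member. If the number of members minus one is coprime to the order of V, then some member B of the family has a non-identity fixed point on V, that is V ∩ C(B) ≠ 1. -/
theorem result {G : Type*} [Group G] [Finite G] (A V : Subgroup G) (hVab : IsMulCommutative V) (hV : V ≠ ⊥) (hAV : A ≤ Subgroup.normalizer (V : Set G)) (𝒜 : Finset (Subgroup G)) (hne : 𝒜.Nonempty) (hprop : ∀ B ∈ 𝒜, B < A) (hpart : ∀ a ∈ A, a ≠ 1 → ∃! B, B ∈ 𝒜 ∧ a ∈ B) (hk : (𝒜.card - 1).Coprime (Nat.card V)) : ∃ B ∈ 𝒜, V ⊓ Subgroup.centralizer (B : Set G) ≠ ⊥ := by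
  open Pointwise Subgroup CfsgH1 IsMulCommutative in
  open CfsgH2 hiding card_inf_mul_relIndex card_lt_of_lt card_lt_of_ne_top card_map_mul_card_inf_ker card_mul_relIndex card_subgroupOf card_sup_dvd card_sup_mul_card_inf exists_card_prime_le isNilpotent_map isNilpotent_of_le isPGroup_pCore isSolvable_map isSolvable_of_le le_pCore le_pPrimeCore relIndex_map_dvd in
  open scoped CfsgH2 in
  open scoped commutatorElement in
  · by_contra hc
    push Not at hc
    have h1 := partition_identity (V := V) 𝒜 (fun B hB => (hprop B hB).le) hpart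
    obtain ⟨B, hB⟩ := hne
    rw [Finset.sum_eq_zero fun B hB => nm_eq_zero ((hprop B hB).le.trans hAV) (hc B hB),
      nm_eq_zero hAV (eq_bot_iff.2 ((inf_le_inf_left _ (cent_anti (hprop B hB).le)).trans
        (hc B hB).le)), zero_add, zero_add] at h1
    refine hV (eq_bot_iff.2 fun x hx => ?_)
    have h2 : (𝒜.card - 1) • (Additive.ofMul ⟨x, hx⟩ : Additive V) = 0 := by
      have := DFunLike.congr_fun h1 (Additive.ofMul ⟨x, hx⟩)
      obtain ⟨k, hk⟩ := Nat.exists_eq_succ_of_ne_zero (Finset.card_pos.2 ⟨B, hB⟩).ne'
      rw [hk] at this ⊢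
      change Additive.ofMul (⟨x, hx⟩ : V) = (k + 1) • Additive.ofMul (⟨x, hx⟩ : V) at this
      rw [succ_nsmul] at this
      simpa using this
    exact congrArg (fun w : Additive V => ((Additive.toMul w : V) : G)) (eq_zero_of_smul_coprime hk h2)

end Cfsg.Agent.S3733
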