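import Cfsg.Statements.S3734
import Cfsg.Agent.H1.Schmidt

set_option autoImplicit false
open Cfsg

namespace Cfsg.Agent.S3734

/-- Let A and G be subgroups of a finite group with A abelian, A normalizing G and the orders of A and G coprime. Then G is generated by the fixed-point subgroups C_G(B) of those subgroups B of A for which A/B is cyclic (that is, A = ⟨B, a⟩ for some a), and [G, A] is generated by the commutator subgroups [C_G(B), A] over the same subgroups B. -/
theorem result {X : Type*} [Group X] [Finite X] (A G : Subgroup X) (hAab : IsMulCommutative A) (hAG : A ≤ Subgroup.normalizer (G : Set X)) (hcop : (Nat.card A).Coprime (Nat.card G)) : (⨆ B ∈ {B : Subgroup X | B ≤ A ∧ ∃ a ∈ A, B ⊔ Subgroup.zpowers a = A}, G ⊓ Subgroup.centralizer (B : Set X)) = G ∧ (⨆ B ∈ {B : Subgroup X | B ≤ A ∧ ∃ a ∈ A, B ⊔ Subgroup.zpowers a = A}, ⁅G ⊓ Subgroup.centralizer (B : Set X), A⁆) = ⁅G, A⁆ := by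
  open Pointwise Subgroup CfsgH1 in
  open CfsgH2 hiding card_inf_mul_relIndex card_lt_of_lt card_lt_of_ne_top card_map_mul_card_inf_ker card_mul_relIndex card_subgroupOf card_sup_dvd card_sup_mul_card_inf exists_card_prime_le isNilpotent_map isNilpotent_of_le isPGroup_pCore isSolvable_map isSolvable_of_le le_pCore le_pPrimeCore relIndex_map_dvd in
  open scoped CfsgH2 in
  open scoped commutatorElement in
  · have h1 := le_antisymm (iSup₂_le fun _ _ => inf_le_left) (le_of_cocyclic_cent hAab G hAG hcop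
      fun B h1 h2 => le_iSup₂ (f := fun B (_ : B ∈ {B : Subgroup X | B ≤ A ∧ ∃ a ∈ A,
        B ⊔ zpowers a = A}) => G ⊓ C[B]) B ⟨h1, h2⟩)
    refine ⟨h1, le_antisymm (iSup₂_le fun _ _ => commutator_mono inf_le_left le_rfl) ?_⟩
    set J := ⨆ B ∈ {B : Subgroup X | B ≤ A ∧ ∃ a ∈ A, B ⊔ zpowers a = A}, ⁅G ⊓ C[B], A⁆ with hJ
    have hAJ : A ≤ N[J] := le_normalizer_iSup fun B => le_normalizer_iSup fun _ => le_norm_comm_right
    have hJG : J ≤ ⁅G, A⁆ := iSup₂_le fun _ _ => commutator_mono inf_le_left le_rfl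
    have hs := isSolvable_or_of_comm (K := G) hAab
    -- `[G, A]` is generated by its fixed point subgroups
    have h2 : ⁅G, A⁆ ≤ J ⊔ (G ⊓ C[A]) := by
      refine le_of_cocyclic_cent hAab _ le_norm_comm_right
        (hcop.coprime_dvd_right (card_dvd_of_le (comm_le_left hAG))) fun B hB hB' => ?_
      refine (inf_le_inf_right _ (comm_le_left hAG)).trans ?_
      rw [← coprime_commutator_sup_centralizer (A := A) (K := G ⊓ C[B])
        (le_norm_inf hAG (le_norm_of_le (le_cent_of_comm hAab hB)))
        (hcop.coprime_dvd_right (card_dvd_of_le inf_le_left)) (isSolvable_or_of_comm hAab)]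
      exact sup_le_sup (le_iSup₂ (f := fun B (_ : B ∈ {B : Subgroup X | B ≤ A ∧ ∃ a ∈ A,
        B ⊔ zpowers a = A}) => ⁅G ⊓ C[B], A⁆) B ⟨hB, hB'⟩) (inf_le_inf_right _ inf_le_left)
    have h3 : C[A] ⊓ G ≤ N[J] := le_normalizer_iSup fun B => le_normalizer_iSup fun hB =>
      le_norm_commutator (le_norm_of_le (le_inf inf_le_right (inf_le_left.trans (cent_anti hB.1))))
        (inf_le_left.trans (cent_le_norm _))
    rw [← coprime_commutator_commutator hAG hcop hs]
    refine (commutator_mono h2 le_rfl).trans (commutator_sup_le le_normalizer (by rwa [inf_comm])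
      (comm_le_left hAJ) ?_)
    rw [comm_eq_bot_iff.2 inf_le_right]; exact bot_le

end Cfsg.Agent.S3734
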