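import Cfsg.Statements.S3739
import Cfsg.Agent.H2.Pq4

set_option autoImplicit false
open Cfsg

namespace Cfsg.Agent.S3739
open CfsgH2

/-- Let G be a finite group with C_G(O₂(G)) ≤ O₂(G) containing an element of order 6, and let d be a non-identity 3-element of G normalizing a nontrivial elementary abelian 2-subgroup W with C_W(d) = 1. Then G has an elementary abelian subgroup of order 8. -/
theorem result {G : Type*} [Group G] [Finite G] (hchar : Subgroup.centralizer (Cfsg.pCore 2 G : Set G) ≤ Cfsg.pCore 2 G) (hsix : ∃ g : G, orderOf g = 6) (d : G) (hd1 : d ≠ 1) (hd : IsPGroup 3 ↥(Subgroup.zpowers d)) (W : Subgroup G) (hW : Cfsg.IsElementaryAbelian 2 W) (hW1 : W ≠ ⊥) (hdW : d ∈ Subgroup.normalizer (W : Set G)) (hfpf : W ⊓ Subgroup.centralizer {d} = ⊥) : ∃ E : Subgroup G, Cfsg.IsElementaryAbelian 2 E ∧ Nat.card E = 8 := by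
  open Subgroup Function in open scoped commutatorElement in
  · open CfsgBG in
    haveI : Fact (Nat.Prime 3) := ⟨Nat.prime_three⟩
    by_contra h0
    have h3 : prk 2 (⊤ : Subgroup G) ≤ 2 := by
      by_contra c
      obtain ⟨E, -, e⟩ := exists_el_of_le (show 3 ≤ _ from not_le.1 c)
      exact h0 ⟨E, e.el, e.card⟩
    set O := pCore 2 G
    have pO : IsPGroup 2 O := isPGroup_pCore
    have nO : ∀ A : Subgroup G, A ≤ N[O] := fun A => le_top.trans (top_le_norm_iff.2 inferInstance)
    have pW := elem_pgroup hW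
    rw [← cent_zpowers] at hfpf
    have od : Odd (Nat.card (zpowers d)) := by
      obtain ⟨k, hk⟩ := exists_card_eq_pow hd
      rw [hk]; exact Odd.pow (by decide)
    have c4 : ∀ E : Subgroup G, IsElementaryAbelian 2 E → Nat.card E ≤ 2 ^ 2 := fun E e => card_le_of_prk_le h3 e le_top
    have big : ∀ Y ≤ W, d ∈ N[Y] → Y ≠ ⊥ → 2 ^ 2 ≤ Nat.card Y := fun Y a b c => by
      refine Nat.le_of_dvd (card_pos' _) (pow_succ_dvd_card_of_lt (pW.to_le a) (lt_of_le_of_ne
        (Nat.le_of_dvd (card_pos' _) (dvd_card_of_pgroup (p := 2) (pW.to_le a) c)) fun e => c (eq_bot_iff.2 (hfpf ▸ le_inf a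
          (le_centralizer_iff.1 (cent_of_cyc (pW.to_le a) od (zpowers_le.2 b) (isCyclic_of_card_prime Nat.prime_two e.symm)))))))
    have mx : ∀ Y : Subgroup G, IsElementaryAbelian 2 Y → Y ≤ C[W] → Y ≤ W := fun Y a b =>
      le_sup_left.trans (eq_of_le_of_card_le le_sup_right ((c4 _ (elem_sup a hW b)).trans (big W le_rfl hdW hW1))).ge
    have mx1 : ∀ t ∈ C[W], t ^ 2 = 1 → t ∈ W := fun t a b => zpowers_le.1 (mx _ (elem_zpowers b) (zpowers_le.2 a))
    have O0 : O ≠ ⊥ := fun e => hW1 (eq_bot_iff.2 (le_trans (by rw [e, cent_bot]; exact le_top) (hchar.trans e.le)))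
    have eZ : omegaOne 2 Z[O] = W := by
      have nZ : ∀ A : Subgroup G, A ≤ N[omegaOne 2 Z[O]] := fun A => le_norm_omegaOne' ((nO A).trans norm_le_norm_center)
      have eZ := elem_omegaOne (p := 2) (isMulComm_cent_inf O)
      have a := inf_cent_ne_bot' pW (elem_pgroup eZ) (nZ W) (omegaOne_ne_bot Nat.prime_two
        (dvd_card_of_pgroup (pO.to_le inf_le_left) (center_ne_bot pO O0)))
      have b := mx _ (elem_of_le eZ inf_le_left) inf_le_right
      have c := big _ b (mem_norm_inf (nZ ⊤ trivial) (norm_le_norm_cent _ hdW)) a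
      rw [← eq_of_le_of_card_le b ((c4 _ hW).trans c)]
      exact (eq_of_le_of_card_le inf_le_left ((c4 _ eZ).trans c)).symm
    have nW : ∀ A : Subgroup G, A ≤ N[W] := fun A => eZ ▸ le_norm_omegaOne' ((nO A).trans norm_le_norm_center)
    have cW : O ≤ C[W] := le_centralizer_iff.1 (eZ ▸ omegaOne_le.trans inf_le_right)
    have fp : ∀ A : Subgroup G, W ⊓ C[A] = ⊥ → O ⊓ C[A] = ⊥ := fun A a => by
      by_contra c
      obtain ⟨t, ht, e⟩ := exists_prime_order_mem Nat.prime_two (dvd_card_of_pgroup (pO.to_le inf_le_left) c)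
      rw [(mem_bot (x := t)).1 (a ▸ mem_inf.2 ⟨mx1 t (cW ht.1) (e ▸ pow_orderOf_eq_one t), ht.2⟩), orderOf_one] at e
      omega
    have fa : ∀ A : Subgroup G, IsPGroup 3 A → A ⊓ C[O] = ⊥ := fun A a => eq_bot_iff.2 ((inf_le_inf_left _ hchar).trans
      (inf_eq_bot_of_coprime' (coprime_of_pgroup a fun e => by
        obtain ⟨k, hk⟩ := exists_card_eq_pow pO
        exact absurd (Nat.prime_three.dvd_of_dvd_pow (hk ▸ e)) (by decide))).le)
    have d3 : Nat.card (zpowers d) = 3 := ((Nat.dvd_prime Nat.prime_three).1 (fpf_three hd inferInstance pO (nO _) (fa _ hd)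
      (fp _ hfpf) ((prk_mono le_top).trans h3))).resolve_left fun e => zpowers_ne_bot.2 hd1 (card_eq_one.1 e)
    obtain ⟨g, hg⟩ := hsix
    have x3 : orderOf (g ^ 2) = 3 := by rw [orderOf_pow' g two_ne_zero, hg]; rfl
    have t2 : orderOf (g ^ 3) = 2 := by rw [orderOf_pow' g three_ne_zero, hg]; rfl
    have ox : Odd (Nat.card (zpowers (g ^ 2))) := by rw [Nat.card_zpowers, x3]; decide
    have xt : g ^ 2 ∈ C[zpowers (g ^ 3)] := by
      rw [cent_zpowers, mem_centralizer_singleton_iff]; exact ((Commute.refl g).pow_pow 2 3).eq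
    have k1 : W ⊓ C[zpowers (g ^ 2)] ≠ ⊥ := by
      by_cases c : W ≤ C[zpowers (g ^ 3)]
      · refine fun e => (fun a => by rw [a, orderOf_one] at t2; omega : g ^ 3 ≠ 1) (mem_bot.1 (e ▸ mem_inf.2
          ⟨mx1 _ (zpowers_le.1 (le_centralizer_iff.1 c)) (t2 ▸ pow_orderOf_eq_one _),
            zpowers_le.1 (le_centralizer_iff.1 (zpowers_le.2 xt))⟩))
      have a := inf_cent_ne_bot' (isPGroup_of_card' ((Nat.card_zpowers _).trans t2)) pW (nW _) hW1
      refine fun e => a (eq_bot_iff.2 (e ▸ le_inf inf_le_left (le_centralizer_iff.1 (cent_of_cyc (pW.to_le inf_le_left) ox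
        (le_norm_inf (nW _) (le_norm_cent (zpowers_le.2 (cent_le_norm _ xt)))) (isCyclic_of_card_dvd_prime (p := 2) ?_)))))
      have b := Nat.le_of_dvd (card_pos' _) (mul_card_dvd_of_lt pW (inf_lt_left.2 c))
      have := c4 W hW
      simpa using relIndex_dvd_of_le (Y := ⊥) (pW.to_le (inf_le_left : W ⊓ C[zpowers (g ^ 3)] ≤ W)) (by rw [relIndex_bot_left]; omega)
    have k2 : g ^ 2 ∈ C[W] := by
      refine zpowers_le.1 (coprime_le_cent (nW _) (coprime_of_not_dvd ox.not_two_dvd_nat pW) (.inr (isSolvable_of_pgroup pW))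
        ((comm_le_of_relIndex_two (nW _) (le_norm_inf (nW _) (le_norm_cent le_normalizer)) (relIndex_dvd_of_le pW ?_)).trans inf_le_right))
      have a := card_mul_relIndex (inf_le_left : W ⊓ C[zpowers (g ^ 2)] ≤ W)
      have b := (one_lt_card_iff_ne_bot _).2 k1
      have := c4 W hW
      nlinarith
    obtain ⟨T, hT, dT⟩ := exists_syl_ge hd (le_top : _ ≤ ⊤)
    have nC : ∀ A : Subgroup G, A ≤ N[C[W]] := fun A => le_norm_cent (nW A)
    obtain ⟨Y, y1, y2, y3⟩ := exists_central_card_p hT.pg (le_norm_inf le_normalizer (nC T))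
      ((hT.inf_norm le_top (nC T)).dvd_card (x3 ▸ orderOf_dvd_of_mem k2))
    have py : (Nat.card Y).Prime := y3 ▸ Nat.prime_three
    have yd : Y ≤ C[zpowers d] := y2.trans (cent_anti dT)
    have yW : W ≤ C[Y] := le_centralizer_iff.1 (y1.trans inf_le_right)
    have dj : Y ⊓ zpowers d = ⊥ := inf_eq_bot_of_not_le py fun e => hW1 (eq_bot_iff.2 (hfpf ▸ le_inf le_rfl
      (eq_of_le_of_card_le e (d3.trans y3.symm).le ▸ yW)))
    have cA : Nat.card (Y ⊔ zpowers d : Subgroup G) = 3 ^ 2 := by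
      rw [card_sup_of_disj (.inl (le_norm_of_le_cent yd)) dj, y3, d3]; rfl
    have eA := elem_sup (elem_of_card_prime Nat.prime_three y3) (elem_of_card_prime Nat.prime_three d3) yd
    have := le_of_cent1 (M := C[Y]) eA.1 (not_cyclic_of_elem Nat.prime_three eA cA le_rfl) (nO _)
      (coprime_of_not_dvd (by rw [cA]; decide) pO) fun a ha a1 => by
        rw [← cent_zpowers]
        by_cases c : a ∈ Y
        · rw [zpowers_eq_of_prime py c a1]; exact inf_le_right
        refine (fp _ (eq_bot_iff.2 (hfpf ▸ le_inf inf_le_left ?_))).le.trans bot_le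
        have e : Y ⊔ zpowers a = Y ⊔ zpowers d := eq_of_le_of_card_le (sup_le le_sup_left (zpowers_le.2 ha)) (by
          rw [cA, card_sup_zpowers_prime Nat.prime_three (le_norm_of_le_cent (le_cent_of_comm eA.1 le_sup_left) ha) ((eA.2 a ha).symm ▸ one_mem Y) c, y3]; rfl)
        refine le_trans ?_ (cent_anti (le_sup_right.trans e.ge))
        rw [cent_sup]
        exact inf_le_inf_right _ yW
    exact ne_bot_of_card_prime py (eq_bot_iff.2 (fa Y (isPGroup_of_card' y3) ▸ le_inf le_rfl (le_centralizer_iff.1 this)))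

end Cfsg.Agent.S3739
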