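import Cfsg.Statements.S3741
import Cfsg.Agent.H1.Misc1

set_option autoImplicit false
open Cfsg

namespace Cfsg.Agent.S3741

section
open Pointwise Subgroup CfsgH1
open CfsgH2 hiding card_inf_mul_relIndex card_lt_of_lt card_lt_of_ne_top card_map_mul_card_inf_ker card_mul_relIndex card_subgroupOf card_sup_dvd card_sup_mul_card_inf exists_card_prime_le isNilpotent_map isNilpotent_of_le isPGroup_pCore isSolvable_map isSolvable_of_le le_pCore le_pPrimeCore relIndex_map_dvd
open scoped CfsgH2
open scoped commutatorElement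

theorem aux {G : Type*} [Group G] [Finite G] {p : ℕ} [Fact p.Prime] (hG : IsPGroup p G) (A B : Subgroup G)
    (hcard : Nat.card ↥⁅A, B⁆ ≤ p) (D : Subgroup G) (h1 : B ⊓ C[A] ≤ D) (h2 : D ≤ B) :
    C[D].relIndex A ≤ (B ⊓ C[A]).relIndex D := by
  induction D using WellFoundedLT.induction with | ind D ih => ?_
  rcases h1.eq_or_lt with e | e
  · rw [← e, relIndex_self, relIndex_eq_one.2 (le_centralizer_iff.1 inf_le_right)]
  obtain ⟨L, l1, l2, -, l3⟩ := exists_maximal_sub (hG.to_subgroup D) e
  have hp : (L.relIndex D).Prime := l3 ▸ Fact.out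
  obtain ⟨b, hb, hb'⟩ := exists_not_mem_of_relIndex hp.ne_one
  rw [← relIndex_mul_relIndex _ _ _ l1 l2, l3]
  conv_lhs => rw [← sup_zpowers_eq_of_prime hp l2 hb hb', cent_sup, cent_zpowers]
  exact relIndex_inf_le.trans (Nat.mul_le_mul (ih L (lt_of_le_of_ne l2 fun e => hb' (e ▸ hb)) l1 (l2.trans h2))
    ((relIndex_cent1_le fun x hx => commutator_mem_commutator hx (h2 hb)).trans hcard))

end

/-- Let A and B be subgroups of a finite p-group with [A, B] ≤ A ∩ B and [A, B] of order at most p. Then |A : C_A(B)| = |B : C_B(A)|. -/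
theorem result {G : Type*} [Group G] [Finite G] {p : ℕ} [Fact p.Prime] (hG : IsPGroup p G) (A B : Subgroup G) (hAB : ⁅A, B⁆ ≤ A ⊓ B) (hcard : Nat.card ↥⁅A, B⁆ ≤ p) : (A ⊓ Subgroup.centralizer (B : Set G)).relIndex A = (B ⊓ Subgroup.centralizer (A : Set G)).relIndex B := by
  open Pointwise Subgroup CfsgH1 in
  open CfsgH2 hiding card_inf_mul_relIndex card_lt_of_lt card_lt_of_ne_top card_map_mul_card_inf_ker card_mul_relIndex card_subgroupOf card_sup_dvd card_sup_mul_card_inf exists_card_prime_le isNilpotent_map isNilpotent_of_le isPGroup_pCore isSolvable_map isSolvable_of_le le_pCore le_pPrimeCore relIndex_map_dvd in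
  open scoped CfsgH2 in
  open scoped commutatorElement in
  · refine le_antisymm ?_ ?_
    · rw [inf_relIndex_left]; exact aux hG A B hcard B inf_le_left le_rfl
    · rw [inf_relIndex_left]; exact aux hG B A (by rwa [commutator_comm]) A inf_le_left le_rfl

end Cfsg.Agent.S3741
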