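import Cfsg.Statements.S3744
import Cfsg.Agent.H1.Prod

set_option autoImplicit false
open Cfsg

namespace Cfsg.Agent.S3744

/-- A finite p-soluble group has a p-complement, all its p-complements are conjugate, and every subgroup of order prime to p lies in one of them. Here a p-complement is a subgroup of order prime to p whose index is a power of p. -/
theorem result {G : Type*} [Group G] [Finite G] {p : ℕ} [Fact p.Prime] (hG : Cfsg.IsPSolvable p G) : (∃ H : Subgroup G, (Nat.card H).Coprime p ∧ ∃ n : ℕ, H.index = p ^ n) ∧ (∀ H₁ H₂ : Subgroup G, (Nat.card H₁).Coprime p → (∃ n : ℕ, H₁.index = p ^ n) → (Nat.card H₂).Coprime p → (∃ n : ℕ, H₂.index = p ^ n) → ∃ g : G, H₂ = H₁.map (MulAut.conj g).toMonoidHom) ∧ (∀ U : Subgroup G, (Nat.card U).Coprime p → ∃ H : Subgroup G, (Nat.card H).Coprime p ∧ (∃ n : ℕ, H.index = p ^ n) ∧ ∃ g : G, U.map (MulAut.conj g).toMonoidHom ≤ H) := by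
  have hp : p.Prime := Fact.out
  have key : ∀ H : Subgroup G, CfsgH1.HallIn {p}ᶜ H ⊤ ↔
      (Nat.card H).Coprime p ∧ ∃ n : ℕ, H.index = p ^ n := fun H => by
    rw [CfsgH1.hallIn_top_iff', compl_compl, CfsgH1.PiNum.compl_singleton_iff hp,
      CfsgH1.PiNum.singleton_iff hp H.index_ne_zero_of_finite]
  have hs := (CfsgH1.hallSep_of_isPSolvable hp hG).subgroup ⊤
  obtain ⟨H, hH⟩ := hs.sep.exists_hallIn
  refine ⟨⟨H, (key H).mp hH⟩, fun H₁ H₂ h1 h2 h3 h4 => ?_, fun U hU => ?_⟩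
  · obtain ⟨g, -, hg⟩ := ((key H₁).mpr ⟨h1, h2⟩).exists_conj hs ((key H₂).mpr ⟨h3, h4⟩)
    exact ⟨g, hg.symm⟩
  · obtain ⟨g, -, hg⟩ := hH.exists_conj_le hs ((CfsgH1.PiNum.compl_singleton_iff hp).mpr hU) le_top
    exact ⟨H, ((key H).mp hH).1, ((key H).mp hH).2, g, hg⟩

end Cfsg.Agent.S3744
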