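import Cfsg.Statements.S3746
import Cfsg.Agent.H1.Pron
import Cfsg.Agent.H9.Comp2

set_option autoImplicit false
open Cfsg

namespace Cfsg.Agent.S3746

/-- Let Z ≤ Z(G) be a central subgroup of a finite group G and E a subgroup of G containing Z whose image E/Z is a component of G/Z (subnormal and quasisimple). Then the derived subgroup [E, E] is a component of G. -/
theorem result {G : Type*} [Group G] [Finite G] (Z : Subgroup G) (hZ : Z ≤ Subgroup.center G) [Z.Normal] (E : Subgroup G) (hZE : Z ≤ E) (hE : Cfsg.IsComponent (E.map (QuotientGroup.mk' Z))) : Cfsg.IsComponent ⁅E, E⁆ := by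
  open Pointwise Subgroup CfsgH1 in
  open CfsgH2 hiding card_inf_mul_relIndex card_lt_of_lt card_lt_of_ne_top card_map_mul_card_inf_ker card_mul_relIndex card_subgroupOf card_sup_dvd card_sup_mul_card_inf exists_card_prime_le isNilpotent_map isNilpotent_of_le isPGroup_pCore isSolvable_map isSolvable_of_le le_pCore le_pPrimeCore relIndex_map_dvd in
  open scoped CfsgH2 in
  open scoped commutatorElement in
  · open CfsgH9 in
    rw [← comp_top_iff] at hE ⊢
    have h1 : Sn E ⊤ := by
      have := hE.sn.comap (QuotientGroup.mk' Z)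
      rwa [comap_top, CfsgH2.comap_map_mk, sup_eq_left.2 hZE] at this
    have hc : ∀ X : Subgroup G, ⁅Z, X⁆ = ⊥ := fun X =>
      comm_bot_iff.2 (hZ.trans (center_le_centralizer _))
    have e : ⁅E, E⁆.map (QuotientGroup.mk' Z) = E.map (QuotientGroup.mk' Z) := by
      rw [map_commutator, hE.perf]
    refine ⟨(Sn.of_normal commutator_self_le le_norm_comm_left).trans h1,
      .of_map (QuotientGroup.mk' Z) ?_ (comm_bot_mono (hc _) ?_ le_rfl) (e ▸ hE.qs)⟩
    · rw [← commutator_sup_central (hc _) (hc _), (map_mk_eq_map_mk Z).1 e, sup_eq_left.2 hZE]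
    · rw [QuotientGroup.ker_mk']; exact inf_le_left

end Cfsg.Agent.S3746
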