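import Cfsg.Statements.S3747
import Cfsg.Agent.H1.Pron
import Cfsg.Agent.H9.Comp2

set_option autoImplicit false
open Cfsg

namespace Cfsg.Agent.S3747

/-- Let G be a finite group. (a) If K is a component of G with trivial centre, then the normal closure of K in G is a minimal normal subgroup of G. (b) If the Fitting subgroup of G is trivial, then the layer E(G) is generated by the minimal normal subgroups of G. -/
theorem result {G : Type*} [Group G] [Finite G] : (∀ K : Subgroup G, Cfsg.IsComponent K → Subgroup.center ↥K = ⊥ → (Subgroup.normalClosure (K : Set G) ≠ ⊥ ∧ ∀ N : Subgroup G, N.Normal → N ≤ Subgroup.normalClosure (K : Set G) → N = ⊥ ∨ N = Subgroup.normalClosure (K : Set G))) ∧ (Cfsg.fittingSubgroup G = ⊥ → sSup {N : Subgroup G | N ≠ ⊥ ∧ N.Normal ∧ ∀ N' : Subgroup G, N'.Normal → N' ≤ N → N' = ⊥ ∨ N' = N} = Cfsg.layer G) := by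
  open Pointwise Subgroup CfsgH1 in
  open CfsgH2 hiding card_inf_mul_relIndex card_lt_of_lt card_lt_of_ne_top card_map_mul_card_inf_ker card_mul_relIndex card_subgroupOf card_sup_dvd card_sup_mul_card_inf exists_card_prime_le isNilpotent_map isNilpotent_of_le isPGroup_pCore isSolvable_map isSolvable_of_le le_pCore le_pPrimeCore relIndex_map_dvd in
  open scoped CfsgH2 in
  open scoped commutatorElement in
  · open CfsgH9 in
    have key : ∀ K : Subgroup G, Comp K ⊤ → K ⊓ C[K] = ⊥ → (normalClosure (K : Set G) ≠ ⊥ ∧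
        ∀ N : Subgroup G, N.Normal → N ≤ normalClosure (K : Set G) → N = ⊥ ∨ N = normalClosure (K : Set G)) := by
      intro K hK hZ
      refine ⟨fun e => hK.ne_bot (eq_bot_iff.2 (e ▸ le_normalClosure)), fun N hN hl => ?_⟩
      rcases hK.le_or_comm (.of_normal_top N) with e | e
      · exact Or.inr (le_antisymm hl (normalClosure_le_normal e))
      left
      have h1 : N ≤ C[normalClosure (K : Set G)] :=
        le_centralizer_iff.1 (normalClosure_le_normal (comm_bot_iff.1 e))
      have e2 : normalClosure (K : Set G) = sSup ((fun g => K.map (CfsgH2.cj g)) '' Set.univ) := by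
        rw [← nc_top, sSup_image]; rfl
      rw [eq_bot_iff]
      refine (le_inf hl h1).trans ?_
      rw [e2, center_sSup_of_commute (Set.toFinite _)]
      · refine iSup₂_le ?_
        rintro _ ⟨g, -, rfl⟩
        rw [centralizer_map_cj, ← map_cj_inf, hZ, Subgroup.map_bot]
      · rintro _ ⟨g, -, rfl⟩ _ ⟨k, -, rfl⟩ hne
        exact (hK.cj_of_mem (le_normalizer (mem_top g))).comm_of_ne
          (hK.cj_of_mem (le_normalizer (mem_top k))) hne
    refine ⟨fun K hK hZ => key K (comp_top_iff.2 hK) ?_, fun hF => ?_⟩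
    · have := map_center_subtype (H := K)
      rw [hZ, Subgroup.map_bot] at this; exact this.symm
    rw [← Fit_top] at hF
    rw [← Lay_top]
    refine le_antisymm (sSup_le fun N ⟨n1, n2, n3⟩ => ?_) (Lay_le_iff.2 fun K hK => ?_)
    · have hs : Sn N ⊤ := .of_normal_top N
      rcases le_Fit_or_exists_comp hs (by
        rw [show Fit N = ⊥ from eq_bot_iff.2 (hF ▸ Fit_mono hs), commutator_bot_right]) with e | ⟨L, l1, l2⟩
      · exact e.trans (hF.le.trans bot_le)
      · haveI : (Lay (⊤ : Subgroup G)).Normal := Lay_top (G := G) ▸ layer_normal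
        rcases n3 (N ⊓ Lay ⊤) inferInstance inf_le_left with e | e
        · exact absurd (eq_bot_iff.2 (e ▸ le_inf l2 l1.le_Lay)) l1.ne_bot
        · exact inf_eq_left.1 e
    · obtain ⟨a, b⟩ := key K hK (eq_bot_iff.2 (hF ▸ center_le_Fit hK.sn))
      exact le_normalClosure.trans (le_sSup ⟨a, inferInstance, b⟩)

end Cfsg.Agent.S3747
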