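import Cfsg.Statements.S3748
import Cfsg.Agent.H1.Pron

set_option autoImplicit false
open Cfsg

namespace Cfsg.Agent.S3748

/-- Call a proper subgroup M of G primitive when M = N_G(N) for every non-trivial normal subgroup N of M. If M is a primitive subgroup of the finite group G, then no non-trivial subnormal subgroup of G is contained in M; in particular M ∩ F(G) = 1. -/
theorem result {G : Type*} [Group G] [Finite G] (M : Subgroup G) (hM : M ≠ ⊤) (hprim : ∀ N : Subgroup G, N ≤ M → M ≤ Subgroup.normalizer (N : Set G) → N ≠ ⊥ → Subgroup.normalizer (N : Set G) = M) : (∀ L : Subgroup G, L.IsSubnormal → L ≤ M → L = ⊥) ∧ M ⊓ Cfsg.fittingSubgroup G = ⊥ := by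
  open Pointwise Subgroup CfsgH1 in
  open CfsgH2 hiding card_inf_mul_relIndex card_lt_of_lt card_lt_of_ne_top card_map_mul_card_inf_ker card_mul_relIndex card_subgroupOf card_sup_dvd card_sup_mul_card_inf exists_card_prime_le isNilpotent_map isNilpotent_of_le isPGroup_pCore isSolvable_map isSolvable_of_le le_pCore le_pPrimeCore relIndex_map_dvd in
  open scoped CfsgH2 in
  open scoped commutatorElement in
  · have : ∀ L : Subgroup G, CfsgH9.Sn L ⊤ → L ≤ M → L = ⊥ := fun L h1 h2 => by
      obtain ⟨J, j1, j2, j3, j4, j5⟩ := exists_sn_core M ⊤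
      by_contra hne
      have e := hprim J j1 ((le_inf le_normalizer_of_normal le_normalizer).trans j4)
        fun e => hne (eq_bot_iff.2 (e ▸ j3 L h1 h2))
      exact hM (top_le_iff.1 (e ▸ j5 (inf_le_right.trans e.le)))
    exact ⟨fun L h => this L (CfsgH9.sn_top_iff.2 h), this _ (sn_of_le_nilpotent isNilpotent_fitting
      (.of_normal_top _) inf_le_right) inf_le_left⟩

end Cfsg.Agent.S3748
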