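import Cfsg.Statements.S3749
import Cfsg.Agent.H1.Pron

set_option autoImplicit false
open Cfsg

namespace Cfsg.Agent.S3749

/-- Call a proper subgroup M of G primitive when M = N_G(N) for every non-trivial normal subgroup N of M. Let M be a primitive subgroup of the finite group G, p a prime with O_p(M) ≠ 1, and N a normal subgroup of G with M ∩ N = 1. Then p does not divide the order of N; for every prime q there is exactly one Sylow q-subgroup of N normalized by M; and if the order of N has at least two prime divisors then M is not a maximal subgroup of G. -/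
theorem result {G : Type*} [Group G] [Finite G] (M : Subgroup G) (hM : M ≠ ⊤) (hprim : ∀ N : Subgroup G, N ≤ M → M ≤ Subgroup.normalizer (N : Set G) → N ≠ ⊥ → Subgroup.normalizer (N : Set G) = M) {p : ℕ} [Fact p.Prime] (hOp : Cfsg.pCore p ↥M ≠ ⊥) (N : Subgroup G) [N.Normal] (hMN : M ⊓ N = ⊥) : ¬ p ∣ Nat.card N ∧ (∀ q : ℕ, [Fact q.Prime] → ∃! Q : Sylow q ↥N, M ≤ Subgroup.normalizer ((Q : Subgroup ↥N).map N.subtype : Set G)) ∧ ((∃ q r : ℕ, q.Prime ∧ r.Prime ∧ q ≠ r ∧ q ∣ Nat.card N ∧ r ∣ Nat.card N) → ¬ IsCoatom M) := by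
  open Pointwise Subgroup CfsgH1 in
  open CfsgH2 hiding card_inf_mul_relIndex card_lt_of_lt card_lt_of_ne_top card_map_mul_card_inf_ker card_mul_relIndex card_subgroupOf card_sup_dvd card_sup_mul_card_inf exists_card_prime_le isNilpotent_map isNilpotent_of_le isPGroup_pCore isSolvable_map isSolvable_of_le le_pCore le_pPrimeCore relIndex_map_dvd in
  open scoped CfsgH2 in
  open scoped commutatorElement in
  · have hp := isPGroup_piCoreOf (p := p) (M := M)
    set P := piCoreOf {p} M with hP
    have h0 : P ≠ ⊥ := by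
      rw [hP, ← map_pCore_subtype]; exact fun e => hOp ((map_eq_bot_iff_of_injective _ M.subtype_injective).1 e)
    have hC : N ⊓ C[P] = ⊥ := eq_bot_iff.2 (hMN ▸ le_inf (inf_le_right.trans ((cent_le_norm _).trans
      (hprim P piCoreOf_le le_norm_piCoreOf h0).le)) inf_le_left)
    have h1 : ¬ p ∣ Nat.card N := fun e => inf_cent_ne_bot hp le_normalizer_of_normal e hC
    have hc := coprime_of_pgroup hp h1
    have hs : Group.IsSolvable P ∨ Group.IsSolvable N := Or.inl (isSolvable_of_pgroup hp)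
    have key : ∀ q : ℕ, [Fact q.Prime] → ∃ Q, Syl q Q N ∧ M ≤ N[Q] ∧ ∀ R, Syl q R N → P ≤ N[R] → R = Q := by
      intro q _
      obtain ⟨Q, q1, q2⟩ := coprime_exists_invariant_sylow le_normalizer_of_normal hc hs q
      have u : ∀ R, Syl q R N → P ≤ N[R] → R = Q := fun R r1 r2 => by
        obtain ⟨c, c1, e⟩ := coprime_invariant_sylow_conj le_normalizer_of_normal hc hs q1
          (syl_iff.2 r1) q2 r2
        rw [hC, mem_bot] at c1
        rw [← e, c1, conj_one_smul]
      refine ⟨Q, syl_iff.1 q1, fun m hm => map_cj_eq_iff.1 (u _ ((syl_iff.1 q1).map_cj_norm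
        (le_normalizer_of_normal (mem_top m))) ?_), u⟩
      rw [normalizer_map_cj, ← map_cj_eq (show m ∈ N[P] from le_norm_piCoreOf hm)]
      exact map_mono q2
    refine ⟨h1, fun q _ => ?_, fun ⟨q, r, hq, hr, hne, hq1, hr1⟩ hM' => ?_⟩
    · obtain ⟨Q, q1, q2, q3⟩ := key q
      obtain ⟨Q, rfl⟩ := q1.exists_sub
      refine ⟨Q, q2, fun R hR => Sylow.ext (map_injective N.subtype_injective
        (q3 _ (syl_sub R) (piCoreOf_le.trans hR)))⟩
    · haveI := Fact.mk hq
      obtain ⟨Q, q1, q2, q3⟩ := key q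
      have := hM'.2 (Q ⊔ M) (lt_of_le_of_ne le_sup_right fun e => q1.ne_bot hq1
        (eq_bot_iff.2 (hMN ▸ le_inf (le_sup_left.trans e.ge) q1.le)))
      have e : Q = N := by
        rw [← top_inf_eq N, ← this, sup_inf_of_norm (Or.inr q2) q1.le, hMN, sup_bot_eq]
      exact hne (eq_of_prime_dvd_of_isPGroup (e ▸ q1.pg) hr hr1).symm

end Cfsg.Agent.S3749
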