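import Cfsg.Statements.S3750
import Cfsg.Agent.H1.Pron
import Cfsg.Agent.H9.Comp2
import Cfsg.Agent.S3748

set_option autoImplicit false
open Cfsg

namespace Cfsg.Agent.S3750

/-- Call a proper subgroup M of G primitive when M = N_G(N) for every non-trivial normal subgroup N of M. Let M be a primitive subgroup of the finite group G and N a normal subgroup of G with M ∩ F*(N) ≠ 1. Then F(G) = 1 and F*(N) = F*(G) = E(G); in particular every minimal normal subgroup of G is contained in N. -/
theorem result {G : Type*} [Group G] [Finite G] (M : Subgroup G) (hM : M ≠ ⊤) (hprim : ∀ N : Subgroup G, N ≤ M → M ≤ Subgroup.normalizer (N : Set G) → N ≠ ⊥ → Subgroup.normalizer (N : Set G) = M) (N : Subgroup G) [N.Normal] (hMF : M ⊓ (Cfsg.generalizedFittingSubgroup ↥N).map N.subtype ≠ ⊥) : Cfsg.fittingSubgroup G = ⊥ ∧ (Cfsg.generalizedFittingSubgroup ↥N).map N.subtype = Cfsg.generalizedFittingSubgroup G ∧ Cfsg.generalizedFittingSubgroup G = Cfsg.layer G ∧ ∀ K : Subgroup G, K.Normal → K ≠ ⊥ → (∀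 K' : Subgroup G, K'.Normal → K' ≤ K → K' = ⊥ ∨ K' = K) → K ≤ N := by
  open Pointwise Subgroup CfsgH1 in
  open CfsgH2 hiding card_inf_mul_relIndex card_lt_of_lt card_lt_of_ne_top card_map_mul_card_inf_ker card_mul_relIndex card_subgroupOf card_sup_dvd card_sup_mul_card_inf exists_card_prime_le isNilpotent_map isNilpotent_of_le isPGroup_pCore isSolvable_map isSolvable_of_le le_pCore le_pPrimeCore relIndex_map_dvd in
  open scoped CfsgH2 in
  open scoped commutatorElement in
  · open CfsgH9 in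
    obtain ⟨h1, h2⟩ := S3748.result M hM hprim
    change M ⊓ Fs N ≠ ⊥ at hMF
    have hNs : Sn N ⊤ := .of_normal_top N
    have hD := hprim (M ⊓ Fs N) inf_le_left (le_norm_inf le_normalizer
      (le_normalizer_Fs le_normalizer_of_normal)) hMF
    have key : ∀ K : Subgroup G, Sn K ⊤ → ⁅K, Fs N⁆ = ⊥ → K = ⊥ := fun K k1 k2 =>
      h1 K (sn_top_iff.1 k1) (hD ▸ le_normalizer_of_commutator_eq_bot (comm_bot_mono k2 le_rfl inf_le_right))
    have hF : Fit (⊤ : Subgroup G) = ⊥ := by
      by_contra hne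
      haveI := Fit_nilpotent (⊤ : Subgroup G)
      refine inf_centralizer_ne_bot_of_isNilpotent le_rfl le_normalizer hne (key _
        (sn_of_le_Fit inf_le_left) (comm_bot_mono (?_ : ⁅_, Fs ⊤⁆ = ⊥) le_rfl (Fs_mono hNs)))
      rw [Fs_eq]
      exact comm_bot_sup_right (comm_bot_symm (comm_bot_mono (Lay_comm_Fit _) le_rfl inf_le_left))
        (comm_bot_iff.2 inf_le_right)
    have hL : Fs (⊤ : Subgroup G) = Lay ⊤ := by rw [Fs_eq, hF, sup_bot_eq]
    refine ⟨Fit_top.symm.trans hF, ?_, by rw [← Fs_top, ← Lay_top, hL], fun K k1 k2 k3 => ?_⟩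
    · rw [← Fs_top (G := G)]
      refine le_antisymm (Fs_mono hNs) (hL.le.trans (Lay_le_iff.2 fun K hK => ?_))
      rcases hK.le_or_comm hNs with e | e
      · exact (hK.mono e le_top).le_Fs
      · exact absurd (key K hK.sn (comm_bot_mono e le_rfl (Fs_le N))) hK.ne_bot
    · rcases k3 (K ⊓ N) inferInstance inf_le_left with e | e
      · exact absurd (key K (.of_normal_top K) (comm_bot_mono (eq_bot_iff.2
          (e ▸ commutator_le_inf K N)) le_rfl (Fs_le N))) k2
      · exact inf_eq_left.1 e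

end Cfsg.Agent.S3750
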