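import Cfsg.Statements.S3751
import Mathlib
import Cfsg.Agent.H9.SPE
import Cfsg.Agent.H9.Loc

set_option autoImplicit false
open Cfsg

namespace Cfsg.Agent.S3751

section
open Subgroup CfsgH9
open scoped commutatorElement

theorem aux {G : Type*} [Group G] [Finite G] {p : ℕ} [Fact p.Prime] (ML : Subgroup G → Prop)
    (h1 : ∀ T : Subgroup G, IsPGroup p T → T ≠ ⊥ → ∃ M, ML M ∧ normalizer (T : Set G) ≤ M)
    (h2 : ∀ M g, ML M → ML (cj g M)) (h3 : ∀ M g, ML M → cj g M = M → g ∈ M) (T : Subgroup G) :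
    IsPGroup p T → T ≠ ⊥ → ∀ M N, ML M → ML N → M ≠ N → T ≤ M → T ≤ N →
      ∃ M N T, ML M ∧ ML N ∧ M ≠ N ∧ Syl p T M ∧ Syl p T N := by
  induction T using subgroup_induction_gt with
  | h T ih =>
  intro pT t0 M N hM hN hne a b
  have s : ∀ M, T ≤ M → ¬ Syl p T M → ∃ R, T < R ∧ IsPGroup p R ∧ R ≤ M ∧ R ≤ normalizer (T : Set G) :=
    fun M a b => by
      obtain ⟨P, hP, c⟩ := exists_syl_ge pT a
      exact ⟨_, lt_normalizer_inf hP.pg (lt_of_le_of_ne c fun e => b (e ▸ hP)),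
        hP.pg.to_le inf_le_right, inf_le_right.trans hP.le, inf_le_left⟩
  have one : ∀ M R, ML M → Syl p T M → T < R → IsPGroup p R → R ≤ normalizer (T : Set G) →
      ∃ M N T, ML M ∧ ML N ∧ M ≠ N ∧ Syl p T M ∧ Syl p T N := fun M R hM c d e f => by
    obtain ⟨g, g1, g2⟩ := SetLike.exists_of_lt d
    refine ⟨M, cj g M, T, hM, h2 M g hM, fun x => g2 (c.le_of_normalizes (e.to_le (zpowers_le.2 g1))
      (zpowers_le.2 (h3 M g hM x.symm)) (zpowers_le.2 (f g1)) (mem_zpowers g)), c, ?_⟩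
    have := c.cj g
    rwa [cj_eq_of_mem_normalizer (f g1)] at this
  by_cases c : Syl p T M <;> by_cases d : Syl p T N
  · exact ⟨M, N, T, hM, hN, hne, c, d⟩
  · obtain ⟨R, r1, r2, -, r4⟩ := s N b d
    exact one M R hM c r1 r2 r4
  · obtain ⟨R, r1, r2, -, r4⟩ := s M a c
    exact one N R hN d r1 r2 r4
  obtain ⟨R, r1, r2, r3, r4⟩ := s M a c
  obtain ⟨Q, q1, q2, q3, q4⟩ := s N b d
  obtain ⟨L, l1, l2⟩ := h1 T pT t0
  by_cases e : M = L
  · exact ih Q q1 q2 (ne_bot_of_gt q1) L N l1 hN (e ▸ hne) (q4.trans l2) q3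
  · exact ih R r1 r2 (ne_bot_of_gt r1) M L hM l1 e r3 (r4.trans l2)

end

/-- Two distinct subgroups M₁, M₂ of G form a primitive pair when, for {i, j} = {1, 2}, every non-trivial normal subgroup A of M_i contained in M₁ ∩ M₂ satisfies N_{M_j}(A) = M₁ ∩ M₂; the pair has characteristic p when moreover C_{M_i}(O_p(M_i)) ≤ O_p(M_i) for both i and O_p(M₁)O_p(M₂) ≤ M₁ ∩ M₂. Let G be a finite group, p a prime dividing its order, with O_p(G) = 1 and every p-local subgroup of characteristic p. Then either G has a primitive pair of characteristic p, or every maximal p-local subgroup M of G is strongly p-embedded in G: M is a proper subgroup, p divides its order, and for every g ∉ M the order of M ∩ gMg⁻¹ is prime to p. -/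
theorem result {G : Type*} [Group G] [Finite G] {p : ℕ} [Fact p.Prime] (hloc : Cfsg.IsOfLocalCharacteristic p G) (hOp : Cfsg.pCore p G = ⊥) : (∃ M₁ M₂ : Subgroup G, M₁ ≠ M₂ ∧ (∀ A : Subgroup G, A ≠ ⊥ → A ≤ M₁ ⊓ M₂ → (M₁ ≤ Subgroup.normalizer (A : Set G) → M₂ ⊓ Subgroup.normalizer (A : Set G) = M₁ ⊓ M₂) ∧ (M₂ ≤ Subgroup.normalizer (A : Set G) → M₁ ⊓ Subgroup.normalizer (A : Set G) = M₁ ⊓ M₂)) ∧ Subgroup.centralizer (Cfsg.pCore p ↥M₁ : Set ↥M₁) ≤ Cfsg.pCore p ↥M₁ ∧ Subgroup.centralizer (Cfsg.pCore p ↥M₂ : Set ↥M₂) ≤ Cfsg.pCore p ↥M₂ ∧ (Cfsg.pCore p ↥M₁).map M₁.subtype ⊔ (Cfsg.pCore p ↥M₂).map M₂.subtype ≤ M₁ ⊓ M₂) ∨ (∀ M : Subgroup G, (∃ T : Subgroup G, IsPGroup p T ∧ T ≠ ⊥ ∧ M = Subgroup.normalizer (T : Set G)) → (∀ L : Subgroup G, (∃ T : Subgroup G, IsPGroup p T ∧ T ≠ ⊥ ∧ L = Subgroup.normalizer (T : Set G)) → M ≤ L → L = M) → M ≠ ⊤ ∧ p ∣ Nat.card M ∧ ∀ g : G, g ∉ M → ¬ p ∣ Nat.card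 ↥(M ⊓ M.map (MulAut.conj g).toMonoidHom)) := by
  open Subgroup CfsgH9 in
  have loc := (locP_top_iff.1 hloc).2
  let PL : Subgroup G → Prop := fun M => ∃ T : Subgroup G, IsPGroup p T ∧ T ≠ ⊥ ∧ M = normalizer (T : Set G)
  let ML : Subgroup G → Prop := fun M => PL M ∧ ∀ L, PL L → M ≤ L → L = M
  have ch : ∀ M, PL M → ChP p M := by
    rintro _ ⟨T, a, b, rfl⟩
    have := loc T le_top a b
    rwa [top_inf_eq] at this
  have nA : ∀ M, ML M → ∀ A ≤ M, A ≠ ⊥ → M ≤ normalizer (A : Set G) → normalizer (A : Set G) ≤ M :=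
    fun M h A a b c => (le_normalizer_Op le_rfl).trans (h.2 _ ⟨_, Op_isPGroup p A,
      ((ch M h.1).of_sn (Sn.of_normal a c)).Op_ne_bot b, rfl⟩ (le_normalizer_Op c)).le
  have pc : ∀ M g, PL M → PL (cj g M) := by
    rintro _ g ⟨T, a, b, rfl⟩
    exact ⟨cj g T, a.map _, fun e => b (cj_eq_bot.1 e), cj_normalizer g T⟩
  have m0 : ∀ M, PL M → M ≠ ⊥ := by
    rintro _ ⟨T, a, b, rfl⟩ e
    exact b (eq_bot_iff.2 (le_normalizer.trans e.le))
  have h3 : ∀ M g, ML M → cj g M = M → g ∈ M := fun M g h e =>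
    nA M h M le_rfl (m0 M h.1) le_normalizer (cj_eq_iff.1 e)
  have h2 : ∀ M g, ML M → ML (cj g M) := fun M g h => ⟨pc M g h.1, fun L a b => by
    rw [← h.2 _ (pc L g⁻¹ a) ((cj_inv_cj g M).ge.trans (cj_mono _ b)), cj_cj_inv]⟩
  refine (em _).imp_right fun hn M a b => ⟨fun e => ?_, ?_, fun g hg d => hn ?_⟩
  · refine (ch M a).Op_ne_bot (m0 M a) ?_
    rw [e, Op_top, hOp]
  · exact dvd_card_of_isPGroup (Op_isPGroup p M) ((ch M a).Op_ne_bot (m0 M a)) (Op_le p M)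
  obtain ⟨T, hT⟩ := exists_syl p (M ⊓ cj g M)
  obtain ⟨M, N, T, a, b, c, d, e⟩ := aux ML (fun T a b => by
      obtain ⟨M, m1, m2⟩ := Finite.exists_le_maximal (p := PL) ⟨T, a, b, rfl⟩
      exact ⟨M, ⟨m2.1, fun L c d => le_antisymm (m2.2 c d) d⟩, m1⟩) h2 h3 T hT.pg (hT.ne_bot d) M _
    ⟨a, b⟩ (h2 M g ⟨a, b⟩) (fun e => hg (h3 M g ⟨a, b⟩ e.symm)) (hT.le.trans inf_le_left)
    (hT.le.trans inf_le_right)
  refine ⟨M, N, c, fun A a0 a1 => ⟨fun n => ?_, fun n => ?_⟩, chP_iff_sub.1 (ch M a.1),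
    chP_iff_sub.1 (ch N b.1), (sup_le d.Op_le e.Op_le).trans (le_inf d.le e.le)⟩
  · rw [le_antisymm (nA M a A (a1.trans inf_le_left) a0 n) n, inf_comm]
  · rw [le_antisymm (nA N b A (a1.trans inf_le_right) a0 n) n]

end Cfsg.Agent.S3751
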