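import Cfsg.Statements.S3752
import Mathlib
import Cfsg.Agent.H9.Bend

set_option autoImplicit false
open Cfsg

namespace Cfsg.Agent.S3752

/-- Bender's Theorem on primitive pairs. Two distinct subgroups M₁, M₂ of G form a primitive pair when, for {i, j} = {1, 2}, every non-trivial normal subgroup A of M_i contained in M₁ ∩ M₂ satisfies N_{M_j}(A) = M₁ ∩ M₂; the pair has characteristic p when moreover C_{M_i}(O_p(M_i)) ≤ O_p(M_i) for both i and O_p(M₁)O_p(M₂) ≤ M₁ ∩ M₂. If (M₁, M₂) is a primitive pair of the finite group G with F*(M₁) ≤ M₂ and F*(M₂) ≤ M₁, then for some prime p the pair has characteristic p. -/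
theorem result {G : Type*} [Group G] [Finite G] (M₁ M₂ : Subgroup G) (hne : M₁ ≠ M₂) (hP : ∀ A : Subgroup G, A ≠ ⊥ → A ≤ M₁ ⊓ M₂ → (M₁ ≤ Subgroup.normalizer (A : Set G) → M₂ ⊓ Subgroup.normalizer (A : Set G) = M₁ ⊓ M₂) ∧ (M₂ ≤ Subgroup.normalizer (A : Set G) → M₁ ⊓ Subgroup.normalizer (A : Set G) = M₁ ⊓ M₂)) (h₁ : (Cfsg.generalizedFittingSubgroup ↥M₁).map M₁.subtype ≤ M₂) (h₂ : (Cfsg.generalizedFittingSubgroup ↥M₂).map M₂.subtype ≤ M₁) : ∃ p : ℕ, p.Prime ∧ Subgroup.centralizer (Cfsg.pCore p ↥M₁ : Set ↥M₁) ≤ Cfsg.pCore p ↥M₁ ∧ Subgroup.centralizer (Cfsg.pCore p ↥M₂ : Set ↥M₂) ≤ Cfsg.pCore p ↥M₂ ∧ (Cfsg.pCore p ↥M₁).map M₁.subtype ⊔ (Cfsg.pCore p ↥M₂).map M₂.subtype ≤ M₁ ⊓ M₂ := by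
  open Subgroup CfsgH9 in
  obtain ⟨p, a, b, c⟩ := (bs_self h₁ fun A a b c => ((hP A b (le_inf (a.trans (Fs_le _))
    (a.trans h₁))).1 c).le.trans inf_le_left).bender (bs_self h₂ fun A a b c => ((hP A b
      (le_inf (a.trans h₂) (a.trans (Fs_le _)))).2 c).le.trans inf_le_right) hne
  haveI := Fact.mk a
  exact ⟨p, a, chP_iff_sub.1 (chP_iff_isPGroup.2 b), chP_iff_sub.1 (chP_iff_isPGroup.2 c),
    sup_le (le_inf (Op_le p _) ((Op_le_Fit p _).trans ((Fit_le_Fs _).trans h₁)))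
      (le_inf ((Op_le_Fit p _).trans ((Fit_le_Fs _).trans h₂)) (Op_le p _))⟩

end Cfsg.Agent.S3752
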