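import Cfsg.Statements.S3753
import Mathlib
import Cfsg.Agent.H9.Bend

set_option autoImplicit false
open Cfsg

namespace Cfsg.Agent.S3753

/-- Two distinct subgroups M₁, M₂ of G form a primitive pair when, for {i, j} = {1, 2}, every non-trivial normal subgroup A of M_i contained in M₁ ∩ M₂ satisfies N_{M_j}(A) = M₁ ∩ M₂; the pair has characteristic p when moreover C_{M_i}(O_p(M_i)) ≤ O_p(M_i) for both i and O_p(M₁)O_p(M₂) ≤ M₁ ∩ M₂. If the finite group G has a primitive pair (M₁, M₂) of characteristic p for some prime p, then M₁ or M₂ has non-abelian Sylow 2-subgroups. In particular no group of odd order has a primitive pair of characteristic p. -/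
theorem result {G : Type*} [Group G] [Finite G] {p : ℕ} [Fact p.Prime] (M₁ M₂ : Subgroup G) (hne : M₁ ≠ M₂) (hP : ∀ A : Subgroup G, A ≠ ⊥ → A ≤ M₁ ⊓ M₂ → (M₁ ≤ Subgroup.normalizer (A : Set G) → M₂ ⊓ Subgroup.normalizer (A : Set G) = M₁ ⊓ M₂) ∧ (M₂ ≤ Subgroup.normalizer (A : Set G) → M₁ ⊓ Subgroup.normalizer (A : Set G) = M₁ ⊓ M₂)) (hc₁ : Subgroup.centralizer (Cfsg.pCore p ↥M₁ : Set ↥M₁) ≤ Cfsg.pCore p ↥M₁) (hc₂ : Subgroup.centralizer (Cfsg.pCore p ↥M₂ : Set ↥M₂) ≤ Cfsg.pCore p ↥M₂) (hO : (Cfsg.pCore p ↥M₁).map M₁.subtype ⊔ (Cfsg.pCore p ↥M₂).map M₂.subtype ≤ M₁ ⊓ M₂) : (∃ S : Sylow 2 ↥M₁, ¬ IsMulCommutative (S : Subgroup ↥M₁)) ∨ (∃ S : Sylow 2 ↥M₂, ¬ IsMulCommutative (S : Subgroup ↥M₂)) := by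
  open Subgroup CfsgH9 in
  by_contra! h
  have c1 : ChP p M₁ := chP_iff_sub.2 hc₁
  have c2 : ChP p M₂ := chP_iff_sub.2 hc₂
  have o1 : Op p M₁ ≤ M₂ := (le_sup_left.trans hO).trans inf_le_right
  have o2 : Op p M₂ ≤ M₁ := (le_sup_right.trans hO).trans inf_le_left
  have k : ∀ A ≤ M₁ ⊓ M₂, M₁ ≤ normalizer (A : Set G) → M₂ ≤ normalizer (A : Set G) → A = ⊥ :=
    fun A a b c => by_contra fun d => hne (le_antisymm
      ((le_inf le_rfl b).trans (((hP A d a).2 c).le.trans inf_le_right))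
      ((le_inf le_rfl c).trans (((hP A d a).1 b).le.trans inf_le_left)))
  have k2 : Op p M₁ ≠ Op p M₂ := fun e => by
    have a := k _ (le_inf (Op_le p _) o1) (le_normalizer_Op le_normalizer)
      (e ▸ le_normalizer_Op le_normalizer)
    exact hne ((by_contra fun b => c1.Op_ne_bot b a : M₁ = ⊥).trans
      (by_contra fun b => c2.Op_ne_bot b (e ▸ a) : M₂ = ⊥).symm)
  by_cases h2 : p = 2
  · subst h2
    have a : ∀ {M N : Subgroup G}, ChP 2 M → (∀ S : Sylow 2 M, IsMulCommutative (S : Subgroup M)) →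
        Op 2 N ≤ M → Op 2 N ≤ Op 2 M := fun {M N} c s o => by
      obtain ⟨T, hT, t⟩ := exists_syl_ge (Op_isPGroup 2 N) o
      obtain ⟨S, rfl⟩ := hT.exists_sylow
      refine c.le_Op_of_comm o (comm_bot_mono ?_ t hT.Op_le)
      rw [← map_commutator, isMulCommutative_iff_comm.1 (s S), Subgroup.map_bot]
    exact k2 (le_antisymm (a c2 h.2 o1) (a c1 h.1 o2))
  have st : ∀ M : Subgroup G, (∀ S : Sylow 2 M, IsMulCommutative (S : Subgroup M)) →
      CfsgL0.NSt p M := fun M s => CfsgL0.nst_of_pst (CfsgL0.pst_of_sl h2 (CfsgL0.sec_sub M)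
        (CfsgL0.not_sec_sl_of_ab h2 s))
  have m1 : M₁ ≠ ⊥ := fun e => k2 (by
    rw [e, le_bot_iff] at o2; rw [o2, e]; exact eq_bot_iff.2 (Op_le p _))
  have m2 : M₂ ≠ ⊥ := fun e => k2 (by
    rw [e, le_bot_iff] at o1; rw [o1, e]; exact (eq_bot_iff.2 (Op_le p _)).symm)
  have j2 := J_le_Op_of_prim c1 c2 (st _ h.1) (st _ h.2) m1 o1 o2 fun A a b c =>
    ((hP A b (le_inf (a.trans (Op_le p _)) (a.trans o1))).1 c).le.trans inf_le_left
  have j1 := J_le_Op_of_prim c2 c1 (st _ h.2) (st _ h.1) m2 o2 o1 fun A a b c =>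
    ((hP A b (le_inf (a.trans o2) (a.trans (Op_le p _)))).2 c).le.trans inf_le_right
  rw [sup_comm] at j1
  have e1 := CfsgL0.J_eq_of_le j1 le_sup_left
  have e2 := CfsgL0.J_eq_of_le j2 le_sup_right
  refine CfsgL0.J_ne_bot dvd_rfl (Op_isPGroup p M₁) (c1.Op_ne_bot m1) (k _ (CfsgL0.J_le.trans
    (le_inf (Op_le p _) o1)) ((le_normalizer_Op le_normalizer).trans CfsgL0.norm_le_norm_J) ?_)
  rw [e1, ← e2]
  exact (le_normalizer_Op le_normalizer).trans CfsgL0.norm_le_norm_J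

end Cfsg.Agent.S3753
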