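import Cfsg.Statements.S3754
import Mathlib
import Cfsg.Agent.H9.PIrr
import Cfsg.Agent.H9.Gen
import Cfsg.Agent.H9.Im
import Cfsg.Agent.H1.Sep
import Cfsg.Agent.H1.Frattini
import Cfsg.Agent.H2.Core

set_option autoImplicit false
open Cfsg

namespace Cfsg.Agent.S3754

/-- Let M be a finite p-soluble group and A a p-subgroup of M with Φ(A) ≤ O_p(M) but A ≰ O_p(M). Then there is x ∈ O_{p,p'}(M) such that L = ⟨A, xAx⁻¹⟩ satisfies: x ∈ O^p(L) and O^p(L) ≤ O_{p,p'}(M); [O^p(L), A] = O^p(L); A ∩ O_p(L) has index p in A; and [A ∩ O_p(L), L] ≤ O_p(M). Here O^p(L) is the subgroup generated by the p'-elements of L and O_{p,p'}(M) the preimage of O_{p'}(M/O_p(M)). -/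
theorem result {M : Type*} [Group M] [Finite M] {p : ℕ} [Fact p.Prime] (hM : Cfsg.IsPSolvable p M) (A : Subgroup M) (hA : IsPGroup p A) (hΦ : (frattini ↥A).map A.subtype ≤ Cfsg.pCore p M) (hnot : ¬ A ≤ Cfsg.pCore p M) : ∃ x ∈ (Cfsg.pPrimeCore p (M ⧸ Cfsg.pCore p M)).comap (QuotientGroup.mk' (Cfsg.pCore p M)), x ∈ (Cfsg.pResidual p ↥(A ⊔ A.map (MulAut.conj x).toMonoidHom)).map (A ⊔ A.map (MulAut.conj x).toMonoidHom).subtype ∧ (Cfsg.pResidual p ↥(A ⊔ A.map (MulAut.conj x).toMonoidHom)).map (A ⊔ A.map (MulAut.conj x).toMonoidHom).subtype ≤ (Cfsg.pPrimeCore p (M ⧸ Cfsg.pCore p M)).comap (QuotientGroup.mk' (Cfsg.pCore p M)) ∧ ⁅(Cfsg.pResidual p ↥(A ⊔ A.map (MulAut.conj x).toMonoidHom)).map (A ⊔ A.map (MulAut.conj x).toMonoidHom).subtype, A⁆ = (Cfsg.pResidual p ↥(A ⊔ A.map (MulAut.conj x).toMonoidHom)).map (A ⊔ A.map (MulAut.conj x).toMonoidHom).subtype ∧ (A ⊓ (Cfsg.pCore p ↥(A ⊔ A.map (MulAut.conj x).toMonoidHom)).map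 (A ⊔ A.map (MulAut.conj x).toMonoidHom).subtype).relIndex A = p ∧ ⁅A ⊓ (Cfsg.pCore p ↥(A ⊔ A.map (MulAut.conj x).toMonoidHom)).map (A ⊔ A.map (MulAut.conj x).toMonoidHom).subtype, A ⊔ A.map (MulAut.conj x).toMonoidHom⁆ ≤ Cfsg.pCore p M := by
  open Subgroup CfsgH9 in
  haveI : (pCore p M).Normal := normal_of_top_le (Op_top (G := M) p ▸ le_normalizer_Op le_normalizer)
  set f := QuotientGroup.mk' (pCore p M)
  set K := pPrimeCore p (M ⧸ pCore p M) with hK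
  have nK : ⊤ ≤ normalizer (K : Set (M ⧸ pCore p M)) :=
    hK ▸ Opp_top (G := M ⧸ pCore p M) p ▸ le_normalizer_Opp le_normalizer
  have cK : (Nat.card K).Coprime p := pPrimeCore_coprime p
  have hc : centralizer (K : Set (M ⧸ pCore p M)) ≤ K := by
    have := CfsgH1.centralizer_piCore_le (π := {p}ᶜ) (G := M ⧸ pCore p M) (by
      rw [compl_compl, Set.pair_comm]
      exact (CfsgH1.isPSolvable_iff Fact.out).1 (CfsgH1.IsPSolvable.quotient' hM _))
      (by rw [compl_compl, ← CfsgH2.pCore_eq, pCore_quotient_pCore])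
    rwa [← CfsgH2.pPrimeCore_eq] at this
  haveI := hA.isNilpotent
  have ab : ⁅A.map f, A.map f⁆ = ⊥ := by
    rw [← map_commutator]; exact map_mk_eq_bot_iff.2 ((CfsgH1.commutator_le_frattiniOf A).trans hΦ)
  have ea : IsElementaryAbelian p (A.map f) := ⟨CfsgH2.isMulComm_iff.2 (comm_bot_iff_forall.1 ab), by
    rintro _ ⟨a, ha, rfl⟩
    rw [← map_pow]
    exact (QuotientGroup.eq_one_iff _).2 (hΦ (CfsgH1.pow_mem_frattiniOf hA ha))⟩
  have pA := hA.map f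
  have a0 : A.map f ≠ ⊥ := mt map_mk_eq_bot_iff.1 hnot
  obtain ⟨B, hB, n⟩ := exists_hyp_not_le (Y := centralizer (A.map f : Set (M ⧸ pCore p M))) ea a0
    (le_top.trans nK) cK fun k => a0 (isPGroup_coprime_eq_bot pA
      (coprime_of_le ((le_centralizer_iff.1 k).trans hc) cK))
  set R := K ⊓ centralizer (B : Set (M ⧸ pCore p M))
  have cB : A.map f ≤ centralizer (B : Set (M ⧸ pCore p M)) :=
    comm_bot_iff.1 (comm_bot_mono ab le_rfl hB.1)
  have nR : A.map f ≤ normalizer (R : Set (M ⧸ pCore p M)) :=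
    le_normalizer_inf (le_top.trans nK) (cB.trans le_normalizer)
  have cR : (Nat.card R).Coprime p := coprime_of_le inf_le_left cK
  have sy := syl_sup_of_coprime pA cR nR
  have lL : ∀ x, f x ∈ R → (A ⊔ cj x A).map f ≤ A.map f ⊔ R := fun x hx => by
    rw [Subgroup.map_sup, map_cj]
    exact sup_le le_sup_left (cj_le_of_mem (mem_sup_right hx) le_sup_left)
  have oL : ∀ x, f x ∈ R → Oup p (A ⊔ cj x A) ≤ R.comap f := fun x hx => by
    rw [← map_le_iff_le_comap, map_Oup]; exact Oup_le_sup_of_isPGroup pA nR (lL x hx)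
  obtain ⟨x₀, hx₀, n⟩ := SetLike.not_le_iff_exists.1 n
  obtain ⟨x₀, rfl⟩ := QuotientGroup.mk'_surjective _ x₀
  obtain ⟨_, -, ⟨x, hx, rfl, np⟩, mn⟩ := exists_min_subgroup (P := fun L : Subgroup M => ∃ x, f x ∈ R ∧
    L = A ⊔ cj x A ∧ ¬ IsPGroup p (L.map f)) ⟨x₀, hx₀, rfl, fun k => n fun a ha => by
      have m : a⁻¹ * (f x₀ * a * (f x₀)⁻¹) ∈ (A ⊔ cj x₀ A).map f ⊓ R := ⟨by
        rw [Subgroup.map_sup, map_cj]; exact mul_mem_sup (inv_mem ha) (conj_mem_cj _ ha), by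
        have := (mem_normalizer_iff.1 (nR (inv_mem ha)) _).1 hx₀
        have k := mul_mem this (inv_mem hx₀)
        rw [inv_inv, mul_assoc, mul_assoc, ← mul_assoc _ a] at k
        exact k⟩
      rw [inf_eq_bot_of_p_pp k cR, mem_bot, inv_mul_eq_one, eq_mul_inv_iff_mul_eq] at m
      exact m⟩
  obtain ⟨P, s1, l1⟩ := exists_syl_ge hA (le_sup_left : A ≤ A ⊔ cj x A)
  obtain ⟨Q, s2, l2⟩ := exists_syl_ge (hA.map _) (le_sup_right : cj x A ≤ A ⊔ cj x A)
  obtain ⟨g, hg, e⟩ := s1.conj s2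
  obtain ⟨y, hy, s, hs, rfl⟩ := (mem_sup_of_le_normalizer' (s1.le.trans
    (le_normalizer_Oup le_normalizer))).1 (sup_comm P _ ▸ s1.sup_Oup.ge hg)
  rw [← cj_cj, cj_eq_of_mem hs] at e
  have e1 : P.map f = A.map f := sy.eq_of_le (s1.pg.map f) (map_mono l1) ((map_mono s1.le).trans (lL x hx))
  have e2 : Q.map f = (cj x A).map f := (map_cj f x A ▸ sy.cj_of_mem (le_normalizer (mem_sup_right hx))).eq_of_le
    (s2.pg.map f) (map_mono l2) ((map_mono s2.le).trans (lL x hx))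
  have ry : f y ∈ R := oL x hx hy
  have yL := Oup_le _ hy
  have e3 : A ⊔ cj y A = A ⊔ cj x A := mn _ (sup_le le_sup_left (cj_le_of_mem yL le_sup_left))
    ⟨y, ry, rfl, by rwa [Subgroup.map_sup, map_cj, ← e1, ← map_cj, e, e2, e1, ← Subgroup.map_sup]⟩
  rw [← e3] at hy np yL
  have oy := oL y ry
  have cL : (A ⊔ cj y A).map f ≤ centralizer (B : Set (M ⧸ pCore p M)) :=
    (lL y ry).trans (sup_le cB inf_le_right)
  refine ⟨y, ry.1, ?_⟩
  change y ∈ map _ _ ∧ map _ _ ≤ _ ∧ ⁅map _ _, _⁆ = map _ _ ∧ (A ⊓ Op p (A ⊔ cj y A)).relIndex A = p ∧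
    ⁅A ⊓ Op p (A ⊔ cj y A), A ⊔ cj y A⁆ ≤ _
  rw [Oup_eq]
  have l3 : B.comap f ⊓ (A ⊔ cj y A) ≤ Op p (A ⊔ cj y A) := le_Op (.of_normal inf_le_right
    (le_normalizer_inf (((map_le_iff_le_comap.1 (cL.trans (centralizer_le_normalizer _)))).trans
      (le_normalizer_comap f)) le_normalizer))
    ((isPGroup_comap_mk (pCore_isPGroup p) (pA.to_le hB.1)).to_le inf_le_left)
  have l4 : B.comap f ⊓ A ≤ A ⊓ Op p (A ⊔ cj y A) :=
    le_inf inf_le_right ((inf_le_inf_left _ le_sup_left).trans l3)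
  have i := relIndex_mul_relIndex _ _ _ l4 inf_le_left
  rw [inf_relIndex_right, relIndex_comap, (hyp_iff.1 hB).2] at i
  have i2 := ((Nat.Prime.eq_one_or_self_of_dvd Fact.out _ (Dvd.intro_left _ i))).resolve_left fun k => by
    have := (relIndex_eq_one.1 k).trans inf_le_right
    exact np (((Op_isPGroup p _).to_le (sup_le this (cj_le_of_mem_normalizer
      (le_normalizer_Op le_normalizer yL) this))).map f)
  rw [i2, Nat.mul_eq_right (Fact.out : p.Prime).ne_zero, relIndex_eq_one] at i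
  refine ⟨hy, oy.trans (comap_mono inf_le_left), comm_Oup_of_ncl le_sup_left (le_antisymm
    (ncl_le_of_le le_sup_left) (sup_le (le_ncl _ _) (cj_le_ncl yL))) hA, i2, ?_⟩
  rw [← map_mk_eq_bot_iff, map_commutator]
  exact comm_bot_iff'.2 (cL.trans (centralizer_anti (map_le_iff_le_comap.2 (i.trans inf_le_left))))

end Cfsg.Agent.S3754
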