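import Cfsg.Statements.S3756
import Cfsg.Agent.H2.S4H

set_option autoImplicit false
open Cfsg

namespace Cfsg.Agent.S3756
open CfsgH2

/-- Let G be a finite group of even order with O₂(G) = 1 such that every 2-local subgroup of G is solvable, of characteristic 2, and has no section isomorphic to the symmetric group of degree 4. Then every maximal 2-local subgroup of G is strongly embedded in G. -/
theorem result {G : Type*} [Group G] [Finite G] (heven : Even (Nat.card G)) (hO : Cfsg.pCore 2 G = ⊥) (hloc : ∀ M : Subgroup G, Cfsg.IsTwoLocal M → Group.IsSolvable M ∧ Cfsg.IsOfCharacteristicTwo ↥M ∧ ¬ Cfsg.Involves (Equiv.Perm (Fin 4)) ↥M) (M : Subgroup G) (hM : Cfsg.IsMaximalTwoLocal M) : Cfsg.IsStronglyEmbedded M := by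
  open Subgroup Function in open scoped commutatorElement in
  open CfsgL0 CfsgBG in
  have core : ∀ {M : Subgroup G}, IsMaximalTwoLocal M → N[M] ≤ M := fun {M} h => by
    obtain ⟨T, p, b, e⟩ := h.1
    have : O2[M] ≠ ⊥ := fun f =>
      b (le_bot_iff.1 (f ▸ le_pCoreOf (e ▸ le_normalizer) e.le p))
    exact norm_le_norm_piCoreOf.trans
      (h.2 _ ⟨_, isPGroup_piCoreOf, this, rfl⟩ le_norm_piCoreOf).le
  have cjl : ∀ {M : Subgroup G} (g : G), IsTwoLocal M → IsTwoLocal (M.map (cj g)) := by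
    rintro _ g ⟨T, p, b, rfl⟩
    exact ⟨T.map (cj g), p.map _, mt map_cj_eq_bot.1 b, (normalizer_map_cj g T).symm⟩
  have cjm : ∀ {M : Subgroup G} (g : G), IsMaximalTwoLocal M → IsMaximalTwoLocal (M.map (cj g)) :=
    fun g h => ⟨cjl g h.1, fun N hN l => by
      rw [← h.2 _ (cjl g⁻¹ hN) (map_cj_le_iff.1 l), map_cj_cj_inv]⟩
  have ne : ∀ {M : Subgroup G} {g : G}, IsMaximalTwoLocal M → g ∉ M → M ≠ M.map (cj g) :=
    fun h hg e => hg (core h (map_cj_eq_iff.1 e.symm))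
  have ml : ∀ {M T : Subgroup G}, IsMaximalTwoLocal M → Syl 2 T M → T ≠ ⊥ → ML M T := fun {M T} h t b => by
    obtain ⟨h1, h2, h3⟩ := hloc M h.1
    refine ⟨h1, ?_, mt i4_iff.2 h3, fun A a p l => (h.2 _ ⟨A, p, a, rfl⟩ l).le, t, b⟩
    rw [← map_subtype_top M]
    exact (inj_con (subtype_injective M)).2 (con_top_iff.1 h2)
  obtain ⟨T0, p0, b0, e0⟩ := hM.1
  refine ⟨fun e => b0 ?_, even_iff_two_dvd.2 ((dvd_card_of_pgroup p0 b0).trans
    (card_dvd_of_le (e0 ▸ le_normalizer))), fun g hg => ?_⟩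
  · haveI := normal_of_top_le_norm (e.ge.trans e0.le)
    exact le_bot_iff.1 (hO ▸ le_pCore p0)
  by_contra od
  obtain ⟨X, lX, cX⟩ := exists_card_prime_le Nat.prime_two
    (even_iff_two_dvd.1 (Nat.not_odd_iff_even.1 od))
  obtain ⟨T, ⟨M1, M2, m1, m2, n, l, p⟩, mx⟩ := exists_max_card (fun T : Subgroup G => ∃ M1 M2,
    IsMaximalTwoLocal M1 ∧ IsMaximalTwoLocal M2 ∧ M1 ≠ M2 ∧ T ≤ M1 ⊓ M2 ∧ IsPGroup 2 T)
    (H := X) ⟨M, _, hM, cjm g hM, ne hM hg, lX, isPGroup_of_card' cX⟩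
  have b : T ≠ ⊥ := fun e => by
    have := mx X ⟨M, _, hM, cjm g hM, ne hM hg, lX, isPGroup_of_card' cX⟩
    rw [e, card_bot, cX] at this
    omega
  obtain ⟨M3, l3, t3, m3⟩ := exists_maximal_ge IsTwoLocal (H := N[T]) ⟨T, p, b, rfl⟩
  have k1 : ∀ {K}, IsMaximalTwoLocal K → T ≤ K → K ≠ M3 → Syl 2 T K := fun m l n =>
    .of_norm l (.of_max (le_inf l le_normalizer) p fun Q q l1 l2 => (eq_of_le_of_card_le l1
      (mx Q ⟨_, _, m, ⟨t3, m3⟩, n, l2.trans (inf_le_inf_left _ l3), q⟩)).symm)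
  have k2 : ∀ {K L}, IsMaximalTwoLocal K → IsMaximalTwoLocal L → T ≤ K → Syl 2 T L → K = L := by
    intro K L m1 m2 l t
    obtain ⟨S, s, l2⟩ := exists_syl_ge p l
    obtain rfl | l3 := l2.eq_or_lt
    · exact (ml m1 s b).eq (ml m2 t b)
    obtain ⟨x, hx, h1⟩ := SetLike.exists_of_lt (lt_inf_norm (nil_of_pg s.pg) l3)
    refine absurd ((ml m2 t b).eq (ml (cjm x m2) ?_ b)) (ne m2 fun e => h1 ?_)
    · have := t.map_cj x
      rwa [map_cj_eq hx.2] at this
    · exact (t.eq_of_le (s.pg.to_le (sup_le l2 (zpowers_le.2 hx.1))) le_sup_left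
        (sup_le t.le (zpowers_le.2 e))).le (mem_sup_right (mem_zpowers x))
  by_cases c : M1 = M3
  · exact n (k2 m1 m2 (l.trans inf_le_left) (k1 m2 (l.trans inf_le_right) fun e => n (c.trans e.symm)))
  · exact n (k2 m2 m1 (l.trans inf_le_right) (k1 m1 (l.trans inf_le_left) c)).symm

end Cfsg.Agent.S3756
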