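import Cfsg.Statements.S3757
import Mathlib
import Cfsg.Agent.H9.SSF9

set_option autoImplicit false
open Cfsg

namespace Cfsg.Agent.S3757

/-- Let A and G be subgroups of a finite group with A an elementary abelian p-group of rank at least 3 (order at least p³) normalizing G, and G of order prime to p. If C_G(a) is solvable for every non-identity a ∈ A, then G is solvable. -/
theorem result {X : Type*} [Group X] [Finite X] {p : ℕ} [Fact p.Prime] (A G : Subgroup X) (hA : Cfsg.IsElementaryAbelian p A) (hrank : p ^ 3 ≤ Nat.card A) (hAG : A ≤ Subgroup.normalizer (G : Set X)) (hG : (Nat.card G).Coprime p) (hsol : ∀ a ∈ A, a ≠ 1 → Group.IsSolvable ↥(G ⊓ Subgroup.centralizer ({a} : Set X))) : Group.IsSolvable G := by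
  open Subgroup CfsgH9 in
  have h : SF p A fun a => G ⊓ centralizer ({a} : Set X) := ⟨hA, fun _ _ _ => inf_le_right,
    fun _ _ _ => coprime_of_le inf_le_left hG, fun a h1 _ => le_normalizer_inf hAG
      ((comm_bot_iff.1 (ea_comm hA)).trans (centralizer_anti (zpowers_le.2 h1)) |>.trans
        ((centralizer_zpowers a).le.trans le_normalizer)),
    fun _ _ _ _ _ _ => inf_le_inf_right _ inf_le_left, hsol⟩
  obtain ⟨W, h1, h2⟩ := h.cpl hrank
  exact isSolvable_of_le (ea_le_of_centralizers hA (h.rk2 hrank) hAG hG h2) h1.sol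

end Cfsg.Agent.S3757
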