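import Cfsg.Statements.S3760
import Cfsg.Agent.H1.Misc1

set_option autoImplicit false
open Cfsg

namespace Cfsg.Agent.S3760

/-- Let the group G act transitively on a set X, let x ∈ X with stabilizer H = G_x, and let K ≤ H. Then N_G(K) acts transitively on the set of fixed points of K if and only if every G-conjugate of K contained in H is already an H-conjugate of K. -/
theorem result {G : Type*} [Group G] {X : Type*} [MulAction G X] (htrans : ∀ a b : X, ∃ g : G, g • a = b) (x : X) (K : Subgroup G) (hK : K ≤ MulAction.stabilizer G x) : (∀ a b : X, (∀ k ∈ K, k • a = a) → (∀ k ∈ K, k • b = b) → ∃ g ∈ Subgroup.normalizer (K : Set G), g • a = b) ↔ ∀ g : G, K.map (MulAut.conj g).toMonoidHom ≤ MulAction.stabilizer G x → ∃ h ∈ MulAction.stabilizer G x, K.map (MulAut.conj g).toMonoidHom = K.map (MulAut.conj h).toMonoidHom := by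
  open Pointwise Subgroup CfsgH1 in
  open CfsgH2 hiding card_inf_mul_relIndex card_lt_of_lt card_lt_of_ne_top card_map_mul_card_inf_ker card_mul_relIndex card_subgroupOf card_sup_dvd card_sup_mul_card_inf exists_card_prime_le isNilpotent_map isNilpotent_of_le isPGroup_pCore isSolvable_map isSolvable_of_le le_pCore le_pPrimeCore relIndex_map_dvd in
  open scoped CfsgH2 in
  open scoped commutatorElement in
  · simp only [cj_def]
    refine ⟨fun h g hg => ?_, fun h a b ha hb => ?_⟩
    · obtain ⟨n, hn, e⟩ := h x (g⁻¹ • x) hK fun k hk => by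
        rw [← mul_smul, eq_inv_smul_iff, ← mul_smul, ← mul_assoc]
        exact hg (conj_mem_map_cj hk)
      exact ⟨g * n, by rw [MulAction.mem_stabilizer_iff, mul_smul, e, smul_inv_smul], (map_cj_mul_norm hn).symm⟩
    · have key : ∀ a, (∀ k ∈ K, k • a = a) → ∃ g ∈ N[K], g • a = x := fun a ha => by
        obtain ⟨g, hg⟩ := htrans a x
        obtain ⟨y, hy, e⟩ := h g (map_cj_le_iff'.2 fun k hk => by
          rw [MulAction.mem_stabilizer_iff, ← hg, mul_smul, mul_smul, inv_smul_smul, ha k hk])
        exact ⟨y⁻¹ * g, map_cj_eq_map_cj_iff.1 e, by rw [mul_smul, hg, inv_smul_eq_iff, hy]⟩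
      obtain ⟨g, hg, e⟩ := key a ha
      obtain ⟨g', hg', e'⟩ := key b hb
      exact ⟨g'⁻¹ * g, mul_mem (inv_mem hg') hg, by rw [mul_smul, e, inv_smul_eq_iff, e']⟩

end Cfsg.Agent.S3760
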