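import Cfsg.Statements.S3761
import Cfsg.Agent.H2.MaxCl3

set_option autoImplicit false
open Cfsg

namespace Cfsg.Agent.S3761
open CfsgH2

/-- Let G be a finite non-abelian p-group with a cyclic normal subgroup U of order p^n such that C_G(U) = U. Then either p = 2 and G is dihedral, generalized quaternion or semidihedral of order 2^(n+1); or, writing U₁ for the subgroup generated by the p-th powers of elements of U and M = C_G(U₁), the subgroup U has index p in M and the subgroup Ω₁(M) generated by the elements of M of order dividing p is elementary abelian of order p² and characteristic in G. -/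
theorem result {G : Type*} [Group G] [Finite G] {p : ℕ} [Fact p.Prime] (hG : IsPGroup p G) (hna : ¬ IsMulCommutative G) (U : Subgroup G) [U.Normal] (hU : IsCyclic U) (n : ℕ) (hUn : Nat.card U = p ^ n) (hC : Subgroup.centralizer (U : Set G) = U) : (p = 2 ∧ Nat.card G = 2 ^ (n + 1) ∧ ((∃ m : ℕ, Nonempty (G ≃* DihedralGroup m)) ∨ (∃ m : ℕ, Nonempty (G ≃* QuaternionGroup m)) ∨ Cfsg.IsQuasiDihedral G)) ∨ (U.relIndex (Subgroup.centralizer (Cfsg.powerClosure p 1 U : Set G)) = p ∧ Cfsg.IsElementaryAbelian p (Cfsg.omegaOne p (Subgroup.centralizer (Cfsg.powerClosure p 1 U : Set G))) ∧ Nat.card ↥(Cfsg.omegaOne p (Subgroup.centralizer (Cfsg.powerClosure p 1 U : Set G))) = p ^ 2 ∧ (Cfsg.omegaOne p (Subgroup.centralizer (Cfsg.powerClosure p 1 U : Set G))).Characteristic) := by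
  open Subgroup Function in
  have h0 : Cfsg.IsSCN ⊤ U := ⟨le_top, top_le_norm_iff.2 inferInstance, by rw [top_inf_eq, hC]⟩
  rcases scn_cyclic (isPGroup_top_iff.2 hG) hU h0 (fun e => hna (isMulComm_top_iff.1 e)) with
    ⟨rfl, a, b, m, rfl, h⟩ | ⟨h1, h2⟩
  · left
    rw [Nat.card_zpowers, h.ord, Nat.pow_right_inj (by norm_num)] at hUn
    subst hUn
    refine ⟨rfl, by rw [← card_top, h.card], ?_⟩
    rcases h.types with e | e | e
    · exact Or.inl ⟨_, e⟩
    · exact Or.inr (Or.inl ⟨_, e⟩)
    · exact Or.inr (Or.inr e.2)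
  · right
    rw [top_inf_eq] at h1 h2
    refine ⟨h1, h2.el, h2.card, ?_⟩
    have hE : (Cfsg.omegaOne p C[Cfsg.powerClosure p 1 U]).Normal := normal_of_top_le_norm
      (le_norm_omegaOne' (le_norm_cent (h0.2.1.trans norm_le_norm_powerClosure)))
    rw [characteristic_iff_map_eq]
    intro φ
    have h3 := (inj_el (f := φ.toMonoidHom) φ.injective).2 h2
    have h4 := hE.map φ.toMonoidHom φ.surjective
    refine h2.eq_of_le h3 (elem_le_omegaOne h3.el fun f hf => ?_)
    obtain ⟨a, rfl⟩ := isCyclic_iff_zpowers.1 hU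
    rw [powerClosure_zpowers, cent_zpowers, mem_centralizer_singleton_iff]
    have h5 : f * a * f⁻¹ ∈ zpowers a := Normal.conj_mem inferInstance _ (mem_zpowers a) f
    have h6 := h3.exp _ (mul_mem hf (h4.conj_mem _ (inv_mem hf) a))
    rw [show f * (a * f⁻¹ * a⁻¹) = f * a * f⁻¹ * a⁻¹ by group, Commute.mul_pow
      (commute_of_mem_zpowers h5 (inv_mem (mem_zpowers a))), conj_pow, inv_pow, mul_inv_eq_one,
      mul_inv_eq_iff_eq_mul] at h6
    exact h6

end Cfsg.Agent.S3761
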