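import Cfsg.Statements.S3766
import Mathlib
import Cfsg.Agent.L0.M2

set_option autoImplicit false
open Cfsg

namespace Cfsg.Agent.S3766

open Cfsg Subgroup CfsgH2 CfsgL0
open scoped commutatorElement

/-- Let G be a finite solvable group and N a normal subgroup of G. Call a pair V < U of normal subgroups of G a chief factor of G when no normal subgroup of G lies strictly between them; an element g centralizes the chief factor U/V when u g u⁻¹ g⁻¹ ∈ V for all u ∈ U. Then an element of G lies in the Fitting subgroup F(N) if and only if it lies in N and centralizes every chief factor of G; and also if and only if it lies in N and centralizes every chief factor U/V of G with U ≤ F(N). -/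
theorem result {G : Type*} [Group G] [Finite G] (hG : Group.IsSolvable G) (N : Subgroup G) [N.Normal] (g : G) : (g ∈ (Cfsg.fittingSubgroup ↥N).map N.subtype ↔ g ∈ N ∧ ∀ U V : Subgroup G, (U.Normal ∧ V.Normal ∧ V < U ∧ ∀ W : Subgroup G, W.Normal → V ≤ W → W ≤ U → W = V ∨ W = U) → ∀ u ∈ U, u * g * u⁻¹ * g⁻¹ ∈ V) ∧ (g ∈ (Cfsg.fittingSubgroup ↥N).map N.subtype ↔ g ∈ N ∧ ∀ U V : Subgroup G, (U.Normal ∧ V.Normal ∧ V < U ∧ ∀ W : Subgroup G, W.Normal → V ≤ W → W ≤ U → W = V ∨ W = U) → U ≤ (Cfsg.fittingSubgroup ↥N).map N.subtype → ∀ u ∈ U, u * g * u⁻¹ * g⁻¹ ∈ V) := by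
  have hchf : ∀ U V : Subgroup G, (U.Normal ∧ V.Normal ∧ V < U ∧ ∀ W : Subgroup G, W.Normal → V ≤ W → W ≤ U → W = V ∨ W = U) ↔ Chf ⊤ U V := fun U V =>
    ⟨fun ⟨h1, h2, h3, h4⟩ => ⟨h3, le_top, top_le_norm_iff.2 h1, top_le_norm_iff.2 h2,
      fun L a b c => h4 L (top_le_norm_iff.1 c) a b⟩,
     fun h => ⟨top_le_norm_iff.1 h.nX, top_le_norm_iff.1 h.nY, h.lt,
      fun W a b c => h.min W b c (top_le_norm_iff.2 a)⟩⟩
  have nN : (⊤ : Subgroup G) ≤ N[N] := top_le_norm_iff.2 inferInstance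
  have A : g ∈ F[N] → g ∈ N ∧ ∀ U V, Chf ⊤ U V → ∀ u ∈ U, u * g * u⁻¹ * g⁻¹ ∈ V := fun hg =>
    ⟨fit_le hg, fun U V h u hu =>
      h.comm_nil_le le_top (le_norm_fit' nN) fit_nil (commutator_mem_commutator hu hg)⟩
  have B : (g ∈ N ∧ ∀ U V, Chf ⊤ U V → U ≤ F[N] → ∀ u ∈ U, u * g * u⁻¹ * g⁻¹ ∈ V) → g ∈ F[N] := by
    rintro ⟨hg, h⟩
    obtain ⟨D, -, nD, h1, h2⟩ := exists_chf_stab (⊤ : Subgroup G) (fun X Y => X ≤ F[N])
    have hgD : zpowers g ≤ D := h2 _ le_top fun X Y hXY hX => by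
      haveI := top_le_norm_iff.1 hXY.nY
      exact comm_zpowers_le (h X Y hXY hX)
    refine le_fit_of_chf (D := D ⊓ N) (M := ⊤) inferInstance inf_le_right le_top (le_norm_inf nD nN)
      (fun X Y hXY hX => (commutator_mono le_rfl inf_le_left).trans (h1 X Y hXY hX))
      ⟨hgD (mem_zpowers g), hg⟩
  simp only [hchf]
  exact ⟨⟨A, fun h => B ⟨h.1, fun U V a _ => h.2 U V a⟩⟩,
    ⟨fun h => ⟨(A h).1, fun U V a _ => (A h).2 U V a⟩, B⟩⟩

end Cfsg.Agent.S3766
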