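import Cfsg.Statements.S3770
import Mathlib
import Cfsg.Agent.H1.BG3a

set_option autoImplicit false
open Cfsg

namespace Cfsg.Agent.S3770

open Cfsg Subgroup CfsgH2

/-- Let G and V be subgroups of a finite group with G a Frobenius group with complement R of prime order and kernel K, G normalizing V, and V an elementary abelian ℓ-group for a prime ℓ not dividing the order of G. If C_V(R) has order ℓ, then the derived subgroup of K centralizes V. -/
theorem result {X : Type*} [Group X] [Finite X] (G : Subgroup X) (V : Subgroup X) {ℓ : ℕ} (hℓ : ℓ.Prime) (hV : Cfsg.IsElementaryAbelian ℓ V) (hℓG : ¬ ℓ ∣ Nat.card G) (hGV : G ≤ Subgroup.normalizer (V : Set X)) (R : Subgroup ↥G) (hR : Cfsg.IsFrobeniusComplement R) (hRp : (Nat.card R).Prime) (hCV : Nat.card ↥(V ⊓ Subgroup.centralizer ((R.map G.subtype : Subgroup X) : Set X)) = ℓ) : ⁅Subgroup.closure (Subtype.val '' Cfsg.frobeniusKernel R), Subgroup.closure (Subtype.val '' Cfsg.frobeniusKernel R)⁆ ≤ Subgroup.centralizer (V : Set X) := by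
  haveI := Fact.mk hℓ
  obtain ⟨K, hK⟩ := CfsgH1.exists_frob hR
  have h1 := (CfsgH1.Frob.map_iff G.subtype_injective).2 hK
  rw [← MonoidHom.range_eq_map, range_subtype] at h1
  have h2 := CfsgH1.bg35_elem h1 hV hGV hℓG (isCyclic_of_card_prime hℓ hCV)
  have e : Subgroup.closure (Subtype.val '' Cfsg.frobeniusKernel R) = K.map G.subtype := by
    rw [hK.kernel_eq]
    exact closure_eq (K.map G.subtype)
  rwa [e]

end Cfsg.Agent.S3770
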