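import Cfsg.Statements.S3772
import Cfsg.Agent.H2.Gs2

set_option autoImplicit false
open Cfsg

namespace Cfsg.Agent.S3772
open CfsgH2

/-- Let G be a finite 2-group whose Frattini subgroup Φ(G) has order 2, with |G : Φ(G)| = 2^d, and let j be the number of elements x of G with x² = 1. Then j = 2^d, or j = 2^d + 2^(d−r) or j = 2^d − 2^(d−r) for some positive integer r with 2r ≤ d. Moreover if d = 2r and j is 2^d + 2^r or 2^d − 2^r, then G is extraspecial. -/
theorem result {G : Type*} [Group G] [Finite G] (hG : IsPGroup 2 G) (hΦ : Nat.card (frattini G) = 2) (d : ℕ) (hd : (frattini G).index = 2 ^ d) : (Nat.card {x : G // x ^ 2 = 1} = 2 ^ d ∨ ∃ r : ℕ, 1 ≤ r ∧ 2 * r ≤ d ∧ (Nat.card {x : G // x ^ 2 = 1} = 2 ^ d + 2 ^ (d - r) ∨ Nat.card {x : G // x ^ 2 = 1} + 2 ^ (d - r) = 2 ^ d)) ∧ (∀ r : ℕ, d = 2 * r → (Nat.card {x : G // x ^ 2 = 1} = 2 ^ d + 2 ^ r ∨ Nat.card {x : G // x ^ 2 = 1} + 2 ^ r = 2 ^ d) → Cfsg.IsExtraspecial 2 G) := by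
  open Subgroup Function in open scoped commutatorElement in
  · haveI := Fact.mk Nat.prime_two
    have hG' : IsPGroup 2 (⊤ : Subgroup G) := hG.to_subgroup _
    rw [← CfsgH1.frattiniOf_top] at hΦ hd
    have hc : Φ[(⊤ : Subgroup G)] ≤ C[(⊤ : Subgroup G)] := le_centralizer_iff.1 (le_cent_of_card_prime hG' le_norm_phi hΦ)
    have sg := sg_of_card hΦ hc (comm_le_phi hG'.isNilpotent) fun _ => pow_mem_phi hG'
    have hcard : Nat.card G = 2 ^ (d + 1) := by rw [← (Φ[(⊤ : Subgroup G)]).card_mul_index, hΦ, hd, pow_succ']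
    obtain ⟨k, hk⟩ := exists_card_eq_pow (hG.to_subgroup Z[(⊤ : Subgroup G)])
    have k1 : 1 ≤ k := by
      have := card_le_of_le (le_inf le_top hc)
      rw [hΦ, hk] at this
      exact (Nat.pow_le_pow_iff_right one_lt_two).1 (by simpa using this)
    have h1 := sg.D_sq perp_sgn
    have h2 := DD_top (G := G)
    rw [hcard] at h2
    rw [card_top, hcard] at h1
    have key : DD (⊤ : Subgroup G) = 0 ∨ ∃ r, 1 ≤ r ∧ 2 * r + k = d + 1 ∧ DD (⊤ : Subgroup G) ^ 2 = (2 ^ (d + 1 - r)) ^ 2 := by
      rcases sg.D_rad perp_sgn with ⟨h, h'⟩ | ⟨h, -⟩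
      · right
        rw [h, hk] at h1
        have k2 : k < d + 1 := by
          refine (Nat.pow_lt_pow_iff_right one_lt_two).1 ?_
          rw [← hk, ← hcard]
          refine card_lt_of_ne_top fun e => ?_
          rw [phi_eq_bot (p := 2) ⟨isMulComm_of_le_cent (e.ge.trans inf_le_right), fun x hx => sgn_eq_one.1 (h' x (e.ge hx))⟩,
            card_bot] at hΦ
          omega
        have h3 : (DD (⊤ : Subgroup G)).natAbs ^ 2 = 2 ^ (d + 1 + k) := by
          zify; rw [sq_abs, pow_add]; exact_mod_cast h1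
        obtain ⟨j, -, hj⟩ := (Nat.dvd_prime_pow Nat.prime_two).1 (h3 ▸ dvd_pow_self _ two_ne_zero :
          (DD (⊤ : Subgroup G)).natAbs ∣ 2 ^ (d + 1 + k))
        rw [hj, ← pow_mul] at h3
        have := Nat.pow_right_injective le_rfl h3
        refine ⟨d + 1 - j, by omega, by omega, ?_⟩
        rw [show d + 1 - (d + 1 - j) = j by omega, ← sq_abs, Int.abs_eq_natAbs, hj]; rfl
      · left
        rw [h, mul_zero] at h1
        exact pow_eq_zero_iff two_ne_zero |>.1 h1
    refine ⟨?_, fun r hr hs => ?_⟩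
    · rcases key with h | ⟨r, r1, r2, h⟩
      · left; zify; push_cast at h2; rw [pow_succ] at h2; linarith
      · refine .inr ⟨r, r1, by omega, ?_⟩
        rw [show d + 1 - r = d - r + 1 by omega] at h
        zify; push_cast at h2
        rcases sq_eq_sq_iff_eq_or_eq_neg.1 h with h | h
        · left; rw [pow_succ] at h h2; linarith
        · right; rw [pow_succ] at h h2; linarith
    · have h3 : DD (⊤ : Subgroup G) ^ 2 = (2 ^ (r + 1)) ^ 2 := by
        zify at hs; push_cast at h2
        refine sq_eq_sq_iff_eq_or_eq_neg.2 ?_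
        rcases hs with h | h
        · left; linear_combination h2 + 2 * h
        · right; linear_combination h2 + 2 * h
      rcases key with h | ⟨s, r1, r2, h⟩
      · rw [h] at h3; exact absurd h3.symm (by positivity)
      rw [h3, ← pow_mul, ← pow_mul] at h
      have := Nat.pow_right_injective le_rfl (by exact_mod_cast h : 2 ^ ((r + 1) * 2) = 2 ^ ((d + 1 - s) * 2))
      obtain rfl : k = 1 := by omega
      refine extraspecial_top_iff.2 ⟨⟨hG', hk, (comm_le_phi hG'.isNilpotent).trans (le_inf le_top hc)⟩, fun e => ?_⟩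
      rw [center_eq_self e, card_top, hcard] at hk
      have := Nat.pow_right_injective le_rfl hk
      omega

end Cfsg.Agent.S3772
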