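import Cfsg.Statements.S3773
import Cfsg.Agent.H1.Misc1
import Cfsg.Agent.H1.LX
import Cfsg.Agent.H9.Tech2

set_option autoImplicit false
open Cfsg

namespace Cfsg.Agent.S3773

section
open Subgroup CfsgH2
open CfsgH1 hiding card_inf_mul_relIndex card_lt_of_lt card_lt_of_ne_top card_map_mul_card_inf_ker card_mul_relIndex card_subgroupOf card_sup_dvd card_sup_mul_card_inf coprime_le_sup_cent exists_card_prime_le isNilpotent_map isNilpotent_of_le isPGroup_pCore isSolvable_map isSolvable_of_le le_pCore le_pPrimeCore relIndex_map_dvd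
open scoped CfsgH1
open scoped commutatorElement

def Zd {G : Type*} [Group G] : ℕ → (G → ZMod 2) → Prop
  | 0, f => ∀ x, f x = 0
  | d + 1, f => ∀ g, Zd d fun x => f (x * g) + f x

section
variable {G : Type*} [Group G] {d : ℕ} {f h : G → ZMod 2}

theorem Zd.add (h1 : Zd d f) (h2 : Zd d h) : Zd d fun x => f x + h x := by
  induction d generalizing f h with
  | zero => exact fun x => by simp only [h1 x, h2 x, add_zero]
  | succ d ih => exact fun g => by simpa only [add_add_add_comm] using ih (h1 g) (h2 g)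

theorem Zd.succ (h1 : Zd d f) : Zd (d + 1) f := by
  induction d generalizing f with
  | zero => exact fun g x => by simp only [h1 x, h1 (x * g), add_zero]
  | succ d ih => exact fun g => ih (h1 g)

theorem Zd.zero (h1 : ∀ x, f x = 0) : Zd d f := by
  induction d with
  | zero => exact h1
  | succ d ih => exact ih.succ

theorem Zd.tr (h1 : Zd d f) (g : G) : Zd d fun x => f (x * g) := by
  simpa only [add_assoc, CharTwo.add_self_eq_zero, add_zero] using (h1.succ g).add h1

theorem Zd.mul (n : ℕ) : ∀ (a b : ℕ) (f h : G → ZMod 2), a + b ≤ n + 1 → Zd a f → Zd b h → Zd n fun x => f x * h x := by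
  induction n with
  | zero =>
    intro a b f h e h1 h2
    rcases a with _ | a
    · exact Zd.zero fun x => by rw [h1 x, zero_mul]
    · obtain rfl : b = 0 := by omega
      exact Zd.zero fun x => by rw [h2 x, mul_zero]
  | succ n ih =>
    intro a b f h e h1 h2
    rcases a with _ | a
    · exact Zd.zero fun x => by rw [h1 x, zero_mul]
    rcases b with _ | b
    · exact Zd.zero fun x => by rw [h2 x, mul_zero]
    intro g
    convert (ih a (b + 1) _ _ (by omega) (h1 g) (h2.tr g)).add (ih (a + 1) b _ _ (by omega) h1 (h2 g)) using 2 with x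
    linear_combination (-(f x * h (x * g))) * CharTwo.two_eq_zero (R := ZMod 2)

open Classical in
noncomputable def ind (H : Subgroup G) (x : G) : ZMod 2 := if x ∈ H then 1 else 0

theorem ind_of {H : Subgroup G} {x : G} (hx : x ∈ H) : ind H x = 1 := if_pos hx

theorem ind_ne {H : Subgroup G} (hd : Zd d (ind H)) : ∃ e, d = e + 1 := by
  rcases d with _ | d
  · exact absurd ((ind_of H.one_mem).symm.trans (hd 1)) one_ne_zero
  · exact ⟨d, rfl⟩

theorem ind_mul {L H : Subgroup G} (i : L.relIndex H = 2) {a b : G} (ha : a ∈ H) (hb : b ∈ H) : ind L (a * b) = ind L a + ind L b + 1 := by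
  have := mul_mem_iff_of_index_two (H := L.subgroupOf H) i (a := ⟨a, ha⟩) (b := ⟨b, hb⟩)
  simp only [mem_subgroupOf, coe_mul] at this
  unfold ind
  by_cases h1 : a ∈ L <;> by_cases h2 : b ∈ L <;> simp [this, h1, h2] <;> decide

theorem ind_step {L H : Subgroup G} (l : L ≤ H) (i : L.relIndex H = 2) (hd : Zd (d + 1) (ind L)) : Zd d (ind H) := by
  obtain ⟨g, hg, ng⟩ := SetLike.not_le_iff_exists.1 fun h : H ≤ L => absurd (relIndex_eq_one.2 h ▸ i : 1 = 2) (by decide)
  convert hd g using 2 with x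
  by_cases hx : x ∈ H
  · rw [ind_mul i hx hg, ind_of hx, show ind L g = 0 from if_neg ng]
    linear_combination (-ind L x) * CharTwo.two_eq_zero (R := ZMod 2)
  · rw [show ind H x = 0 from if_neg hx, show ind L x = 0 from if_neg fun k => hx (l k), show ind L (x * g) = 0 from if_neg fun k => hx ((mul_mem_cancel_right hg).1 (l k)), add_zero]

theorem ind_deg [Finite G] (hG : IsPGroup 2 G) (m : ℕ) : ∀ {d : ℕ} {K H : Subgroup G}, K ≤ H → K.relIndex H = 2 ^ m → Zd d (ind K) → ∃ e, d = e + 1 + m ∧ Zd (e + 1) (ind H) := by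
  haveI : Fact (Nat.Prime 2) := ⟨Nat.prime_two⟩
  induction m with
  | zero =>
    intro d K H l i hd
    obtain ⟨e, rfl⟩ := ind_ne hd
    exact ⟨e, rfl, le_antisymm l (relIndex_eq_one.1 i) ▸ hd⟩
  | succ m ih =>
    intro d K H l i hd
    obtain ⟨L, l1, l2, -, l3⟩ := exists_maximal_sub (hG.to_subgroup H) (lt_of_le_of_ne l fun e => by rw [e, relIndex_self] at i; omega)
    obtain ⟨e, rfl, he⟩ := ih l1 (by have := relIndex_mul_relIndex K L H l1 l2; rw [l3, i, pow_succ] at this; omega) hd
    obtain ⟨e, rfl⟩ := ind_ne (ind_step l2 l3 he)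
    exact ⟨e, by omega, ind_step l2 l3 he⟩

theorem chain [Finite G] {N K : Subgroup G} (hN : IsElementaryAbelian 2 N) {s : G → G} {c : ℕ}
    (hc : ∀ M, K ≤ M → M.relIndex N = 2 → Zd (c + 1) fun x => ind M (s x)) (k : ℕ) :
    ∀ {d : ℕ} {L : Subgroup G}, K ≤ L → L ≤ N → K.relIndex L = 2 ^ k → Zd (d + 1) (fun x => ind L (s x)) → Zd (d + c * k + 1) fun x => ind K (s x) := by
  haveI : Fact (Nat.Prime 2) := ⟨Nat.prime_two⟩
  induction k with
  | zero => exact fun l _ i hd => le_antisymm l (relIndex_eq_one.1 i) ▸ hd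
  | succ k ih =>
    intro d L l lN i hd
    obtain ⟨L', l1, l2, -, l3⟩ := exists_maximal_sub ((elem_pgroup hN).to_le lN) (lt_of_le_of_ne l fun e => by rw [e, relIndex_self] at i; omega)
    obtain ⟨B, b1, b2⟩ := exists_compl_of_elem Nat.prime_two hN lN
    have bN : B ≤ N := b2 ▸ le_sup_right
    have nm : ∀ {X Y : Subgroup G}, X ≤ N → Y ≤ N → X ≤ N[Y] := fun h1 h2 => h1.trans (le_norm_of_le_cent (le_cent_of_comm hN.1 h2))
    have e : (L' ⊔ B) ⊓ L = L' := le_antisymm (fun x hx => by
      obtain ⟨a, ha, b, hb, rfl⟩ := (mem_sup_of_norm (nm (l2.trans lN) bN)).1 hx.1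
      rw [mem_bot.1 (b1.le ⟨(mul_mem_cancel_left (l2 ha)).1 hx.2, hb⟩), mul_one]; exact ha) (le_inf le_sup_left l2)
    have i2 : (L' ⊔ B).relIndex N = 2 := by
      rw [show N = L ⊔ (L' ⊔ B) by rw [← sup_assoc, sup_eq_left.2 l2, b2], relIndex_sup_of_norm (nm lN (sup_le (l2.trans lN) bN)), ← inf_relIndex_right, e, l3]
    rw [show d + c * (k + 1) = d + c + c * k by ring]
    refine ih l1 (l2.trans lN) (by have := relIndex_mul_relIndex K L' L l1 l2; rw [l3, i, pow_succ] at this; omega) ?_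
    convert Zd.mul (d + c + 1) _ _ _ _ (by omega) (hc _ (l1.trans le_sup_left) i2) hd using 2 with x
    have : s x ∈ L' ↔ s x ∈ L' ⊔ B ∧ s x ∈ L := by rw [← mem_inf, e]
    unfold ind
    by_cases h1 : s x ∈ L' ⊔ B <;> by_cases h2 : s x ∈ L <;> simp [this, h1, h2]
end

end

/-- Let G be a finite 2-group of nilpotency class at most 2 and exponent dividing 4 in which the elements x with x² = 1 form a subgroup N. Then |G| ≤ |N|³, and |G| < |N|³ unless G is special. -/
theorem result {G : Type*} [Group G] [Finite G] (hG : IsPGroup 2 G) (hcl : (⊤ : Subgroup G).lowerCentralSeries 2 = ⊥) (hexp : ∀ x : G, x ^ 4 = 1) (hN : ∀ x y : G, x ^ 2 = 1 → y ^ 2 = 1 → (x * y) ^ 2 = 1) : Nat.card G ≤ Nat.card {x : G // x ^ 2 = 1} ^ 3 ∧ (¬ Cfsg.IsSpecial 2 G → Nat.card G < Nat.card {x : G // x ^ 2 = 1} ^ 3) := by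
  open Subgroup CfsgH2 in
  open CfsgH1 hiding card_inf_mul_relIndex card_lt_of_lt card_lt_of_ne_top card_map_mul_card_inf_ker card_mul_relIndex card_subgroupOf card_sup_dvd card_sup_mul_card_inf coprime_le_sup_cent exists_card_prime_le isNilpotent_map isNilpotent_of_le isPGroup_pCore isSolvable_map isSolvable_of_le le_pCore le_pPrimeCore relIndex_map_dvd in
  open scoped CfsgH1 in
  open scoped commutatorElement in
  · haveI : Fact (Nat.Prime 2) := ⟨Nat.prime_two⟩
    obtain ⟨N, mN⟩ : ∃ N : Subgroup G, ∀ x, x ∈ N ↔ x ^ 2 = 1 :=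
      ⟨{ carrier := {x | x ^ 2 = 1}, mul_mem' := hN _ _, one_mem' := one_pow 2, inv_mem' := fun {x} hx => by rw [Set.mem_setOf_eq, inv_pow, hx, inv_one] }, fun _ => Iff.rfl⟩
    rw [Nat.card_congr (Equiv.subtypeEquivRight fun x => (mN x).symm)]
    change Nat.card G ≤ Nat.card N ^ 3 ∧ (_ → Nat.card G < Nat.card N ^ 3)
    have ea : IsElementaryAbelian 2 N := CfsgH9.ea_of_sq fun x => (mN x).1
    have sN : ∀ x : G, x ^ 2 ∈ N := fun x => (mN _).2 (by rw [← pow_mul]; exact hexp x)
    have dz : commutator G ≤ center G := fun x hx => mem_center_iff.2 fun g => by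
      rw [eq_comm, ← commutatorElement_eq_one_iff_mul_comm]
      exact mem_bot.1 (hcl.le (commutator_mem_commutator hx (mem_top g)))
    have cD : ∀ x g : G, x⁻¹ * g * x * g⁻¹ ∈ commutator G := fun x g => by
      simpa only [commutatorElement_def, inv_inv, commutator_def] using commutator_mem_commutator (mem_top x⁻¹) (mem_top g)
    have ex : ∀ x g : G, (x * g) ^ 2 = x ^ 2 * (x⁻¹ * g * x * g⁻¹) * g ^ 2 := fun x g => by simp only [pow_two]; group
    have cN : ∀ x g : G, x⁻¹ * g * x * g⁻¹ ∈ N := fun x g => (mul_mem_cancel_left (sN x)).1 ((mul_mem_cancel_right (sN g)).1 (ex x g ▸ sN _))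
    have dN : commutator G ≤ N := commutator_le.2 fun x _ g _ => by simpa only [commutatorElement_def, inv_inv] using cN x⁻¹ g
    have t2 := CharTwo.two_eq_zero (R := ZMod 2)
    have d1 : ∀ {M : Subgroup G}, M.relIndex N = 2 → ∀ x g : G, ind M ((x * g) ^ 2) + ind M (x ^ 2) = ind M (x⁻¹ * g * x * g⁻¹) + ind M (g ^ 2) := fun {M} i x g => by
      rw [ex, ind_mul i (mul_mem (sN x) (cN x g)) (sN g), ind_mul i (sN x) (cN x g)]
      linear_combination (ind M (x ^ 2) + 1) * t2
    have z3 : ∀ K M : Subgroup G, K ≤ M → M.relIndex N = 2 → Zd (2 + 1) fun x => ind M (x ^ 2) := fun K M _ i g h k x => by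
      have : ∀ x : G, (x * h)⁻¹ * g * (x * h) * g⁻¹ = x⁻¹ * g * x * g⁻¹ * (h⁻¹ * g * h * g⁻¹) := fun x => by
        calc _ = h⁻¹ * (x⁻¹ * g * x * g⁻¹) * (g * h * g⁻¹) := by group
          _ = _ := by rw [mem_center_iff.1 (dz (cD x g))]; group
      simp only [d1 i]
      rw [this, this x, ind_mul i (cN _ _) (cN _ _), ind_mul i (cN x g) (cN _ _)]
      linear_combination (ind M ((x * k)⁻¹ * g * (x * k) * g⁻¹) + ind M (x⁻¹ * g * x * g⁻¹) + ind M (h⁻¹ * g * h * g⁻¹) + 1 + 2 * ind M (g ^ 2)) * t2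
    have z2 : ∀ M : Subgroup G, commutator G ≤ M → M.relIndex N = 2 → Zd (1 + 1) fun x => ind M (x ^ 2) := fun M l i g h x => by
      simp only [d1 i, ind_of (l (cD _ _)), CharTwo.add_self_eq_zero]
    have z0 : Zd (0 + 1) fun x : G => ind N (x ^ 2) := fun g x => by simp only [ind_of (sN _), CharTwo.add_self_eq_zero]
    have fin : ∀ {d m : ℕ} {K H : Subgroup G}, (∀ x, x ∈ H ↔ x ^ 2 ∈ K) → H.relIndex ⊤ = 2 ^ m → Zd (d + 1) (fun x => ind K (x ^ 2)) → m ≤ d := fun {d m K H} h i hd => by
      obtain ⟨e, he, -⟩ := ind_deg hG m le_top i (d := d + 1) (by rw [show ind H = fun x => ind K (x ^ 2) from funext fun x => by unfold ind; rw [propext (h x)]]; exact hd)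
      omega
    obtain ⟨n, hn⟩ := (hG.to_subgroup N).exists_card_eq
    obtain ⟨m, hm⟩ := exists_relIndex_eq_pow (hG.to_subgroup ⊤) N
    have cG : Nat.card G = 2 ^ (n + m) := by rw [← N.card_mul_index, hn, ← relIndex_top_right, hm, pow_add]
    have mb : ∀ x, x ∈ N ↔ x ^ 2 ∈ (⊥ : Subgroup G) := fun x => (mN x).trans mem_bot.symm
    have h1 := fin mb hm (chain ea (z3 ⊥) n bot_le le_rfl (by rw [relIndex_bot_left, hn]) z0)
    rw [cG, hn, ← pow_mul, Nat.pow_le_pow_iff_right one_lt_two, Nat.pow_lt_pow_iff_right one_lt_two]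
    refine ⟨by omega, fun ns => not_le.1 fun h2 => ns ?_⟩
    have eD : commutator G = N := by
      obtain ⟨a, ha⟩ := exists_relIndex_eq_pow (hG.to_subgroup N) (commutator G)
      obtain ⟨b, hb⟩ := (hG.to_subgroup (commutator G)).exists_card_eq
      have h3 := fin mb hm (chain ea (z3 ⊥) b bot_le dN (by rw [relIndex_bot_left, hb]) (chain ea z2 a dN le_rfl ha z0))
      have h4 := relIndex_mul_relIndex ⊥ _ _ bot_le dN
      rw [relIndex_bot_left, relIndex_bot_left, ha, hb, hn, ← pow_add, Nat.pow_right_inj one_lt_two] at h4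
      exact le_antisymm dN (relIndex_eq_one.1 (by rw [ha, show a = 0 by omega, pow_zero]))
    have eZ : center G = N := le_antisymm (fun z hz => by
      by_contra nz
      have o : orderOf (z ^ 2) = 2 := orderOf_eq_prime ((mN _).1 (sN z)) fun e => nz ((mN z).2 e)
      have zc := mem_center_iff.1 hz
      let H : Subgroup G := {
        carrier := {x | x ∈ N ∨ x * z ∈ N}
        one_mem' := Or.inl N.one_mem
        mul_mem' := fun {a b} ha hb => by
          rcases ha with ha | ha <;> rcases hb with hb | hb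
          · exact Or.inl (mul_mem ha hb)
          · exact Or.inr (mul_assoc a b z ▸ mul_mem ha hb)
          · exact Or.inr (by rw [mul_assoc, zc b, ← mul_assoc]; exact mul_mem ha hb)
          · refine Or.inl ((mul_mem_cancel_right (sN z)).1 ?_)
            rw [pow_two, ← mul_assoc, mul_assoc a, zc b, ← mul_assoc, mul_assoc]; exact mul_mem ha hb
        inv_mem' := fun {a} ha => ha.imp inv_mem fun ha => by
          convert mul_mem (inv_mem ha) (sN z) using 1
          rw [zc a, mul_inv_rev, pow_two, mul_assoc, inv_mul_cancel_left] }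
      have mH : ∀ x, x ∈ H ↔ x ^ 2 ∈ zpowers (z ^ 2) := fun x => by
        rw [mem_zp2 o]
        refine or_congr (mN x) ((mN _).trans ?_)
        rw [(show Commute x z from zc x).mul_pow, mul_eq_one_iff_eq_inv, inv_of_two o]
      have iH : N.relIndex H = 2 := relIndex_eq_two_iff.2 ⟨z, Or.inr (pow_two z ▸ sN z), fun b hb => by
        by_cases h : b ∈ N
        · exact Or.inr ⟨h, fun k => nz ((mul_mem_cancel_left h).1 k)⟩
        · exact Or.inl ⟨hb.resolve_left h, h⟩⟩
      obtain ⟨a, ha⟩ := exists_relIndex_eq_pow (hG.to_subgroup N) (zpowers (z ^ 2))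
      obtain ⟨b, hb⟩ := exists_relIndex_eq_pow (hG.to_subgroup ⊤) H
      have l := zpowers_le.2 (sN z)
      have h3 := fin mH hb (chain ea (z3 _) a l le_rfl ha z0)
      have h4 := relIndex_mul_relIndex ⊥ _ _ bot_le l
      have h5 := relIndex_mul_relIndex N H ⊤ (fun _ => Or.inl) le_top
      rw [relIndex_bot_left, relIndex_bot_left, ha, Nat.card_zpowers, o, hn, ← pow_succ', Nat.pow_right_inj one_lt_two] at h4
      rw [iH, hb, hm, ← pow_succ', Nat.pow_right_inj one_lt_two] at h5
      omega) (eD ▸ dz)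
    haveI := hG.isNilpotent
    exact ⟨hG, eZ ▸ le_antisymm (frattini_le_of_elementary_quotient Nat.prime_two dN sN) (eD ▸ commutator_le_frattini), eD.trans eZ.symm⟩

end Cfsg.Agent.S3773
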