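import Cfsg.Statements.S3774
import Cfsg.Agent.H3.Hv3

set_option autoImplicit false
open Cfsg

namespace Cfsg.Agent.S3774
open Subgroup CfsgH2 CfsgHv MulAction

/-- Let G be a nontrivial finite 2-group whose automorphism group permutes the involutions of G transitively. Then every involution of G is central, so that the involutions together with 1 form the subgroup Ω₁(Z(G)), and if this subgroup has order q then |G| is a power of q. -/
theorem result {G : Type*} [Group G] [Finite G] [Nontrivial G] (hG : IsPGroup 2 G) (htrans : ∀ x y : G, x ≠ 1 → x ^ 2 = 1 → y ≠ 1 → y ^ 2 = 1 → ∃ a : MulAut G, a x = y) : (∀ x : G, x ^ 2 = 1 → x ∈ Subgroup.center G) ∧ ∃ m : ℕ, Nat.card G = Nat.card {z : G // z ^ 2 = 1} ^ m := by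
  obtain ⟨Z, -, hZ, cZ⟩ := exists_central_card_p (p := 2) (P := (⊤ : Subgroup G)) (H := ⊤)
    (hG.to_subgroup _) (by rw [norm_top]) (dvd_card_of_pgroup (hG.to_subgroup _) top_ne_bot)
  obtain ⟨z, hz, oz⟩ := exists_prime_order_mem Nat.prime_two (cZ ▸ dvd_rfl : 2 ∣ Nat.card Z)
  have z1 : z ≠ 1 := fun e => by simp [e] at oz
  have z2 : z ^ 2 = 1 := oz ▸ pow_orderOf_eq_one z
  have zc : z ∈ center G := cent_top (G := G) ▸ hZ hz
  have h1 : ∀ x : G, x ^ 2 = 1 → x ∈ center G := by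
    intro x hx
    by_cases x1 : x = 1
    · simp [x1]
    obtain ⟨a, rfl⟩ := htrans z x z1 z2 x1 hx
    rw [mem_center_iff] at zc ⊢
    intro g
    obtain ⟨g, rfl⟩ := a.surjective g
    rw [← map_mul, ← map_mul, zc]
  refine ⟨h1, ?_⟩
  let V : Subgroup G := ⟨⟨⟨{z | z ^ 2 = 1}, fun {a b} ha hb => by
    simp only [Set.mem_setOf_eq] at *
    rw [(show Commute a b from (mem_center_iff.1 (h1 b hb) a)).mul_pow, ha, hb, one_mul]⟩, by simp⟩,
    fun {a} ha => by simpa using ha⟩
  change ∃ m, _ = Nat.card V ^ m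
  obtain ⟨k, hk⟩ := exists_card_eq_pow (hG.to_subgroup V)
  obtain ⟨n, hn⟩ := IsPGroup.iff_card.1 hG
  have ho : Nat.card (orbit (MulAut G) z) = 2 ^ k - 1 := by
    have : orbit (MulAut G) z = (V : Set G) \ {1} := by
      ext y
      constructor
      · rintro ⟨a, rfl⟩
        exact ⟨by change (a z) ^ 2 = 1; rw [← map_pow, z2, map_one], by simpa using z1⟩
      · rintro ⟨h, h'⟩
        exact htrans z y z1 z2 h' h
    rw [this, Nat.card_coe_set_eq, Set.ncard_diff_singleton_of_mem (one_mem V), ← hk]; rfl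
  have := card_modEq_one (G := MulAut G) (1 : G) (2 ^ k - 1) (fun g => map_one g) fun x x1 => by
    obtain ⟨j, hj⟩ := IsPGroup.iff_orderOf.1 hG x
    obtain _ | j := j
    · exact absurd (orderOf_eq_one_iff.1 hj) x1
    obtain ⟨a, ha⟩ := htrans z (x ^ 2 ^ j) z1 z2 (half_ne_one hj) (by rw [sq]; exact half_sq hj)
    rw [← ho, ← orbit_eq_iff.2 (⟨a, ha⟩ : x ^ 2 ^ j ∈ orbit (MulAut G) z), Nat.card_coe_set_eq,
      Nat.card_coe_set_eq, ← index_stabilizer, ← index_stabilizer]
    exact index_dvd_of_le fun b hb => by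
      change b (x ^ 2 ^ j) = _
      rw [map_pow, show b x = x from hb]
  rw [hn] at this
  have h2 := Nat.gcd_eq_left ((Nat.modEq_iff_dvd' Nat.one_le_two_pow).1 this.symm)
  rw [Nat.pow_sub_one_gcd_pow_sub_one] at h2
  have h3 : 2 ^ k.gcd n = 2 ^ k := by
    have := Nat.one_le_two_pow (n := k.gcd n); have := Nat.one_le_two_pow (n := k); omega
  obtain ⟨m, rfl⟩ := Nat.gcd_eq_left_iff_dvd.1 (Nat.pow_right_injective le_rfl h3)
  exact ⟨m, by rw [hn, hk, pow_mul]⟩


end Cfsg.Agent.S3774
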