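import Cfsg.Statements.S3775
import Cfsg.Agent.H1.Misc1

set_option autoImplicit false
open Cfsg

namespace Cfsg.Agent.S3775

section
open Subgroup CfsgH2
open CfsgH1 hiding card_inf_mul_relIndex card_lt_of_lt card_lt_of_ne_top card_map_mul_card_inf_ker card_mul_relIndex card_subgroupOf card_sup_dvd card_sup_mul_card_inf exists_card_prime_le isNilpotent_map isNilpotent_of_le isPGroup_pCore isSolvable_map isSolvable_of_le le_pCore le_pPrimeCore relIndex_map_dvd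
open scoped CfsgH1
open scoped commutatorElement

theorem mas {A : Type*} [CommGroup A] [Finite A] {p : ℕ} (hp : p.Prime) {X : Subgroup (MulAut A)} (hX : (Nat.card X).Coprime p)
    {K L M : Subgroup A} (hKM : K ≤ M) (iK : ∀ x ∈ X, ∀ a ∈ K, x a ∈ K) (iL : ∀ x ∈ X, ∀ a ∈ L, x a ∈ L) (iM : ∀ x ∈ X, ∀ a ∈ M, x a ∈ M)
    (hLM : L ≤ M) (hM : ∀ a ∈ M, a ^ p ∈ K) : ∃ U, (∀ x ∈ X, ∀ a ∈ U, x a ∈ U) ∧ K ≤ U ∧ U ≤ M ∧ L ⊓ U ≤ K ∧ M ≤ L ⊔ U := by
  classical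
  haveI := Fintype.ofFinite X
  obtain ⟨B, ⟨b1, b2, b3⟩, bm⟩ := exists_maximal_of_wellFoundedGT (fun B : Subgroup A => K ≤ B ∧ B ≤ M ∧ L ⊓ B ≤ K) ⟨K, le_rfl, hKM, inf_le_right⟩
  have cop : ∀ {H : Subgroup A} {a : A} {k : ℤ}, IsCoprime k (p : ℤ) → a ^ k ∈ H → a ^ p ∈ H → a ∈ H := fun {H a k} ⟨u, v, h⟩ h1 h2 => by
    rw [← zpow_one a, ← h, zpow_add, zpow_mul', zpow_mul', zpow_natCast]
    exact mul_mem (zpow_mem h1 _) (zpow_mem h2 _)
  have b4 : M ≤ L ⊔ B := fun m hm => by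
    by_contra h
    refine h (mem_sup_right (bm (y := B ⊔ zpowers m) ⟨b1.trans le_sup_left, sup_le b2 (zpowers_le.2 hm), fun l hl => ?_⟩ le_sup_left (mem_sup_right (mem_zpowers m))))
    obtain ⟨b, hb, _, ⟨k, rfl⟩, rfl⟩ := mem_sup.1 hl.2
    by_cases hk : (p : ℤ) ∣ k
    · obtain ⟨c, rfl⟩ := hk
      exact b3 ⟨hl.1, mul_mem hb (show m ^ (p * c : ℤ) ∈ B by rw [zpow_mul, zpow_natCast]; exact zpow_mem (b1 (hM m hm)) c)⟩
    · exact absurd (cop ((Nat.prime_iff_prime_int.1 hp).irreducible.coprime_iff_not_dvd.2 hk).symm ((mul_mem_cancel_left (mem_sup_right hb)).1 (mem_sup_left hl.1)) (mem_sup_right (b1 (hM m hm)))) h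
  have cX : IsCoprime (Fintype.card X : ℤ) (p : ℤ) := Nat.isCoprime_iff_coprime.2 (by rwa [Nat.card_eq_fintype_card] at hX)
  refine ⟨{ carrier := {m | m ∈ M ∧ ∃ l : X → A, (∀ x, l x ∈ L ∧ x.1 (m * (l x)⁻¹) ∈ B) ∧ ∏ x, l x ∈ K}
            mul_mem' := fun {a b} ⟨ha, l, l1, l2⟩ ⟨hb, k, k1, k2⟩ => ⟨mul_mem ha hb, l * k, fun x => ⟨mul_mem (l1 x).1 (k1 x).1, by
              rw [Pi.mul_apply, mul_inv, mul_mul_mul_comm, map_mul]; exact mul_mem (l1 x).2 (k1 x).2⟩, by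
              simp only [Pi.mul_apply, Finset.prod_mul_distrib]; exact mul_mem l2 k2⟩
            one_mem' := ⟨one_mem _, 1, fun x => ⟨one_mem _, by simp⟩, by simp⟩
            inv_mem' := fun {a} ⟨ha, l, l1, l2⟩ => ⟨inv_mem ha, l⁻¹, fun x => ⟨inv_mem (l1 x).1, by
              rw [Pi.inv_apply, ← mul_inv, map_inv]; exact inv_mem (l1 x).2⟩, by
              simp only [Pi.inv_apply, Finset.prod_inv_distrib]; exact inv_mem l2⟩ }, ?_, ?_, fun a h => h.1, ?_, ?_⟩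
  · rintro y hy a ⟨ha, l, l1, l2⟩
    refine ⟨iM y hy a ha, fun x => y (l (x * ⟨y, hy⟩)), fun x => ⟨iL y hy _ (l1 _).1, ?_⟩, ?_⟩
    · rw [← map_inv, ← map_mul]; exact (l1 (x * ⟨y, hy⟩)).2
    · rw [← map_prod]; exact iK y hy _ ((Equiv.prod_comp (Equiv.mulRight (⟨y, hy⟩ : X)) l).symm ▸ l2 : ∏ x, l (Equiv.mulRight (⟨y, hy⟩ : X) x) ∈ K)
  · exact fun a ha => ⟨hKM ha, 1, fun x => ⟨one_mem _, by simpa using b1 (iK _ x.2 a ha)⟩, by simp⟩
  · rintro m ⟨hm, hm', l, l1, l2⟩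
    refine cop cX ?_ (hM m hm')
    have : ∏ x, m * (l x)⁻¹ ∈ K := prod_mem fun x _ => by
      simpa using iK _ (inv_mem x.2) _ (b3 ⟨iL _ x.2 _ (mul_mem hm (inv_mem (l1 x).1)), (l1 x).2⟩)
    rw [Finset.prod_mul_distrib, Finset.prod_inv_distrib, Finset.prod_const, Finset.card_univ] at this
    rw [zpow_natCast]
    exact (mul_mem_cancel_right (inv_mem l2)).1 this
  · intro m hm
    have : ∀ x : X, ∃ l ∈ L, x.1 (m * l⁻¹) ∈ B := fun x => by
      obtain ⟨l, hl, b, hb, e⟩ := mem_sup.1 (b4 (iM _ x.2 m hm))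
      exact ⟨x.1⁻¹ l, iL _ (inv_mem x.2) l hl, by simpa [← e, mul_comm l b] using hb⟩
    choose l l1 l2 using this
    obtain ⟨u, v, h⟩ := cX
    have tL : ∏ x, l x ∈ L := prod_mem fun x _ => l1 x
    rw [← mul_inv_cancel_comm_assoc ((∏ x, l x) ^ u) m]
    refine mul_mem_sup (zpow_mem tL u) ⟨mul_mem hm (inv_mem (hLM (zpow_mem tL u))), fun x => l x * ((∏ x, l x) ^ u)⁻¹, fun x => ⟨mul_mem (l1 x) (inv_mem (zpow_mem tL u)), by
      convert l2 x using 2; rw [mul_inv, inv_inv, mul_mul_mul_comm, inv_mul_cancel, mul_one]⟩, ?_⟩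
    rw [Finset.prod_mul_distrib, Finset.prod_const, Finset.card_univ, inv_pow, ← zpow_natCast, ← zpow_mul, eq_sub_of_add_eq h, zpow_sub, zpow_one, mul_inv, inv_inv, mul_inv_cancel_left, zpow_mul', zpow_natCast]
    exact zpow_mem (hM _ (hLM tL)) v

end

/-- Let A be a finite abelian p-group and X a group of automorphisms of A of order prime to p. Call a subgroup of A invariant when every element of X maps it onto itself. Then the following are equivalent: (i) A is not the direct product of two nontrivial invariant subgroups; (ii) every invariant subgroup of A is one of the subgroups Ω_i(A) = {a : a^(p^i) = 1}; (iii) the subgroup Ω₁(A) of elements of order dividing p has no invariant subgroups other than 1 and itself. -/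
theorem result {A : Type*} [CommGroup A] [Finite A] {p : ℕ} [Fact p.Prime] (hA : IsPGroup p A) (X : Subgroup (MulAut A)) (hX : (Nat.card X).Coprime p) : ((¬ ∃ B C : Subgroup A, B ≠ ⊥ ∧ C ≠ ⊥ ∧ (∀ x ∈ X, B.map x.toMonoidHom = B) ∧ (∀ x ∈ X, C.map x.toMonoidHom = C) ∧ B ⊓ C = ⊥ ∧ B ⊔ C = ⊤) ↔ (∀ B : Subgroup A, (∀ x ∈ X, B.map x.toMonoidHom = B) → ∃ i : ℕ, ∀ a : A, a ∈ B ↔ a ^ p ^ i = 1)) ∧ ((∀ B : Subgroup A, (∀ x ∈ X, B.map x.toMonoidHom = B) → ∃ i : ℕ, ∀ a : A, a ∈ B ↔ a ^ p ^ i = 1) ↔ (∀ B : Subgroup A, (∀ x ∈ X, B.map x.toMonoidHom = B) → (∀ b ∈ B, b ^ p = 1) → B = ⊥ ∨ ∀ a : A, a ∈ B ↔ a ^ p = 1)) := by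
  open Subgroup CfsgH2 in
  open CfsgH1 hiding card_inf_mul_relIndex card_lt_of_lt card_lt_of_ne_top card_map_mul_card_inf_ker card_mul_relIndex card_subgroupOf card_sup_dvd card_sup_mul_card_inf exists_card_prime_le isNilpotent_map isNilpotent_of_le isPGroup_pCore isSolvable_map isSolvable_of_le le_pCore le_pPrimeCore relIndex_map_dvd in
  open scoped CfsgH1 in
  open scoped commutatorElement in
  · have hp : p.Prime := Fact.out
    have iv : ∀ B : Subgroup A, (∀ x ∈ X, B.map x.toMonoidHom = B) ↔ ∀ x ∈ X, ∀ a ∈ B, x a ∈ B := fun B =>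
      ⟨fun h x hx a ha => (h x hx).le (mem_map_of_mem _ ha), fun h x hx => le_antisymm (map_le_iff_le_comap.2 (h x hx)) fun a ha => ⟨x⁻¹ a, h _ (inv_mem hx) a ha, by simp⟩⟩
    simp only [iv]
    have mono : ∀ {a : A} {i j : ℕ}, i ≤ j → a ^ p ^ i = 1 → a ^ p ^ j = 1 := fun {a i j} h e => by
      obtain ⟨d, rfl⟩ := Nat.exists_eq_add_of_le h
      rw [pow_add, pow_mul, e, one_pow]
    have iP : ∀ (n : ℕ) (B : Subgroup A), (∀ x ∈ X, ∀ a ∈ B, x a ∈ B) → ∀ x ∈ X, ∀ a ∈ B.map (powMonoidHom n), x a ∈ B.map (powMonoidHom n) := by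
      rintro n B h x hx _ ⟨a, ha, rfl⟩
      exact ⟨x a, h x hx a ha, (map_pow x a n).symm⟩
    have iC : ∀ (n : ℕ) (B : Subgroup A), (∀ x ∈ X, ∀ a ∈ B, x a ∈ B) → ∀ x ∈ X, ∀ a ∈ B.comap (powMonoidHom n), x a ∈ B.comap (powMonoidHom n) := fun n B h x hx a ha =>
      mem_comap.2 (by rw [powMonoidHom_apply, ← map_pow]; exact h x hx _ ha)
    have iB : ∀ x ∈ X, ∀ a ∈ (⊥ : Subgroup A), x a ∈ (⊥ : Subgroup A) := fun x _ a ha => by rw [mem_bot.1 ha, map_one]; exact one_mem _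
    have iS : ∀ B C : Subgroup A, (∀ x ∈ X, ∀ a ∈ B, x a ∈ B) → (∀ x ∈ X, ∀ a ∈ C, x a ∈ C) → ∀ x ∈ X, ∀ a ∈ B ⊔ C, x a ∈ B ⊔ C := fun B C h k x hx a ha => by
      obtain ⟨b, hb, c, hc, rfl⟩ := mem_sup.1 ha
      rw [map_mul]; exact mul_mem_sup (h x hx b hb) (k x hx c hc)
    obtain ⟨E, hE⟩ := isPGroup_iff_exists_orderOf_dvd_pow.1 hA
    replace hE : ∀ a : A, a ^ p ^ E = 1 := fun a => orderOf_dvd_iff_pow_eq_one.1 (hE a)
    refine (fun (h21 : _ → _) (h13 : _ → _) (h32 : _ → _) => ⟨⟨fun h => h32 (h13 h), h21⟩, fun h => h13 (h21 h), h32⟩) ?_ ?_ ?_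
    · rintro h ⟨B, C, b0, c0, hB, hC, e, -⟩
      obtain ⟨i, hi⟩ := h B hB
      obtain ⟨j, hj⟩ := h C hC
      rcases le_total i j with k | k
      · exact b0 (e ▸ (inf_eq_left.2 fun a ha => (hj a).2 (mono k ((hi a).1 ha))).symm)
      · exact c0 (e ▸ (inf_eq_right.2 fun a ha => (hi a).2 (mono k ((hj a).1 ha))).symm)
    · intro h W hW wp
      refine (em _).imp_right fun w0 a => ⟨wp a, fun ha => ?_⟩
      obtain ⟨⟨w, hw⟩, w1⟩ := ne_bot_iff_exists_ne_one.1 w0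
      replace w1 : w ≠ 1 := fun e => w1 (Subtype.ext e)
      obtain ⟨e, e1, e2⟩ := Nat.exists_not_and_succ_of_not_zero_of_exists (p := fun e => ∀ a : A, a ^ p ^ e = 1) (fun k => w1 (by simpa using k w)) ⟨E, hE⟩
      push Not at e1
      obtain ⟨B, ⟨iB', b, hb, b1⟩, bm⟩ := exists_minimal_of_wellFoundedLT (fun B : Subgroup A => (∀ x ∈ X, ∀ a ∈ B, x a ∈ B) ∧ ∃ b ∈ B, b ^ p ^ e ≠ 1)
        ⟨⊤, fun _ _ _ _ => mem_top _, e1.imp fun a h => ⟨mem_top _, h⟩⟩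
      have k : ∀ c ∈ B, c ^ p ^ e = 1 → c ∈ B.map (powMonoidHom p) := fun c hc c1 => by
        obtain ⟨U, u1, u2, u3, u4, u5⟩ := mas hp hX (K := B.map (powMonoidHom p)) (L := B ⊓ comap (powMonoidHom (p ^ e)) ⊥) (M := B) (by rintro _ ⟨a, ha, rfl⟩; exact pow_mem ha p)
          (iP p B iB') (fun x hx a ha => ⟨iB' x hx a ha.1, iC _ _ iB x hx a ha.2⟩) iB' inf_le_left fun a ha => mem_map_of_mem (powMonoidHom p) ha
        refine u4 ⟨⟨hc, c1⟩, bm ⟨u1, ?_⟩ u3 hc⟩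
        obtain ⟨l, hl, u, hu, rfl⟩ := mem_sup.1 (u5 hb)
        exact ⟨u, hu, fun k => b1 (by rw [mul_pow, k, mul_one]; exact hl.2)⟩
      obtain ⟨C, ⟨iC', c0⟩, cm⟩ := exists_maximal_of_wellFoundedGT (fun C : Subgroup A => (∀ x ∈ X, ∀ a ∈ C, x a ∈ C) ∧ B ⊓ C = ⊥) ⟨⊥, iB, inf_bot_eq _⟩
      have t : B ⊔ C = ⊤ := by
        obtain ⟨U, u1, u2, u3, u4, u5⟩ := mas hp hX (K := C) (L := comap (powMonoidHom p) C ⊓ (B ⊔ C)) (M := comap (powMonoidHom p) C) (fun a ha => pow_mem ha p)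
          iC' (fun x hx a ha => ⟨iC _ _ iC' x hx a ha.1, iS _ _ iB' iC' x hx a ha.2⟩) (iC _ _ iC') inf_le_left fun a ha => ha
        have l : comap (powMonoidHom p) C ≤ B ⊔ C := u5.trans (sup_le inf_le_right ((cm ⟨u1, eq_bot_iff.2 fun a ha => c0.le ⟨ha.1, u4 ⟨⟨u3 ha.2, mem_sup_left ha.1⟩, ha.2⟩⟩⟩ u2).trans le_sup_right))
        have s : ∀ a : A, a ^ p ∈ B ⊔ C → a ∈ B ⊔ C := fun a ha => by
          obtain ⟨b, hb, c, hc, e3⟩ := mem_sup.1 ha
          have : b ^ p ^ e * c ^ p ^ e = 1 := by rw [← mul_pow, e3, ← pow_mul, ← pow_succ', e2]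
          obtain ⟨d, hd, rfl⟩ := k b hb (mem_bot.1 (c0.le ⟨pow_mem hb _, show _ ∈ C from eq_inv_of_mul_eq_one_left this ▸ inv_mem (pow_mem hc _)⟩))
          refine (mul_mem_cancel_right (inv_mem (mem_sup_left hd))).1 (l (mem_comap.2 ?_))
          rw [powMonoidHom_apply, mul_pow, ← e3, inv_pow, powMonoidHom_apply, mul_inv_cancel_comm]; exact hc
        have : ∀ (n : ℕ) (a : A), a ^ p ^ n ∈ B ⊔ C → a ∈ B ⊔ C := fun n => by
          induction n with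
          | zero => simp
          | succ n ih => exact fun a ha => s a (ih _ (by rwa [← pow_mul, ← pow_succ']))
        exact eq_top_iff.2 fun a _ => this E a (hE a ▸ one_mem _)
      have bt : B = ⊤ := by
        by_contra n
        exact h ⟨B, C, fun e => b1 (by rw [mem_bot.1 (e.le hb), one_pow]), fun e => n (by rw [← t, e, sup_bot_eq]), iB', iC', c0, t⟩
      subst bt
      have r : ∀ x : A, x ^ p = 1 → ∀ j ≤ e, ∃ a, a ^ p ^ j = x := fun x hx j => by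
        induction j with
        | zero => exact fun _ => ⟨x, by simp⟩
        | succ j ih =>
          intro hj
          obtain ⟨a, rfl⟩ := ih (by omega)
          obtain ⟨d, -, rfl⟩ := k a (mem_top a) (mono hj (by rwa [pow_succ, pow_mul]))
          exact ⟨d, by rw [powMonoidHom_apply, ← pow_mul, ← pow_succ']⟩
      obtain ⟨c, rfl⟩ := r w (wp w hw) e le_rfl
      obtain ⟨d, rfl⟩ := r a ha e le_rfl
      exact bm (y := comap (powMonoidHom (p ^ e)) W) ⟨iC _ _ hW, c, hw, w1⟩ le_top (mem_top d)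
    · intro h B hB
      suffices ∀ (e : ℕ) (B : Subgroup A), (∀ x ∈ X, ∀ a ∈ B, x a ∈ B) → (∀ b ∈ B, b ^ p ^ e = 1) → ∃ i : ℕ, ∀ a : A, a ∈ B ↔ a ^ p ^ i = 1 from this E B hB fun b _ => hE b
      intro e
      induction e with
      | zero => exact fun B _ k => ⟨0, fun a => ⟨k a, fun ha => by rw [pow_zero, pow_one] at ha; exact ha ▸ one_mem _⟩⟩
      | succ e ih =>
        intro B hB k
        by_cases b0 : ∀ b ∈ B, b ^ p ^ e = 1
        · exact ih B hB b0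
        push Not at b0
        obtain ⟨b, hb, b1⟩ := b0
        obtain ⟨i, hi⟩ := ih _ (iP p B hB) (by rintro _ ⟨a, ha, rfl⟩; rw [powMonoidHom_apply, ← pow_mul, ← pow_succ']; exact k a ha)
        have o := (h (B ⊓ comap (powMonoidHom p) ⊥) (fun x hx a ha => ⟨hB x hx a ha.1, iC _ _ iB x hx a ha.2⟩) fun a ha => ha.2).resolve_left
          fun z => b1 (mem_bot.1 (z.le ⟨pow_mem hb _, mem_comap.2 (by rw [powMonoidHom_apply, ← pow_mul, ← pow_succ, k b hb]; exact one_mem _)⟩))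
        refine ⟨i + 1, fun a => ⟨fun ha => by rw [pow_succ', pow_mul]; exact (hi _).1 (mem_map_of_mem (powMonoidHom p) ha), fun ha => ?_⟩⟩
        obtain ⟨c, hc, e3⟩ := (hi (a ^ p)).2 (by rwa [← pow_mul, ← pow_succ'])
        exact (mul_mem_cancel_right (inv_mem hc)).1 ((o _).2 (by rw [mul_pow, ← e3, inv_pow, powMonoidHom_apply, mul_inv_cancel])).1

end Cfsg.Agent.S3775
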