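import Cfsg.Statements.S3779
import Mathlib
import Cfsg.Agent.H9.Lie2
import Cfsg.Agent.S0033

set_option autoImplicit false
open Cfsg

namespace Cfsg.Agent.S3779

/-- Let G be a finite group with an automorphism of prime order p fixing only the identity. Then G is nilpotent; if p = 2 then G is abelian, if p = 3 then G has class at most 2, and in general the class of G is at most ξ = 1 + (p−1) + (p−1)² + ⋯ + (p−1)^(n−1) with n = 2^(p−1) − 1 (the Higman–Kreknin–Kostrikin bound). -/
theorem result {G : Type*} [Group G] [Finite G] {p : ℕ} (hp : p.Prime) (α : MulAut G) (hα : orderOf α = p) (hfpf : ∀ g : G, α g = g → g = 1) : (p = 2 → (⊤ : Subgroup G).lowerCentralSeries 1 = ⊥) ∧ (p = 3 → (⊤ : Subgroup G).lowerCentralSeries 2 = ⊥) ∧ (⊤ : Subgroup G).lowerCentralSeries (Finset.sum (Finset.range (2 ^ (p - 1) - 1)) (fun i => (p - 1) ^ i)) = ⊥ := by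
  open Subgroup Cfsg CfsgH2 Function in
  open scoped commutatorElement in
  haveI := Fact.mk hp
  have h1 : α ^ p = 1 := hα ▸ pow_orderOf_eq_one α
  have hN : Group.IsNilpotent G := Cfsg.Agent.S0033.result α hfpf p hp hα
  have hc : p.Coprime (Nat.card G) := by
    have pg : IsPGroup p (zpowers α) := IsPGroup.of_card (n := 1) (by rw [Nat.card_zpowers, hα, pow_one])
    have m := pg.card_modEq_card_fixedPoints G
    rw [show Nat.card (MulAction.fixedPoints (zpowers α) G) = 1 from Nat.card_eq_one_iff_unique.2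
      ⟨⟨fun a b => Subtype.ext ((hfpf _ (a.2 ⟨α, mem_zpowers α⟩)).trans (hfpf _ (b.2 ⟨α, mem_zpowers α⟩)).symm)⟩,
        ⟨⟨1, fun a => map_one a.1⟩⟩⟩] at m
    exact (hp.coprime_iff_not_dvd).2 fun d => hp.one_lt.ne' (Nat.dvd_one.1 ((m.dvd_iff dvd_rfl).1 d))
  have k : ∀ n, CfsgKK.γ G n ≤ CfsgKK.γ G (n + 1) → CfsgKK.γ G n = ⊥ := fun n h => by
    obtain ⟨c, hc⟩ := Subgroup.nilpotent_iff_lowerCentralSeries.1 hN
    have : ∀ j, CfsgKK.γ G n ≤ CfsgKK.γ G (n + j) := fun j => by
      induction j with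
      | zero => exact le_rfl
      | succ j ih => exact h.trans (commutator_mono ih le_rfl)
    exact eq_bot_iff.2 ((this c).trans (hc ▸ (⊤ : Subgroup G).lowerCentralSeries_antitone (Nat.le_add_left c n)))
  have a := k _ (CfsgKK.lcs_le α h1 hfpf hc _ fun M => CfsgKK.hkk CfsgKK.leib)
  refine ⟨?_, ?_, a⟩
  · rintro rfl
    simpa using a
  · rintro rfl
    exact k _ (CfsgKK.lcs_le α h1 hfpf hc _ fun M => CfsgKK.neumann CfsgKK.leib)

end Cfsg.Agent.S3779
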