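import Cfsg.Statements.S3780
import Mathlib
import Cfsg.Agent.H9.Tb7

set_option autoImplicit false
open Cfsg

namespace Cfsg.Agent.S3780

/-- Let V be a finite abelian p-group and α an automorphism of V of order p whose fixed-point subgroup has order p^n. Then V can be generated by pn elements: some subset of V with at most pn elements generates V. -/
theorem result {V : Type*} [CommGroup V] [Finite V] {p : ℕ} [Fact p.Prime] (hV : IsPGroup p V) (α : MulAut V) (hα : orderOf α = p) (n : ℕ) (hfix : Nat.card {v : V // α v = v} = p ^ n) : ∃ S : Finset V, S.card ≤ p * n ∧ Subgroup.closure (S : Set V) = ⊤ := by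
  open Subgroup Cfsg CfsgH2 Function CfsgCP CfsgTB in
  open scoped commutatorElement in
  have hp := Fact.out (p := p.Prime)
  have := Fintype.ofFinite V
  let π : V →* V := powMonoidHom p
  obtain ⟨T, -, t1, t2⟩ := CfsgH1.exists_basis_subset (E := V ⧸ π.range) hp (fun x => by
    obtain ⟨x, rfl⟩ := QuotientGroup.mk_surjective x
    exact (QuotientGroup.eq_one_iff (x ^ p)).2 ⟨x, rfl⟩) (QuotientGroup.mk' π.range) Finset.univ
  rw [Finset.coe_univ, Set.image_univ, (QuotientGroup.mk'_surjective _).range_eq, Subgroup.closure_univ] at t1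
  refine ⟨T, ?_, ?_⟩
  · let φ := monoidEndToAdditive V
    let a := φ (MulDistribMulAction.toMonoidEnd (MulAut V) V α)
    let δ := φ.symm (a - 1)
    have c : ∀ k, o[π.ker] ≤ (p ^ n) ^ k * o[π.ker.map (δ ^ k : Monoid.End V)] := fun k => by
      induction k with
      | zero => rw [pow_zero, one_mul]; exact (congrArg (fun H : Subgroup V => o[H]) (map_id π.ker)).ge
      | succ k ih =>
        rw [pow_succ' δ, pow_succ, mul_assoc]
        refine ih.trans (Nat.mul_le_mul_left _ ?_)
        rw [← card_map_mul_card_inf_ker δ, mul_comm, ← hfix]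
        refine Nat.mul_le_mul (Nat.card_le_card_of_injective (fun v => ⟨v.1, ?_⟩)
          fun v w e => Subtype.ext (Subtype.mk.inj e)) (congrArg (fun H : Subgroup V => o[H]) (map_map _ _ _)).le
        exact div_eq_one.1 v.2.2
    have e : π.ker.map (δ ^ p : Monoid.End V) = ⊥ := by
      obtain ⟨r, hr⟩ := (Commute.one_right (a - 1)).exists_add_pow_prime_eq hp
      rw [sub_add_cancel, ← map_pow, ← map_pow, ← hα, pow_orderOf_eq_one, map_one, map_one, one_pow, hα,
        add_right_comm, right_eq_add, add_eq_zero_iff_eq_neg, mul_one, mul_assoc, Nat.cast_comm] at hr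
      refine (Subgroup.map_eq_bot_iff _).2 fun v hv => ?_
      rw [← map_pow, hr]
      change ((-((a - 1) * r * p) : AddMonoid.End (Additive V)) (Additive.ofMul v)).toMul = 1
      have : (p : AddMonoid.End (Additive V)) (Additive.ofMul v) = 0 := by
        rw [AddMonoid.End.natCast_apply]; exact hv
      exact congrArg Additive.toMul ((congrArg (-((a - 1) * r) : AddMonoid.End (Additive V)) this).trans (map_zero _))
    have := c p
    rw [e, card_bot, mul_one, ← pow_mul, mul_comm n] at this
    rw [← Nat.pow_le_pow_iff_right hp.one_lt, ← t2, t1, card_top, ← index_eq_card]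
    refine le_trans (le_of_eq ?_) this
    exact Nat.eq_of_mul_eq_mul_left (card_pos' π.range) (by
      rw [card_mul_index, ← index_ker, index_mul_card])
  · rw [← MonoidHom.map_closure] at t1
    have := congrArg (comap (QuotientGroup.mk' π.range)) t1
    rw [comap_map_mk, comap_top] at this
    exact CfsgH1.eq_top_of_sup_le_frattini (N := π.range) (by
      rintro _ ⟨x, rfl⟩; exact CfsgH1.pow_mem_frattini hV x) ((sup_comm _ _).trans this)

end Cfsg.Agent.S3780
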