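import Cfsg.Statements.S3781
import Mathlib
import Cfsg.Agent.H9.Tb7

set_option autoImplicit false
open Cfsg

namespace Cfsg.Agent.S3781

section
open Subgroup Cfsg CfsgH2 Function CfsgCP CfsgTB
open scoped commutatorElement

theorem aux {G : Type*} [Group G] [Finite G] {p : ℕ} [hp : Fact p.Prime] (hG : IsPGroup p G) (n : ℕ) :
    ∀ K M : Subgroup G, ⊤ ≤ N[K] → ⊤ ≤ N[M] → M ≤ K → M.relIndex K ∣ p ^ (n + 1) →
      ⁅K, (⊤ : Subgroup G).lowerCentralSeries n⁆ ≤ M := by
  have t := hG.to_subgroup ⊤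
  induction n with
  | zero =>
    intro K M a b c d
    rcases c.eq_or_lt with rfl | e
    · exact comm_le_left a
    obtain ⟨L, l1, l2, -, l3, l4, -⟩ := exists_step t (hG.to_subgroup K) e b a
    rw [← relIndex_mul_relIndex M L K l1 l2, l3, zero_add, pow_one] at d
    replace d := relIndex_eq_one.1 (Nat.dvd_one.1 ((Nat.mul_dvd_mul_iff_left hp.out.pos).1 (by rwa [mul_one])))
    exact (commutator_mono d le_rfl).trans l4
  | succ n ih =>
    intro K M a b c d
    rcases c.eq_or_lt with rfl | e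
    · exact comm_le_left (le_top.trans a)
    obtain ⟨L, l1, l2, -, l3, l4, l5⟩ := exists_step t (hG.to_subgroup K) e b a
    obtain ⟨J, j1, j2, -, j3, j4, j5⟩ := exists_step_down t (hG.to_subgroup K) e b a
    have x := ih K L a l5 l2 (by
      rwa [← relIndex_mul_relIndex M L K l1 l2, l3, pow_succ', Nat.mul_dvd_mul_iff_left hp.out.pos] at d)
    have y := ih J M j5 b j1 (by
      rwa [← relIndex_mul_relIndex M J K j1 j2, j3, pow_succ, Nat.mul_dvd_mul_iff_right hp.out.pos] at d)
    rw [Subgroup.lowerCentralSeries_succ, commutator_comm]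
    refine three_subgroup_le (le_top.trans b) b (le_top.trans b) ?_ ?_
    · rw [commutator_comm ⊤]; exact (commutator_mono j4 le_rfl).trans y
    · exact (commutator_mono x le_rfl).trans l4

end

/-- Let G be a finite p-group and n ≥ 1, and write γ_1(G) = G, γ_{k+1}(G) = [γ_k(G), G], and likewise γ_k(N) for a subgroup N. Let N be a normal subgroup of G contained in γ_n(G). If i > 1 and γ_{i+1}(N) ≠ 1, then |γ_i(N) : γ_{i+1}(N)| ≥ p^n. -/
theorem result {G : Type*} [Group G] [Finite G] {p : ℕ} [Fact p.Prime] (hG : IsPGroup p G) (n : ℕ) (hn : 1 ≤ n) (N : Subgroup G) [N.Normal] (hN : N ≤ (⊤ : Subgroup G).lowerCentralSeries (n - 1)) (i : ℕ) (hi : 1 < i) (hne : N.lowerCentralSeries i ≠ ⊥) : p ^ n ≤ (N.lowerCentralSeries i).relIndex (N.lowerCentralSeries (i - 1)) := by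
  open Subgroup Cfsg CfsgH2 Function CfsgCP CfsgTB in
  open scoped commutatorElement in
  have hp := Fact.out (p := p.Prime)
  obtain ⟨i, rfl⟩ := Nat.exists_eq_add_one.2 (one_pos.trans hi)
  obtain ⟨n, rfl⟩ := Nat.exists_eq_add_one.2 hn
  have a := fun j => (le_normalizer_of_normal (K := ⊤)).trans
    (CfsgH1.normalizer_le_normalizer_lowerCentralSeries N j)
  obtain ⟨M, -, m1, -, m2, -, m3⟩ := exists_step_down (hG.to_subgroup ⊤) (hG.to_subgroup _)
    (bot_lt_iff_ne_bot.2 hne) (norm_bot.ge) (a _)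
  obtain ⟨k, hk⟩ := exists_relIndex_eq_pow (hG.to_subgroup (N.lowerCentralSeries i)) (N.lowerCentralSeries (i + 1))
  have l := N.lowerCentralSeries_antitone i.le_succ
  rw [Nat.add_sub_cancel] at hN ⊢
  rw [hk]
  refine Nat.pow_le_pow_right hp.pos (not_lt.1 fun z => hp.ne_one ?_)
  rw [← m2, relIndex_eq_one]
  refine (commutator_mono le_rfl hN).trans (aux hG n _ M (a i) m3 (m1.trans l) ?_)
  rw [← relIndex_mul_relIndex M _ _ m1 l, m2, hk, ← pow_succ']
  exact pow_dvd_pow p z

end Cfsg.Agent.S3781
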