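import Cfsg.Statements.S3785
import Mathlib
import Cfsg.Agent.H2.BG0

set_option autoImplicit false
open Cfsg

namespace Cfsg.Agent.S3785

open Cfsg Subgroup CfsgH2

/-- Let G be a finite solvable group whose Fitting subgroup F(G) has odd order. If an element g of G commutes with every element of prime order of F(G), then g ∈ F(G). -/
theorem result {G : Type*} [Group G] [Finite G] (hG : Group.IsSolvable G) (hodd : Odd (Nat.card (Cfsg.fittingSubgroup G))) (g : G) (hg : ∀ x ∈ Cfsg.fittingSubgroup G, (orderOf x).Prime → g * x = x * g) : g ∈ Cfsg.fittingSubgroup G := by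
  rw [← fit_top] at hodd hg ⊢
  set T : Subgroup G := closure {x | x ∈ F[(⊤ : Subgroup G)] ∧ (orderOf x).Prime} with hT
  have nF : (⊤ : Subgroup G) ≤ N[F[(⊤ : Subgroup G)]] := le_norm_fit
  have nT : (⊤ : Subgroup G) ≤ N[T] := by
    intro y _
    refine mem_norm_of_map_le ?_
    rw [hT, MonoidHom.map_closure]
    refine closure_mono ?_
    rintro _ ⟨x, hx, rfl⟩
    exact ⟨conj_mem_of_norm (nF (mem_top y)) hx.1, by
      show (orderOf (y * x * y⁻¹)).Prime
      rw [orderOf_conj']; exact hx.2⟩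
  have hgC : g ∈ C[T] := by
    rw [hT, centralizer_closure]
    exact fun x hx => (hg x hx.1 hx.2).symm
  have A : ∀ (p : ℕ) [Fact p.Prime], ∀ y ∈ C[T], ¬ p ∣ orderOf y → y ∈ C[O[{p}, (⊤ : Subgroup G)]] := by
    intro p hp y hy hd
    by_cases h2 : p = 2
    · subst h2
      have : O[{2}, (⊤ : Subgroup G)] = ⊥ := eq_bot_of_pgroup_of_not_dvd isPGroup_piCoreOf
        (fun h => (Nat.not_even_iff_odd.2 (odd_of_le hodd core_le_fit)) (even_iff_two_dvd.2 h))
      rw [this, cent_bot]; trivial
    · refine coprime_odd_faithful_omega (A := zpowers y) h2 (by rwa [Nat.card_zpowers]) _ isPGroup_piCoreOf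
        (le_top.trans le_norm_piCoreOf) ((zpowers_le.2 hy).trans (cent_anti ?_)) (mem_zpowers y)
      refine omegaOne_le_of fun x hx h => ?_
      by_cases x1 : x = 1
      · rw [x1]; exact one_mem _
      · exact subset_closure ⟨core_le_fit hx, by rw [orderOf_eq_of_pow hp.out h x1]; exact hp.out⟩
  refine le_of_forall_pelem (M := C[T]) (fun q hq x hx hxq => ?_) hgC
  haveI := Fact.mk hq
  set D := piRes {q}ᶜ C[T] with hD
  have nD : (⊤ : Subgroup G) ≤ N[D] := (le_norm_cent nT).trans norm_le_norm_piRes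
  have hxD : x ∈ D := mem_piRes hx (by
    rw [compl_compl, ← Nat.card_zpowers]; exact isPGroup_iff_piN.1 hxq)
  have B : ∀ (p : ℕ) [Fact p.Prime], p ≠ q → D ≤ C[O[{p}, (⊤ : Subgroup G)]] := by
    intro p hp hpq
    refine piRes_le_iff'.2 fun y hy h => A p y hy fun hd => hpq ?_
    rw [compl_compl] at h
    exact h p hp.out hd
  set E := piRes {q} D with hE
  have hEF : E ≤ C[F[(⊤ : Subgroup G)]] := by
    refine le_centralizer_iff.1 (fit_le_of_cores fun p hp _ => le_centralizer_iff.1 ?_)
    by_cases hpq : p = q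
    · subst hpq
      exact piRes_le_iff'.2 fun y hy h => A p y (piRes_le hy) ((piN_compl_singleton hp.out).1 h)
    · exact piRes_le.trans (B p hpq)
  have hEF' : E ≤ F[(⊤ : Subgroup G)] := fun y hy => cent_fit_le inferInstance ⟨mem_top _, hEF hy⟩
  have nE : (⊤ : Subgroup G) ≤ N[E] := nD.trans norm_le_norm_piRes
  have hEn : Nil[E] := isNilpotent_of_comm (isMulComm_of_le_cent (hEF.trans (cent_anti hEF')))
  have hEq : ¬ q ∣ o[E] := by
    have : piRes {q} E = E := piRes_piRes
    rw [← this, nil_piRes_eq hEn]; exact not_dvd_piCoreOf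
  have hDE : D ≤ C[E] := by
    refine le_centralizer_iff.1 (nil_le_of_cores hEn fun p hp hd => ?_)
    refine (piCoreOf_le_of_norm le_top nE).trans (le_centralizer_iff.1 (B p ?_))
    rintro rfl; exact hEq hd
  obtain ⟨Q, hQ⟩ := exists_syl q D
  have hDn : Nil[D] := by
    rw [← hQ.piRes_sup]
    exact nil_sup_of_cent hEn (nil_of_pg hQ.pg) (le_centralizer_iff.1 (hQ.le.trans hDE))
  exact le_fit le_top nD hDn hxD

end Cfsg.Agent.S3785
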