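import Cfsg.Statements.S3788
import Mathlib
import Cfsg.Agent.H9.Tb6

set_option autoImplicit false
open Cfsg

namespace Cfsg.Agent.S3788

/-- Let G be a finite p-soluble group, P a Sylow p-subgroup of G and A a cyclic normal subgroup of P. If p is odd, or if no section of G is isomorphic to the symmetric group of degree 4, then A ≤ O_{p',p}(G). -/
theorem result {G : Type*} [Group G] [Finite G] {p : ℕ} [Fact p.Prime] (hG : Cfsg.IsPSolvable p G) (P : Sylow p G) (A : Subgroup G) (hAP : A ≤ (P : Subgroup G)) (hAn : (P : Subgroup G) ≤ Subgroup.normalizer (A : Set G)) (hA : IsCyclic A) (h : p ≠ 2 ∨ ¬ Cfsg.Involves (Equiv.Perm (Fin 4)) G) : A ≤ Cfsg.pPrimePCore p G := by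
  open Subgroup Cfsg CfsgH2 Function CfsgCP CfsgTB in
  obtain ⟨G', _, _, f, V, _, a, b, c⟩ := exists_BC hG
  rw [← c, ← map_le_iff_le_comap]
  exact b.cyc_le (map_top_of_surjective f a ▸ (syl_top P).map f) (map_mono hAP) (map_le_norm_map f hAn)
    (isCyclic_map f hA) (h.imp_right fun z y => z (i4_top.2 (I4.of_map (map_top_of_surjective f a ▸ y))))

end Cfsg.Agent.S3788
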