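import Cfsg.Statements.S3794
import Mathlib
import Cfsg.Agent.H9.Cp5

set_option autoImplicit false
open Cfsg

namespace Cfsg.Agent.S3794

/-- Let G be a finite solvable group with an automorphism σ satisfying σ⁴ = 1 and fixing only the identity. Then the derived subgroup G' is nilpotent. -/
theorem result {G : Type*} [Group G] [Finite G] (hG : Group.IsSolvable G) (σ : MulAut G) (hσ : σ ^ 4 = 1) (hfpf : ∀ g : G, σ g = g → g = 1) : Group.IsNilpotent (commutator G) := by
  open Subgroup Cfsg CfsgH3 CfsgH2 Function CfsgCP in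
  obtain ⟨Γ, _, _, i, f, g, i1, f1, g1, g2, e, a, b⟩ := aut_amb σ hfpf
  have := der_nil_of_four g g1 (orderOf_dvd_iff_pow_eq_one.1 (g2 ▸ orderOf_dvd_of_pow_eq_one hσ)) f f1 a
    (isSolvable_map _ (isSolvable_top_iff.2 hG)) b
  rwa [← map_commutator, inj_isNilpotent i1] at this

end Cfsg.Agent.S3794
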