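import Cfsg.Statements.S3796
import Mathlib
import Cfsg.Agent.H9.Cp5

set_option autoImplicit false
open Cfsg

namespace Cfsg.Agent.S3796

/-- Ward's Theorem: let G be a finite solvable group and A an elementary abelian group of automorphisms of G of order p² (p a prime) with no non-identity common fixed point. Then G has Fitting height at most 2: G has Fitting height at most m when there is a chain of normal subgroups 1 = F₀ ≤ F₁ ≤ ⋯ ≤ F_m = G with each F_{i+1}/F_i nilpotent. -/
theorem result {G : Type*} [Group G] [Finite G] (hG : Group.IsSolvable G) {p : ℕ} (hp : p.Prime) (A : Subgroup (MulAut G)) (hA : Cfsg.IsElementaryAbelian p A) (hcard : Nat.card A = p ^ 2) (hfpf : ∀ g : G, (∀ a ∈ A, a g = g) → g = 1) : ∃ F : Fin (2 + 1) → Subgroup G, F 0 = ⊥ ∧ F (Fin.last 2) = ⊤ ∧ Monotone F ∧ (∀ i, (F i).Normal) ∧ ∀ i : Fin 2, ∃ k : ℕ, (F i.succ).lowerCentralSeries k ≤ F i.castSucc := by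
  open Subgroup Cfsg CfsgH3 CfsgH2 Function CfsgCP in
  haveI := Fact.mk hp
  obtain ⟨Γ, _, _, i, f, a, b, c, d⟩ := exists_amb A.subtype
  exact (CfsgH9.fitting_chain_iff 2).2 (LF_top_of_amb a (ward (p := p)
    (fun x y => hA.1.is_comm.comm x y) (fun x => Subtype.ext (hA.2 x x.2)) hcard f b c
    (isSolvable_map _ (isSolvable_top_iff.2 hG))
    (amb_fpf d fun g hg => hfpf g fun x hx => hg ⟨x, hx⟩)))

end Cfsg.Agent.S3796
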