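import Cfsg.Statements.S3798
import Mathlib
import Cfsg.Agent.H9.Tb6
import Cfsg.Agent.H2.PG3

set_option autoImplicit false
open Cfsg

namespace Cfsg.Agent.S3798

section
open Subgroup Cfsg CfsgH2 Function CfsgCP CfsgTB
open scoped commutatorElement

theorem aux {G : Type*} [Group G] [Finite G] {p : ℕ} [hp : Fact p.Prime] (hp2 : p ≠ 2) (hG : IsPSolvable p G)
    (h0 : pPrimeCore p G = ⊥)
    (h : ∀ K : Subgroup G, K.Characteristic → K ≠ ⊥ → PG[p, K] → ∀ x, x ^ p = 1 → x ∈ K) :
    ¬ p ∣ (pCore p G).index := by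
  have c := CfsgH1.centralizer_pCore_le hG h0
  have pP : PG[p, pCore p G] := isPGroup_pCore
  set P := pCore p G with eP
  by_cases e : P = ⊥
  · rw [e, cent_bot, top_le_iff] at c
    rw [e, c, index_top]; exact hp.out.one_lt.ne' ∘ Nat.dvd_one.1
  have z := h Z[P] inferInstance (center_ne_bot pP e) (pP.to_le inf_le_left)
  let M := (pPrimeCore p (G ⧸ P)).comap (QuotientGroup.mk' P)
  haveI : M.Characteristic := Characteristic.comap_quotient_mk inferInstance
  have l : P ≤ M := fun x hx => by
    rw [mem_comap, QuotientGroup.mk'_apply, (QuotientGroup.eq_one_iff x).2 hx]; exact one_mem _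
  have r : ¬ p ∣ P.relIndex M := by
    have := relIndex_ker M (QuotientGroup.mk' P)
    rw [QuotientGroup.ker_mk', map_comap_eq_self_of_surjective (QuotientGroup.mk'_surjective P)] at this
    rw [this]; exact CfsgH1.not_dvd_card_pPrimeCore p
  obtain ⟨H, a, b, d, f⟩ := exists_compl l le_normalizer_of_normal (coprime_of_pgroup pP r)
  have cH : o[H].Coprime o[P] := f ▸ (coprime_of_pgroup pP r).symm
  by_cases k : P ⊓ C[M] = ⊥
  · have t : P ⊔ N[H] = ⊤ := eq_top_iff.2 fun g _ => by
      obtain ⟨y, hy, u⟩ := exists_conj_le_compl (B := H.map (cj g)) le_normalizer_of_normal cH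
        (by rwa [card_map_cj]) (.inr (CfsgH1.isSolvable_of_isPGroup pP))
        (b ▸ map_cj_le_of_norm a (le_normalizer_of_normal (mem_top g)))
      rw [map_cj_cj] at u
      rw [← inv_mul_cancel_left y g]
      exact mul_mem (mem_sup_left (inv_mem hy)) (mem_sup_right (mem_norm_of_map_le u))
    intro u
    rw [← relIndex_top_right, ← t, sup_comm, relIndex_sup_of_norm le_normalizer_of_normal] at u
    obtain ⟨x, x1, x2⟩ := exists_prime_order_mem hp.out (u.trans (relIndex_dvd_card _ _))
    have x3 := z x (x2 ▸ pow_orderOf_eq_one x)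
    have : zpowers x ≤ C[H] := by
      rw [← comm_eq_bot_iff, ← le_bot_iff, ← d]
      exact le_inf ((commutator_mono (zpowers_le.2 x3.1) le_top).trans (commutator_le_left _ _))
        (comm_le_right (zpowers_le.2 x1))
    have x4 : x ∈ P ⊓ C[M] := ⟨x3.1, by rw [← b, cent_sup]; exact ⟨x3.2, zpowers_le.1 this⟩⟩
    rw [k, mem_bot] at x4
    rw [x4, orderOf_one] at x2
    exact hp.out.one_lt.ne x2
  have y := h _ inferInstance k (pP.to_le inf_le_left)
  have u : H ≤ P := (coprime_odd_faithful_omega hp2 (f ▸ r) P pP le_normalizer_of_normal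
    (le_centralizer_iff.1 (omegaOne_le_of fun x _ b => cent_anti a (y x b).2))).trans c
  have v : pPrimeCore p (G ⧸ P) = ⊥ := by
    rw [← map_comap_eq_self_of_surjective (QuotientGroup.mk'_surjective P) (pPrimeCore p _), mk_bot]
    exact b.ge.trans (sup_le le_rfl u)
  have w := CfsgH1.centralizer_pCore_le (CfsgH1.IsPSolvable.quotient' hG P) v
  rw [CfsgH1.pCore_quotient_pCore, cent_bot, top_le_iff] at w
  rw [index_eq_card, ← card_top, ← w, card_bot]; exact hp.out.one_lt.ne' ∘ Nat.dvd_one.1

end

/-- The Gaschütz–Yen Theorem: let G be a finite p-soluble group, p an odd prime dividing its order, such that the automorphism group of G permutes the subgroups of G of order p transitively. Then G has p-length at most 1. -/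
theorem result {G : Type*} [Group G] [Finite G] {p : ℕ} [Fact p.Prime] (hp : p ≠ 2) (hdvd : p ∣ Nat.card G) (hG : Cfsg.IsPSolvable p G) (htrans : ∀ U V : Subgroup G, Nat.card U = p → Nat.card V = p → ∃ a : MulAut G, U.map a.toMonoidHom = V) : Cfsg.PLengthLE p 1 G := by
  open Subgroup Cfsg CfsgH2 Function CfsgCP CfsgTB in
  open scoped commutatorElement in
  have hq := Fact.out (p := p.Prime)
  have s := QuotientGroup.mk'_surjective (pPrimeCore p G)
  have := aux hp (CfsgH1.IsPSolvable.quotient' hG _) (CfsgH1.pPrimeCore_quotient_pPrimeCore p) fun K hK a b x c => by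
    have ch : (K.comap (QuotientGroup.mk' (pPrimeCore p G))).Characteristic := Characteristic.comap_quotient_mk hK
    obtain ⟨y, y1, y2⟩ := exists_prime_order_mem (H := K.comap (QuotientGroup.mk' (pPrimeCore p G))) hq
      ((dvd_card_of_pgroup b a).trans (by
        conv_lhs => rw [← map_comap_eq_self_of_surjective s K]
        exact card_map_dvd _ _))
    obtain ⟨x, rfl⟩ := s x
    have n := CfsgH1.not_dvd_card_pPrimeCore (G := G) p
    refine mem_of_pow_mem_coprime (n := o[pPrimeCore p G]) ?_
      (((Nat.Prime.coprime_iff_not_dvd hq).2 n).coprime_dvd_left (orderOf_dvd_of_pow_eq_one c))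
    rw [← map_pow, QuotientGroup.mk'_apply, QuotientGroup.eq_one_iff] at c
    have d : (x ^ o[pPrimeCore p G]) ^ p = 1 := by
      rw [← pow_mul, mul_comm, pow_mul]; exact orderOf_dvd_iff_pow_eq_one.1 (orderOf_dvd_of_mem c)
    rw [← map_pow, ← mem_comap]
    by_cases e : x ^ o[pPrimeCore p G] = 1
    · rw [e]; exact one_mem _
    obtain ⟨f, hf⟩ := htrans (zpowers y) (zpowers (x ^ o[pPrimeCore p G])) (by rwa [Nat.card_zpowers])
      (by rw [Nat.card_zpowers, orderOf_eq_prime d e])
    rw [← zpowers_le, ← hf, ← characteristic_iff_map_eq.1 ch f]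
    exact map_mono (zpowers_le.2 y1)
  obtain ⟨S, hS⟩ := exists_syl p (⊤ : Subgroup G)
  haveI : (pPrimePCore p G).Normal := inferInstanceAs (Subgroup.Normal (comap _ _))
  refine plen_one hS (CfsgH1.le_of_coprime_index (coprime_of_pgroup hS.pg ?_))
  rwa [pPrimePCore, index_comap_of_surjective _ s]

end Cfsg.Agent.S3798
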