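import Cfsg.Statements.S3799
import Cfsg.Agent.H2.Pq0

set_option autoImplicit false
open Cfsg

namespace Cfsg.Agent.S3799
open CfsgH2
section
open Subgroup Function
open scoped commutatorElement

@[ext] structure Hs (p n : ℕ) where
  a : Fin n → ZMod p
  b : Fin n → ZMod p
  c : ZMod p

variable {p n : ℕ}

instance : Mul (Hs p n) := ⟨fun x y => ⟨x.a + y.a, x.b + y.b, x.c + y.c + x.a ⬝ᵥ y.b⟩⟩
instance : One (Hs p n) := ⟨⟨0, 0, 0⟩⟩
instance : Inv (Hs p n) := ⟨fun x => ⟨-x.a, -x.b, -x.c + x.a ⬝ᵥ x.b⟩⟩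
@[simp] theorem mul_a (x y : Hs p n) : (x * y).a = x.a + y.a := rfl
@[simp] theorem mul_b (x y : Hs p n) : (x * y).b = x.b + y.b := rfl
@[simp] theorem mul_c (x y : Hs p n) : (x * y).c = x.c + y.c + x.a ⬝ᵥ y.b := rfl
@[simp] theorem one_a : (1 : Hs p n).a = 0 := rfl
@[simp] theorem one_b : (1 : Hs p n).b = 0 := rfl
@[simp] theorem one_c : (1 : Hs p n).c = 0 := rfl
@[simp] theorem inv_a (x : Hs p n) : x⁻¹.a = -x.a := rfl
@[simp] theorem inv_b (x : Hs p n) : x⁻¹.b = -x.b := rfl
@[simp] theorem inv_c (x : Hs p n) : x⁻¹.c = -x.c + x.a ⬝ᵥ x.b := rfl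

instance : Group (Hs p n) := Group.ofLeftAxioms
  (fun x y z => Hs.ext (add_assoc _ _ _) (add_assoc _ _ _) (by simp; ring))
  (fun x => Hs.ext (by simp) (by simp) (by simp)) (fun x => Hs.ext (by simp) (by simp) (by simp))

def Hs.e : Hs p n ≃ (Fin n → ZMod p) × (Fin n → ZMod p) × ZMod p :=
  ⟨fun x => (x.a, x.b, x.c), fun x => ⟨x.1, x.2.1, x.2.2⟩, fun _ => rfl, fun _ => rfl⟩

theorem pow_eq (x : Hs p n) (k : ℕ) : x ^ k = ⟨k • x.a, k • x.b, k * x.c + k.choose 2 * x.a ⬝ᵥ x.b⟩ := by
  induction k with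
  | zero => exact Hs.ext (by simp) (by simp) (by simp)
  | succ k ih =>
    rw [pow_succ, ih]
    exact Hs.ext (by simp [add_smul]) (by simp [add_smul]) (by
      simp [Nat.choose_succ_succ, Nat.choose_one_right, -nsmul_eq_mul]; rw [nsmul_eq_mul]; ring)

theorem mem_center (x : Hs p n) : x ∈ center (Hs p n) ↔ x.a = 0 ∧ x.b = 0 := by
  rw [mem_center_iff]
  refine ⟨fun h => ⟨funext fun i => ?_, funext fun i => ?_⟩, fun h y => Hs.ext (by simp [h]) (by simp [h]) (by simp [h, add_comm])⟩
  · simpa using (congrArg Hs.c (h ⟨0, Pi.single i 1, 0⟩)).symm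
  · simpa using congrArg Hs.c (h ⟨Pi.single i 1, 0, 0⟩)

def rep : Hs p n →* Module.End (ZMod p) (ZMod p × (Fin n → ZMod p) × ZMod p) where
  toFun x :=
    { toFun := fun v => (v.1 + x.a ⬝ᵥ v.2.1 + x.c * v.2.2, v.2.1 + v.2.2 • x.b, v.2.2)
      map_add' := fun v w => by ext <;> simp <;> ring
      map_smul' := fun r v => by ext <;> simp <;> ring }
  map_one' := LinearMap.ext fun v => by simp
  map_mul' x y := LinearMap.ext fun v => by ext <;> simp <;> ring

theorem rep_inj : Injective (rep : Hs p n → _) := (injective_iff_map_eq_one _).2 fun x h => by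
  have h1 := DFunLike.congr_fun h (0, 0, 1)
  simp only [rep, MonoidHom.coe_mk, OneHom.coe_mk, LinearMap.coe_mk, AddHom.coe_mk, Module.End.one_apply, Prod.mk.injEq] at h1
  refine Hs.ext (funext fun i => ?_) (by simpa using h1.2.1) (by simpa using h1.1)
  simpa [rep] using congrArg Prod.fst (DFunLike.congr_fun h (0, Pi.single i 1, 0))

end

/-- For every odd prime p and every n ≥ 1 there is an extraspecial p-group of order p^(1+2n) and exponent p; concretely, the general linear group of degree n + 2 over the field with p elements contains such a subgroup. -/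
theorem result (p : ℕ) [Fact p.Prime] (hp : p ≠ 2) (n : ℕ) (hn : 1 ≤ n) : ∃ E : Subgroup (Matrix.GeneralLinearGroup (Fin (n + 2)) (ZMod p)), Cfsg.IsExtraspecial p ↥E ∧ Nat.card E = p ^ (1 + 2 * n) ∧ ∀ x ∈ E, x ^ p = 1 := by
  open Subgroup Function in open scoped commutatorElement in
  · haveI : Finite (Hs p n) := Finite.of_equiv _ Hs.e.symm
    have hc : Nat.card (Hs p n) = p ^ (1 + 2 * n) := by
      rw [Nat.card_congr Hs.e]; simp [Nat.card_prod]; ring
    let b := Module.finBasisOfFinrankEq (ZMod p) (ZMod p × (Fin n → ZMod p) × ZMod p) (n := n + 2) (by simp; ring)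
    let f := (((LinearMap.toMatrixAlgEquiv b).toMulEquiv.toMonoidHom).comp (rep : Hs p n →* _)).toHomUnits
    have hf : Injective f := fun x y e => rep_inj ((LinearMap.toMatrixAlgEquiv b).injective (congrArg Units.val e))
    have w : Wx p (⊤ : Subgroup (Hs p n)) := by
      refine ⟨isPGroup_of_card (by rw [card_top, hc]), ?_, ?_⟩
      · rw [center_top]
        refine Eq.trans ?_ (Nat.card_zmod p)
        exact Nat.card_congr ⟨fun x => x.1.c, fun c => ⟨⟨0, 0, c⟩, (mem_center _).2 ⟨rfl, rfl⟩⟩, fun x =>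
          Subtype.ext (Hs.ext ((mem_center _).1 x.2).1.symm ((mem_center _).1 x.2).2.symm rfl), fun _ => rfl⟩
      · rw [center_top, commutator_le]
        exact fun x _ y _ => (mem_center _).2 (by simp [commutatorElement_def])
    refine ⟨(⊤ : Subgroup (Hs p n)).map f, extraspecial_iff.2 ⟨(inj_wx hf).2 w, fun a => ?_⟩, ?_, ?_⟩
    · have := w.cardZ
      rw [center_eq_self ((inj_isMulComm hf).1 a), card_top, hc] at this
      have := Nat.pow_right_injective (Fact.out : p.Prime).two_le (this.trans (pow_one p).symm)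
      omega
    · rw [card_map_of_injective hf, card_top, hc]
    · rintro _ ⟨x, -, rfl⟩
      rw [← map_pow, pow_eq, ← map_one f]
      congr 1
      exact Hs.ext (by ext; simp) (by ext; simp) (by simp [(ZMod.natCast_eq_zero_iff _ _).2 (dvd_choose_two hp)])

end Cfsg.Agent.S3799
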