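import Cfsg.Statements.S3800
import Cfsg.Agent.H1.Schmidt

set_option autoImplicit false
open Cfsg

namespace Cfsg.Agent.S3800

/-- Let G be a finite group, N a normal subgroup of G whose order is prime to p, and P a p-subgroup of G. Then in G/N the normalizer of the image of P is the image of N_G(P), and the centralizer of the image of P is the image of C_G(P). -/
theorem result {G : Type*} [Group G] [Finite G] {p : ℕ} [Fact p.Prime] (N : Subgroup G) [N.Normal] (hN : (Nat.card N).Coprime p) (P : Subgroup G) (hP : IsPGroup p P) : Subgroup.normalizer ((P.map (QuotientGroup.mk' N)) : Set (G ⧸ N)) = (Subgroup.normalizer (P : Set G)).map (QuotientGroup.mk' N) ∧ Subgroup.centralizer ((P.map (QuotientGroup.mk' N)) : Set (G ⧸ N)) = (Subgroup.centralizer (P : Set G)).map (QuotientGroup.mk' N) := by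
  open Pointwise Subgroup CfsgH1 in
  open CfsgH2 hiding card_inf_mul_relIndex card_lt_of_lt card_lt_of_ne_top card_map_mul_card_inf_ker card_mul_relIndex card_subgroupOf card_sup_dvd card_sup_mul_card_inf exists_card_prime_le isNilpotent_map isNilpotent_of_le isPGroup_pCore isSolvable_map isSolvable_of_le le_pCore le_pPrimeCore relIndex_map_dvd in
  open scoped CfsgH2 in
  open scoped commutatorElement in
  · have hc := (coprime_card_of_isPGroup hN hP).symm
    have hs : Group.IsSolvable P ∨ Group.IsSolvable N := Or.inl (isSolvable_of_pgroup hP)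
    constructor
    · refine le_antisymm (fun y hy => ?_) (map_le_norm_map _ le_rfl)
      obtain ⟨g, rfl⟩ := QuotientGroup.mk'_surjective N y
      have h1 : g ∈ N[P ⊔ N] := by
        rw [← comap_map_mk' N P]; exact comap_norm_ge _ _ hy
      obtain ⟨n, hn, m, hm, rfl⟩ := ((Syl.self hP).sup_coprime (Or.inl le_normalizer_of_normal)
        ((coprime_iff_not_dvd Fact.out).1 hN)).frattini' h1
      obtain ⟨a, ha, b, hb, rfl⟩ := mem_sup_normal_right.1 hm
      exact ⟨n * a, mul_mem hn (le_normalizer ha), by simp [(QuotientGroup.eq_one_iff b).2 hb]⟩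
    · have := coprime_centralizer_map_mk' (K := ⊤) le_top hc hs
      rwa [map_mk_top, top_inf_eq, top_inf_eq] at this

end Cfsg.Agent.S3800
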