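import Cfsg.Statements.S3951
import Cfsg.Agent.H2.SMu1

set_option autoImplicit false
open Cfsg

namespace Cfsg.Agent.S3951
open CfsgH2

/-- For positive integers `m` and `n` with `n` dividing `m`, the Schur multiplier of the abelian group `ZMod m × ZMod n` (written multiplicatively) is cyclic of order `n`. In particular the elementary abelian group of order `p ^ 2` has multiplier of order `p`. -/
theorem result (m n : ℕ) [NeZero m] [NeZero n] (hnm : n ∣ m) : Cfsg.HasCyclicSchurMultiplier (Multiplicative (ZMod m × ZMod n)) n := by
  open Subgroup Function in open scoped commutatorElement in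
  open CfsgH1.SM CfsgH2.SMu in
  · refine hasSM_congr (MulEquiv.prodMultiplicative (ZMod m) (ZMod n)).symm (hasSM_iff.2 ?_)
    haveI : Subsingleton (H2 (Multiplicative (ZMod m)) Cx) := M_cyclic
    haveI : Subsingleton (H2 (Multiplicative (ZMod n)) Cx) := M_cyclic
    haveI := uniqueOfSubsingleton (1 : H2 (Multiplicative (ZMod m)) Cx)
    haveI := uniqueOfSubsingleton (1 : H2 (Multiplicative (ZMod n)) Cx)
    obtain ⟨e⟩ := nonempty_du (Multiplicative (ZMod n))
    let f : (Multiplicative (ZMod m) →* Du (Multiplicative (ZMod n))) →* Du (Multiplicative (ZMod n)) :=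
      MonoidHom.mk' (fun l => l (Multiplicative.ofAdd 1)) fun _ _ => rfl
    have hf : Bijective f := by
      constructor
      · refine (injective_iff_map_eq_one _).2 fun l hl => MonoidHom.ext fun x => ?_
        obtain ⟨x, rfl⟩ := Multiplicative.ofAdd.surjective x
        obtain ⟨k, rfl⟩ := ZMod.natCast_zmod_surjective x
        rw [← nsmul_one, ofAdd_nsmul, map_pow, show l (Multiplicative.ofAdd 1) = 1 from hl, one_pow]; rfl
      · intro u
        have hu : u ^ m = 1 := by
          have h := pow_card_eq_one' (x := u)
          rw [card_du, Nat.card_congr Multiplicative.toAdd, Nat.card_zmod] at h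
          obtain ⟨k, hk⟩ := hnm
          rw [hk, pow_mul, h, one_pow]
        refine ⟨AddMonoidHom.toMultiplicativeLeft (ZMod.lift m ⟨zmultiplesHom _ (Additive.ofMul u), ?_⟩), ?_⟩
        · simp only [zmultiplesHom_apply, natCast_zsmul]
          exact hu
        · simp only [f, MonoidHom.mk'_apply, AddMonoidHom.coe_toMultiplicativeLeft, comp_apply, toAdd_ofAdd]
          rw [← Int.cast_one, ZMod.lift_coe]; simp
    exact ⟨(e.symm.trans ((MulEquiv.ofBijective f hf).symm.trans (MulEquiv.uniqueProd.symm.trans
      MulEquiv.uniqueProd.symm))).trans H2_prod.some.symm⟩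

end Cfsg.Agent.S3951
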