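import Cfsg.Statements.S3952
import Cfsg.Agent.H1.Schur4

set_option autoImplicit false
open Cfsg

namespace Cfsg.Agent.S3952

/-- If `A` is the Schur multiplier of the finite group `Q`, then the square of the exponent of `A` divides the order of `Q`. -/
theorem result {Q : Type*} [Group Q] [Finite Q] {A : Type*} [CommGroup A] (hA : Cfsg.HasSchurMultiplier Q A) : Monoid.exponent A ^ 2 ∣ Nat.card Q := by
  open Subgroup Function CfsgH1.SM in
  open scoped commutatorElement in
  · rw [Monoid.exponent_eq_of_mulEquiv (hasSM_iff.1 hA).some]
    exact exp_sq_dvd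

end Cfsg.Agent.S3952
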