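import Cfsg.Statements.S3953
import Cfsg.Agent.H1.Schur4

set_option autoImplicit false
open Cfsg

namespace Cfsg.Agent.S3953

/-- Let `P` be a Sylow `p`-subgroup of the finite group `G`, let `A` be the Schur multiplier of `G` and `B` that of `P`. Then the `p`-primary component of `A` is isomorphic to a direct factor of `B`: there are subgroups `C` and `D` of `B` meeting trivially and generating `B`, with `C` isomorphic to the `p`-primary component of `A`. -/
theorem result {G : Type*} [Group G] [Finite G] (p : ℕ) [Fact p.Prime] (P : Sylow p G) {A B : Type*} [CommGroup A] [CommGroup B] (hA : Cfsg.HasSchurMultiplier G A) (hB : Cfsg.HasSchurMultiplier P B) : ∃ C D : Subgroup B, C ⊓ D = ⊥ ∧ C ⊔ D = ⊤ ∧ Nonempty (CommGroup.primaryComponent A p ≃* C) := by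
  open Subgroup Function CfsgH1.SM in
  open scoped commutatorElement in
  · obtain ⟨a⟩ := hasSM_iff.1 hA
    obtain ⟨b⟩ := hasSM_iff.1 hB
    obtain ⟨r, k, h⟩ := exists_res_cor (A := Cx) (P : Subgroup G)
    let r' : CommGroup.primaryComponent A p →* B := b.symm.toMonoidHom.comp (r.comp (a.toMonoidHom.comp (Subgroup.subtype _)))
    let k' : B →* A := a.symm.toMonoidHom.comp (k.comp b.toMonoidHom)
    have h1 : ∀ x, k' (r' x) = (x : A) ^ (P : Subgroup G).index := fun x => by simp [k', r', h]
    haveI := Finite.of_equiv _ a.symm.toEquiv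
    have h2 : Bijective fun x : CommGroup.primaryComponent A p => x ^ (P : Subgroup G).index :=
      ((CommGroup.primaryComponent.isPGroup (G := A) (p := p)).powEquiv
        ((Nat.Prime.coprime_iff_not_dvd Fact.out).2 P.not_dvd_index)).bijective
    have h3 : Injective r' := fun x y e => h2.1 (Subtype.ext (by simpa [h1] using congrArg k' e))
    refine ⟨r'.range, k'.ker, eq_bot_iff.2 ?_, eq_top_iff.2 fun y _ => ?_, ⟨MonoidHom.ofInjective h3⟩⟩
    · rintro _ ⟨⟨x, rfl⟩, hx⟩
      rw [show x = 1 from h2.1 (Subtype.ext (by simpa [h1] using hx)), map_one]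
      exact one_mem _
    · obtain ⟨n, hn⟩ := P.isPGroup'.exists_card_eq
      obtain ⟨x, hx⟩ := h2.2 ⟨k' y, CommGroup.mem_primaryComponent.2 ⟨n, by
        rw [← map_pow, ← b.symm_apply_apply y, ← map_pow, ← hn, pow_card_H2, map_one, map_one]⟩⟩
      rw [← mul_div_cancel (r' x) y]
      exact mul_mem_sup ⟨x, rfl⟩ (by
        rw [MonoidHom.mem_ker, map_div, h1, div_eq_one]; exact (congrArg Subtype.val hx).symm)

end Cfsg.Agent.S3953
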