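import Cfsg.Statements.S3954
import Cfsg.Agent.H1.Schur4

set_option autoImplicit false
open Cfsg

namespace Cfsg.Agent.S3954

/-- Let `U` be a subgroup of index `m` in the finite group `G`, let `A` be the Schur multiplier of `G` and `B` that of `U`. Then the subgroup of `m`-th powers of `A` is isomorphic to a subgroup of `B`. -/
theorem result {G : Type*} [Group G] [Finite G] (U : Subgroup G) {A B : Type*} [CommGroup A] [CommGroup B] (hA : Cfsg.HasSchurMultiplier G A) (hB : Cfsg.HasSchurMultiplier U B) : ∃ C : Subgroup B, Nonempty ((powMonoidHom U.index : A →* A).range ≃* C) := by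
  open Subgroup Function CfsgH1.SM in
  open scoped commutatorElement in
  · obtain ⟨a⟩ := hasSM_iff.1 hA
    obtain ⟨b⟩ := hasSM_iff.1 hB
    obtain ⟨r, k, h⟩ := exists_res_cor (A := Cx) U
    obtain ⟨g, hg⟩ := exists_inj_of_surj (f := ((a.symm.toMonoidHom.comp k).comp r.range.subtype).codRestrict
      (powMonoidHom U.index : A →* A).range (by
        rintro ⟨_, x, rfl⟩
        exact ⟨a.symm x, by simp [h]⟩)) (by
        rintro ⟨_, x, rfl⟩
        exact ⟨⟨_, a x, rfl⟩, Subtype.ext (by simp [h])⟩)
    exact ⟨_, ⟨MonoidHom.ofInjective (f := b.symm.toMonoidHom.comp (r.range.subtype.comp g))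
      (b.symm.injective.comp (r.range.subtype_injective.comp hg))⟩⟩

end Cfsg.Agent.S3954
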