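import Cfsg.Statements.S3957
import Cfsg.Agent.H1.Schur4

set_option autoImplicit false
universe u v
open Cfsg

namespace Cfsg.Agent.S3957

/-- Let `Q` be a finite group with Schur multiplier `A` and let `τ : Δ →* Q` be a finite stem extension, `Δ` in the universe of `Q`. Then there is a finite stem extension `σ : Γ →* Q` with kernel isomorphic to `A` (a Schur covering group) and a surjective homomorphism `β : Γ →* Δ` with `τ ∘ β = σ`. -/
theorem result {Q : Type u} [Group Q] [Finite Q] {A : Type v} [CommGroup A] (hA : Cfsg.HasSchurMultiplier Q A) {Δ : Type u} [Group Δ] [Finite Δ] (τ : Δ →* Q) (hτ : Cfsg.IsStemExtension τ) : ∃ (Γ : Type u) (_ : Group Γ) (_ : Finite Γ) (σ : Γ →* Q), Cfsg.IsStemExtension σ ∧ Nonempty (σ.ker ≃* A) ∧ ∃ β : Γ →* Δ, Function.Surjective β ∧ τ.comp β = σ := by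
  open Subgroup Function CfsgH1.SM in
  open scoped commutatorElement in
  · obtain ⟨c, hc, hi⟩ := stem_rp hτ
    obtain ⟨C, φ, b, hφ, e⟩ := exists_cover_over c hi
    obtain ⟨β, e1, e2⟩ := (rp_E C).hom hc φ (MonoidHom.id Q) (congrArg cl e)
    exact ⟨E C, _, inferInstance, E.pr C, stem_E b.1, ⟨(rp_E C).kerEquiv.symm.trans
      ((nonempty_du _).some.trans (hasSM_iff.1 hA).some.symm)⟩, β, (rp_E C).surj_of hc e1 e2 hφ, e1⟩

end Cfsg.Agent.S3957
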