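import Cfsg.Statements.S3959
import Cfsg.Agent.H2.SMu1

set_option autoImplicit false
universe u v w
open Cfsg

namespace Cfsg.Agent.S3959
open CfsgH2

/-- Let `Q₁` and `Q₂` be finite groups with Schur multipliers `A` and `B`. Then the Schur multiplier of `Q₁ × Q₂` is isomorphic to `A × B × (Q₁ᵃᵇ ⊗ Q₂ᵃᵇ)`, the last factor being the tensor product over the integers of the commutator quotients, written multiplicatively. -/
theorem result {Q₁ : Type u} {Q₂ : Type v} [Group Q₁] [Group Q₂] [Finite Q₁] [Finite Q₂] {A B : Type w} [CommGroup A] [CommGroup B] (hA : Cfsg.HasSchurMultiplier Q₁ A) (hB : Cfsg.HasSchurMultiplier Q₂ B) : Cfsg.HasSchurMultiplier (Q₁ × Q₂) (A × B × Multiplicative (TensorProduct ℤ (Additive (Abelianization Q₁)) (Additive (Abelianization Q₂)))) := by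
  open Subgroup Function in open scoped commutatorElement in
  open CfsgH1.SM CfsgH2.SMu in
  · set T := TensorProduct ℤ (Additive (Abelianization Q₁)) (Additive (Abelianization Q₂))
    haveI : Finite (Abelianization Q₁) := Finite.of_surjective _ (QuotientGroup.mk'_surjective (commutator Q₁))
    haveI : Finite (Abelianization Q₂) := Finite.of_surjective _ (QuotientGroup.mk'_surjective (commutator Q₂))
    haveI : Finite T := by
      haveI : Module.Finite ℤ (Additive (Abelianization Q₁)) := Module.Finite.of_finite
      haveI : Module.Finite ℤ (Additive (Abelianization Q₂)) := Module.Finite.of_finite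
      haveI : Module.Finite ℤ T := Module.Finite.tensorProduct ℤ _ _
      refine Module.finite_of_fg_torsion T ?_
      intro t
      refine ⟨⟨Nat.card (Additive (Abelianization Q₁)), mem_nonZeroDivisors_of_ne_zero (by exact_mod_cast Nat.card_pos.ne')⟩, ?_⟩
      show (Nat.card (Additive (Abelianization Q₁)) : ℤ) • t = 0
      induction t using TensorProduct.induction_on with
      | zero => simp
      | tmul x y => rw [TensorProduct.smul_tmul', natCast_zsmul, card_nsmul_eq_zero', TensorProduct.zero_tmul]
      | add x y hx hy => rw [smul_add, hx, hy, add_zero]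
    let f : Du (Multiplicative T) →* (Q₁ →* Q₂ →* Cx) :=
      MonoidHom.mk' (fun l => MonoidHom.mk' (fun x => MonoidHom.mk' (fun y => l (Multiplicative.ofAdd
        (Additive.ofMul (Abelianization.of x) ⊗ₜ[ℤ] Additive.ofMul (Abelianization.of y))))
          fun y z => by rw [map_mul, ofMul_mul, TensorProduct.tmul_add, ofAdd_add, map_mul])
          fun x z => MonoidHom.ext fun y => by
            simp only [MonoidHom.mk'_apply, MonoidHom.mul_apply]
            rw [map_mul, ofMul_mul, TensorProduct.add_tmul, ofAdd_add, map_mul]) fun l m => rfl
    have hf : Bijective f := by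
      constructor
      · refine (injective_iff_map_eq_one _).2 fun l hl => MonoidHom.ext fun t => ?_
        obtain ⟨t, rfl⟩ := Multiplicative.ofAdd.surjective t
        induction t using TensorProduct.induction_on with
        | zero => simp
        | tmul x y =>
          obtain ⟨x, rfl⟩ := QuotientGroup.mk'_surjective (commutator Q₁) x
          obtain ⟨y, rfl⟩ := QuotientGroup.mk'_surjective (commutator Q₂) y
          exact DFunLike.congr_fun (DFunLike.congr_fun hl x) y
        | add x y hx hy => rw [ofAdd_add, map_mul, hx, hy]; simp
      · intro B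
        let B1 : Abelianization Q₁ →* Abelianization Q₂ →* Cx :=
          Abelianization.lift (MonoidHom.mk' (fun x => Abelianization.lift (B x)) fun x y => by
            ext z; simp)
        let B2 : Additive (Abelianization Q₁) →+ Additive (Abelianization Q₂) →+ Additive Cx :=
          AddMonoidHom.mk' (fun x => MonoidHom.toAdditive (B1 x.toMul)) fun x y => by
            ext z; simp
        let B3 : T →+ Additive Cx := TensorProduct.liftAddHom B2 fun r m n => by simp
        refine ⟨AddMonoidHom.toMultiplicativeLeft B3, ?_⟩
        ext x y
        rfl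
    exact hasSM_iff.2 ⟨((hasSM_iff.1 hA).some.prodCongr ((hasSM_iff.1 hB).some.prodCongr
      ((nonempty_du _).some.symm.trans (MulEquiv.ofBijective f hf)))).trans H2_prod.some.symm⟩

end Cfsg.Agent.S3959
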