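import Cfsg.Statements.S3960
import Cfsg.Agent.H1.Schur4

set_option autoImplicit false
universe u
open Cfsg

namespace Cfsg.Agent.S3960

/-- A finite perfect group `Q` has a universal central extension: a finite perfect group `G` in the universe of `Q` and a surjective homomorphism `π : G →* Q` with central kernel such that for every group `X` in that universe and every surjective homomorphism `ξ : X →* Q` with central kernel there is exactly one homomorphism `η : G →* X` with `ξ ∘ η = π`. -/
theorem result {Q : Type u} [Group Q] [Finite Q] (hQ : Group.IsPerfect Q) : ∃ (G : Type u) (_ : Group G) (_ : Finite G) (π : G →* Q), Group.IsPerfect G ∧ Function.Surjective π ∧ π.ker ≤ Subgroup.center G ∧ ∀ (X : Type u) [Group X] (ξ : X →* Q), Function.Surjective ξ → ξ.ker ≤ Subgroup.center X → ∃! η : G →* X, ξ.comp η = π := by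
  open Subgroup Function CfsgH1.SM in
  open scoped commutatorElement in
  · obtain ⟨C, hC⟩ := exists_cover Q
    have h := stem_E hC.1
    have h1 := perfect_of_stem h hQ.1
    haveI := M_cover_of_perfect hQ.1 h ((rp_E C).card_ker.trans (card_du _))
    refine ⟨E C, _, inferInstance, E.pr C, ⟨h1⟩, h.1, h.2.1, fun X _ ξ a b => ?_⟩
    obtain ⟨η, e⟩ := exists_lift_of_perfect h1 (E.pr C) a b
    exact ⟨η, e, fun η' e' => hom_eq_of_perfect h1 b (e'.trans e.symm)⟩

end Cfsg.Agent.S3960
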