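import Cfsg.Statements.S3961
import Cfsg.Agent.H1.Schur4

set_option autoImplicit false
universe u v
open Cfsg

namespace Cfsg.Agent.S3961

/-- Let `π : G →* Q` be a surjective homomorphism with central kernel from a finite perfect group `G` (a perfect cover of `Q`). Then `π` is universal, in the sense that every surjective homomorphism `ξ : X →* Q` with central kernel from a group `X` in the universe of `G` admits a homomorphism `η : G →* X` with `ξ ∘ η = π`, if and only if `G` has trivial Schur multiplier. -/
theorem result {G : Type u} {Q : Type v} [Group G] [Group Q] [Finite G] (hG : Group.IsPerfect G) (π : G →* Q) (hπ : Function.Surjective π) (hker : π.ker ≤ Subgroup.center G) : (∀ (X : Type u) [Group X] (ξ : X →* Q), Function.Surjective ξ → ξ.ker ≤ Subgroup.center X → ∃ η : G →* X, ξ.comp η = π) ↔ Cfsg.HasCyclicSchurMultiplier G 1 := by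
  open Subgroup Function CfsgH1.SM in
  open scoped commutatorElement in
  · rw [hasSM_one_iff]
    refine ⟨fun h => ?_, fun _ X _ ξ a b => exists_lift_of_perfect hG.1 π a b⟩
    obtain ⟨C, hC⟩ := exists_cover G
    have h1 := stem_E hC.1
    obtain ⟨η, e⟩ := h (E C) (π.comp (E.pr C)) (hπ.comp h1.1)
      (ker_comp_le_center (perfect_of_stem h1 hG.1) h1.2.1 hker)
    have h2 := ((rp_E C).lift_iff (MonoidHom.id G)).2
      ⟨η, hom_eq_of_perfect hG.1 hker (η := (E.pr C).comp η) (η' := MonoidHom.id G) e⟩
    refine subsingleton_of_forall_eq 1 fun m => ?_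
    obtain ⟨l, rfl⟩ := hC.2 m
    exact (tra_congr (h2.trans (map_one cl).symm) l).trans (by rw [tra_apply, map_one, map_one])

end Cfsg.Agent.S3961
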