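import Cfsg.Statements.S3962
import Cfsg.Agent.H1.Misc1

set_option autoImplicit false
open Cfsg

namespace Cfsg.Agent.S3962

/-- Let `G` be a perfect group and `π : G →* Q` a surjective homomorphism whose kernel is central. Then `π` maps the centre of `G` onto the centre of `Q`. Taking `π` to be the map to `G ⧸ Z(G)` shows that the central quotient of a perfect group has trivial centre. -/
theorem result {G Q : Type*} [Group G] [Group Q] (hG : Group.IsPerfect G) (π : G →* Q) (hπ : Function.Surjective π) (hker : π.ker ≤ Subgroup.center G) : (Subgroup.center G).map π = Subgroup.center Q := by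
  open Pointwise Subgroup CfsgH1 in
  open CfsgH2 hiding card_inf_mul_relIndex card_lt_of_lt card_lt_of_ne_top card_map_mul_card_inf_ker card_mul_relIndex card_subgroupOf card_sup_dvd card_sup_mul_card_inf exists_card_prime_le isNilpotent_map isNilpotent_of_le isPGroup_pCore isSolvable_map isSolvable_of_le le_pCore le_pPrimeCore relIndex_map_dvd in
  open scoped CfsgH2 in
  open scoped commutatorElement in
  · refine le_antisymm ?_ fun z hz => ?_
    · rintro _ ⟨z, hz, rfl⟩
      refine mem_center_iff.2 fun q => ?_
      obtain ⟨g, rfl⟩ := hπ q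
      rw [← map_mul, ← map_mul, mem_center_iff.1 hz]
    obtain ⟨g, rfl⟩ := hπ z
    refine ⟨g, ?_, rfl⟩
    have h1 : ⁅(⊤ : Subgroup G), zpowers g⁆ ≤ center G := (commutator_le.2 fun a _ b hb => by
      rw [MonoidHom.mem_ker, map_commutatorElement, commutatorElement_eq_one_iff_mul_comm]
      exact mem_center_iff.1 (zpowers_le.2 hz (by rw [← MonoidHom.map_zpowers]; exact mem_map_of_mem π hb)) _).trans hker
    have h2 : ⁅⁅(⊤ : Subgroup G), zpowers g⁆, ⊤⁆ = ⊥ := comm_eq_bot_iff.2 (by rwa [cent_top])
    have h3 := three_subgroup h2 (by rwa [commutator_comm (zpowers g)])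
    rw [show ⁅(⊤ : Subgroup G), ⊤⁆ = ⊤ from hG.commutator_eq_top, commutator_comm, comm_eq_bot_iff, cent_top] at h3
    exact h3 (mem_zpowers g)

end Cfsg.Agent.S3962
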