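import Cfsg.Statements.S3963
import Cfsg.Agent.H2.SMu2

set_option autoImplicit false
open Cfsg

namespace Cfsg.Agent.S3963
open CfsgH2

/-- For every `n ≥ 1` the dicyclic (generalized quaternion) group of order `4 n` has trivial Schur multiplier. -/
theorem result (n : ℕ) [NeZero n] : Cfsg.HasCyclicSchurMultiplier (QuaternionGroup n) 1 := by
  open Subgroup Function in open scoped commutatorElement in
  open CfsgH1.SM CfsgH2.SMu in
  · exact hasSM_cyc_iff.2 (q_upper n)

end Cfsg.Agent.S3963
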