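import Cfsg.Statements.S3964
import Cfsg.Agent.H2.SMu2

set_option autoImplicit false
open Cfsg

namespace Cfsg.Agent.S3964
open CfsgH2

/-- For odd `n` the dihedral group of order `2 n` has trivial Schur multiplier. -/
theorem result (n : ℕ) (hn : Odd n) : Cfsg.HasCyclicSchurMultiplier (DihedralGroup n) 1 := by
  open Subgroup Function in open scoped commutatorElement in
  open CfsgH1.SM CfsgH2.SMu in
  · haveI : NeZero n := ⟨by rintro rfl; simp at hn⟩
    obtain ⟨h1, h2⟩ := d_upper n
    rw [Nat.coprime_two_right.2 hn] at h2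
    exact hasSM_cyc_iff.2 ⟨h1, Nat.dvd_one.1 h2⟩

end Cfsg.Agent.S3964
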