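import Cfsg.Statements.S3965
import Cfsg.Agent.H2.SMu2

set_option autoImplicit false
open Cfsg

namespace Cfsg.Agent.S3965
open CfsgH2

/-- For even `n ≥ 2` the dihedral group of order `2 n` has Schur multiplier cyclic of order `2`. -/
theorem result (n : ℕ) [NeZero n] (hn : Even n) : Cfsg.HasCyclicSchurMultiplier (DihedralGroup n) 2 := by
  open Subgroup Function in open scoped commutatorElement in
  open CfsgH1.SM CfsgH2.SMu in
  · obtain ⟨h1, h2⟩ := d_upper n
    obtain ⟨h3, h4⟩ := qd_stem n hn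
    exact hasSM_cyc_iff.2 ⟨h1, Nat.dvd_antisymm (h2.trans (Nat.gcd_dvd_right n 2)) (h4 ▸ stem_card_dvd h3)⟩

end Cfsg.Agent.S3965
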