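import Cfsg.Statements.S3967
import Cfsg.Agent.H2.SMu3

set_option autoImplicit false
open Cfsg

namespace Cfsg.Agent.S3967
open CfsgH2

/-- Let `m, n ≥ 1`, `r ≥ 1` with `r ^ n ≡ 1 (mod m)`, and `l` a natural number; put `d = gcd(m, r - 1)`, `t = m l / d` and `h = d · gcd(m, 1 + r + ⋯ + r^(n-1)) / m`. The group presented by generators `a, b` and relations `a ^ m = 1`, `b ^ n = a ^ t`, `b a b⁻¹ = a ^ r` (a metacyclic group of order `m n`) has Schur multiplier cyclic of order `gcd(l, h)`. -/
theorem result (m n r l : ℕ) (hm : 0 < m) (hn : 0 < n) (hr : 0 < r) (hrn : r ^ n ≡ 1 [MOD m]) : Cfsg.HasCyclicSchurMultiplier (PresentedGroup ({FreeGroup.of true ^ m, (FreeGroup.of false) ^ n * (FreeGroup.of true ^ (m * l / Nat.gcd m (r - 1)))⁻¹, FreeGroup.of false * FreeGroup.of true * (FreeGroup.of false)⁻¹ * (FreeGroup.of true ^ r)⁻¹} : Set (FreeGroup Bool))) (Nat.gcd l (Nat.gcd m (r - 1) * Nat.gcd m (∑ i ∈ Finset.range n, r ^ i) / m)) := by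
  open Subgroup Function in open scoped commutatorElement in
  open CfsgH1.SM CfsgH2.SMu in
  · set d := Nat.gcd m (r - 1) with hd
    set s := ∑ i ∈ Finset.range n, r ^ i with hs
    have d0 : 0 < d := Nat.gcd_pos_of_pos_left _ hm
    obtain ⟨m', hm'⟩ : d ∣ m := Nat.gcd_dvd_left _ _
    obtain ⟨r', hr'⟩ : d ∣ r - 1 := Nat.gcd_dvd_right _ _
    have m0 : 0 < m' := Nat.pos_of_mul_pos_left (hm' ▸ hm)
    have cop : Nat.Coprime m' r' := by
      have := Nat.coprime_div_gcd_div_gcd d0
      rwa [← hd, Nat.div_eq_of_eq_mul_right d0 hm', Nat.div_eq_of_eq_mul_right d0 hr'] at this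
    have hms : m' ∣ s := by
      have h1 : m ∣ r ^ n - 1 := (Nat.modEq_iff_dvd' (Nat.one_le_pow _ _ hr)).1 hrn.symm
      have h2 : r ^ n - 1 = s * (r - 1) := by
        zify [Nat.one_le_pow _ _ hr, show 1 ≤ r from hr, hs]
        rw [geom_sum_mul]
      rw [h2, hr', hm', mul_left_comm] at h1
      exact cop.dvd_of_dvd_mul_right (Nat.dvd_of_mul_dvd_mul_left d0 h1)
    obtain ⟨g', hg'⟩ : m' ∣ Nat.gcd m s := Nat.dvd_gcd (hm' ▸ dvd_mul_left _ _) hms
    have e1 : d * Nat.gcd m s / m = g' := by rw [hg', ← mul_assoc, ← hm', Nat.mul_div_cancel_left _ hm]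
    have e2 : m * l / d = m' * l := by rw [hm', mul_assoc, Nat.mul_div_cancel_left _ d0]
    rw [e1, e2]
    set h := Nat.gcd l g' with hh
    have hK : Nat.gcd (Nat.gcd m s) (m' * l) = m' * h := by rw [hg', Nat.gcd_mul_left, Nat.gcd_comm]
    obtain ⟨u, hu⟩ : m' * h ∣ m := hK ▸ (Nat.gcd_dvd_left _ _).trans (Nat.gcd_dvd_left _ _)
    have r1 : r = d * r' + 1 := by omega
    obtain ⟨Γ, _, α, β, ω, c1, c2, c3, c4, c5, c6⟩ := exists_model m n r (m' * l) hn (u : ZMod m)
      (by rw [← Nat.cast_pow, (ZMod.natCast_eq_natCast_iff _ _ _).2 hrn, Nat.cast_one])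
      (by
        rw [← sub_eq_zero, r1]
        have : ((d * m' : ℕ) : ZMod m) = 0 := by rw [← hm', ZMod.natCast_self]
        push_cast at this ⊢; linear_combination (r' * l) * this)
      (by
        obtain ⟨k, hk⟩ : m' * h ∣ m' * l := hK ▸ Nat.gcd_dvd_right _ _
        rw [← Nat.cast_mul, hk, ZMod.natCast_eq_zero_iff]; exact ⟨k, by rw [hu]; ring⟩)
      (by
        obtain ⟨k, hk⟩ : m' * h ∣ s := hK ▸ (Nat.gcd_dvd_left _ _).trans (Nat.gcd_dvd_right _ _)
        have : ((u * s : ℕ) : ZMod m) = 0 := by rw [hk, ZMod.natCast_eq_zero_iff]; exact ⟨k, by rw [hu]; ring⟩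
        rw [hs] at this; exact_mod_cast this)
    generalize hrels : ({FreeGroup.of true ^ m, FreeGroup.of false ^ n * (FreeGroup.of true ^ (m' * l))⁻¹,
      FreeGroup.of false * FreeGroup.of true * (FreeGroup.of false)⁻¹ * (FreeGroup.of true ^ r)⁻¹} : Set (FreeGroup Bool)) = rels
    set a : PresentedGroup rels := .of true
    set b : PresentedGroup rels := .of false
    have h1 : a ^ m = 1 := PresentedGroup.one_of_mem (x := FreeGroup.of true ^ m) (by simp [← hrels])
    have h2 : b ^ n = a ^ (m' * l) := PresentedGroup.mk_eq_mk_of_mul_inv_mem (x := FreeGroup.of false ^ n)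
      (y := FreeGroup.of true ^ (m' * l)) (by simp [← hrels])
    have h3 : b * a * b⁻¹ = a ^ r := PresentedGroup.mk_eq_mk_of_mul_inv_mem
      (x := FreeGroup.of false * FreeGroup.of true * (FreeGroup.of false)⁻¹) (y := FreeGroup.of true ^ r) (by simp [← hrels])
    have hg : closure {a, b} = ⊤ := by
      rw [← PresentedGroup.closure_range_of rels]; congr 1
      ext x; simp only [Set.mem_insert_iff, Set.mem_singleton_iff, Set.mem_range, Bool.exists_bool]
      tauto
    haveI := finite_meta hg hm hn h1 h2 h3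
    let f : Bool → Γ := fun x => if x then α else β
    have hc : ⁅b, a⁆ = a ^ (d * r') := by rw [commutatorElement_def, h3, r1, pow_succ, mul_inv_cancel_right]
    have oa : orderOf a = m := by
      refine Nat.dvd_antisymm (orderOf_dvd_of_pow_eq_one h1) ?_
      obtain ⟨Γ, _, α, β, ω, -, c2, c3, c4, c5, c6⟩ := exists_model m n r (m' * l) hn 0
        (by rw [← Nat.cast_pow, (ZMod.natCast_eq_natCast_iff _ _ _).2 hrn, Nat.cast_one])
        (by
          rw [← sub_eq_zero, r1]
          have : ((d * m' : ℕ) : ZMod m) = 0 := by rw [← hm', ZMod.natCast_self]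
          push_cast at this ⊢; linear_combination (r' * l) * this) (zero_mul _) (zero_mul _)
      rw [addOrderOf_zero, orderOf_eq_one_iff] at c5
      haveI : (zpowers (β ^ n * (α ^ (m' * l))⁻¹)).Normal := ⟨fun x hx g => by
        rw [mem_center_iff.1 (zpowers_le.2 (mem_center_iff.2 c2) hx) g, mul_inv_cancel_right]; exact hx⟩
      let q := QuotientGroup.mk' (zpowers (β ^ n * (α ^ (m' * l))⁻¹))
      let ψ : PresentedGroup rels →* _ := PresentedGroup.toGroup (f := fun x => if x then q α else q β) (by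
        rw [← hrels]
        rintro _ (rfl | rfl | rfl)
        · simp only [map_pow, FreeGroup.lift_apply_of]
          show q (α ^ m) = 1
          rw [c3, map_one]
        · simp only [map_mul, map_inv, map_pow, FreeGroup.lift_apply_of]
          exact (QuotientGroup.eq_one_iff (β ^ n * (α ^ (m' * l))⁻¹)).2 (mem_zpowers _)
        · simp only [map_mul, map_inv, map_pow, FreeGroup.lift_apply_of]
          show q (β * α * β⁻¹ * (α ^ r)⁻¹) = 1
          rw [c4, c5]; simp)
      have : q (α ^ orderOf a) = 1 := by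
        rw [map_pow, show q α = ψ a from by simp [ψ, a], ← map_pow, pow_orderOf_eq_one, map_one]
      obtain ⟨k, hk⟩ := (QuotientGroup.eq_one_iff _).1 this
      exact c6 _ k hk.symm
    have oc : orderOf ⁅b, a⁆ = m' := by
      rw [hc, orderOf_pow, oa, ← hr', ← hd, Nat.div_eq_of_eq_mul_right d0 hm']
    obtain ⟨u1, u2, u3⟩ := meta_upper hg (r := r) (by rw [h3, zpow_natCast])
    rw [oc] at u2 u3
    refine hasSM_cyc_iff.2 ⟨u1, Nat.dvd_antisymm (Nat.dvd_of_mul_dvd_mul_left m0 ?_) ?_⟩
    · rw [← hK, mul_comm]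
      refine Nat.dvd_gcd (Nat.dvd_gcd ?_ ?_) ?_
      · exact_mod_cast u2 m 0 (by simpa using h1)
      · have := u3 n (m' * l : ℕ) (by rw [h2, zpow_natCast])
        rw [hs]; exact_mod_cast this
      · exact_mod_cast u2 (m' * l : ℕ) n (by rw [zpow_natCast, zpow_natCast, h2])
    · haveI : Finite (FreeGroup Bool ⧸ normalClosure rels) := ‹Finite (PresentedGroup rels)›
      have := hopf_lower (rels := rels) (FreeGroup.lift f) (by
        rw [← hrels]
        rintro _ (rfl | rfl | rfl) x
        · simp [f, c3]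
        · simpa [f] using c2 x
        · have := c1 x
          simp only [map_mul, map_inv, map_pow, FreeGroup.lift_apply_of, f, if_true, Bool.false_eq_true, if_false, c4]
          rwa [← (c1 _).eq.symm, mul_inv_cancel_right]) (w := ⁅FreeGroup.of false, FreeGroup.of true⁆ ^ m')
        (PresentedGroup.mk_eq_one_iff.1 (by
          rw [map_pow, map_commutatorElement]; show ⁅b, a⁆ ^ m' = 1
          rw [← oc, pow_orderOf_eq_one])) (pow_mem (commutator_mem_commutator (mem_top _) (mem_top _)) _)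
      refine dvd_trans (dvd_of_eq ?_) this
      have h0 : 0 < h := Nat.pos_of_mul_pos_left (Nat.pos_of_mul_pos_right (hu ▸ hm))
      have oω : orderOf ω = m' * h := by
        have u0 : 0 < u := Nat.pos_of_mul_pos_left (hu ▸ hm)
        rw [c5, ZMod.addOrderOf_coe _ hm.ne', Nat.gcd_eq_right (hu ▸ dvd_mul_left _ _),
          Nat.div_eq_of_eq_mul_left u0 hu]
      have : FreeGroup.lift f (⁅FreeGroup.of false, FreeGroup.of true⁆ ^ m') = ω ^ m' := by
        simp only [map_pow, map_commutatorElement, FreeGroup.lift_apply_of, f, if_true, Bool.false_eq_true, if_false]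
        rw [commutatorElement_def, c4, mul_assoc, ← (c1 α⁻¹).eq, ← mul_assoc, (c1 _).mul_pow, r1, pow_succ,
          mul_inv_cancel_right, ← pow_mul, show d * r' * m' = m * r' by rw [hm']; ring, pow_mul, c3, one_pow, one_mul]
      rw [this, orderOf_pow' _ m0.ne', oω, Nat.gcd_eq_right (dvd_mul_right _ _), Nat.mul_div_cancel_left _ m0]

end Cfsg.Agent.S3967
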