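import Cfsg.Statements.S3968
import Cfsg.Agent.H3.Cd4

set_option autoImplicit false
open Cfsg

open Cfsg CfsgH3 CfsgH4 CfsgCd Function Subgroup

namespace Cfsg.Agent.S3968
theorem card_syl {G : Type*} [Group G] [Finite G] {χ : G → ℂ} (hZ : charCenter χ = ⊥)
    (hχ : IsIrrCharacter G χ) {p : ℕ} [hp : Fact p.Prime] (hd : charDegree χ = p) {P : Subgroup G} (hP : IsPGroup p P)
    (hi : ¬ p ∣ P.index) : Nat.card P = p := by
  classical
  haveI := Fintype.ofFinite P
  have h1 : χ 1 = p := by rw [← coe_charDegree hχ.isCharacter, hd]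
  have hv : ∀ z : P, z ∈ center P → z ≠ 1 → χ z = 0 := fun z hz h0 => by
    refine (hχ.eq_zero_or_norm_eq_of_coprime h1 z ?_).resolve_right fun h => h0 (Subtype.ext ?_)
    · refine (hp.1.coprime_iff_not_dvd).2 fun h => hi (h.trans (index_dvd_of_le fun x hx => ?_))
      exact mem_centralizer_singleton_iff.2 (congrArg Subtype.val (mem_center_iff.1 hz ⟨x, hx⟩))
    · exact mem_bot.1 (hZ ▸ hχ.isCharacter.mem_charCenter.2 h)
  have hdvd : p ∣ Nat.card P := (hp.1.dvd_mul.1 ((hd ▸ (deg_dvd_index_ker hχ).trans (index_dvd_card _)).trans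
    P.card_mul_index.symm.dvd)).resolve_right hi
  haveI : Nontrivial P := Finite.one_lt_card_iff_nontrivial.1 (hp.1.one_lt.trans_le (Nat.le_of_dvd Nat.card_pos hdvd))
  have hr := hχ.isCharacter.restrict P
  have hlin : ∀ φ, IsIrrCharacter P φ → classInner (fun x : P => χ x) φ ≠ 0 → φ 1 = 1 := by
    intro φ hφ h
    obtain ⟨k, hk⟩ := deg_pow_of_pgroup hP hφ
    by_contra h2
    have h3 : p ≤ charDegree φ := by
      rw [hk]
      exact Nat.le_self_pow (fun h0 => h2 ((charDegree_eq_one hφ.isCharacter).1 (by rw [hk, h0, pow_zero]))) p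
    have h4 := le_antisymm ((deg_le_of_under hφ hχ.isCharacter h).trans hd.le) h3
    have h5 := (hr.sub_of_constituent hφ h).eq_zero_of_apply_one (by
      rw [Pi.sub_apply, ← coe_charDegree hφ.isCharacter, h4, OneMemClass.coe_one, h1, sub_self])
    haveI := hP.center_nontrivial
    obtain ⟨z, hz⟩ := exists_ne (1 : center P)
    have h6 := hφ.norm_apply_of_mem_center z.2
    rw [← sub_eq_zero.1 h5] at h6
    beta_reduce at h6
    rw [hv z z.2 fun h => hz (Subtype.ext h), norm_zero, eq_comm, norm_eq_zero] at h6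
    exact hχ.apply_one_ne_zero h6
  have hab : commutator P = ⊥ := eq_bot_iff.2 fun a ha => Subtype.ext <| mem_bot.1 <| hZ ▸
    charKer_le_charCenter χ (hχ.isCharacter.mem_charKer.2 <| by
      rw [show χ a = _ from hr.isClassFunction.apply_eq_sum_irr a, show χ 1 = _ from hr.isClassFunction.apply_eq_sum_irr 1]
      refine Finset.sum_congr rfl fun φ _ => ?_
      by_cases h0 : classInner (fun x : P => χ x) φ = 0
      · rw [h0, zero_mul, zero_mul]
      · rw [lin_comm φ.2.isCharacter (hlin _ φ.2 h0) ha, hlin _ φ.2 h0])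
  obtain ⟨n, hn⟩ := hr.exists_nat_classInner isCharacter_one
  rw [classInner_one_right, Finset.sum_eq_single 1 (fun z _ hz => hv z (by
    rw [(commutator_eq_bot_iff_center_eq_top _).1 hab]; trivial) hz) (by simp), OneMemClass.coe_one, h1,
    inv_mul_eq_iff_eq_mul₀ (natCard_ne_zero P)] at hn
  exact Nat.dvd_antisymm ⟨n, by exact_mod_cast hn⟩ hdvd


/-- Let `p` be a prime and `G` a finite group with a faithful irreducible complex character of degree `p` (so `G` is an irreducible linear group in `p` variables). If `p ^ 2` divides the order of `G`, then the centre of `G` is nontrivial. -/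
theorem result {G : Type*} [Group G] [Finite G] (p : ℕ) (hp : p.Prime) (χ : Cfsg.IrrCharacter G) (hdeg : χ.1 1 = p) (hfaith : ∀ g : G, χ.1 g = χ.1 1 → g = 1) (hdiv : p ^ 2 ∣ Nat.card G) : Subgroup.center G ≠ ⊥ := by
  intro hc
  haveI := Fact.mk hp
  obtain ⟨P⟩ : Nonempty (Sylow p G) := inferInstance
  have hZ : charCenter χ.1 = ⊥ := eq_bot_iff.2 fun z hz => hc.le (mem_center_iff.2 fun g => by
    have := hfaith _ (χ.2.isCharacter.mem_charKer.1 (χ.2.isCharacter.commutator_mem_charKer hz g))
    rwa [mul_inv_eq_one, mul_inv_eq_iff_eq_mul] at this)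
  have hd : charDegree χ.1 = p := by exact_mod_cast (coe_charDegree χ.2.isCharacter).trans hdeg
  have h := card_syl hZ χ.2 hd P.isPGroup' P.not_dvd_index
  rw [← (P : Subgroup G).card_mul_index, h, pow_two] at hdiv
  exact P.not_dvd_index (Nat.dvd_of_mul_dvd_mul_left hp.pos hdiv)


end Cfsg.Agent.S3968
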