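import Cfsg.Statements.S3970
import Mathlib
import Cfsg.Agent.L0.M3
import Cfsg.Agent.H2.FT

set_option autoImplicit false
open Cfsg

namespace Cfsg.Agent.S3970

open Cfsg Subgroup CfsgH2 CfsgL0

/-- Let `G` be a finite group such that for every prime `p` dividing its order, other than the largest such prime, the Sylow `p`-subgroups are abelian and generated by at most two elements, and suppose `12` does not divide the order of `G`. Then `G` is solvable. In particular a group of cube-free order not divisible by `12` is solvable. -/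
theorem result {G : Type*} [Group G] [Finite G] (h : ∀ p : ℕ, p.Prime → p ∣ Nat.card G → (∃ q : ℕ, q.Prime ∧ q ∣ Nat.card G ∧ p < q) → ∀ P : Sylow p G, IsMulCommutative (P : Subgroup G) ∧ Group.rank (P : Subgroup G) ≤ 2) (h12 : ¬ 12 ∣ Nat.card G) : Group.IsSolvable G := by
  rcases Nat.even_or_odd (Nat.card G) with he | ho
  swap
  · exact ft ho
  by_cases hq : ∃ q : ℕ, q.Prime ∧ q ∣ Nat.card G ∧ 2 < q
  swap
  · have : IsPGroup 2 G := isPGroup_iff_piN.2 fun q h1 h2 => by
      by_contra h3
      exact hq ⟨q, h1, h2, lt_of_le_of_ne h1.two_le (Ne.symm h3)⟩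
    haveI := this.isNilpotent
    infer_instance
  obtain ⟨P⟩ : Nonempty (Sylow 2 G) := inferInstance
  obtain ⟨hab, hr⟩ := h 2 Nat.prime_two he.two_dvd hq P
  have hN : NPC 2 (⊤ : Subgroup G) := by
    by_cases h3 : 3 ∣ Nat.card G
    · have h4 : ¬ 2 ^ 2 ∣ Nat.card G := fun h4 => h12 (Nat.Coprime.mul_dvd_of_dvd_of_dvd (by norm_num) h4 h3)
      obtain ⟨n, hn⟩ := exists_card_eq_pow P.isPGroup'
      have hn1 : n ≤ 1 := by
        by_contra hn1
        exact h4 ((pow_dvd_pow 2 (by omega)).trans (hn ▸ card_subgroup_dvd_card _))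
      refine (syl_top P).npc_of_abelian hab hn fun q k hq _ _ h1 h2 => ?_
      rw [show k = 1 by omega]
      simpa using hq.one_lt.ne'
    · refine Syl.npc_of_qt_phi (syl_top P) hab ((card_qt_phi_dvd P.isPGroup').trans (pow_dvd_pow 2 hr))
        fun q k hq hd _ h1 h2 h4 => ?_
      rw [card_top] at hd
      interval_cases k
      · exact hq.one_lt.ne' (by simpa using h4)
      · exact h3 ((Nat.prime_dvd_prime_iff_eq hq Nat.prime_three).1 (by simpa using h4) ▸ hd)
  have := sol_of_npc hN (ft (Nat.not_even_iff_odd.1 fun h => not_dvd_piCoreOf h.two_dvd))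
  exact isSolvable_top_iff.1 this

end Cfsg.Agent.S3970
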