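import Cfsg.Statements.S3971
import Mathlib
import Cfsg.Agent.L0.M3

set_option autoImplicit false
open Cfsg

namespace Cfsg.Agent.S3971

open Cfsg Subgroup CfsgH2 CfsgL0

/-- Let `G` be a finite group of order `2 ^ a * n` with `n` odd and not divisible by `3`, and suppose `G` has an element of order `2 ^ (a - 1)` (so a Sylow `2`-subgroup has a cyclic subgroup of index at most `2`). Then `G` has a normal subgroup of order `n`. -/
theorem result {G : Type*} [Group G] [Finite G] (a n : ℕ) (hG : Nat.card G = 2 ^ a * n) (hn : Odd n) (h3 : ¬ 3 ∣ n) (hx : ∃ x : G, orderOf x = 2 ^ (a - 1)) : ∃ N : Subgroup G, N.Normal ∧ Nat.card N = n := by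
  obtain ⟨x, hx⟩ := hx
  obtain ⟨P, hP, hxP⟩ := exists_syl_ge (isPGroup_of_card ((Nat.card_zpowers x).trans hx)) (le_top (a := zpowers x))
  have hn2 : ¬ 2 ∣ n := fun h => (Nat.not_even_iff_odd.2 hn) (even_iff_two_dvd.2 h)
  have hPa : Nat.card P ∣ 2 ^ a := by
    refine Nat.Coprime.dvd_of_dvd_mul_right (coprime_of_pgroup hP.pg hn2) ?_
    rw [← hG]; exact card_subgroup_dvd_card _
  have hi : (zpowers x).relIndex P ∣ 2 := by
    have h1 := card_mul_relIndex hxP
    rw [← h1, Nat.card_zpowers, hx] at hPa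
    have : 2 ^ a ∣ 2 ^ (a - 1) * 2 := by rw [← pow_succ]; exact pow_dvd_pow 2 (by omega)
    exact Nat.dvd_of_mul_dvd_mul_left (by positivity) (hPa.trans this)
  have hN : NPC 2 (⊤ : Subgroup G) := by
    refine hP.frobenius_npc fun Q hQ _ g _ hg hc => ?_
    have pQ := hP.pg.to_le hQ
    refine cent_of_qt_phi pQ (d := 2) ?_ hg ((coprime_iff_not_dvd Nat.prime_two).1 hc) fun q k hq hd h1 h2 h4 => ?_
    · have he := elem_qt_phi pQ
      have hle : qt Φ[Q] (zpowers x ⊓ Q) ≤ qt Φ[Q] Q := qt_mono inf_le_right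
      rw [← card_mul_relIndex hle, pow_two]
      refine mul_dvd_mul (card_dvd_of_elem_cyclic (elem_of_le he hle) ?_) ?_
      · haveI : IsCyclic (zpowers x ⊓ Q : Subgroup G) := isCyclic_of_le inf_le_left
        obtain ⟨y, hy⟩ := isCyclic_iff_zpowers.1 this
        have hyn : y ∈ N[Φ[Q]] := le_norm_phi (hy.le (mem_zpowers y)).2
        rw [← hy, qt_zpowers hyn]; infer_instance
      · refine (relIndex_map_dvd _ (comap_mono inf_le_right)).trans ?_
        refine (relIndex_subgroupOf (H := zpowers x ⊓ Q) (le_norm_phi (H := Q))).dvd.trans ?_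
        rw [inf_relIndex_right]
        have h5 := CfsgH1.relIndex_dvd_of_sn (CfsgH1.sn_of_le_nilpotent (nil_of_pg hP.pg) (.refl P) hQ) (zpowers x)
        exact h5.trans hi
    · interval_cases k
      · exact hq.one_lt.ne' (by simpa using h4)
      · have e := (Nat.prime_dvd_prime_iff_eq hq Nat.prime_three).1 (by simpa using h4)
        subst e
        have := hd.trans (orderOf_dvd_natCard g)
        rw [hG] at this
        exact h3 ((Nat.Coprime.pow_right a (by norm_num : Nat.Coprime 3 2)).dvd_of_dvd_mul_left this)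
  refine ⟨O[{2}ᶜ, ⊤], inferInstance, Nat.dvd_antisymm ?_ ?_⟩
  · refine Nat.Coprime.dvd_of_dvd_mul_left ?_ (hG ▸ card_subgroup_dvd_card _ : _ ∣ 2 ^ a * n)
    exact Nat.Coprime.pow_right a ((coprime_iff_not_dvd Nat.prime_two).2 not_dvd_piCoreOf)
  · exact hN.hall.dvd_card ((piN_compl_singleton Nat.prime_two).2 hn2) (by rw [card_top, hG]; exact dvd_mul_left _ _)

end Cfsg.Agent.S3971
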