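import Mathlib
import Cfsg.Statements.S3972
import Cfsg.Agent.H8.Schur

set_option autoImplicit false
open Cfsg

namespace Cfsg.Agent.S3972

open CfsgH8

/-- Let `p` be a prime, `m ≥ 2`, and `G` a transitive but not doubly transitive permutation group on `p ^ m` points containing a permutation of order `p ^ m` (necessarily a full cycle). Then `G` is imprimitive, and the normal closure in `G` of the `p ^ (m - 1)`-th power of that permutation is an intransitive normal subgroup. -/
theorem result {Ω : Type*} [Fintype Ω] [DecidableEq Ω] (p m : ℕ) (hp : p.Prime) (hm : 2 ≤ m) (hΩ : Fintype.card Ω = p ^ m) (G : Subgroup (Equiv.Perm Ω)) (htr : MulAction.IsPretransitive G Ω) (h2 : ¬ MulAction.IsMultiplyPretransitive G Ω 2) (g : G) (hg : orderOf g = p ^ m) : ¬ MulAction.IsPreprimitive G Ω ∧ ¬ MulAction.IsPretransitive (Subgroup.normalClosure ({g ^ (p ^ (m - 1))} : Set G)) Ω := by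
  classical
  haveI := Fact.mk hp
  let C := Subgroup.zpowers g
  letI : CommGroup C := IsCyclic.commGroup
  haveI := Fintype.ofFinite C
  have hc : Nat.card C = p ^ m := by rw [Nat.card_zpowers, hg]
  have hE := card_pow_eq_one_cyclic (H := C) hp (by rw [← Nat.card_eq_fintype_card, hc]; exact dvd_pow_self p (by omega))
  let z : C := ⟨g ^ p ^ (m - 1), Subgroup.npow_mem_zpowers _ _⟩
  have hz1 : z ≠ 1 := fun h => by
    have h1 := orderOf_dvd_of_pow_eq_one (congrArg Subtype.val h)
    rw [hg, Nat.pow_dvd_pow_iff_le_right hp.one_lt] at h1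
    omega
  have hzp : z ^ p = 1 := Subtype.ext (by
    change (g ^ p ^ (m - 1)) ^ p = 1
    rw [← pow_mul, ← pow_succ, Nat.sub_add_cancel (by omega), ← hg, pow_orderOf_eq_one])
  have hch : ∀ U : Subgroup C, U ≠ ⊥ → z ∈ U := by
    intro U hU
    obtain ⟨k, -, hk⟩ := (Nat.dvd_prime_pow hp).1 (hc ▸ U.card_subgroup_dvd_card)
    have hk0 : k ≠ 0 := by rintro rfl; exact hU (Subgroup.card_eq_one.1 (by simpa using hk))
    obtain ⟨u, hu⟩ := exists_prime_orderOf_dvd_card' (G := U) p (hk ▸ dvd_pow_self p hk0)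
    have hu' : orderOf (u : C) = p := by rw [Subgroup.orderOf_coe, hu]
    have h1 : ((Subgroup.zpowers (u : C) : Set C).toFinset) ⊆ ({e : C | e ^ p = 1} : Finset C) := by
      intro x hx
      obtain ⟨k, rfl⟩ := Set.mem_toFinset.1 hx
      simp only [Finset.mem_filter, Finset.mem_univ, true_and]
      rw [← zpow_natCast, ← zpow_mul, mul_comm, zpow_mul, zpow_natCast, ← hu', pow_orderOf_eq_one, one_zpow]
    have h2 := Finset.eq_of_subset_of_card_le h1 (by
      rw [Set.toFinset_card, ← Nat.card_eq_fintype_card, SetLike.coe_sort_coe, Nat.card_zpowers, hu', hE])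
    have h3 : z ∈ ({e : C | e ^ p = 1} : Finset C) := by simpa using hzp
    rw [← h2, Set.mem_toFinset] at h3
    exact (Subgroup.zpowers_le.2 u.2) h3
  obtain ⟨ω, hω⟩ : ∃ ω : Ω, z • ω ≠ ω := by
    by_contra h
    push Not at h
    exact hz1 (Subtype.ext (Subtype.ext (Equiv.ext h)))
  have hb : Function.Bijective fun h : C => C.subtype h • ω := by
    rw [Nat.bijective_iff_injective_and_card]
    refine ⟨fun a b h => ?_, by rw [hc, Nat.card_eq_fintype_card, hΩ]⟩
    have : a⁻¹ * b ∈ MulAction.stabilizer C ω := by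
      rw [MulAction.mem_stabilizer_iff, mul_smul, inv_smul_eq_iff]
      exact h.symm
    by_cases h1 : MulAction.stabilizer C ω = ⊥
    · rw [h1, Subgroup.mem_bot] at this
      exact inv_mul_eq_one.1 this
    · exact absurd (hch _ h1) hω
  obtain ⟨U, h1, h3, hU⟩ := (schur_action C.subtype ω hb hp hE ⟨⟨g, Subgroup.mem_zpowers g⟩, fun h => by
    have h1 := orderOf_dvd_of_pow_eq_one (congrArg Subtype.val h)
    have h4 : p ^ m ∣ p ^ 1 := by rw [pow_one, ← hg]; exact h1
    rw [Nat.pow_dvd_pow_iff_le_right hp.one_lt] at h4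
    omega⟩).resolve_right h2
  refine ⟨not_preprimitive_of_U _ ω hb h1 h3 hU, fun ht => ?_⟩
  let β : C ≃ Ω := Equiv.ofBijective _ hb
  have hβ : ∀ x : Ω, C.subtype (β.symm x) • ω = x := β.apply_symm_apply
  have hinv : ∀ (g : G) (x y : Ω), (β.symm x)⁻¹ * β.symm y ∈ U → (β.symm (g • x))⁻¹ * β.symm (g • y) ∈ U :=
    fun g x y => hU g _ _ _ _ (by rw [hβ, hβ]) (by rw [hβ, hβ])
  let K : Subgroup G :=
    { carrier := {k | ∀ x : Ω, (β.symm x)⁻¹ * β.symm (k • x) ∈ U}
      one_mem' := fun x => by simp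
      mul_mem' := fun {a b} ha hb x => by
        simpa [mul_smul] using mul_mem (hb x) (ha (b • x))
      inv_mem' := fun {a} ha x => by
        simpa using inv_mem (ha (a⁻¹ • x)) }
  haveI : K.Normal := ⟨fun k hk g x => by
    simpa [mul_smul] using hinv g _ _ (hk (g⁻¹ • x))⟩
  have hle : Subgroup.normalClosure ({g ^ (p ^ (m - 1))} : Set G) ≤ K := by
    refine Subgroup.normalClosure_le_normal ?_
    rintro _ rfl x
    have : β.symm (g ^ p ^ (m - 1) • x) = z * β.symm x := by
      rw [Equiv.symm_apply_eq]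
      change _ = C.subtype (z * β.symm x) • ω
      rw [map_mul, mul_smul, hβ]; rfl
    rw [this]
    simpa [mul_comm, mul_left_comm] using hch U h1
  refine h3 (eq_top_iff.2 fun u _ => ?_)
  obtain ⟨k, hk⟩ := ht.exists_smul_eq (β 1) (β u)
  have := hle k.2 (β 1)
  change (k : G) • β 1 = β u at hk
  simpa [hk] using this

end Cfsg.Agent.S3972
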