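import Cfsg.Statements.S3973
import Cfsg.Agent.H2.SMu3

set_option autoImplicit false
open Cfsg

namespace Cfsg.Agent.S3973
open CfsgH2
section
open Subgroup Function
open scoped commutatorElement

theorem mod_gen {ι B L A : Type*} [Fintype ι] [AddCommGroup B] [AddCommGroup L] [AddCommGroup A] [Module.Finite ℤ L]
    (ψ : (ι → ℤ) →ₗ[ℤ] B) (hψ : Surjective ψ) (θ : B →ₗ[ℤ] L) {N : ℕ} (hN : N ≠ 0) (h : ∀ x, (N : ℤ) • x ∈ θ.range)
    (j : A →ₗ[ℤ] B) (hj : Injective j) (e : j.range = θ.ker) :
    ∃ S : Finset A, AddSubgroup.closure (S : Set A) = ⊤ ∧ S.card ≤ Fintype.card ι - Module.finrank ℤ L := by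
  classical
  let T := θ.comp ψ
  have h1 := T.ker.finrank_quotient_add_finrank
  have h2 := T.range.finrank_quotient_add_finrank
  have h3 : Module.finrank ℤ (L ⧸ T.range) = 0 := by
    rw [Module.finrank_eq_zero_iff_isTorsion]
    intro x
    obtain ⟨x, rfl⟩ := Submodule.mkQ_surjective _ x
    refine ⟨⟨N, mem_nonZeroDivisors_of_ne_zero (by exact_mod_cast hN)⟩, ?_⟩
    show (N : ℤ) • T.range.mkQ x = 0
    rw [← map_smul, Submodule.mkQ_apply, Submodule.Quotient.mk_eq_zero, LinearMap.range_comp_of_range_eq_top _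
      (LinearMap.range_eq_top.2 hψ)]
    exact h x
  rw [T.quotKerEquivRange.finrank_eq, Module.finrank_fintype_fun_eq_card] at h1
  let b := Module.finBasis ℤ T.ker
  let f : T.ker →ₗ[ℤ] A := (LinearEquiv.ofInjective j hj).symm.toLinearMap.comp
    ((ψ.comp T.ker.subtype).codRestrict j.range fun x => by rw [e]; exact x.2)
  have hf : Surjective f := fun a => by
    obtain ⟨x, hx⟩ := hψ (j a)
    refine ⟨⟨x, ?_⟩, ?_⟩
    · show θ (ψ x) = 0
      rw [hx]; exact e.le ⟨a, rfl⟩
    · simp only [f, LinearMap.comp_apply, LinearEquiv.coe_coe, LinearEquiv.symm_apply_eq]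
      exact Subtype.ext hx
  refine ⟨Finset.univ.image (f ∘ b), ?_, Finset.card_image_le.trans (by simp; omega)⟩
  rw [← Submodule.span_int_eq_addSubgroupClosure, Finset.coe_image, Finset.coe_univ, Set.image_univ, Set.range_comp,
    ← Submodule.map_span, b.span_eq, Submodule.map_top, LinearMap.range_eq_top.2 hf]
  rfl

end

/-- If a finite group is presented by `n` generators and a finite set of `r` relators, then its Schur multiplier can be generated by `r - n` elements. In particular a finite group with a presentation having as many relators as generators has trivial Schur multiplier. -/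
theorem result (n : ℕ) (rels : Finset (FreeGroup (Fin n))) [Finite (PresentedGroup (rels : Set (FreeGroup (Fin n))))] {A : Type*} [CommGroup A] [Finite A] (hA : Cfsg.HasSchurMultiplier (PresentedGroup (rels : Set (FreeGroup (Fin n)))) A) : Group.rank A ≤ rels.card - n := by
  open Subgroup Function in open scoped commutatorElement in
  open CfsgH1.SM CfsgH2.SMu in
  · classical
    set R := normalClosure (rels : Set (FreeGroup (Fin n)))
    haveI : Finite (FreeGroup (Fin n) ⧸ R) := ‹Finite (PresentedGroup _)›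
    obtain ⟨c, h⟩ := exists_rp_ker (hopf_cen R) (hopf_surj R)
    have hs : Surjective (tra c : Du _ → M (FreeGroup (Fin n) ⧸ R)) := fun m => by
      obtain ⟨C, rfl⟩ := cl_surj m
      choose s hs using (rp_E C).surj
      let β0 : FreeGroup (Fin n) →* E C := FreeGroup.lift fun i => s (FreeGroup.of i)
      have e0 : (E.pr C).comp β0 = QuotientGroup.mk' R := by ext i; simp [β0, hs]
      let β : FreeGroup (Fin n) ⧸ ⁅R, (⊤ : Subgroup _)⁆ →* E C := QuotientGroup.lift _ β0 (by
        rw [commutator_le]; intro x hx y _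
        rw [MonoidHom.mem_ker, map_commutatorElement, commutatorElement_eq_one_iff_commute]
        refine (mem_center_iff.1 ((rp_E C).cen ((rp_E C).ker.le ?_)) _).symm
        show (E.pr C).comp β0 x = 1
        rw [e0]; exact (QuotientGroup.eq_one_iff x).2 hx)
      have e1 : (E.pr C).comp β = (MonoidHom.id _).comp (hopf R) := by
        refine MonoidHom.ext fun x => ?_
        obtain ⟨x, rfl⟩ := QuotientGroup.mk_surjective x
        exact DFunLike.congr_fun e0 x
      obtain ⟨φ, e2⟩ := h.exists_restrict (rp_E C) β e1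
      exact ⟨φ, by rw [tra_apply, h.cl_eq (rp_E C) β e1 e2, Z2.map_id]⟩
    obtain ⟨e1⟩ := h.equiv_K0 hs
    obtain ⟨e2⟩ := hasSM_iff.1 hA
    let g : rels → Kr (hopf R) (hopf_cen R) := fun r => (Kr.e _ _).symm ⟨((r : FreeGroup (Fin n)) : _ ⧸ _),
      (QuotientGroup.eq_one_iff (r : FreeGroup (Fin n))).2 (subset_normalClosure r.2)⟩
    let ψ : (rels → ℤ) →ₗ[ℤ] Additive (Kr (hopf R) (hopf_cen R)) := Fintype.linearCombination ℤ fun r => .ofMul (g r)
    let θ0 : FreeGroup (Fin n) ⧸ ⁅R, (⊤ : Subgroup _)⁆ →* Abelianization (FreeGroup (Fin n)) :=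
      QuotientGroup.lift _ Abelianization.of (by
        rw [Abelianization.ker_of]; exact commutator_mono le_top le_top)
    let θ : Additive (Kr (hopf R) (hopf_cen R)) →ₗ[ℤ] FreeAbelianGroup (Fin n) :=
      (MonoidHom.toAdditive (θ0.comp (Kr.i _ _))).toIntLinearMap
    let j : Additive A →ₗ[ℤ] Additive (Kr (hopf R) (hopf_cen R)) :=
      (MonoidHom.toAdditive ((Subgroup.subtype _).comp (e2.trans e1).toMonoidHom)).toIntLinearMap
    haveI := Module.Finite.of_basis (FreeAbelianGroup.basis (Fin n))
    have hψ : Surjective ψ := by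
      rw [← LinearMap.range_eq_top, Fintype.range_linearCombination, eq_top_iff]
      intro x _
      set K := (Submodule.span ℤ (Set.range fun r => Additive.ofMul (g r))).toAddSubgroup.toSubgroup'
      haveI : (K.map (Kr.i (hopf R) (hopf_cen R))).Normal := ⟨fun x hx g => by
        rw [mem_center_iff.1 (h.cen (map_le_range _ _ hx)) g, mul_inv_cancel_right]; exact hx⟩
      have : R ≤ (K.map (Kr.i (hopf R) (hopf_cen R))).comap (QuotientGroup.mk' _) :=
        normalClosure_le_normal fun r hr => ⟨g ⟨r, hr⟩, (Submodule.subset_span ⟨⟨r, hr⟩, rfl⟩ : Additive.ofMul (g ⟨r, hr⟩) ∈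
          Submodule.span ℤ (Set.range fun r => Additive.ofMul (g r))), rfl⟩
      obtain ⟨y, hy⟩ := QuotientGroup.mk_surjective (Kr.i (hopf R) (hopf_cen R) x.toMul)
      have hy' : y ∈ R := (QuotientGroup.eq_one_iff y).1 (by rw [← hopf_mk, hy]; exact h.σi _)
      obtain ⟨z, hz, e⟩ := this hy'
      rwa [h.inj (e.trans hy)] at hz
    obtain ⟨S, hS, hc⟩ := mod_gen ψ hψ θ (N := Nat.card (FreeGroup (Fin n) ⧸ R)) Nat.card_pos.ne' (fun x => by
      obtain ⟨x, rfl⟩ : ∃ y : FreeGroup (Fin n), Additive.ofMul (Abelianization.of y) = x :=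
        QuotientGroup.mk_surjective (s := commutator (FreeGroup (Fin n))) x
      obtain ⟨y, hy⟩ := h.ker.le (show hopf R ((x ^ Nat.card (FreeGroup (Fin n) ⧸ R) : FreeGroup (Fin n)) : _ ⧸ _) = 1 by
        rw [hopf_mk, QuotientGroup.mk_pow, pow_card_eq_one'])
      refine ⟨.ofMul y, ?_⟩
      show Additive.ofMul (θ0 (Kr.i _ _ y)) = _
      rw [hy]
      exact (congrArg Additive.ofMul (map_pow Abelianization.of x _)).trans
        (natCast_zsmul (Additive.ofMul (Abelianization.of x)) _).symm) j
      (fun a b e => (e2.trans e1).injective (Subtype.ext e)) (by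
      ext x
      have hk : θ0.ker = commutator _ := by
        rw [QuotientGroup.ker_lift, Abelianization.ker_of, _root_.commutator_def, _root_.commutator_def, map_commutator,
          map_top_of_surjective _ (QuotientGroup.mk'_surjective _)]
      constructor
      · rintro ⟨a, rfl⟩
        exact hk.ge ((e2.trans e1) a.toMul).2
      · intro hx
        obtain ⟨a, ha⟩ := (e2.trans e1).surjective ⟨x.toMul, hk.le hx⟩
        exact ⟨.ofMul a, congrArg (fun y => Additive.ofMul y.1) ha⟩)
    rw [Module.finrank_eq_card_basis (FreeAbelianGroup.basis (Fin n)), Fintype.card_coe, Fintype.card_fin] at hc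
    refine le_trans (Group.rank_le (S := S.map Additive.toMul.toEmbedding) ?_) (by rwa [Finset.card_map])
    apply Subgroup.toAddSubgroup.injective
    rw [Subgroup.toAddSubgroup_closure, map_top, ← hS]
    congr 1; ext x; simp

end Cfsg.Agent.S3973
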