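import Cfsg.Statements.S3974
import Cfsg.Agent.H1.Schur4

set_option autoImplicit false
universe u v
open Cfsg

namespace Cfsg.Agent.S3974

/-- Let `Q` be a finite group with Schur multiplier `A`. Any two Schur covering groups of `Q` (finite stem extensions `σ₁ : Γ₁ →* Q`, `σ₂ : Γ₂ →* Q` with kernels isomorphic to `A`, `Γ₁, Γ₂` in the universe of `Q`) are isomorphic over `Q` — there is a group isomorphism `e : Γ₁ ≃* Γ₂` with `σ₂ ∘ e = σ₁` — if and only if the order of the commutator quotient of `Q` is coprime to the order of `A`. In particular a finite perfect group has a unique Schur covering group up to isomorphism over it. -/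
theorem result {Q : Type u} [Group Q] [Finite Q] {A : Type v} [CommGroup A] (hA : Cfsg.HasSchurMultiplier Q A) : (∀ (Γ₁ Γ₂ : Type u) [Group Γ₁] [Finite Γ₁] [Group Γ₂] [Finite Γ₂] (σ₁ : Γ₁ →* Q) (σ₂ : Γ₂ →* Q), Cfsg.IsStemExtension σ₁ → Cfsg.IsStemExtension σ₂ → Nonempty (σ₁.ker ≃* A) → Nonempty (σ₂.ker ≃* A) → ∃ e : Γ₁ ≃* Γ₂, σ₂.comp e.toMonoidHom = σ₁) ↔ Nat.Coprime (Nat.card (Abelianization Q)) (Nat.card A) := by
  open Subgroup Function CfsgH1.SM in
  open scoped commutatorElement in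
  · refine ⟨fun h => ?_, fun h Γ₁ Γ₂ _ _ _ _ σ₁ σ₂ h1 h2 e1 e2 => ?_⟩
    · obtain ⟨C, hC⟩ := exists_cover Q
      have e := ((nonempty_du _).some.trans (hasSM_iff.1 hA).some.symm)
      refine Nat.coprime_of_dvd fun p hp a b => ?_
      obtain ⟨ε, h1, h2⟩ := exists_eps hp a (b.trans (Nat.card_congr e.toEquiv).symm.dvd)
      have h3 : Injective (tra (C * ε) : _ → M Q) := fun l m h => hC.1 (by simpa [tra_mul, h1] using h)
      obtain ⟨β, hβ⟩ := h _ _ _ _ (stem_E hC.1) (stem_E h3) ⟨(rp_E C).kerEquiv.symm.trans e⟩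
        ⟨(rp_E _).kerEquiv.symm.trans e⟩
      exact h2 (not_equiv_of_eps hC.1 h1 _ hβ)
    · obtain ⟨c, hc, b⟩ := cover_rp h1 hA e1
      obtain ⟨c', hc', b'⟩ := cover_rp h2 hA e2
      exact exists_equiv_of_coprime hc hc' b b' (by rwa [← hc'.card_ker, Nat.card_congr e2.some.toEquiv])

end Cfsg.Agent.S3974
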