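import Cfsg.Statements.S3976
import Mathlib
import Cfsg.Agent.L0.Cnt

set_option autoImplicit false
open Cfsg

namespace Cfsg.Agent.S3976

open Cfsg Subgroup CfsgH2 CfsgL0
open scoped Pointwise

/-- Let `p` be a prime and `G` a group of order `p ^ m`. For every `s ≤ m` the number of normal subgroups of `G` of order `p ^ s` is congruent to `1` modulo `p`. -/
theorem result {G : Type*} [Group G] [Finite G] (p m s : ℕ) (hp : p.Prime) (hG : Nat.card G = p ^ m) (hs : s ≤ m) : Nat.card {H : Subgroup G // H.Normal ∧ Nat.card H = p ^ s} ≡ 1 [MOD p] := by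
  haveI := Fact.mk hp
  have h1 := card_subgroups_modEq (G := G) (β := s) hp (hG ▸ pow_dvd_pow p hs)
  have h2 : p ∣ {H : Subgroup G | ¬ H.Normal ∧ Nat.card H = p ^ s}.ncard := by
    refine dvd_ncard_of_orbits (D := ConjAct G) (Set.toFinite _) fun H hH => ⟨fun d => ⟨fun h => hH.1 ?_, ?_⟩, ?_⟩
    · have := h.conjAct d⁻¹
      rw [inv_smul_smul] at this
      rwa [this]
    · rw [← hH.2]; exact (Nat.card_congr (Subgroup.equivSMul d H).toEquiv).symm
    · haveI : Finite (ConjAct G) := ‹Finite G›
      have hp' : IsPGroup p (ConjAct G) := IsPGroup.of_card (n := m) (by rw [← hG]; rfl)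
      obtain ⟨k, hk⟩ := hp'.index (MulAction.stabilizer (ConjAct G) H)
      rw [hk]
      refine dvd_pow_self p fun k0 => hH.1 ?_
      rw [k0, pow_zero, index_eq_one] at hk
      exact Normal.of_conjugate_fixed fun g => (hk.ge (mem_top (ConjAct.toConjAct g)) :)
  have h3 : Nat.card {H : Subgroup G // Nat.card H = p ^ s} = Nat.card {H : Subgroup G // H.Normal ∧ Nat.card H = p ^ s} +
      {H : Subgroup G | ¬ H.Normal ∧ Nat.card H = p ^ s}.ncard := by
    show {H : Subgroup G | Nat.card H = p ^ s}.ncard = {H : Subgroup G | H.Normal ∧ Nat.card H = p ^ s}.ncard + _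
    rw [← Set.ncard_union_eq]
    · congr 1; ext H; simp only [Set.mem_setOf_eq, Set.mem_union]; tauto
    · rw [Set.disjoint_left]; intro H a b; exact b.1 a.1
  obtain ⟨k, hk⟩ := h2
  rw [h3, hk] at h1
  simpa [Nat.ModEq] using h1

end Cfsg.Agent.S3976
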