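import Cfsg.Statements.S3977
import Mathlib
import Cfsg.Agent.H2.MaxCl2

set_option autoImplicit false
open Cfsg

namespace Cfsg.Agent.S3977

open Cfsg Subgroup CfsgH2

/-- Let `p` be a prime and `G` a group of order `p ^ m` which has exactly one subgroup of order `p ^ s`, where `1 ≤ s < m`, and where `s ≥ 2` if `p = 2`. Then `G` is cyclic. (For `p = 2` and `s = 1` the generalized quaternion groups also occur; that case is the classical criterion for a unique involution.) -/
theorem result {G : Type*} [Group G] [Finite G] (p m s : ℕ) (hp : p.Prime) (hG : Nat.card G = p ^ m) (hs : 1 ≤ s) (hsm : s < m) (h2 : p ≠ 2 ∨ 2 ≤ s) (huniq : ∀ H K : Subgroup G, Nat.card H = p ^ s → Nat.card K = p ^ s → H = K) : IsCyclic G := by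
  haveI := Fact.mk hp
  have hP : IsPGroup p (⊤ : Subgroup G) := isPGroup_of_card (card_top.trans hG)
  have hs1 : p ^ (s + 1) ∣ Nat.card G := hG ▸ pow_dvd_pow p hsm
  have hs0 : p ^ s ∣ Nat.card G := hG ▸ pow_dvd_pow p hsm.le
  have hcyc : ∀ K : Subgroup G, Nat.card K = p ^ (s + 1) → IsCyclic K := by
    intro K hK
    obtain ⟨H, hHK, hH⟩ := exists_card_pow_le (H := K) (p := p) s (hK ▸ pow_dvd_pow p (Nat.le_succ s))
    have : ¬ K ≤ H := fun h => by
      have := card_le_of_le h
      rw [hK, hH] at this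
      exact absurd ((Nat.pow_le_pow_iff_right hp.one_lt).1 this) (by omega)
    obtain ⟨x, hx, hxH⟩ := SetLike.not_le_iff_exists.1 this
    refine isCyclic_iff_zpowers.2 ⟨x, ?_⟩
    obtain ⟨j, hj, e⟩ := (Nat.dvd_prime_pow hp).1 (hK ▸ card_dvd_of_le (zpowers_le.2 hx))
    rcases hj.lt_or_eq with h | h
    · obtain ⟨L, hL, hxL⟩ := Sylow.exists_subgroup_card_pow_prime_le p hs0 _ e (Nat.lt_succ_iff.1 h)
      exact absurd (huniq _ _ hL hH ▸ hxL (mem_zpowers x)) hxH
    · exact eq_of_le_of_card_le (zpowers_le.2 hx) (by rw [hK, e, h])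
  have hr : prk p (⊤ : Subgroup G) ≤ 1 := by
    by_contra h
    obtain ⟨E, -, hE⟩ := exists_el_of_le (show 2 ≤ prk p (⊤ : Subgroup G) by omega)
    obtain ⟨L, hL, hEL⟩ := Sylow.exists_subgroup_card_pow_prime_le p hs1 _ hE.card (by omega)
    haveI := hcyc L hL
    exact hE.not_cyclic hp le_rfl (isCyclic_of_le hEL)
  rcases cyc_or_quat hP hr with h | ⟨rfl, a, b, k, h, hb, -⟩
  · exact isCyclic_of_surjective _ topEquiv.surjective
  · exfalso
    have h3 := h.toCy2.card
    rw [card_top, hG] at h3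
    have h4 : m = k + 2 := Nat.pow_right_injective le_rfl h3
    obtain ⟨H, hHa, hH⟩ := exists_card_pow_le (H := zpowers a) (p := 2) s
      (by rw [Nat.card_zpowers, h.ord]; exact pow_dvd_pow 2 (by omega))
    have h5 : Nat.card (zpowers b) ∣ 2 ^ 2 := by
      rw [Nat.card_zpowers, orderOf_dvd_iff_pow_eq_one, pow_two, pow_mul, hb, pow_two, half_sq h.ord]
    obtain ⟨j, hj, e⟩ := (Nat.dvd_prime_pow hp).1 h5
    obtain ⟨L, hL, hxL⟩ := Sylow.exists_subgroup_card_pow_prime_le 2 hs0 _ e (by omega)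
    exact h.nmem (hHa (huniq _ _ hL hH ▸ hxL (mem_zpowers b)))

end Cfsg.Agent.S3977
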