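import Cfsg.Statements.S3979
import Cfsg.Agent.H1.Misc1

set_option autoImplicit false
open Cfsg

namespace Cfsg.Agent.S3979

/-- A finite cyclic group has trivial Schur multiplier: every finite stem extension of it is an isomorphism, said through `HasCyclicSchurMultiplier G 1`. -/
theorem result {G : Type*} [Group G] [Finite G] [IsCyclic G] : Cfsg.HasCyclicSchurMultiplier G 1 := by
  open Pointwise Subgroup CfsgH1 in
  open CfsgH2 hiding card_inf_mul_relIndex card_lt_of_lt card_lt_of_ne_top card_map_mul_card_inf_ker card_mul_relIndex card_subgroupOf card_sup_dvd card_sup_mul_card_inf exists_card_prime_le isNilpotent_map isNilpotent_of_le isPGroup_pCore isSolvable_map isSolvable_of_le le_pCore le_pPrimeCore relIndex_map_dvd in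
  open scoped CfsgH2 in
  open scoped commutatorElement in
  · refine ⟨⟨G, _, ‹_›, MonoidHom.id G, ⟨Function.surjective_id, by simp, by simp⟩, ?_⟩, fun Γ _ _ σ h => ⟨1, fun x => ⟨1, ?_⟩⟩⟩
    · rw [MonoidHom.ker_id]; exact ⟨MulEquiv.ofUnique⟩
    · have := isMulComm_of_cyclic_map (H := ⊤) σ inferInstance (by rw [cent_top]; exact inf_le_right.trans h.2.1)
      exact Subtype.ext (mem_bot.1 ((comm_self_eq_bot_iff.2 this).le (h.2.2 x.2))).symm

end Cfsg.Agent.S3979
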