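import Cfsg.Statements.S3992
import Cfsg.Agent.H3.Hv1
import Cfsg.Agent.H3.Ep
import Cfsg.Agent.H1.Ito
import Cfsg.Agent.H1.Cop2

set_option autoImplicit false
open Cfsg

namespace Cfsg.Agent.S3992
open Subgroup CfsgH2 CfsgEp
open scoped commutatorElement

variable {G : Type*} [Group G] [Finite G]

theorem pg_of_cent (h : EP G) {A B : Subgroup G} (hB : B ≠ ⊥) (hl : A ≤ C[B]) :
    ∃ (q : ℕ) (_ : Fact q.Prime), PG[q, A] := by
  obtain ⟨q, hq, hd⟩ := exists_prime_dvd_card hB
  obtain ⟨x, hx, ho⟩ := exists_prime_order_mem hq hd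
  haveI : Fact q.Prime := ⟨hq⟩
  exact ⟨q, inferInstance, (h.pg_cent ho).to_le (hl.trans (cent_le_cent1 hx))⟩

theorem rad (hns : ¬ Group.IsSolvable G) (h : EP G) {R : Subgroup G} [R.Normal] (hRs : Sol[R]) :
    ∃ p : ℕ, p.Prime ∧ PG[p, R] := by
  by_cases h0 : R = ⊥
  · exact ⟨2, Nat.prime_two, h0 ▸ IsPGroup.of_bot⟩
  obtain ⟨p, hp, V, h1, h2, h3, h4, -⟩ := exists_min_norm hRs h0 (top_le_norm_iff.2 inferInstance)
  refine ⟨p, hp.out, isPGroup_iff_piN.2 fun q hq hd => ?_⟩
  by_contra hne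
  haveI : Fact q.Prime := ⟨hq⟩
  obtain ⟨S, hS⟩ := exists_syl q R
  have pZ : PG[q, Z[S]] := hS.pg.to_le inf_le_left
  have hZ : Z[S] ≠ ⊥ := center_ne_bot hS.pg (hS.ne_bot hd)
  have hc : o[Z[S]].Coprime o[V] := pZ.coprime_card_of_ne _ _ hne _ _ (elem_pgroup h4)
  have cZ : Cyc[Z[S]] := CfsgH1.isCyclic_of_fpf_comm h2 (le_top.trans h3) (h.fpf' hc) (isMulComm_cent_inf S)
  obtain ⟨r, _, hr⟩ := pg_of_cent h hZ le_rfl
  have s1 : Sol[N[Z[S]]] := CfsgH1.isSolvable_of_commutator
    (isSolvable_of_le (isSolvable_of_pgroup hr) (commutator_norm_le_cent_of_cyclic cZ))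
  have s2 := isSolvable_sup (isSolvable_of_le s1 (inf_le_right.trans norm_le_norm_center : ⊤ ⊓ N[S] ≤ _)) hRs
    (le_top.trans (top_le_norm_iff.2 inferInstance))
  rw [sup_comm, hS.frattini_sup le_top (top_le_norm_iff.2 inferInstance)] at s2
  exact hns (Group.isSolvable_of_surjective (f := (⊤ : Subgroup G).subtype) fun x => ⟨⟨x, trivial⟩, rfl⟩)

theorem simp_min (h : EP G) (h0 : ∀ N : Subgroup G, N.Normal → Sol[N] → N = ⊥) [Nontrivial G] :
    ∃ M : Subgroup G, M.Normal ∧ IsSimpleGroup M ∧ ¬ Ab[M] ∧ ∀ N : Subgroup G, N.Normal → N ≠ ⊥ → M ≤ N := by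
  obtain ⟨M, -, ⟨nM, hM⟩, hmin⟩ := exists_minimal_le (fun K : Subgroup G => K.Normal ∧ K ≠ ⊥)
    (H := ⊤) ⟨inferInstance, top_ne_bot⟩
  have nM' := top_le_norm_iff.2 nM
  refine ⟨M, nM, ?_, fun e => hM (h0 M nM (isSolvable_of_comm e)), fun N nN hN => ?_⟩
  · have key : ∀ T ≤ M, M ≤ N[T] → T ≠ ⊥ → T = M := by
      intro T0 l0 n0 t0
      obtain ⟨T, hT0, ⟨nT, hT⟩, hm⟩ := exists_minimal_le (fun K : Subgroup G => M ≤ N[K] ∧ K ≠ ⊥) ⟨n0, t0⟩
      have hl := hT0.trans l0
      refine le_antisymm l0 (le_trans (le_of_eq (hmin T ⟨normal_of_top_le_norm fun g _ => ?_, hT⟩ hl).symm) hT0)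
      have nT' : M ≤ N[T.map (cj g)] := by
        rw [normalizer_map_cj, ← map_cj_normal g M]; exact map_mono nT
      have lT' : T.map (cj g) ≤ M := map_cj_le_of_norm hl (nM' (mem_top g))
      by_cases e : T ⊓ T.map (cj g) = ⊥
      · obtain ⟨q, _, hq⟩ := pg_of_cent h (fun e => hT (map_cj_eq_bot.1 e))
          (le_cent_of_inf_eq_bot (hl.trans nT') (lT'.trans nT) e)
        exact absurd (le_bot_iff.1 ((le_pCoreOf hl nT hq).trans_eq
          (h0 _ inferInstance (isSolvable_of_pgroup isPGroup_piCoreOf)))) hT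
      · have := hm _ ⟨le_norm_inf nT nT', e⟩ inf_le_left
        exact map_cj_eq_iff.1 (eq_of_le_of_card_le (this.ge.trans inf_le_right) (card_map_cj g T).le).symm
    haveI : Nontrivial M := (nontrivial_iff_ne_bot M).2 hM
    refine ⟨fun K nK => ?_⟩
    by_cases e : K.map M.subtype = ⊥
    · exact Or.inl ((map_eq_bot_iff_of_injective _ M.subtype_injective).1 e)
    · right
      apply map_injective M.subtype_injective
      rw [key _ (map_subtype_le K) (le_norm_map_subtype K) e, ← MonoidHom.range_eq_map, range_subtype]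
  · by_cases e : N ⊓ M = ⊥
    · obtain ⟨q, _, hq⟩ := pg_of_cent h hM (le_cent_of_inf_eq_bot (le_top.trans nM')
        (le_top.trans (top_le_norm_iff.2 nN)) e)
      exact absurd (h0 N nN (isSolvable_of_pgroup hq)) hN
    · exact (hmin _ ⟨inferInstance, e⟩ inf_le_right).ge.trans inf_le_left

theorem two (h : EP G) {H : Subgroup G} (hs : Sol[H]) : o[H].primeFactors.card ≤ 2 := by
  by_cases h0 : H = ⊥
  · simp [h0]
  obtain ⟨p, hp, V, h1, h2, h3, h4, -⟩ := exists_min_norm hs h0 le_normalizer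
  obtain ⟨K, hK⟩ := exists_hall {p}ᶜ hs
  have hc : o[K].Coprime o[V] := hK.pi.coprime' (IsPGroup.piN (elem_pgroup h4) rfl)
  have hf := h.fpf' hc
  have hd : ∀ r ∈ o[H].primeFactors, r ≠ p → r ∣ o[K] := fun r hr e =>
    hK.dvd_card (PiN.of_prime (Nat.prime_of_mem_primeFactors hr) e) (Nat.dvd_of_mem_primeFactors hr)
  by_cases k0 : K = ⊥
  · refine (Finset.card_le_card (t := {p}) fun r hr => ?_).trans (by simp)
    by_contra e
    have := hd r hr (by simpa using e)
    rw [k0, card_bot, Nat.dvd_one] at this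
    exact (Nat.prime_of_mem_primeFactors hr).one_lt.ne' this
  obtain ⟨q, hq, W, w1, w2, w3, w4, -⟩ := exists_min_norm (isSolvable_of_le hs hK.le) k0 le_normalizer
  refine (Finset.card_le_card (t := {p, q}) fun r hr => ?_).trans Finset.card_le_two
  by_contra e
  simp only [Finset.mem_insert, Finset.mem_singleton, not_or] at e
  have pr := Nat.prime_of_mem_primeFactors hr
  obtain ⟨y, hy, oy⟩ := exists_prime_order_mem pr (hd r hr e.1)
  have cW : Cyc[W] := CfsgH1.isCyclic_of_fpf_comm h2 (w1.trans (hK.le.trans h3)) (fun a ha => hf a (w1 ha))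
    w4.1
  have oW : o[W] = q := ((Nat.dvd_prime hq.out).1 (card_dvd_of_elem_cyclic w4 cW)).resolve_left
    fun e => w2 (card_eq_one.1 e)
  have cy : (orderOf y).Coprime o[W] := by rw [oy, oW]; exact (Nat.coprime_primes pr hq.out).2 e.2
  have y1 : y ≠ 1 := fun e => pr.one_lt.ne (by rw [← oy, e, orderOf_one])
  have yW : y ∉ W := fun e => y1 (orderOf_eq_one_iff.1 (cy.eq_one_of_dvd (orderOf_dvd_of_mem e)))
  have lA : W ⊔ zpowers y ≤ K := sup_le w1 (zpowers_le.2 hy)
  haveI := h4.1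
  have cA := CfsgH1.isCyclic_of_fpf_pq h2 (lA.trans (hK.le.trans h3)) (fun a ha => hf a (lA ha)) hq.out pr
    (by rw [card_sup_zpowers_prime pr (w3 hy) (by rw [← oy, pow_orderOf_eq_one]; exact one_mem _) yW, oW])
  apply w2
  rw [← h.fpf y1 cy, eq_comm, inf_eq_left]
  exact fun w hw => mem_centralizer_singleton_iff.2 (comm_of_isMulComm cA.isMulCommutative (mem_sup_left hw)
    (mem_sup_right (mem_zpowers y)))

/-- Let G be a finite non-solvable group in which every element has prime-power order, and let R be its largest solvable normal subgroup. Then R is a p-group for some prime p; G/R has a non-abelian simple normal subgroup contained in every nontrivial normal subgroup of G/R (its unique minimal normal subgroup); and the order of every solvable subgroup of G has at most two prime divisors. -/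
theorem result {G : Type*} [Group G] [Finite G] (hns : ¬ Group.IsSolvable G) (hpp : ∀ g : G, g ≠ 1 → IsPrimePow (orderOf g))
    (R : Subgroup G) [R.Normal] (hRs : Group.IsSolvable ↥R) (hRmax : ∀ N : Subgroup G, N.Normal → Group.IsSolvable ↥N → N ≤ R) :
    (∃ p : ℕ, p.Prime ∧ IsPGroup p ↥R) ∧
      (∃ M : Subgroup (G ⧸ R), M.Normal ∧ IsSimpleGroup ↥M ∧ ¬ IsMulCommutative ↥M ∧
        ∀ N : Subgroup (G ⧸ R), N.Normal → N ≠ ⊥ → M ≤ N) ∧
      ∀ H : Subgroup G, Group.IsSolvable ↥H → (Nat.card ↥H).primeFactors.card ≤ 2 := by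
  have hE := EP.of_pp hpp
  refine ⟨rad hns hE hRs, ?_, fun H hs => two hE hs⟩
  haveI : Nontrivial (G ⧸ R) := by
    by_contra e
    rw [not_nontrivial_iff_subsingleton] at e
    exact hns (CfsgH1.isSolvable_of_ker_of_quotient R)
  refine simp_min (EP.of_pp fun g hg => ?_) fun N nN hN => ?_
  · obtain ⟨x, rfl⟩ := QuotientGroup.mk'_surjective R g
    exact (hpp x (by rintro rfl; exact hg (map_one _))).dvd (orderOf_map_dvd _ x) (by simpa using hg)
  · have e : (N.comap (QuotientGroup.mk' R)).map (QuotientGroup.mk' R) = N :=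
      map_comap_eq_self_of_surjective (QuotientGroup.mk'_surjective R) N
    rw [← e, Subgroup.map_eq_bot_iff, QuotientGroup.ker_mk']
    refine hRmax _ inferInstance (isSolvable_of_map (QuotientGroup.mk' R) ?_ (e.symm ▸ hN))
    rw [QuotientGroup.ker_mk']
    exact isSolvable_of_le hRs inf_le_right


end Cfsg.Agent.S3992
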