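import Cfsg.Statements.S3995
import Cfsg.Agent.H3.Hv1
import Cfsg.Agent.H3.Cnt

set_option autoImplicit false
open Cfsg

namespace Cfsg.Agent.S3995
open Subgroup CfsgH2 CfsgEp CfsgCnt

/-- Let G be a finite group such that the numbers of elements of each order that occurs in G (the numbers #{g : o(g) = m}, m ranging over the element orders of G) take exactly two values, 1 and some n ≠ 1. Then either G is a p-group of exponent p and order at least 3 for some prime p, or G is the quaternion group of order 8, or G is cyclic of order 4, or G ≅ Z₂ × P for a p-group P of exponent p with p an odd prime. -/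
theorem result {G : Type*} [Group G] [Finite G] (n : ℕ) (hn : n ≠ 1) (h : ((fun m : ℕ => Nat.card {g : G // orderOf g = m}) '' Set.range (orderOf : G → ℕ)) = {1, n}) :
    (∃ p : ℕ, p.Prime ∧ IsPGroup p G ∧ 3 ≤ Nat.card G ∧ Monoid.exponent G = p) ∨
      Nonempty (G ≃* QuaternionGroup 2) ∨ (IsCyclic G ∧ Nat.card G = 4) ∨
      (∃ (p : ℕ) (P : Type) (_ : Group P) (_ : Finite P), p.Prime ∧ p ≠ 2 ∧ IsPGroup p P ∧ Monoid.exponent P = p ∧
        Nonempty (G ≃* Multiplicative (ZMod 2) × P)) := by
  change VO G = _ at h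
  have hv : ∀ m, sO G m = 0 ∨ sO G m = 1 ∨ sO G m = n := fun m => by
    by_cases e : sO G m = 0
    · exact Or.inl e
    · exact Or.inr (by simpa [h] using mem_VO e)
  have hs : ∀ m, 2 < m → sO G m = 0 ∨ sO G m = n := fun m hm => by
    have := hv m
    have := two_dvd (G := G) hm
    omega
  obtain ⟨_, ⟨g, rfl⟩, hg⟩ : n ∈ VO G := by simp [h]
  have n0 : n ≠ 0 := hg ▸ sO_ne_zero.2 ⟨g, rfl⟩
  have g1 : orderOf g ≠ 1 := fun e => hn (by rw [← hg, e, sO_one])
  have hp : ∀ p, p.Prime → p ≠ 2 → p ∣ Nat.card G → sO G p = n := fun p hp h2 hd =>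
    (hs p (lt_of_le_of_ne hp.two_le h2.symm)).resolve_left (sO_prime hp hd)
  have hpq : ∀ p q, p.Prime → q.Prime → p ≠ 2 → p ∣ Nat.card G → sO G q = n → q = p := fun p q h1 h2 h3 h4 h5 => by
    by_contra e
    have a := Z1 h1 h4
    have b := Z2 h1 h2 (Ne.symm e) h4 (dvd_of_ne (h5 ▸ n0))
    rw [hp p h1 h3 h4] at a
    rw [h5] at b
    rcases hs (p * q) (by nlinarith [h1.two_le, h2.two_le]) with c | c <;> rw [c] at b
    · exact one_ne h1 (by push_cast at b; linear_combination a - b)
    · exact two_ne h1 h3 (by linear_combination 2 * a - b)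
  have hsq : ∀ p, p.Prime → sO G p = n → sO G (p ^ 2) = 0 := fun p h1 h2 => by
    refine (hs _ (by nlinarith [h1.two_le])).resolve_right fun e => ?_
    have a := Z1 h1 (dvd_of_ne (h2 ▸ n0))
    have b := cz (p_dvd (G := G) h1 dvd_rfl)
    rw [h2] at a
    rw [e] at b
    exact one_ne h1 (by linear_combination a - b)
  haveI := Fact.mk Nat.prime_two
  by_cases h2 : sO G 2 = 1
  · obtain ⟨z, z1, z2, z3⟩ := uniq_inv h2
    by_cases h4 : 4 ∣ Nat.card G
    · have a := Fk (k := 2) Nat.prime_two h4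
      simp only [Finset.sum_range_succ, Finset.range_zero, Finset.sum_empty, pow_zero, pow_one, sO_one, h2] at a
      have s4 : sO G (2 ^ 2) = n := by have := hs (2 ^ 2) (by norm_num); omega
      have hG : PG[2, (⊤ : Subgroup G)] := isPGroup_iff_piN.2 fun p h1 hd => by
        by_contra e
        rw [card_top] at hd
        have b := cz ((dvd_mul_left _ _).trans (Fsq Nat.prime_two h1 (Ne.symm e) h4 hd))
        have c := Z1 h1 hd
        have o := h1.odd_of_ne_two e
        have d := four_dvd (G := G) ((Nat.coprime_two_left.2 o).pow_left 2) (by norm_num)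
          (lt_of_le_of_ne h1.two_le (Ne.symm e))
        have f := hs (2 ^ 2 * p) (by nlinarith [h1.two_le])
        rw [sO_two_mul h2 o, h2, s4, show sO G (2 ^ 2 * p) = 0 by omega, hp p h1 e hd] at b
        rw [hp p h1 e hd] at c
        exact one_ne h1 (by push_cast at b; linear_combination 3 * c - b)
      have s8 : sO G 8 = 0 := by
        have := hs 8 (by norm_num)
        have : 4 ∣ sO G 8 := tot 8
        omega
      rcases CfsgH4.cyc_or_gq hG fun x _ y _ hx hy _ => (z2 x hx).trans (z2 y hy).symm with c | ⟨a, b, m, c⟩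
      · obtain ⟨x, hx⟩ := isCyclic_iff_zpowers.1 c
        have e : orderOf x = Nat.card G := by rw [← Nat.card_zpowers, hx, card_top]
        obtain ⟨k, hk⟩ := exists_card_eq_pow hG
        rw [card_top] at hk
        refine Or.inr (Or.inr (Or.inl ⟨isCyclic_of_orderOf_eq_card x e, Nat.dvd_antisymm ?_ h4⟩))
        rw [hk]
        refine pow_dvd_pow 2 (show k ≤ 2 from not_lt.1 fun hk' => ?_)
        exact ne_of_dvd (sO_ne_zero.2 ⟨x, e.trans hk⟩) (pow_dvd_pow 2 hk') s8
      · obtain rfl : m = 1 := le_antisymm (not_lt.1 fun hm =>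
          ne_of_dvd (sO_ne_zero.2 ⟨a, c.ord⟩) (pow_dvd_pow 2 (show 3 ≤ m + 1 by omega)) s8) c.pos
        obtain ⟨e⟩ := c.toCy2.quaternion c.sq' c.inv
        exact Or.inr (Or.inl ⟨topEquiv.symm.trans e⟩)
    · obtain ⟨p, h1, h3, h5⟩ : ∃ p, p.Prime ∧ p ≠ 2 ∧ p ∣ Nat.card G := by
        by_contra e
        push Not at e
        obtain ⟨k, hk⟩ := (piN_singleton Nat.prime_two (orderOf_pos g).ne').1 fun p h1 hd =>
          by_contra fun e' => e p h1 e' (hd.trans (orderOf_dvd_natCard g))
        rcases k with _ | _ | k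
        · exact g1 hk
        · exact hn (by rw [← hg, hk]; exact h2)
        · exact h4 (Dvd.dvd.trans (by rw [hk]; exact ⟨2 ^ k, by ring⟩) (orderOf_dvd_natCard g))
      haveI := Fact.mk h1
      obtain ⟨P, hP⟩ := exists_syl p (⊤ : Subgroup G)
      have oz : o[zpowers z] = 2 := by rw [Nat.card_zpowers, z1]
      have sz : Syl 2 (zpowers z) ⊤ := ⟨le_top, isPGroup_of_card' oz, fun e => h4 (by
        rw [← card_mul_index (zpowers z), oz]
        exact mul_dvd_mul_left 2 (relIndex_top_right (zpowers z) ▸ e))⟩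
      have i := index_eq h3 (fun r hr hd => (em (r = 2)).symm.imp
        (fun e => hpq p r h1 hr h3 h5 (hp r hr e hd)) id) hP sz
      have d : zpowers z ⊓ P = ⊥ := inf_eq_bot_of_coprime' (sz.pg.coprime_card_of_ne _ _ h3.symm _ _ hP.pg)
      have c : zpowers z ≤ C[P] := zpowers_le.2 fun y _ => (z3 y).symm
      obtain ⟨e⟩ := equiv_prod c d (eq_top_of_card_eq _ (by
        rw [card_sup_of_disj (Or.inl (c.trans (cent_le_norm _))) d, ← i, mul_comm, card_mul_index]))
      have e1 : zpowers z ≃* Multiplicative (ZMod 2) := mulEquivOfPrimeCardEq oz (by simp)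
      have e2 : Shrink.{0} P ≃* P := Shrink.mulEquiv
      refine Or.inr (Or.inr (Or.inr ⟨p, Shrink.{0} P, inferInstance, Finite.of_equiv _ e2.symm.toEquiv, h1, h3,
        hP.pg.of_equiv e2.symm, ?_, ⟨e.trans (e1.prodCongr e2.symm)⟩⟩))
      rw [Monoid.exponent_eq_of_mulEquiv e2]
      exact exponent_eq h1 (hsq p h1 (hp p h1 h3 h5)) hP.pg (hP.ne_bot (card_top (G := G) ▸ h5))
  · have ha : ∀ p, p.Prime → p ∣ Nat.card G → sO G p = n := fun p h1 hd => by
      by_cases e : p = 2
      · have := hv p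
        have := sO_prime h1 hd
        subst e
        omega
      · exact hp p h1 e hd
    obtain ⟨p, h1, hd⟩ := Nat.exists_prime_and_dvd g1
    replace hd := hd.trans (orderOf_dvd_natCard g)
    haveI := Fact.mk h1
    have hG : PG[p, (⊤ : Subgroup G)] := isPGroup_iff_piN.2 fun q h3 h4 => by
      rw [card_top] at h4
      by_cases e : p = 2
      · by_contra e'
        exact e' (hpq q p h3 h1 (fun e2 => e' (e2.trans e.symm)) h4 (ha p h1 hd)).symm
      · exact hpq p q h1 h3 e hd (ha q h3 h4)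
    refine Or.inl ⟨p, h1, hG.of_equiv topEquiv, ?_, ?_⟩
    · have := Set.ncard_lt_ncard (s := {g : G | orderOf g = p}) (Set.ssubset_univ_iff.2 fun e =>
        h1.one_lt.ne' ((Set.eq_univ_iff_forall.1 e 1).symm.trans orderOf_one))
      rw [← sO_eq, ha p h1 hd, Set.ncard_univ] at this
      omega
    · rw [← Monoid.exponent_eq_of_mulEquiv topEquiv]
      exact exponent_eq h1 (hsq p h1 (ha p h1 hd)) hG fun e =>
        g1 (orderOf_eq_one_iff.2 (e.le (mem_top g)))


end Cfsg.Agent.S3995
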