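import Cfsg.Statements.S3996
import Cfsg.Agent.H3.Hv1
import Cfsg.Agent.H3.Cnt

set_option autoImplicit false
open Cfsg

namespace Cfsg.Agent.S3996
open Subgroup CfsgH2 CfsgEp CfsgCnt

/-- A finite group in which the numbers of elements of each order that occurs (the numbers #{g : o(g) = m}, m ranging over the element orders) take exactly three different values is solvable. -/
theorem result {G : Type*} [Group G] [Finite G] (h : (((fun m : ℕ => Nat.card {g : G // orderOf g = m}) '' Set.range (orderOf : G → ℕ))).ncard = 3) : Group.IsSolvable G := by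
  change (VO G).ncard = 3 at h
  by_cases h4 : 4 ∣ Nat.card G
  swap
  · exact sol_of_not_four h4
  have d2 : 2 ∣ Nat.card G := Dvd.dvd.trans (by norm_num) h4
  have t : ∀ {p : ℕ}, p.Prime → p ≠ 2 → 2 < p := fun h1 h2 => lt_of_le_of_ne h1.two_le h2.symm
  refine sol_of_odd fun p q hp hq p2 q2 dp dq => by_contra fun e => ?_
  by_cases h2 : sO G 2 = 1
  swap
  · obtain ⟨n, -, hv⟩ := three h (mem_VO (sO_prime Nat.prime_two d2)) h2
    have o := F1 Nat.prime_two d2
    have hs : ∀ m, 2 < m → sO G m = 0 ∨ sO G m = n := fun m hm => by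
      have := hv m
      have := two_dvd (G := G) hm
      omega
    have a := Z1 hp dp
    have b := Z2 hp hq e dp dq
    rw [(hs p (t hp p2)).resolve_left (sO_prime hp dp)] at a
    rw [(hs q (t hq q2)).resolve_left (sO_prime hq dq)] at b
    rcases hs (p * q) (by nlinarith [hp.two_le, hq.two_le]) with c | c <;> rw [c] at b
    · exact one_ne hp (by push_cast at b; linear_combination a - b)
    · exact two_ne hp p2 (by linear_combination 2 * a - b)
  have a := Fk (k := 2) Nat.prime_two h4
  simp only [Finset.sum_range_succ, Finset.range_zero, Finset.sum_empty, pow_zero, pow_one, sO_one, h2] at a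
  obtain ⟨n, -, hv⟩ := three h (mem_VO (m := 2 ^ 2) (by omega)) (by omega)
  set m := sO G (2 ^ 2) with hm
  have hs : ∀ k, 4 ∣ sO G k → sO G k = 0 ∨ sO G k = n := fun k hk => by
    have := hv k
    omega
  have c2 : ∀ {k : ℕ}, Odd k → (2 ^ 2).Coprime k := fun o => (Nat.coprime_two_left.2 o).pow_left 2
  have hr : ∀ r, r.Prime → r ≠ 2 → r ∣ Nat.card G → sO G r = m ∨ sO G r = n := fun r h1 h3 h5 => by
    have := hv r
    have := sO_prime h1 h5
    have := two_dvd (G := G) (t h1 h3)
    omega
  -- a prime with value `m` divides `n - 1`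
  have k1 : ∀ r, r.Prime → r ≠ 2 → r ∣ Nat.card G → sO G r = m →
      sO G (2 ^ 2 * r) = n ∧ (n : ZMod r) = 1 ∧ (m : ZMod r) = -1 := fun r h1 h3 h5 h6 => by
    have b := cz ((dvd_mul_left _ _).trans (Fsq Nat.prime_two h1 h3.symm h4 h5))
    have c := Z1 h1 h5
    have o := h1.odd_of_ne_two h3
    rw [sO_two_mul h2 o, h2, h6, ← hm] at b
    rw [h6] at c
    rcases hs _ (four_dvd (c2 o) (by norm_num) (t h1 h3)) with f | f <;> rw [f] at b
    · exact absurd (by push_cast at b; linear_combination 3 * c - b) (one_ne h1)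
    · exact ⟨f, by push_cast at b; linear_combination b - 3 * c, c⟩
  have k2 : ∀ p q, p.Prime → q.Prime → p ≠ q → p ≠ 2 → q ≠ 2 → p ∣ Nat.card G → q ∣ Nat.card G →
      sO G q = n → (n : ZMod p) = 1 ∨ (n : ZMod p) = -1 → False := fun p q hp hq e p2 q2 dp dq h5 h6 => by
    have b := Z2 hp hq e dp dq
    rw [h5] at b
    rcases hs _ (four_dvd ((Nat.coprime_primes hp hq).2 e) (t hp p2) (t hq q2)) with f | f <;> rw [f] at b <;>
      rcases h6 with c | c
    · exact one_ne hp (by push_cast at b; linear_combination b - c)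
    · exact one_ne hp (by push_cast at b; linear_combination c - b)
    · exact two_ne hp p2 (by linear_combination b - 2 * c)
    · exact two_ne hp p2 (by linear_combination 2 * c - b)
  rcases hr p hp p2 dp with a1 | a1 <;> rcases hr q hq q2 dq with a2 | a2
  · obtain ⟨b1, b2, b3⟩ := k1 p hp p2 dp a1
    have b := Z2 hp hq e dp dq
    have o := (hp.odd_of_ne_two p2).mul (hq.odd_of_ne_two q2)
    have c := cz (((dvd_mul_right p q).trans (dvd_mul_left _ _)).trans
      (Fsq3 Nat.prime_two hp hq p2.symm q2.symm e h4 dp dq))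
    rw [sO_two_mul h2 o, sO_two_mul h2 (hp.odd_of_ne_two p2), sO_two_mul h2 (hq.odd_of_ne_two q2), h2, b1,
      (k1 q hq q2 dq a2).1, a1, a2, ← hm] at c
    rw [a2] at b
    rcases hs _ (four_dvd (c2 o) (by norm_num) (by nlinarith [hp.two_le, hq.two_le])) with f | f <;> rw [f] at c
    · exact one_ne hp (by push_cast at c; linear_combination c - 2 * b - 3 * b3 - 2 * b2)
    · exact two_ne hp p2 (by push_cast at c; linear_combination c - 2 * b - 3 * b3 - 3 * b2)
  · exact k2 p q hp hq e p2 q2 dp dq a2 (Or.inl (k1 p hp p2 dp a1).2.1)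
  · exact k2 q p hq hp (Ne.symm e) q2 p2 dq dp a1 (Or.inl (k1 q hq q2 dq a2).2.1)
  · exact k2 p q hp hq e p2 q2 dp dq a2 (Or.inr (a1 ▸ Z1 hp dp))


end Cfsg.Agent.S3996
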