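import Cfsg.Statements.S3998
import Mathlib
import Cfsg.Agent.L0.OT

set_option autoImplicit false
open Cfsg

namespace Cfsg.Agent.S3998

open Cfsg Subgroup CfsgH2 CfsgL0

/-- Let G and H be finite groups with the same order type (for every m the same number of elements of order m). If G is supersolvable then H is solvable. -/
theorem result {G H : Type*} [Group G] [Finite G] [Group H] [Finite H] (hT : (∀ m : ℕ, Nat.card {g : G // orderOf g = m} = Nat.card {h : H // orderOf h = m})) (hG : Cfsg.IsSupersolvable G) :
    Group.IsSolvable H := by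
  obtain ⟨e, he⟩ := exists_ord_equiv hT
  obtain ⟨N, -, h1, h2⟩ := exists_tower (G := H) (fun k _ N P _ hN hP => by
    obtain ⟨M, _, hM, -⟩ := ss_tower (CfsgH1.isSupersolvable_iff.1 hG) k
    exact normal_hall_of_ord he hM (hall_ge_step hN hP)) 0
  rw [h1.eq_of_piN fun _ _ _ => Nat.zero_le _] at h2
  exact isSolvable_top_iff.1 h2

end Cfsg.Agent.S3998
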