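import Cfsg.Statements.S3999
import Mathlib
import Cfsg.Agent.L0.OT

set_option autoImplicit false
open Cfsg

namespace Cfsg.Agent.S3999

open Cfsg Subgroup CfsgH2 CfsgL0
open CfsgH1 (Frob)

theorem aux1 {F G : Type*} [Group F] [Finite F] [Group G] [Finite G] {e : F ≃ G}
    (he : ∀ g, orderOf (e g) = orderOf g) {K C : Subgroup F} (h : Frob K C ⊤) :
    ∃ K' H : Subgroup G, Frob K' H ⊤ ∧ o[K] = o[K'] := by
  haveI := h.normal
  have hK := h.hall_ker
  set π := {p | p ∣ o[K]}
  have h1 : Hall π O[π, (⊤ : Subgroup G)] ⊤ := ⟨le_top, piN_piCoreOf, fun p hp hd hπ => by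
    haveI := Fact.mk hp
    obtain ⟨P, hP⟩ := exists_syl p (⊤ : Subgroup G)
    have h2 := hK.syl hπ (nil_syl_core (frob_nil h))
    haveI := normal_hall_of_ord he (hall_singleton.2 h2) (hall_singleton.2 hP)
    exact hP.not_dvd_of_le (le_piCoreOf le_top le_normalizer_of_normal (IsPGroup.piN hP.pg hπ)) hd⟩
  have h2 := hall_card_eq (e := e) hK h1
  obtain ⟨H, hH⟩ := CfsgH1.exists_frob_of_cent (K := O[π, (⊤ : Subgroup G)]) (L := ⊤)
    (lt_top_iff_ne_top.2 fun e1 => h.ker_lt.ne (eq_top_of_card_eq _ (by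
      rw [h2, e1, card_top, Nat.card_congr e])))
    (fun e1 => h.ker_ne (card_eq_one.1 (by rw [h2, e1, card_bot]))) le_norm_piCoreOf
    fun x hx h0 y ⟨_, hy⟩ => by
      obtain ⟨a, ha, b, hb, rfl, ha', hb'⟩ := exists_pi_parts π y
      have hx' := piN_orderOf h1.pi hx
      have hc : Commute x b := (mem_c1.1 (zpowers_le.2 hy hb)).symm
      obtain ⟨g, hg⟩ := e.surjective (x * b)
      have ho := hc.orderOf_mul_eq_mul_orderOf_of_coprime (hx'.coprime hb')
      rw [← hg, he] at ho
      rcases h.mem_or_conj (mem_top g) with h3 | ⟨w, -, c, hc', -, rfl⟩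
      · have := ((piN_orderOf hK.pi h3).of_dvd (ho ▸ Dvd.intro_left _ rfl)).eq_one hb'
        rw [orderOf_eq_one_iff.1 this, mul_one]
        exact h1.mem_of_norm le_norm_piCoreOf trivial ha'
      · rw [orderOf_conj'] at ho
        exact absurd (orderOf_eq_one_iff.1 (hx'.eq_one ((PiN.of_coprime h.coprime.symm).of_dvd
          ((Dvd.intro _ ho.symm).trans (orderOf_dvd_of_mem hc'))))) h0
  exact ⟨_, H, hH, h2⟩

theorem aux2 {F G : Type*} [Group F] [Finite F] [Group G] [Finite G] {e : F ≃ G}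
    (he : ∀ g, orderOf (e g) = orderOf g) {K C : Subgroup F} (h : Frob K C ⊤) {K' H : Subgroup G}
    (h' : Frob K' H ⊤) (hc : o[K] = o[K']) (hs : Group.IsSolvable F) : Group.IsSolvable G := by
  rw [← isSolvable_top_iff, ← h'.sup, sup_comm]
  refine isSolvable_sup (frob_sol_of_ncard h' fun p hp h5 => ?_) (isSolvable_of_nilpotent (frob_nil h')) h'.norm
  haveI := Fact.mk hp
  rcases Set.eq_empty_or_nonempty {x | x ∈ H ∧ orderOf x = p} with e | ⟨x, hx, ho⟩
  · simp [e]
  have hd : ¬ p ∣ o[K'] := (coprime_iff_not_dvd hp).1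
    (Nat.Coprime.coprime_dvd_left (ho ▸ orderOf_dvd_of_mem hx) h'.coprime).symm
  have := ncard_ord he (· = p)
  rw [frob_ncard h (P := (· = p)) fun x hx e => hd (hc ▸ e ▸ orderOf_dvd_of_mem hx),
    frob_ncard h' (P := (· = p)) fun x hx e => hd (e ▸ orderOf_dvd_of_mem hx), hc,
    Nat.mul_right_inj (card_pos' _).ne'] at this
  exact this ▸ frob_ncard_le h inferInstance h5

/-- Let F be a finite Frobenius group (it has a Frobenius complement) and G a finite group with the same order type as F (for every m the same number of elements of order m). Then G is a Frobenius group; moreover G is solvable if and only if F is. -/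
theorem result {F G : Type*} [Group F] [Finite F] [Group G] [Finite G] (hF : (∃ C : Subgroup F, Cfsg.IsFrobeniusComplement C)) (hT : (∀ m : ℕ, Nat.card {g : F // orderOf g = m} = Nat.card {h : G // orderOf h = m})) :
    (∃ C : Subgroup G, Cfsg.IsFrobeniusComplement C) ∧ (Group.IsSolvable G ↔ Group.IsSolvable F) := by
  obtain ⟨e, he⟩ := exists_ord_equiv hT
  obtain ⟨C, hC⟩ := hF
  obtain ⟨K, hK⟩ := CfsgH1.exists_frob hC
  obtain ⟨K', H, h1, h2⟩ := aux1 he hK
  exact ⟨⟨H, h1.isFrobeniusComplement⟩, aux2 (e := e.symm) (fun g => by rw [← he, e.apply_symm_apply])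
    h1 hK h2.symm, aux2 he hK h1 h2⟩

end Cfsg.Agent.S3999
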