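import Cfsg.Statements.S4003
import Cfsg.Agent.H3.Hv1
import Cfsg.Agent.H3.Cnt

set_option autoImplicit false
open Cfsg

namespace Cfsg.Agent.S4003
open Subgroup CfsgH2 CfsgCnt
open CfsgH1 (ycore ycls brauer_pow_conj mem_norm_ycore ycore_le)
open scoped commutatorElement

variable {G : Type*} [Group G] [Finite G] {p k : ℕ} [hp : Fact p.Prime] {A R F : Subgroup G}

theorem pw (h2 : p ≠ 2) (hA : Cfsg.IsElementaryAbelian p A) (oA : o[A] = p ^ 2) (hR : PG[p, R]) (hn : R ≤ N[A])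
    {a w : G} (ha : a ∈ A) (hw : w ∈ R) : (a * w) ^ p = w ^ p := by
  obtain ⟨L, -, h1, -, h3, h4, h5⟩ := exists_step_down hR (elem_pgroup hA) (K := ⊥) (bot_lt_iff_ne_bot.2 fun e => by
    rw [e, card_bot] at oA
    exact (Nat.one_lt_pow two_ne_zero hp.out.one_lt).ne oA) (norm_bot (G := G) ▸ le_top) hn
  have oL : o[L] = p := by
    have := card_mul_relIndex h1
    rw [h3, oA, pow_two] at this
    exact Nat.eq_of_mul_eq_mul_right hp.out.pos this
  have hc : ⁅w⁻¹, a⁻¹⁆ ∈ L := h4 (commutator_comm R A ▸ commutator_mem_commutator (inv_mem hw) (inv_mem ha))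
  rw [mul_pow_class2 (mul_eq_mul_comm a w) (comm_of_isMulComm hA.1 (h1 hc) ha)
    (commute_of_mem_cent (le_cent_of_card_prime hR h5 oL hw) hc).symm, hA.2 a ha,
    pow_eq_one_of_dvd (hA.2 _ (h1 hc)) (dvd_choose_two h2), one_mul, mul_one]

theorem br (h2 : p ≠ 2) (h1 : o[F] ∣ p ^ (k + 2)) (hc : o[F] = p ^ (k + 2) → ¬ Cyc[F]) {x t : G} {j : ℕ}
    (hx : x ∈ N[F]) (ox : x ^ p ^ j = 1) (ht : t ∈ F) :
    ∃ h, h * x ^ p ^ (k + 1) * h⁻¹ = (t * x) ^ p ^ (k + 1) := by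
  by_cases e : o[F] ∣ p ^ (k + 1)
  · obtain ⟨h, -, h3⟩ := brauer_pow_conj hx ht e
    exact ⟨h, h3⟩
  have oF := Nat.eq_prime_pow_of_dvd_least_prime_pow hp.out e h1
  have pR : PG[p, (F ⊔ zpowers x : Subgroup G)] :=
    isPGroup_sup (isPGroup_of_card oF) (isPGroup_zpowers ox) (Or.inr (zpowers_le.2 hx))
  obtain ⟨A, a1, a2, a3, a4⟩ := exists_normal_elem2 h2 pR (isPGroup_of_card oF)
    (sup_le le_normalizer (zpowers_le.2 hx)) (hc oF)
  have xA : x ∈ N[A] := a2 (mem_sup_right (mem_zpowers x))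
  have FA : F ≤ N[A] := le_sup_left.trans a2
  have oq : o[qt A F] = p ^ k := by
    have := card_qt_mul' FA a1
    rw [a4, oF, pow_add p k 2, mul_comm] at this
    exact Nat.eq_of_mul_eq_mul_right (pow_pos hp.out.pos 2) this
  obtain ⟨_, hb, h3⟩ := brauer_pow_conj (qmk_mem_norm xA hx) (qmk_mem_qt (FA ht) ht) oq.dvd
  obtain ⟨h, hh, rfl⟩ := mem_qt.1 hb
  rw [← map_pow, ← map_inv, ← map_mul, ← map_mul, ← map_mul, ← map_pow, eq_comm, qmk_eq_iff'] at h3
  have h4 := pw h2 a3 a4 pR a2 h3 (w := h * x ^ p ^ k * (h : G)⁻¹) (mul_mem (mul_mem (mem_sup_left hh)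
    (mem_sup_right (pow_mem (mem_zpowers x) _))) (mem_sup_left (inv_mem hh)))
  refine ⟨h, ?_⟩
  rw [pow_succ, pow_mul, pow_mul, ← conj_pow, ← h4]
  congr 1
  simp [mul_assoc]

omit [Finite G] in
theorem mp {y t : G} (hy : y ∈ N[F]) (ht : t ∈ F) (n : ℕ) : (t * y) ^ n * (y ^ n)⁻¹ ∈ F := by
  induction n with
  | zero => simp
  | succ n ih =>
    convert F.mul_mem ht (conj_mem_of_norm hy ih) using 1
    rw [pow_succ', pow_succ']; group

/-- Let G be a finite group, p an odd prime dividing the order of G whose Sylow p-subgroups are not cyclic, and n = p^s·m with s > 1 and m coprime to p. Then the number of elements of G of order n is a multiple of p^s. -/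
theorem result {G : Type*} [Group G] [Finite G] (p : ℕ) [Fact p.Prime] (hodd : p ≠ 2) (hpG : p ∣ Nat.card G)
    (P : Sylow p G) (hP : ¬ IsCyclic ↥(P : Subgroup G)) (s m : ℕ) (hs : 1 < s) (hm : Nat.Coprime p m) :
    p ^ s ∣ Nat.card {g : G // orderOf g = p ^ s * m} := by
  obtain ⟨k, rfl⟩ : ∃ k, s = k + 2 := ⟨s - 2, by omega⟩
  have hp : p.Prime := Fact.out
  change _ ∣ sO G _
  by_cases h0 : sO G (p ^ (k + 2) * m) = 0
  · simp [h0]
  have m0 : 0 < m := Nat.pos_of_ne_zero fun e => hp.one_lt.ne' (by simpa [e] using hm)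
  obtain ⟨A, a1, a2, a3, a4⟩ := exists_normal_elem2 hodd P.2 P.2 le_normalizer hP
  have d := (syl_top P).pow_dvd (card_top (G := G) ▸ (dvd_mul_right _ m).trans (dvd_of_ne h0))
  rw [← card_mul_relIndex a1, a4, pow_add p k 2, mul_comm (p ^ k)] at d
  obtain ⟨Q, q1, -, q2, -⟩ := exists_between_pow P.2 P.2 a1 a2 le_normalizer k
    (Nat.dvd_of_mul_dvd_mul_left (pow_pos hp.pos 2) d)
  have oQ : o[Q] = p ^ (k + 2) := by rw [← card_mul_relIndex q1, a4, q2, pow_add p k 2, mul_comm]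
  rw [← oQ, oQ.symm.symm]
  nth_rewrite 1 [← oQ]
  refine CfsgH1.dvd_ncard_of_classes _ (ycls Q) _ (fun _ _ => CfsgH1.mem_ycls_self) ?_
    (fun _ _ _ h => CfsgH1.ycls_eq_of_mem h) fun _ _ => CfsgH1.ncard_ycls.symm.dvd
  rintro y hy _ ⟨u, -, t, ht, rfl⟩
  replace hy : orderOf y = p ^ (k + 2) * m := hy
  change orderOf _ = _
  rw [orderOf_conj']
  have dF : o[ycore Q y] ∣ p ^ (k + 2) := oQ ▸ card_dvd_of_le ycore_le
  obtain ⟨h, -, e1⟩ := brauer_pow_conj mem_norm_ycore ht dF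
  have o1 : orderOf (y ^ m) = p ^ (k + 2) := by
    rw [orderOf_pow_of_dvd m0.ne' (hy ▸ dvd_mul_left _ _), hy, Nat.mul_div_cancel _ m0]
  have o2 : orderOf ((t * y) ^ p ^ (k + 2)) = m := by
    rw [← e1, orderOf_conj', orderOf_pow_of_dvd (pow_pos hp.pos _).ne' (hy ▸ dvd_mul_right _ _), hy,
      Nat.mul_div_cancel_left _ (pow_pos hp.pos _)]
  obtain ⟨g, e2⟩ := br hodd dF (fun e c => not_cyclic_of_elem hp a3 a4 le_rfl (by
      rw [eq_of_le_of_card_le ycore_le (oQ.trans e.symm).le] at c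
      exact isCyclic_of_le q1)) (pow_mem mem_norm_ycore m) (o1 ▸ pow_orderOf_eq_one _) (mp mem_norm_ycore ht m)
  rw [inv_mul_cancel_right] at e2
  have o3 : orderOf ((t * y) ^ m) = p ^ (k + 2) := orderOf_eq_prime_pow (fun e => by
      rw [e, mul_inv_eq_one, mul_eq_left, ← orderOf_dvd_iff_pow_eq_one, o1,
        Nat.pow_dvd_pow_iff_le_right hp.one_lt] at e2
      omega)
    (by rw [← pow_mul, mul_comm m, pow_mul, ← o2, pow_orderOf_eq_one])
  refine Nat.dvd_antisymm ?_ ((hm.pow_left _).mul_dvd_of_dvd_of_dvd (o3 ▸ orderOf_pow_dvd _) (o2 ▸ orderOf_pow_dvd _))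
  rw [orderOf_dvd_iff_pow_eq_one, pow_mul, ← o2, pow_orderOf_eq_one]


end Cfsg.Agent.S4003
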