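import Cfsg.Statements.S4004
import Cfsg.Agent.H3.Hv1
import Cfsg.Agent.H3.Cnt
import Cfsg.Agent.H1.Schmidt
import Cfsg.Agent.L0.Hughes

set_option autoImplicit false
open Cfsg

namespace Cfsg.Agent.S4004
open Subgroup CfsgH2 CfsgEp CfsgCnt

variable {G : Type*} [Group G] [Finite G] {p q : ℕ}

theorem ne2 (hodd : Odd (Nat.card G)) (h : p ∣ Nat.card G) : p ≠ 2 := by
  rintro rfl; exact hodd.not_two_dvd_nat h

theorem vals (hodd : Odd (Nat.card G)) (h : (VO G).ncard = 3) (hp : p.Prime) (dp : p ∣ Nat.card G) :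
    ∃ b, b ≠ sO G p ∧ ∀ m, 1 < m → sO G m = 0 ∨ sO G m = sO G p ∨ sO G m = b := by
  have ev : ∀ m, 1 < m → 2 ∣ sO G m := fun m hm => by
    by_cases e : m = 2
    · by_contra e'
      exact ne2 hodd (dvd_of_ne (fun e2 => e' (e2 ▸ dvd_zero 2))) e
    · exact two_dvd (by omega)
  obtain ⟨b, h1, h2⟩ := three h (mem_VO (sO_prime hp dp)) (by have := ev p hp.one_lt; omega)
  exact ⟨b, h1, fun m hm => by have := ev m hm; have := h2 m; omega⟩

theorem inj (hodd : Odd (Nat.card G)) (h : (VO G).ncard = 3) (hp : p.Prime) (hq : q.Prime) (e : p ≠ q)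
    (dp : p ∣ Nat.card G) (dq : q ∣ Nat.card G) : sO G q ≠ sO G p := fun ha => by
  obtain ⟨b, hb, hv⟩ := vals hodd h hp dp
  set a := sO G p with ha'
  have lt : ∀ {r t : ℕ}, r.Prime → t.Prime → 1 < r * t := fun h1 h2 => one_lt_mul'' h1.one_lt h2.one_lt
  have k1 : ∀ r t, r.Prime → t.Prime → r ≠ t → r ∣ Nat.card G → t ∣ Nat.card G → sO G r = a → sO G t = a →
      sO G (r * t) = b ∧ (a : ZMod r) = -1 ∧ (b : ZMod r) = 1 := fun r t h1 h2 h3 h4 h5 h6 h7 => by
    have c := Z1 h1 h4
    have d := Z2 h1 h2 h3 h4 h5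
    rw [h6] at c
    rw [h7] at d
    rcases hv _ (lt h1 h2) with f | f | f <;> rw [f] at d
    · exact absurd (by push_cast at d; linear_combination c - d) (one_ne h1)
    · exact absurd (by linear_combination 2 * c - d) (two_ne h1 (ne2 hodd h4))
    · exact ⟨f, c, by linear_combination d - c⟩
  by_cases hall : ∀ r, r.Prime → r ∣ Nat.card G → sO G r = a
  · have hd : Nat.card G ∣ 1 + a := (Nat.dvd_iff_prime_pow_dvd_dvd _ _).2 fun r k hr hk => by
      rcases k with _ | k
      · simp
      have dr := (dvd_pow_self r k.succ_ne_zero).trans hk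
      rw [← hall r hr dr]
      refine Fexp hr hk ?_
      obtain ⟨c, d⟩ : (a : ZMod r) = -1 ∧ (b : ZMod r) = 1 := by
        by_cases e' : r = p
        · exact (k1 r q hr hq (e' ▸ e) dr dq (hall r hr dr) ha).2
        · exact (k1 r p hr hp e' dr dp (hall r hr dr) rfl).2
      have f := cz (p_dvd (G := G) hr dvd_rfl)
      rcases hv (r ^ 2) (Nat.one_lt_pow two_ne_zero hr.one_lt) with g | g | g
      · exact g
      · exact absurd (by rw [g] at f; linear_combination c - f) (one_ne hr)
      · exact absurd (by rw [g] at f; linear_combination f - d) (one_ne hr)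
    have h1 := Nat.le_of_dvd (by omega) hd
    have h2 := Finset.sum_le_sum_of_subset (f := sO G) (s := {1, p, q}) (t := (Nat.card G).divisors) (by
      intro x hx
      simp only [Finset.mem_insert, Finset.mem_singleton] at hx
      rcases hx with rfl | rfl | rfl <;> simp [Nat.card_pos.ne', dp, dq])
    rw [← card_eq, Finset.sum_insert (by simp [hp.one_lt.ne, hq.one_lt.ne]), Finset.sum_pair e, sO_one, ha] at h2
    have := sO_prime hp dp
    omega
  push Not at hall
  obtain ⟨r, hr, dr, h1⟩ := hall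
  have h2 : sO G r = b := ((hv r hr.one_lt).resolve_left (sO_prime hr dr)).resolve_left h1
  have k2 : ∀ t u, t.Prime → u.Prime → t ≠ u → t ∣ Nat.card G → u ∣ Nat.card G → sO G t = a → sO G u = a →
      t ≠ r ∧ sO G (t * r) = a := fun t u h3 h4 h5 h6 h7 h8 h9 => by
    have n : t ≠ r := fun e => h1 (e ▸ h8)
    obtain ⟨-, c, d⟩ := k1 t u h3 h4 h5 h6 h7 h8 h9
    have f := Z2 h3 hr n h6 dr
    rw [h2] at f
    rcases hv _ (lt h3 hr) with g | g | g <;> rw [g] at f
    · exact absurd (by push_cast at f; linear_combination f - d) (one_ne h3)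
    · exact ⟨n, g⟩
    · exact absurd (by linear_combination f - 2 * d) (two_ne h3 (ne2 hodd h6))
  obtain ⟨n1, s1⟩ := k2 p q hp hq e dp dq rfl ha
  obtain ⟨n2, s2⟩ := k2 q p hq hp e.symm dq dp ha rfl
  obtain ⟨s3, c, d⟩ := k1 p q hp hq e dp dq rfl ha
  have f := F3 hp hq hr e n1 n2 dp dq dr
  rw [s1, s2, s3, h2, ha, ← ha'] at f
  have f1 := cz (((dvd_mul_right p q).trans (dvd_mul_right _ _)).trans f)
  have f2 := cz ((dvd_mul_left _ _).trans f)
  have g1 := Z1 hr dr
  have g2 := Z2 hr hp n1.symm dr dp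
  rw [mul_comm, s1, ← ha'] at g2
  rw [h2] at g1
  rcases hv (p * q * r) (one_lt_mul'' (lt hp hq) hr.one_lt) with g | g | g <;> rw [g] at f1 f2
  · exact one_ne hp (by push_cast at f1; linear_combination 4 * c + 2 * d - f1)
  · exact two_ne hp (ne2 hodd dp) (by push_cast at f1; linear_combination 5 * c + 2 * d - f1)
  · exact two_ne hr (ne2 hodd dr) (by push_cast at f2; linear_combination 2 * g2 + 3 * g1 - f2)

theorem zero (hodd : Odd (Nat.card G)) (h : (VO G).ncard = 3) (hp : p.Prime) (hq : q.Prime) (e : p ≠ q)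
    (dp : p ∣ Nat.card G) (dq : q ∣ Nat.card G) : sO G (p * q) = 0 ∧ sO G (p ^ 2) = 0 := by
  obtain ⟨b, -, hv⟩ := vals hodd h hp dp
  obtain rfl : sO G q = b :=
    ((hv q hq.one_lt).resolve_left (sO_prime hq dq)).resolve_left (inj hodd h hp hq e dp dq)
  have k : ∀ p q, p.Prime → q.Prime → p ≠ q → p ∣ Nat.card G → q ∣ Nat.card G → sO G (p * q) ≠ sO G p :=
    fun p q hp hq e dp dq f => by
      have c := Z2 hp hq e dp dq
      rw [f, Z1 hp dp] at c
      exact (lt_of_not_dvd hp hq e (ne2 hodd dq) dp fun d => one_ne hp (by linear_combination cz d - c)).ne' f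
  have h0 : sO G (p * q) = 0 := by
    rcases hv _ (one_lt_mul'' hp.one_lt hq.one_lt) with f | f | f
    · exact f
    · exact absurd f (k p q hp hq e dp dq)
    · exact absurd (mul_comm p q ▸ f) (k q p hq hp e.symm dq dp)
  refine ⟨h0, by_contra fun h1 => ?_⟩
  have f := cz ((dvd_mul_left _ _).trans (Fsq hp hq e (dvd_of_ne h1) dq))
  have c := Z2 hq hp e.symm dq dp
  have d := Z1 hq dq
  rw [mul_comm, h0] at c
  rw [h0, show sO G (p ^ 2 * q) = 0 from by_contra fun e' =>
    ne_of_dvd e' (mul_dvd_mul_right (dvd_pow_self p two_ne_zero) q) h0] at f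
  rcases hv _ (Nat.one_lt_pow two_ne_zero hp.one_lt) with g | g | g
  · exact h1 g
  · exact one_ne hp (by linear_combination Z1 hp dp - cz (g ▸ p_dvd (G := G) hp dvd_rfl))
  · rw [g] at f
    exact one_ne hq (by push_cast at f c; linear_combination 2 * d + c - f)

theorem fr (hp : p.Prime) (hq : q.Prime) (e : p ≠ q) (dq : q ∣ Nat.card G) (h0 : sO G (p * q) = 0)
    (ho : ∀ g : G, g ≠ 1 → orderOf g = p ∨ orderOf g = q) {M : Subgroup G} [M.Normal] (hi : M.index = p) :
    ∃ C : Subgroup G, Cfsg.IsFrobeniusComplement C ∧ (Nat.card C).Prime := by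
  haveI := Fact.mk hp
  have c := (Nat.coprime_primes hp hq).2 e
  have hE : EP G := EP.of_pp fun g hg => (ho g hg).elim (fun e => e ▸ hp.isPrimePow) fun e => e ▸ hq.isPrimePow
  have nM : ⊤ ≤ N[M] := top_le_norm_iff.2 inferInstance
  have hN : Nil[M] := CfsgL0.kegel p _ G M ⊤ rfl (lt_top_iff_ne_top.2 fun e => hp.one_lt.ne' (by
    rw [← hi, e, index_top])) nM fun g _ hg => by
      rcases ho g (by rintro rfl; exact hg (one_mem _)) with e | e
      · rw [← e, pow_orderOf_eq_one]
      · exact absurd (mem_of_pow_mem_coprime (hi ▸ M.pow_index_mem g) (e ▸ c.symm)) hg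
  have hc := M.card_mul_index
  rw [hi] at hc
  obtain ⟨Y, hY, oY⟩ := exists_card_prime_le hq (c.symm.dvd_of_dvd_mul_right (hc ▸ dq))
  have nd : ¬ p ∣ o[M] := fun hd => by
    obtain ⟨X, hX, oX⟩ := exists_card_prime_le hp hd
    have c' : o[X].Coprime o[Y] := by rwa [oX, oY]
    exact ne_bot_of_card_prime (oY ▸ hq) (hE.eq_bot c' (nil_le_cent hN hX hY c') (ne_bot_of_card_prime (oX ▸ hp)))
  obtain ⟨X, -, oX⟩ := exists_card_prime_le (H := (⊤ : Subgroup G)) hp (by rw [card_top, ← hc]; simp)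
  have c' : o[X].Coprime o[M] := by rw [oX]; exact hp.coprime_iff_not_dvd.2 nd
  exact ⟨X, (CfsgH1.frob_of_isComplement' (isComplement'_of_coprime (oX ▸ hc) c'.symm)
    (fun e => ne_bot_of_card_prime (oY ▸ hq) (le_bot_iff.1 (e ▸ hY))) (ne_bot_of_card_prime (oX ▸ hp))
    (hE.fpf' c')).isFrobeniusComplement, oX ▸ hp⟩

/-- Let G be a finite group of odd order in which the numbers of elements of each order that occurs (the numbers #{g : o(g) = m}, m ranging over the element orders of G) take exactly three different values. Then the order of G has at most two prime divisors; and if it has exactly two, then every Sylow subgroup of G for a prime dividing its order has prime exponent, G is a Frobenius group, and some Frobenius complement of G has prime order. -/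
theorem result {G : Type*} [Group G] [Finite G] (hodd : Odd (Nat.card G)) (h : (((fun m : ℕ => Nat.card {g : G // orderOf g = m}) '' Set.range (orderOf : G → ℕ))).ncard = 3) :
    (Nat.card G).primeFactors.card ≤ 2 ∧
      ((Nat.card G).primeFactors.card = 2 →
        (∀ (p : ℕ) [Fact p.Prime] (P : Sylow p G), p ∣ Nat.card G → Monoid.exponent ↥(P : Subgroup G) = p) ∧
        ∃ C : Subgroup G, Cfsg.IsFrobeniusComplement C ∧ (Nat.card ↥C).Prime) := by
  change (VO G).ncard = 3 at h
  constructor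
  · rcases (Nat.card G).primeFactors.eq_empty_or_nonempty with e | ⟨p, hp⟩
    · simp [e]
    obtain ⟨b, -, hv⟩ := vals hodd h (Nat.prime_of_mem_primeFactors hp) (Nat.dvd_of_mem_primeFactors hp)
    refine (Finset.card_le_card_of_injOn (t := {sO G p, b}) (sO G) (fun r hr => ?_) fun r hr t ht e => ?_).trans
      Finset.card_le_two
    · have h1 := Nat.prime_of_mem_primeFactors hr
      simpa using (hv r h1.one_lt).resolve_left (sO_prime h1 (Nat.dvd_of_mem_primeFactors hr))
    · by_contra e'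
      exact inj hodd h (Nat.prime_of_mem_primeFactors hr) (Nat.prime_of_mem_primeFactors ht) e'
        (Nat.dvd_of_mem_primeFactors hr) (Nat.dvd_of_mem_primeFactors ht) e.symm
  intro h2
  obtain ⟨p, q, e, h3⟩ := Finset.card_eq_two.1 h2
  have mp : p ∈ (Nat.card G).primeFactors := by simp [h3]
  have mq : q ∈ (Nat.card G).primeFactors := by simp [h3]
  have hp := Nat.prime_of_mem_primeFactors mp
  have hq := Nat.prime_of_mem_primeFactors mq
  have dp := Nat.dvd_of_mem_primeFactors mp
  have dq := Nat.dvd_of_mem_primeFactors mq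
  have hr : ∀ r, r.Prime → r ∣ Nat.card G → r = p ∨ r = q := fun r h4 h5 => by
    simpa [h3] using Nat.mem_primeFactors.2 ⟨h4, h5, Nat.card_pos.ne'⟩
  obtain ⟨z1, z2⟩ := zero hodd h hp hq e dp dq
  obtain ⟨z3, z4⟩ := zero hodd h hq hp e.symm dq dp
  have zr : ∀ r, r.Prime → r ∣ Nat.card G → sO G (r ^ 2) = 0 := fun r h4 h5 => by
    rcases hr r h4 h5 with rfl | rfl <;> assumption
  refine ⟨fun r h4 P h5 => exponent_eq h4.out (zr r h4.out h5) P.2 ((syl_top P).ne_bot (card_top (G := G) ▸ h5)), ?_⟩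
  have ho : ∀ g : G, g ≠ 1 → orderOf g = p ∨ orderOf g = q := fun g hg => by
    obtain ⟨r, h4, h5⟩ := Nat.exists_prime_and_dvd (mt orderOf_eq_one_iff.1 hg)
    haveI := Fact.mk h4
    have h6 := h5.trans (orderOf_dvd_natCard g)
    rw [expo h4 (zr r h4 h6) (P := zpowers g) (isPGroup_iff_piN.2 fun t h7 h8 => by_contra fun e' => ?_)
      (mem_zpowers g) hg]
    · exact hr r h4 h6
    rw [Nat.card_zpowers] at h8
    refine ne_of_dvd (sO_ne_zero.2 ⟨g, rfl⟩) (((Nat.coprime_primes h7 h4).2 e').mul_dvd_of_dvd_of_dvd h8 h5) ?_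
    rcases hr r h4 h6 with rfl | rfl <;> rcases hr t h7 (h8.trans (orderOf_dvd_natCard g)) with rfl | rfl <;>
      first | exact absurd rfl e' | assumption
  haveI := ft hodd
  obtain ⟨M, h4, h5, -, h6⟩ := CfsgH1.exists_normal_prime_relIndex (L := (⊤ : Subgroup G)) inferInstance
    fun e => hp.one_lt.ne' (Nat.dvd_one.1 (by rwa [← card_top, e, card_bot] at dp))
  haveI := normal_of_top_le_norm h5
  rw [relIndex_top_right] at h6
  rcases hr _ h6 M.index_dvd_card with e' | e'
  · exact fr hp hq e dq z1 ho e'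
  · exact fr hq hp e.symm dp z3 (fun g hg => (ho g hg).symm) e'


end Cfsg.Agent.S4004
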