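import Cfsg.Statements.S4005
import Cfsg.Agent.H3.Hv1
import Cfsg.Agent.H3.Ep

set_option autoImplicit false
open Cfsg

namespace Cfsg.Agent.S4005
open Subgroup CfsgH2 CfsgDg CfsgEp

/-- A finite group whose set of element orders is exactly {1, 2, 3} has either a normal elementary abelian 3-subgroup of index 2 or a normal elementary abelian 2-subgroup of index 3. -/
theorem result {G : Type*} [Group G] [Finite G] (h : Set.range (orderOf : G → ℕ) = {k : ℕ | 1 ≤ k ∧ k ≤ 3}) :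
    (∃ N : Subgroup G, N.Normal ∧ Cfsg.IsElementaryAbelian 3 N ∧ N.index = 2) ∨
      (∃ N : Subgroup G, N.Normal ∧ Cfsg.IsElementaryAbelian 2 N ∧ N.index = 3) := by
  have ho : ∀ g : G, orderOf g = 1 ∨ orderOf g = 2 ∨ orderOf g = 3 := fun g => by
    have : orderOf g ∈ {k : ℕ | 1 ≤ k ∧ k ≤ 3} := h ▸ ⟨g, rfl⟩
    simp only [Set.mem_setOf_eq] at this; omega
  have hE : EP G := EP.of_pp fun g h1 => by
    rcases ho g with e | e | e
    · exact absurd (orderOf_eq_one_iff.1 e) h1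
    · rw [e]; exact Nat.prime_two.isPrimePow
    · rw [e]; exact Nat.prime_three.isPrimePow
  have pr : ∀ r, r.Prime → r ∣ Nat.card G → r = 2 ∨ r = 3 := fun r hr hd => by
    haveI := Fact.mk hr
    obtain ⟨g, e⟩ := exists_prime_orderOf_dvd_card' (G := G) r hd
    have := ho g
    have := hr.one_lt
    omega
  have hs : Group.IsSolvable G := isSolvable_top_iff.1 (CfsgL0.sol_of_two_primes Nat.prime_two Nat.prime_three
    fun r hr hd => pr r hr (by rwa [card_top] at hd))
  obtain ⟨w, hw⟩ : 2 ∈ Set.range (orderOf : G → ℕ) := by rw [h]; simp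
  obtain ⟨x, hx⟩ : 3 ∈ Set.range (orderOf : G → ℕ) := by rw [h]; simp
  obtain ⟨S, hS, hl⟩ := exists_syl_ge (p := 2) (M := ⊤) (isPGroup_of_card' ((Nat.card_zpowers w).trans hw)) le_top
  have e2 : ∀ s ∈ S, s ^ 2 = 1 := fun s hs' => by
    obtain ⟨k, hk⟩ := pgroup_mem_order hS.pg hs'
    rw [← orderOf_dvd_iff_pow_eq_one]
    rcases ho s with e | e | e <;> rw [e]
    · simp
    · exact absurd ((Nat.prime_dvd_prime_iff_eq Nat.prime_three Nat.prime_two).1
        (Nat.prime_three.dvd_of_dvd_pow (e ▸ hk).dvd)) (by norm_num)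
  by_cases h0 : O[{2}ᶜ, (⊤ : Subgroup G)] = ⊥
  · obtain ⟨h1, h2, -⟩ := hE.caseB hs h0 (p := 3) (by norm_num) hx fun g => by
      rcases ho g with e | e | e <;> simp [e]
    have h3 : O[{2}, (⊤ : Subgroup G)] = S :=
      le_antisymm hS.pCoreOf_le ((le_cent_of_comm (ab_of_sq e2) hS.pCoreOf_le).trans h1)
    refine Or.inr ⟨S, h3 ▸ inferInstance, ⟨ab_of_sq e2, e2⟩, ?_⟩
    rw [index_eq (by norm_num) pr hS h2, Nat.card_zpowers, hx]
  · have w1 : w ≠ 1 := by rintro rfl; simp at hw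
    obtain ⟨h1, h2, h3⟩ := hE.caseA hs h0 hS fun e => w1 (by simpa [e] using hl)
    refine Or.inl ⟨_, inferInstance, ⟨h2, fun a ha => ?_⟩, ?_⟩
    · rw [← orderOf_dvd_iff_pow_eq_one]
      rcases ho a with e | e | e <;> rw [e]
      · simp
      · exact absurd (e ▸ orderOf_dvd_of_mem ha) not_dvd_piCoreOf
    · rw [h1.index_eq_card]
      rcases h3 with h3 | ⟨a, b, m, h3⟩
      · have := card_dvd_of_elem_cyclic ⟨ab_of_sq e2, e2⟩ h3
        exact Nat.dvd_antisymm this (hw ▸ orderOf_dvd_of_mem (hl (mem_zpowers w)))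
      · exact absurd (by rw [← pow_two]; exact e2 a h3.amem) h3.sq_a_ne


end Cfsg.Agent.S4005
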