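import Cfsg.Statements.S4006
import Cfsg.Agent.H3.Hv1
import Cfsg.Agent.H3.Ep

set_option autoImplicit false
open Cfsg

namespace Cfsg.Agent.S4006
open Subgroup CfsgH2 CfsgDg CfsgEp
open scoped commutatorElement

theorem alg {G : Type*} [Group G] {p r s : G} (rs : Commute r s) (h1 : Commute (p * p) r) (h2 : Commute (p * p) s)
    (a : p * r * (p * r) = 1) (b : p * s * (p * s) = 1) (c : p * (r⁻¹ * s⁻¹) * (p * (r⁻¹ * s⁻¹)) = 1)
    (h4 : p * p * (p * p) = 1) : p * p = 1 := by
  have a' : p * r * p = r⁻¹ := eq_inv_of_mul_eq_one_left (by rw [← a]; group)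
  have b' : p * s * p = s⁻¹ := eq_inv_of_mul_eq_one_left (by rw [← b]; group)
  have c' : p * (r⁻¹ * s⁻¹) * p = s * r := by
    rw [← inv_inv (s * r)]; exact eq_inv_of_mul_eq_one_left (by rw [← c]; group)
  have w : (p * p)⁻¹ = p * p := inv_eq_of_mul_eq_one_right h4
  have e1 : p * (r * s) * p⁻¹ = r⁻¹ * s⁻¹ := by
    calc _ = (p * r * p) * (p * p)⁻¹ * (p * s * p) * (p * p)⁻¹ := by group
      _ = r⁻¹ * ((p * p) * s⁻¹) * (p * p) := by rw [a', b', w]; group
      _ = r⁻¹ * s⁻¹ * ((p * p) * (p * p)) := by rw [h2.inv_right.eq]; group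
      _ = _ := by rw [h4, mul_one]
  have e2 : p * (r * s) * p⁻¹ = p * p * (r⁻¹ * s⁻¹) := by
    rw [rs.eq, ← c']
    calc _ = p * p * (r⁻¹ * s⁻¹) := by group
      _ = _ := rfl
  rw [e1] at e2
  exact (mul_eq_right.1 e2.symm)

theorem alg2 {G : Type*} [Group G] {p r : G} (a : p * r * (p * r) = 1) (h : Commute ⁅r⁻¹, p⁻¹⁆ r) : Commute (p * p) r := by
  have : p * p = (r * ⁅r⁻¹, p⁻¹⁆ * r)⁻¹ := eq_inv_of_mul_eq_one_left (by rw [← a, commutatorElement_def]; group)
  rw [this]
  exact (((Commute.refl r).mul_left h).mul_left (Commute.refl r)).inv_left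

/-- A finite group whose set of element orders is exactly {1, 2, 3, 4} has a normal subgroup N such that either N is a 2-group of exponent 4 and nilpotency class at most 2 with G/N of order 3, or N is an elementary abelian 2-group with G/N isomorphic to the symmetric group of degree 3, or N is an elementary abelian 3-group with G/N cyclic of order 4 or quaternion of order 8. -/
theorem result {G : Type*} [Group G] [Finite G] (h : Set.range (orderOf : G → ℕ) = {k : ℕ | 1 ≤ k ∧ k ≤ 4}) :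
    ∃ (N : Subgroup G) (_ : N.Normal),
      (IsPGroup 2 ↥N ∧ Monoid.exponent ↥N = 4 ∧ Group.nilpotencyClass ↥N ≤ 2 ∧ N.index = 3) ∨
      (Cfsg.IsElementaryAbelian 2 N ∧ Nonempty (G ⧸ N ≃* Equiv.Perm (Fin 3))) ∨
      (Cfsg.IsElementaryAbelian 3 N ∧ ((IsCyclic (G ⧸ N) ∧ N.index = 4) ∨ Nonempty (G ⧸ N ≃* QuaternionGroup 2))) := by
  have ho : ∀ g : G, orderOf g = 1 ∨ orderOf g = 2 ∨ orderOf g = 3 ∨ orderOf g = 4 := fun g => by
    have : orderOf g ∈ {k : ℕ | 1 ≤ k ∧ k ≤ 4} := h ▸ ⟨g, rfl⟩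
    simp only [Set.mem_setOf_eq] at this; omega
  have hE : EP G := EP.of_pp fun g h1 => by
    rcases ho g with e | e | e | e
    · exact absurd (orderOf_eq_one_iff.1 e) h1
    · rw [e]; exact Nat.prime_two.isPrimePow
    · rw [e]; exact Nat.prime_three.isPrimePow
    · rw [e]; exact (Nat.prime_two.isPrimePow).pow (k := 2) two_ne_zero
  have pr : ∀ r, r.Prime → r ∣ Nat.card G → r = 2 ∨ r = 3 := fun r hr hd => by
    haveI := Fact.mk hr
    obtain ⟨g, e⟩ := exists_prime_orderOf_dvd_card' (G := G) r hd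
    have := ho g
    have := hr.one_lt
    have : r ≠ 4 := by rintro rfl; norm_num at hr
    omega
  have hs : Group.IsSolvable G := isSolvable_top_iff.1 (CfsgL0.sol_of_two_primes Nat.prime_two Nat.prime_three
    fun r hr hd => pr r hr (by rwa [card_top] at hd))
  obtain ⟨w, hw⟩ : 4 ∈ Set.range (orderOf : G → ℕ) := by rw [h]; simp
  obtain ⟨x, hx⟩ : 3 ∈ Set.range (orderOf : G → ℕ) := by rw [h]; simp
  obtain ⟨S, hS, hl⟩ := exists_syl_ge (p := 2) (M := ⊤) (isPGroup_of_card (n := 2) ((Nat.card_zpowers w).trans hw)) le_top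
  have e4' : ∀ s : G, orderOf s ≠ 3 → s ^ 4 = 1 := fun s hs' => by
    rw [← orderOf_dvd_iff_pow_eq_one]
    rcases ho s with e | e | e | e <;> simp_all
  have e4 : ∀ s ∈ S, s ^ 4 = 1 := fun s hs' => e4' s fun e => by
    obtain ⟨k, hk⟩ := pgroup_mem_order hS.pg hs'
    exact absurd ((Nat.prime_dvd_prime_iff_eq Nat.prime_three Nat.prime_two).1
        (Nat.prime_three.dvd_of_dvd_pow (e ▸ hk).dvd)) (by norm_num)
  have wS := hl (mem_zpowers w)
  have w1 : w ≠ 1 := by rintro rfl; simp at hw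
  by_cases h0 : O[{2}ᶜ, (⊤ : Subgroup G)] = ⊥
  swap
  · obtain ⟨h1, h2, h3⟩ := hE.caseA hs h0 hS fun e => w1 (by simpa [e] using hl)
    refine ⟨_, inferInstance, Or.inr (Or.inr ⟨⟨h2, fun a ha => ?_⟩, ?_⟩)⟩
    · rw [← orderOf_dvd_iff_pow_eq_one]
      rcases ho a with e | e | e | e <;> rw [e]
      · simp
      · exact absurd (e ▸ orderOf_dvd_of_mem ha) not_dvd_piCoreOf
      · exact absurd ((by norm_num : 2 ∣ 4).trans (e ▸ orderOf_dvd_of_mem ha)) not_dvd_piCoreOf
    · rcases h3 with h3 | ⟨a, b, m, h3⟩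
      · refine Or.inl ⟨isCyclic_of_surjective h1.QuotientMulEquiv.symm h1.QuotientMulEquiv.symm.surjective, ?_⟩
        rw [h1.index_eq_card]
        obtain ⟨y, rfl⟩ := isCyclic_iff_zpowers.1 h3
        exact Nat.dvd_antisymm (by rw [Nat.card_zpowers]; exact orderOf_dvd_of_pow_eq_one (e4 y (mem_zpowers y)))
          (hw ▸ orderOf_dvd_of_mem wS)
      · have h4 := orderOf_dvd_of_pow_eq_one (e4 a h3.amem)
        rw [h3.ord, show 4 = 2 ^ 2 from rfl, Nat.pow_dvd_pow_iff_le_right one_lt_two] at h4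
        obtain rfl : m = 1 := by have := h3.pos; omega
        obtain ⟨e⟩ := h3.toCy2.quaternion h3.sq' h3.inv
        exact Or.inr ⟨h1.QuotientMulEquiv.trans e⟩
  obtain ⟨h1, h2, h3⟩ := hE.caseB hs h0 (p := 3) (by norm_num) hx fun g => by
    rcases ho g with e | e | e | e <;> simp [e]
  set N := O[{2}, (⊤ : Subgroup G)] with hN
  have x1 : x ≠ 1 := by rintro rfl; simp at hx
  have x3 : x ^ 3 = 1 := by rw [← hx, pow_orderOf_eq_one]
  have nN : ∀ g, g ∈ N[N] := fun g => le_norm_piCoreOf (mem_top g)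
  have c3 : ¬ 3 ∣ o[N] := fun e => absurd (piN_piCoreOf 3 Nat.prime_three e) (by norm_num)
  have hf : N ⊓ C1[x] = ⊥ := hE.fpf x1 (by rw [hx]; exact (Nat.prime_three.coprime_iff_not_dvd).2 c3)
  have cl := neumann (nN x) x3 hf
  refine ⟨N, inferInstance, ?_⟩
  by_cases hSN : S ≤ N
  · have h4 : N = S := le_antisymm hS.pCoreOf_le hSN
    refine Or.inl ⟨isPGroup_piCoreOf, ?_, ?_, ?_⟩
    · rw [h4]
      refine Nat.dvd_antisymm (Monoid.exponent_dvd_of_forall_pow_eq_one fun g => Subtype.ext (e4 g g.2)) ?_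
      rw [← hw, ← orderOf_mk w wS]
      exact Monoid.order_dvd_exponent _
    · haveI : Group.IsNilpotent N := nil_of_pg isPGroup_piCoreOf
      rw [← Subgroup.lowerCentralSeries_eq_bot_iff_nilpotencyClass_le,
        ← Subgroup.map_eq_bot_iff_of_injective _ N.subtype_injective, map_lowerCentralSeries, map_subtype_top]
      exact comm_eq_bot_iff.2 cl
    · rw [h4, index_eq (by norm_num) pr hS h2, Nat.card_zpowers, hx]
  refine Or.inr (Or.inl ?_)
  have xN : x ∉ N := fun e => c3 (hx ▸ orderOf_dvd_of_mem e)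
  set f := QuotientGroup.mk' N with hfd
  have fs : Function.Surjective f := QuotientGroup.mk'_surjective N
  have ker : ∀ g, f g = 1 ↔ g ∈ N := fun g => QuotientGroup.eq_one_iff g
  constructor
  · obtain ⟨t, ht1, ht2⟩ : ∃ t ∈ N[zpowers x], t ∉ C[zpowers x] := by
      by_contra hc
      push Not at hc
      have a1 := h2.npc_of_norm_le_cent fun g hg => hc g hg.2
      refine hSN ((a1.le le_top fun e => ?_).trans (le_pCoreOf le_top le_norm_piCoreOf ?_))
      · rw [hS.card_eq] at e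
        exact absurd (Nat.prime_three.dvd_of_dvd_pow e) (by norm_num)
      · exact isPGroup_iff_piN.2 fun r hr hd => (pr r hr (hd.trans (card_subgroup_dvd_card _))).resolve_right
          (piN_piCoreOf r hr hd)
    have cas : ∀ k ∈ zpowers x, k = 1 ∨ k = x ∨ k = x⁻¹ := by
      intro k hk
      obtain ⟨j, rfl⟩ := mem_zpowers_iff.1 hk
      have e3 : x ^ (3 : ℤ) = 1 := by exact_mod_cast x3
      rw [zpow_eq_zpow_emod j e3]
      have : j % 3 = 0 ∨ j % 3 = 1 ∨ j % 3 = 2 := by omega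
      rcases this with e | e | e <;> rw [e]
      · simp
      · simp
      · exact Or.inr (Or.inr (eq_inv_of_mul_eq_one_left (by rw [← zpow_add_one]; exact e3)))
    rw [cent_zpowers] at ht2
    have tx : t * x * t⁻¹ = x⁻¹ := by
      rcases cas _ (conj_mem_of_norm ht1 (mem_zpowers x)) with e | e | e
      · exact absurd (conj_eq_one_iff.1 e) x1
      · exact absurd (mem_centralizer_singleton_iff.2 (mul_inv_eq_iff_eq_mul.1 e)) ht2
      · exact e
    have inv : ∀ u, u * x * u⁻¹ = x⁻¹ → u * u = 1 ∧ ∀ a ∈ N, a * (u * a * u⁻¹) * (a * (u * a * u⁻¹)) = 1 := by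
      intro u ux
      have xx : x * x ≠ 1 := fun e => x1 (by rwa [pow_succ, pow_two, e, one_mul] at x3)
      have uu : u * u = 1 := by
        have : u * u ∈ zpowers x := h3 ▸ mem_centralizer_singleton_iff.2 (by
          calc u * u * x = u * (u * x * u⁻¹) * u := by group
            _ = (u * x * u⁻¹)⁻¹ * (u * u) := by nth_rewrite 1 [ux]; group
            _ = _ := by rw [ux, inv_inv])
        rcases cas _ this with e | e | e
        · exact e
        · exact absurd (by rw [← e] at ux ⊢; rw [eq_inv_iff_mul_eq_one] at ux; rw [← ux]; group) xx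
        · refine absurd ?_ xx
          rw [← inv_eq_iff_eq_inv] at e
          rw [← e] at ux ⊢; rw [eq_inv_iff_mul_eq_one] at ux; rw [← ux]; group
      refine ⟨uu, fun a ha => ?_⟩
      have ui : u⁻¹ = u := inv_eq_of_mul_eq_one_right uu
      have := e4' (a * u) fun e => by
        have b1 : f (a * u) ^ 3 = 1 := by rw [← map_pow, ← e, pow_orderOf_eq_one, map_one]
        rw [map_mul, (ker a).2 ha, one_mul, ← map_pow, pow_succ, pow_two, uu, one_mul, ker] at b1
        have b2 : x⁻¹ * x⁻¹ ∈ N := by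
          nth_rewrite 1 [← ux]
          simpa [mul_assoc] using mul_mem b1 (conj_mem_of_norm (nN x) (inv_mem b1))
        apply xN
        rwa [← mul_inv_rev, inv_eq_of_mul_eq_one_right (by rw [← x3, pow_succ, pow_two])] at b2
      rw [ui, ← this, show 4 = 2 * 2 from rfl, pow_mul, pow_two, pow_two]; group
    have sq : ∀ a ∈ N, a ^ 2 = 1 := by
      intro a ha
      have rN : t * a * t⁻¹ ∈ N := conj_mem_of_norm (nN t) ha
      have sN : x⁻¹ * (t * a * t⁻¹) * x ∈ N := conj_mem_of_norm' (nN x) rN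
      have q1 := (inv t tx).2 a ha
      have q2 := (inv (x⁻¹ * t) (by rw [mul_inv_rev, mul_assoc x⁻¹, ← mul_assoc, mul_assoc x⁻¹, tx]; group)).2 a ha
      have q3 := (inv (x * t) (by rw [mul_inv_rev, mul_assoc x, ← mul_assoc, mul_assoc x, tx]; group)).2 a ha
      rw [show x⁻¹ * t * a * (x⁻¹ * t)⁻¹ = x⁻¹ * (t * a * t⁻¹) * x by group] at q2
      have n3 := three_norm (nN x) x3 hf rN
      rw [show x * t * a * (x * t)⁻¹ = (t * a * t⁻¹)⁻¹ * (x⁻¹ * (t * a * t⁻¹) * x)⁻¹ by
        rw [← mul_one (t * a * t⁻¹)⁻¹, ← n3]; group] at q3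
      have cm : ∀ r ∈ N, Commute ⁅r⁻¹, a⁻¹⁆ r := fun r hr =>
        commute_of_mem_cent (cl (commutator_mem_commutator (inv_mem hr) (inv_mem ha))) hr
      rw [pow_two]
      refine alg ?_ (alg2 q1 (cm _ rN)) (alg2 q2 (cm _ sN)) q1 q2 q3 ?_
      · simpa using three_comm (inv_mem (nN x)) (by rw [inv_pow, x3, inv_one]) (fpf_inv hf) rN
      · rw [← e4 a (hS.pCoreOf_le ha), show 4 = 2 * 2 from rfl, pow_mul, pow_two, pow_two]
    exact ⟨ab_of_sq sq, sq⟩
  have o2 : O[{2}, (⊤ : Subgroup (G ⧸ N))] = ⊥ := by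
    have := piCoreOf_map_mk_self (π := {2}) (⊤ : Subgroup G)
    rwa [map_top_of_surjective _ fs] at this
  have s2 := hS.map f
  have s3 := h2.map f
  rw [map_top_of_surjective _ fs] at s2 s3
  have cx : o[(zpowers x).map f] = 3 := by
    rw [MonoidHom.map_zpowers]
    exact card_zpowers_eq Nat.prime_three (by rw [← map_pow, x3, map_one]) fun e => xN ((ker x).1 e)
  have hF : F[(⊤ : Subgroup (G ⧸ N))] = (zpowers x).map f := by
    refine eq_of_le_prime (cx ▸ Nat.prime_three) (fit_le_of_cores fun p hp hd => ?_)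
      (fit_ne_bot (isSolvable_top_iff.2 inferInstance) fun e => xN ((ker x).1 (mem_bot.1 (e ▸ mem_top _))))
    rcases pr p hp.out (hd.trans ((card_subgroup_dvd_card _).trans (card_quotient_dvd_card N))) with rfl | rfl
    · rw [o2]; exact bot_le
    · exact s3.pCoreOf_le
  have hC : C[(zpowers x).map f] = (zpowers x).map f := le_antisymm
    (fun g hg => hF ▸ cent_fit_le (isSolvable_top_iff.2 inferInstance) ⟨mem_top g, hF ▸ hg⟩)
    (le_cent_self (isCyclic_of_card_prime Nat.prime_three cx).isMulCommutative)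
  have hi : ((zpowers x).map f).index ∣ 3 - 1 := by
    have := relIndex_cent_dvd_of_card_prime Nat.prime_three cx
    rwa [hC, top_le_iff.1 (hF ▸ le_norm_fit : ⊤ ≤ N[(zpowers x).map f]), relIndex_top_right] at this
  have c2 : o[S.map f] = 2 := by
    rw [← index_eq (by norm_num) (fun r hr hd => (pr r hr (hd.trans (card_quotient_dvd_card N))).symm) s3 s2]
    refine ((Nat.dvd_prime Nat.prime_two).1 hi).resolve_left fun e => hSN fun s hs' => (ker s).1 ?_
    exact eq_one_of_coprime_order s3.pg (index_eq_one.1 e ▸ mem_top _) (by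
      obtain ⟨k, hk⟩ := pgroup_mem_order s2.pg (mem_map_of_mem f hs')
      rw [hk]; exact Nat.Coprime.pow_left _ (by norm_num))
  refine s3_of (H := S.map f) ?_ c2 fun hn => ?_
  · rw [← card_mul_index (S.map f), index_eq (by norm_num) (fun r hr hd => pr r hr (hd.trans (card_quotient_dvd_card N)))
      s2 s3, c2, cx]
  · have := le_pCoreOf le_top (top_le_norm_iff.2 hn) s2.pg
    rw [o2, le_bot_iff] at this
    simp [this] at c2


end Cfsg.Agent.S4006
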