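import Cfsg.Statements.S4200
import Mathlib
import Cfsg.Agent.L0.G2

set_option autoImplicit false
open Cfsg

namespace Cfsg.Agent.S4200

open Cfsg Subgroup CfsgH2 CfsgL0

/-- Let Y be a subgroup of the finite group X, of index m. Then the numbers of conjugacy classes satisfy k(Y) ≤ m·k(X) and k(X) ≤ m·k(Y), and the second inequality is strict unless Y is normal in X. -/
theorem result {X : Type*} [Group X] [Finite X] (Y : Subgroup X) : Nat.card (ConjClasses Y) ≤ Y.index * Nat.card (ConjClasses X) ∧ Nat.card (ConjClasses X) ≤ Y.index * Nat.card (ConjClasses Y) ∧ (¬ Y.Normal → Nat.card (ConjClasses X) < Y.index * Nat.card (ConjClasses Y)) := by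
  have e := Y.index_mul_card
  have h1 : ∀ x : X, (Set.univ ∩ C1[x] : Set X).ncard = Y.relIndex C1[x] * ((Y : Set X) ∩ C1[x]).ncard :=
    fun x => by rw [Set.univ_inter, ncard_coe, ← card_inf_mul_relIndex Y, mul_comm]; rfl
  have h2 : ∀ x : X, Y.relIndex C1[x] ≤ Y.index := fun x =>
    relIndex_top_right Y ▸ relIndex_le_of_le_right le_top (relIndex_pos _ _).ne'
  have h3 : ∀ A : Set X, ∀ x ∈ A, (Set.univ ∩ C1[x] : Set X).ncard ≤
      Y.index * ((Y : Set X) ∩ C1[x]).ncard := fun _ x _ => h1 x ▸ Nat.mul_le_mul_right _ (h2 x)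
  have h4 : Y.index * cp Set.univ (Y : Set X) ≤ Y.index * Nat.card (ConjClasses Y) * Nat.card X := by
    rw [cp_comm, mul_assoc, ← e, mul_left_comm (Nat.card _), ← cp_self]
    exact Nat.mul_le_mul_left _ (cp_le_mul (h3 _))
  refine ⟨Nat.le_of_mul_le_mul_right ?_ (Nat.card_pos (α := Y)), Nat.le_of_mul_le_mul_right
    (cp_univ (G := X) ▸ (cp_le_mul (h3 _)).trans h4) Nat.card_pos, fun hn => Nat.lt_of_mul_lt_mul_right
    (a := Nat.card X) ?_⟩
  · rw [← cp_self, mul_right_comm, e, mul_comm, ← cp_univ]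
    exact cp_mono (Set.subset_univ _) (Set.subset_univ _)
  rw [← cp_univ]
  refine (cp_lt_mul (h3 _) ?_).trans_le h4
  by_contra! h
  refine hn ⟨fun y hy g => ?_⟩
  have h5 := Nat.le_of_mul_le_mul_right ((h y trivial).trans_eq (h1 y))
    ((Set.ncard_pos (Set.toFinite _)).2 ⟨1, one_mem Y, one_mem C1[y]⟩)
  obtain ⟨a, ha, c, hc, rfl⟩ := CfsgH1.fac_top_iff.1 (CfsgH1.fac_of_relIndex_le (B := Y) (A := C1[y])
    le_top le_top (by rwa [relIndex_top_right])).symm g
  rw [mul_assoc a, mem_centralizer_singleton_iff.1 hc]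
  simpa [mul_assoc] using mul_mem (mul_mem ha hy) (inv_mem ha)

end Cfsg.Agent.S4200
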