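import Cfsg.Statements.S4203
import Mathlib
import Cfsg.Agent.L0.M3
import Cfsg.Agent.H3.Burnside
import Cfsg.Agent.H1.SS2

set_option autoImplicit false
open Cfsg

namespace Cfsg.Agent.S4203

open Cfsg Subgroup CfsgH2 CfsgL0
universe u
theorem aux (n : ℕ) : ∀ (G : Type u) [Group G] [Finite G], Nat.card G = n →
    (∀ M : Subgroup G, IsCoatom M → ∃ p : ℕ, p.Prime ∧ (M.index = p ∨ M.index = p ^ 2)) → Group.IsSolvable G := by
  induction n using Nat.strong_induction_on with | _ n ih => ?_
  intro G _ _ hn h
  rcases subsingleton_or_nontrivial G with _ | _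
  · infer_instance
  suffices ∃ N : Subgroup G, N.Normal ∧ N ≠ ⊥ ∧ Group.IsSolvable N by
    obtain ⟨N, _, h0, _⟩ := this
    have := ih _ (hn ▸ card_quot_lt h0) (G ⧸ N) rfl fun M hM => by
      have := h _ (CfsgH1.isCoatom_comap_mk' hM)
      rwa [index_comap_of_surjective _ (QuotientGroup.mk'_surjective N)] at this
    exact solvable_of_ker_le_range N.subtype (QuotientGroup.mk' N) (by simp)
  obtain ⟨p, hp, hd, hmax⟩ := CfsgH1.exists_max_prime_dvd (n := Nat.card G) Nat.card_pos.ne' Finite.one_lt_card.ne'
  haveI := Fact.mk hp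
  obtain ⟨P⟩ : Nonempty (Sylow p G) := inferInstance
  have hP := syl_top P
  by_cases hN : N[(P : Subgroup G)] = ⊤
  · exact ⟨P, top_le_norm_iff.1 hN.ge, hP.ne_bot (by rwa [card_top]), isSolvable_of_pgroup hP.pg⟩
  obtain ⟨M, hM, hle⟩ := (eq_top_or_exists_le_coatom _).resolve_left hN
  obtain ⟨q, hq, hi⟩ := h M hM
  have h1 : M.index ≡ 1 [MOD p] := by
    have a := card_sylow_modEq_one p G
    have b := card_sylow_modEq_one p M
    rw [CfsgH1.Syl.card_sylow hP, ← relIndex_mul_index hle] at a
    rw [CfsgH1.Syl.card_sylow_sub (hP.mono (le_normalizer.trans hle) le_top)] at b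
    have := (b.mul_right M.index).symm.trans a
    rwa [one_mul] at this
  have hqp : q ≤ p := hmax q hq (Dvd.dvd.trans (hi.elim (fun h => h.symm.dvd) fun h => h ▸ dvd_pow_self q two_ne_zero)
    M.index_dvd_card)
  have := hq.two_le
  have h3 : p ≤ 3 := by
    rcases hi with hi | hi
    · rw [hi] at h1
      have := Nat.le_of_dvd (by omega) ((Nat.modEq_iff_dvd' (by omega)).1 h1.symm)
      omega
    · rw [hi] at h1
      have h2 := (Nat.modEq_iff_dvd' (Nat.one_le_pow _ _ hq.pos)).1 h1.symm
      rw [show q ^ 2 - 1 = (q + 1) * (q - 1) by rw [← Nat.sq_sub_sq, one_pow]] at h2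
      rcases (Nat.Prime.dvd_mul hp).1 h2 with h2 | h2
      · have h4 : p = q + 1 := by
          obtain ⟨c, hc⟩ := h2
          rcases c with _ | _ | c
          · omega
          · omega
          · nlinarith
        rcases hq.eq_two_or_odd' with rfl | ho
        · omega
        · exact absurd (hp.eq_two_or_odd'.resolve_left (by omega)) (by rw [h4]; exact Nat.not_odd_iff_even.2 ho.add_one)
      · have := Nat.le_of_dvd (by omega) h2
        omega
  refine ⟨⊤, inferInstance, top_ne_bot, isSolvable_top_iff.2 (CfsgH3.burnside_paqb 2 3 (Nat.card G) (Nat.card G)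
    Nat.prime_two Nat.prime_three ?_)⟩
  refine (Nat.factorization_prime_le_iff_dvd Nat.card_pos.ne' (by positivity)).1 fun r hr => ?_
  by_cases hd : r ∣ Nat.card G
  · have h1 := hmax r hr hd
    have h2 := hr.two_le
    have h4 := Nat.factorization_lt r (Nat.card_pos (α := G)).ne'
    obtain rfl | rfl : r = 2 ∨ r = 3 := by omega
    all_goals simp [Nat.factorization_mul, Nat.prime_two, Nat.prime_three]; omega
  · rw [Nat.factorization_eq_zero_of_not_dvd hd]; exact Nat.zero_le _

/-- A finite group in which every maximal subgroup has index a prime or the square of a prime is solvable. -/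
theorem result {G : Type*} [Group G] [Finite G] (h : ∀ M : Subgroup G, IsCoatom M → ∃ p : ℕ, p.Prime ∧ (M.index = p ∨ M.index = p ^ 2)) : Group.IsSolvable G := by
  exact aux _ G rfl h

end Cfsg.Agent.S4203
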