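import Cfsg.Statements.S4205
import Cfsg.Agent.H1.Misc1

set_option autoImplicit false
open Cfsg

namespace Cfsg.Agent.S4205

/-- In a finite group whose upper central series reaches the whole group at step `c` (nilpotent of class at most `c`), starting from any subgroup and taking normalizers `c` times reaches the whole group. -/
theorem result {G : Type*} [Group G] [Finite G] (c : ℕ) (hG : Subgroup.upperCentralSeries G c = ⊤) (H : Subgroup G) : (fun K : Subgroup G => Subgroup.normalizer (K : Set G))^[c] H = ⊤ := by
  open Pointwise Subgroup CfsgH1 in
  open CfsgH2 hiding card_inf_mul_relIndex card_lt_of_lt card_lt_of_ne_top card_map_mul_card_inf_ker card_mul_relIndex card_subgroupOf card_sup_dvd card_sup_mul_card_inf exists_card_prime_le isNilpotent_map isNilpotent_of_le isPGroup_pCore isSolvable_map isSolvable_of_le le_pCore le_pPrimeCore relIndex_map_dvd in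
  open scoped CfsgH2 in
  open scoped commutatorElement in
  · have : ∀ i, Subgroup.upperCentralSeries G i ≤ (fun K : Subgroup G => N[K])^[i] H := fun i => by
      induction i with
      | zero => simp
      | succ i ih =>
        rw [Function.iterate_succ_apply']
        refine fun x hx => mem_norm_of_conj fun y hy => ?_
        rw [show x * y * x⁻¹ = x * y * x⁻¹ * y⁻¹ * y by group]
        exact mul_mem (ih (Subgroup.mem_upperCentralSeries_succ_iff.1 hx y)) hy
    exact top_le_iff.1 (hG ▸ this c)

end Cfsg.Agent.S4205
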