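import Cfsg.Statements.S4206
import Cfsg.Agent.H1.Misc1

set_option autoImplicit false
open Cfsg

namespace Cfsg.Agent.S4206

/-- Let `H 0 ≥ H 1 ≥ H 2 ≥ ⋯` be normal subgroups of a finite group and `L` a subgroup with `⁅H i, L⁆ ≤ H (i+1)` for all `i`. Then `⁅H i, γ⁆ ≤ H (i + j + 1)` where `γ` is the `j`-th term of the lower central series of `L` (indexed from `0`, so the term with index `j` is the `(j+1)`-fold commutator). -/
theorem result {G : Type*} [Group G] [Finite G] (H : ℕ → Subgroup G) (hN : ∀ i, (H i).Normal) (hdesc : ∀ i, H (i + 1) ≤ H i) (L : Subgroup G) (hL : ∀ i, ⁅H i, L⁆ ≤ H (i + 1)) (i j : ℕ) : ⁅H i, L.lowerCentralSeries j⁆ ≤ H (i + j + 1) := by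
  open Pointwise Subgroup CfsgH1 in
  open CfsgH2 hiding card_inf_mul_relIndex card_lt_of_lt card_lt_of_ne_top card_map_mul_card_inf_ker card_mul_relIndex card_subgroupOf card_sup_dvd card_sup_mul_card_inf exists_card_prime_le isNilpotent_map isNilpotent_of_le isPGroup_pCore isSolvable_map isSolvable_of_le le_pCore le_pPrimeCore relIndex_map_dvd in
  open scoped CfsgH2 in
  open scoped commutatorElement in
  · induction j generalizing i with
    | zero => exact hL i
    | succ j ih =>
      haveI := hN (i + (j + 1) + 1)
      rw [commutator_comm, Subgroup.lowerCentralSeries_succ]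
      refine three_subgroup_le le_normalizer_of_normal le_normalizer_of_normal le_normalizer_of_normal ?_ ?_
      · refine (commutator_mono ((commutator_comm_le _ _).trans (hL i)) le_rfl).trans ((ih (i + 1)).trans ?_)
        rw [show i + 1 + j + 1 = i + (j + 1) + 1 by omega]
      · exact (commutator_mono (ih i) le_rfl).trans (hL _)

end Cfsg.Agent.S4206
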