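import Cfsg.Statements.S4208
import Mathlib
import Cfsg.Agent.L0.Gens

set_option autoImplicit false
open Cfsg

namespace Cfsg.Agent.S4208

open Cfsg Subgroup CfsgH2 CfsgL0

/-- Let `P` be a group of order `p^n` whose Frattini subgroup has index `p^r`. Then the order of the automorphism group of `P` divides `p^(r(n-r)) · (p^r - 1)(p^r - p) ⋯ (p^r - p^(r-1))`. -/
theorem result {P : Type*} [Group P] [Finite P] {p n r : ℕ} [Fact p.Prime] (hP : Nat.card P = p ^ n) (hr : (frattini P).index = p ^ r) : Nat.card (MulAut P) ∣ p ^ (r * (n - r)) * ∏ i ∈ Finset.range r, (p ^ r - p ^ i) := by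
  rename_i hp
  have pP : IsPGroup p P := IsPGroup.of_card hP
  have hF : Nat.card (frattini P) = p ^ (n - r) := by
    have := (frattini P).card_mul_index
    rw [hP, hr] at this
    have h1 : r ≤ n := (Nat.pow_dvd_pow_iff_le_right hp.out.one_lt).1 (this ▸ dvd_mul_left _ _)
    rw [← Nat.sub_add_cancel h1, pow_add] at this
    exact Nat.eq_of_mul_eq_mul_right (pow_pos hp.out.pos _) this
  have h1 := card_gen_tuples_elem (elem_quot_frattini pP) hr
  have h2 := card_eq_mul_of_fiber (fun x : {x : Fin r → P // Subgroup.closure (Set.range x) = ⊤} =>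
    (⟨fun i => (x.1 i : P ⧸ frattini P), (gen_iff_frattini _).1 x.2⟩ :
      {y : Fin r → P ⧸ frattini P // Subgroup.closure (Set.range y) = ⊤})) (n := p ^ (r * (n - r))) fun y => by
    rw [mul_comm, pow_mul, ← hF, ← card_lift_tuples _ y.1]
    exact Nat.card_congr
      { toFun := fun x => ⟨x.1.1, fun i => congrFun (congrArg Subtype.val x.2) i⟩
        invFun := fun x => ⟨⟨x.1, by rw [gen_iff_frattini, funext x.2, y.2]⟩, Subtype.ext (funext x.2)⟩
        left_inv := fun _ => rfl
        right_inv := fun _ => rfl }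
  rw [mul_comm, ← h1, ← h2, ← card_top]
  refine card_dvd_of_gen_tuples ⊤ {x | Subgroup.closure (Set.range x) = ⊤} (fun x hx => hx) fun x hx a => ?_
  have := congrArg (map a.1.toMonoidHom) hx
  rw [MonoidHom.map_closure, ← Set.range_comp, map_top_of_surjective _ a.1.surjective] at this
  exact this

end Cfsg.Agent.S4208
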