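import Cfsg.Statements.S4211
import Cfsg.Agent.H2.Pq0

set_option autoImplicit false
open Cfsg

namespace Cfsg.Agent.S4211
open CfsgH2

/-- A finite non-abelian group in which every subgroup is normal is the internal direct product of a subgroup isomorphic to the quaternion group of order `8`, an elementary abelian `2`-subgroup and an abelian subgroup of odd order. -/
theorem result {G : Type*} [Group G] [Finite G] (hna : ¬ IsMulCommutative G) (hn : ∀ H : Subgroup G, H.Normal) : ∃ Q E A : Subgroup G, Nonempty (Q ≃* QuaternionGroup 2) ∧ Cfsg.IsElementaryAbelian 2 E ∧ IsMulCommutative A ∧ Odd (Nat.card A) ∧ E ⊓ A = ⊥ ∧ Q ⊓ (E ⊔ A) = ⊥ ∧ Q ⊔ (E ⊔ A) = ⊤ := by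
  open Subgroup Function in open scoped commutatorElement in
  · haveI := Fact.mk Nat.prime_two
    have nn : ∀ H K : Subgroup G, K ≤ N[H] := fun H K => le_top.trans (top_le_norm_iff.2 (hn H))
    have nil : ∀ H : Subgroup G, Nil[H] := fun H => nil_of_syl fun p _ _ => (exists_syl p H).imp fun P h => ⟨h, nn _ _⟩
    have hA : Ab[O[{2}ᶜ, (⊤ : Subgroup G)]] := nil_ab_of_cores (nil _) fun p _ hp => by
      by_contra hc
      obtain rfl := (ded_pgroup hn isPGroup_piCoreOf hc).1
      exact not_dvd_piCoreOf hp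
    set S := O[{2}, (⊤ : Subgroup G)]
    set A := O[{2}ᶜ, (⊤ : Subgroup G)]
    have hS : PG[2, S] := isPGroup_piCoreOf
    have e : S ⊔ A = ⊤ := nil_sup_core (nil _)
    have d : S ⊓ A = ⊥ := piCoreOf_inf_compl
    obtain ⟨-, x, hx, y, hy, h, h1, h2⟩ := ded_pgroup hn hS fun a =>
      hna (isMulComm_top_iff.1 (e ▸ isMulComm_sup a hA piCoreOf_le_cent))
    set Q := zpowers x ⊔ zpowers y
    have l : Q ≤ S := sup_le (zpowers_le.2 hx) (zpowers_le.2 hy)
    have w := h.wx
    have e1 := w.sup_cent l (commutator_le.2 fun s hs q hq => by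
      obtain ⟨k, hk⟩ := exists_conj_eq_zpow (nn (zpowers q) ⊤ (mem_top s))
      have k2 : ∀ j : ℤ, q ^ (j + j) ∈ Z[Q] := fun j => by
        rw [← two_mul, zpow_mul]; exact zpow_mem (by exact_mod_cast w.pow_mem hq) j
      rcases Int.even_or_odd' k with ⟨j, rfl | rfl⟩
      · have : q ∈ Z[Q] := by
          have := conj_mem_of_norm' (nn Z[Q] ⊤ (mem_top s)) (k2 j)
          rwa [← two_mul, ← hk, show s⁻¹ * (s * q * s⁻¹) * s = q by group] at this
        exact mul_mem (conj_mem_of_norm (nn _ ⊤ (mem_top s)) this) (inv_mem this)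
      · rw [commutatorElement_def, hk, zpow_add_one, mul_inv_cancel_right, two_mul]; exact k2 j)
      (le_cent_of_card_prime hS (nn _ _) w.cardZ)
    have ox : x ^ 4 = 1 := by rw [← orderOf_dvd_iff_pow_eq_one, h.ord]; rfl
    have ex : ∀ c ∈ S ⊓ C[Q], c ^ 2 = 1 := by
      have k : ∀ c ∈ C[Q], c ^ 4 = 1 → c ^ 2 = 1 := fun c hc h4 => by
        have cx := commute_of_mem_cent hc h.amem
        have cy := commute_of_mem_cent hc h.bmem
        obtain ⟨k, hk⟩ := mem_powers_iff_mem_zpowers.2 (conj_mem_of_norm (nn (zpowers (x * c)) ⊤ (mem_top y)) (mem_zpowers _))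
        have o4 : (x * c) ^ 4 = 1 := by rw [cx.symm.mul_pow, ox, h4, mul_one]
        simp only at hk
        rw [← conj_mul, h2, ← cy.eq, mul_inv_cancel_right, pow_eq_pow_mod k o4] at hk
        have nz : x ∉ C[Q] := fun a => h.not_comm (h.isMulComm (by rw [← (commute_of_mem_cent a h.bmem).eq]; simp))
        have x2 : x ^ 2 ∈ C[Q] := (w.pow_mem h.amem).2
        have : k % 4 < 4 := Nat.mod_lt _ (by norm_num)
        generalize k % 4 = j at hk this
        rw [cx.symm.mul_pow] at hk
        interval_cases j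
        · rw [pow_zero, pow_zero, one_mul, eq_inv_mul_iff_mul_eq, mul_one] at hk; exact (nz (hk ▸ hc)).elim
        · rw [pow_one, pow_one, mul_left_inj, eq_inv_iff_mul_eq_one] at hk
          exact (half_ne_one (m := 1) h.ord (by rw [pow_one, sq, hk])).elim
        · have : x⁻¹ ∈ C[Q] := by
            rw [← mul_inv_eq_iff_eq_mul.2 hk]; exact mul_mem (mul_mem x2 (pow_mem hc 2)) (inv_mem hc)
          exact (nz (inv_mem_iff.1 this)).elim
        · rw [eq_inv_mul_iff_mul_eq, ← mul_assoc, ← pow_succ', ox, one_mul, pow_succ, mul_eq_right] at hk; exact hk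
      intro c hc
      obtain ⟨n, hn⟩ := pgroup_pow_eq_one hS hc.1
      induction n with
      | zero => rw [pow_zero, pow_one] at hn; simp [hn]
      | succ n ih =>
        rcases n with _ | n
        · simpa using hn
        refine ih ?_
        rw [pow_succ, pow_mul]
        exact k _ (pow_mem hc.2 _) (by rw [← pow_mul, ← hn]; congr 1; ring)
    have el : IsElementaryAbelian 2 (S ⊓ C[Q]) := ⟨isMulComm_iff.2 fun a ha b hb => by
      have := ex _ (mul_mem ha hb)
      rw [sq, mul_eq_one_iff_eq_inv, mul_inv_rev, inv_eq_of_mul_eq_one_right ((sq a).symm.trans (ex a ha)),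
        inv_eq_of_mul_eq_one_right ((sq b).symm.trans (ex b hb))] at this
      exact this, ex⟩
    obtain ⟨E, d1, d2⟩ := exists_compl_of_elem Nat.prime_two el (inf_le_inf_right _ l : Z[Q] ≤ _)
    have l2 : E ≤ S ⊓ C[Q] := d2 ▸ le_sup_right
    refine ⟨Q, E, A, h.quaternion h1 h2, elem_of_le el l2, hA, Nat.odd_iff.2 (Nat.two_dvd_ne_zero.1 not_dvd_piCoreOf), ?_, ?_, ?_⟩
    · rw [eq_bot_iff, ← d]; exact inf_le_inf_right _ (l2.trans inf_le_left)
    · have := sup_inf_of_norm (H := E) (K := A) (.inl (nn _ _)) (l2.trans inf_le_left)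
      rw [inf_comm A, d, sup_bot_eq] at this
      rw [eq_bot_iff, ← d1]
      intro q hq
      have : q ∈ E := this.le ⟨hq.2, l hq.1⟩
      exact ⟨⟨hq.1, (l2 this).2⟩, this⟩
    · rw [← sup_assoc, ← e, ← e1, ← d2, ← sup_assoc, sup_eq_left.2 (inf_le_left : Z[Q] ≤ Q)]

end Cfsg.Agent.S4211
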