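import Cfsg.Statements.S4212
import Mathlib
import Cfsg.Agent.L0.G2

set_option autoImplicit false
open Cfsg

namespace Cfsg.Agent.S4212

open Cfsg Subgroup CfsgH2 CfsgL0

/-- Let `G` be a finite group of order `g`, `c` an element whose conjugacy class has `h` elements, and `n` a natural number. Then the number of elements `x` of `G` with `x^n` conjugate to `c` is a multiple of `gcd(hn, g)`. -/
theorem result {G : Type*} [Group G] [Finite G] (c : G) (n : ℕ) : Nat.gcd (Nat.card {y : G // IsConj c y} * n) (Nat.card G) ∣ Nat.card {x : G // IsConj c (x ^ n)} := by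
  have e : {x : G | IsConj c (x ^ n)}.ncard = {y | IsConj c y}.ncard * {x : G | x ^ n ∈ ({c} : Set G)}.ncard := by
    refine ncard_eq_mul (Set.toFinite _) (· ^ n) (fun x hx => hx) (fun y hy => ?_) (Set.toFinite _)
    obtain ⟨g, rfl⟩ := isConj_iff.1 hy
    refine (Set.ncard_congr (fun x _ => g * x * g⁻¹) (fun x hx => ?_) (fun a b _ _ h => by simpa using h)
      fun x hx => ⟨g⁻¹ * x * g, ?_, by group⟩).symm
    · simp only [Set.mem_setOf_eq, conj_pow, show x ^ n = c from hx, and_true]; exact hy
    · have := conj_pow (i := n) (a := g⁻¹) (b := x)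
      rw [inv_inv, show x ^ n = _ from hx.2] at this
      rw [Set.mem_setOf_eq, this]; simp [mul_assoc]
  rw [show Nat.card {x : G // IsConj c (x ^ n)} = _ from e, ← card_isConj_mul c, Nat.gcd_mul_left]
  refine mul_dvd_mul_left _ (frob_pow _ (Nat.gcd_dvd_right _ _) (Nat.gcd_dvd_left _ _) ?_)
  rintro _ rfl h hh
  rw [mem_centralizer_singleton_iff.1 hh]; simp

end Cfsg.Agent.S4212
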