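import Cfsg.Statements.S4213
import Mathlib
import Cfsg.Agent.L0.G2

set_option autoImplicit false
open Cfsg

namespace Cfsg.Agent.S4213

open Cfsg Subgroup CfsgH2 CfsgL0 CfsgH1

theorem aux.{u} (k : ℕ) : ∀ (G : Type u) [Group G] [Finite G] [Group.IsSolvable G], Nat.card G = k →
    ∀ n, n ∣ Nat.card G → {x : G | x ^ n = 1}.ncard = n → ∃ H : Subgroup G, (H : Set G) = {x | x ^ n = 1} := by
  induction k using Nat.strong_induction_on with | _ k ih => ?_
  intro G _ _ _ hk n hn h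
  by_cases h0 : (⊤ : Subgroup G) = ⊥
  · exact ⟨⊤, Set.ext fun x => ⟨fun a => by simp [mem_bot.1 (h0.le a)], fun _ => trivial⟩⟩
  obtain ⟨N, p, nN, hN, -, hp, -, pg, ex, -⟩ := exists_elementary_normal_le ⊤ h0
  haveI := Fact.mk hp
  have sf := QuotientGroup.mk'_surjective N
  have e := card_eq_card_quotient_mul_card_subgroup N
  have lt := hk ▸ card_quot_lt hN
  have n0 : 0 < n := Nat.pos_of_dvd_of_pos hn Nat.card_pos
  by_cases hpn : p ∣ n
  · obtain ⟨m, hm⟩ := Nat.gcd_dvd_left n (Nat.card N)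
    have h1 : m ∣ Nat.card (G ⧸ N) := by
      obtain ⟨l, hl⟩ := Nat.gcd_dvd_right n (Nat.card N)
      have hg := Nat.gcd_pos_of_pos_left (Nat.card N) n0
      refine Nat.Coprime.dvd_of_dvd_mul_right (n := l) ?_ (Nat.dvd_of_mul_dvd_mul_left hg ?_)
      · have := Nat.gcd_mul_left (n.gcd (Nat.card N)) m l
        rw [← hm, ← hl] at this
        exact Nat.eq_of_mul_eq_mul_left hg (this.symm.trans (mul_one _).symm)
      · rwa [← hm, mul_left_comm, ← hl, ← e]
    have h2 : QuotientGroup.mk' N ⁻¹' {x | x ^ m = 1} ⊆ {x | x ^ n = 1} := fun x hx => by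
      obtain ⟨c, hc⟩ := Nat.dvd_gcd hpn (dvd_card_of_pgroup pg hN)
      rw [Set.mem_setOf_eq, hm, hc, mul_comm, ← mul_assoc, pow_mul, pow_mul,
        ex _ ((QuotientGroup.eq_one_iff _).1 hx), one_pow]
    have h3 := Nat.le_of_dvd ((Set.ncard_pos (Set.toFinite {x : G ⧸ N | x ^ m = 1})).2 ⟨1, one_pow m⟩) (frob_one h1)
    have h4 := Set.ncard_le_ncard h2 (Set.toFinite _)
    have h5 := Nat.le_of_dvd Nat.card_pos (Nat.gcd_dvd_right n (Nat.card N))
    have h6 := ncard_comap sf {x | x ^ m = 1}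
    rw [QuotientGroup.ker_mk'] at h6
    have h7 : n ≤ m * Nat.card N := by rw [mul_comm]; exact hm.le.trans (Nat.mul_le_mul_right _ h5)
    obtain ⟨H, hH⟩ := ih _ lt _ rfl m h1 (le_antisymm (Nat.le_of_mul_le_mul_right
      ((h6 ▸ h ▸ h4 :).trans h7) Nat.card_pos) h3)
    exact ⟨H.comap (QuotientGroup.mk' N), by
      rw [coe_comap, hH]
      exact Set.eq_of_subset_of_ncard_le h2 (h.le.trans (h6 ▸ h7.trans (Nat.mul_le_mul_right _ h3)))⟩
  have hc := coprime_of_pgroup pg hpn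
  have h1 : n ∣ Nat.card (G ⧸ N) := hc.symm.dvd_of_dvd_mul_right (e ▸ hn)
  have h3 := Nat.le_of_dvd ((Set.ncard_pos (Set.toFinite {x : G ⧸ N | x ^ n = 1})).2 ⟨1, one_pow n⟩) (frob_one h1)
  have h4 : {x : G ⧸ N | x ^ n = 1} ⊆ QuotientGroup.mk' N '' {x | x ^ n = 1} := fun y hy => by
    obtain ⟨x, rfl⟩ := sf y
    obtain ⟨a, ha, h1, h2⟩ := exists_pi_lift (QuotientGroup.mk' N) (π := {p}ᶜ) (x := x)
      ((piN_compl_singleton hp).2 fun h => hpn (h.trans (orderOf_dvd_of_pow_eq_one hy)))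
    exact ⟨a, eq_one_of_coprime_order pg ((QuotientGroup.eq_one_iff _).1 (h2 ▸ hy :
      QuotientGroup.mk' N a ^ n = 1)) ((piN_compl_singleton' hp).1 (h1.of_dvd (orderOf_pow_dvd n))), h2⟩
  have h5 := le_antisymm (((Set.ncard_le_ncard h4 (Set.toFinite _)).trans
    (Set.ncard_image_le (Set.toFinite _))).trans h.le) h3
  obtain ⟨H, hH⟩ := ih _ lt _ rfl n h1 h5
  have h6 : N.relIndex (H.comap (QuotientGroup.mk' N)) = n := by
    rw [← card_map_mk', map_comap_mk', ← ncard_coe, hH, h5]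
  obtain ⟨K, -, -, -, hK⟩ := exists_compl (le_comap_mk' N H) le_normalizer_of_normal (h6 ▸ hc)
  exact ⟨K, Set.eq_of_subset_of_ncard_le (fun x hx => orderOf_dvd_iff_pow_eq_one.1
    (h6 ▸ hK ▸ orderOf_dvd_of_mem hx)) (by rw [h, ncard_coe, hK, h6])⟩

/-- If `G` is a finite solvable group and `n` divides the order of `G` and exactly `n` elements `x` of `G` satisfy `x^n = 1`, then these elements form a normal subgroup. -/
theorem result {G : Type*} [Group G] [Finite G] [Group.IsSolvable G] (n : ℕ) (hn : n ∣ Nat.card G) (hcount : Nat.card {x : G // x ^ n = 1} = n) : ∃ H : Subgroup G, H.Normal ∧ (H : Set G) = {x : G | x ^ n = 1} := by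
  obtain ⟨H, hH⟩ := aux _ G rfl n hn hcount
  exact ⟨H, ⟨fun x hx g => hH.ge (by simp [show x ^ n = 1 from hH.le hx])⟩, hH⟩

end Cfsg.Agent.S4213
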