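import Cfsg.Statements.S4214
import Mathlib
import Cfsg.Agent.L0.HallN

set_option autoImplicit false
open Cfsg

namespace Cfsg.Agent.S4214

open Cfsg Subgroup CfsgH2 CfsgL0

/-- Let `G` be a finite solvable group of order `mn` with `gcd(m, n) = 1`. Then the number of subgroups of order `m` is a product of natural numbers each of which is a power of a prime, divides the order of some chief factor of `G` (a quotient `L/K` of normal subgroups `K < L` of `G` with no normal subgroup of `G` strictly between them), and is congruent to `1` modulo some prime divisor of `m`. -/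
theorem result {G : Type*} [Group G] [Finite G] [Group.IsSolvable G] (m n : ℕ) (hG : Nat.card G = m * n) (hmn : Nat.Coprime m n) : ∃ (k : ℕ) (f : Fin k → ℕ), Nat.card {H : Subgroup G // Nat.card H = m} = ∏ i, f i ∧ ∀ i, (∃ q e : ℕ, q.Prime ∧ f i = q ^ e) ∧ (∃ K L : Subgroup G, K.Normal ∧ L.Normal ∧ K < L ∧ (∀ M : Subgroup G, M.Normal → K ≤ M → M ≤ L → M = K ∨ M = L) ∧ f i ∣ K.relIndex L) ∧ (∃ q : ℕ, q.Prime ∧ q ∣ m ∧ f i ≡ 1 [MOD q]) := by
  obtain ⟨H, hH⟩ := exists_hall (M := (⊤ : Subgroup G)) {p | p ∣ m} inferInstance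
  have hh : ∀ K : Subgroup G, Nat.card K = m → Hall {p | p ∣ m} K ⊤ := fun K hK => by
    refine hK ▸ hall_of_coprime le_top ?_
    have := K.card_mul_index
    rw [hK, hG] at this
    have m0 : 0 < m := hK ▸ Nat.card_pos
    rwa [relIndex_top_right, Nat.eq_of_mul_eq_mul_left m0 this, hK]
  have hm : Nat.card H = m := by
    refine Nat.dvd_antisymm ?_ (hH.dvd_card PiN.self (by rw [card_top, hG]; exact dvd_mul_right _ _))
    exact (PiN.coprime hH.pi (PiN.of_coprime hmn)).dvd_of_dvd_mul_right (hG ▸ card_subgroup_dvd_card H)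
  have h1 : Nat.card {H : Subgroup G // Nat.card H = m} = N[H].index := by
    rw [← card_conj_subgroup]
    refine Nat.card_congr (Equiv.subtypeEquivRight fun K => ⟨fun hK => ?_, ?_⟩)
    · obtain ⟨g, -, e⟩ := hH.conj inferInstance (hh K hK); exact ⟨g, e⟩
    · rintro ⟨g, rfl⟩; rw [card_map_cj, hm]
  obtain ⟨l, hl, e⟩ := Submonoid.exists_list_of_mem_closure (hall_index_mem hH)
  refine ⟨l.length, l.get, by rw [h1, ← e, ← List.prod_ofFn, List.ofFn_get], fun i => ?_⟩
  obtain ⟨a, ⟨U, V, h, hd⟩, c⟩ := hl _ (l.get_mem i)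
  exact ⟨a, ⟨V, U, top_le_norm_iff.1 h.nY, top_le_norm_iff.1 h.nX, h.lt,
    fun M hM h1 h2 => h.min M h1 h2 (top_le_norm_iff.2 hM), hd⟩, hm ▸ c⟩

end Cfsg.Agent.S4214
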