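import Cfsg.Statements.S4216
import Cfsg.Agent.H1.Misc1
import Cfsg.Agent.H2.BG0
import Cfsg.Agent.H2.Misc

set_option autoImplicit false
open Cfsg

namespace Cfsg.Agent.S4216

section
open Subgroup CfsgH2
open CfsgH1 hiding card_inf_mul_relIndex card_lt_of_lt card_lt_of_ne_top card_map_mul_card_inf_ker card_mul_relIndex card_subgroupOf card_sup_dvd card_sup_mul_card_inf coprime_le_sup_cent exists_card_prime_le isNilpotent_map isNilpotent_of_le isPGroup_pCore isSolvable_map isSolvable_of_le le_pCore le_pPrimeCore relIndex_map_dvd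
open scoped CfsgH1
open scoped commutatorElement

open scoped commutatorElement
variable {G : Type*} [Group G] [Finite G] {p : ℕ} [Fact p.Prime] {P K : Subgroup G}

def T (D K : Subgroup G) : Subgroup G where
  carrier := {x | x ∈ N[D] ∧ ∀ u ∈ D, u * (x * u * x⁻¹)⁻¹ ∈ K}
  one_mem' := ⟨one_mem _, fun u _ => by simp⟩
  mul_mem' := fun {x y} hx hy => ⟨mul_mem hx.1 hy.1, fun u hu => by
    convert mul_mem (hy.2 u hu) (hx.2 _ (conj_mem_of_norm hy.1 hu)) using 1; group⟩
  inv_mem' := fun {x} hx => ⟨inv_mem hx.1, fun u hu => by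
    convert inv_mem (hx.2 _ (conj_mem_of_norm' hx.1 hu)) using 1; group⟩

theorem main (hP : Syl p P ⊤) (h1 : P ⊓ ⁅N[P], N[P]⁆ ≤ K) (h2 : ∀ z : G, P ⊓ ⁅P, P⁆.map (cj z) ≤ K) (n : ℕ) :
    ∀ U : Subgroup G, U.index = n → U ≤ P → ∀ g : G, U.map (cj g⁻¹) ≤ P → ∀ u ∈ U, u * (g⁻¹ * u * g⁻¹⁻¹)⁻¹ ∈ K := by
  induction n using Nat.strong_induction_on with
  | _ n ih =>
  have key : ∀ D : Subgroup G, D.index ≤ n → D ≤ P → Syl p (P ⊓ N[D]) N[D] → N[D] ≤ T D K := fun D hn hD hS x hx => by
    rcases hD.eq_or_lt with rfl | lt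
    · exact ⟨hx, fun u hu => h1 <| mem_inf.2 ⟨mul_mem hu (inv_mem (conj_mem_of_norm hx hu)), by
        convert commutator_mem_commutator (le_normalizer hu) hx using 1; group⟩⟩
    have a : ∀ R : Subgroup G, PG[p, R] → R ≤ N[D] → R ≤ T D K := fun R hR l y hy => ⟨l hy, fun u hu => by
      obtain ⟨z, -, hz⟩ := hP.exists_le_conj (isPGroup_sup (hP.pg.to_le hD) hR (Or.inr l)) le_top
      refine h2 z (mem_inf.2 ⟨hD (mul_mem hu (inv_mem (conj_mem_of_norm (l hy) hu))), ?_⟩)
      rw [map_commutator]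
      convert commutator_mem_commutator (hz (mem_sup_left hu)) (hz (mem_sup_right hy)) using 1; group⟩
    have l : T D K ≤ N[D] := fun _ h => h.1
    have s1 := hS.mono (a _ hS.pg hS.le) l
    have s2 := hS.map_cj_mem hx
    obtain ⟨t, ht, e⟩ := (s2.mono (a _ s2.pg s2.le) l).conj s1
    rw [map_cj_cj] at e
    refine (mul_mem_cancel_left ht).1 ⟨mul_mem (l ht) hx, fun u hu => ?_⟩
    have := ih _ ((index_lt_of_lt (lt_inf_norm hP.pg.isNilpotent lt)).trans_le hn) _ rfl inf_le_left (t * x)⁻¹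
      (by rw [inv_inv, e]; exact inf_le_left) u ⟨hD hu, le_normalizer hu⟩
    rwa [inv_inv] at this
  intro U hU l g hg
  have c := alperin hP _ U rfl g l hg
  clear l hg
  induction c with
  | nil U => intro u _; simp
  | cons U Q x g _ k2 _ k4 k5 _ ih2 =>
    intro u hu
    have := (key _ (hU ▸ Nat.le_of_dvd (index_pos _) (index_dvd_of_le k5)) inf_le_left k2 (inv_mem k4)).2 u (k5 hu)
    convert mul_mem this (ih2 (by rwa [index_map_cj]) _ (conj_mem_map_cj hu)) using 1; group

end

/-- Grün's first Theorem: if `P` is a Sylow `p`-subgroup of the finite group `G`, then `P ∩ G'` is the subgroup generated by `P ∩ N_G(P)'` together with the subgroups `P ∩ z P' z⁻¹` for all `z ∈ G`, where `'` denotes the derived subgroup and `N_G(P)` the normalizer of `P`. -/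
theorem result {G : Type*} [Group G] [Finite G] {p : ℕ} [Fact p.Prime] (P : Sylow p G) : (P : Subgroup G) ⊓ commutator G = ((P : Subgroup G) ⊓ ⁅Subgroup.normalizer ((P : Subgroup G) : Set G), Subgroup.normalizer ((P : Subgroup G) : Set G)⁆) ⊔ ⨆ z : G, (P : Subgroup G) ⊓ (⁅(P : Subgroup G), (P : Subgroup G)⁆).map (MulAut.conj z).toMonoidHom := by
  open Subgroup CfsgH2 in
  open CfsgH1 hiding card_inf_mul_relIndex card_lt_of_lt card_lt_of_ne_top card_map_mul_card_inf_ker card_mul_relIndex card_subgroupOf card_sup_dvd card_sup_mul_card_inf coprime_le_sup_cent exists_card_prime_le isNilpotent_map isNilpotent_of_le isPGroup_pCore isSolvable_map isSolvable_of_le le_pCore le_pPrimeCore relIndex_map_dvd in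
  open scoped CfsgH1 in
  open scoped commutatorElement in
  · refine le_antisymm (inf_comm P.1 _ ▸ (syl_top P).focal_le fun x hx u _ h => ?_) (sup_le (inf_le_inf_left _ (commutator_mono le_top le_top))
      (iSup_le fun z => inf_le_inf_left _ ((map_commutator _ _ _).le.trans (commutator_mono le_top le_top))))
    have := main (syl_top P) le_sup_left (fun z => le_sup_of_le_right (le_iSup_of_le z le_rfl)) _ (zpowers x) rfl (zpowers_le.2 hx) u⁻¹
      (by rwa [inv_inv, MonoidHom.map_zpowers, zpowers_le]) x (mem_zpowers x)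
    rwa [inv_inv] at this

end Cfsg.Agent.S4216
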