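import Cfsg.Statements.S4217
import Cfsg.Agent.H1.KW
import Cfsg.Agent.H1.Gasch
import Cfsg.Agent.H1.Frob2
import Cfsg.Agent.H2.MaxCl2
import Cfsg.Agent.H1.SS2

set_option autoImplicit false
open Cfsg

namespace Cfsg.Agent.S4217

/-- Let `A` be an abelian normal subgroup of the finite group `G`. Then `A` has a complement in `G` if and only if, for every prime `p` dividing the index of `A`, there are a Sylow `p`-subgroup `S` of `G/A` and a subgroup `K` of `G` with `K ∩ A = 1` and `KA` equal to the preimage of `S` (that is, `A` has a complement in the preimage of a Sylow `p`-subgroup of `G/A`). -/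
theorem result {G : Type*} [Group G] [Finite G] (A : Subgroup G) [A.Normal] (hA : IsMulCommutative A) : (∃ K : Subgroup G, K.IsComplement' A) ↔ ∀ p : ℕ, p.Prime → p ∣ A.index → ∃ (S : Sylow p (G ⧸ A)) (K : Subgroup G), K ⊓ A = ⊥ ∧ K ⊔ A = (S : Subgroup (G ⧸ A)).comap (QuotientGroup.mk' A) := by
  open Pointwise Subgroup CfsgH1 in
  open CfsgH2 hiding card_inf_mul_relIndex card_lt_of_lt card_lt_of_ne_top card_map_mul_card_inf_ker card_mul_relIndex card_subgroupOf card_sup_dvd card_sup_mul_card_inf exists_card_prime_le isNilpotent_map isNilpotent_of_le isPGroup_pCore isSolvable_map isSolvable_of_le le_pCore le_pPrimeCore relIndex_map_dvd in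
  open scoped CfsgH2 in
  open scoped commutatorElement in
  · refine ⟨fun ⟨K, h⟩ p hp _ => ?_, fun h => ?_⟩
    · haveI := Fact.mk hp
      obtain ⟨S⟩ : Nonempty (Sylow p (G ⧸ A)) := inferInstance
      refine ⟨S, K ⊓ (S : Subgroup (G ⧸ A)).comap (QuotientGroup.mk' A), ?_, ?_⟩
      · rw [inf_right_comm, h.disjoint.eq_bot, bot_inf_eq]
      · rw [← sup_inf_of_norm' (.inl le_normalizer_of_normal) (le_comap_mk _ _), h.sup_eq_top, top_inf_eq]
    · obtain ⟨H, h⟩ := gaschutz_local (K := A) fun p hp hd => by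
        haveI := Fact.mk hp
        obtain ⟨S, K, h1, h2⟩ := h p hp hd
        exact ⟨K, h1, by rw [sup_comm, h2, index_comap_mk']; exact S.not_dvd_index⟩
      exact ⟨H, h.symm⟩

end Cfsg.Agent.S4217
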