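import Cfsg.Statements.S4218
import Mathlib
import Cfsg.Agent.H9.Tb4

set_option autoImplicit false
open Cfsg

namespace Cfsg.Agent.S4218

/-- Let `G` be a finite `p`-solvable group, `N₀ = O_{p'}(G)`, `P₁ = O_{p',p}(G)`, and let `F ≤ P₁` be the preimage of the Frattini subgroup of `P₁/N₀`. Then an element `g` of `G` induces the identity on `P₁/F` by conjugation (that is, `g x g⁻¹ x⁻¹ ∈ F` for all `x ∈ P₁`) if and only if `g ∈ P₁`: the group `G/P₁` acts faithfully on `P₁/F`. -/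
theorem result {G : Type*} [Group G] [Finite G] {p : ℕ} [Fact p.Prime] (hG : Cfsg.IsPSolvable p G) (g : G) : (∀ x ∈ Cfsg.pPrimePCore p G, g * x * g⁻¹ * x⁻¹ ∈ ((frattini (↥(Cfsg.pPrimePCore p G) ⧸ (Cfsg.pPrimeCore p G).subgroupOf (Cfsg.pPrimePCore p G))).comap (QuotientGroup.mk' ((Cfsg.pPrimeCore p G).subgroupOf (Cfsg.pPrimePCore p G)))).map (Cfsg.pPrimePCore p G).subtype) ↔ g ∈ Cfsg.pPrimePCore p G := by
  open Subgroup Cfsg CfsgH2 Function CfsgCP CfsgTB in
  open scoped commutatorElement in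
  let N₀ := (pPrimeCore p G).subgroupOf (pPrimePCore p G)
  let f := QuotientGroup.mk' (pPrimeCore p G)
  let ψ : pPrimePCore p G ⧸ N₀ →* G ⧸ pPrimeCore p G :=
    QuotientGroup.lift N₀ (f.comp (pPrimePCore p G).subtype) fun g hg => (QuotientGroup.eq_one_iff _).2 hg
  have i : Injective ψ := (injective_iff_map_eq_one _).2 fun g => QuotientGroup.induction_on g fun g a =>
    (QuotientGroup.eq_one_iff g).2 ((QuotientGroup.eq_one_iff (g : G)).1 a)
  have e : map ψ ⊤ = pCore p (G ⧸ pPrimeCore p G) := by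
    rw [← map_mk_top, map_map, ← map_comap_eq_self_of_surjective (QuotientGroup.mk'_surjective _)
      (pCore p _), ← map_subtype_top (comap _ _), map_map]
    rfl
  have pg : PG[p, (⊤ : Subgroup (pPrimePCore p G ⧸ N₀))] := (inj_isPGroup i).1 (e ▸ isPGroup_pCore)
  refine ⟨fun h => ?_, fun h x hx => ⟨⁅(⟨g, h⟩ : pPrimePCore p G), ⟨x, hx⟩⁆, ?_, rfl⟩⟩
  · refine le_core_of_phi (CfsgH1.IsPSolvable.quotient' hG _) (CfsgH1.pPrimeCore_quotient_pPrimeCore p)
      (A := zpowers (f g)) ?_ (mem_zpowers _)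
    haveI : Φ[pCore p (G ⧸ pPrimeCore p G)].Normal :=
      top_le_norm_iff.1 (le_normalizer_of_normal.trans norm_le_norm_phi)
    rw [← mk_bot, map_commutator, MonoidHom.map_zpowers, comm_eq_bot_iff, cent_zpowers]
    rintro _ ⟨y, hy, rfl⟩
    obtain ⟨x, rfl⟩ := QuotientGroup.mk'_surjective _ y
    obtain ⟨z, z1, z2⟩ := h x hy
    rw [mem_centralizer_singleton_iff, eq_comm, ← commutatorElement_eq_one_iff_mul_comm,
      ← map_commutatorElement, ← map_commutatorElement]
    refine (QuotientGroup.eq_one_iff _).2 ?_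
    rw [← e, ← map_phi ψ pg, CfsgH1.frattiniOf_top, commutatorElement_def, ← z2]
    exact ⟨_, z1, rfl⟩
  · rw [SetLike.mem_coe, mem_comap, map_commutatorElement, ← CfsgH1.frattiniOf_top]
    exact comm_le_phi (nil_of_pg pg) (commutator_mem_commutator trivial trivial)

end Cfsg.Agent.S4218
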