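import Cfsg.Statements.S4219
import Cfsg.Agent.H1.Misc1

set_option autoImplicit false
open Cfsg

namespace Cfsg.Agent.S4219

/-- Let a finite group `G` act `t`-fold transitively on a finite set, let `H` be the stabilizer of `t` distinct points and `P` a Sylow `p`-subgroup of `H`. Then the normalizer of `P` in `G` is `t`-fold transitive on the fixed points of `P`: any `t` distinct fixed points of `P` can be carried to any other `t` distinct fixed points of `P` by an element normalizing `P`. -/
theorem result {G : Type*} [Group G] [Finite G] {α : Type*} [Fintype α] [MulAction G α] {t : ℕ} (hG : MulAction.IsMultiplyPretransitive G α t) (x : Fin t ↪ α) {p : ℕ} [Fact p.Prime] (P : Sylow p (MulAction.stabilizer G x)) (a b : Fin t ↪ α) (ha : ∀ i, a i ∈ MulAction.fixedPoints ((P : Subgroup (MulAction.stabilizer G x)).map (MulAction.stabilizer G x).subtype) α) (hb : ∀ i, b i ∈ MulAction.fixedPoints ((P : Subgroup (MulAction.stabilizer G x)).map (MulAction.stabilizer G x).subtype) α) : ∃ g ∈ Subgroup.normalizer ((((P : Subgroup (MulAction.stabilizer G x)).map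 (MulAction.stabilizer G x).subtype) : Subgroup G) : Set G), g • a = b := by
  open Pointwise Subgroup CfsgH1 in
  open CfsgH2 hiding card_inf_mul_relIndex card_lt_of_lt card_lt_of_ne_top card_map_mul_card_inf_ker card_mul_relIndex card_subgroupOf card_sup_dvd card_sup_mul_card_inf exists_card_prime_le isNilpotent_map isNilpotent_of_le isPGroup_pCore isSolvable_map isSolvable_of_le le_pCore le_pPrimeCore relIndex_map_dvd in
  open scoped CfsgH2 in
  open scoped commutatorElement in
  · have hP := syl_sub P
    set K := (P : Subgroup (MulAction.stabilizer G x)).map (MulAction.stabilizer G x).subtype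
    have key : ∀ a : Fin t ↪ α, (∀ i, a i ∈ MulAction.fixedPoints K α) → ∃ g ∈ N[K], g • a = x := fun a ha => by
      obtain ⟨g, hg⟩ := hG.exists_smul_eq a x
      have h1 : K.map (cj g) ≤ MulAction.stabilizer G x := map_cj_le_iff'.2 fun k hk => by
        rw [MulAction.mem_stabilizer_iff, ← hg, mul_smul, mul_smul, inv_smul_smul]
        congr 1
        ext i
        exact ha i ⟨k, hk⟩
      obtain ⟨y, hy, e⟩ := hP.conj (hP.of_card_ge (hP.pg.map _) h1 (card_map_cj _ _).ge)
      exact ⟨y⁻¹ * g, map_cj_eq_map_cj_iff.1 e.symm, by rw [mul_smul, hg, inv_smul_eq_iff, hy]⟩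
    obtain ⟨g, hg, e⟩ := key a ha
    obtain ⟨g', hg', e'⟩ := key b hb
    exact ⟨g'⁻¹ * g, mul_mem (inv_mem hg') hg, by rw [mul_smul, e, inv_smul_eq_iff, e']⟩

end Cfsg.Agent.S4219
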