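import Cfsg.Statements.S4220
import Cfsg.Agent.S0711
import Cfsg.Agent.S0415
import Cfsg.Agent.H8.Jordan
import Cfsg.Agent.H1.SS2
import Cfsg.Agent.H2.Syl

set_option autoImplicit false
open Cfsg

open CfsgH2 Function Subgroup Equiv MulAction
open scoped commutatorElement Pointwise

namespace Cfsg.Agent.S4220

/-- restriction of an action to an invariant subtype -/
def res {A β : Type*} [Group A] [MulAction A β] (N : Subgroup A) (q : β → Prop)
    (h : ∀ g ∈ N, ∀ b, q b → q (g • b)) : N →* Perm {b // q b} where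
  toFun g := ⟨fun b => ⟨g.1 • b.1, h _ g.2 _ b.2⟩, fun b => ⟨g.1⁻¹ • b.1, h _ (inv_mem g.2) _ b.2⟩,
    fun b => by simp, fun b => by simp⟩
  map_one' := by ext; simp
  map_mul' a b := by ext; simp [mul_smul]

theorem cent_perm {β : Type*} [Fintype β] [DecidableEq β] (h : 3 ≤ Fintype.card β) {x : Perm β}
    (hx : ∀ y, x * y = y * x) : x = 1 := by
  ext a
  by_contra c
  replace c : x a ≠ a := c
  obtain ⟨d, hd⟩ : ∃ d, d ∉ ({a, x a} : Finset β) := by
    by_contra e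
    push Not at e
    have := Finset.card_le_two (a := a) (b := x a)
    rw [Finset.eq_univ_of_forall e, Finset.card_univ] at this
    omega
  simp only [Finset.mem_insert, Finset.mem_singleton, not_or] at hd
  have := congrArg (· a) (hx (swap (x a) d))
  simp only [Perm.mul_apply, swap_apply_left] at this
  rw [swap_apply_of_ne_of_ne (Ne.symm c) (Ne.symm hd.1)] at this
  exact hd.2 this.symm

section
variable {α : Type*} [Fintype α] [DecidableEq α] {G P : Subgroup (Perm α)} {p k r : ℕ}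
  {s : Finset α} {a b : α} {y g : Perm α}

theorem ext_perm {t : ℕ} (hG : IsMultiplyPretransitive G α t) (ht : t ≤ Fintype.card α)
    (s : Finset α) (hs : s.card ≤ t) (f : Perm α) : ∃ g ∈ G, ∀ a ∈ s, g a = f a := by
  haveI : IsMultiplyPretransitive G α s.card :=
    isMultiplyPretransitive_of_le hs (by rwa [Nat.card_eq_fintype_card])
  let x : Fin s.card ↪ α := s.equivFin.symm.toEmbedding.trans (Embedding.subtype _)
  obtain ⟨g, hg⟩ := exists_smul_eq G x (x.trans f.toEmbedding)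
  refine ⟨g, g.2, fun a ha => ?_⟩
  have := congrArg (fun e : Fin s.card ↪ α => e (s.equivFin ⟨a, ha⟩)) hg
  have e : g • a = f a := by simpa [x] using this
  exact e

open Classical in
/-- orbit as a finset -/
noncomputable def O (P : Subgroup (Perm α)) (a : α) : Finset α := Finset.univ.filter fun b => ∃ y ∈ P, y a = b

theorem mem_O : b ∈ O P a ↔ ∃ y ∈ P, y a = b := by simp [O]

theorem card_O : (O P a).card = (stabilizer (Perm α) a).relIndex P := by
  have e : (stabilizer (Perm α) a).subgroupOf P = stabilizer P a := by ext; rfl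
  rw [relIndex, e, index_stabilizer, ← Set.ncard_coe_finset]
  congr 1; ext b
  rw [Finset.mem_coe, mem_O]
  exact ⟨fun ⟨y, h1, h2⟩ => ⟨⟨y, h1⟩, h2⟩, fun ⟨y, h⟩ => ⟨y.1, y.2, h⟩⟩

theorem self_O : a ∈ O P a := mem_O.2 ⟨1, one_mem _, rfl⟩

theorem smul_O (hg : g ∈ N[P]) : g • O P a = O P (g a) := by
  ext b
  rw [Finset.mem_smul_finset, mem_O]
  constructor
  · rintro ⟨c, hc, rfl⟩
    obtain ⟨y, h1, rfl⟩ := mem_O.1 hc
    exact ⟨g * y * g⁻¹, conj_mem_of_norm hg h1, by simp⟩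
  · rintro ⟨y, h1, rfl⟩
    exact ⟨_, mem_O.2 ⟨g⁻¹ * y * g, conj_mem_of_norm' hg h1, rfl⟩, by simp⟩

theorem O_eq (h : b ∈ O P a) : O P b = O P a := by
  obtain ⟨y, h1, rfl⟩ := mem_O.1 h
  ext c
  simp only [mem_O]
  exact ⟨fun ⟨z, h2, h3⟩ => ⟨z * y, mul_mem h2 h1, h3⟩,
    fun ⟨z, h2, h3⟩ => ⟨z * y⁻¹, mul_mem h2 (inv_mem h1), by simpa using h3⟩⟩

/-- the standing situation -/
structure Sit (G P : Subgroup (Perm α)) (p k r : ℕ) (s : Finset α) : Prop where
  le : P ≤ G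
  pg : IsPGroup p P
  fix : ∀ y ∈ P, ∀ a ∈ s, y a = a
  cs : s.card = r
  cc : sᶜ.card = k * p
  co : ∀ a ∉ s, (O P a).card = p
  big : ∀ g ∈ G, g.support.card < 2 * r → g = 1
  cyc : ∀ g ∈ G, g.IsCycle → g.support.card ≠ p

variable [hp : Fact p.Prime] (h : Sit G P p k r s)
include h

theorem Sit.idx (ha : a ∉ s) : (P ⊓ stabilizer (Perm α) a).relIndex P = p := by
  rw [inf_relIndex_left, ← card_O, h.co a ha]

theorem Sit.nrm (ha : a ∉ s) : P ≤ N[P ⊓ stabilizer (Perm α) a] := by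
  refine CfsgH1.le_normalizer_of_relIndex_eq_minFac inf_le_left ?_
  obtain ⟨j, hj⟩ := IsPGroup.iff_card.1 h.pg
  have d := relIndex_dvd_card (P ⊓ stabilizer (Perm α) a) P
  rw [h.idx ha, hj] at d ⊢
  rw [hp.out.pow_minFac]
  rintro rfl
  exact hp.out.not_dvd_one (by simpa using d)

theorem Sit.kfix (ha : a ∉ s) (hy : y ∈ P) (e : y a = a) (hb : b ∈ O P a) : y b = b := by
  obtain ⟨z, h1, rfl⟩ := mem_O.1 hb
  have := (conj_mem_of_norm' (h.nrm ha h1) (show y ∈ P ⊓ stabilizer (Perm α) a from ⟨hy, e⟩)).2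
  have e2 : z⁻¹ (y (z a)) = a := this
  rw [← Perm.inv_eq_iff_eq, e2] 

theorem Sit.one (hg : g ∈ G) (hr : 0 < r) (e : ∀ a ∉ s, g a = a) : g = 1 :=
  h.big g hg (lt_of_le_of_lt (Finset.card_le_card (t := s) fun a ha => by_contra fun c =>
    Perm.mem_support.1 ha (e a c)) (by rw [h.cs]; omega))

theorem Sit.one' (hy : y ∈ P) (e : ∀ a ∉ s, y a = a) : y = 1 :=
  Equiv.ext fun a => by_cases (h.fix y hy a) (e a)

theorem Sit.exp (hy : y ∈ P) : y ^ p = 1 := h.one' (pow_mem hy _) fun a ha => by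
  have := pow_relIndex_mem' (h.nrm ha) hy
  rw [h.idx ha] at this
  exact this.2

theorem Sit.small (hy : y ∈ P) (e : y.support.card ≤ p) : y = 1 := by
  by_contra c
  have o := orderOf_eq_prime (h.exp hy) c
  have cy := Perm.isCycle_of_prime_order (o ▸ hp.out) (by have := hp.out.pos; omega)
  exact h.cyc y (h.le hy) cy (cy.orderOf.symm.trans o)

theorem Sit.O_sub (ha : a ∉ s) : O P a ⊆ sᶜ := fun b hb => by
  obtain ⟨y, h1, rfl⟩ := mem_O.1 hb
  exact Finset.mem_compl.2 fun c => ha ((y.injective (h.fix y h1 _ c)) ▸ c)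

theorem Sit.two (hk : k ≤ 3) (ha : a ∉ s) (hb : b ∉ s) (hab : b ∉ O P a) (hy : y ∈ P) (e1 : y a = a)
    (e2 : y b = b) : y = 1 := by
  refine h.small hy ?_
  have d : Disjoint (O P a) (O P b) := Finset.disjoint_left.2 fun c h1 h2 =>
    hab ((O_eq h1).symm.trans (O_eq h2) ▸ self_O)
  have s1 : y.support ⊆ sᶜ \ (O P a ∪ O P b) := fun c hc => by
    have hc := Perm.mem_support.1 hc
    refine Finset.mem_sdiff.2 ⟨Finset.mem_compl.2 fun x => hc (h.fix y hy c x), fun x => hc ?_⟩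
    exact (Finset.mem_union.1 x).elim (h.kfix ha hy e1) (h.kfix hb hy e2)
  have := Finset.card_le_card s1
  rw [Finset.card_sdiff_of_subset (Finset.union_subset (h.O_sub ha) (h.O_sub hb)),
    Finset.card_union_of_disjoint d, h.co a ha, h.co b hb, h.cc] at this
  have := Nat.mul_le_mul_right p hk
  omega

theorem Sit.dec (ha : a ∉ s) {z : Perm α} (hz : z ∈ P) (e : z a ≠ a) (hy : y ∈ P) :
    ∃ u ∈ P, u a = a ∧ ∃ j : ℤ, y = u * z ^ j := by
  have l : P ⊓ stabilizer (Perm α) a ⊔ zpowers z ≤ P := sup_le inf_le_left (zpowers_le.2 hz)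
  have m := relIndex_mul_relIndex _ _ _ le_sup_left l
  rw [h.idx ha] at m
  rcases (Nat.dvd_prime hp.out).1 (Dvd.intro _ m) with x | x
  · exact (e (relIndex_eq_one.1 x (le_sup_right (a := P ⊓ stabilizer (Perm α) a)
      (mem_zpowers z))).2).elim
  rw [x] at m
  have := relIndex_eq_one.1 (Nat.eq_of_mul_eq_mul_left hp.out.pos (m.trans (mul_one p).symm)) hy
  obtain ⟨u, hu, _, ⟨j, rfl⟩, rfl⟩ := (mem_sup_of_norm' ((zpowers_le.2 hz).trans (h.nrm ha))).1 this
  exact ⟨u, hu.1, hu.2, j, rfl⟩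

/-- elements normalizing `P` and stabilizing its orbits -/
def Gd (P : Subgroup (Perm α)) (s : Finset α) (g : Perm α) : Prop :=
  g ∈ N[P] ∧ ∀ a ∉ s, g⁻¹ a ∈ O P a

theorem Sit.cfix (hg : Gd P s g) (ha : a ∉ s) (hy : y ∈ P) (e : y a = a) : (g * y * g⁻¹) a = a := by
  rw [Perm.mul_apply, Perm.mul_apply, h.kfix ha hy e (hg.2 a ha)]; simp

theorem Sit.cexp (hr : 0 < r) (hG : g ∈ G) (hg : Gd P s g) (hc : ∀ y ∈ P, g * y = y * g) :
    g ^ p = 1 := by
  rw [← inv_eq_one, ← inv_pow]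
  refine h.one (pow_mem (inv_mem hG) _) hr fun a ha => ?_
  obtain ⟨y, h1, h2⟩ := mem_O.1 (hg.2 a ha)
  have c : Commute g⁻¹ y := (Commute.inv_left (hc y h1))
  have : ∀ j : ℕ, (g⁻¹ ^ j) a = (y ^ j) a := fun j => by
    induction j with
    | zero => rfl
    | succ j ih => rw [pow_succ, Perm.mul_apply, ← h2, ← Perm.mul_apply, (c.pow_left j).eq,
        Perm.mul_apply, ih, pow_succ', Perm.mul_apply]
  rw [this, h.exp h1]; rfl

theorem Sit.ab (hy : y ∈ P) {z : Perm α} (hz : z ∈ P) : Commute y z := by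
  refine commutatorElement_eq_one_iff_commute.1 (h.one' (mul_mem (mul_mem (mul_mem hy hz)
    (inv_mem hy)) (inv_mem hz)) fun a ha => ?_)
  by_cases e : z a = a
  · have := conj_mem_of_norm (h.nrm ha hy) (show z ∈ P ⊓ stabilizer (Perm α) a from ⟨hz, e⟩)
    exact (mul_mem this (inv_mem (show z ∈ P ⊓ stabilizer (Perm α) a from ⟨hz, e⟩))).2
  obtain ⟨u, hu, ua, j, rfl⟩ := h.dec ha hz e hy
  have k : u ∈ P ⊓ stabilizer (Perm α) a := ⟨hu, ua⟩
  have : ⁅u * z ^ j, z⁆ = u * (z * u⁻¹ * z⁻¹) := by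
    rw [commutatorElement_def]; group
  rw [this]
  exact (mul_mem k (conj_mem_of_norm (h.nrm ha hz) (inv_mem k))).2

theorem Sit.pw (hg : Gd P s g) (ha : a ∉ s) {z : Perm α} (hz : z ∈ P) (e : z a ≠ a) {i : ℤ}
    (hi : g * z * g⁻¹ = z ^ i) (hy : y ∈ P) : (g * y * g⁻¹ * (y ^ i)⁻¹) a = a := by
  obtain ⟨u, hu, ua, j, rfl⟩ := h.dec ha hz e hy
  have c := h.ab hu (zpow_mem hz j)
  have e1 : g * (u * z ^ j) * g⁻¹ = g * u * g⁻¹ * (z ^ j) ^ i := by
    rw [← zpow_mul, mul_comm j, zpow_mul, ← hi, conj_zpow]; group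
  rw [e1, c.mul_zpow, mul_inv_rev, mul_assoc, mul_inv_cancel_left]
  have k : u ∈ stabilizer (Perm α) a := ua
  exact mul_mem (show g * u * g⁻¹ ∈ stabilizer (Perm α) a from h.cfix hg ha hu ua)
    (inv_mem (zpow_mem k i))

theorem Sit.scal (hk : k ≤ 3) (hg : Gd P s g) : ∃ i : ℤ, ∀ y ∈ P, g * y * g⁻¹ = y ^ i := by
  by_cases c : ∃ z ∈ P, z ≠ 1 ∧ ∃ a ∉ s, z a = a
  · obtain ⟨z, hz, z1, a, ha, za⟩ := c
    have f : ∀ b ∉ s, b ∉ O P a → z b ≠ b := fun b hb x e => z1 (h.two hk ha hb x hz za e)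
    obtain ⟨b, hb, zb⟩ : ∃ b ∉ s, z b ≠ b := by
      by_contra x
      push Not at x
      exact z1 (h.one' hz x)
    obtain ⟨u, hu, ub, i, hi⟩ := h.dec hb hz zb (conj_mem_of_norm hg.1 hz)
    have ua : u a = a := by
      have k : z ∈ stabilizer (Perm α) a := za
      rw [← mul_inv_eq_iff_eq_mul] at hi
      rw [← hi]
      exact mul_mem (show g * z * g⁻¹ ∈ stabilizer (Perm α) a from h.cfix hg ha hz za)
        (inv_mem (zpow_mem k i))
    rw [h.two hk ha hb (fun x => zb (h.kfix ha hz za x)) hu ua ub, one_mul] at hi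
    refine ⟨i, fun y hy => mul_inv_eq_one.1 (h.small
      (mul_mem (conj_mem_of_norm hg.1 hy) (inv_mem (zpow_mem hy _))) ?_)⟩
    refine (Finset.card_le_card fun d hd => ?_).trans (h.co a ha).le
    by_contra x
    refine Perm.mem_support.1 hd (by_cases (h.fix _ (mul_mem (conj_mem_of_norm hg.1 hy)
      (inv_mem (zpow_mem hy _))) d) fun w => h.pw hg w hz (f d w x) hi hy)
  push Not at c
  by_cases p0 : ∃ z ∈ P, z ≠ 1
  · obtain ⟨z, hz, z1⟩ := p0
    obtain ⟨b, hb⟩ : ∃ b, b ∉ s := by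
      by_contra x
      push Not at x
      exact z1 (h.one' hz fun a ha => absurd (x a) ha)
    obtain ⟨u, hu, ub, i, hi⟩ := h.dec hb hz (c z hz z1 b hb) (conj_mem_of_norm hg.1 hz)
    rw [show u = 1 from by_contra fun x => c u hu x b hb ub, one_mul] at hi
    exact ⟨i, fun y hy => mul_inv_eq_one.1 (h.one' (mul_mem (conj_mem_of_norm hg.1 hy)
      (inv_mem (zpow_mem hy _))) fun a ha => h.pw hg ha hz (c z hz z1 a ha) hi hy)⟩
  push Not at p0
  exact ⟨0, fun y hy => by simp [p0 y hy]⟩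

theorem Sit.pw2 (hg : Gd P s g) (ha : a ∉ s) :
    ∃ i : ℤ, ∀ y ∈ P, ∃ v ∈ P, v a = a ∧ g * y * g⁻¹ = v * y ^ i := by
  obtain ⟨z, hz, e⟩ : ∃ z ∈ P, z a ≠ a := by
    by_contra x
    push Not at x
    exact hp.out.ne_one ((h.idx ha).symm.trans (relIndex_eq_one.2 fun z hz => ⟨hz, x z hz⟩))
  obtain ⟨v, hv, va, i, hi⟩ := h.dec ha hz e (conj_mem_of_norm hg.1 hz)
  refine ⟨i, fun y hy => ?_⟩
  obtain ⟨u, hu, ua, j, rfl⟩ := h.dec ha hz e hy
  have k1 : u ∈ P ⊓ stabilizer (Perm α) a := ⟨hu, ua⟩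
  have k2 : v ∈ P ⊓ stabilizer (Perm α) a := ⟨hv, va⟩
  have k3 : g * u * g⁻¹ ∈ P ⊓ stabilizer (Perm α) a :=
    ⟨conj_mem_of_norm hg.1 hu, h.cfix hg ha hu ua⟩
  have k := mul_mem (mul_mem k3 (zpow_mem k2 j)) (inv_mem (zpow_mem k1 i))
  refine ⟨_, k.1, k.2, ?_⟩
  have e1 : g * (u * z ^ j) * g⁻¹ = g * u * g⁻¹ * (v * z ^ i) ^ j := by
    rw [← hi, conj_zpow]; group
  rw [e1, (h.ab hu (zpow_mem hz j)).mul_zpow, (h.ab hv (zpow_mem hz i)).mul_zpow, ← zpow_mul,
    ← zpow_mul, mul_comm i j]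
  group

theorem Sit.half {c : Perm α} (hc : c ∈ N[P]) (ha : a ∉ s) (hy : y ∈ P) {i j : ℤ}
    (hi : ∀ y ∈ P, ∃ v ∈ P, v a = a ∧ g * y * g⁻¹ = v * y ^ i)
    (hj : ∀ y ∈ P, ∃ v ∈ P, v a = a ∧ c * y * c⁻¹ = v * y ^ j) :
    (g * (c * y * c⁻¹) * g⁻¹) a = (y ^ (j * i)) a := by
  obtain ⟨v, hv, va, e1⟩ := hi _ (conj_mem_of_norm hc hy)
  obtain ⟨w, hw, wa, e2⟩ := hj y hy
  have k : w ∈ stabilizer (Perm α) a := wa
  have k2 : (v * w ^ i) a = a := mul_mem (show v ∈ stabilizer (Perm α) a from va) (zpow_mem k i)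
  rw [e1, e2, (h.ab hw (zpow_mem hy j)).mul_zpow, ← mul_assoc, ← zpow_mul,
    (h.ab (mul_mem hv (zpow_mem hw i)) (zpow_mem hy _)).eq, Perm.mul_apply, k2]

omit h hp in
theorem cc_of {c : Perm α} (hg : g ∈ N[P]) (hc : c ∈ N[P])
    (e : ∀ y ∈ P, g * (c * y * c⁻¹) * g⁻¹ = c * (g * y * g⁻¹) * c⁻¹) : ⁅g, c⁆ ∈ C[P] := fun y hy => by
  have := e _ (conj_mem_of_norm' (mul_mem hc hg) hy)
  have e2 : c * (g * ((c * g)⁻¹ * y * (c * g)) * g⁻¹) * c⁻¹ = y := by group
  rw [e2] at this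
  rw [commutatorElement_def]
  conv_lhs => rw [← this]
  group

theorem Sit.cm1 {c : Perm α} (hg : Gd P s g) (hc : Gd P s c) : ⁅g, c⁆ ∈ C[P] :=
  cc_of hg.1 hc.1 fun y hy => Equiv.ext fun a => by
    by_cases ha : a ∈ s
    · rw [h.fix _ (conj_mem_of_norm hg.1 (conj_mem_of_norm hc.1 hy)) a ha,
        h.fix _ (conj_mem_of_norm hc.1 (conj_mem_of_norm hg.1 hy)) a ha]
    obtain ⟨i, hi⟩ := h.pw2 hg ha
    obtain ⟨j, hj⟩ := h.pw2 hc ha
    rw [h.half hc.1 ha hy hi hj, h.half hg.1 ha hy hj hi, mul_comm]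

theorem Sit.cm2 (hk : k ≤ 3) {c : Perm α} (hg : Gd P s g) (hc : c ∈ N[P]) : ⁅g, c⁆ ∈ C[P] := by
  obtain ⟨i, hi⟩ := h.scal hk hg
  refine cc_of hg.1 hc fun y hy => ?_
  rw [hi _ (conj_mem_of_norm hc hy), hi y hy, conj_zpow]

theorem Sit.inv (hg : g ∈ N[P]) (ha : a ∈ s) : g a ∈ s := by
  by_contra c
  refine hp.out.ne_one ((h.idx c).symm.trans (relIndex_eq_one.2 fun z hz => ⟨hz, ?_⟩))
  have e : g⁻¹ (z (g a)) = a := h.fix _ (conj_mem_of_norm' hg hz) a ha
  show z (g a) = g a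
  rw [← Perm.inv_eq_iff_eq, e]

theorem Sit.main (hk : 2 ≤ k) (hpk : k < p) (hrk : k < r)
    (w : ∀ f : Perm α, (∀ a ∈ s, f a ∈ s) → ∃ g ∈ G ⊓ N[P], ∀ a ∈ s, g a = f a) :
    p = 3 ∧ k = 2 ∧ r = 3 := by
  classical
  let φ := res (G ⊓ N[P]) (fun a : α => a ∈ s) fun g hg a ha => h.inv hg.2 ha
  let ψ := res (G ⊓ N[P]) (fun T : Finset α => T ∈ sᶜ.image (O P)) fun g hg T hT => by
    obtain ⟨a, ha, rfl⟩ := Finset.mem_image.1 hT
    refine Finset.mem_image.2 ⟨g a, Finset.mem_compl.2 fun x => Finset.mem_compl.1 ha ?_,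
      (smul_O hg.2).symm⟩
    simpa using h.inv (inv_mem hg.2) x
  have sf : Surjective φ := fun σ => by
    obtain ⟨g, hg, e⟩ := w (Perm.ofSubtype σ) fun a ha => by
      rw [Perm.ofSubtype_apply_of_mem σ ha]; exact (σ ⟨a, ha⟩).2
    refine ⟨⟨g, hg⟩, Equiv.ext fun a => Subtype.ext ?_⟩
    show g a.1 = _
    rw [e a.1 a.2, Perm.ofSubtype_apply_of_mem σ a.2]
  have gd : ∀ c ∈ ψ.ker, Gd P s c.1 := fun c hc => ⟨c.2.2, fun a ha => by
    have := congrArg (fun e : Perm _ => (e ⟨O P a, Finset.mem_image_of_mem _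
      (Finset.mem_compl.2 ha)⟩).1) (MonoidHom.mem_ker.1 (inv_mem hc))
    have e : c.1⁻¹ • O P a = O P a := this
    rw [smul_O (inv_mem c.2.2)] at e
    exact e ▸ self_O⟩
  have cq : (sᶜ.image (O P)).card ≤ k := by
    have := Finset.mul_card_image_le_card (f := O P) sᶜ p fun T hT => by
      obtain ⟨a, ha, rfl⟩ := Finset.mem_image.1 hT
      refine (h.co a (Finset.mem_compl.1 ha)).ge.trans (Finset.card_le_card fun b hb => ?_)
      exact Finset.mem_filter.2 ⟨h.O_sub (Finset.mem_compl.1 ha) hb, O_eq hb⟩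
    rw [h.cc, mul_comm k] at this
    exact Nat.le_of_mul_le_mul_left this hp.out.pos
  have cs : Fintype.card {a // a ∈ s} = r := by rw [Fintype.card_coe, h.cs]
  have cp : Nat.card (Perm {a // a ∈ s}) = r.factorial := by
    rw [Nat.card_eq_fintype_card, Fintype.card_perm, cs]
  haveI nX : (ψ.ker.map φ).Normal := Normal.map inferInstance φ sf
  have x0 : ψ.ker.map φ ≠ ⊥ := fun e => by
    have d := index_dvd_of_le ((Subgroup.map_eq_bot_iff _).1 e)
    rw [index_ker, index_ker, MonoidHom.range_eq_top.2 sf, card_top, cp] at d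
    have d2 := d.trans (card_subgroup_dvd_card ψ.range)
    rw [Nat.card_eq_fintype_card, Fintype.card_perm, Fintype.card_coe] at d2
    exact ((Nat.le_of_dvd (Nat.factorial_pos _) d2).trans (Nat.factorial_le cq)).not_gt
      ((Nat.factorial_lt (by omega)).2 hrk)
  have key : ∀ W : Subgroup (G ⊓ N[P] : Subgroup (Perm α)), W ≤ ψ.ker →
      W ≤ C[P].comap (Subgroup.subtype _) → IsPGroup p (W.map φ) := fun W w1 w2 =>
    IsPGroup.map (isPGroup_of_exp fun c hc => Subtype.ext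
      (h.cexp (by omega) c.2.1 (gd c (w1 hc)) fun y hy => (w2 hc y hy).symm)) φ
  by_cases r5 : 5 ≤ r
  · exfalso
    have c5 : 5 ≤ Nat.card {a // a ∈ s} := by rwa [Nat.card_eq_fintype_card, cs]
    have l := Perm.alternatingGroup_le_of_normal c5 ((nontrivial_iff_ne_bot _).2 x0)
    have a1 := key ⁅ψ.ker, ψ.ker⁆ (commutator_le_left _ _)
      (commutator_le.2 fun a ha b hb => h.cm1 (gd a ha) (gd b hb))
    rw [map_commutator] at a1
    have a2 := a1.to_le (commutator_mono l l)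
    rw [commutator_alternatingGroup_eq_self c5] at a2
    haveI : Nontrivial {a // a ∈ s} := Finite.one_lt_card_iff_nontrivial.1 (by omega)
    have t := two_mul_nat_card_alternatingGroup (α := {a // a ∈ s})
    obtain ⟨j, hj⟩ := IsPGroup.iff_card.1 a2
    rw [cp, hj] at t
    have d : 2 * 2 ∣ 2 * p ^ j := t ▸ Nat.dvd_factorial (by omega) (by omega)
    have := (Nat.prime_dvd_prime_iff_eq Nat.prime_two hp.out).1
      (Nat.prime_two.dvd_of_dvd_pow (Nat.dvd_of_mul_dvd_mul_left two_pos d))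
    omega
  have a1 := key ⁅ψ.ker, ⊤⁆ (commutator_le_left _ _)
    (commutator_le.2 fun a ha b _ => h.cm2 (by omega) (gd a ha) b.2.2)
  rw [map_commutator, map_top_of_surjective _ sf] at a1
  have d := dvd_card_of_pgroup a1 fun e => x0 (eq_bot_iff.2 fun x hx => mem_bot.2
    (cent_perm (by omega) fun y =>
      (commutator_eq_bot_iff_le_centralizer.1 e hx y (mem_top y)).symm))
  have d2 := hp.out.dvd_factorial.1 (cp ▸ d.trans (card_subgroup_dvd_card _))
  have p4 : p ≠ 4 := by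
    rintro rfl
    exact absurd hp.out (by norm_num)
  refine ⟨by omega, by omega, by_contra fun r3 => ?_⟩
  obtain ⟨a, ha⟩ : sᶜ.Nonempty := Finset.card_pos.1 (h.cc ▸ Nat.mul_pos (by omega) hp.out.pos)
  have ha := Finset.mem_compl.1 ha
  refine hp.out.ne_one ((h.idx ha).symm.trans (relIndex_eq_one.2 fun z hz => ⟨hz, ?_⟩))
  have : z.support.card ≤ k * p := h.cc ▸ Finset.card_le_card fun b hb =>
    Finset.mem_compl.2 fun x => Perm.mem_support.1 hb (h.fix z hz b x)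
  have e1 : k = 2 := by omega
  have e2 : p = 3 := by omega
  rw [h.big z (h.le hz) (by rw [e1, e2] at this; omega)]
  exact one_mem _
end

/-- Let `n = kp + r` with `p` prime, `1 ≤ k < p` and `r > k`, excluding the case `k = 1, r = 2`. Then a permutation group of degree `n` that is `(r + 1)`-fold transitive contains the alternating group. -/
theorem result {α : Type*} [Fintype α] [DecidableEq α] (G : Subgroup (Equiv.Perm α)) {k p r : ℕ} (hp : p.Prime) (hn : Fintype.card α = k * p + r) (hk : 1 ≤ k) (hpk : k < p) (hrk : k < r) (hex : ¬ (k = 1 ∧ r = 2)) (hG : MulAction.IsMultiplyPretransitive G α (r + 1)) : alternatingGroup α ≤ G := by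
  classical
  haveI := Fact.mk hp
  by_contra hA
  have r3 : 3 ≤ r := by omega
  have kp : 0 < k * p := Nat.mul_pos hk hp.pos
  have kp2 : p ≤ k * p := Nat.le_mul_of_pos_left p hk
  have big : ∀ g ∈ G, g.support.card < 2 * r → g = 1 := fun g hg c => by_contra fun g1 =>
    hA (Cfsg.Agent.S0711.result G (k := r + 1) (by omega) (by omega) hG g hg g1 (by omega)).2
  obtain ⟨s, -, hs⟩ := Finset.exists_subset_card_eq (s := (Finset.univ : Finset α)) (n := r)
    (by rw [Finset.card_univ]; omega)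
  let H : Subgroup (Perm α) := G ⊓ fixingSubgroup (Perm α) (s : Set α)
  have mH : ∀ {g}, g ∈ H ↔ g ∈ G ∧ ∀ a ∈ s, g a = a := fun {g} =>
    and_congr Iff.rfl (mem_fixingSubgroup_iff (Perm α))
  obtain ⟨P, hP, -⟩ := exists_syl_ge (p := p) (M := H) IsPGroup.of_bot bot_le
  have cc : sᶜ.card = k * p := by rw [Finset.card_compl, hs]; omega
  have oH : ∀ a ∉ s, O H a = sᶜ := fun a ha => by
    ext b
    rw [mem_O, Finset.mem_compl]
    refine ⟨?_, fun hb => ?_⟩
    · rintro ⟨y, h1, rfl⟩ c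
      exact ha ((y.injective ((mH.1 h1).2 _ c)) ▸ c)
    obtain ⟨g, g1, g2⟩ := ext_perm hG (by omega) (insert a s)
      (by rw [Finset.card_insert_of_notMem ha, hs]) (swap a b)
    refine ⟨g, mH.2 ⟨g1, fun c hc => ?_⟩, ?_⟩
    · rw [g2 c (Finset.mem_insert_of_mem hc), swap_apply_of_ne_of_ne
        (fun x : c = a => ha (x ▸ hc)) fun x : c = b => hb (x ▸ hc)]
    · rw [g2 a (Finset.mem_insert_self _ _), swap_apply_left]
  have co : ∀ a ∉ s, (O P a).card = p := fun a ha => by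
    obtain ⟨j, hj⟩ := hP.pg.index ((stabilizer (Perm α) a).subgroupOf P)
    have e : (O P a).card = p ^ j := card_O.trans hj
    have l : (O P a).card ≤ k * p := cc ▸ oH a ha ▸ Finset.card_le_card fun b hb => by
      obtain ⟨y, h1, h2⟩ := mem_O.1 hb
      exact mem_O.2 ⟨y, hP.le h1, h2⟩
    have j0 : j ≠ 0 := by
      rintro rfl
      refine hP.not_dvd_of_le (relIndex_eq_one.1 (card_O.symm.trans (e.trans (pow_zero p)))) ?_
      rw [← card_O, oH a ha, cc]
      exact Dvd.intro_left _ rfl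
    have : p ^ j < p ^ 2 := by
      rw [← e, sq]; exact l.trans_lt (Nat.mul_lt_mul_of_pos_right hpk hp.pos)
    have := (Nat.pow_lt_pow_iff_right hp.one_lt).1 this
    rw [e, show j = 1 by omega, pow_one]
  haveI : IsMultiplyPretransitive G α 2 :=
    isMultiplyPretransitive_of_le (n := r + 1) (by omega) (by rw [Nat.card_eq_fintype_card]; omega)
  have h : Sit G P p k r s := ⟨hP.le.trans inf_le_left, hP.pg, fun y hy => (mH.1 (hP.le hy)).2, hs, cc,
    co, big, fun g hg c e => hA (CfsgH8.alternatingGroup_le_of_prime_cycle G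
      (isPreprimitive_of_is_two_pretransitive this) hp (by omega) c e hg)⟩
  by_cases k1 : k = 1
  · obtain ⟨a, ha⟩ : sᶜ.Nonempty := Finset.card_pos.1 (cc ▸ kp)
    have ha := Finset.mem_compl.1 ha
    refine hp.ne_one ((h.idx ha).symm.trans (relIndex_eq_one.2 fun z hz => ⟨hz, ?_⟩))
    have : z.support.card ≤ k * p := cc ▸ Finset.card_le_card fun b hb =>
      Finset.mem_compl.2 fun x => Perm.mem_support.1 hb (h.fix z hz b x)
    rw [h.small hz (by rwa [k1, one_mul] at this)]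
    exact one_mem _
  obtain ⟨rfl, rfl, rfl⟩ := h.main (by omega) hpk hrk fun f hf => by
    obtain ⟨g, g1, g2⟩ := ext_perm hG (by omega) s (by omega) f
    have gn : g ∈ N[H] := mem_norm_of_conj fun y hy => mH.2
      ⟨mul_mem (mul_mem g1 (mH.1 hy).1) (inv_mem g1), fun a ha => by
        rw [Perm.mul_apply, Perm.mul_apply, (mH.1 hy).2 (g⁻¹ a) (Perm.perm_symm_on_of_perm_on_finset
          (fun x hx => g2 x hx ▸ hf x hx) ha)]
        simp⟩
    obtain ⟨u, hu, n, hn, rfl⟩ := hP.frattini gn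
    refine ⟨n, ⟨(G.mul_mem_cancel_left (mH.1 hu).1).1 g1, hn⟩, fun a ha => u.injective ?_⟩
    rw [← Perm.mul_apply, g2 a ha, (mH.1 hu).2 _ (hf a ha)]
  have := Cfsg.Agent.S0415.result G (by omega) fun x => eq_bot_iff.2 fun g hg => by
    refine mem_bot.2 (Subtype.ext (big g.1 g.2 ?_))
    have : g.1.support ⊆ (Finset.univ.map x)ᶜ := fun b hb => Finset.mem_compl.2 fun c => by
      obtain ⟨i, -, rfl⟩ := Finset.mem_map.1 c
      exact Perm.mem_support.1 hb (congrArg (fun e : Fin 4 ↪ α => e i) (mem_stabilizer_iff.1 hg))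
    have := Finset.card_le_card this
    rw [Finset.card_compl, Finset.card_map, Finset.card_univ, Fintype.card_fin] at this
    omega
  omega


end Cfsg.Agent.S4220
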