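import Cfsg.Statements.S4221
import Cfsg.Agent.S0711
import Cfsg.Agent.S0415
import Cfsg.Agent.H4.ZS
import Cfsg.Agent.S0205
import Cfsg.Agent.L0.Invol
import Cfsg.Agent.H1.Schmidt
import Cfsg.Agent.H2.Core

set_option autoImplicit false
open Cfsg

open CfsgH2 Function Subgroup Equiv MulAction
open scoped commutatorElement

namespace Cfsg.Agent.S4221

theorem ab_normal {X : Type*} [Group X] [Finite X] (h : pPrimeCore 2 X ≠ ⊥) : ∃ N : Subgroup X,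
    N.Normal ∧ N ≠ ⊥ ∧ (∀ a ∈ N, ∀ b ∈ N, a * b = b * a) ∧ ∀ a ∈ N, Odd (orderOf a) := by
  haveI := Fact.mk Nat.prime_two
  have nd : ¬ 2 ∣ Nat.card (pPrimeCore 2 X) := by
    rw [pPrimeCore_eq]; exact (piN_compl_singleton Nat.prime_two).1 piN_piCore
  have nO : (pPrimeCore 2 X).Normal := by rw [pPrimeCore_eq]; infer_instance
  obtain ⟨N, l, ⟨nN, n0⟩, mn⟩ := exists_minimal_le (fun N : Subgroup X => N.Normal ∧ N ≠ ⊥) ⟨nO, h⟩
  have nd2 : ¬ 2 ∣ Nat.card N := fun d => nd (d.trans (card_dvd_of_le l))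
  obtain ⟨M, m1, -, m3, -⟩ := CfsgH1.exists_normal_prime_relIndex
    (Cfsg.Agent.S0205.result (Nat.not_even_iff_odd.1 (mt even_iff_two_dvd.1 nd2))) n0
  have e : ⁅N, N⁆ = ⊥ := by_contra fun c =>
    m1.not_ge ((mn _ ⟨inferInstance, c⟩ (commutator_le_left _ _)).ge.trans m3)
  refine ⟨N, nN, n0, fun a ha b hb => (commutator_eq_bot_iff_le_centralizer.1 e hb a ha), fun a ha =>
    Nat.not_even_iff_odd.1 fun c => nd2 ((even_iff_two_dvd.1 c).trans (N.orderOf_dvd_natCard ha))⟩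

section
variable {α : Type*} [Fintype α] [DecidableEq α] {G : Subgroup (Perm α)}
  {a b c d a' b' c' d' p q y : α} {g σ τ : Perm α}

/-- four distinct points -/
def D (a b c d : α) : Prop := a ≠ b ∧ a ≠ c ∧ a ≠ d ∧ b ≠ c ∧ b ≠ d ∧ c ≠ d

/-- fixing four points -/
def F (g : Perm α) (a b c d : α) : Prop := g a = a ∧ g b = b ∧ g c = c ∧ g d = d

/-- the embedding given by four distinct points -/
def emb (h : D a b c d) : Fin 4 ↪ α := ⟨![a, b, c, d], fun i j e => by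
  obtain ⟨h1, h2, h3, h4, h5, h6⟩ := h
  fin_cases i <;> fin_cases j <;> simp_all [eq_comm]⟩

theorem mem_st {x : Fin 4 ↪ α} {g : G} : g ∈ stabilizer G x ↔ ∀ i, g.1 (x i) = x i :=
  mem_stabilizer_iff.trans Embedding.ext_iff

theorem mem_emb (h : D a b c d) {g : G} : g ∈ stabilizer G (emb h) ↔ F g.1 a b c d := by
  rw [mem_st, Fin.forall_fin_succ, Fin.forall_fin_succ, Fin.forall_fin_two]; rfl

theorem F.pow (h : F g a b c d) (k : ℕ) : F (g ^ k) a b c d :=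
  ⟨pow_mem (show g ∈ stabilizer (Perm α) a from h.1) k, pow_mem (show g ∈ stabilizer (Perm α) b from h.2.1) k,
    pow_mem (show g ∈ stabilizer (Perm α) c from h.2.2.1) k,
    pow_mem (show g ∈ stabilizer (Perm α) d from h.2.2.2) k⟩

theorem F.inv (h : F g a b c d) : F g⁻¹ a b c d :=
  ⟨Perm.inv_eq_iff_eq.2 h.1.symm, Perm.inv_eq_iff_eq.2 h.2.1.symm, Perm.inv_eq_iff_eq.2 h.2.2.1.symm,
    Perm.inv_eq_iff_eq.2 h.2.2.2.symm⟩

theorem ss (h : σ * σ = 1) (x : α) : σ (σ x) = x := congrArg (· x) h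

theorem cj2 (h : σ * σ = 1) (g : Perm α) : g * σ * g⁻¹ * (g * σ * g⁻¹) = 1 := by
  rw [show g * σ * g⁻¹ * (g * σ * g⁻¹) = g * (σ * σ) * g⁻¹ by group, h]; group

/-- the hypothesis -/
structure Hy (G : Subgroup (Perm α)) : Prop where
  tr : IsMultiplyPretransitive G α 4
  odd : ∀ x : Fin 4 ↪ α, Odd (Nat.card (stabilizer G x))

theorem idx_st (h : IsMultiplyPretransitive G α 4) (x : Fin 4 ↪ α) :
    (stabilizer G x).index = Nat.card (Fin 4 ↪ α) :=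
  @index_stabilizer_of_transitive G (Fin 4 ↪ α) _ _ x ⟨fun a b => h.exists_smul_eq a b⟩

theorem card_st (h : IsMultiplyPretransitive G α 4) (x z : Fin 4 ↪ α) :
    Nat.card (stabilizer G x) = Nat.card (stabilizer G z) := by
  have e1 := (stabilizer G x).index_mul_card
  have e2 := (stabilizer G z).index_mul_card
  rw [idx_st h] at e1 e2
  haveI : Nonempty (Fin 4 ↪ α) := ⟨x⟩
  exact Nat.eq_of_mul_eq_mul_left Nat.card_pos (e1.trans e2.symm)

variable (h : Hy G)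
include h

theorem Hy.t4 (h1 : D a b c d) (h2 : D a' b' c' d') :
    ∃ g ∈ G, g a = a' ∧ g b = b' ∧ g c = c' ∧ g d = d' := by
  haveI := h.tr
  obtain ⟨g, hg⟩ := exists_smul_eq G (emb h1) (emb h2)
  have := Embedding.ext_iff.1 hg
  exact ⟨g, g.2, this 0, this 1, this 2, this 3⟩

theorem Hy.o4 (hg : g ∈ G) (h1 : D a b c d) (f : F g a b c d) : Odd (orderOf g) := by
  have := (stabilizer G (emb h1)).orderOf_dvd_natCard ((mem_emb h1 (g := ⟨g, hg⟩)).2 f)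
  rw [orderOf_mk] at this
  exact (h.odd _).of_dvd_nat this

theorem Hy.steq (h1 : D a b c d) (h2 : D a' b' c' d') (l : ∀ g ∈ G, F g a b c d → F g a' b' c' d')
    (hg : g ∈ G) (f : F g a' b' c' d') : F g a b c d := by
  have e : stabilizer G (emb h1) = stabilizer G (emb h2) := eq_of_le_of_card_ge
    (fun g hg => (mem_emb h2).2 (l _ g.2 ((mem_emb h1).1 hg))) (card_st h.tr _ _).le
  exact (mem_emb h1 (g := ⟨g, hg⟩)).1 (e ▸ (mem_emb h2).2 f)

theorem Hy.one (hg : g ∈ G) (h2 : g * g = 1) (h1 : D a b c d) (f : F g a b c d) : g = 1 := by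
  have := orderOf_dvd_of_pow_eq_one ((sq g).trans h2)
  rcases (Nat.dvd_prime Nat.prime_two).1 this with e | e
  · exact orderOf_eq_one_iff.1 e
  · exact absurd (e ▸ h.o4 hg h1 f) (by decide)

theorem Hy.mk2 (hg : g ∈ G) (h1 : D a b c d) (f : F (g * g) a b c d) : ∃ σ ∈ G, σ * σ = 1 ∧
    σ a = g a ∧ σ b = g b ∧ σ c = g c ∧ σ d = g d ∧ ∀ τ, Commute τ g → Commute τ σ := by
  obtain ⟨j, hj⟩ := h.o4 (mul_mem hg hg) h1 f
  have k := f.pow j
  refine ⟨g * (g * g) ^ j, mul_mem hg (pow_mem (mul_mem hg hg) j), ?_, congrArg g k.1,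
    congrArg g k.2.1, congrArg g k.2.2.1, congrArg g k.2.2.2,
    fun τ t => t.mul_right ((t.mul_right t).pow_right j)⟩
  rw [← pow_orderOf_eq_one (g * g), hj, ← sq, ← sq, ← pow_mul, ← pow_mul, ← pow_succ', ← pow_mul]
  congr 1; ring

theorem Hy.cj (hσ : σ ∈ G) (hτ : τ ∈ G) (s2 : σ * σ = 1) (t2 : τ * τ = 1) (h1 : D a b c d)
    (e1 : σ a = τ a) (e2 : σ b = τ b) (e3 : σ c = τ c) (e4 : σ d = τ d) : ∃ u ∈ G, F u a b c d ∧
    u * σ * u⁻¹ = τ ∧ ∀ ρ, Commute ρ σ → Commute ρ τ → Commute ρ u := by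
  have f : F (σ * τ) a b c d := ⟨by rw [Perm.mul_apply, ← e1, ss s2], by rw [Perm.mul_apply, ← e2, ss s2],
    by rw [Perm.mul_apply, ← e3, ss s2], by rw [Perm.mul_apply, ← e4, ss s2]⟩
  obtain ⟨k, hk⟩ := CfsgL0.conj_of_odd_order s2 t2 (h.o4 (mul_mem hσ hτ) h1 f)
  exact ⟨_, pow_mem (mul_mem hσ hτ) k, f.pow k, hk, fun ρ x y => (x.mul_right y).pow_right k⟩

theorem Hy.fixle (hσ : σ ∈ G) (s2 : σ * σ = 1) (s1 : σ ≠ 1) : σ.supportᶜ.card ≤ 3 := by
  by_contra c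
  obtain ⟨x, hx⟩ := Embedding.exists_of_card_le_finset (α := Fin 4) (s := σ.supportᶜ)
    (by rw [Fintype.card_fin]; omega)
  have f : ∀ i, σ (x i) = x i := fun i => by simpa using hx ⟨i, rfl⟩
  exact s1 (h.one hσ s2 (a := x 0) (b := x 1) (c := x 2) (d := x 3)
    (by simp [D]) ⟨f 0, f 1, f 2, f 3⟩)

theorem Hy.reg (n : 10 ≤ Fintype.card α) (hσ : σ ∈ G) (hτ : τ ∈ G) (s2 : σ * σ = 1) (t2 : τ * τ = 1)
    (cm : Commute σ τ) (s1 : σ ≠ 1) (t1 : τ ≠ 1) (st : σ ≠ τ) :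
    ∃ x, D x (σ x) (τ x) (σ (τ x)) := by
  have u2 : σ * τ * (σ * τ) = 1 := by
    rw [mul_assoc, ← mul_assoc τ, ← cm.eq, mul_assoc, t2, mul_one, s2]
  have u1 : σ * τ ≠ 1 := fun e => st ((eq_inv_of_mul_eq_one_left e).trans
    (eq_inv_of_mul_eq_one_left t2).symm)
  obtain ⟨x, hx⟩ : ∃ x, x ∉ σ.supportᶜ ∪ τ.supportᶜ ∪ (σ * τ).supportᶜ := by
    by_contra e
    push Not at e
    have := Finset.card_union_le (σ.supportᶜ ∪ τ.supportᶜ) (σ * τ).supportᶜ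
    have := Finset.card_union_le σ.supportᶜ τ.supportᶜ
    have := h.fixle hσ s2 s1
    have := h.fixle hτ t2 t1
    have := h.fixle (mul_mem hσ hτ) u2 u1
    have := congrArg Finset.card (Finset.eq_univ_of_forall e)
    rw [Finset.card_univ] at this
    omega
  simp only [Finset.mem_union, Finset.mem_compl, Perm.mem_support, not_or, not_not,
    Perm.mul_apply] at hx
  obtain ⟨⟨x1, x2⟩, x3⟩ := hx
  refine ⟨x, Ne.symm x1, Ne.symm x2, Ne.symm x3, fun e => x3 (by rw [← e, ss s2]),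
    fun e => x2 (σ.injective e).symm, fun e => x1 (τ.injective ?_)⟩
  rw [← Perm.mul_apply, ← cm.eq, Perm.mul_apply, ← e]

theorem Hy.exV (h1 : D a b c d) : ∃ σ ∈ G, ∃ τ ∈ G, σ * σ = 1 ∧ τ * τ = 1 ∧ Commute σ τ ∧
    (σ a = a ∧ σ b = b ∧ σ c = d ∧ σ d = c) ∧ τ a = b ∧ τ b = a ∧ τ c = c ∧ τ d = d := by
  obtain ⟨n1, n2, n3, n4, n5, n6⟩ := id h1
  obtain ⟨g, hg, g1, g2, g3, g4⟩ := h.t4 h1 (⟨n1, n3, n2, n5, n4, n6.symm⟩ : D a b d c)
  obtain ⟨σ, hσ, s2, s3, s4, s5, s6, -⟩ := h.mk2 hg h1 (by simp [F, *])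
  rw [g1] at s3; rw [g2] at s4; rw [g3] at s5; rw [g4] at s6
  obtain ⟨k, hk, k1, k2, k3, k4⟩ := h.t4 h1 (⟨n1.symm, n4, n5, n2, n3, n6⟩ : D b a c d)
  have i1 : k⁻¹ a = b := Perm.inv_eq_iff_eq.2 k2.symm
  have i2 : k⁻¹ b = a := Perm.inv_eq_iff_eq.2 k1.symm
  have i3 : k⁻¹ c = c := Perm.inv_eq_iff_eq.2 k3.symm
  have i4 : k⁻¹ d = d := Perm.inv_eq_iff_eq.2 k4.symm
  obtain ⟨u, hu, f, e, -⟩ := h.cj hσ (mul_mem (mul_mem hk hσ) (inv_mem hk)) s2 (cj2 s2 k) h1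
    (by simp only [Perm.mul_apply, *]) (by simp only [Perm.mul_apply, *])
    (by simp only [Perm.mul_apply, *]) (by simp only [Perm.mul_apply, *])
  obtain ⟨f1, f2, f3, f4⟩ := f.inv
  obtain ⟨τ, hτ, t2, t3, t4, t5, t6, t7⟩ := h.mk2 (mul_mem (inv_mem hu) hk) h1
    (by simp only [F, Perm.mul_apply, k1, k2, k3, k4, f1, f2, f3, f4, and_self])
  simp only [Perm.mul_apply, k1, k2, k3, k4, f1, f2, f3, f4] at t3 t4 t5 t6
  refine ⟨σ, hσ, τ, hτ, s2, t2, t7 σ ?_, ⟨s3, s4, s5, s6⟩, t3, t4, t5, t6⟩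
  show σ * (u⁻¹ * k) = u⁻¹ * k * σ
  rw [show u⁻¹ * k * σ = u⁻¹ * (k * σ * k⁻¹) * k by group, ← e]; group

theorem Hy.no4 (n : 10 ≤ Fintype.card α) (h1 : D a b c d) (hσ : σ ∈ G) (hτ : τ ∈ G) (s2 : σ * σ = 1)
    (t2 : τ * τ = 1) (cm : Commute σ τ) (s1 : σ ≠ 1) (t1 : τ ≠ 1) (pq : p ≠ q) (e1 : σ p = p)
    (e2 : σ q = q) (e3 : τ p = p) (e4 : τ q = q) : σ = τ := by
  by_contra st
  obtain ⟨A, hA, B, hB, a2, b2, ab, ⟨a3, a4, a5, -⟩, b3, b4, -, -⟩ := h.exV h1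
  have a1 : A ≠ 1 := fun e => h1.2.2.2.2.2 (by rw [← a5, e]; rfl)
  obtain ⟨x, hx⟩ := h.reg n hA hB a2 b2 ab a1 (fun e => h1.1 (by rw [← b3, e]; rfl))
    fun e => h1.1 (by rw [← b3, ← e, a3])
  obtain ⟨z, hz⟩ := h.reg n hσ hτ s2 t2 cm s1 t1 st
  obtain ⟨γ, hγ, g1, g2, g3, g4⟩ := h.t4 hx hz
  have i1 : γ⁻¹ z = x := Perm.inv_eq_iff_eq.2 g1.symm
  have i2 : γ⁻¹ (σ z) = A x := Perm.inv_eq_iff_eq.2 g2.symm
  have i3 : γ⁻¹ (τ z) = B x := Perm.inv_eq_iff_eq.2 g3.symm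
  have i4 : γ⁻¹ (σ (τ z)) = A (B x) := Perm.inv_eq_iff_eq.2 g4.symm
  have c1 : ∀ w, B (A w) = A (B w) := fun w => (congrArg (· w) ab.eq).symm
  have c2 : ∀ w, τ (σ w) = σ (τ w) := fun w => (congrArg (· w) cm.eq).symm
  obtain ⟨u, hu, f, e, -⟩ := h.cj (mul_mem (mul_mem hγ hA) (inv_mem hγ)) hσ (cj2 a2 γ) s2 hz
    (by simp only [Perm.mul_apply, i1, g2]) (by simp only [Perm.mul_apply, i2, ss a2, ss s2, g1])
    (by simp only [Perm.mul_apply, i3, g4]) (by simp only [Perm.mul_apply, i4, ss a2, ss s2, g3])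
  obtain ⟨f1, f2, f3, f4⟩ := f.inv
  obtain ⟨j1, j2, j3, j4⟩ := f
  obtain ⟨v, hv, -, e', cv⟩ := h.cj (mul_mem (mul_mem hu (mul_mem (mul_mem hγ hB) (inv_mem hγ)))
    (inv_mem hu)) hτ (cj2 (cj2 b2 γ) u) t2 hz
    (by simp only [Perm.mul_apply, f1, i1, g3, j3])
    (by simp only [Perm.mul_apply, f2, i2, c1, c2, g4, j4])
    (by simp only [Perm.mul_apply, f3, i3, ss b2, ss t2, g1, j1])
    (by simp only [Perm.mul_apply, f4, i4, c1, c2, ss b2, ss t2, g2, j2])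
  have cv := cv σ (e ▸ (ab.conj γ).conj u) cm
  have eA : A = (v * u * γ)⁻¹ * σ * (v * u * γ) := by
    rw [show (v * u * γ)⁻¹ * σ * (v * u * γ) = (u * γ)⁻¹ * (v⁻¹ * (σ * v)) * (u * γ) by group,
      cv.eq, inv_mul_cancel_left, ← e]; group
  have eB : B = (v * u * γ)⁻¹ * τ * (v * u * γ) := by rw [← e']; group
  generalize v * u * γ = δ at eA eB
  have k : ∀ w, σ w = w → A (δ⁻¹ w) = δ⁻¹ w := fun w hw => by rw [eA]; simp [hw]
  have k' : ∀ w, τ w = w → B (δ⁻¹ w) = δ⁻¹ w := fun w hw => by rw [eB]; simp [hw]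
  refine a1 (h.one hA a2 (a := a) (b := b) (c := δ⁻¹ p) (d := δ⁻¹ q) ⟨h1.1, fun e => h1.1 ?_,
    fun e => h1.1 ?_, fun e => h1.1 ?_, fun e => h1.1 ?_, δ⁻¹.injective.ne pq⟩ ⟨a3, a4, k p e1, k q e2⟩)
  · rw [← b3, e, k' p e3]
  · rw [← b3, e, k' q e4]
  · rw [← b4, e, k' p e3]
  · rw [← b4, e, k' q e4]

theorem Hy.aff (n : 10 ≤ Fintype.card α) (h1 : D p q c d) (hσ : σ ∈ G) (s2 : σ * σ = 1) (s1 : σ ≠ 1)
    (e1 : σ p = p) (e2 : σ q = q) : ∃ M : Subgroup (Perm α), (∀ m ∈ M, m ∈ G ∧ m p = p ∧ m q = q) ∧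
    (∀ g ∈ G, g p = p → g q = q → ∀ m ∈ M, g * m * g⁻¹ ∈ M) ∧ (∀ a ∈ M, ∀ b ∈ M, a * b = b * a) ∧
    (∀ a ∈ M, Odd (orderOf a)) ∧ ∀ y z, y ≠ p → y ≠ q → z ≠ p → z ≠ q → ∃ m ∈ M, m y = z := by
  let X : Subgroup (Perm α) := G ⊓ (stabilizer (Perm α) p ⊓ stabilizer (Perm α) q)
  have mv : ∀ m : Perm α, m ≠ 1 → m p = p → m q = q → ∃ y, D p q y (m y) := fun m m1 a b => by
    obtain ⟨y, hy⟩ : ∃ y, m y ≠ y := by
      by_contra x
      push Not at x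
      exact m1 (Equiv.ext x)
    have y1 : p ≠ y := fun e => hy (e ▸ a)
    have y2 : q ≠ y := fun e => hy (e ▸ b)
    exact ⟨y, h1.1, y1, fun e => y1 (m.injective (a.trans e)), y2,
      fun e => y2 (m.injective (b.trans e)), hy.symm⟩
  let u : X := ⟨σ, hσ, e1, e2⟩
  have iso : IsIsolatedInvolution u := by
    haveI := Fact.mk Nat.prime_two
    refine ⟨orderOf_eq_prime (Subtype.ext ((sq σ).trans s2)) fun e => s1 (congrArg Subtype.val e),
      fun g hg => Subtype.ext (h.no4 n h1 hσ (g * u * g⁻¹).2.1 s2 (cj2 s2 g.1)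
        (congrArg Subtype.val hg.eq) s1 (fun e => s1 ?_) h1.1 e1 e2 (g * u * g⁻¹).2.2.1
        (g * u * g⁻¹).2.2.2).symm⟩
    have e' : g.1 * σ * g.1⁻¹ = 1 := e
    rwa [mul_inv_eq_one, mul_eq_left] at e'
  have o0 : pPrimeCore 2 X ≠ ⊥ := fun e => by
    have z := CfsgH4.zstar_center iso e
    obtain ⟨y, hy⟩ := mv σ s1 e1 e2
    obtain ⟨w, hw⟩ : ∃ w, w ∉ ({p, q, y, σ y} : Finset α) := by
      by_contra x
      push Not at x
      have := Finset.card_le_four (a := p) (b := q) (c := y) (d := σ y)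
      rw [Finset.eq_univ_of_forall x, Finset.card_univ] at this
      omega
    simp only [Finset.mem_insert, Finset.mem_singleton, not_or] at hw
    obtain ⟨g, hg, g1, g2, g3, g4⟩ := h.t4 hy (⟨hy.1, hy.2.1, Ne.symm hw.1, hy.2.2.2.1,
      Ne.symm hw.2.1, Ne.symm hw.2.2.1⟩ : D p q y w)
    have : g (σ y) = σ (g y) := congrArg (fun x : X => x.1 y) (mem_center_iff.1 z ⟨g, hg, g1, g2⟩)
    rw [g3, g4] at this
    exact hw.2.2.2 this
  obtain ⟨N, nN, n0, ab, od⟩ := ab_normal o0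
  have nm : ∀ g ∈ G, g p = p → g q = q → ∀ m ∈ N.map X.subtype, g * m * g⁻¹ ∈ N.map X.subtype := by
    rintro g hg a b _ ⟨m, hm, rfl⟩
    exact ⟨_, nN.conj_mem m hm ⟨g, hg, a, b⟩, rfl⟩
  refine ⟨N.map X.subtype, ?_, nm, ?_, ?_, fun y z y1 y2 z1 z2 => ?_⟩
  · rintro _ ⟨m, -, rfl⟩; exact m.2
  · rintro _ ⟨a, ha, rfl⟩ _ ⟨b, hb, rfl⟩; exact congrArg Subtype.val (ab a ha b hb)
  · rintro _ ⟨a, ha, rfl⟩
    rw [coe_subtype, orderOf_coe]; exact od a ha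
  by_cases e : y = z
  · exact ⟨1, one_mem _, e⟩
  obtain ⟨m, hm, m1⟩ := (bot_or_exists_ne_one N).resolve_left n0
  obtain ⟨w, hw⟩ := mv m.1 (fun x => m1 (Subtype.ext x)) m.2.2.1 m.2.2.2
  obtain ⟨g, hg, g1, g2, g3, g4⟩ := h.t4 hw (⟨h1.1, y1.symm, z1.symm, y2.symm, z2.symm, e⟩ : D p q y z)
  refine ⟨_, nm g hg g1 g2 _ ⟨m, hm, rfl⟩, ?_⟩
  rw [← g3, ← g4]; simp

theorem Hy.uniq (n : 10 ≤ Fintype.card α) (h1 : D p q c d) (hσ : σ ∈ G) (s2 : σ * σ = 1) (s1 : σ ≠ 1)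
    (e1 : σ p = p) (e2 : σ q = q) : (∃ w, w ≠ p ∧ w ≠ q ∧ σ w = w) ∧ ∀ τ ∈ G, τ * τ = 1 → τ ≠ 1 →
    τ p = p → τ q = q → τ c = σ c → τ = σ := by
  obtain ⟨M, m1, m2, m3, m4, m5⟩ := h.aff n h1 hσ s2 s1 e1 e2
  have ne : ∀ {g : Perm α} {y}, g p = p → g q = q → y ≠ p → y ≠ q → g y ≠ p ∧ g y ≠ q :=
    fun {g y} a b c d => ⟨fun e => c (g.injective (e.trans a.symm)), fun e => d (g.injective (e.trans b.symm))⟩
  have tv : ∀ g : Perm α, g p = p → g q = q → (∀ m ∈ M, g * m = m * g) → ∀ y, y ≠ p → y ≠ q →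
      g y = y → g = 1 := fun g a b cm y y1 y2 e => Equiv.ext fun z => by
    by_cases z1 : z = p
    · rw [z1]; exact a
    by_cases z2 : z = q
    · rw [z2]; exact b
    obtain ⟨m, hm, rfl⟩ := m5 y z y1 y2 z1 z2
    rw [← Perm.mul_apply, cm m hm, Perm.mul_apply, e]; rfl
  have c1 := h1.2.1.symm
  have c2 := h1.2.2.2.1.symm
  have fx : ∀ τ ∈ G, τ * τ = 1 → τ p = p → τ q = q → ∃ w, w ≠ p ∧ w ≠ q ∧ τ w = w := by
    intro τ hτ t2 a b
    have ti : τ⁻¹ = τ := inv_eq_of_mul_eq_one_right t2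
    obtain ⟨m, hm, e⟩ := m5 (τ c) c (ne a b c1 c2).1 (ne a b c1 c2).2 c1 c2
    have k : m * τ * (m * τ) ∈ M := by
      have := mul_mem hm (m2 τ hτ a b m hm)
      rwa [ti, ← mul_assoc, ← mul_assoc, mul_assoc (m * τ)] at this
    have k2 := tv _ (m1 _ k).2.1 (m1 _ k).2.2 (m3 _ k) c c1 c2 (by simp only [Perm.mul_apply, e])
    obtain ⟨j, hj⟩ := CfsgL0.conj_of_odd_order k2 t2 (by
      rw [mul_assoc, t2, mul_one]; exact m4 m hm)
    rw [mul_assoc m τ τ, t2, mul_one] at hj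
    have k3 := m1 _ (pow_mem hm j)
    refine ⟨(m ^ j) c, (ne k3.2.1 k3.2.2 c1 c2).1, (ne k3.2.1 k3.2.2 c1 c2).2, ?_⟩
    conv_lhs => rw [← hj]
    simp [e]
  have iv : ∀ τ ∈ G, τ * τ = 1 → τ ≠ 1 → τ p = p → τ q = q → ∀ m ∈ M, τ * m * τ = m⁻¹ := by
    intro τ hτ t2 t1 a b m hm
    have ti : τ⁻¹ = τ := inv_eq_of_mul_eq_one_right t2
    obtain ⟨w, w1, w2, w3⟩ := fx τ hτ t2 a b
    have k0 := m2 τ hτ a b m hm
    rw [ti] at k0
    have k := mul_mem hm k0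
    refine eq_inv_of_mul_eq_one_right (tv _ (m1 _ k).2.1 (m1 _ k).2.2 (m3 _ k) w w1 w2 ?_)
    by_contra x
    have w4 := ne (m1 _ k).2.1 (m1 _ k).2.2 w1 w2
    refine t1 (h.one hτ t2 ⟨h1.1, w1.symm, w4.1.symm, w2.symm, w4.2.symm, Ne.symm x⟩ ⟨a, b, w3, ?_⟩)
    conv_rhs => rw [m3 _ hm _ k0]
    simp only [Perm.mul_apply, w3]
  refine ⟨fx σ hσ s2 e1 e2, fun τ hτ t2 t1 a b e => ?_⟩
  have := tv (σ * τ) (by rw [Perm.mul_apply, a, e1]) (by rw [Perm.mul_apply, b, e2]) (fun m hm => ?_)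
    c c1 c2 (by rw [Perm.mul_apply, e, ss s2])
  · exact (eq_inv_of_mul_eq_one_right this).trans (inv_eq_of_mul_eq_one_right s2)
  have i1 := iv τ hτ t2 t1 a b m hm
  have i2 := iv σ hσ s2 s1 e1 e2 m hm
  calc σ * τ * m = σ * (τ * m * τ) * τ := by rw [mul_assoc σ (τ * m * τ), mul_assoc (τ * m), t2, mul_one, mul_assoc]
    _ = m * (σ * τ) := by
      rw [i1, ← i2, ← mul_assoc, ← mul_assoc, s2, one_mul, mul_assoc]

theorem Hy.fixT (n : 10 ≤ Fintype.card α) (h1 : D a b c d) (hσ : σ ∈ G) (s2 : σ * σ = 1)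
    (e1 : σ a = b) (e2 : σ c = d) (hg : g ∈ G) (f : F g a b c d) {t : α} (ht : σ t = t) : g t = t := by
  obtain ⟨A, hA, B, hB, a2, b2, ab, ⟨a3, a4, a5, a6⟩, b3, b4, b5, b6⟩ := h.exV h1
  obtain ⟨n1, n2, n3, n4, n5, n6⟩ := id h1
  have a1 : A ≠ 1 := fun e => n6 (by rw [← a5, e]; rfl)
  have b1 : B ≠ 1 := fun e => n1 (by rw [← b3, e]; rfl)
  obtain ⟨⟨w, w1, w2, w3⟩, uA⟩ := h.uniq n h1 hA a2 a1 a3 a4
  obtain ⟨-, uB⟩ := h.uniq n (⟨n6, n2.symm, n4.symm, n3.symm, n5.symm, n1⟩ : D c d a b) hB b2 b1 b5 b6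
  have cen : ∀ k ∈ G, F k a b c d → Commute k A ∧ Commute k B := fun k hk f => by
    obtain ⟨f1, f2, f3, f4⟩ := f.inv
    obtain ⟨j1, j2, j3, j4⟩ := f
    have ne : ∀ {x : Perm α}, x ≠ 1 → k * x * k⁻¹ ≠ 1 := fun x1 e => x1 (by
      rwa [mul_inv_eq_one, mul_eq_left] at e)
    exact ⟨mul_inv_eq_iff_eq_mul.1 (uA _ (mul_mem (mul_mem hk hA) (inv_mem hk)) (cj2 a2 k) (ne a1)
      (by simp only [Perm.mul_apply, *]) (by simp only [Perm.mul_apply, *])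
      (by simp only [Perm.mul_apply, *])),
      mul_inv_eq_iff_eq_mul.1 (uB _ (mul_mem (mul_mem hk hB) (inv_mem hk)) (cj2 b2 k) (ne b1)
      (by simp only [Perm.mul_apply, *]) (by simp only [Perm.mul_apply, *])
      (by simp only [Perm.mul_apply, *]))⟩
  have e3 : σ b = a := by rw [← e1, ss s2]
  have e4 : σ d = c := by rw [← e2, ss s2]
  have c2 : A * B * (A * B) = 1 := by
    rw [mul_assoc, ← mul_assoc B, ← ab.eq, mul_assoc, b2, mul_one, a2]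
  have f0 : F (σ * (A * B)) a b c d := by simp only [F, Perm.mul_apply, *, and_self]
  have m0 := mul_mem hσ (mul_mem hA hB)
  have c3 := (cen _ m0 f0).1.mul_right (cen _ m0 f0).2
  have e : σ = A * B := by
    have : σ * (A * B) * (σ * (A * B)) = 1 := by
      rw [mul_assoc σ, ← c3.eq, mul_assoc σ, c2, mul_one, s2]
    exact (eq_inv_of_mul_eq_one_left (h.one m0 this h1 f0)).trans (inv_eq_of_mul_eq_one_right c2)
  have fw : ∀ k : Perm α, Commute k A → k w ≠ a → k w ≠ b → k w = w := fun k ck x1 x2 => by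
    by_contra x
    refine a1 (h.one hA a2 ⟨n1, w1.symm, x1.symm, w2.symm, x2.symm, Ne.symm x⟩ ⟨a3, a4, w3, ?_⟩)
    rw [← Perm.mul_apply, ← ck.eq, Perm.mul_apply, w3]
  have gw := fw g (cen g hg f).1 (fun x => w1 (g.injective (x.trans f.1.symm)))
    fun x => w2 (g.injective (x.trans f.2.1.symm))
  have bw := fw B ab.symm (fun x => w2 (B.injective (x.trans b4.symm)))
    fun x => w1 (B.injective (x.trans b3.symm))
  have sw : σ w = w := by rw [e, Perm.mul_apply, bw, w3]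
  have cg : Commute g σ := e ▸ (cen g hg f).1.mul_right (cen g hg f).2
  have k : ∀ t, σ t = t → σ (g t) = g t := fun t ht => by
    rw [← Perm.mul_apply, ← cg.eq, Perm.mul_apply, ht]
  by_contra x
  have tw : w ≠ t := fun y => x (y ▸ gw)
  have tw2 : w ≠ g t := fun y => tw (g.injective (gw.trans y))
  have g2 : g (g t) = t := by
    by_contra y
    exact n1 (by rw [← e1, h.one hσ s2 ⟨tw, tw2, fun z => tw2 (g.injective (gw.trans z)), Ne.symm x,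
      Ne.symm y, fun z => x (g.injective z).symm⟩ ⟨sw, ht, k _ ht, k _ (k _ ht)⟩]; rfl)
  obtain ⟨j, hj⟩ := h.o4 hg h1 f
  have y : ((g * g) ^ j) t = t := pow_mem (show g * g ∈ stabilizer (Perm α) t from g2) j
  have z := pow_orderOf_eq_one g
  rw [hj, pow_succ', pow_mul, sq] at z
  exact x (by rw [← y, ← Perm.mul_apply, z, y]; rfl)

theorem Hy.sharp (n : 10 ≤ Fintype.card α) (h1 : D a b c d) (x : Fin 4 ↪ α) : stabilizer G x = ⊥ := by
  obtain ⟨A, hA, -, -, a2, -, -, ⟨a3, a4, a5, a6⟩, -⟩ := h.exV h1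
  obtain ⟨n1, n2, n3, n4, n5, n6⟩ := id h1
  have a1 : A ≠ 1 := fun e => n6 (by rw [← a5, e]; rfl)
  obtain ⟨⟨w, w1, w2, w3⟩, -⟩ := h.uniq n h1 hA a2 a1 a3 a4
  have h2 : D a b w c := ⟨n1, w1.symm, n2, w2.symm, n4, fun e => n6 (by rw [← a5, ← e, w3])⟩
  rw [← card_eq_one, card_st h.tr x (emb h2), card_eq_one, eq_bot_iff]
  intro g hg
  have f := (mem_emb h2).1 hg
  have k : ∀ v, A v ≠ v → v ≠ c → v ≠ d → F g.1 c d v (A v) := fun v v1 v2 v3 => by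
    have h3 : D c d v (A v) := ⟨n6, v2.symm, fun e => v3 (by rw [← a5, e, ss a2]), v3.symm,
      fun e => v2 (by rw [← a6, e, ss a2]), v1.symm⟩
    exact h.steq h3 h2 (fun k hk fk => ⟨h.fixT n h3 hA a2 a5 rfl hk fk a3,
      h.fixT n h3 hA a2 a5 rfl hk fk a4, h.fixT n h3 hA a2 a5 rfl hk fk w3, fk.1⟩) g.2 f
  obtain ⟨v0, hv⟩ : ∃ v, v ∉ A.supportᶜ ∪ {c, d} := by
    by_contra e
    push Not at e
    have := Finset.card_union_le A.supportᶜ {c, d}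
    have := Finset.card_le_two (a := c) (b := d)
    have := h.fixle hA a2 a1
    have := congrArg Finset.card (Finset.eq_univ_of_forall e)
    rw [Finset.card_univ] at this
    omega
  simp only [Finset.mem_union, Finset.mem_compl, Perm.mem_support, not_or, not_not,
    Finset.mem_insert, Finset.mem_singleton] at hv
  refine mem_bot.2 (Subtype.ext (Equiv.ext fun v => ?_))
  show g.1 v = v
  by_cases v1 : A v = v
  · by_contra y
    exact a1 (h.one hA a2 (⟨n1, w1.symm, fun e => y (e ▸ f.1), w2.symm, fun e => y (e ▸ f.2.1),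
      fun e => y (e ▸ f.2.2.1)⟩ : D a b w v) ⟨a3, a4, w3, v1⟩)
  by_cases v2 : v = c
  · rw [v2]; exact f.2.2.2
  by_cases v3 : v = d
  · rw [v3]; exact (k v0 hv.1 hv.2.1 hv.2.2).2.1
  exact (k v v1 v2 v3).2.2.1
end

/-- Let `G` be a `4`-fold transitive permutation group on a finite set of `n` points in which the pointwise stabilizer of some four distinct points has odd order. Then `n = 4` or `n = 5` with `G` the full symmetric group, or `n = 6` or `n = 7` with `G` the alternating group, or `n = 11` and `G` has order `7920`. -/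
theorem result {α : Type*} [Fintype α] [DecidableEq α] (G : Subgroup (Equiv.Perm α)) (hG : MulAction.IsMultiplyPretransitive G α 4) (x : Fin 4 ↪ α) (hodd : Odd (Nat.card (MulAction.stabilizer G x))) : ((Fintype.card α = 4 ∨ Fintype.card α = 5) ∧ G = ⊤) ∨ ((Fintype.card α = 6 ∨ Fintype.card α = 7) ∧ G = alternatingGroup α) ∨ (Fintype.card α = 11 ∧ Nat.card G = 7920) := by
  have h : Hy G := ⟨hG, fun z => card_st hG x z ▸ hodd⟩
  have h1 : D (x 0) (x 1) (x 2) (x 3) := by simp [D]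
  have n4 : 4 ≤ Fintype.card α := by simpa using Fintype.card_le_of_embedding x
  have nc : Nat.card α = Fintype.card α := Nat.card_eq_fintype_card
  by_cases n5 : Fintype.card α ≤ 5
  · exact .inl ⟨by omega, Perm.eq_top_of_isMultiplyPretransitive
      (isMultiplyPretransitive_of_le (n := 4) (by omega) (by omega))⟩
  by_cases n : 10 ≤ Fintype.card α
  · have e := Cfsg.Agent.S0415.result G n4 (h.sharp n h1)
    refine .inr (.inr ⟨by omega, ?_⟩)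
    have := idx_st hG x
    rw [h.sharp n h1, index_bot, Nat.card_eq_fintype_card (α := Fin 4 ↪ α), Fintype.card_embedding_eq,
      show Fintype.card α = 11 by omega] at this
    exact this
  have sp : ∀ (z : Fin 4 ↪ α) (g : Perm α), (∀ i, g (z i) = z i) → g.support ⊆ (Finset.univ.map z)ᶜ :=
    fun z g hg b hb => Finset.mem_compl.2 fun c => by
      obtain ⟨i, -, rfl⟩ := Finset.mem_map.1 c
      exact Perm.mem_support.1 hb (hg i)
  have cc : ∀ z : Fin 4 ↪ α, (Finset.univ.map z)ᶜ.card = Fintype.card α - 4 := fun z => by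
    rw [Finset.card_compl, Finset.card_map, Finset.card_univ, Fintype.card_fin]
  have hA : alternatingGroup α ≤ G := by
    by_cases n6 : Fintype.card α = 6
    · exact _root_.IsMultiplyPretransitive.alternatingGroup_le α G (by rw [nc, n6]; exact hG)
    by_contra c
    have := Cfsg.Agent.S0415.result G n4 fun z => eq_bot_iff.2 fun g hg => mem_bot.2 (Subtype.ext
      (by_contra fun g1 => c (Cfsg.Agent.S0711.result G (k := 4) (by omega) n4 hG g.1 g.2 g1 (by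
        have := Finset.card_le_card (sp z g.1 (mem_st.1 hg))
        rw [cc] at this
        omega)).2))
    omega
  have out : ∀ {a b : α}, a ∈ (Finset.univ.map x)ᶜ → b ∈ (Finset.univ.map x)ᶜ → ∀ i,
      swap a b (x i) = x i := fun {a b} ha hb i => swap_apply_of_ne_of_ne
    (fun e => Finset.mem_compl.1 ha (e ▸ Finset.mem_map_of_mem _ (Finset.mem_univ i)))
    fun e => Finset.mem_compl.1 hb (e ▸ Finset.mem_map_of_mem _ (Finset.mem_univ i))
  refine .inr (.inl ⟨?_, ?_⟩)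
  · by_contra c
    obtain ⟨z, hz⟩ := Embedding.exists_of_card_le_finset (α := Fin 4) (s := (Finset.univ.map x)ᶜ)
      (by rw [Fintype.card_fin, cc]; omega)
    have m : ∀ i, z i ∈ (Finset.univ.map x)ᶜ := fun i => hz ⟨i, rfl⟩
    have k : ∀ i, (swap (z 0) (z 1) * swap (z 2) (z 3)) (x i) = x i := fun i => by
      rw [Perm.mul_apply, out (m 2) (m 3), out (m 0) (m 1)]
    have cm : Commute (swap (z 0) (z 1)) (swap (z 2) (z 3)) :=
      Perm.Disjoint.commute (Perm.disjoint_swap_swap (by simp))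
    have := h.one (hA (Perm.mem_alternatingGroup.2 (by simp))) (by
      rw [← sq, cm.mul_pow]; simp [sq]) h1 ⟨k 0, k 1, k 2, k 3⟩
    have := congrArg (· (z 0)) this
    simp [swap_apply_of_ne_of_ne] at this
  · have d := index_dvd_of_le hA
    obtain ⟨a, ha, b, hb, ab⟩ := Finset.one_lt_card.1 (show 1 < (Finset.univ.map x)ᶜ.card by
      rw [cc]; omega)
    haveI : Nontrivial α := ⟨a, b, ab⟩
    rw [alternatingGroup.index_eq_two] at d
    rcases (Nat.dvd_prime Nat.prime_two).1 d with e | e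
    · have := h.one (g := swap a b) (index_eq_one.1 e ▸ mem_top _) (swap_mul_self _ _) h1
        ⟨out ha hb 0, out ha hb 1, out ha hb 2, out ha hb 3⟩
      exact absurd (swap_eq_one_iff.1 this) ab
    · exact Perm.eq_alternatingGroup_of_index_eq_two e


end Cfsg.Agent.S4221
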