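import Cfsg.Statements.S4222
import Cfsg.Agent.H1.Misc1

set_option autoImplicit false
open Cfsg

namespace Cfsg.Agent.S4222

/-- If a normal subgroup `N` of a finite group is complete (its centre is trivial and every automorphism of `N` is inner), then the group is the internal direct product of `N` and the centralizer of `N`: the centralizer is a complement to `N`. -/
theorem result {T : Type*} [Group T] [Finite T] (N : Subgroup T) [N.Normal] (hz : Subgroup.center ↥N = ⊥) (ha : Function.Surjective (MulAut.conj : ↥N →* MulAut ↥N)) : (Subgroup.centralizer (N : Set T)).IsComplement' N := by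
  open Pointwise Subgroup CfsgH1 in
  open CfsgH2 hiding card_inf_mul_relIndex card_lt_of_lt card_lt_of_ne_top card_map_mul_card_inf_ker card_mul_relIndex card_subgroupOf card_sup_dvd card_sup_mul_card_inf exists_card_prime_le isNilpotent_map isNilpotent_of_le isPGroup_pCore isSolvable_map isSolvable_of_le le_pCore le_pPrimeCore relIndex_map_dvd in
  open scoped CfsgH2 in
  open scoped commutatorElement in
  · refine isComplement'_of_inf_of_sup ?_ (top_le_iff.1 fun g _ => ?_)
    · rw [inf_comm, ← map_center_subtype, hz, Subgroup.map_bot]
    · obtain ⟨n, hn⟩ := ha (MulAut.conjNormal g)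
      rw [← inv_mul_cancel_right g n]
      refine mul_mem_sup (fun x hx => ?_) n.2
      have := congrArg (fun σ : MulAut N => ((σ (n⁻¹ * ⟨x, hx⟩ * n) : N) : T)) hn
      simp only [MulAut.conj_apply, MulAut.conjNormal_apply, coe_mul, coe_inv] at this
      calc _ = n * ((n : T)⁻¹ * x * n) * (n : T)⁻¹ * (g * (n : T)⁻¹) := by group
        _ = _ := by rw [this]; group

end Cfsg.Agent.S4222
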