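import Cfsg.Statements.S4223
import Cfsg.Agent.H3.Hv1

set_option autoImplicit false
open Cfsg

namespace Cfsg.Agent.S4223
open Subgroup

def Ind (A : Type*) [Group A] : Prop :=
  Nontrivial A ∧ ∀ H K : Subgroup A, H.Normal → K.Normal → H ⊓ K = ⊥ → H ⊔ K = ⊤ → H = ⊥ ∨ K = ⊥

theorem split {A B : Type*} [Group A] [Group B] (f : A →* B) (g : B →* A) (h : Function.Bijective (g.comp f)) :
    f.range ⊓ g.ker = ⊥ ∧ f.range ⊔ g.ker = ⊤ := by
  refine ⟨eq_bot_iff.2 ?_, eq_top_iff.2 fun b _ => ?_⟩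
  · rintro _ ⟨⟨a, rfl⟩, e⟩
    rw [h.1 (show g.comp f a = g.comp f 1 by simpa using e), map_one]; exact one_mem _
  · obtain ⟨a, e⟩ := h.2 (g b)
    have : (f a)⁻¹ * b ∈ g.ker := by rw [MonoidHom.mem_ker, map_mul, map_inv, ← e]; simp
    simpa using mul_mem_sup (show f a ∈ f.range from ⟨a, rfl⟩) this

theorem two {A : Type*} [Group A] [Finite A] (hA : Ind A) (φ ψ : Monoid.End A) (hc : ∀ a b, Commute (φ a) (ψ b))
    (h : ∀ a, φ a * ψ a = a) : Function.Injective φ ∨ Function.Injective ψ := by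
  have nm : ∀ n a x, (φ ^ n) (a * x * a⁻¹) = a * (φ ^ n) x * a⁻¹ := by
    intro n a
    induction n with
    | zero => simp
    | succ n ih =>
      intro x
      rw [pow_succ']
      show φ ((φ ^ n) _) = a * φ ((φ ^ n) x) * a⁻¹
      rw [ih, map_mul, map_mul, map_inv]
      conv_rhs => rw [← h a]
      rw [mul_assoc (φ a) (ψ a), ← (hc _ _).eq]; group
  haveI : Finite (Monoid.End A) := Finite.of_injective (fun f : Monoid.End A => (f : A → A)) DFunLike.coe_injective
  obtain ⟨n, n0, hn⟩ : ∃ n, 0 < n ∧ φ ^ n * φ ^ n = φ ^ n := by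
    have key : ∀ a b, a < b → φ ^ a = φ ^ b → ∃ n, 0 < n ∧ φ ^ n * φ ^ n = φ ^ n := by
      intro a b ab e
      obtain ⟨d, rfl⟩ := Nat.exists_eq_add_of_lt ab
      have : ∀ j, φ ^ (a + j * (d + 1)) = φ ^ a := fun j => by
        induction j with
        | zero => simp
        | succ j ih => rw [show a + (j + 1) * (d + 1) = a + d + 1 + j * (d + 1) by ring, pow_add, ← e, ← pow_add, ih]
      refine ⟨(a + 1) * (d + 1), by positivity, ?_⟩
      rw [← pow_add, show (a + 1) * (d + 1) + (a + 1) * (d + 1) = a + (a + 1) * (d + 1) + (a * d + d + 1) by ring,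
        pow_add, this, ← pow_add]
      congr 1; ring
    obtain ⟨a, b, ne, e⟩ := Finite.exists_ne_map_eq_of_infinite fun n : ℕ => φ ^ n
    rcases lt_or_gt_of_ne ne with x | x
    · exact key a b x e
    · exact key b a x e.symm
  set θ : A →* A := φ ^ n
  have id : ∀ a, θ (θ a) = θ a := fun a => DFunLike.congr_fun hn a
  rcases hA.2 θ.range θ.ker ⟨by rintro _ ⟨x, rfl⟩ a; exact ⟨_, nm n a x⟩⟩ inferInstance
    (eq_bot_iff.2 (by rintro _ ⟨⟨x, rfl⟩, e⟩; exact (id x).symm.trans e))
    (eq_top_iff.2 fun a _ => by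
      simpa using mul_mem_sup (show θ a ∈ θ.range from ⟨a, rfl⟩)
        (show (θ a)⁻¹ * a ∈ θ.ker by simp [MonoidHom.mem_ker, id])) with e | e
  · refine .inr ((injective_iff_map_eq_one ψ).2 fun a ha => ?_)
    have e1 : φ a = a := by simpa [ha] using h a
    have e2 : ∀ k, (φ ^ k) a = a := fun k => by
      induction k with
      | zero => rfl
      | succ k ih => rw [pow_succ']; show φ ((φ ^ k) a) = a; rw [ih, e1]
    rw [← e2 n]
    exact mem_bot.1 (e ▸ (show θ a ∈ θ.range from ⟨a, rfl⟩))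
  · refine .inl ((injective_iff_map_eq_one φ).2 fun a ha => mem_bot.1 (e ▸ (show θ a = 1 from ?_)))
    obtain ⟨k, rfl⟩ := Nat.exists_eq_succ_of_ne_zero n0.ne'
    show (φ ^ (k + 1)) a = 1
    rw [pow_succ]; show (φ ^ k) (φ a) = 1; rw [ha, map_one]

theorem fam {A ι : Type*} [Group A] [Finite A] [DecidableEq ι] (hA : Ind A) {B : ι → Type*} [∀ i, Group (B i)]
    (f : A →* ∀ i, B i) (s : Finset ι) : ∀ g : (∀ i, B i) →* A, (∀ a i, i ∉ s → f a i = 1) →
      Function.Injective (g.comp f) → ∃ i, Function.Injective (fun a => g (Pi.mulSingle i (f a i))) := by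
  induction s using Finset.induction_on generalizing f with
  | empty =>
    intro g h inj
    haveI := hA.1
    obtain ⟨a, ha⟩ := exists_ne (1 : A)
    exact absurd (inj (show g (f a) = g (f 1) by rw [map_one, show f a = 1 from funext fun i => h a i (by simp)])) ha
  | insert j s hj ih =>
    intro g h inj
    set e := MulEquiv.ofBijective _ (Finite.injective_iff_bijective.1 inj)
    let f1 : A →* ∀ i, B i := (MonoidHom.mulSingle B j).comp ((Pi.evalMonoidHom B j).comp f)
    let f2 : A →* ∀ i, B i := Pi.monoidHom fun i => if i = j then 1 else (Pi.evalMonoidHom B i).comp f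
    have e1 : ∀ a i, f1 a i = if i = j then f a i else 1 := fun a i => by
      by_cases x : i = j
      · subst x; simp [f1]
      · simp [f1, x]
    have e2 : ∀ a i, f2 a i = if i = j then 1 else f a i := fun a i => by
      show (if i = j then 1 else (Pi.evalMonoidHom B i).comp f) a = _
      by_cases x : i = j <;> simp [x]
    rcases two hA (e.symm.toMonoidHom.comp (g.comp f1)) (e.symm.toMonoidHom.comp (g.comp f2))
      (fun a b => ((show Commute (f1 a) (f2 b) from funext fun i => by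
        by_cases x : i = j <;> simp [e1, e2, x]).map g).map e.symm)
      (fun a => by
        show e.symm (g (f1 a)) * e.symm (g (f2 a)) = a
        rw [← map_mul, ← map_mul, MulEquiv.symm_apply_eq]
        exact congrArg g (funext fun i => by by_cases x : i = j <;> simp [e1, e2, x])) with i1 | i2
    · exact ⟨j, fun a b x => i1 (congrArg e.symm x)⟩
    · obtain ⟨i, hi⟩ := ih f2 g (fun a i hi => by
        by_cases x : i = j
        · simp [e2, x]
        · rw [e2, if_neg x]; exact h a i (by simp [x, hi])) fun a b x => i2 (congrArg e.symm x)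
      by_cases x : i = j
      · haveI := hA.1
        obtain ⟨a, ha⟩ := exists_ne (1 : A)
        exact absurd (hi (a₁ := a) (a₂ := 1) (by simp [e2, x])) ha
      · exact ⟨i, by simpa [e2, x] using hi⟩

def ex {ι : Type*} [DecidableEq ι] (A : ι → Type*) [∀ i, Group (A i)] (i0 : ι) :
    (∀ i : {i // i ≠ i0}, A i) →* ∀ i, A i where
  toFun q i := if h : i = i0 then 1 else q ⟨i, h⟩
  map_one' := funext fun i => by by_cases h : i = i0 <;> simp [h]
  map_mul' a b := funext fun i => by by_cases h : i = i0 <;> simp [h]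

theorem canc {ι κ : Type*} [DecidableEq ι] [DecidableEq κ] {A : ι → Type*} {B : κ → Type*} [∀ i, Group (A i)]
    [∀ i, Group (B i)] (e : (∀ i, A i) ≃* ∀ j, B j) (i0 : ι) (j0 : κ)
    (h : Function.Injective fun b => e.symm (Pi.mulSingle j0 b) i0) :
    ∃ φ : (∀ i : {i // i ≠ i0}, A i) →* ∀ j : {j // j ≠ j0}, B j, Function.Injective φ := by
  refine ⟨Pi.monoidHom fun j => (Pi.evalMonoidHom B j.1).comp (e.toMonoidHom.comp (ex A i0)),
    (injective_iff_map_eq_one _).2 fun a ha => ?_⟩
  have e1 : e (ex A i0 a) = Pi.mulSingle j0 (e (ex A i0 a) j0) := funext fun j => by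
    by_cases x : j = j0
    · subst x; simp
    · rw [Pi.mulSingle_eq_of_ne x]; exact congrFun ha ⟨j, x⟩
  have e2 : e (ex A i0 a) j0 = 1 := h (by simp only [← e1]; simp [ex])
  rw [e2, Pi.mulSingle_one, map_eq_one_iff _ e.injective] at e1
  funext i
  simpa [ex, i.2] using congrFun e1 i

universe u v in
theorem krs (m : ℕ) : ∀ (ι κ : Type) [Fintype ι] [Fintype κ] (A : ι → Type u) (B : κ → Type v) [∀ i, Group (A i)]
    [∀ j, Group (B j)] [∀ i, Finite (A i)] [∀ j, Finite (B j)], Fintype.card ι = m → (∀ i, Ind (A i)) →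
    (∀ j, Ind (B j)) → ((∀ i, A i) ≃* ∀ j, B j) → ∃ σ : ι ≃ κ, ∀ i, Nonempty (A i ≃* B (σ i)) := by
  classical
  induction m with
  | zero =>
    intro ι κ _ _ A B _ _ _ _ hm hA hB e
    haveI := Fintype.card_eq_zero_iff.1 hm
    haveI : IsEmpty κ := ⟨fun j => by
      haveI := (hB j).1
      obtain ⟨b, hb⟩ := exists_ne (1 : B j)
      have : Pi.mulSingle j b = (1 : ∀ j, B j) := e.symm.injective (Subsingleton.elim _ _)
      exact hb (by simpa using congrFun this j)⟩
    exact ⟨Equiv.equivOfIsEmpty _ _, fun i => isEmptyElim i⟩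
  | succ m ih =>
    intro ι κ _ _ A B _ _ _ _ hm hA hB e
    obtain ⟨i0⟩ := Fintype.card_pos_iff.1 (show 0 < Fintype.card ι by omega)
    obtain ⟨j0, hj⟩ := fam (hA i0) (e.toMonoidHom.comp (MonoidHom.mulSingle A i0)) Finset.univ
      ((Pi.evalMonoidHom A i0).comp e.symm.toMonoidHom) (by simp) fun a b x => by simpa using x
    let f : A i0 →* B j0 := (Pi.evalMonoidHom B j0).comp (e.toMonoidHom.comp (MonoidHom.mulSingle A i0))
    let g : B j0 →* A i0 := (Pi.evalMonoidHom A i0).comp (e.symm.toMonoidHom.comp (MonoidHom.mulSingle B j0))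
    have gf : Function.Injective (g.comp f) := hj
    have fi : Function.Injective f := fun a b x => gf (congrArg g x)
    obtain ⟨s1, s2⟩ := split f g (Finite.injective_iff_bijective.1 gf)
    have fn : f.range.Normal := ⟨by
      rintro _ ⟨a, rfl⟩ b
      obtain ⟨c, hc⟩ := e.surjective (Pi.mulSingle j0 b)
      refine ⟨c i0 * a * (c i0)⁻¹, ?_⟩
      have : Pi.mulSingle i0 (c i0 * a * (c i0)⁻¹) = c * Pi.mulSingle i0 a * c⁻¹ := funext fun i => by
        by_cases x : i = i0
        · subst x; simp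
        · simp [x]
      show e (Pi.mulSingle i0 _) j0 = b * e (Pi.mulSingle i0 a) j0 * b⁻¹
      rw [this]; simp [hc]⟩
    have gk : g.ker = ⊥ := ((hB j0).2 _ _ fn inferInstance s1 s2).resolve_left fun x => by
      haveI := (hA i0).1
      obtain ⟨a, ha⟩ := exists_ne (1 : A i0)
      exact ha (fi ((mem_bot.1 (x ▸ (show f a ∈ f.range from ⟨a, rfl⟩))).trans f.map_one.symm))
    have gi := (MonoidHom.ker_eq_bot_iff g).1 gk
    rw [gk, sup_bot_eq, MonoidHom.range_eq_top] at s2
    obtain ⟨φ, hφ⟩ := canc e i0 j0 gi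
    obtain ⟨ψ, hψ⟩ := canc e.symm j0 i0 fi
    obtain ⟨σ, hσ⟩ := ih {i // i ≠ i0} {j // j ≠ j0} (fun i => A i) (fun j => B j) (by simp [hm])
      (fun i => hA i) (fun j => hB j) (MulEquiv.ofBijective φ (hφ.bijective_of_nat_card_le
        (Nat.card_le_card_of_injective ψ hψ)))
    refine ⟨((Equiv.optionSubtypeNe i0).symm.trans σ.optionCongr).trans (Equiv.optionSubtypeNe j0), fun i => ?_⟩
    by_cases x : i = i0
    · subst x
      rw [show ((Equiv.optionSubtypeNe i).symm.trans σ.optionCongr).trans (Equiv.optionSubtypeNe j0) i = j0 by simp]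
      exact ⟨MulEquiv.ofBijective f ⟨fi, s2⟩⟩
    · rw [show ((Equiv.optionSubtypeNe i0).symm.trans σ.optionCongr).trans (Equiv.optionSubtypeNe j0) i = σ ⟨i, x⟩ by
        simp [x]]
      exact hσ ⟨i, x⟩

/-- If a finite group is isomorphic both to a direct product of `m` directly indecomposable nontrivial groups and to a direct product of `n` such groups (a group is directly indecomposable when it is not the internal direct product of two nontrivial normal subgroups), then `m = n` and the factors are isomorphic in pairs after a suitable matching. -/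
theorem result {m n : ℕ} {A : Fin m → Type*} {B : Fin n → Type*} [∀ i, Group (A i)] [∀ j, Group (B j)] [∀ i, Finite (A i)] [∀ j, Finite (B j)] (hA : ∀ i, Nontrivial (A i) ∧ ∀ H K : Subgroup (A i), H.Normal → K.Normal → H ⊓ K = ⊥ → H ⊔ K = ⊤ → H = ⊥ ∨ K = ⊥) (hB : ∀ j, Nontrivial (B j) ∧ ∀ H K : Subgroup (B j), H.Normal → K.Normal → H ⊓ K = ⊥ → H ⊔ K = ⊤ → H = ⊥ ∨ K = ⊥) (e : ((i : Fin m) → A i) ≃* ((j : Fin n) → B j)) : ∃ σ : Fin m ≃ Fin n, ∀ i, Nonempty (A i ≃* B (σ i)) := by
  exact krs m _ _ A B (by simp) hA hB e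


end Cfsg.Agent.S4223
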