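import Cfsg.Statements.S4225
import Mathlib
import Cfsg.Agent.L0.Reg

set_option autoImplicit false
open Cfsg

namespace Cfsg.Agent.S4225

open Cfsg Subgroup CfsgH2 CfsgL0

/-- In a regular `p`-group, for every `k` the elements whose `p^k`-th power is `1` form a characteristic subgroup. -/
theorem result {G : Type*} [Group G] [Finite G] {p : ℕ} [Fact p.Prime] (hG : Cfsg.IsRegularPGroup p G) (k : ℕ) : ∃ H : Subgroup G, H.Characteristic ∧ (H : Set G) = {x : G | x ^ p ^ k = 1} := by
  have h := (rg_of_reg (P := ⊤) hG).om (k := k) (hG.1.to_subgroup ⊤)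
  have h1 : ∀ x, x ∈ omegaOne (p ^ k) (⊤ : Subgroup G) ↔ x ^ p ^ k = 1 := fun x => ⟨h x, mem_omegaOne (mem_top x)⟩
  refine ⟨omegaOne (p ^ k) ⊤, characteristic_iff_comap_le.2 fun φ x hx => ?_, Set.ext h1⟩
  rw [mem_comap, h1] at hx
  rw [h1]
  exact φ.injective (by simpa using hx)

end Cfsg.Agent.S4225
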