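import Cfsg.Statements.S4227
import Mathlib
import Cfsg.Agent.H9.Tb5

set_option autoImplicit false
open Cfsg

namespace Cfsg.Agent.S4227

/-- A finite group in which every element has order dividing `6` has `2`-length at most `1` and `3`-length at most `1`. -/
theorem result {G : Type*} [Group G] [Finite G] (h : ∀ x : G, x ^ 6 = 1) : Cfsg.PLengthLE 2 1 G ∧ Cfsg.PLengthLE 3 1 G := by
  open Subgroup Cfsg CfsgH2 Function CfsgCP CfsgTB in
  have k : ∀ t : ℕ, t.Prime → t ∣ Nat.card G → t = 2 ∨ t = 3 := fun t a b => by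
    haveI := Fact.mk a
    obtain ⟨x, hx⟩ := exists_prime_orderOf_dvd_card' t b
    rcases (a.dvd_mul (m := 2) (n := 3)).1 (hx ▸ orderOf_dvd_of_pow_eq_one (h x)) with c | c
    · exact .inl ((Nat.prime_dvd_prime_iff_eq a Nat.prime_two).1 c)
    · exact .inr ((Nat.prime_dvd_prime_iff_eq a Nat.prime_three).1 c)
  obtain ⟨j, m, hm, e⟩ := Nat.exists_eq_two_pow_mul_odd (Nat.card_pos (α := G)).ne'
  haveI : Group.IsSolvable G := CfsgH3.burnside_paqb 2 3 j m.primeFactorsList.length Nat.prime_two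
    Nat.prime_three (by
      rw [← Nat.eq_prime_pow_of_unique_prime_dvd hm.pos.ne' fun a b => (k _ a (e ▸ b.mul_left _)).resolve_left
        fun z => hm.not_two_dvd_nat (z ▸ b), e])
  have e : ∀ (p q : ℕ) [Fact p.Prime], p * q = 6 → p.Coprime q → ∀ P : Subgroup G, PG[p, P] → ∀ x ∈ P, x ^ p = 1 :=
    fun p q _ a b P c x hx => by
      obtain ⟨j, hj⟩ := pgroup_mem_order c hx
      exact orderOf_dvd_iff_pow_eq_one.1 (Nat.Coprime.dvd_of_dvd_mul_right (hj ▸ b.pow_left j)
        (a ▸ orderOf_dvd_of_pow_eq_one (h x)))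
  have a : ∀ P : Subgroup G, PG[2, P] → Ab[P] := fun P c => (el_two fun x hx => by
    rw [← sq, e 2 3 rfl (by norm_num) P c x hx]).1
  obtain ⟨S, hS⟩ := exists_syl 2 (⊤ : Subgroup G)
  obtain ⟨T, hT⟩ := exists_syl 3 (⊤ : Subgroup G)
  exact ⟨plen_class (CfsgH1.isPSolvable_of_isSolvable Nat.prime_two) hS (comm_self_eq_bot_iff.2 (a S hS.pg)),
    plen_exp (CfsgH1.isPSolvable_of_isSolvable Nat.prime_three) hT (ne_of_odd (by norm_num) (.inr a))
      (by simpa using e 3 2 rfl (by norm_num) T hT.pg)⟩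

end Cfsg.Agent.S4227
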