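import Cfsg.Statements.S4274
import Mathlib
import Cfsg.Agent.H9.Kil
import Cfsg.Agent.H9.Gen
import Cfsg.Agent.H2.BG0
import Cfsg.Agent.H2.PG1

set_option autoImplicit false
open Cfsg

namespace Cfsg.Agent.S4274

section
open Subgroup Cfsg CfsgH2 Function
open scoped commutatorElement

universe u
theorem key (n : ℕ) : ∀ (H : Type u) [Group H] [Finite H] (d : ℕ), Nat.card H = n → n = 19 * d →
    d ∣ 9240 → (d ≠ 9240 ∨ ¬ IsSimpleGroup H) → ∀ P : Sylow 19 H, (P : Subgroup H).Normal := by
  haveI : Fact (Nat.Prime 19) := ⟨by norm_num⟩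
  induction n using Nat.strong_induction_on with
  | _ n ih =>
  intro H _ _ d h1 h2 hd h P
  have d0 : 0 < d := Nat.pos_of_dvd_of_pos hd (by norm_num)
  have d1 : d ≤ 9240 := Nat.le_of_dvd (by norm_num) hd
  have nd : ¬ 19 ∣ d := fun e => absurd (e.trans hd) (by norm_num)
  by_cases hs : IsSimpleGroup H
  · by_cases e : d = 1
    · haveI : IsCyclic H := isCyclic_of_prime_card (p := 19) (by rw [h1, h2, e])
      exact normal_of_isMulCommutative _
    · exact absurd (CfsgKil.no_simple (h1.trans h2) hd e) (h.resolve_right (not_not.2 hs))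
  haveI : Nontrivial H := Finite.one_lt_card_iff_nontrivial.1 (by omega)
  obtain ⟨N, hN, n1, n2⟩ : ∃ N : Subgroup H, N.Normal ∧ N ≠ ⊥ ∧ N ≠ ⊤ := by
    by_contra! hc
    exact hs ⟨fun N hN => or_iff_not_imp_left.2 (hc N hN)⟩
  have sP : Syl 19 (P : Subgroup H) ⊤ := syl_top P
  have cm := N.card_mul_index
  have fin : ∀ M : Subgroup H, M.Normal → (P : Subgroup H) ≤ M → M ≤ N[(P : Subgroup H)] →
      (P : Subgroup H).Normal := fun M hM a b => by
    have := (sP.mono a le_top).norm_le_of_norm b
    rw [normalizer_eq_top] at this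
    exact normalizer_eq_top_iff.1 (top_le_iff.1 this)
  have i1 : 1 < N.index := one_lt_index_of_ne_top n2
  have i2 : 1 < Nat.card N := (one_lt_card_iff_ne_bot N).2 n1
  by_cases hp : 19 ∣ Nat.card N
  · obtain ⟨c, hc⟩ := hp
    have e : c * N.index = d := by
      rw [hc, h1, h2, mul_assoc] at cm
      exact Nat.eq_of_mul_eq_mul_left (by norm_num) cm
    have lt : c < d := by nlinarith
    have sN : Syl 19 ((P : Subgroup H) ⊓ N) N := sP.inf_norm le_top le_normalizer_of_normal
    have PN : (P : Subgroup H) ≤ N := by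
      have : Syl 19 ((P : Subgroup H) ⊓ N) ⊤ := sN.trans le_top (by
        rw [relIndex_top_right]; exact fun f => nd (f.trans ⟨c, by rw [← e, mul_comm]⟩))
      exact inf_eq_left.1 (this.eq_of_le sP.pg inf_le_left le_top).symm
    obtain ⟨Q, hQ⟩ := (sP.mono PN le_top).exists_sub
    have := ih _ (by omega) N c rfl hc ((Dvd.intro _ e).trans hd) (Or.inl (by omega)) Q
    refine fin N hN PN ?_
    rw [← hQ]
    intro g hg
    exact mem_norm_map N.subtype (a := ⟨g, hg⟩) (top_le_norm_iff.2 this (mem_top _))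
  · have hi : 19 ∣ N.index :=
      ((by norm_num : Nat.Prime 19).dvd_mul.1 ⟨d, by rw [cm, h1, h2]⟩).resolve_left hp
    obtain ⟨c, hc⟩ := hi
    have e : Nat.card N * c = d := by
      rw [hc, h1, h2, mul_left_comm] at cm
      exact Nat.eq_of_mul_eq_mul_left (by norm_num) cm
    have lt : c < d := by nlinarith
    have := ih (19 * c) (by omega) (H ⧸ N) c hc rfl ((Dvd.intro_left _ e).trans hd) (Or.inl (by omega))
      (P.mapSurjective (QuotientGroup.mk'_surjective N))
    have hM := this.comap (QuotientGroup.mk' N)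
    rw [Sylow.coe_mapSurjective, comap_map_eq, QuotientGroup.ker_mk'] at hM
    refine fin _ hM le_sup_left (sup_le le_normalizer (le_trans ?_ (centralizer_le_normalizer _)))
    refine CfsgH9.le_of_forall_syl fun q _ => ?_
    obtain ⟨Q, q1, q2⟩ := exists_inv_syl q (A := (P : Subgroup H)) (K := N) le_normalizer_of_normal
      (coprime_of_pgroup sP.pg hp) (Or.inl (by haveI := nil_of_pg sP.pg; infer_instance))
    refine ⟨Q, ⟨q1.1, q1.2, q1.3⟩, fun x hx => mem_centralizer_iff.2 fun y hy => ?_⟩
    have c1 : Nat.card Q < 19 := by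
      rw [q1.card_eq]
      exact CfsgKil.pow_lt Fact.out ((Nat.ordProj_dvd _ _).trans ((Dvd.intro _ e).trans hd))
    have c2 := relIndex_cent1_le (H := (P : Subgroup H)) (K := Q) (a := x) fun z hz =>
      comm_le_right q2 (commutator_mem_commutator hz hx)
    obtain ⟨k, hk⟩ := sP.pg.index (C1[x].subgroupOf (P : Subgroup H))
    have c3 : C1[x].relIndex (P : Subgroup H) = 1 := by
      rcases k with _ | k
      · exact hk
      · have : 19 ≤ C1[x].relIndex (P : Subgroup H) :=
          Nat.le_of_dvd (relIndex_pos _ _) ⟨19 ^ k, hk.trans (pow_succ' _ _)⟩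
        omega
    exact mem_centralizer_singleton_iff.1 (relIndex_eq_one.1 c3 hy)

end

/-- A finite group of order 175560 = 2³·3·5·7·11·19 is either simple or has a normal Sylow 19-subgroup. -/
theorem result {G : Type*} [Group G] [Finite G] (hG : Nat.card G = 175560) : IsSimpleGroup G ∨ ∀ P : Sylow 19 G, (P : Subgroup G).Normal := by
  open Subgroup Cfsg CfsgH2 Function in
  open scoped commutatorElement in
  exact or_iff_not_imp_left.2 fun h => key _ G 9240 hG rfl dvd_rfl (Or.inr h)

end Cfsg.Agent.S4274
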