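import Cfsg.Statements.S4275
import Mathlib
import Cfsg.Agent.L0.M3

set_option autoImplicit false
open Cfsg

namespace Cfsg.Agent.S4275

open Cfsg Subgroup MulAction

/-- Let G be a transitive group of permutations of a finite set Ω, let o ∈ Ω, and let α be an automorphism of G. Then α is induced by conjugation by a permutation of Ω normalizing G if and only if the image under α of the stabilizer of o fixes some point of Ω. -/
theorem result {Ω : Type*} [Fintype Ω] (G : Subgroup (Equiv.Perm Ω)) (htr : MulAction.IsPretransitive G Ω) (o : Ω) (α : G ≃* G) : (∃ σ : Equiv.Perm Ω, σ ∈ Subgroup.normalizer (G : Set (Equiv.Perm Ω)) ∧ ∀ g : G, ((α g : G) : Equiv.Perm Ω) = σ * (g : Equiv.Perm Ω) * σ⁻¹) ↔ ∃ ω : Ω, ∀ g ∈ (MulAction.stabilizer G o).map α.toMonoidHom, g • ω = ω := by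
  constructor
  · rintro ⟨σ, -, h⟩
    refine ⟨σ o, ?_⟩
    rintro _ ⟨g, hg, rfl⟩
    have h1 : (g : Equiv.Perm Ω) o = o := hg
    show ((α g : G) : Equiv.Perm Ω) (σ o) = σ o
    simp [h, h1]
  · rintro ⟨ω, h⟩
    choose t ht using fun x => exists_smul_eq G o x
    have key : ∀ g : G, α (t (g • o)) • ω = α g • ω := fun g => by
      have := h _ ⟨g⁻¹ * t (g • o), by
        show _ = _
        rw [mul_smul, ht, inv_smul_smul], rfl⟩
      rw [← inv_smul_eq_iff, ← mul_smul, ← map_inv, ← map_mul]; exact this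
    have hs : Function.Surjective fun x => α (t x) • ω := fun y => by
      obtain ⟨k, rfl⟩ := exists_smul_eq G ω y
      exact ⟨α.symm k • o, by simp [key]⟩
    let σ : Equiv.Perm Ω := Equiv.ofBijective _ hs.bijective_of_finite
    have h2 : ∀ g : G, ((α g : G) : Equiv.Perm Ω) = σ * (g : Equiv.Perm Ω) * σ⁻¹ := fun g => by
      rw [eq_mul_inv_iff_mul_eq]
      ext x
      show α g • α (t x) • ω = α (t (g • x)) • ω
      conv_rhs => rw [← ht x, ← mul_smul, key]
      rw [map_mul, mul_smul]
    refine ⟨σ, CfsgH2.mem_norm_of_conj fun g hg => ?_, h2⟩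
    rw [← h2 ⟨g, hg⟩]; exact (α _).2

end Cfsg.Agent.S4275
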