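import Cfsg.Statements.S4277
import Cfsg.Agent.H1.Wie
import Cfsg.Agent.H8.PrimeDegree3

set_option autoImplicit false
open Cfsg

namespace Cfsg.Agent.S4277

/-- A case of the Schreier conjecture: if a finite simple group G has a subgroup of prime index, then the outer automorphism group of G is solvable. -/
theorem result {G : Type*} [Group G] [Finite G] [IsSimpleGroup G] (H : Subgroup G) (hH : H.index.Prime) : Group.IsSolvable (Cfsg.Out G) := by
  open CfsgH1.Wie MulAction in
  open scoped commutatorElement in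
  · classical
    have := Fact.mk hH
    have := Fintype.ofFinite (G ⧸ H)
    have h1 : Fintype.card (G ⧸ H) = H.index := Fintype.card_eq_nat_card
    have : Nontrivial (G ⧸ H) := Fintype.one_lt_card_iff_nontrivial.1 (h1 ▸ hH.one_lt)
    have : FaithfulSMul G (G ⧸ H) := ⟨fun {a b} h => (MonoidHom.ker_eq_bot_iff (toPermHom G (G ⧸ H))).1
      ((toPermHom G (G ⧸ H)).normal_ker.eq_bot_or_eq_top.resolve_right fun e => hH.ne_one (Subgroup.index_eq_one.2
        (top_le_iff.1 (e ▸ H.normalCore_eq_ker ▸ H.normalCore_le)))) (Equiv.ext h)⟩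
    obtain ⟨P⟩ : Nonempty (Sylow H.index G) := inferInstance
    obtain ⟨c, c1, c2⟩ := CfsgH8.sylow_eq_zpowers_of_prime_degree h1 P
    obtain ⟨e, he⟩ := CfsgH8.exists_coord_of_prime_degree h1 c1
    have h2 : ∀ α : MulAut G, ∃ β : MulAut G, (β : Out G) = α ∧ ∃ i : ℤ, β c = c ^ i := fun α => by
      obtain ⟨g, hg⟩ := exists_smul_eq G (α • P) P
      obtain ⟨i, hi⟩ : (MulAut.conj g * α) c ∈ Subgroup.zpowers c := by
        rw [← c2, ← hg]
        exact Subgroup.smul_mem_pointwise_smul _ _ _ (Subgroup.smul_mem_pointwise_smul _ _ _ (c2 ▸ Subgroup.mem_zpowers c))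
      exact ⟨_, by rw [QuotientGroup.mk_mul, (QuotientGroup.eq_one_iff (N := Inn G) _).2 ⟨g, rfl⟩, one_mul], i, hi.symm⟩
    have h3 : commutator (Out G) ≤ (stabilizer (MulAut G) c).map (QuotientGroup.mk' _) := Subgroup.commutator_le.2 fun a _ b _ => by
      obtain ⟨α, rfl⟩ := QuotientGroup.mk_surjective a
      obtain ⟨β, rfl⟩ := QuotientGroup.mk_surjective b
      obtain ⟨α, e1, i, hi⟩ := h2 α⁻¹
      obtain ⟨β, e2, j, hj⟩ := h2 β⁻¹
      refine ⟨α⁻¹ * β⁻¹ * α * β, ?_, by simp [e1, e2, commutatorElement_def]⟩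
      rw [SetLike.mem_coe, mem_stabilizer_iff, mul_smul, mul_smul, mul_smul, inv_smul_eq_iff, inv_smul_eq_iff]
      simp only [MulAut.smul_def, hi, hj, map_zpow, ← zpow_mul, mul_comm]
    have h4 : ∀ α : MulAut G, α c = c → Odd (orderOf α) → α ∈ Inn G := fun α a1 a2 => by
      rcases CfsgH8.affine_or_two_transitive e he with h | h
      · have := CfsgH8.isSolvable_of_affine e e.injective h
        have h5 := IsSimpleGroup.comm_iff_isSolvable.2 this
        have h6 : Subgroup.zpowers c = ⊤ := (Subgroup.Normal.eq_bot_or_eq_top ⟨fun x hx g => by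
          rwa [h5 g, mul_inv_cancel_right]⟩).resolve_left fun e => hH.ne_one (by
            rw [← c1, Subgroup.zpowers_eq_bot.1 e, orderOf_one])
        refine ⟨1, MulEquiv.ext fun x => ?_⟩
        obtain ⟨i, rfl⟩ := h6.ge (Subgroup.mem_top x)
        simp [a1]
      obtain ⟨σ, hσ⟩ := wie_hall h (1 : G) (by
        rw [stabilizer_quotient, ← Nat.mul_left_cancel hH.pos (P.1.card_mul_index.trans H.index_mul_card.symm ▸ by
          rw [c2, Nat.card_zpowers, c1] : H.index * P.1.index = H.index * Nat.card H)]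
        exact ((Nat.Prime.coprime_iff_not_dvd hH).2 P.not_dvd_index).symm) α a2
      have h5 : ∀ x y : G ⧸ H, ∃ i : ℤ, c ^ i • x = y := fun x y =>
        ⟨(e y - e x).val, e.injective (by rw [CfsgH8.coord_zpow e he]; simp)⟩
      obtain ⟨i, hi⟩ := h5 (1 : G) (σ (1 : G))
      have h6 : ∀ x, σ x = c ^ i • x := fun x => by
        obtain ⟨j, rfl⟩ := h5 (1 : G) x
        rw [← hσ, map_zpow, a1, ← hi, smul_smul, smul_smul, zpow_mul_comm]
      refine ⟨c ^ i, MulEquiv.ext fun g => FaithfulSMul.eq_of_smul_eq_smul fun x : G ⧸ H => ?_⟩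
      obtain ⟨x, rfl⟩ := σ.surjective x
      rw [hσ, h6, h6, MulAut.conj_apply, mul_smul, mul_smul, inv_smul_smul]
    have h5 : IsPGroup 2 ((stabilizer (MulAut G) c).map (QuotientGroup.mk' (Inn G))) := by
      rintro ⟨_, α, hα, rfl⟩
      obtain ⟨k, m, hm, e⟩ := Nat.exists_eq_two_pow_mul_odd (orderOf_pos α).ne'
      refine ⟨k, Subtype.ext ((QuotientGroup.eq_one_iff (α ^ 2 ^ k)).2 (h4 _ (pow_mem hα _) ?_))⟩
      rwa [orderOf_pow_of_dvd (by positivity) ⟨m, e⟩, e, Nat.mul_div_cancel_left _ (by positivity)]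
    have := (h5.to_le h3).isNilpotent
    exact solvable_of_ker_le_range (commutator (Out G)).subtype Abelianization.of (by simp [Abelianization.ker_of])

end Cfsg.Agent.S4277
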