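import Cfsg.Statements.S4282
import Mathlib
import Cfsg.Agent.H9.Tb3

set_option autoImplicit false
open Cfsg

namespace Cfsg.Agent.S4282

/-- A critical case behind the Hall–Higman theorem. Let p ≠ q be primes and G a finite group generated by a normal q-subgroup Q and a cyclic p-subgroup generated by x, such that the centralizer of every non-identity element of that cyclic subgroup is its product with the centre of G. Let K be an algebraically closed field of characteristic p and ρ a faithful representation of G on a nonzero finite-dimensional K-space whose restriction to Q is irreducible. If s is the least exponent with (ρ(x) − 1)^s = 0, then |⟨x⟩| − 1 ≤ s ≤ |⟨x⟩|; and if s = |⟨x⟩| − 1 then |⟨x⟩| − 1 is a power of q and Q is non-abelian. -/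
theorem result {G : Type*} [Group G] [Finite G] (p q : ℕ) [Fact p.Prime] [Fact q.Prime] (hpq : p ≠ q) (Q : Subgroup G) [Q.Normal] (hQ : IsPGroup q Q) (x : G) (hx : IsPGroup p (Subgroup.zpowers x)) (hgen : Q ⊔ Subgroup.zpowers x = ⊤) (hC : ∀ y ∈ Subgroup.zpowers x, y ≠ 1 → Subgroup.centralizer ({y} : Set G) = Subgroup.zpowers x ⊔ Subgroup.center G) {K : Type*} [Field K] [IsAlgClosed K] [CharP K p] {V : Type*} [AddCommGroup V] [Module K V] [FiniteDimensional K V] [Nontrivial V] (ρ : Representation K G V) (hfaith : Function.Injective ρ) (hirr : ∀ W : Submodule K V, (∀ g ∈ Q, Submodule.map (ρ g) W ≤ W) → W = ⊥ ∨ W = ⊤) (s : ℕ) (hs : (ρ x - 1) ^ s = 0) (hmin : ∀ k < s, (ρ x - 1) ^ k ≠ 0) : Nat.card (Subgroup.zpowers x) - 1 ≤ s ∧ s ≤ Nat.card (Subgroup.zpowers x) ∧ (s = Nat.card (Subgroup.zpowers x) - 1 → (∃ b : ℕ, Nat.card (Subgroup.zpowers x) - 1 = q ^ b) ∧ ¬ IsMulCommutative Q) := by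
  open Subgroup Cfsg CfsgH2 Function CfsgCP CfsgTB in
  have hp : p.Prime := Fact.out
  obtain ⟨k, hk⟩ := exists_card_eq_pow hx
  have o : x ^ p ^ k = 1 := by rw [← hk, Nat.card_zpowers, pow_orderOf_eq_one]
  have a : s ≤ p ^ k := not_lt.1 fun a => hmin _ a (by
    rw [sub_one_pow (K := K), ← map_pow, o, map_one, sub_self])
  have s0 : s ≠ 0 := by
    rintro rfl
    exact one_ne_zero hs
  rw [hk]
  by_cases x1 : x = 1
  · rw [x1, zpowers_one_eq_bot, card_bot] at hk
    rw [← hk] at a ⊢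
    omega
  have i : Ir ρ Q ⊤ := ⟨fun _ _ _ _ => trivial, top_ne_bot, fun W _ h => hirr W fun g hg =>
    Submodule.map_le_iff_le_comap.2 (h hg)⟩
  have z : ∀ g ∈ zpowers x ⊔ center G, g ∈ Q → g ∈ center G := fun g h1 h2 => by
    obtain ⟨a, a1, c, c1, rfl⟩ := (mem_sup_of_norm' le_normalizer_of_normal).1 (sup_comm (a := zpowers x) _ ▸ h1)
    refine zpowers_le.2 ?_ (mem_zpowers_pow_iff.2 ((coprime_of_pgroup hx (not_dvd_pg hQ hpq)).coprime_dvd_right
      (orderOf_dvd_of_mem h2)))
    rw [Commute.mul_pow (mem_center_iff.1 a1 c).symm, orderOf_dvd_iff_pow_eq_one.1 (orderOf_dvd_of_mem c1),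
      mul_one]
    exact pow_mem a1 _
  rcases i.crit (card_ne hQ hpq) (le_normalizer_of_normal (mem_top x)) (fun _ _ => trivial) o
    (fun j a b g hg => center_le_centralizer _ (z g (hC _ (npow_mem_zpowers _ _) (fun e => by
      rw [← orderOf_dvd_iff_pow_eq_one, ← Nat.card_zpowers, hk] at e
      exact (Nat.le_of_dvd a e).not_gt b) ▸ hg.2) hg.1)) (s := s) (fun v _ => by rw [hs]; rfl)
    (fun e => x1 (hfaith (by rw [map_one]; exact LinearMap.ext fun v => e v trivial))) with b | ⟨b, c, d⟩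
  · exact ⟨by omega, a, fun e => by omega⟩
  obtain ⟨m, hm⟩ := Ir.dim (fun z => hpq ((Nat.prime_dvd_prime_iff_eq hp Fact.out).1
    ((CharP.cast_eq_zero_iff K p _).1 z))) Q hQ _ i
  refine ⟨by omega, a, fun _ => ⟨⟨m, by omega⟩, fun e => ?_⟩⟩
  have := i.rank_one ((comm_self_eq_bot_iff.2 e).le.trans bot_le)
  omega

end Cfsg.Agent.S4282
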