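import Cfsg.Statements.S4283
import Cfsg.Agent.H1.Misc1

set_option autoImplicit false
open Cfsg

namespace Cfsg.Agent.S4283

/-- Let G be a finite group with centre Z and let K, H be abelian subgroups of G containing Z such that G/Z is a Frobenius group with complement H/Z and kernel K/Z. Then the conjugacy class sizes of G are exactly 1, [G : K] and [G : H], and these two indices are coprime. (This is the converse half of the characterization of finite groups whose conjugacy class sizes are exactly 1, m and n with m and n coprime.) -/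
theorem result {G : Type*} [Group G] [Finite G] (K H : Subgroup G) (hZK : Subgroup.center G ≤ K) (hZH : Subgroup.center G ≤ H) (hK : IsMulCommutative K) (hH : IsMulCommutative H) (hFrob : Cfsg.IsFrobeniusComplement (H.map (QuotientGroup.mk' (Subgroup.center G)))) (hker : Cfsg.frobeniusKernel (H.map (QuotientGroup.mk' (Subgroup.center G))) = (K.map (QuotientGroup.mk' (Subgroup.center G)) : Set (G ⧸ Subgroup.center G))) : Set.range (fun x : G => (Subgroup.centralizer ({x} : Set G)).index) = ({1, K.index, H.index} : Set ℕ) ∧ K.index.Coprime H.index := by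
  open Subgroup CfsgH2 in
  open CfsgH1 hiding card_inf_mul_relIndex card_lt_of_lt card_lt_of_ne_top card_map_mul_card_inf_ker card_mul_relIndex card_subgroupOf card_sup_dvd card_sup_mul_card_inf exists_card_prime_le isNilpotent_map isNilpotent_of_le isPGroup_pCore isSolvable_map isSolvable_of_le le_pCore le_pPrimeCore relIndex_map_dvd in
  open scoped CfsgH1 in
  open scoped commutatorElement in
  · have h := frob_top_iff.2 ⟨hFrob, hker⟩
    have := h.normal
    have i : ∀ L : Subgroup G, center G ≤ L → (L.map (QuotientGroup.mk' (center G))).comap (QuotientGroup.mk' _) = L := fun L a => by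
      rw [comap_map_mk', sup_eq_left.2 a]
    have c : ∀ L : Subgroup G, center G ≤ L → IsMulCommutative L → ∀ x ∈ L, (⊤ ⊓ C1[(x : G ⧸ center G)] ≤ L.map (QuotientGroup.mk' _)) →
        C1[x] = L := fun L a b x hx e => le_antisymm (fun y hy => (i L a).le (e ⟨trivial, mem_centralizer_singleton_iff.2
          (congrArg (QuotientGroup.mk' _) (mem_centralizer_singleton_iff.1 hy))⟩)) ((le_cent_self b).trans (cent_le_cent1 hx))
    have cK := fun x hx e => c K hZK hK x hx (h.cent_le_ker (mem_map_of_mem _ hx) e)
    have cH := fun x hx e => c H hZH hH x hx (h.cent_le_comp (mem_map_of_mem _ hx) e)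
    refine ⟨Set.ext fun n => ⟨?_, ?_⟩, ?_⟩
    · rintro ⟨x, rfl⟩
      by_cases e : (x : G ⧸ center G) = 1
      · exact .inl (index_eq_one.2 (centralizer_eq_top_iff_subset.2 (by simpa using e)))
      rcases h.mem_or_conj (mem_top (x : G ⧸ center G)) with a | ⟨y, -, _, ⟨z, a, rfl⟩, b, d⟩
      · exact .inr (.inl (congrArg index (cK x ((i K hZK).le a) e)))
      obtain ⟨y, rfl⟩ := QuotientGroup.mk_surjective y
      have f : ((y⁻¹ * x * y : G) : G ⧸ center G) = z := by simp [d, mul_assoc]
      refine .inr (.inr ?_)
      rw [← cH (y⁻¹ * x * y) ((i H hZH).le ⟨z, a, f.symm⟩) (f ▸ b), show y⁻¹ * x * y = y⁻¹ * x * y⁻¹⁻¹ by simp, centralizer_conj, index_map_cj]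
      rfl
    · rintro (rfl | rfl | rfl)
      · exact ⟨1, by simp⟩
      · obtain ⟨⟨_, x, a, rfl⟩, b⟩ := ne_bot_iff_exists_ne_one.1 h.ker_ne
        exact ⟨x, congrArg index (cK x a fun e => b (Subtype.ext e))⟩
      · obtain ⟨⟨_, x, a, rfl⟩, b⟩ := ne_bot_iff_exists_ne_one.1 h.comp_ne
        exact ⟨x, congrArg index (cH x a fun e => b (Subtype.ext e))⟩
    rw [← i K hZK, ← i H hZH, index_comap_mk', index_comap_mk', ← relIndex_top_right, ← relIndex_top_right, h.relIndex_ker, h.relIndex_comp]
    exact h.coprime

end Cfsg.Agent.S4283
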