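import Mathlib
import Cfsg.Statements.S4292
import Cfsg.Agent.H8.FC10

set_option autoImplicit false
open Cfsg

namespace Cfsg.Agent.S4292

open CfsgH8.FC Function

/-- Let A and B be nontrivial finite groups. Then the direct product A × B occurs as a Frobenius complement if and only if A and B both occur as Frobenius complements and the orders of A and B are coprime. -/
theorem result {A B : Type*} [Group A] [Finite A] [Nontrivial A] [Group B] [Finite B] [Nontrivial B] :
    (∃ (L : Type) (_ : Group L) (_ : Finite L) (H : Subgroup L), Cfsg.IsFrobeniusComplement H ∧ Nonempty ((A × B) ≃* H)) ↔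
    ((∃ (L : Type) (_ : Group L) (_ : Finite L) (H : Subgroup L), Cfsg.IsFrobeniusComplement H ∧ Nonempty (A ≃* H)) ∧
     (∃ (L : Type) (_ : Group L) (_ : Finite L) (H : Subgroup L), Cfsg.IsFrobeniusComplement H ∧ Nonempty (B ≃* H)) ∧
     (Nat.card A).Coprime (Nat.card B)) := by
  refine ⟨fun ⟨L, _, _, H, hH, ⟨e⟩⟩ => ?_, fun ⟨⟨L, _, _, H, hH, ⟨e⟩⟩, ⟨L', _, _, H', hH', ⟨e'⟩⟩, c⟩ =>
    ((fc_of_compl hH e).prod (fc_of_compl hH' e') c).cpl.choose_spec.out⟩
  have h := fc_of_compl (k := ℂ) hH e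
  refine ⟨(h.comap (MonoidHom.inl A B) (fun _ _ e => congrArg Prod.fst e)).cpl.choose_spec.out,
    (h.comap (MonoidHom.inr A B) (fun _ _ e => congrArg Prod.snd e)).cpl.choose_spec.out,
    Nat.coprime_of_dvd fun p hp h1 h2 => ?_⟩
  haveI := Fact.mk hp
  obtain ⟨a, ha⟩ := exists_prime_orderOf_dvd_card' p h1
  obtain ⟨b, hb⟩ := exists_prime_orderOf_dvd_card' p h2
  obtain ⟨k, hk⟩ := h.mem_zpowers (x := (a, 1)) (y := (1, b)) (by simp) (by simp [Prod.orderOf_mk, ha, hb])
  have : b = 1 := by simpa using (congrArg Prod.snd hk).symm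
  exact hp.ne_one (by rw [← hb, this, orderOf_one])

end Cfsg.Agent.S4292
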