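import Mathlib
import Cfsg.Statements.S4296
import Cfsg.Agent.H8.FC10

set_option autoImplicit false
open Cfsg

namespace Cfsg.Agent.S4296

open Subgroup CfsgH1 CfsgH2 CfsgH4 CfsgH8.FC Function

/-- Let H be a Frobenius complement in a finite group, and suppose some Sylow subgroup of H is not cyclic. Then the number of elements of the Frobenius kernel (the identity together with the elements lying in no conjugate of H) is an odd perfect square. -/
theorem result {L : Type*} [Group L] [Finite L] (H : Subgroup L) (hF : Cfsg.IsFrobeniusComplement H)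
    (hZ : ∃ (p : ℕ) (_ : Fact p.Prime) (P : Sylow p H), ¬ IsCyclic P) :
    Odd (Nat.card (Cfsg.frobeniusKernel H)) ∧ IsSquare (Nat.card (Cfsg.frobeniusKernel H)) := by
  obtain ⟨K, h⟩ := exists_frob hF
  obtain ⟨p, _, P, hP⟩ := hZ
  have f := fc_of_frob (k := ℂ) h
  obtain rfl : p = 2 := by_contra fun e => hP (f.cyc_odd e P.isPGroup')
  obtain ⟨a, b, m, q⟩ := (f.two P.isPGroup').resolve_left hP
  have d : 2 ∣ Nat.card H := q.ord_t ▸ orderOf_dvd_natCard _
  have o : Odd (Nat.card K) := Nat.coprime_two_left.1 (h.coprime.coprime_dvd_left d)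
  rw [h.kernel_eq]
  refine ⟨o, ?_⟩
  haveI := h.normal
  haveI := h.isMulComm_ker d
  letI : CommGroup K := IsMulCommutative.instCommGroup
  letI : DistribMulAction H (Additive K) :=
    { smul := fun g v => Additive.ofMul (MulAut.conjNormal g.1 v.toMul)
      one_smul := fun v => Subtype.ext (by change 1 * _ * 1⁻¹ = _; simp; rfl)
      mul_smul := fun g k v => congrArg Additive.ofMul (by simp; rfl)
      smul_zero := fun g => map_one (MulAut.conjNormal g.1)
      smul_add := fun g v w => map_mul (MulAut.conjNormal g.1) v.toMul w.toMul }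
  have F : Free H (Additive K) := fun g v e => (h.eq_one v.toMul.2 g.2 (mul_inv_eq_iff_eq_mul.1
    (show g.1 * v.toMul.1 * g.1⁻¹ = v.toMul.1 from congrArg Subtype.val e)).symm).symm.imp
      Subtype.ext Subtype.ext
  have e : a ^ 2 ^ (m - 1) * a ^ 2 ^ (m - 1) = a ^ 2 ^ m := by
    rw [← pow_add, ← two_mul, ← pow_succ', Nat.sub_add_cancel q.pos]
  obtain ⟨h1, h2, h3⟩ := F.quat (a := a ^ 2 ^ (m - 1)) (b := b) (e ▸ q.ord_t) (by rw [e, ← sq, q.sq'])
    (by rw [← conj_pow, q.inv, inv_pow])
  exact sq_all _ h1 h2 h3 rfl o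

end Cfsg.Agent.S4296
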