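import Mathlib
import Cfsg.Statements.S4295
import Cfsg.Agent.H8.FC10
import Cfsg.Agent.S4296

set_option autoImplicit false
open Cfsg

namespace Cfsg.Agent.S4295

open Subgroup CfsgH1 CfsgH2 CfsgH4 CfsgH8 CfsgH8.FC Function

theorem q8_free (r : ℕ) (h : Odd r) : ∃ (V : Type) (_ : AddCommGroup V)
    (_ : DistribMulAction (QuaternionGroup 2) V), Free (QuaternionGroup 2) V ∧ Nat.card V = r * r := by
  induction r using induction_on_primes with
  | zero => exact absurd h (by decide)
  | one => exact ⟨PUnit, inferInstance, inferInstance, fun _ _ _ => Or.inr rfl, by simp⟩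
  | prime_mul p r hp ih =>
    obtain ⟨V, _, _, f, c⟩ := ih (Nat.Odd.of_mul_right h)
    haveI := Fact.mk hp
    have p2 : p ≠ 2 := fun e => absurd (e ▸ Nat.Odd.of_mul_left h) (by decide)
    obtain ⟨x, y, e⟩ := ZMod.sq_add_sq p (-1)
    let i : Matrix.SpecialLinearGroup (Fin 2) (ZMod p) := ⟨!![0, -1; 1, 0], by simp⟩
    let j : Matrix.SpecialLinearGroup (Fin 2) (ZMod p) := ⟨!![x, y; y, -x], by
      simp only [Matrix.det_fin_two_of]; linear_combination -e⟩
    have ii : i ^ 2 = -1 := by
      rw [sq]; ext a b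
      change (i.1 * i.1) a b = _
      fin_cases a <;> fin_cases b <;> simp [i, Matrix.mul_apply, Fin.sum_univ_two]
    obtain ⟨φ, h1, -⟩ := exists_quaternion_hom 2 j i (by rw [mul_comm, pow_mul, ii]; simp)
      (by
        rw [ii]; ext a b
        change (j.1 * j.1) a b = _
        fin_cases a <;> fin_cases b <;> simp [j, Matrix.mul_apply, Fin.sum_univ_two] <;>
          first | linear_combination e | ring)
      (by
        rw [mul_inv_eq_iff_eq_mul, eq_inv_mul_iff_mul_eq]; ext a b
        change (i.1 * (j.1 * i.1)) a b = _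
        fin_cases a <;> fin_cases b <;> simp [i, j, Matrix.mul_apply, Fin.sum_univ_two])
    have hφ : Injective φ := (injective_iff_map_eq_one φ).2 fun g hg => by
      by_contra n
      have k : ∀ g : QuaternionGroup 2, g = 1 ∨ g = .a 2 ∨ g ^ 2 = .a 2 := by decide
      have : φ (.a 2) = 1 := by rcases (k g).resolve_left n with e | e <;> rw [← e] <;> simp [hg]
      have h3 := (h1 2).symm.trans this
      rw [zpow_ofNat, ii] at h3
      have : (-1 : ZMod p) = 1 := by simpa using congrFun (congrFun (congrArg Subtype.val h3) 0) 0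
      exact p2 ((Nat.prime_dvd_prime_iff_eq hp Nat.prime_two).1 ((ZMod.natCast_eq_zero_iff 2 p).1
        (by linear_combination -this)))
    letI := slAct φ
    refine ⟨(Fin 2 → ZMod p) × V, inferInstance, inferInstance, (free_sl hφ fun d => p2 ?_).prod f, ?_⟩
    · rw [Nat.card_eq_fintype_card, QuaternionGroup.card] at d
      exact (Nat.prime_dvd_prime_iff_eq hp Nat.prime_two).1 (hp.dvd_of_dvd_pow (n := 3) d)
    · rw [Nat.card_prod, c]; simp; ring

/-- For a natural number m the following are equivalent: (a) some finite group has a Frobenius complement isomorphic to the quaternion group of order 8 whose Frobenius kernel (the identity together with the elements lying in no conjugate of the complement) has exactly m elements; (b) m is an odd perfect square greater than 1. -/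
theorem result (m : ℕ) :
    (∃ (L : Type) (_ : Group L) (_ : Finite L) (H : Subgroup L), Cfsg.IsFrobeniusComplement H ∧
        Nonempty (H ≃* QuaternionGroup 2) ∧ Nat.card (Cfsg.frobeniusKernel H) = m) ↔
    (Odd m ∧ IsSquare m ∧ 1 < m) := by
  refine ⟨fun ⟨L, _, _, H, hH, ⟨e⟩, c⟩ => ?_, fun ⟨o, ⟨r, e⟩, l⟩ => ?_⟩
  · have c8 : Nat.card H = 2 ^ 3 := by
      rw [Nat.card_congr e.toEquiv, Nat.card_eq_fintype_card, QuaternionGroup.card]; rfl
    obtain ⟨P, hP⟩ := Syl.exists_top (Syl.self (P := (⊤ : Subgroup H))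
      ((IsPGroup.of_card c8).to_subgroup _))
    obtain ⟨h1, h2⟩ := Cfsg.Agent.S4296.result H hH ⟨2, inferInstance, P, fun k => by
      rw [hP] at k
      obtain ⟨g, hg⟩ := (isCyclic_of_surjective _ (topEquiv.trans e).surjective).exists_ofOrder_eq_natCard
      have k : ∀ g : QuaternionGroup 2, g ^ 4 = 1 := by decide
      have := orderOf_dvd_of_pow_eq_one (k g)
      rw [hg, Nat.card_eq_fintype_card, QuaternionGroup.card] at this
      exact absurd this (by decide)⟩
    obtain ⟨K, h⟩ := exists_frob hH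
    refine ⟨c ▸ h1, c ▸ h2, ?_⟩
    rw [← c, h.kernel_eq]
    exact (one_lt_card_iff_ne_bot K).2 h.ker_ne
  · obtain ⟨V, _, _, f, c⟩ := q8_free r (Nat.Odd.of_mul_right (e ▸ o))
    rw [← e] at c
    haveI := Nat.finite_of_card_ne_zero (c ▸ o.pos.ne')
    haveI := Finite.one_lt_card_iff_nontrivial.1 (c ▸ l)
    obtain ⟨L, _, _, H, h1, ⟨e⟩, h2⟩ := f.cpl
    exact ⟨L, _, ‹_›, H, h1, ⟨e.symm⟩, h2.trans c⟩

end Cfsg.Agent.S4295
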