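import Mathlib
import Cfsg.Statements.S4297
import Cfsg.Agent.H8.FC10

set_option autoImplicit false
open Cfsg

namespace Cfsg.Agent.S4297

open CfsgH2 CfsgH8.FC Function Quaternion

/-- For every n ≥ 2 the dicyclic group of order 4n (generated by an element a of order 2n and an element x with x² = aⁿ and x a x⁻¹ = a⁻¹) occurs as a Frobenius complement of some finite Frobenius group. -/
theorem result (n : ℕ) (hn : 2 ≤ n) :
    ∃ (L : Type) (_ : Group L) (_ : Finite L) (H : Subgroup L), Cfsg.IsFrobeniusComplement H ∧ Nonempty (H ≃* QuaternionGroup n) := by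
  haveI : NeZero n := ⟨by omega⟩
  have hz := Complex.isPrimitiveRoot_exp (2 * n) (by omega)
  set z := Complex.exp (2 * Real.pi * Complex.I / (2 * n : ℕ))
  have z0 : z ≠ 0 := Complex.exp_ne_zero _
  have i : Injective ofComplex := ofComplex.toRingHom.injective
  let ρ : ℍ[ℝ]ˣ := Units.map ofComplex.toMonoidHom (Units.mk0 z z0)
  have o : orderOf ρ = 2 * n := by
    rw [orderOf_injective _ (Units.map_injective i), ← orderOf_units]; exact hz.eq_orderOf.symm
  let j : ℍ[ℝ] := ⟨0, 0, 1, 0⟩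
  have j1 : j.re = 0 ∧ j.imI = 0 ∧ j.imJ = 1 ∧ j.imK = 0 := ⟨rfl, rfl, rfl, rfl⟩
  let s : ℍ[ℝ]ˣ := Units.mk0 j fun e => one_ne_zero (congrArg QuaternionAlgebra.imJ e)
  have c : s * ρ * s⁻¹ = ρ⁻¹ := by
    rw [mul_inv_eq_iff_eq_mul, ← map_inv]
    refine Units.ext ?_
    change j * (z : ℍ[ℝ]) = ((z⁻¹ : ℂ) : ℍ[ℝ]) * j
    rw [Complex.inv_eq_conj (hz.norm'_eq_one (by omega))]
    ext <;> simp [j1]
  obtain ⟨φ, h1, h2⟩ := exists_quaternion_hom n s ρ (o ▸ pow_orderOf_eq_one ρ) (Units.ext (by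
    have : z ^ n = -1 := (hz.pow (by omega) (mul_comm _ _)).eq_neg_one_of_two_right
    change j * j = ofComplex z ^ n
    rw [← map_pow, this, map_neg, map_one]
    ext <;> simp [j1])) c
  haveI : Nontrivial (QuaternionGroup n) := ⟨.a 0, .xa 0, nofun⟩
  refine (cpl_div φ ((injective_iff_map_eq_one φ).2 ?_)).choose_spec.out'
  rintro (i | i) hg <;> obtain ⟨k, rfl⟩ := ZMod.intCast_surjective i
  · rw [h1, ← orderOf_dvd_iff_zpow_eq_one, o, ← ZMod.intCast_zmod_eq_zero_iff_dvd] at hg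
    rw [hg]; rfl
  · rw [h2, mul_eq_one_iff_eq_inv] at hg
    have : ρ ^ 2 = 1 := by rw [sq, mul_eq_one_iff_eq_inv, ← c, hg]; group
    have := Nat.le_of_dvd two_pos (o ▸ orderOf_dvd_of_pow_eq_one this)
    omega

end Cfsg.Agent.S4297
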