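import Mathlib
import Cfsg.Statements.S4298
import Cfsg.Agent.H8.FC10

set_option autoImplicit false
open Cfsg

namespace Cfsg.Agent.S4298

open CfsgH8 CfsgH8.FC Function

/-- The group SL(2,3) of order 24 (the binary tetrahedral group) occurs as a Frobenius complement of some finite Frobenius group. -/
theorem result :
    ∃ (L : Type) (_ : Group L) (_ : Finite L) (H : Subgroup L), Cfsg.IsFrobeniusComplement H ∧ Nonempty (H ≃* Matrix.SpecialLinearGroup (Fin 2) (ZMod 3)) := by
  obtain ⟨φ, h1, h2⟩ := exists_hom_SL23 (G := Matrix.SpecialLinearGroup (Fin 2) (ZMod 5))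
    (x := ⟨!![0, 4; 1, 4], by decide⟩) (y := ⟨!![2, 3; 1, 2], by decide⟩) (by decide) (by decide)
    (by decide) (by decide)
  have hφ := inj_SL23 φ (by rw [map_pow, map_mul, h1, h2]; decide)
  haveI : Nontrivial SL23 := ⟨s3x, 1, by decide⟩
  letI := slAct φ
  exact (free_sl hφ (by rw [card_SL23]; decide)).cpl.out'

end Cfsg.Agent.S4298
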