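import Mathlib
import Cfsg.Statements.S4299
import Cfsg.Agent.H8.FC10

set_option autoImplicit false
open Cfsg

namespace Cfsg.Agent.S4299

open CfsgH8.FC Function

/-- Every nontrivial finite cyclic group occurs as a Frobenius complement of some finite Frobenius group. -/
theorem result {C : Type*} [Group C] [Finite C] [IsCyclic C] [Nontrivial C] :
    ∃ (L : Type) (_ : Group L) (_ : Finite L) (H : Subgroup L), Cfsg.IsFrobeniusComplement H ∧ Nonempty (C ≃* H) := by
  obtain ⟨g, hg⟩ := IsCyclic.exists_generator (α := C)
  have n := (Nat.card_pos (α := C)).ne'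
  haveI : NeZero (Nat.card C) := ⟨n⟩
  let e : C ≃* rootsOfUnity (Nat.card C) ℂ := mulEquivOfCyclicCardEq (Complex.card_rootsOfUnity _).symm
  exact (cpl_div ((Subgroup.subtype _).comp e.toMonoidHom)
    ((Subgroup.subtype_injective _).comp e.injective)).choose_spec.out

end Cfsg.Agent.S4299
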