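import Cfsg.Statements.S4300
import Mathlib
import Cfsg.Agent.L0.M3

set_option autoImplicit false
open Cfsg

namespace Cfsg.Agent.S4300

open Cfsg Subgroup MulAction

/-- Let G act faithfully and primitively on a set X, and suppose the stabilizer of some point is a simple group. Then either G is simple, or G has a normal subgroup, neither trivial nor the whole group, that acts regularly on X (transitively with trivial point stabilizers). -/
theorem result {G : Type*} [Group G] {X : Type*} [MulAction G X] [FaithfulSMul G X]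
    (hprim : MulAction.IsPreprimitive G X) (x : X) (hsimple : IsSimpleGroup (MulAction.stabilizer G x)) :
    IsSimpleGroup G ∨ ∃ N : Subgroup G, N.Normal ∧ N ≠ ⊥ ∧ N ≠ ⊤ ∧
      MulAction.IsPretransitive N X ∧ ∀ y : X, MulAction.stabilizer N y = ⊥ := by
  by_cases h : ∃ N : Subgroup G, N.Normal ∧ N ≠ ⊥ ∧ N ≠ ⊤
  · obtain ⟨N, hN, h0, h1⟩ := h
    have ht : IsPretransitive N X := by
      refine hprim.isQuasiPreprimitive.isPretransitive_of_normal fun e => h0 (eq_bot_iff.2 fun n hn => ?_)
      exact FaithfulSMul.eq_of_smul_eq_smul (α := X) fun y => by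
        rw [one_smul]; exact (e ▸ Set.mem_univ y : y ∈ fixedPoints N X) ⟨n, hn⟩
    refine Or.inr ⟨N, hN, h0, h1, ht, fun y => ?_⟩
    have h2 : N.subgroupOf (stabilizer G x) = ⊥ := by
      refine (hsimple.eq_bot_or_eq_top_of_normal _ inferInstance).resolve_right fun e => h1 ?_
      rw [subgroupOf_eq_top] at e
      refine eq_top_iff.2 fun g _ => ?_
      obtain ⟨n, hn⟩ := exists_smul_eq N x (g • x)
      have : (n : G)⁻¹ * g ∈ N := e (by rw [mem_stabilizer_iff, mul_smul, inv_smul_eq_iff]; exact hn.symm)
      simpa using mul_mem n.2 this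
    obtain ⟨g, rfl⟩ := exists_smul_eq G x y
    refine eq_bot_iff.2 fun n hn => ?_
    have h3 : (n : G) • g • x = g • x := hn
    have : (⟨g⁻¹ * n * g, by rw [mem_stabilizer_iff, mul_smul, mul_smul, h3, inv_smul_smul]⟩ : stabilizer G x) ∈
        N.subgroupOf (stabilizer G x) := by simpa [mem_subgroupOf] using hN.conj_mem _ n.2 g⁻¹
    rw [h2, mem_bot] at this
    have h4 : g⁻¹ * n * g = 1 := congrArg Subtype.val this
    refine Subtype.ext ?_
    calc (n : G) = g * (g⁻¹ * n * g) * g⁻¹ := by group
      _ = 1 := by rw [h4]; group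
  · left
    haveI : Nontrivial G := (stabilizer G x).subtype_injective.nontrivial
    exact ⟨fun N hN => by by_contra h2; push Not at h2; exact h ⟨N, hN, h2.1, h2.2⟩⟩

end Cfsg.Agent.S4300
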