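import Cfsg.Statements.S4305
import Mathlib
import Cfsg.Agent.H9.Cp8

set_option autoImplicit false
open Cfsg

namespace Cfsg.Agent.S4305

/-- Let the symmetric group of degree 3 act by automorphisms on a finite solvable group `G` of order prime to 6, so that only the identity of `G` is fixed by all of it. Then the derived subgroup of `G` is nilpotent. -/
theorem result {G : Type*} [Group G] [Finite G] [Group.IsSolvable G]
    [MulDistribMulAction (Equiv.Perm (Fin 3)) G] (hcop : (Nat.card G).Coprime 6)
    (hfpf : ∀ g : G, (∀ a : Equiv.Perm (Fin 3), a • g = g) → g = 1) :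
    Group.IsNilpotent ↥(commutator G) := by
  open Subgroup Cfsg CfsgH3 CfsgH2 Function CfsgCP in
  obtain ⟨Γ, _, _, i, f, a, b, c, d⟩ := exists_amb (MulDistribMulAction.toMulAut (Equiv.Perm (Fin 3)) G)
  have e : Nat.card (Equiv.Perm (Fin 3)) = 2 * 3 := by rw [Nat.card_perm]; simp [Nat.factorial]
  have := der_s3 e (fun z => absurd (z.is_comm.comm (Equiv.swap 0 1) (Equiv.swap 1 2)) (by decide)) f b c
    (isSolvable_map _ (isSolvable_top_iff.2 ‹_›)) (by
      rw [card_map_of_injective a, card_top, ← Nat.card_congr (MonoidHom.ofInjective b).toEquiv, e]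
      exact hcop.symm) (amb_fpf d hfpf)
  rwa [← map_commutator, inj_isNilpotent a] at this

end Cfsg.Agent.S4305
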