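import Cfsg.Statements.S4306
import Mathlib
import Cfsg.Agent.H9.Cp8

set_option autoImplicit false
open Cfsg

namespace Cfsg.Agent.S4306

/-- Let `A` be a non-abelian group of order `pq` with `p, q` distinct primes, acting by automorphisms on a finite solvable group `G` of order prime to `pq`, so that only the identity of `G` is fixed by all of `A`. Then `G` has Fitting height at most 2: there is a normal nilpotent subgroup `F` of `G` with `G/F` nilpotent. -/
theorem result {G A : Type*} [Group G] [Finite G]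
    [Group.IsSolvable G] [Group A] [Finite A] [MulDistribMulAction A G] (p q : ℕ) (hp : p.Prime) (hq : q.Prime) (hpq : p ≠ q)
    (hA : Nat.card A = p * q) (hAna : ¬ IsMulCommutative A) (hcop : (Nat.card G).Coprime (p * q))
    (hfpf : ∀ g : G, (∀ a : A, a • g = g) → g = 1) :
    ∃ F : Subgroup G, ∃ hF : F.Normal, Group.IsNilpotent ↥F ∧ Group.IsNilpotent (G ⧸ F) := by
  open Subgroup Cfsg CfsgH3 CfsgH2 Function CfsgCP in
  obtain ⟨Γ, _, _, i, f, a, b, c, d⟩ := exists_amb (MulDistribMulAction.toMulAut A G)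
  have s := isSolvable_map i (isSolvable_top_iff.2 ‹Group.IsSolvable G›)
  have k : (Nat.card f.range).Coprime (Nat.card (map i ⊤)) := by
    rw [card_map_of_injective a, card_top, ← Nat.card_congr (MonoidHom.ofInjective b).toEquiv, hA]
    exact hcop.symm
  have e : CfsgH9.LF 2 (⊤ : Subgroup G) = ⊥ := LF_top_of_amb a (by
    rcases lt_or_gt_of_ne hpq with h | h
    · exact fit_pq hp hq h hA hAna f b c s k (amb_fpf d hfpf)
    · exact fit_pq hq hp h (hA.trans (mul_comm _ _)) hAna f b c s k (amb_fpf d hfpf))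
  haveI n : (CfsgH9.LF 1 (⊤ : Subgroup G)).Normal :=
    top_le_norm_iff.1 (CfsgH9.le_normalizer_LF le_normalizer 1)
  refine ⟨_, n, CfsgH9.nres_eq_bot.1 e, Group.isNilpotent_top.1 (CfsgH9.nres_eq_bot.1 ?_)⟩
  rw [← map_mk_top]
  exact (CfsgH9.map_LF _ ⊤ 1).symm.trans ((map_mk_eq_bot _).2 le_rfl)

end Cfsg.Agent.S4306
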