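import Cfsg.Statements.S4310
import Cfsg.Agent.H9.Gl2
import Cfsg.Agent.H1.System

set_option autoImplicit false
open Cfsg

namespace Cfsg.Agent.S4310

section
open CfsgH1
open scoped commutatorElement

open Pointwise in
theorem sepN {G : Type*} [Group G] [Finite G] {π : Set ℕ} {A K H : Subgroup G} [A.Normal]
    (hH : HallIn π H A) (hAK : A ≤ K) (hK : PiNum π (A.relIndex K)) :
    HallSep π ↥(K ⊓ Subgroup.normalizer (H : Set G)) := by
  set N := K ⊓ Subgroup.normalizer (H : Set G) with hN
  have hHN : H ≤ N := le_inf (hH.le.trans hAK) Subgroup.le_normalizer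
  refine CfsgH9.hallSep_of_sep ?_
  have n1 : (H.subgroupOf N).Normal := (Subgroup.normal_subgroupOf_iff_le_normalizer hHN).2 inf_le_right
  have s0 : SepTo {π, πᶜ} (⊥ : Subgroup N) := SepTo.bot
  have s1 : SepTo {π, πᶜ} (H.subgroupOf N) := by
    refine SepTo.step ⊥ _ π s0 bot_le n1 (by simp) ?_
    rw [Subgroup.relIndex_bot_left, Nat.card_congr (Subgroup.subgroupOfEquivOfLe hHN).toEquiv]
    exact hH.piNum
  have s2 : SepTo {π, πᶜ} (A.subgroupOf N) := by
    refine SepTo.step _ _ πᶜ s1 (Subgroup.comap_mono hH.le) inferInstance (by simp) ?_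
    rw [← Subgroup.inf_subgroupOf_right A, Subgroup.relIndex_subgroupOf inf_le_right]
    exact (hH.mono (le_inf hH.le hHN) inf_le_left).piNum_relIndex
  refine SepTo.step _ _ π s2 le_top inferInstance (by simp) ?_
  rw [Subgroup.relIndex_top_right]
  refine hK.of_dvd ?_
  change A.relIndex N ∣ _
  rw [← Subgroup.relIndex_sup_right N A]
  rw [← Subgroup.relIndex_mul_relIndex A (N ⊔ A) K le_sup_right (sup_le inf_le_left hAK)]
  exact dvd_mul_right _ _

end

/-- Let `π` be a set of primes and `A` a normal subgroup of the finite group `G`. Suppose `A` has a Hall `π`-subgroup and all Hall `π`-subgroups of `A` are conjugate in `A`, and likewise for `G/A`. Then `G` has a Hall `π`-subgroup and all Hall `π`-subgroups of `G` are conjugate. (The conjugacy of complements of coprime order that the usual proof uses rests, in general, on the odd order Theorem.) -/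
theorem result {G : Type*} [Group G] [Finite G] (π : Set ℕ) (A : Subgroup G) [A.Normal]
    (hA : Cfsg.IsCPiGroup π ↥A) (hQ : Cfsg.IsCPiGroup π (G ⧸ A)) : Cfsg.IsCPiGroup π G := by
  open CfsgH1 in
  open scoped commutatorElement in
  · open Pointwise in
    have hc : ∀ H₁ H₂ : Subgroup G, HallIn π H₁ A → HallIn π H₂ A → ∃ a ∈ A, MulAut.conj a • H₁ = H₂ := by
      intro H₁ H₂ h1 h2
      obtain ⟨a, ha⟩ := hA.2 _ _ (hallIn_top_iff.1 h1.subgroupOf_top) (hallIn_top_iff.1 h2.subgroupOf_top)
      refine ⟨a, a.2, ?_⟩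
      rw [← conj_smul_eq_map] at ha
      have := congrArg (Subgroup.map A.subtype) ha
      rw [map_conj_smul, Subgroup.map_subgroupOf_eq_of_le h2.le, Subgroup.map_subgroupOf_eq_of_le h1.le] at this
      exact this.symm
    constructor
    · obtain ⟨H0, hH0⟩ := hA.1
      obtain ⟨K0, hK0⟩ := hQ.1
      have hH := (hallIn_top_iff.2 hH0).map_subtype
      set H := H0.map A.subtype
      have hK0' := hallIn_top_iff'.1 (hallIn_top_iff.2 hK0)
      set K := K0.comap (QuotientGroup.mk' A) with hK
      have hAK : A ≤ K := by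
        intro a ha
        simp [hK, (QuotientGroup.eq_one_iff a).2 ha]
      have hKi : K.index = K0.index := Subgroup.index_comap_of_surjective _ (QuotientGroup.mk'_surjective A)
      have hKp : PiNum π (A.relIndex K) := by
        have : A.relIndex K = Nat.card K0 := by
          have e1 := Subgroup.relIndex_mul_index hAK
          have e2 := K0.card_mul_index
          rw [hKi] at e1
          rw [← Subgroup.index_eq_card, ← e1] at e2
          exact (Nat.eq_of_mul_eq_mul_right (Nat.pos_of_ne_zero Subgroup.index_ne_zero_of_finite) e2).symm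
        rw [this]; exact hK0'.1
      obtain ⟨L, hL⟩ := (sepN hH hAK hKp).sep.exists_hallIn
      refine ⟨L, hallIn_top_iff.1 (hL.trans le_top ?_)⟩
      set N := K ⊓ Subgroup.normalizer (H : Set G)
      have hKN : A ⊔ N = K := by
        refine le_antisymm (sup_le hAK inf_le_left) fun k hk => ?_
        obtain ⟨a, ha, e⟩ := hc _ _ hH (hH.smul_of_mem_normalizer (g := k) (by simp [Subgroup.normalizer_eq_top]))
        have : a⁻¹ * k ∈ N := by
          refine ⟨K.mul_mem (K.inv_mem (hAK ha)) hk, ?_⟩
          refine conj_smul_eq_iff_mem_normalizer.1 ?_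
          rw [map_mul, mul_smul, ← e, ← mul_smul, ← map_mul, inv_mul_cancel, map_one, one_smul]
        have := Subgroup.mul_mem_sup ha this
        simpa using this
      rw [Subgroup.relIndex_top_right, ← Subgroup.relIndex_mul_index (H := N) (K := K) inf_le_left, hKi]
      refine PiNum.mul ?_ hK0'.2
      rw [← hKN, relIndex_sup_right_of_le_normalizer (by simp [Subgroup.normalizer_eq_top]),
        ← Subgroup.inf_relIndex_right]
      have hHN : H ≤ N ⊓ A := le_inf (le_inf (hH.le.trans hAK) Subgroup.le_normalizer) hH.le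
      refine hH.piNum_relIndex.of_dvd ?_
      rw [← Subgroup.relIndex_mul_relIndex H (N ⊓ A) A hHN inf_le_right]
      exact dvd_mul_left _ _
    · intro H₁ H₂ h1 h2
      have h1 := hallIn_top_iff.2 h1
      have h2 := hallIn_top_iff.2 h2
      obtain ⟨g, hg⟩ := hQ.2 _ _ (hallIn_top_iff.1 (h1.map_mk' A)) (hallIn_top_iff.1 (h2.map_mk' A))
      obtain ⟨g, rfl⟩ := QuotientGroup.mk'_surjective A g
      rw [← conj_smul_eq_map, ← map_conj_smul, map_mk'_eq_iff] at hg
      have h3 := h1.smul_of_mem (g := g) trivial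
      obtain ⟨a, ha, e⟩ := hc _ _ (h3.inf_normal A) (h2.inf_normal A)
      have h4 := h3.smul_of_mem (g := a) trivial
      have e2 : MulAut.conj a • MulAut.conj g • H₁ ⊓ A = H₂ ⊓ A := by
        rw [← e, Subgroup.smul_inf, conj_smul_eq_of_mem_normalizer (H := A) (by simp [Subgroup.normalizer_eq_top])]
      have hKp : PiNum π (A.relIndex (H₂ ⊔ A)) := by
        rw [Subgroup.relIndex_sup_right, ← card_map_mk']
        exact h2.piNum.of_dvd (Subgroup.card_map_dvd _ _)
      have hs := sepN (h2.inf_normal A) le_sup_right hKp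
      have n1 : ∀ H : Subgroup G, H ≤ Subgroup.normalizer ((H ⊓ A : Subgroup G) : Set G) := fun H x hx =>
        mem_normalizer_of_conj_mem fun y hy => ⟨H.mul_mem (H.mul_mem hx hy.1) (H.inv_mem hx),
          Subgroup.Normal.conj_mem inferInstance _ hy.2 _⟩
      have l2 : H₂ ≤ (H₂ ⊔ A) ⊓ Subgroup.normalizer ((H₂ ⊓ A : Subgroup G) : Set G) := le_inf le_sup_left (n1 _)
      have l1 : MulAut.conj a • MulAut.conj g • H₁ ≤ (H₂ ⊔ A) ⊓ Subgroup.normalizer ((H₂ ⊓ A : Subgroup G) : Set G) := by
        refine le_inf ?_ (e2 ▸ n1 _)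
        rw [hg]
        exact conj_smul_le_of_mem (Subgroup.mem_sup_right ha) le_sup_left
      obtain ⟨b, -, e3⟩ := (h4.mono l1 le_top).exists_conj hs (h2.mono l2 le_top)
      refine ⟨b * a * g, ?_⟩
      rw [← conj_smul_eq_map, ← e3, conj_smul_conj_smul, conj_smul_conj_smul]

end Cfsg.Agent.S4310
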