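import Cfsg.Statements.S4320
import Cfsg.Agent.H3.Hv1

set_option autoImplicit false
open Cfsg

namespace Cfsg.Agent.S4320
open Subgroup

theorem key {G A R M : Type*} [Group G] [Finite G] [CommGroup A] [CommRing R] [AddCommGroup M] [Module R M]
    (π : G →* A) (hπ : Function.Surjective π) (hk : π.ker = commutator G) (u : A →* R) (ε : R →+* ℤ)
    (hε : ∀ a, ε (u a) = 1) (D : G → M) (hD : ∀ x y, D (x * y) = D x + u (π x) • D y) :
    ∃ μ : R, ε μ = Nat.card A ∧ ∀ g, μ • D g = 0 := by
  classical
  haveI : Finite A := Finite.of_surjective π hπ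
  haveI := Fintype.ofFinite π.ker
  obtain ⟨ι, _, n, hn, ⟨e⟩⟩ := CommGroup.equiv_prod_multiplicative_zmod_of_finite A
  haveI : ∀ i, NeZero (n i) := fun i => ⟨by have := hn i; omega⟩
  choose σ hσ using fun i => hπ (e.symm (Pi.mulSingle i (Multiplicative.ofAdd 1)))
  let y : ι ⊕ π.ker → G := Sum.elim σ Subtype.val
  let d : ι ⊕ π.ker → ℕ := Sum.elim n fun _ => 1
  have D1 : D 1 = 0 := by simpa using hD 1 1
  set T := Submodule.span R (Set.range fun i => D (y i)) with hT
  let S : Subgroup G :=
    { carrier := {g | D g ∈ T}
      one_mem' := by simp [D1]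
      mul_mem' := fun {a b} ha hb => by
        show D (a * b) ∈ T
        rw [hD]; exact T.add_mem ha (T.smul_mem _ hb)
      inv_mem' := fun {a} ha => by
        have := hD a⁻¹ a
        rw [inv_mul_cancel, D1, eq_comm, add_eq_zero_iff_eq_neg] at this
        show D a⁻¹ ∈ T
        rw [this]; exact T.neg_mem (T.smul_mem _ ha) }
  have yS : ∀ i, y i ∈ S := fun i => Submodule.subset_span ⟨i, rfl⟩
  have DT : ∀ g, D g ∈ T := by
    intro g
    have : π g ∈ S.map π := by
      rw [← e.symm_apply_apply (π g), ← Finset.univ_prod_mulSingle (e (π g)), map_prod]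
      refine prod_mem fun i _ => ?_
      have : e (π g) i = Multiplicative.ofAdd 1 ^ (e (π g) i).toAdd.val := by
        rw [← ofAdd_nsmul]; simp
      rw [this, Pi.mulSingle_pow, map_pow, ← hσ]
      exact pow_mem (mem_map_of_mem π (yS (.inl i))) _
    have : g ∈ (S.map π).comap π := this
    rwa [comap_map_eq, sup_eq_left.2 fun k hk => yS (.inr ⟨k, hk⟩)] at this
  set I := RingHom.ker ε
  let h : G →* Multiplicative (M ⧸ I • T) := MonoidHom.mk' (fun g => .ofAdd (Submodule.Quotient.mk (D g))) fun a b => by
    rw [← ofAdd_add, ← Submodule.Quotient.mk_add, hD]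
    congr 1
    rw [Submodule.Quotient.eq, add_sub_add_left_eq_sub]
    have := Submodule.smul_mem_smul (show u (π a) - 1 ∈ I by simp [I, hε]) (DT b)
    rwa [sub_smul, one_smul] at this
  have hd : ∀ i, (d i : R) • D (y i) ∈ I • T := by
    intro i
    have : y i ^ d i ∈ h.ker := by
      refine Abelianization.commutator_subset_ker h (hk ▸ ?_)
      rcases i with i | i
      · show π (σ i ^ n i) = 1
        rw [map_pow, hσ, ← map_pow, ← Pi.mulSingle_pow, ← ofAdd_nsmul]; simp
      · simp [y, d]
    rw [MonoidHom.mem_ker, map_pow] at this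
    rw [← Submodule.Quotient.mk_eq_zero, Nat.cast_smul_eq_nsmul]
    exact congrArg Multiplicative.toAdd this
  choose a ha ha' using fun i => (Submodule.mem_ideal_smul_span_iff_exists_sum I _ _).1 (hd i)
  let P : Matrix (ι ⊕ π.ker) (ι ⊕ π.ker) R := Matrix.diagonal (fun i => (d i : R)) - Matrix.of fun i j => a i j
  have hP : ∀ i, ∑ k, P i k • D (y k) = 0 := fun i => by
    have := ha' i
    rw [Finsupp.sum_fintype _ _ (by simp)] at this
    simp [P, sub_smul, this, Matrix.diagonal_apply]
  refine ⟨P.det, ?_, fun g => ?_⟩
  · rw [RingHom.map_det, show ε.mapMatrix P = Matrix.diagonal fun i => (d i : ℤ) from ?_, Matrix.det_diagonal,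
      Nat.card_congr e.toEquiv, Nat.card_pi]
    · simp [d]
    · ext i j
      have : ε (a i j) = 0 := ha i j
      simp [P, this, Matrix.diagonal_apply, apply_ite ε]
  · refine Submodule.span_induction (p := fun x _ => P.det • x = 0) ?_ (smul_zero _)
      (fun a b _ _ ha hb => by rw [smul_add, ha, hb, add_zero]) (fun r a _ ha => by rw [smul_comm, ha, smul_zero]) (DT g)
    rintro _ ⟨j, rfl⟩
    have : ∑ i, P.adjugate j i • ∑ k, P i k • D (y k) = 0 := by simp [hP]
    simp only [Finset.smul_sum, smul_smul] at this
    rw [Finset.sum_comm] at this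
    simp only [← Finset.sum_smul, ← Matrix.mul_apply, Matrix.adjugate_mul] at this
    simpa [Matrix.one_apply] using this

/-- The Principal Ideal Theorem of class field theory in its group-theoretic form: for every finite group `G`, the transfer homomorphism from `G` into the abelianization `G'/G''` of its derived subgroup `G'` is the trivial homomorphism. -/
theorem result {G : Type*} [Group G] [Finite G] :
    MonoidHom.transfer (Abelianization.of : ↥(commutator G) →* Abelianization ↥(commutator G)) =
      (1 : G →* Abelianization ↥(commutator G)) := by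
  classical
  ext g
  let N := Additive (Abelianization (commutator G))
  haveI : Finite (Abelianization G) := Finite.of_surjective _ (QuotientGroup.mk'_surjective (commutator G))
  letI : Fintype (Abelianization G) := (commutator G).fintypeQuotientOfFiniteIndex
  let ρ : Representation ℤ (Abelianization G) ((Abelianization G) → N) :=
    { toFun := fun b => LinearMap.funLeft ℤ N fun q => b⁻¹ * q
      map_one' := by ext; simp
      map_mul' := fun a b => by ext; simp [mul_assoc] }
  letI : Module (MonoidAlgebra ℤ (Abelianization G)) ((Abelianization G) → N) := Module.compHom _ ρ.asAlgebraHom.toRingHom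
  have sm : ∀ (b : (Abelianization G)) (r : ℤ) (f : (Abelianization G) → N) q, ((MonoidAlgebra.single b r : (MonoidAlgebra ℤ (Abelianization G))) • f) q = r • f (b⁻¹ * q) := fun b r f q => by
    show ρ.asAlgebraHom (MonoidAlgebra.single b r) f q = _
    rw [Representation.asAlgebraHom_single]; rfl
  let T : (commutator G).LeftTransversal := default
  let s : (Abelianization G) → G := fun q => T.2.leftQuotientEquiv q
  have hs : ∀ q, Abelianization.of (s q) = q := fun q => T.2.quotientGroupMk_leftQuotientEquiv q
  have mem : ∀ x q, (s q)⁻¹ * (x * s ((Abelianization.of x)⁻¹ * q)) ∈ commutator G := fun x q => by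
    rw [← Abelianization.ker_of, MonoidHom.mem_ker]; simp [hs]
  let D : G → ((Abelianization G) → N) × (MonoidAlgebra ℤ (Abelianization G)) := fun x => (fun q => Additive.ofMul (Abelianization.of ⟨_, mem x q⟩),
    MonoidAlgebra.of ℤ (Abelianization G) (Abelianization.of x) - 1)
  obtain ⟨μ, h1, h2⟩ := key Abelianization.of (QuotientGroup.mk'_surjective _) (Abelianization.ker_of G)
    (MonoidAlgebra.of ℤ (Abelianization G)) (MonoidAlgebra.lift ℤ ℤ (Abelianization G) 1).toRingHom (by simp) D fun x y => by
      refine Prod.ext (funext fun q => ?_) ?_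
      · simp only [D, Prod.fst_add, Prod.smul_fst, Pi.add_apply, MonoidAlgebra.of_apply, sm, one_smul]
        rw [← ofMul_mul, ← map_mul]
        congr 2
        simp [mul_assoc]
      · simp only [D, Prod.snd_add, Prod.smul_snd, map_mul, smul_eq_mul]; ring
  have c : ∀ b, μ.coeff b = μ.coeff 1 := fun b => by
    obtain ⟨x, hx⟩ : ∃ x, Abelianization.of x = b := QuotientGroup.mk'_surjective _ b
    have := congrArg (fun z => z.2.coeff b) (h2 x)
    exact Eq.symm (by simpa [D, mul_sub, hx, sub_eq_zero] using this)
  have e : μ = ∑ b, MonoidAlgebra.single b (μ.coeff 1) := by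
    ext b; simp [c b, Finsupp.single_apply]
  have r : μ.coeff 1 = 1 := by
    rw [e] at h1
    simpa [Nat.card_eq_fintype_card] using h1
  have := congrFun (congrArg Prod.fst (h2 g)) 1
  rw [e, r] at this
  simp only [Finset.sum_smul, Prod.fst_sum, Prod.smul_fst, Finset.sum_apply, sm, one_smul, mul_one] at this
  rw [MonoidHom.transfer_def _ T, leftTransversals.diff]
  simp only [smul_apply_eq_smul_apply_inv_smul]
  rw [← Equiv.sum_comp (Equiv.inv (Abelianization G))] at this
  simp only [Equiv.inv_apply, inv_inv] at this
  refine Eq.trans ?_ (congrArg Additive.toMul this)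
  rw [toMul_sum]
  exact Finset.prod_congr rfl fun q _ => by
    induction q using QuotientGroup.induction_on; rfl


end Cfsg.Agent.S4320
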