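import Mathlib
import Cfsg.Statements.S4321
import Cfsg.Agent.H8.Psg

set_option autoImplicit false
open Cfsg

namespace Cfsg.Agent.S4321


/-- Let `G` be a finite group and `p` a prime not dividing the order of the centre of `G`. Consider the primes dividing the size of some conjugacy class of a `p`-singular element (an element of order divisible by `p`), two of them adjacent when their product divides such a class size. Then any two distinct such primes are joined by a path with at most 3 edges (the graph is connected of diameter at most 3). -/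
theorem result {G : Type*} [Group G] [Finite G] (p : ℕ) [Fact p.Prime]
    (hZ : ¬ p ∣ Nat.card ↥(Subgroup.center G)) (r s : ℕ) (hr : (r.Prime ∧ ∃ x : G, p ∣ orderOf x ∧ r ∣ (Subgroup.centralizer ({x} : Set G)).index)) (hs : (s.Prime ∧ ∃ x : G, p ∣ orderOf x ∧ s ∣ (Subgroup.centralizer ({x} : Set G)).index)) (hrs : r ≠ s) :
    (∃ x : G, p ∣ orderOf x ∧ r * s ∣ (Subgroup.centralizer ({x} : Set G)).index) ∨ (∃ t : ℕ, (t.Prime ∧ ∃ x : G, p ∣ orderOf x ∧ t ∣ (Subgroup.centralizer ({x} : Set G)).index) ∧ t ≠ r ∧ t ≠ s ∧ (∃ x : G, p ∣ orderOf x ∧ r * t ∣ (Subgroup.centralizer ({x} : Set G)).index) ∧ (∃ x : G, p ∣ orderOf x ∧ t * s ∣ (Subgroup.centralizer ({x} : Set G)).index)) ∨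
      (∃ t u : ℕ, (t.Prime ∧ ∃ x : G, p ∣ orderOf x ∧ t ∣ (Subgroup.centralizer ({x} : Set G)).index) ∧ (u.Prime ∧ ∃ x : G, p ∣ orderOf x ∧ u ∣ (Subgroup.centralizer ({x} : Set G)).index) ∧ t ≠ r ∧ u ≠ s ∧ t ≠ u ∧ (∃ x : G, p ∣ orderOf x ∧ r * t ∣ (Subgroup.centralizer ({x} : Set G)).index) ∧ (∃ x : G, p ∣ orderOf x ∧ t * u ∣ (Subgroup.centralizer ({x} : Set G)).index) ∧ (∃ x : G, p ∣ orderOf x ∧ u * s ∣ (Subgroup.centralizer ({x} : Set G)).index)) := by
  have hp : p.Prime := Fact.out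
  by_contra hcon
  rw [not_or, not_or] at hcon
  obtain ⟨h1, h2, h3⟩ := hcon
  obtain ⟨pr, x, hx, hrx⟩ := hr
  obtain ⟨ps, y, hy, hsy⟩ := hs
  have cm : ∀ {t u n : ℕ}, t.Prime → u.Prime → t ≠ u → t ∣ n → u ∣ n → t * u ∣ n := fun ht hu h a b =>
    ((Nat.coprime_primes ht hu).2 h).mul_dvd_of_dvd_of_dvd a b
  have E : ∀ z : G, p ∣ orderOf z → ∀ t u : ℕ, t.Prime → u.Prime → t ∣ (Subgroup.centralizer ({x} : Set G)).index →
      u ∣ (Subgroup.centralizer ({y} : Set G)).index → t ∣ (Subgroup.centralizer ({z} : Set G)).index →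
      u ∣ (Subgroup.centralizer ({z} : Set G)).index → False := by
    intro z hz t u ht hu tx uy tz uz
    by_cases e : t = u
    · subst e
      by_cases e1 : t = r
      · subst e1; exact h1 ⟨y, hy, cm ht ps hrs uy hsy⟩
      by_cases e2 : t = s
      · subst e2; exact h1 ⟨x, hx, cm pr ht hrs hrx tx⟩
      exact h2 ⟨t, ⟨ht, x, hx, tx⟩, e1, e2, ⟨x, hx, cm pr ht (Ne.symm e1) hrx tx⟩, ⟨y, hy, cm ht ps e2 uy hsy⟩⟩
    by_cases e1 : t = r
    · subst e1
      by_cases e2 : u = s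
      · subst e2; exact h1 ⟨z, hz, cm ht hu e tz uz⟩
      exact h2 ⟨u, ⟨hu, y, hy, uy⟩, Ne.symm e, e2, ⟨z, hz, cm ht hu e tz uz⟩, ⟨y, hy, cm hu ps e2 uy hsy⟩⟩
    by_cases e2 : u = s
    · subst e2
      exact h2 ⟨t, ⟨ht, x, hx, tx⟩, e1, e, ⟨x, hx, cm pr ht (Ne.symm e1) hrx tx⟩, ⟨z, hz, cm ht hu e tz uz⟩⟩
    exact h3 ⟨t, u, ⟨ht, x, hx, tx⟩, ⟨hu, y, hy, uy⟩, e1, e2, e, ⟨x, hx, cm pr ht (Ne.symm e1) hrx tx⟩,
      ⟨z, hz, cm ht hu e tz uz⟩, ⟨y, hy, cm hu ps e2 uy hsy⟩⟩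
  have A : ∀ x : G, p ∣ orderOf x → ∃ a : G, orderOf a = p ∧ (Subgroup.centralizer ({a} : Set G)).index ≠ 1 ∧
      (Subgroup.centralizer ({a} : Set G)).index ∣ (Subgroup.centralizer ({x} : Set G)).index := by
    intro x hx
    have ho : orderOf (x ^ (orderOf x / p)) = p := orderOf_pow_orderOf_div (orderOf_pos x).ne' hx
    refine ⟨_, ho, fun h => hZ ?_, Subgroup.index_dvd_of_le fun g hg =>
      CfsgH8.Psg.mc.2 ((CfsgH8.Psg.mc.1 hg).pow_right _)⟩
    rw [Subgroup.index_eq_one] at h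
    rw [← ho]
    refine Subgroup.orderOf_dvd_natCard _ (Subgroup.mem_center_iff.2 fun g => ?_)
    exact (CfsgH8.Psg.mc.1 (h ▸ Subgroup.mem_top g : g ∈ Subgroup.centralizer {x ^ (orderOf x / p)})).eq
  obtain ⟨a, ha, ha1, hax⟩ := A x hx
  obtain ⟨b, hb, hb1, hby⟩ := A y hy
  have hc : (Subgroup.centralizer ({a} : Set G)).index.Coprime (Subgroup.centralizer ({b} : Set G)).index := by
    by_contra h
    obtain ⟨t, ht, t1, t2⟩ := Nat.Prime.not_coprime_iff_dvd.1 h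
    exact E x hx t t ht ht (t1.trans hax) (t2.trans hby) (t1.trans hax) (t1.trans hax)
  have H : ∀ z : G, p ∣ orderOf z →
      (Subgroup.centralizer ({z} : Set G)).index.Coprime (Subgroup.centralizer ({a} : Set G)).index ∨
      (Subgroup.centralizer ({z} : Set G)).index.Coprime (Subgroup.centralizer ({b} : Set G)).index := by
    intro z hz
    by_contra h
    rw [not_or] at h
    obtain ⟨t, ht, t1, t2⟩ := Nat.Prime.not_coprime_iff_dvd.1 h.1
    obtain ⟨u, hu, u1, u2⟩ := Nat.Prime.not_coprime_iff_dvd.1 h.2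
    exact E z hz t u ht hu (t2.trans hax) (u2.trans hby) t1 u1
  by_cases hpb : p ∣ (Subgroup.centralizer ({b} : Set G)).index
  · exact CfsgH8.Psg.main hb ha hb1 ha1 hc.symm
      (fun h => hp.ne_one (Nat.eq_one_of_dvd_coprimes hc h hpb)) (fun z hz => (H z hz).symm)
  · exact CfsgH8.Psg.main ha hb ha1 hb1 hc hpb H

end Cfsg.Agent.S4321
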