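import Cfsg.Statements.S4416
import Cfsg.Agent.H2.Gs2

set_option autoImplicit false
open Cfsg

namespace Cfsg.Agent.S4416
open CfsgH2

/-- Classification of extraspecial 2-groups in intrinsic form. An extraspecial 2-group has order 2^(2m+1) for some m ≥ 1, and the number of its elements squaring to the identity is either 2^(2m) + 2^m or 2^(2m) − 2^m; two extraspecial 2-groups of the same order with the same number of such elements are isomorphic. (The two cases are the central products of m dihedral groups of order 8, and of m − 1 dihedral groups with one quaternion group.) -/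
theorem result (E : Type*) [Group E] [Finite E] (hE : Cfsg.IsExtraspecial 2 E) :
    (∃ m : ℕ, 1 ≤ m ∧ Nat.card E = 2 ^ (2 * m + 1) ∧
      (Nat.card {x : E // x ^ 2 = 1} = 2 ^ (2 * m) + 2 ^ m ∨ Nat.card {x : E // x ^ 2 = 1} = 2 ^ (2 * m) - 2 ^ m)) ∧
    ∀ (E' : Type*) [Group E'] [Finite E'], Cfsg.IsExtraspecial 2 E' → Nat.card E' = Nat.card E →
      Nat.card {x : E' // x ^ 2 = 1} = Nat.card {x : E // x ^ 2 = 1} → Nonempty (E ≃* E') := by
  open Subgroup Function in open scoped commutatorElement in
  · haveI := Fact.mk Nat.prime_two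
    obtain ⟨a, b⟩ := extraspecial_top_iff.1 hE
    refine ⟨?_, fun E' _ _ hE' hc hs => ?_⟩
    · obtain ⟨n, hn⟩ := a.card_eq
      refine ⟨n, a.pos_of_not_comm hn b, by rwa [card_top] at hn, ?_⟩
      have h1 := a.DD_cases hn
      rw [card_top] at hn
      rw [DD_top, hn] at h1
      have : 2 ^ n ≤ 2 ^ (2 * n) := Nat.pow_le_pow_right two_pos (by omega)
      zify [this]
      push_cast at h1
      rcases h1 with h | h
      · left; rw [pow_succ, pow_succ] at h; linarith
      · right; rw [pow_succ, pow_succ] at h; linarith
    · exact equiv_of_DD a (extraspecial_top_iff.1 hE').1 hc.symm (by rw [DD_top, DD_top, hc, hs])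

end Cfsg.Agent.S4416
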