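import Cfsg.Statements.S4422
import Cfsg.Agent.H1.Misc1

set_option autoImplicit false
open Cfsg

namespace Cfsg.Agent.S4422

/-- Primitive divisors of `q^e - 1` are congruent to 1 modulo `e`. Let `q ≥ 2` and `e ≥ 1` be natural numbers and let `m` be a divisor of `q^e - 1` that is coprime to `q^i - 1` for every `1 ≤ i < e` (so `m` divides the primitive part of `q^e - 1`, the largest such divisor). Then `m ≡ 1 (mod e)`. -/
theorem result (q e m : ℕ) (hq : 2 ≤ q) (he : 1 ≤ e)
    (hm : m ∣ q ^ e - 1) (hcop : ∀ i : ℕ, 1 ≤ i → i < e → Nat.Coprime m (q ^ i - 1)) :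
    m % e = 1 % e := by
  open Pointwise Subgroup CfsgH1 in
  open CfsgH2 hiding card_inf_mul_relIndex card_lt_of_lt card_lt_of_ne_top card_map_mul_card_inf_ker card_mul_relIndex card_subgroupOf card_sup_dvd card_sup_mul_card_inf exists_card_prime_le isNilpotent_map isNilpotent_of_le isPGroup_pCore isSolvable_map isSolvable_of_le le_pCore le_pPrimeCore relIndex_map_dvd in
  open scoped CfsgH2 in
  open scoped commutatorElement in
  · have m0 : m ≠ 0 := by
      rintro rfl
      have := Nat.one_lt_pow (by omega : e ≠ 0) (by omega : 1 < q)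
      have := Nat.eq_zero_of_zero_dvd hm
      omega
    have key : ∀ r : ℕ, r.Prime → r ∣ m → r ≡ 1 [MOD e] := fun r hr hd => by
      haveI := Fact.mk hr
      have h1 : ∀ i, (q : ZMod r) ^ i = 1 ↔ r ∣ q ^ i - 1 := fun i => by
        rw [← ZMod.natCast_eq_zero_iff, Nat.cast_sub (Nat.one_le_pow _ _ (by omega)), sub_eq_zero]; simp
      have h2 : orderOf (q : ZMod r) = e := (orderOf_eq_iff he).2 ⟨(h1 e).2 (hd.trans hm), fun i a b c =>
        hr.one_lt.ne' (Nat.eq_one_of_dvd_coprimes (hcop i b a) hd ((h1 i).1 c))⟩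
      have h3 : (q : ZMod r) ≠ 0 := fun h => by
        have := (h1 e).2 (hd.trans hm)
        rw [h, zero_pow (by omega)] at this
        exact zero_ne_one this
      exact ((Nat.modEq_iff_dvd' hr.one_le).2 (h2 ▸ ZMod.orderOf_dvd_card_sub_one h3)).symm
    clear hm hcop
    induction m using Nat.recOnMul with
    | zero => exact (m0 rfl).elim
    | one => rfl
    | prime r hr => exact key r hr dvd_rfl
    | mul a b ha hb =>
      have := Nat.ModEq.mul (show a ≡ 1 [MOD e] from ha (left_ne_zero_of_mul m0) fun r hr h => key r hr (h.mul_right _))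
        (show b ≡ 1 [MOD e] from hb (right_ne_zero_of_mul m0) fun r hr h => key r hr (h.mul_left _))
      rwa [mul_one] at this

end Cfsg.Agent.S4422
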