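import Cfsg.Statements.S4425
import Mathlib
import Cfsg.Agent.H4.Dim

set_option autoImplicit false
open Cfsg

open Cfsg CfsgH3 CfsgH4 CfsgH1 CfsgL0 MonoidAlgebra

namespace Cfsg.Agent.S4425

/-- Let χ be an irreducible character of the finite group G, p a prime, p^a the p-part of the order of G and p^b the p-part of the degree χ(1). Let χ̃ be the class function equal to p^a · χ on p-regular elements and zero on p-singular elements. Then p^(−b) · χ̃ is a generalized character of G, while p^(−(b+1)) · χ̃ is not. -/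
theorem result {G : Type*} [Group G] [Finite G] (p : ℕ) [Fact p.Prime] (χ : Cfsg.IrrCharacter G) : Cfsg.IsGeneralizedCharacter G (fun x : G => if p ∣ orderOf x then (0 : ℂ) else ((p ^ ((Nat.card G).factorization p - (Cfsg.charDegree (χ : G → ℂ)).factorization p) : ℕ) : ℂ) * (χ : G → ℂ) x) ∧ ¬ Cfsg.IsGeneralizedCharacter G (fun x : G => if p ∣ orderOf x then (0 : ℂ) else ((p ^ (Nat.card G).factorization p : ℕ) : ℂ) / ((p ^ ((Cfsg.charDegree (χ : G → ℂ)).factorization p + 1) : ℕ) : ℂ) * (χ : G → ℂ) x) := by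
  have := Fintype.ofFinite G
  obtain ⟨M, hM⟩ := exists_pmod p
  rw [ite_eq_smul_rg, ite_eq_smul_rg]
  have hc := isClassFunction_rg (p := p) χ.2.isClassFunction
  constructor
  · refine isGen_of_inner_int (hc.smul _) fun φ hφ => ?_
    obtain ⟨n, hn, -⟩ := exists_int_mm (M := M) χ hφ.isGen
    exact ⟨n, by rw [classInner_smul_left, Nat.cast_pow]; exact hn⟩
  · intro h
    have hB := isPBlock_blockOf (M := M) χ.2
    obtain ⟨ψ, hψ, h0⟩ := exists_height_zero (p := p) hB.nonempty
    obtain ⟨n, hn, h1⟩ := exists_int_mm (M := M) χ ψ.2.isGen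
    obtain ⟨m, hm⟩ := h.exists_int_classInner ψ.2.isGen
    refine (hB.not_InP_om_zrg_iff (mem_blockOf_self χ) ψ).2 ⟨hψ, h0⟩ (h1.1 ⟨m, ?_⟩)
    apply Int.cast_injective (α := ℂ)
    rw [← hn, Int.cast_mul, ← hm, classInner_smul_left, ← mm, ← mul_assoc]
    congr 1
    have h2 := p_pow_ne_zero (M := M) ((charDegree χ.1).factorization p)
    have h3 := p_pow_ne_zero (M := M) 1
    rw [pow_one] at h3
    rw [pow_sub₀ _ h3 (fact_degree_le χ)]
    push_cast
    field_simp
    ring

end Cfsg.Agent.S4425
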