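import Cfsg.Statements.S4426
import Mathlib
import Cfsg.Agent.H4.Hgt

set_option autoImplicit false
open Cfsg

open Cfsg CfsgH3 CfsgH4 CfsgH1 CfsgL0 MonoidAlgebra

namespace Cfsg.Agent.S4426

/-- Let χ be an irreducible character in the p-block B of the finite group G (relative to a maximal ideal M of the algebraic integers containing p), let p^a be the p-part of the order of G, and let χ̃ be the class function equal to p^a · χ on p-regular elements and zero elsewhere. For ξ ∈ B the inner product [χ̃, ξ] is an integer. The following are equivalent: (a) χ has height zero in B; (b) for some ξ ∈ B the integer [χ̃, ξ] is nonzero and the exact power of p dividing it equals the exact power of p dividing ξ(1); (c) the same holds for every ξ ∈ B. -/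
theorem result {G : Type*} [Group G] [Fintype G] (p : ℕ) [Fact p.Prime] (M : Ideal Cfsg.AlgInt) (hM : Cfsg.IsPModular p M) (B : Set (Cfsg.IrrCharacter G)) (hB : Cfsg.IsPBlock M B) (χ : Cfsg.IrrCharacter G) (hχ : χ ∈ B) : (Cfsg.blockHeight p B (χ : G → ℂ) = 0 ↔ ∃ ξ ∈ B, ∃ n : ℤ, Cfsg.classInner (fun x : G => if p ∣ orderOf x then (0 : ℂ) else ((p ^ (Nat.card G).factorization p : ℕ) : ℂ) * (χ : G → ℂ) x) (ξ : G → ℂ) = (n : ℂ) ∧ n ≠ 0 ∧ padicValInt p n = (Cfsg.charDegree (ξ : G → ℂ)).factorization p) ∧ (Cfsg.blockHeight p B (χ : G → ℂ) = 0 ↔ ∀ ξ ∈ B, ∃ n : ℤ, Cfsg.classInner (fun x : G => if p ∣ orderOf x then (0 : ℂ) else ((p ^ (Nat.card G).factorization p : ℕ) : ℂ) * (χ : G → ℂ) x) (ξ : G → ℂ) = (n : ℂ) ∧ n ≠ 0 ∧ padicValInt p n = (Cfsg.charDegree (ξ : G → ℂ)).factorization p) := by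
  haveI : PMod p M := ⟨hM⟩
  have hp := PMod.prime M
  rw [ite_eq_smul_rg]
  have key : ∀ ξ ∈ B, ((∃ n : ℤ, classInner (((p ^ (Nat.card G).factorization p : ℕ) : ℂ) •
      rg p χ.1) ξ.1 = (n : ℂ) ∧ n ≠ 0 ∧ padicValInt p n = (charDegree ξ.1).factorization p) ↔
      blockHeight p B χ.1 = 0) := fun ξ hξ => by
    obtain ⟨n, hn, h1⟩ := exists_int_mm (M := M) ξ χ.2.isGen
    have h2 : classInner (((p ^ (Nat.card G).factorization p : ℕ) : ℂ) • rg p χ.1) ξ.1 =
        (((p : ℤ) ^ (charDegree ξ.1).factorization p * n : ℤ) : ℂ) := by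
      rw [classInner_smul_left, ← mm, mm_comm χ.2.isGen ξ.2.isGen]
      push_cast
      rw [← hn, ← mul_assoc, ← pow_add, Nat.add_sub_cancel' (fact_degree_le ξ)]
    have h3 := hB.not_InP_om_zrg_iff hξ χ
    rw [← h1] at h3
    simp only [hχ, true_and] at h3
    rw [← h3, h2]
    have h4 : (p : ℤ) ^ (charDegree ξ.1).factorization p ≠ 0 :=
      pow_ne_zero _ (Nat.cast_ne_zero.2 hp.ne_zero)
    have h5 : ∀ k : ℕ, padicValInt p ((p : ℤ) ^ k) = k := fun k => by
      simp [padicValInt, Int.natAbs_pow]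
    constructor
    · rintro ⟨m, hm, h6, h7⟩ h8
      obtain rfl := Int.cast_injective hm
      have h9 : n ≠ 0 := right_ne_zero_of_mul h6
      rw [padicValInt.mul h4 h9, h5] at h7
      have := (padicValInt_dvd_iff (p := p) 1 n).1 (by simpa using h8)
      omega
    · intro h6
      have h9 : n ≠ 0 := fun h => h6 (h ▸ dvd_zero _)
      refine ⟨_, rfl, mul_ne_zero h4 h9, ?_⟩
      rw [padicValInt.mul h4 h9, h5, padicValInt.eq_zero_of_not_dvd h6, add_zero]
  obtain ⟨ξ, hξ⟩ := hB.nonempty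
  exact ⟨⟨fun h => ⟨ξ, hξ, (key ξ hξ).2 h⟩, fun ⟨ξ, hξ, h⟩ => (key ξ hξ).1 h⟩,
    ⟨fun h ξ hξ => (key ξ hξ).2 h, fun h => (key ξ hξ).1 (h ξ hξ)⟩⟩

end Cfsg.Agent.S4426
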