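import Cfsg.Statements.S4440
import Mathlib
import Cfsg.Agent.H4.FongP

set_option autoImplicit false
open Cfsg

open Cfsg CfsgH4 CfsgH1 CfsgL0 MonoidAlgebra Function
open CfsgH3 hiding cj cj_cj
open scoped ComplexConjugate Pointwise

namespace Cfsg.Agent.S4440

/-- Let G be a finite p-solvable group and fix a maximal ideal M of the algebraic integers containing p. Let U be a set of irreducible characters of G such that the class function Σ_{χ ∈ U} χ(1)·χ vanishes at every p-singular element of G. Then U is a union of p-blocks: if χ ∈ U and ψ lies in the same block as χ, then ψ ∈ U. -/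
theorem result {G : Type*} [Group G] [Finite G] (p : ℕ) [Fact p.Prime] (M : Ideal Cfsg.AlgInt) (hM : Cfsg.IsPModular p M) (hsolv : Cfsg.IsPSolvable p G) (U : Set (Cfsg.IrrCharacter G)) (hU : ∀ x : G, p ∣ orderOf x → ∑ᶠ χ ∈ U, (χ : G → ℂ) 1 * (χ : G → ℂ) x = 0) (χ : Cfsg.IrrCharacter G) (hχ : χ ∈ U) (ψ : Cfsg.IrrCharacter G) (hψ : Cfsg.SameBlock M (χ : G → ℂ) (ψ : G → ℂ)) : ψ ∈ U := by
  haveI : PMod p M := ⟨hM⟩
  refine mem_of_fB_mem_LG (harada _ G rfl hsolv _ (inv_fB U) (fB_idem U) fun g hg => ?_) hχ hψ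
  refine mul_left_cancel₀ (Nat.cast_ne_zero.2 (Nat.card_pos (α := G)).ne') ?_
  rw [coeff_fB_eq, colB_apply_finsum, mul_zero, map_eq_zero, ← hU g hg]
  refine finsum_mem_congr rfl fun η _ => ?_
  rw [← coe_charDegree η.2.isCharacter, map_natCast, mul_comm]

end Cfsg.Agent.S4440
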