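import Cfsg.Statements.S4442
import Mathlib
import Cfsg.Agent.H4.Cy7

set_option autoImplicit false
open Cfsg

open Cfsg CfsgH3 CfsgH4 CfsgH1 CfsgL0 MonoidAlgebra

namespace Cfsg.Agent.S4442

/-- Blocks of defect one. Let p be an odd prime and G a finite group whose Sylow p-subgroup P has order p; let C = C_G(P) and N = N_G(P), and fix a maximal ideal M of the algebraic integers containing p. Let B be a block of G with defect group P, b a block of C inducing B, and θ the member of b having P in its kernel (there is exactly one). Let T be the stabilizer of θ in N (the elements g ∈ N with θ(g c g⁻¹) = θ(c) for all c ∈ C) and e the index of C in T. Then e divides p − 1 and B contains exactly e + (p − 1)/e irreducible characters. Moreover B is the disjoint union of a set X of e characters and a set Y of (p − 1)/e characters such that, with f the index of C in N: every χ ∈ X has χ(1) ≡ ±(f/e)·θ(1) (mod p), there is one sign ε with ψ(1) ≡ ε f θ(1)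 (mod p) for all ψ ∈ Y, and all members of Y agree on the p-regular elements of G. -/
theorem result {G : Type*} [Group G] [Finite G] (p : ℕ) [Fact p.Prime] (M : Ideal Cfsg.AlgInt) (hM : Cfsg.IsPModular p M) (hodd : p ≠ 2) (P : Sylow p G) (hP : Nat.card P = p) (B : Set (Cfsg.IrrCharacter G)) (hB : Cfsg.IsPBlock M B) (hBP : Cfsg.IsDefectGroup p M B P) (b : Set (Cfsg.IrrCharacter (Subgroup.centralizer ((P : Subgroup G) : Set G)))) (hind : Cfsg.IsInducedBlock M (Subgroup.centralizer ((P : Subgroup G) : Set G)) b B) (θ : Cfsg.IrrCharacter (Subgroup.centralizer ((P : Subgroup G) : Set G))) (hθ : θ ∈ b) (hθP : ∀ x : Subgroup.centralizer ((P : Subgroup G) : Set G), (x : G) ∈ (P : Subgroup G) → (θ : Subgroup.centralizer ((P : Subgroup G) : Set G) → ℂ) x = (θ : Subgroup.centralizer ((P : Subgroup G) : Set G) → ℂ) 1) (T : Subgroup G) (hT : ∀ g : G, g ∈ T ↔ (g ∈ Subgroup.normalizer ((P : Subgroup G) : Set G) ∧ ∀ c c' : Subgroup.centralizer ((P : Subgroup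 G) : Set G), (c' : G) = g * c * g⁻¹ → (θ : Subgroup.centralizer ((P : Subgroup G) : Set G) → ℂ) c' = (θ : Subgroup.centralizer ((P : Subgroup G) : Set G) → ℂ) c)) (e f : ℕ) (he : (Subgroup.centralizer ((P : Subgroup G) : Set G)).relIndex T = e) (hf : (Subgroup.centralizer ((P : Subgroup G) : Set G)).relIndex (Subgroup.normalizer ((P : Subgroup G) : Set G)) = f) : e ∣ p - 1 ∧ Nat.card B = e + (p - 1) / e ∧ ∃ X Y : Set (Cfsg.IrrCharacter G), B = X ∪ Y ∧ Disjoint X Y ∧ Nat.card X = e ∧ Nat.card Y = (p - 1) / e ∧ (∀ χ ∈ X, (Cfsg.charDegree (χ : G → ℂ) : ℤ) ≡ ((f / e * Cfsg.charDegree (θ : Subgroup.centralizer ((P : Subgroup G) : Set G) → ℂ) : ℕ) : ℤ) [ZMOD p] ∨ (Cfsg.charDegree (χ : G → ℂ) : ℤ) ≡ -((f / e * Cfsg.charDegree (θ : Subgroup.centralizer ((P : Subgroup G) : Set G) → ℂ) : ℕ) : ℤ) [ZMOD p]) ∧ (∃ ε : ℤ, (ε = 1 ∨ ε = -1) ∧ ∀ ψ ∈ Y, (Cfsg.charDegree (ψ : G → ℂ) : ℤ) ≡ ε * ((f * Cfsg.charDegree (θ : Subgroup.centralizer ((P : Subgroup G)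 : Set G) → ℂ) : ℕ) : ℤ) [ZMOD p]) ∧ ∀ ψ ∈ Y, ∀ ψ' ∈ Y, ∀ g : G, ¬ p ∣ orderOf g → (ψ : G → ℂ) g = (ψ' : G → ℂ) g := by
  haveI : PMod p M := ⟨hM⟩
  obtain ⟨u, hu, hP⟩ := exists_zpowers_eq hP
  generalize (P : Subgroup G) = Q at *
  subst hP
  have hm := hind.maxPr hBP
  have := Fintype.ofFinite (Subgroup.centralizer (Subgroup.zpowers u : Set G))
  obtain ⟨β, e', Φ, X, y, ε, δ, h⟩ := hm.exists_d1 hB hu
  obtain rfl := h.d.hβ.ie_inj hind.1 h.ie_eq
  obtain rfl := h.eq_of_ker hθ hθP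
  obtain rfl : T = stab _ (ie M _ β) := Subgroup.ext fun g => (hT g).trans h.mem_stab_iff.symm
  have h1 := h.d.toCyL.relIndex_dvd
  have h2 := Subgroup.relIndex_mul_relIndex _ _ _ h.d.hm.pr.cent_le_stab (stab_le _ _)
  rw [he] at h1 h2
  rw [← card_autE] at he
  have h3 := (h.s.card_exc' h.d).trans (by rw [he, h.card])
  refine ⟨h1, by rw [h.s.card_B, h3, he], X, exc y, h.s.eq_union,
    Finset.disjoint_coe.2 h.s.disjoint, by simpa using h.s.card.trans he, by simpa using h3,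
    fun χ hχ => ?_, ⟨δ, h.s.sgn', fun ψ hψ => hf ▸ h.modEq_Y hψ⟩,
    fun θ h1 θ' h2 g hg => by rw [h.s.apply_reg h1 hg, h.s.apply_reg h2 hg]⟩
  have := h.modEq_X hχ
  rw [← hf, ← h2, Nat.mul_div_cancel_left _ (he ▸ Nat.card_pos)]
  rcases h.s.sgn χ with h4 | h4 <;> simp only [h4, neg_neg, one_mul, neg_mul] at this <;> simp only [this, true_or, or_true]

end Cfsg.Agent.S4442
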