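import Cfsg.Statements.S4443
import Mathlib
import Cfsg.Agent.H4.Rob

set_option autoImplicit false
open Cfsg

open Cfsg CfsgH3 CfsgH4 CfsgH1 CfsgL0 MonoidAlgebra Function
open scoped ComplexConjugate Pointwise

namespace Cfsg.Agent.S4443

/-- Let D be a normal p-subgroup of the finite group G, of order p^d, let p^a be the p-part of the order of G, and fix a Sylow p-subgroup S and a maximal ideal M of the algebraic integers containing p. Index by a finite type ι (via an injective map K) exactly the conjugacy classes of p-regular elements x of G for which D is a Sylow p-subgroup of C_G(x). For classes K_i, K_j let ω(i, j) be the number of pairs (y, z) ∈ K_i × K_j with z y⁻¹ ∈ S; this number is divisible by p^(a−d). Then the number of p-blocks of G having D as a defect group equals the rank over ℤ/pℤ of the matrix with (i, j) entry ω(i, j)/p^(a−d) reduced modulo p. -/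
theorem result {G : Type*} [Group G] [Finite G] (p : ℕ) [Fact p.Prime] (M : Ideal Cfsg.AlgInt) (hM : Cfsg.IsPModular p M) (D : Subgroup G) [D.Normal] (hD : IsPGroup p D) (S : Sylow p G) {ι : Type*} [Fintype ι] [DecidableEq ι] (K : ι → ConjClasses G) (hKinj : Function.Injective K) (hK : ∀ C : ConjClasses G, (∃ i, K i = C) ↔ ∃ x ∈ C.carrier, ¬ p ∣ orderOf x ∧ ∃ Q : Sylow p (Subgroup.centralizer ({x} : Set G)), (Q : Subgroup (Subgroup.centralizer ({x} : Set G))).map (Subgroup.centralizer ({x} : Set G)).subtype = D) : Nat.card {B : Set (Cfsg.IrrCharacter G) // Cfsg.IsPBlock M B ∧ Cfsg.IsDefectGroup p M B D} = (Matrix.of fun i j : ι => ((Nat.card {yz : G × G // yz.1 ∈ (K i).carrier ∧ yz.2 ∈ (K j).carrier ∧ yz.2 * yz.1⁻¹ ∈ (S : Subgroup G)} / p ^ ((Nat.card G).factorization p - (Nat.card D).factorization p) : ℕ) : ZMod p)).rank := by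
  classical
  haveI : PMod p M := ⟨hM⟩
  choose x h1 h2 h3 using fun i => (hK (K i)).1 ⟨i, rfl⟩
  simp only [ConjClasses.mem_carrier_iff_mk_eq] at h1
  have hD' : ∀ i, IsSylowIn p D (Subgroup.centralizer {x i}) := fun i => by
    obtain ⟨T, e⟩ := h3 i; exact e ▸ isSylowIn_map_subtype T
  have := Fintype.ofFinite {B // IsPBlock M B ∧ IsDefectGroup p M B D}
  let A : Matrix ι {B // IsPBlock M B ∧ IsDefectGroup p M B D} (Res M) := Matrix.of fun i B => (eB M B.1).coeff (x i)
  let W : Matrix {B // IsPBlock M B ∧ IsDefectGroup p M B D} ι (Res M) := Matrix.of fun B i => wB ⟨B.1, B.2.1⟩ (x i)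
  have a : W * A = 1 := by
    ext B B'
    rw [Matrix.mul_apply, Matrix.one_apply]
    refine (dual_fam (B := ⟨B.1, B.2.1⟩) (B' := ⟨B'.1, B'.2.1⟩) (fun i j e => hKinj (by
      rw [← h1, ← h1, ConjClasses.mk_eq_mk_iff_isConj.2 e])) fun g a b => ?_).trans (by simp [Subtype.ext_iff])
    obtain ⟨y, c, d, e⟩ := Bl.exists_sylow B.2.2 B'.2.2 a b
    obtain ⟨i, hi⟩ := (hK (ConjClasses.mk y)).2 ⟨y, ConjClasses.mem_carrier_mk, d, e.exists_sylow⟩
    exact ⟨i, (ConjClasses.mk_eq_mk_iff_isConj.1 ((h1 i).trans hi)).trans c⟩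
  have b : (A * W).rank = Nat.card {B // IsPBlock M B ∧ IsDefectGroup p M B D} := by
    rw [Nat.card_eq_fintype_card]
    refine le_antisymm ((Matrix.rank_mul_le_left _ _).trans (Matrix.rank_le_card_width _)) ?_
    rw [← Matrix.rank_one (R := Res M), ← mul_one (1 : Matrix _ _ _), ← a, Matrix.mul_assoc, ← Matrix.mul_assoc A]
    exact (Matrix.rank_mul_le_right _ _).trans (Matrix.rank_mul_le_left _ _)
  have u : ∀ i, ((ordCompl[p] (Nat.card (Subgroup.centralizer {x i})) : ℕ) : Res M) ≠ 0 := fun i =>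
    natCast_res_ne (Nat.not_dvd_ordCompl Fact.out Nat.card_pos.ne')
  rw [← b, ← rank_map_field (ZMod.castHom (dvd_refl p) (Res M)),
    ← Matrix.rank_mul_eq_right_of_det_ne_zero (Matrix.diagonal fun i =>
      ((ordCompl[p] (Nat.card (Subgroup.centralizer {x i})) : ℕ) : Res M)) (Matrix.map _ _) (by
        rw [Matrix.det_diagonal]; exact Finset.prod_ne_zero_iff.2 fun i _ => u i),
    ← Matrix.rank_smul_of_mem_nonZeroDivisors (A * W) (mem_nonZeroDivisors_of_ne_zero (natCast_res_ne S.not_dvd_index))]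
  congr 1
  ext i j
  have c := rob_div (M := M) S (x i) (x j)
  rw [rpart_of_reg (h2 i), ← Finset.sum_filter_ne_zero] at c
  rw [Matrix.diagonal_mul]
  simp only [Matrix.map_apply, Matrix.of_apply, map_natCast, Matrix.smul_apply,
    smul_eq_mul, Matrix.mul_apply, ConjClasses.mem_carrier_iff_mk_eq, ← h1, ConjClasses.mk_eq_mk_iff_isConj,
    isConj_comm (h := x _)]
  rw [show (Nat.card D).factorization p = _ by rw [(hD' i).card_eq, (Fact.out : p.Prime).factorization_pow, Finsupp.single_eq_same]]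
  refine Eq.trans ?_ c.symm
  congr 1
  rw [← Finset.sum_filter_ne_zero]
  refine Finset.sum_bij (fun B _ => ⟨B.1, B.2.1⟩) (by simp [A, W]) (by simp [Subtype.ext_iff]) (fun B hB => ?_) fun _ _ => rfl
  have := (Finset.mem_filter.1 hB).2
  exact ⟨⟨B.1, B.2, B.isDef_of (hD' i).le (hD' j) (left_ne_zero_of_mul this) (right_ne_zero_of_mul this)⟩, by simpa [A, W] using this, rfl⟩

end Cfsg.Agent.S4443
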