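import Cfsg.Statements.S4444
import Mathlib
import Cfsg.Agent.H4.Gla2

set_option autoImplicit false
open Cfsg

open Cfsg CfsgH3 CfsgH4 CfsgH1 Function
open scoped CfsgH2 Pointwise

namespace Cfsg.Agent.S4444

/-- The Glauberman correspondence for a p-group of operators. Inside a finite group Γ let S normalise G with the orders of G and S coprime, S a p-group, and let C = G ⊓ C(S) be the fixed points. Call an irreducible character χ of G S-invariant when χ(s g s⁻¹) = χ(g) for s ∈ S, g ∈ G. Then: (i) for every S-invariant χ there is exactly one irreducible character β of C whose multiplicity [χ_C, β] in the restriction of χ is not divisible by p; (ii) that multiplicity is ≡ 1 or ≡ −1 (mod p); (iii) distinct S-invariant χ give distinct β; (iv) every irreducible character of C arises in this way. So χ ↦ β is a bijection from the S-invariant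 irreducible characters of G onto the irreducible characters of C. -/
theorem result {Γ : Type*} [Group Γ] [Fintype Γ] (G S : Subgroup Γ) [Fintype G] (hnorm : ∀ s ∈ S, ∀ g ∈ G, s * g * s⁻¹ ∈ G) (hcop : (Nat.card G).Coprime (Nat.card S)) (p : ℕ) (hp : p.Prime) (hS : IsPGroup p S) (C : Subgroup Γ) [Fintype C] (hC : C = G ⊓ Subgroup.centralizer (S : Set Γ)) (hCG : C ≤ G) : (∀ χ : Cfsg.IrrCharacter G, (∀ s ∈ S, ∀ g g' : G, (g' : Γ) = s * g * s⁻¹ → (χ : G → ℂ) g' = (χ : G → ℂ) g) → ∃! β : Cfsg.IrrCharacter C, ∃ m : ℕ, Cfsg.classInner (fun c : C => (χ : G → ℂ) ⟨c, hCG c.2⟩) (β : C → ℂ) = (m : ℂ) ∧ ¬ p ∣ m) ∧ (∀ χ : Cfsg.IrrCharacter G, (∀ s ∈ S, ∀ g g' : G, (g' : Γ) = s * g * s⁻¹ → (χ : G → ℂ) g' = (χ : G → ℂ) g) → ∀ β : Cfsg.IrrCharacter C, ∀ m : ℕ, Cfsg.classInner (fun c : C => (χ : G → ℂ) ⟨c, hCG c.2⟩) (β : C → ℂ) = (m : ℂ) → ¬ p ∣ m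 → ((m : ℤ) ≡ 1 [ZMOD p] ∨ (m : ℤ) ≡ -1 [ZMOD p])) ∧ (∀ χ χ' : Cfsg.IrrCharacter G, (∀ s ∈ S, ∀ g g' : G, (g' : Γ) = s * g * s⁻¹ → (χ : G → ℂ) g' = (χ : G → ℂ) g) → (∀ s ∈ S, ∀ g g' : G, (g' : Γ) = s * g * s⁻¹ → (χ' : G → ℂ) g' = (χ' : G → ℂ) g) → ∀ β : Cfsg.IrrCharacter C, ∀ m m' : ℕ, Cfsg.classInner (fun c : C => (χ : G → ℂ) ⟨c, hCG c.2⟩) (β : C → ℂ) = (m : ℂ) → ¬ p ∣ m → Cfsg.classInner (fun c : C => (χ' : G → ℂ) ⟨c, hCG c.2⟩) (β : C → ℂ) = (m' : ℂ) → ¬ p ∣ m' → χ = χ') ∧ (∀ β : Cfsg.IrrCharacter C, ∃ χ : Cfsg.IrrCharacter G, (∀ s ∈ S, ∀ g g' : G, (g' : Γ) = s * g * s⁻¹ → (χ : G → ℂ) g' = (χ : G → ℂ) g) ∧ ∃ m : ℕ, Cfsg.classInner (fun c : C => (χ : G → ℂ) ⟨c, hCG c.2⟩) (β : C → ℂ) = (m : ℂ) ∧ ¬ p ∣ m) := by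
  have hn : S ≤ N[G] := fun s hs => mem_normalizer_of_conj_mem (hnorm s hs)
  subst hC
  have a := gc_pgroup hp hS hn hcop
  refine ⟨fun χ h => ?_, fun χ h β m h1 h2 => ?_, fun χ χ' h h' β m m' h1 h2 h3 h4 => ?_,
    fun β => ?_⟩
  · obtain ⟨β, h1, h2⟩ := a.ex _ χ.2 ((le_aI_iff hn).2 h)
    exact ⟨⟨β, h1⟩, h2.not_dvd hp χ.2.isCharacter h1, fun γ ⟨m, h3, h4⟩ =>
      Subtype.ext (h2.eq_of_not_dvd h1 γ.2 h3 h4)⟩
  · obtain ⟨γ, h3, h4⟩ := a.ex _ χ.2 ((le_aI_iff hn).2 h)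
    exact h4.modEq h3 (h4.eq_of_not_dvd h3 β.2 h1 h2 ▸ h1)
  · rw [← le_aI_iff hn] at h h'
    obtain ⟨γ, h5, h6⟩ := a.ex _ χ.2 h
    obtain ⟨γ', h7, h8⟩ := a.ex _ χ'.2 h'
    exact Subtype.ext (a.inj χ.2 χ'.2 β.2 h h' (h6.eq_of_not_dvd h5 β.2 h1 h2 ▸ h6)
      (h8.eq_of_not_dvd h7 β.2 h3 h4 ▸ h8))
  · obtain ⟨χ, h1, h2, h3⟩ := a.surj _ β.2
    exact ⟨⟨χ, h1⟩, (le_aI_iff hn).1 h2, h3.not_dvd hp h1.isCharacter β.2⟩

end Cfsg.Agent.S4444
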