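import Cfsg.Statements.S4446
import Mathlib
import Cfsg.Agent.H4.Gla4

set_option autoImplicit false
open Cfsg

open Cfsg CfsgH3 CfsgH4 CfsgH1 Function
open CfsgH2 hiding cj
open scoped Pointwise

namespace Cfsg.Agent.S4446

/-- Let the finite group Γ be generated by a normal subgroup G and a cyclic subgroup S of coprime orders, C = G ⊓ C(S), and let χ be an S-invariant irreducible character of G with canonical extension χ̂ to Γ (the extension whose determinantal order is coprime to the order of S). Then there are exactly one irreducible character β of C and one sign ε such that χ̂(c s) = ε β(c) for every c ∈ C and every generator s of S; this β is a constituent of the restriction of χ to C; distinct S-invariant χ give distinct β; and every irreducible character of C arises in this way. -/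
theorem result {Γ : Type*} [Group Γ] [Fintype Γ] (G S : Subgroup Γ) [Fintype G] (hnorm : ∀ s ∈ S, ∀ g ∈ G, s * g * s⁻¹ ∈ G) (hcop : (Nat.card G).Coprime (Nat.card S)) (htop : G ⊔ S = ⊤) (hcyc : IsCyclic S) (C : Subgroup Γ) [Fintype C] (hC : C = G ⊓ Subgroup.centralizer (S : Set Γ)) (hCG : C ≤ G) : (∀ (χ : Cfsg.IrrCharacter G) (χh : Cfsg.IrrCharacter Γ), (∀ s ∈ S, ∀ g g' : G, (g' : Γ) = s * g * s⁻¹ → (χ : G → ℂ) g' = (χ : G → ℂ) g) → (∀ g : G, (χh : Γ → ℂ) g = (χ : G → ℂ) g) → (Cfsg.detOrder (χh : Γ → ℂ)).Coprime (Nat.card S) → (∃! βε : Cfsg.IrrCharacter C × ℤ, (βε.2 = 1 ∨ βε.2 = -1) ∧ ∀ c : C, ∀ s : Γ, Subgroup.zpowers s = S → (χh : Γ → ℂ) ((c : Γ) * s) = (βε.2 : ℂ) * (βε.1 : C → ℂ) c) ∧ ∀ β : Cfsg.IrrCharacter C, ∀ ε : ℤ, (ε = 1 ∨ ε = -1) → (∀ c : C, ∀ s : Γ, Subgroup.zpowers s = S → (χh : Γ → ℂ) ((c : Γ) * s) = (ε : ℂ) * (β : C → ℂ) c) → Cfsg.classInner (fun c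 : C => (χ : G → ℂ) ⟨c, hCG c.2⟩) (β : C → ℂ) ≠ 0) ∧ (∀ (χ χ' : Cfsg.IrrCharacter G) (χh χh' : Cfsg.IrrCharacter Γ), (∀ s ∈ S, ∀ g g' : G, (g' : Γ) = s * g * s⁻¹ → (χ : G → ℂ) g' = (χ : G → ℂ) g) → (∀ s ∈ S, ∀ g g' : G, (g' : Γ) = s * g * s⁻¹ → (χ' : G → ℂ) g' = (χ' : G → ℂ) g) → (∀ g : G, (χh : Γ → ℂ) g = (χ : G → ℂ) g) → (∀ g : G, (χh' : Γ → ℂ) g = (χ' : G → ℂ) g) → (Cfsg.detOrder (χh : Γ → ℂ)).Coprime (Nat.card S) → (Cfsg.detOrder (χh' : Γ → ℂ)).Coprime (Nat.card S) → ∀ β : Cfsg.IrrCharacter C, ∀ ε ε' : ℤ, (ε = 1 ∨ ε = -1) → (ε' = 1 ∨ ε' = -1) → (∀ c : C, ∀ s : Γ, Subgroup.zpowers s = S → (χh : Γ → ℂ) ((c : Γ) * s) = (ε : ℂ) * (β : C → ℂ) c) → (∀ c : C, ∀ s : Γ, Subgroup.zpowers s = S → (χh' : Γ → ℂ) ((c : Γ) * s) = (ε' : ℂ) * (β : C → ℂ) c) → χ = χ') ∧ (∀ β : Cfsg.IrrCharacter C, ∃ (χ : Cfsg.IrrCharacter G) (χh : Cfsg.IrrCharacter Γ) (ε : ℤ), (∀ s ∈ S, ∀ g g'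 : G, (g' : Γ) = s * g * s⁻¹ → (χ : G → ℂ) g' = (χ : G → ℂ) g) ∧ (∀ g : G, (χh : Γ → ℂ) g = (χ : G → ℂ) g) ∧ (Cfsg.detOrder (χh : Γ → ℂ)).Coprime (Nat.card S) ∧ (ε = 1 ∨ ε = -1) ∧ ∀ c : C, ∀ s : Γ, Subgroup.zpowers s = S → (χh : Γ → ℂ) ((c : Γ) * s) = (ε : ℂ) * (β : C → ℂ) c) := by
  have h := GS.mk' hnorm hcop htop
  haveI := h.nor
  have hn : S ≤ N[G] := Subgroup.le_normalizer_of_normal
  obtain ⟨s, hs⟩ := exists_gen hcyc
  have h1 := mem_range_of_cent ((cent_gen hs).trans hC.symm)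
  have h2 := h.ord (hs ▸ Subgroup.mem_zpowers s)
  have hj := C.subtype_injective
  have key : ∀ {a}, Can G a → ∃ (β : IrrCharacter C) (ε : ℤ), (ε = 1 ∨ ε = -1) ∧
      ∀ c : C, ∀ t : Γ, Subgroup.zpowers t = S → a (c * t) = ε * β.1 c := fun ha => by
    obtain ⟨ε, β, h3, h4, h5⟩ := (ha.sIrr h.cop' hj h1 h2).exists_sign
    exact ⟨⟨β, h4⟩, ε, h3, fun c t ht => (h.gen_eq ha hs ht (hC ▸ c.2)).trans (congrFun h5 c)⟩
  have sgn : ∀ ε : ℤ, ε = 1 ∨ ε = -1 → (ε : ℂ) ≠ 0 := by rintro _ (rfl | rfl) <;> simp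
  have inn : ∀ {a : Γ → ℂ} {β : IrrCharacter C} {ε : ℤ}, (∀ c : C, a (c * s) = ε * β.1 c) →
      ∀ γ, classInner (fun c : C => a (c * s)) γ = ε * classInner β.1 γ := fun h γ => by
    rw [← classInner_smul_left, funext h]; rfl
  refine ⟨fun χ a _ h3 h4 => ⟨?_, fun β ε h5 h6 h7 => ?_⟩,
    fun χ χ' a b _ _ h3 h4 h5 h6 β ε δ h7 h8 h9 h10 => ?_, fun β => ?_⟩
  · obtain ⟨β, ε, h5, h6⟩ := key (h.can χ.2 a.2 h3 h4)
    refine ⟨(β, ε), ⟨h5, h6⟩, fun ⟨γ, δ⟩ ⟨h7, h8⟩ => ?_⟩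
    have h9 := (inn (fun c => h8 c s hs) β).symm.trans (inn (fun c => h6 c s hs) β)
    rw [β.2.classInner_self, mul_one] at h9
    obtain rfl : γ = β := Subtype.ext (γ.2.eq_of_classInner_ne_zero β.2
      (right_ne_zero_of_mul (h9.trans_ne (sgn ε h5))))
    rw [γ.2.classInner_self, mul_one] at h9
    exact Prod.ext rfl (Int.cast_injective h9)
  · have h8 := isCharacter_psi S (j := C.subtype) (fun c x hx => ((hC ▸ c.2 : _ ∈ G ⊓ C[S]).2 x hx).symm)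
      a.2.isCharacter β.2.isCharacter
    have h9 := congrFun (h8.eq_zero_of_apply_one (by
      rw [← h7]; congr 1; funext c; simpa using h3 ⟨c, hCG c.2⟩)) ⟨s, hs ▸ Subgroup.mem_zpowers s⟩
    exact sgn ε h5 (by simpa [β.2.classInner_self] using (inn (fun c => h6 c s hs) β).symm.trans h9)
  · have h11 := (h.can χ.2 a.2 h3 h5).eq_of_ne_zero h.cop' hj h1 h2 (h.can χ'.2 b.2 h4 h6) (by
      refine (inn (fun c => h9 c s hs) _).trans_ne (mul_ne_zero (sgn ε h7) ?_)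
      rw [Ne, classInner_eq_zero_comm]
      exact (inn (fun c => h10 c s hs) _).trans_ne (by simpa [β.2.classInner_self] using sgn δ h8))
    exact Subtype.ext (funext fun g => by rw [← h3, ← h4, h11])
  · obtain ⟨a, ha, h3, h4⟩ := exists_can_ne_zero h.cop' hj h1 h2 (hs ▸ htop) β.2.apply_one_ne_zero
    obtain ⟨γ, ε, h5, h6⟩ := key ha
    obtain rfl : γ = β := Subtype.ext (γ.2.eq_of_classInner_ne_zero β.2
      (right_ne_zero_of_mul ((inn (fun c => h6 c s hs) β).symm.trans_ne h4)))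
    exact ⟨⟨_, ha.res⟩, ⟨a, ha.irr⟩, ε, fun x _ g g' h => by
      simp only [h]; exact ha.irr.isClassFunction _ _, fun _ => rfl, hcop.coprime_dvd_left h3, h5, h6⟩

end Cfsg.Agent.S4446
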