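import Cfsg.Statements.S4451
import Mathlib
import Cfsg.Agent.H4.Gla4
import Cfsg.Agent.H4.Cen

set_option autoImplicit false
open Cfsg

open Cfsg CfsgH3 CfsgH4 CfsgH1 Function
open CfsgH2 hiding cj
open scoped Pointwise

namespace Cfsg.Agent.S4451

/-- Let the finite group Γ be generated by a normal subgroup G and a cyclic subgroup S of coprime orders such that every non-identity element of S has the same centraliser C = G ⊓ C(S) in G. Let χ be an S-invariant irreducible character of G, χ̂ its canonical extension to Γ (determinantal order coprime to the order of S), and β the irreducible character of C with χ̂(c s) = ε₀ β(c) for c ∈ C and generators s of S (ε₀ = ±1). Then there are a sign ε = ±1, which may differ from ε₀, and a linear character μ of S with μ² = 1, such that: (a) χ̂(c x) = ε β(c) μ(x) for all c ∈ C and all x ∈ S other than 1; (b) the restriction of χ to C equals |S|·ϑ + ε β for some character ϑ of C or ϑ = 0; (c) |S| divides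 χ(1) − ε β(1). -/
theorem result {Γ : Type*} [Group Γ] [Fintype Γ] (G S : Subgroup Γ) [Fintype G] (hnorm : ∀ s ∈ S, ∀ g ∈ G, s * g * s⁻¹ ∈ G) (hcop : (Nat.card G).Coprime (Nat.card S)) (htop : G ⊔ S = ⊤) (hcyc : IsCyclic S) (C : Subgroup Γ) [Fintype C] (hC : C = G ⊓ Subgroup.centralizer (S : Set Γ)) (hCG : C ≤ G) (hfpf : ∀ x ∈ S, x ≠ 1 → G ⊓ Subgroup.centralizer ({x} : Set Γ) = C) (χ : Cfsg.IrrCharacter G) (hinv : (∀ s ∈ S, ∀ g g' : G, (g' : Γ) = s * g * s⁻¹ → (χ : G → ℂ) g' = (χ : G → ℂ) g)) (χh : Cfsg.IrrCharacter Γ) (hext : (∀ g : G, (χh : Γ → ℂ) g = (χ : G → ℂ) g)) (hdet : (Cfsg.detOrder (χh : Γ → ℂ)).Coprime (Nat.card S)) (β : Cfsg.IrrCharacter C) (ε₀ : ℤ) (hε₀ : ε₀ = 1 ∨ ε₀ = -1) (hβ : ∀ c : C, ∀ s : Γ, Subgroup.zpowers s = S → (χh : Γ → ℂ) ((c : Γ) * s) = (ε₀ : ℂ) * (β : C → ℂ) c) : ∃ ε : ℤ, (ε = 1 ∨ ε = -1) ∧ (∃ μ : S → ℂ, Cfsg.IsCharacter S μ ∧ μ 1 = 1 ∧ (∀ x : S, μ x * μ x = 1) ∧ ∀ c : C, ∀ x : S, x ≠ 1 → (χh : Γ → ℂ) ((c : Γ) *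 x) = (ε : ℂ) * (β : C → ℂ) c * μ x) ∧ (∃ ϑ : C → ℂ, Cfsg.IsCharacter C ϑ ∧ (fun c : C => (χ : G → ℂ) ⟨c, hCG c.2⟩) = fun c => (Nat.card S : ℂ) * ϑ c + (ε : ℂ) * (β : C → ℂ) c) ∧ (Nat.card S : ℤ) ∣ (Cfsg.charDegree (χ : G → ℂ) : ℤ) - ε * (Cfsg.charDegree (β : C → ℂ) : ℤ) := by
  classical
  have h := GS.mk' hnorm hcop htop
  haveI := h.nor
  haveI := Fintype.ofFinite S
  obtain ⟨s, hs⟩ := exists_gen hcyc
  have ha := h.can χ.2 χh.2 hext hdet
  have h1 := fun (γ : IrrCharacter C) => isCharacter_psi S (j := C.subtype)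
    (fun c x hx => ((hC ▸ c.2 : _ ∈ G ⊓ C[S]).2 x hx).symm) χh.2.isCharacter γ.2.isCharacter
  have h2 : ∀ x : S, x ≠ 1 → SIrr C fun c => χh.1 (c * x) := fun x hx =>
    ha.sIrr h.cop' C.subtype_injective (mem_range_of_cent (hfpf x x.2 fun h => hx (Subtype.ext h)))
      (h.ord x.2)
  have h3 : classInner (fun c : C => χh.1 (c * s)) β.1 = ε₀ := by
    rw [funext fun c => hβ c s hs]
    exact (classInner_smul_left _ _ _).trans (by rw [β.2.classInner_self, mul_one])
  have h4 : (ε₀ : ℂ) ≠ 0 := by rcases hε₀ with rfl | rfl <;> simp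
  let s' : S := ⟨s, hs ▸ Subgroup.mem_zpowers s⟩
  obtain ⟨q, ε, μ, h5, h6, h7⟩ := near_regular (fun x y => hcyc.commGroup.mul_comm x y) (h1 β).isGen
    (by
      refine (Finset.sum_le_card_nsmul _ _ 1 fun x hx => ?_).trans (by
        simp [Nat.cast_sub (Fintype.card_pos (α := S))])
      rcases (h2 x (Finset.ne_of_mem_erase hx)).classInner_cases β.2.sIrr with h | h | h <;>
        simp [h]) fun h5 => by
    have : s = 1 := by_contra fun h6 => h4 (h3.symm.trans (h5 s' fun h => h6 (congrArg Subtype.val h)))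
    rw [← hs, this]; simp
  have h8 : ∀ x : S, x ≠ 1 → (ε * μ x : ℂ) ^ 2 = 1 ∧ ∀ c : C, χh.1 (c * x) = ε * β.1 c * μ x :=
    fun x hx => by
      obtain ⟨h8, h9⟩ := (h2 x hx).eq_smul β.2.sIrr
        ((h7 x hx).trans_ne (by rcases h5 with rfl | rfl <;> simp))
      rw [show classInner (fun c : C => χh.1 (c * x)) β.1 = _ from h7 x hx] at h8 h9
      exact ⟨by rcases h8 with h | h <;> simp [h], fun c => (congrFun h9 c).trans
        (mul_right_comm _ _ _)⟩
  have h9 : ∀ γ : IrrCharacter C, classInner (resLE hCG χ.1) γ =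
      classInner (fun c : C => χh.1 (c * (1 : S))) γ := fun γ => by
    congr 1; funext c; simpa [resLE] using (hext ⟨c, hCG c.2⟩).symm
  have h10 := natCard_ne_zero S
  have h11 : IsCharacter C ((Nat.card S : ℂ)⁻¹ • (resLE hCG χ.1 - (ε : ℂ) • β.1)) := by
    refine isCharacter_of_inner_nat (((χ.2.isClassFunction.resLE _).sub
      (β.2.isClassFunction.smul _)).smul _) fun γ hγ => ?_
    rw [classInner_smul_left, classInner_sub_left, classInner_smul_left, h9 ⟨γ, hγ⟩]
    by_cases h11 : β.1 = γ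
    · subst h11
      obtain ⟨n, hn⟩ := (h1 β).exists_nat_apply_one
      have h11 : n ≠ 0 := fun h => h4 (h3.symm.trans (congrFun ((h1 β).eq_zero_of_apply_one
        (by rw [hn, h, Nat.cast_zero])) s'))
      have h12 : (n : ℤ) = Nat.card S * q + ε := by exact_mod_cast hn.symm.trans h6
      lift q to ℕ using by
        have := Nat.card_pos (α := S)
        by_contra h13
        rcases h5 with rfl | rfl <;> nlinarith [Nat.pos_of_ne_zero h11]
      refine ⟨q, ?_⟩
      rw [show classInner (fun c : C => χh.1 (c * (1 : S))) β.1 = _ from h6, β.2.classInner_self]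
      field_simp; simp
    · obtain ⟨n, hn⟩ := (h1 ⟨γ, hγ⟩).exists_nat_classInner isCharacter_one
      rw [classInner_one_right, Finset.sum_eq_single 1 (fun x _ hx => ?_) (by simp)] at hn
      · exact ⟨n, by rw [β.2.classInner_of_ne hγ h11, mul_zero, sub_zero]; exact hn⟩
      · rw [show (fun c : C => χh.1 (C.subtype c * x)) = (ε * μ x : ℂ) • β.1 from funext fun c =>
          ((h8 x hx).2 c).trans (mul_right_comm _ _ _), classInner_smul_left,
          β.2.classInner_of_ne hγ h11, mul_zero]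
  have h12 : resLE hCG χ.1 = fun c => Nat.card S * ((Nat.card S : ℂ)⁻¹ •
      (resLE hCG χ.1 - (ε : ℂ) • β.1)) c + ε * β.1 c := funext fun c => by simp [h10]
  refine ⟨ε, h5, ⟨_, (isIrr_of_unitsHom μ).isCharacter, by simp, fun x => ?_,
    fun c x hx => (h8 x hx).2 c⟩, ⟨_, h11, h12⟩, ?_⟩
  · by_cases hx : x = 1
    · simp [hx]
    · have := (h8 x hx).1
      rcases h5 with rfl | rfl <;> simpa [sq] using this
  · obtain ⟨n, hn⟩ := h11.exists_nat_apply_one
    have h13 := congrFun h12 1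
    rw [hn, show resLE hCG χ.1 1 = χ.1 1 from rfl, ← coe_charDegree χ.2.isCharacter,
      ← coe_charDegree β.2.isCharacter] at h13
    exact ⟨n, by exact_mod_cast sub_eq_of_eq_add h13⟩

end Cfsg.Agent.S4451
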