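import Cfsg.Statements.S4452
import Mathlib
import Cfsg.Agent.H4.Gla4
import Cfsg.Agent.H4.Cen

set_option autoImplicit false
open Cfsg

open Cfsg CfsgH3 CfsgH4 CfsgH1 Function
open CfsgH2 hiding cj
open scoped Pointwise

namespace Cfsg.Agent.S4452

theorem aux {G : Type*} [Group G] [Finite G] {K H : Subgroup G} (h : GS K H) [Group.IsSolvable H] :
    Nat.card {χ : IrrCharacter G // (charDegree χ.1).Coprime (Nat.card H)} =
      Nat.card (IrrCharacter (K ⊓ C[H] :)) * Nat.card (H →* ℂˣ) := by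
  haveI := h.nor
  haveI := Fintype.ofFinite G
  have e := (Subgroup.isComplement'_of_coprime ((congrArg _ h.index.symm).trans K.card_mul_index)
    h.cop).symm.QuotientMulEquiv
  rw [← card_inv_irr Subgroup.le_normalizer_of_normal h.cop,
    ← Nat.card_congr e.monoidHomCongrLeftEquiv, ← Nat.card_prod]
  refine card_eq_of_rel (fun χ x => ∃ a, Can K a ∧ (∀ k : K, a k = x.1.1.1 k) ∧
    χ.1.1 = fun g : G => x.2 g * a g) (fun χ => ?_) (fun x => ?_) ?_ ?_
  · have h1 := restrict_irr_of_coprime (N := K) χ.1.2 (coe_charDegree χ.1.2.isCharacter).symm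
      (by rw [h.index]; exact χ.2.symm)
    have h2 := cj_restrict (N := K) χ.1.2.isClassFunction
    obtain ⟨a, h3, h4, -⟩ := exists_can h.cop' h1 h2
    obtain ⟨l, h5, h6⟩ := exists_lin_of_ext h1 h3.irr χ.1.2 h4 fun _ => rfl
    exact ⟨(⟨⟨_, h1⟩, fun x _ => mem_aI_iff_cj.2 (h2 x)⟩, QuotientGroup.lift K l h5), a, h3, h4, h6⟩
  · obtain ⟨a, h1, h2, -⟩ := exists_can h.cop' x.1.1.2 (h.inv x.1.1.2.isClassFunction x.1.2)
    refine ⟨⟨⟨_, isIrr_lin_mul h1.irr (x.2.comp (QuotientGroup.mk' K))⟩, h.cop.coprime_dvd_left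
      (x.1.1.2.degree_dvd_card ?_)⟩, a, h1, h2, rfl⟩
    rw [coe_charDegree (isIrr_lin_mul h1.irr _).isCharacter, ← h2]; simp
  · rintro χ ψ x ⟨a, h1, h2, h3⟩ ⟨b, h4, h5, h6⟩
    obtain rfl := h1.ext h.cop' h4 fun k => (h2 k).trans (h5 k).symm
    exact Subtype.ext (Subtype.ext (h3.trans h6.symm))
  · rintro χ x y ⟨a, h1, h2, h3⟩ ⟨b, h4, h5, h6⟩
    have h7 : ∀ (l : G ⧸ K →* ℂˣ), ∀ k ∈ K, l k = 1 := fun l k hk => by
      rw [(QuotientGroup.eq_one_iff k).2 hk, map_one]
    obtain rfl := h1.ext h.cop' h4 fun k => by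
      simpa [h7 _ _ k.2] using congrFun (h3.symm.trans h6) k
    refine Prod.ext (Subtype.ext (Subtype.ext (funext fun k => (h2 k).symm.trans (h5 k))))
      (MonoidHom.ext fun g => ?_)
    obtain ⟨g, rfl⟩ := QuotientGroup.mk_surjective g
    exact Units.ext (congrFun (eq_of_mul_eq_of_restrict_irr h1.irr.isCharacter h1.res
      (isIrr_of_unitsHom (x.2.comp (QuotientGroup.mk' K))) (fun n hn => by simp [h7 _ n hn])
      (isIrr_of_unitsHom (y.2.comp (QuotientGroup.mk' K))) (fun n hn => by simp [h7 _ n hn])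
      (h3.symm.trans h6)) g)

/-- Let the finite group G be the product of a normal subgroup K and a solvable subgroup H of coprime orders, and let N = N_G(H). Then the number of irreducible characters of G of degree coprime to the order of H equals the number of irreducible characters of N of degree coprime to the order of H. (The two sets are in fact in a canonical bijection; only the equality of their sizes is stated here.) -/
theorem result {G : Type*} [Group G] [Finite G] (K H : Subgroup G) [K.Normal] (hKH : K ⊔ H = ⊤) (hcop : (Nat.card K).Coprime (Nat.card H)) (hsolv : Group.IsSolvable H) : Nat.card {χ : Cfsg.IrrCharacter G // (Cfsg.charDegree (χ : G → ℂ)).Coprime (Nat.card H)} = Nat.card {η : Cfsg.IrrCharacter (Subgroup.normalizer (H : Set G)) // (Cfsg.charDegree (η : Subgroup.normalizer (H : Set G) → ℂ)).Coprime (Nat.card H)} := by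
  have h1 : H ≤ N[H] := Subgroup.le_normalizer
  have h2 := card_subgroupOf_of_le h1
  haveI := isSolvable_subgroupOf H N[H]
  have h3 : K.subgroupOf N[H] ⊓ C[H.subgroupOf N[H]] = (K ⊓ C[H]).subgroupOf N[H] := by
    ext x
    exact and_congr_right' ⟨fun h y hy => congrArg Subtype.val (h ⟨y, h1 hy⟩ hy),
      fun h y hy => Subtype.ext (h y hy)⟩
  rw [aux ⟨‹_›, hcop, hKH⟩, ← h2, aux (K := K.subgroupOf N[H]) ⟨inferInstance, ?_, ?_⟩, h3,
    card_irr_congr (Subgroup.subgroupOfEquivOfLe (inf_le_right.trans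
      (Subgroup.centralizer_le_normalizer _))),
    Nat.card_congr (Subgroup.subgroupOfEquivOfLe h1).monoidHomCongrLeftEquiv]
  · rw [h2, CfsgH1.card_subgroupOf]
    exact hcop.coprime_dvd_left (Subgroup.card_dvd_of_le inf_le_left)
  · refine eq_top_iff.2 fun x _ => ?_
    obtain ⟨k, h4, y, h5, h6⟩ := mem_sup_normal_left.1 (hKH ▸ Subgroup.mem_top (x : G))
    exact mem_sup_normal_left.2 ⟨x * ⟨y, h1 h5⟩⁻¹, by
      simpa [Subgroup.mem_subgroupOf, h6] using h4, ⟨y, h1 h5⟩, h5, by simp⟩

end Cfsg.Agent.S4452
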