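import Cfsg.Statements.S4453
import Mathlib
import Cfsg.Agent.H4.Isa4

set_option autoImplicit false
open Cfsg

open CfsgH3 CfsgH4 CfsgH1 CfsgRg Function
open CfsgH2 hiding cj cj_apply isPGroup_pCore le_pCore isNilpotent_map card_mul_relIndex
open scoped CfsgH2

namespace Cfsg.Agent.S4453

/-- Inside a finite group Γ let S normalise the solvable subgroup G of odd order with the orders of G and S coprime, let C = G ⊓ C(S), and let L ≤ K be S-invariant normal subgroups of G with K/L abelian, G = KC and H = LC (so C ≤ H ≤ G). Then for each S-invariant irreducible character χ of G there is exactly one S-invariant irreducible character ψ of H whose multiplicity in the restriction of χ to H is odd, and χ ↦ ψ is a bijection from the S-invariant irreducible characters of G onto those of H (distinct χ give distinct ψ, and every S-invariant ψ arises).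 -/
theorem result {Γ : Type*} [Group Γ] [Fintype Γ] (G S : Subgroup Γ) [Fintype G] (hnorm : ∀ s ∈ S, ∀ g ∈ G, s * g * s⁻¹ ∈ G) (hcop : (Nat.card G).Coprime (Nat.card S)) (hGsolv : Group.IsSolvable G) (hodd : Odd (Nat.card G)) (C : Subgroup Γ) [Fintype C] (hC : C = G ⊓ Subgroup.centralizer (S : Set Γ)) (hCG : C ≤ G) (K L H : Subgroup Γ) [Fintype H] (hLK : L ≤ K) (hKG : K ≤ G) (hKn : ∀ g ∈ G, ∀ k ∈ K, g * k * g⁻¹ ∈ K) (hLn : ∀ g ∈ G, ∀ l ∈ L, g * l * g⁻¹ ∈ L) (hKS : ∀ s ∈ S, ∀ k ∈ K, s * k * s⁻¹ ∈ K) (hLS : ∀ s ∈ S, ∀ l ∈ L, s * l * s⁻¹ ∈ L) (hab : ∀ a ∈ K, ∀ b ∈ K, a * b * a⁻¹ * b⁻¹ ∈ L) (hGKC : K ⊔ C = G) (hH : H = L ⊔ C) (hHG : H ≤ G) : (∀ χ : Cfsg.IrrCharacter G, (∀ s ∈ S, ∀ g g' : G, (g' : Γ) = s * g * s⁻¹ → (χ : G → ℂ) g' = (χ : G → ℂ) g) → ∃! ψ : Cfsg.IrrCharacter H, (∀ s ∈ S, ∀ g g' : H, (g' : Γ) = s * g * s⁻¹ → (ψ : H → ℂ) g' = (ψ :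 H → ℂ) g) ∧ ∃ m : ℕ, Cfsg.classInner (fun h : H => (χ : G → ℂ) ⟨h, hHG h.2⟩) (ψ : H → ℂ) = (m : ℂ) ∧ Odd m) ∧ (∀ χ χ' : Cfsg.IrrCharacter G, (∀ s ∈ S, ∀ g g' : G, (g' : Γ) = s * g * s⁻¹ → (χ : G → ℂ) g' = (χ : G → ℂ) g) → (∀ s ∈ S, ∀ g g' : G, (g' : Γ) = s * g * s⁻¹ → (χ' : G → ℂ) g' = (χ' : G → ℂ) g) → ∀ ψ : Cfsg.IrrCharacter H, (∀ s ∈ S, ∀ g g' : H, (g' : Γ) = s * g * s⁻¹ → (ψ : H → ℂ) g' = (ψ : H → ℂ) g) → ∀ m m' : ℕ, Cfsg.classInner (fun h : H => (χ : G → ℂ) ⟨h, hHG h.2⟩) (ψ : H → ℂ) = (m : ℂ) → Odd m → Cfsg.classInner (fun h : H => (χ' : G → ℂ) ⟨h, hHG h.2⟩) (ψ : H → ℂ) = (m' : ℂ) → Odd m' → χ = χ') ∧ (∀ ψ : Cfsg.IrrCharacter H, (∀ s ∈ S, ∀ g g' : H, (g' : Γ) = s * g * s⁻¹ → (ψ : H → ℂ) g' = (ψ : H → ℂ) g) → ∃ χ : Cfsg.IrrCharacter G, (∀ s ∈ S, ∀ g g' : G, (g' : Γ) = s * g * s⁻¹ → (χ : G → ℂ) g' = (χ : G → ℂ) g) ∧ ∃ m : ℕ, Cfsg.classInner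 (fun h : H => (χ : G → ℂ) ⟨h, hHG h.2⟩) (ψ : H → ℂ) = (m : ℂ) ∧ Odd m) := by
  obtain rfl : ‹Fintype H› = ft H := Subsingleton.elim _ _
  have SG : S ≤ N[G] := fun s hs => mem_normalizer_of_conj_mem (hnorm s hs)
  have SL : S ≤ N[L] := fun s hs => mem_normalizer_of_conj_mem (hLS s hs)
  have Gl : G ≤ N[L] := fun s hs => mem_normalizer_of_conj_mem (hLn s hs)
  have GK : G ≤ N[K] := fun s hs => mem_normalizer_of_conj_mem (hKn s hs)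
  have cS : ∀ c ∈ C, ∀ x ∈ S, x * c * x⁻¹ = c := fun c hc x hx => by
    rw [(hC.le hc).2 x hx, mul_inv_cancel_right]
  have a1 : ⁅G, S⁆ ≤ K := Subgroup.commutator_le.2 fun g hg x hx => by
    obtain ⟨k, hk, c, hc, rfl⟩ := (mem_sup_of_norm' (hCG.trans GK)).1 (hGKC.ge hg)
    have := mul_mem hk (inv_mem (hKS x hx k hk))
    rw [commutatorElement_def, mul_inv_rev, mul_assoc k, ← (hC.le hc).2 x hx]
    simpa [mul_assoc] using this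
  have s : Si S G L H := ⟨SG, SL, hLK.trans hKG, Gl, hcop.symm, hodd, hGsolv,
    (Subgroup.commutator_mono a1 a1).trans (Subgroup.commutator_le.2 fun a ha b hb => hab a ha b hb),
    fun k => ⟨fun h => ⟨hHG h, fun x hx => by
      obtain ⟨l, hl, c, hc, rfl⟩ := (mem_sup_of_norm' (hCG.trans Gl)).1 (hH.le h)
      rw [show x * (l * c) * x⁻¹ = x * l * x⁻¹ * (x * c * x⁻¹) by group, cS c hc x hx]
      simpa [mul_assoc] using mul_mem (hLS x hx l hl) (inv_mem hl)⟩, fun ⟨h, h'⟩ => by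
      haveI := hGsolv
      obtain ⟨n, b1, b2⟩ := coprime_fixed_coset SL (hcop.symm.coprime_dvd_right
        (Subgroup.card_dvd_of_le (hLK.trans hKG))) (.inr (solvable_of_solvable_injective
          (Subgroup.inclusion_injective (hLK.trans hKG)))) (k := k) fun x hx => by
        simpa [mul_assoc] using hLn _ (inv_mem h) _ (h' x hx)
      rw [hH, ← mul_inv_cancel_right k n]
      exact mul_mem (Subgroup.mem_sup_right (hC.ge ⟨mul_mem h (hKG (hLK b1)), b2⟩))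
        (Subgroup.mem_sup_left (inv_mem b1))⟩⟩
  have iG := fun {χ} => le_aI_iff (χ := χ) SG
  have iH := fun {χ} => le_aI_iff (χ := χ) s.PC
  have key : ∀ {χ ξ ξ'}, IsIrrCharacter G χ → IsIrrCharacter H ξ → IsIrrCharacter H ξ' →
      S ≤ aI ξ' → RR 2 S hHG χ ξ → ((∃ m : ℕ, classInner (fun h : H => χ ⟨h, hHG h.2⟩) ξ' = m ∧
        Odd m) ↔ ξ = ξ') := fun {χ ξ ξ'} b1 b2 b3 b4 ⟨ε, b5, b6⟩ => by
    obtain ⟨n, b7⟩ := b6 ξ' b3 b4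
    obtain ⟨m, b8⟩ := (b1.isCharacter.resLE hHG).exists_nat_classInner b3.isCharacter
    have b9 : classInner (fun h : H => χ ⟨h, hHG h.2⟩) ξ' = m := b8
    refine ⟨fun ⟨k, c1, c2⟩ => by_contra fun e => ?_, fun e => ⟨m, b9, ?_⟩⟩
    · obtain rfl : k = m := Nat.cast_injective (c1.symm.trans b9)
      rw [b8, b2.classInner_of_ne b3 e, mul_zero, add_zero] at b7
      have : (k : ℤ) = 2 * n := by exact_mod_cast b7
      obtain ⟨j, rfl⟩ := c2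
      omega
    · rw [b8, e, b3.classInner_self, mul_one] at b7
      have : (m : ℤ) = 2 * n + ε := by exact_mod_cast b7
      rw [Nat.odd_iff]
      omega
  refine ⟨fun χ h => ?_, fun χ χ' h h' ψ h'' m m' b1 b2 b3 b4 => ?_, fun ψ h => ?_⟩
  · obtain ⟨ξ, b1, b2, b3⟩ := s.ex χ.2 (iG.2 h)
    exact ⟨⟨ξ, b1⟩, ⟨iH.1 b2, (key χ.2 b1 b1 b2 b3).2 rfl⟩, fun ψ ⟨c1, c2⟩ =>
      Subtype.ext ((key χ.2 b1 ψ.2 (iH.2 c1) b3).1 c2).symm⟩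
  · obtain ⟨ξ, c1, -, c3⟩ := s.ex χ.2 (iG.2 h)
    obtain ⟨ξ', d1, -, d3⟩ := s.ex χ'.2 (iG.2 h')
    obtain rfl := (key χ.2 c1 ψ.2 (iH.2 h'') c3).1 ⟨m, b1, b2⟩
    obtain rfl := (key χ'.2 d1 ψ.2 (iH.2 h'') d3).1 ⟨m', b3, b4⟩
    exact Subtype.ext (s.inj χ.2 (iG.2 h) χ'.2 (iG.2 h') ψ.2 (iH.2 h'') c3 d3)
  · obtain ⟨χ, b1, b2, b3⟩ := s.surj ψ.2 (iH.2 h)
    exact ⟨⟨χ, b1⟩, iG.1 b2, (key b1 ψ.2 ψ.2 (iH.2 h) b3).2 rfl⟩

end Cfsg.Agent.S4453
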