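import Cfsg.Statements.S4454
import Mathlib
import Cfsg.Agent.H4.Gla4

set_option autoImplicit false
open Cfsg

open Cfsg CfsgH3 CfsgH4 CfsgH1 Function
open CfsgH2 hiding cj
open scoped Pointwise

namespace Cfsg.Agent.S4454

/-- Let N ≤ G be normal subgroups of the finite group Γ with Γ/G cyclic and Γ/N a Frobenius group with kernel G/N: G ≠ Γ, N ≠ G, and no element of Γ outside G fixes a non-identity coset of N in G under conjugation. Let ϑ be an irreducible character of N invariant under conjugation by Γ and suppose ϑ is fully ramified in G: the character of G induced from ϑ equals e·χ for an irreducible character χ of G and a natural number e. Then the index of G in Γ divides e − 1 or e + 1. -/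
theorem result {Γ : Type*} [Group Γ] [Fintype Γ] (G N : Subgroup Γ) [hG : G.Normal] [hN : N.Normal] [Fintype G] [Fintype N] (hNG : N ≤ G) (hGlt : G ≠ ⊤) (hNlt : N ≠ G) (hcyc : IsCyclic (Γ ⧸ G)) (hfrob : ∀ x : Γ, x ∉ G → ∀ g : Γ, g ∈ G → x * g * x⁻¹ * g⁻¹ ∈ N → g ∈ N) (θ : Cfsg.IrrCharacter N) (hinv : ∀ (x : Γ) (n : N), (θ : N → ℂ) ⟨x * n * x⁻¹, hN.conj_mem n n.2 x⟩ = (θ : N → ℂ) n) (χ : Cfsg.IrrCharacter G) (e : ℕ) (hram : Cfsg.indFun (N.subgroupOf G) (fun n : N.subgroupOf G => (θ : N → ℂ) ⟨(n : G), n.2⟩) = fun g => (e : ℂ) * (χ : G → ℂ) g) : (G.index : ℤ) ∣ (e : ℤ) - 1 ∨ (G.index : ℤ) ∣ (e : ℤ) + 1 := by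
  have h1 : ∀ ψ, IsClassFunction G ψ → classInner θ.1 (resLE hNG ψ) = e * classInner χ.1 ψ :=
    fun ψ h => by rw [← classInner_indFun_subOf hNG _ h, ← classInner_smul_left]; exact congrArg (classInner · ψ) hram
  have h2 := h1 _ χ.2.isClassFunction
  rw [χ.2.classInner_self, mul_one, θ.2.isCharacter.classInner_comm (χ.2.isCharacter.resLE _)] at h2
  have h3 : (e : ℂ) ≠ 0 := fun h => by
    have := congrFun hram 1
    rw [indFun_apply_one, h, zero_mul, mul_eq_zero, Nat.cast_eq_zero] at this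
    exact this.elim Subgroup.index_ne_zero_of_finite θ.2.apply_one_ne_zero
  have h4 : ∀ x : Γ, cj x θ.1 = θ.1 := fun x => funext (hinv x)
  obtain ⟨a, h5, h6⟩ := exists_ext_of_cyclic χ.2 (fun x => (χ.2.eq_of_classInner_ne_zero (χ.2.cj x)
    (right_ne_zero_of_mul (a := (e : ℂ)) (by
      rw [← h1 _ (χ.2.cj x).isClassFunction, Ne, classInner_eq_zero_comm, ← h4 x]
      exact (classInner_cj x (resLE hNG χ.1) θ.1).trans_ne (h2 ▸ h3)))).symm) hcyc
  have h7 := resLE_eq_smul hNG χ.2 θ.2 (fun x _ => h4 x) (h2 ▸ h3)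
  obtain ⟨q, ε, h8, h9⟩ := exists_mod_of_frob hNG hcyc hfrob (fun x hx => hfrob x hx _
    (G.pow_index_mem x) (by simp [← pow_succ', pow_succ])) θ.2 h4 h5.isCharacter
    (by rw [funext h6]; exact χ.2) (e := e) fun n => (h6 ⟨n, hNG n.2⟩).trans (h2 ▸ congrFun h7 n)
  rcases h8 with rfl | rfl
  exacts [.inl ⟨q, by omega⟩, .inr ⟨q, by omega⟩]

end Cfsg.Agent.S4454
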