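import Cfsg.Statements.S4460
import Mathlib
import Cfsg.Agent.H4.Cd3b
import Cfsg.Agent.H4.Nav

set_option autoImplicit false
open Cfsg

open CfsgH3 CfsgH4 CfsgH1 CfsgRg Function Subgroup
open CfsgCd hiding over_trans exists_mid
open CfsgH2 hiding cj cj_apply isPGroup_pCore le_pCore isNilpotent_map card_mul_relIndex
open scoped CfsgH2 commutatorElement

namespace Cfsg.Agent.S4460

universe u

section
variable {G : Type*} [Group G] [Finite G] {a b p k : ℕ} {M N P : Subgroup G}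

theorem c3_compl (hp : p.Prime) [M.Normal] (h1 : (Nat.card M).Coprime p) (h2 : M.index = p ^ k)
    (h : C3 G a b) : C3 M (ordCompl[p] a) (ordCompl[p] b) := fun θ hθ => by
  haveI := Fintype.ofFinite G
  obtain ⟨χ, hχ, a1⟩ := hθ.exists_irr_over
  obtain ⟨a2, a3⟩ := deg_dvd_of_over hθ hχ a1
  obtain ⟨z, e⟩ := (dvd_mul_left _ _).trans a2
  rw [e, h2, mul_comm] at a3
  obtain ⟨j, -, rfl⟩ := (Nat.dvd_prime_pow hp).1 (Nat.dvd_of_mul_dvd_mul_right (charDegree_pos hθ) a3)
  have a4 := Nat.ordCompl_pow_mul_of_not_dvd j hp fun c => (coprime_iff_not_dvd hp).1 h1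
    (c.trans (charDegree_dvd hθ))
  rw [mul_comm, ← e] at a4
  rcases h χ hχ with c | c | c <;> simp [← a4, c]

theorem gl [hp : Fact p.Prime] (s : Syl p P N) (h : M ≤ N) (hn : N ≤ N[M]) (h0 : ¬ p ∣ Nat.card M)
    (hd : ∀ ψ, IsIrrCharacter N ψ → charDegree ψ ≠ 1 → p ∣ charDegree ψ) :
    ⁅N, N⁆ ⊓ (M ⊓ C[P]) = ⊥ := by
  refine eq_bot_iff.2 fun x hx => congrArg Subtype.val
    (eq_one_of_forall_irr (g := (⟨x, hx.2⟩ : (M ⊓ C[P] :))) fun β hβ => ?_)
  have b1 := coprime_of_pgroup s.pg h0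
  have b2 := s.le.trans hn
  obtain ⟨φ, c1, c2, c3⟩ := (gc_pgroup hp.out s.pg b2 b1.symm).surj β hβ
  have c4 : M ⊔ P ≤ N := sup_le h s.le
  haveI := (Subgroup.normal_subgroupOf_iff_le_normalizer (le_sup_left : M ≤ M ⊔ P)).2 (c4.trans hn)
  obtain ⟨τ, d1, d2, -⟩ := exists_ext_of_coprime ((isIrr_subOf_iff le_sup_left).2 c1)
    (cj_subOf_eq (sup_le (le_aI_self c1.isClassFunction) c2)) (by
      rw [Nat.card_congr (Subgroup.subgroupOfEquivOfLe le_sup_left).toEquiv]
      exact b1.coprime_dvd_left (index_subgroupOf_sup_dvd b2))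
  obtain ⟨χ, e1, e2, e3⟩ := exists_up_pp hp.out c4 (s.not_dvd_of_le le_sup_right) d1 (by
    rw [CfsgRo.deg_congr d1.isCharacter c1.isCharacter (d2 1)]
    exact fun e => h0 (e.trans (charDegree_dvd c1)))
  obtain ⟨m, a8, a9⟩ := c3.not_dvd hp.out c1.isCharacter hβ
  refine (c1.isCharacter.resLE _).apply_eq_of_constituent hβ (a8.trans_ne (by
    rintro e; rw [Nat.cast_eq_zero] at e; simp [e] at a9)) ?_
  refine (d2 ⟨⟨x, mem_sup_left hx.2.1⟩, hx.2.1⟩).symm.trans (((e1.isCharacter.resLE c4).apply_eq_of_constituent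
    d1 e3 (lin_ker3 e1 (by_contra fun c => e2 (hd χ e1 c)) _ ?_)).trans (d2 1))
  obtain ⟨y, hy, e⟩ : x ∈ (commutator N).map N.subtype := map_subtype_commutator N ▸ hx.1
  exact (Subtype.ext e : y = ⟨x, _⟩) ▸ hy

theorem d3_of (h : commutator G ≤ N) {m : ℕ}
    (h1 : ∀ ψ, IsIrrCharacter N ψ → charDegree ψ = 1 ∨ charDegree ψ = m) : derivedSeries G 3 = ⊥ := by
  have := congrArg (map N.subtype) (der2_of_cd_two h1)
  rw [map_commutator, map_subtype_commutator, Subgroup.map_bot] at this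
  exact eq_bot_iff.2 ((commutator_mono (commutator_mono h h) (commutator_mono h h)).trans this.le)

theorem caseA (hp : p.Prime) (h : C3 G (p ^ k) b) [M.Normal] (h1 : (Nat.card M).Coprime p) {j : ℕ}
    (h2 : M.index = p ^ j) : derivedSeries G 3 = ⊥ := by
  haveI := Fact.mk hp
  haveI := Fintype.ofFinite G
  have a1 := c3_compl hp h1 h2 h
  rw [Nat.ordCompl_self_pow hp] at a1
  by_cases c : ∃ i, b = p ^ i
  · obtain ⟨i, rfl⟩ := c
    rw [Nat.ordCompl_self_pow hp] at a1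
    have a2 : IsPGroup p (G ⧸ M) := .of_card h2
    refine tak3 h fun χ hχ => ?_
    obtain ⟨H, b1, ψ, b2, rfl, b3⟩ := relM _ G M le_rfl (haveI := a2.isNilpotent; inferInstance)
      (nsq3 a2) χ hχ
    haveI := Fintype.ofFinite H
    exact (isMonomial_of_apply_one b2.isCharacter ((charDegree_eq_one b3.isCharacter).1
      (by simpa using a1 _ b3))).ind
  have a2 := congrArg (map M.subtype) (der2_of_cd_two fun θ hθ => (a1 θ hθ).elim .inl id)
  rw [map_commutator, map_subtype_commutator, Subgroup.map_bot] at a2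
  have a3 := der2_of_cd_two (G := G ⧸ ⁅M, M⁆) (m := p ^ k) fun β hβ => (h.quot _ β hβ).imp_right
    fun d => d.resolve_right fun e => c <| ((Nat.dvd_prime_pow hp (m := j)).1 (by
      rw [← e, ← h2, ← index_map_eq M (QuotientGroup.mk'_surjective ⁅M, M⁆)
        ((QuotientGroup.ker_mk' _).trans_le (commutator_le_self M))]
      haveI := Normal.map ‹M.Normal› _ (QuotientGroup.mk'_surjective ⁅M, M⁆)
      refine deg_dvd_index_ab hβ _ ?_
      rintro _ ⟨x, hx, rfl⟩ _ ⟨y, hy, rfl⟩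
      exact commutatorElement_eq_one_iff_mul_comm.1
        ((QuotientGroup.eq_one_iff ⁅x, y⁆).2 (commutator_mem_commutator hx hy)))).imp fun _ h => h.2
  rw [comm_quot3, ← map_commutator, Subgroup.map_eq_bot_iff, QuotientGroup.ker_mk'] at a3
  exact eq_bot_iff.2 ((commutator_mono a3 a3).trans a2.le)

theorem caseB (hp : p.Prime) [N.Normal] (h : C3 G N.index b) (h1 : commutator G ≤ N)
    (h2 : ¬ p ∣ N.index) (h3 : ∀ ψ, IsIrrCharacter N ψ → ¬ p ∣ charDegree ψ →
      ∃ ξ, IsIrrCharacter G ξ ∧ charDegree ξ = N.index * charDegree ψ)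
    (hs : ¬ N.index.Coprime b → Group.IsSolvable G)
    (ih : ∀ D : Subgroup G, ∀ [D.Normal], D ≠ ⊥ → derivedSeries (G ⧸ D) 3 = ⊥) :
    derivedSeries G 3 = ⊥ := by
  haveI := Fact.mk hp
  haveI := Fintype.ofFinite G
  have f0 : 0 < N.index := Nat.pos_of_ne_zero index_ne_zero_of_finite
  have a1 : ∀ ψ, IsIrrCharacter N ψ → ¬ p ∣ charDegree ψ → charDegree ψ ≠ 1 →
      N.index * charDegree ψ = b := fun ψ hψ c d => by
    obtain ⟨ξ, b1, b2⟩ := h3 ψ hψ c
    rcases h ξ b1 with e | e | e <;> rw [b2] at e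
    · exact absurd (Nat.eq_one_of_mul_eq_one_left e) d
    · exact absurd (Nat.eq_of_mul_eq_mul_left f0 (e.trans (mul_one _).symm)) d
    · exact e
  have a2 : ∀ ψ χ, IsIrrCharacter N ψ → p ∣ charDegree ψ → IsIrrCharacter G χ →
      classInner (fun n : N => χ n) ψ ≠ 0 → charDegree χ = b := fun ψ χ hψ c hχ d => by
    have := (c.mul_left _).trans (deg_dvd_of_over hψ hχ d).1
    exact ((h χ hχ).resolve_left fun e => hp.not_dvd_one (e ▸ this)).resolve_left fun e => h2 (e ▸ this)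
  by_cases c : ∃ ψ, IsIrrCharacter N ψ ∧ p ∣ charDegree ψ
  swap
  · refine d3_of h1 (m := b / N.index) fun ψ hψ => or_iff_not_imp_left.2 fun d => ?_
    rw [← a1 ψ hψ (fun e => c ⟨ψ, hψ, e⟩) d, Nat.mul_div_cancel_left _ f0]
  have a3 : ∀ ψ, IsIrrCharacter N ψ → charDegree ψ ≠ 1 → p ∣ charDegree ψ := fun ψ hψ d => by
    obtain ⟨φ, b1, b2⟩ := c
    obtain ⟨χ, b3, b4⟩ := b1.exists_irr_over
    by_contra e
    exact ((Nat.Prime.dvd_mul hp).1 (a1 ψ hψ e d ▸ a2 φ χ b1 b2 b3 b4 ▸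
      (b2.mul_left _).trans (deg_dvd_of_over b1 b3 b4).1)).elim h2 e
  have a4 : ∀ ψ, IsIrrCharacter N ψ → charDegree ψ ≠ 1 →
      charDegree ψ ∣ b ∧ b ∣ N.index * charDegree ψ := fun ψ hψ d => by
    obtain ⟨χ, b3, b4⟩ := hψ.exists_irr_over
    exact a2 ψ χ hψ (a3 ψ hψ d) b3 b4 ▸ (deg_dvd_of_over hψ b3 b4).imp_left (dvd_mul_left _ _).trans
  by_cases d : N.index.Coprime b
  · exact d3_of h1 fun ψ hψ => or_iff_not_imp_left.2 fun e =>
      Nat.dvd_antisymm (a4 ψ hψ e).1 (d.symm.dvd_of_dvd_mul_left (a4 ψ hψ e).2)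
  haveI := hs d
  obtain ⟨M₀, _, b1, j, b2⟩ := Cfsg.Agent.S4456.result (G := N) p hp fun ψ => a3 _ ψ.2
  have b3 : NPC p N := by
    have := (NPC.of_sub le_top (top_le_norm_iff.2 ‹_›) ((coprime_iff_not_dvd hp).1 b1) (by
      rw [relIndex_top_right, b2]; exact (PiN.of_prime hp (Set.mem_singleton p)).pow j)).map N.subtype
    rwa [← MonoidHom.range_eq_map, range_subtype] at this
  obtain ⟨P, s⟩ := exists_syl (p := p) N
  have b4 := b3.sup_eq s
  have b5 : ¬ p ∣ Nat.card (piCoreOf {p}ᶜ N) := not_dvd_piCoreOf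
  have b6 : piCoreOf {p}ᶜ N ≤ N := piCoreOf_le
  have b7 : (piCoreOf {p}ᶜ N).Normal := inferInstance
  unfold NPC at b3
  generalize piCoreOf {p}ᶜ N = M at b3 b4 b5 b6 b7
  have nn : ∀ (K X : Subgroup G) [K.Normal], X ≤ N[K] := fun K X _ =>
    le_top.trans (normalizer_eq_top K).ge
  have c1 := gl s b6 (nn _ _) b5 a3
  have c0 := coprime_of_pgroup s.pg b5
  by_cases e : ⁅N, N⁆ ⊓ M = ⊥
  · refine d3_of h1 (m := ordProj[p] b) fun ψ hψ => or_iff_not_imp_left.2 fun e' => ?_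
    obtain ⟨i, c2⟩ := (piN_singleton hp (charDegree_pos hψ).ne').1 (b3.of_dvd
      (deg_dvd_index_ab hψ (M.subgroupOf N) fun x hx y hy => Subtype.ext
        (commutatorElement_eq_one_iff_mul_comm.1 (mem_bot.1 (e ▸ ⟨commutator_mem_commutator x.2 y.2,
          commutator_le_self M (commutator_mem_commutator hx hy)⟩)))))
    obtain ⟨⟨z, rfl⟩, c3⟩ := a4 ψ hψ e'
    rw [mul_comm] at c3
    have c4 := Nat.dvd_of_mul_dvd_mul_right (charDegree_pos hψ) c3
    rw [Nat.ordProj_mul p (charDegree_pos hψ).ne' (ne_zero_of_dvd_ne_zero f0.ne' c4), c2,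
      Nat.ordProj_self_pow hp, Nat.factorization_eq_zero_of_not_dvd fun c => h2 (c.trans c4), pow_zero,
      mul_one]
  have c2 : ⁅N, N⁆ ⊓ M ⊓ N[P] = ⊥ := eq_bot_iff.2 (c1 ▸ le_inf (inf_le_left.trans inf_le_left)
    (le_inf (inf_le_left.trans inf_le_right) (le_cent_of_inf_eq_bot inf_le_right
      (le_norm_inf (nn _ _) (le_norm_norm le_normalizer)) (eq_bot_iff.2 ((inf_le_inf_right _
        (inf_le_left.trans inf_le_right)).trans (inf_eq_bot_of_coprime' c0.symm).le)))))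
  have c3 : ⁅N, N⁆ ⊓ M ⊔ N[P] = ⊤ := by
    refine eq_top_iff.2 ((s.frattini_sup le_top (nn _ _)).ge.trans (sup_le (b4.ge.trans (sup_le
      ((coprime_comm_sup_cent (nn _ _) c0 (.inl inferInstance)).ge.trans (sup_le_sup (le_inf
        (commutator_mono b6 s.le) (comm_le_left (nn _ _))) (inf_le_right.trans (CfsgH2.cent_le_norm _))))
      (le_normalizer.trans le_sup_right))) (inf_le_right.trans le_sup_right)))
  have c4 : ∀ χ, IsIrrCharacter G χ → (∃ x ∈ ⁅N, N⁆, χ x ≠ χ 1) → charDegree χ = b := by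
    rintro χ hχ ⟨x, hx, c⟩
    obtain ⟨ψ, d1, d2⟩ := hχ.exists_irr_under (H := N)
    refine a2 ψ χ d1 (a3 ψ d1 fun f => c (apply_eq_of_classInner_one hχ (CfsgCd.over_trans
      (commutator_le_self N) hχ.isCharacter d1 isIrr_one d2 ?_) hx)) hχ d2
    rw [show resLE _ ψ = fun _ => 1 from funext fun y => lin_comm d1.isCharacter
      ((charDegree_eq_one d1.isCharacter).1 f) (by
        obtain ⟨z, hz, e⟩ : (y : G) ∈ (commutator N).map N.subtype :=
          (map_subtype_commutator N).ge y.2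
        exact (Subtype.ext e : z = ⟨y, _⟩) ▸ hz), isIrr_one.classInner_self]
    exact one_ne_zero
  have c5 : ∀ χ, IsIrrCharacter G χ → (∃ x ∈ ⁅N, N⁆ ⊓ M, χ x ≠ χ 1) → charDegree χ = b :=
    fun χ hχ ⟨x, hx, c⟩ => c4 χ hχ ⟨x, hx.1, c⟩
  have c6 := comm_split3 c2 c3 c5
  have c7 := ih _ e
  rw [← map_derivedSeries_eq (QuotientGroup.mk'_surjective _), Subgroup.map_eq_bot_iff,
    QuotientGroup.ker_mk'] at c7
  refine eq_bot_iff.2 fun x hx => congrArg Subtype.val
    (eq_one_of_forall_irr (g := (⟨x, c7 hx⟩ : (⁅N, N⁆ ⊓ M :))) fun ω hω => ?_)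
  obtain ⟨μ, rfl⟩ := hω.isCharacter.exists_monoidHom (lin_of_comm hω fun g hg => by
    rw [mem_bot.1 (c6.le hg)])
  rcases eq_or_ne μ 1 with rfl | c8
  · rfl
  obtain ⟨ν, d1⟩ := index_split3 c2 c3 μ
  have d2 : derivedSeries G 2 ≤ inertia fun d => (μ d : ℂ) := le_of_index3 fun χ hχ f y hy => by
    by_contra g
    rw [index_eq3 c2 c3 c5 c8] at f
    exact f.ne (c4 χ hχ ⟨y, commutator_mono h1 h1 hy, g⟩)
  beta_reduce
  rw [← d1, map_one]
  obtain ⟨z, hz, e⟩ : x ∈ (commutator _).map (inertia fun d => (μ d : ℂ)).subtype :=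
    (map_subtype_commutator _).ge (commutator_mono d2 d2 hx)
  exact lin_comm (isIrr_of_unitsHom ν).isCharacter (by simp) ((Subtype.ext e : z = ⟨x, _⟩) ▸ hz)

end

theorem main (n : ℕ) : ∀ (G : Type u) [Group G] [Finite G] (a b : ℕ), Nat.card G = n → C3 G a b →
    derivedSeries G 3 = ⊥ := by
  induction n using Nat.strong_induction_on with | _ n ih => ?_
  intro G _ _ a b hn h
  haveI := Fintype.ofFinite G
  have th : ¬ a.Coprime b → Group.IsSolvable G := fun c => by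
    obtain ⟨p, hp, c1, c2⟩ := Nat.Prime.not_coprime_iff_dvd.1 c
    haveI := Fact.mk hp
    have c3 : ∀ χ, IsIrrCharacter G χ → charDegree χ ≠ 1 → p ∣ charDegree χ := fun χ hχ e =>
      ((h χ hχ).resolve_left e).elim (· ▸ c1) (· ▸ c2)
    obtain ⟨M, _, b1, j, b2⟩ := Cfsg.Agent.S4456.result (G := G) p hp fun ψ => c3 _ ψ.2
    rcases eq_or_ne M ⊤ with rfl | b3
    · exact isSolvable_of_comm (comm_of_forall_lin fun χ hχ => (charDegree_eq_one hχ.isCharacter).1
        (by_contra fun e => (coprime_iff_not_dvd hp).1 b1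
          (card_top (G := G) ▸ (c3 χ hχ e).trans (charDegree_dvd hχ))))
    haveI : Group.IsSolvable M := ⟨3, ih _ (hn ▸ CfsgH1.card_lt_of_ne_top b3) M _ _ rfl
      (c3_compl hp b1 b2 h)⟩
    haveI := (IsPGroup.of_card b2 : IsPGroup p (G ⧸ M)).isNilpotent
    exact isSolvable_of_ker_of_quotient M
  by_cases h0 : commutator G ≤ ⁅commutator G, commutator G⁆
  · have a1 := (commutator_le_self _).antisymm h0
    have a2 : commutator G = ⊥ := by
      by_cases c : a.Coprime b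
      · rcases lt_trichotomy a b with e | rfl | e
        · exact comm_eq_bot3 h c e a1
        · exact a1 ▸ der2_of_cd_two fun χ hχ => (h χ hχ).imp_right fun e => e.elim id id
        · exact comm_eq_bot3 h.symm c.symm e a1
      · haveI := th c
        exact by_contra fun e => (IsSolvable.commutator_lt_of_ne_bot e).ne a1
    exact eq_bot_iff.2 ((derivedSeries_antitone G (by norm_num : 1 ≤ 3)).trans
      ((derivedSeries_one G).trans a2).le)
  obtain ⟨p, hp, ⟨-, k, a1, a2⟩ | ⟨N, _, a1, a2, a3, a4⟩⟩ := cases3 h0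
  · obtain ⟨β, b1, b2⟩ := a2 _ isIrr_one (by rw [deg_one]; exact hp.not_dvd_one)
    rw [deg_one, mul_one] at b2
    have b3 := Nat.one_lt_pow a1 hp.one_lt
    obtain ⟨M, _, c1, j, c2⟩ := Cfsg.Agent.S4456.result (G := G) p hp fun χ e => by
      by_contra c
      obtain ⟨ξ, d1, d2⟩ := a2 _ χ.2 c
      have d3 := charDegree_pos χ.2
      have d4 : charDegree χ.1 ≠ p ^ k := fun e => c (e ▸ dvd_pow_self p a1)
      have d5 : p ^ k < charDegree ξ := by rw [d2]; exact lt_mul_of_one_lt_right (by omega) (by omega)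
      have d6 : charDegree χ.1 < charDegree ξ := by rw [d2]; exact lt_mul_of_one_lt_left d3 b3
      have := h _ χ.2
      have := h _ d1
      have := h _ b1
      omega
    rcases h β b1 with e | e | e <;> rw [b2] at e
    · omega
    · exact caseA hp (e ▸ h) c1 c2
    · exact caseA hp (e ▸ h.symm) c1 c2
  · obtain ⟨β, b1, b2⟩ := a4 _ isIrr_one (by rw [deg_one]; exact hp.not_dvd_one)
    rw [deg_one, mul_one] at b2
    have b3 : ∀ D : Subgroup G, ∀ [D.Normal], D ≠ ⊥ → derivedSeries (G ⧸ D) 3 = ⊥ := fun D _ e =>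
      ih _ (hn ▸ card_quotient_lt e) _ a b rfl (h.quot D)
    rcases h β b1 with e | e | e <;> rw [b2] at e
    · exact absurd (index_eq_one.1 e) a2
    · exact caseB hp (e ▸ h) a1 a3 a4 (e ▸ th) b3
    · exact caseB hp (e ▸ h.symm) a1 a3 a4 (fun c => th fun d => c (e ▸ d.symm)) b3

/-- A finite group with exactly three distinct irreducible character degrees is solvable of derived length at most 3: its third derived subgroup is trivial. -/
theorem result {G : Type*} [Group G] [Finite G] (hcd : Nat.card {n : ℕ // ∃ χ : Cfsg.IrrCharacter G, Cfsg.charDegree (χ : G → ℂ) = n} = 3) : derivedSeries G 3 = ⊥ := by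
  obtain ⟨x, y, z, -, -, -, e⟩ := Set.ncard_eq_three.1
    (show {n : ℕ | ∃ χ : IrrCharacter G, charDegree (χ : G → ℂ) = n}.ncard = 3 from hcd)
  have h : ∀ χ, IsIrrCharacter G χ → charDegree χ = x ∨ charDegree χ = y ∨ charDegree χ = z :=
    fun χ hχ => e.le ⟨⟨χ, hχ⟩, rfl⟩
  rcases h _ isIrr_one with c | c | c <;> rw [deg_one] at c <;> subst c
  · exact main _ G y z rfl h
  · exact main _ G x z rfl fun χ hχ => by have := h χ hχ; omega
  · exact main _ G x y rfl fun χ hχ => by have := h χ hχ; omega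

end Cfsg.Agent.S4460
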