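import Cfsg.Statements.S4461
import Cfsg.Agent.H3.Cd4

set_option autoImplicit false
open Cfsg

open Cfsg CfsgH3 CfsgH4 CfsgCd Function

namespace Cfsg.Agent.S4461

/-- Let χ be an irreducible character of the finite group G and K its kernel (the elements where χ takes the value χ(1)). Suppose either that K is not contained in the Fitting subgroup F(G), or that K = F(G) with G/K solvable and K ≠ G. Then there is an irreducible character ψ of G with ψ(1) > χ(1) whose kernel is properly contained in K. -/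
theorem result {G : Type*} [Group G] [Finite G] (χ : Cfsg.IrrCharacter G) (K : Subgroup G) [K.Normal] (hK : (∀ g : G, g ∈ K ↔ (χ : G → ℂ) g = (χ : G → ℂ) 1)) (h : ¬ K ≤ Cfsg.fittingSubgroup G ∨ (K = Cfsg.fittingSubgroup G ∧ Group.IsSolvable (G ⧸ K) ∧ K ≠ ⊤)) : ∃ ψ : Cfsg.IrrCharacter G, Cfsg.charDegree (χ : G → ℂ) < Cfsg.charDegree (ψ : G → ℂ) ∧ ∃ L : Subgroup G, (∀ g : G, g ∈ L ↔ (ψ : G → ℂ) g = (ψ : G → ℂ) 1) ∧ L < K := by
  have e : K = charKer χ.1 := Subgroup.ext fun g => (hK g).trans χ.2.isCharacter.mem_charKer.symm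
  subst e
  obtain ⟨ψ, hψ, h1, h2⟩ := broline χ.2 (h.imp id fun ⟨a, b, c⟩ => ⟨a, by
    haveI : Group.IsNilpotent (charKer χ.1) := a ▸ inferInstance
    exact solvable_of_ker_le_range (charKer χ.1).subtype (QuotientGroup.mk' (charKer χ.1)) (by simp), c⟩)
  exact ⟨⟨ψ, hψ⟩, h1, _, fun g => hψ.isCharacter.mem_charKer, h2⟩


end Cfsg.Agent.S4461
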