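import Cfsg.Statements.S4464
import Mathlib
import Cfsg.Agent.H4.Ch2

set_option autoImplicit false
open Cfsg

open Cfsg CfsgH3 CfsgH4 CfsgH1 Function
open CfsgH2 hiding cj
open scoped ComplexConjugate Pointwise

namespace Cfsg.Agent.S4464

/-- Let p be a prime and G a finite group all of whose irreducible character degrees are less than p. Then G has a normal abelian Sylow p-subgroup. -/
theorem result {G : Type*} [Group G] [Finite G] (p : ℕ) (hp : p.Prime) (hb : ∀ χ : Cfsg.IrrCharacter G, Cfsg.charDegree (χ : G → ℂ) < p) : ∃ P : Subgroup G, P.Normal ∧ (∀ x ∈ P, ∀ y ∈ P, x * y = y * x) ∧ IsPGroup p P ∧ ¬ p ∣ P.index := by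
  classical
  have := Fact.mk hp
  have := Fintype.ofFinite G
  obtain ⟨P⟩ : Nonempty (Sylow p G) := inferInstance
  suffices (P : Subgroup G).Normal from ⟨P, this, fun a ha b hb' => congrArg Subtype.val
    (comm_of_normal_pgroup P.isPGroup' (fun χ hχ =>
      Nat.not_dvd_of_pos_of_lt (charDegree_pos hχ) (hb ⟨χ, hχ⟩)) ⟨a, ha⟩ ⟨b, hb'⟩), P.isPGroup',
    P.not_dvd_index⟩
  set N := MulAction.stabilizer G P with hN
  have hPN : (P : Subgroup G) ≤ N := by
    rw [hN, Sylow.stabilizer_eq_normalizer]; exact Subgroup.le_normalizer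
  have h1 := card_fixedBy_eq_indFun (G := G) (Sylow p G) P
  obtain ⟨m, h2, h3⟩ := (isCharacter_fixedBy (G := G) (Sylow p G)).exists_eq_sum_irr
  set π := fun g : G => (Nat.card (MulAction.fixedBy (Sylow p G) g) : ℂ) with hπ
  set r := Nat.card (Quotient (MulAction.orbitRel P (Sylow p G))) with hr
  set o : IrrCharacter G := ⟨_, isIrr_one⟩
  have h4 : m o = 1 := by
    have := h2 o
    rw [h1, classInner_indFun_left _ (isClassFunction_const 1), isIrr_one.classInner_self] at this
    exact_mod_cast this.symm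
  have h5 : ∀ χ : IrrCharacter G, ∃ a : ℕ, classInner (fun x : (P : Subgroup G) => χ.1 x) (fun _ => 1) = a ∧
      (m χ ≠ 0 → a ≠ 0) := fun χ => by
    obtain ⟨a, ha⟩ := (χ.2.isCharacter.restrict P).exists_nat_classInner isCharacter_one
    refine ⟨a, ha, fun h e => ?_⟩
    have h6 := h2 χ
    rw [h1, classInner_indFun_left _ χ.2.isClassFunction, ← isCharacter_one.classInner_comm
      (χ.2.isCharacter.restrict N) |>.symm] at h6
    have h7 := nat_le_of_sub_isCharacter (((χ.2.isCharacter.restrict N).sub_of_constituent isIrr_one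
      (by rw [h6]; exact_mod_cast h)).resLE hPN) isCharacter_one (m := 1)
      (isIrr_one.classInner_self.trans Nat.cast_one.symm) ha
    omega
  choose a ha h5 using h5
  have h6 : r = ∑ χ, m χ * a χ := by
    have := classInner_fixedBy_one (G := (P : Subgroup G)) (Sylow p G)
    rw [show (fun g : (P : Subgroup G) => (Nat.card (MulAction.fixedBy (Sylow p G) g) : ℂ)) =
      ∑ φ : IrrCharacter G, (m φ : ℂ) • fun x : (P : Subgroup G) => φ.1 x from funext fun x =>
        (congrFun h3 x).trans (by simp), classInner_sum_left] at this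
    simp only [classInner_smul_left, ha] at this
    exact_mod_cast this.symm
  have h7 : Nat.card (Sylow p G) = ∑ χ, m χ * charDegree χ.1 := by
    have := congrFun h3 1
    simp only [hπ, MulAction.fixedBy_one_eq_univ, Nat.card_univ, Finset.sum_apply, Pi.smul_apply,
      smul_eq_mul] at this
    rw [Finset.sum_congr rfl fun χ _ => by rw [← coe_charDegree χ.2.isCharacter]] at this
    exact_mod_cast this
  have h8 : 1 + p * (r - 1) ≤ Nat.card (Sylow p G) := by
    have := Fintype.ofFinite (Quotient (MulAction.orbitRel P (Sylow p G)))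
    rw [Nat.card_congr (MulAction.selfEquivSigmaOrbits P _), Nat.card_sigma,
      ← Finset.add_sum_erase _ _ (Finset.mem_univ (Quotient.mk'' P)), hr, Nat.card_eq_fintype_card,
      ← Finset.card_univ, ← Finset.card_erase_of_mem (Finset.mem_univ (Quotient.mk'' P)), mul_comm]
    refine add_le_add (Nat.card_pos_iff.2 ⟨⟨⟨_, MulAction.mem_orbit_self _⟩⟩, inferInstance⟩)
      (Finset.card_nsmul_le_sum _ _ _ fun ω hω => ?_)
    obtain ⟨_ | k, hk⟩ := P.isPGroup'.card_orbit ω.out
    · refine absurd ?_ (Finset.mem_erase.1 hω).1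
      rw [pow_zero, Nat.card_eq_fintype_card, ← MulAction.mem_fixedPoints_iff_card_orbit_eq_one,
        P.isPGroup'.sylow_mem_fixedPoints_iff] at hk
      rw [← ω.out_eq', Sylow.ext (P.is_maximal' ω.out.isPGroup' hk)]
    · exact hk ▸ Nat.le_self_pow k.succ_ne_zero p
  rw [h7, h6, ← Finset.add_sum_erase _ _ (Finset.mem_univ o),
    ← Finset.add_sum_erase _ _ (Finset.mem_univ o), h4, (charDegree_eq_one isCharacter_one).2 rfl,
    show a o = 1 by exact_mod_cast (ha o).symm.trans isIrr_one.classInner_self, mul_one,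
    Nat.add_sub_cancel_left, add_le_add_iff_left, Finset.mul_sum] at h8
  have h9 : ∀ χ ∈ Finset.univ.erase o, m χ = 0 := by
    by_contra! hc
    refine absurd (Finset.sum_lt_sum (fun χ _ => ?_) (hc.imp fun χ h => ⟨h.1, ?_⟩)) h8.not_gt
    · by_cases h : m χ = 0
      · simp [h]
      · nlinarith [Nat.pos_of_ne_zero (h5 χ h), hb χ, Nat.zero_le (m χ * p), Nat.zero_le (m χ)]
    · nlinarith [Nat.pos_of_ne_zero (h5 χ h.2), hb χ, Nat.pos_of_ne_zero h.2, Nat.zero_le (m χ * p)]
  rw [← Finset.add_sum_erase _ _ (Finset.mem_univ o), h4, (charDegree_eq_one isCharacter_one).2 rfl,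
    Finset.sum_eq_zero fun χ h => by rw [h9 χ h, zero_mul]] at h7
  have : Subsingleton (Sylow p G) := (Nat.card_eq_one_iff_unique.1 h7).1
  exact P.normal_of_subsingleton

end Cfsg.Agent.S4464
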