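import Cfsg.Statements.S4467
import Cfsg.Agent.H3.Cd3
import Cfsg.Agent.H4.Ext2
import Cfsg.Agent.H4.Ch2
import Cfsg.Agent.H3.More
import Cfsg.Agent.H2.NPC
import Cfsg.Agent.H2.Trans
import Cfsg.Agent.H1.Schmidt
import Cfsg.Agent.H1.Basic

set_option autoImplicit false
open Cfsg

open CfsgH2 Function Subgroup
open CfsgH3 hiding cj
open CfsgH4 hiding cent_le_norm cent_sup
open scoped commutatorElement ComplexConjugate

namespace Cfsg.Agent.S4467
universe u

/-- no prime-power divisor is `0, ±1` modulo `p` -/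
def Nc (p n : ℕ) : Prop := ∀ q : ℕ, IsPrimePow q → q ∣ n →
  ¬ ((q : ℤ) ≡ -1 [ZMOD p] ∨ (q : ℤ) ≡ 0 [ZMOD p] ∨ (q : ℤ) ≡ 1 [ZMOD p])

theorem Nc.dvd {p n m : ℕ} (h : Nc p n) (hd : m ∣ n) : Nc p m := fun q a b => h q a (b.trans hd)

theorem Nc.nd {p n : ℕ} (hp : p.Prime) (h : Nc p n) : ¬ p ∣ n := fun d =>
  h p hp.isPrimePow d (.inr (.inl (by simp [Int.ModEq])))

theorem Nc.one {p n q : ℕ} (h : Nc p n) (hq : IsPrimePow q) (d : q ∣ n) : ¬ q ≡ 1 [MOD p] := fun e =>
  h q hq d (.inr (.inr (by exact_mod_cast Int.natCast_modEq_iff.2 e)))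

theorem Nc.sq {p n q : ℕ} (hp : p.Prime) (h : Nc p n) (hq : IsPrimePow q) (d : q ∣ n) :
    ¬ q ^ 2 ≡ 1 [MOD p] := fun e => by
  have e1 : ((q ^ 2 : ℕ) : ℤ) ≡ ((1 : ℕ) : ℤ) [ZMOD p] := Int.natCast_modEq_iff.2 e
  have e2 : (p : ℤ) ∣ ((q : ℤ) + 1) * ((q : ℤ) - 1) := by
    have := e1.symm.dvd
    push_cast at this
    convert this using 1; ring
  rcases (Nat.prime_iff_prime_int.1 hp).dvd_or_dvd e2 with a | a
  · exact h q hq d (.inl (Int.ModEq.symm (Int.modEq_iff_dvd.2 (by simpa using a))))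
  · exact h q hq d (.inr (.inr (Int.ModEq.symm (Int.modEq_iff_dvd.2 a))))

/-- the inductive statement -/
def St (p m : ℕ) : Prop := ∀ (G : Type u) [Group G] [Finite G], Nat.card G < m → Group.IsSolvable G →
  ∀ χ : G → ℂ, IsIrrCharacter G χ → (∀ g, χ g = χ 1 → g = 1) → Nc p (charDegree χ) →
    IsPGroup p (piRes {p}ᶜ (⊤ : Subgroup G))

section
variable {G : Type u} [Group G] [Finite G] {p m : ℕ} [hp : Fact p.Prime] {χ : G → ℂ}
  {N L K Q H : Subgroup G}

theorem nrm {π : Set ℕ} [hN : N.Normal] : (piRes π N).Normal :=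
  normalizer_eq_top_iff.1 (top_le_iff.1 ((normalizer_eq_top_iff.2 hN).ge.trans norm_le_norm_piRes))

theorem res_le (ih : St.{u} p m) (hm : Nat.card G < m) (hs : Group.IsSolvable G)
    (hχ : IsIrrCharacter G χ) (hn : Nc p (charDegree χ)) :
    piRes {p} (piRes {p}ᶜ (⊤ : Subgroup G)) ≤ charKer χ := by
  haveI := hχ.isCharacter.charKer_normal
  obtain ⟨β, b1, -, -, b4, b5⟩ := exists_faithful_quot hχ
  have h := ih (G ⧸ charKer χ) (lt_of_le_of_lt
    (Nat.card_le_card_of_surjective _ (QuotientGroup.mk'_surjective _)) hm) inferInstance β b1 b5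
    (b4 ▸ hn)
  have e : map (QuotientGroup.mk' (charKer χ)) (piRes {p} (piRes {p}ᶜ (⊤ : Subgroup G))) = ⊥ := by
    rw [map_piRes, map_piRes, map_top_of_surjective _ (QuotientGroup.mk'_surjective _)]
    refine le_bot_iff.1 (piRes_le_of (le_top.trans (normalizer_eq_top_iff.2 inferInstance).ge) ?_)
    rw [relIndex_bot_left]
    exact isPGroup_iff_piN.1 h
  rw [Subgroup.map_eq_bot_iff, QuotientGroup.ker_mk'] at e
  exact e

theorem step1 (ih : St.{u} p (Nat.card G)) (hs : Group.IsSolvable G) (hχ : IsIrrCharacter G χ)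
    (hf : ∀ g, χ g = χ 1 → g = 1) (hn : Nc p (charDegree χ)) [hN : N.Normal] (h : N ≠ ⊤) :
    IsPGroup p (piRes {p}ᶜ N) := by
  classical
  haveI := Fintype.ofFinite G
  haveI := Fintype.ofFinite N
  obtain ⟨θ, h1, h2⟩ := hχ.exists_irr_under (H := N)
  have d := (deg_dvd_of_over h1 hχ h2).1
  have r := res_le ih (card_lt_of_lt h.lt_top |>.trans_eq card_top) inferInstance h1
    (hn.dvd ((Dvd.intro_left _ rfl).trans d))
  have e : map N.subtype (piRes {p} (piRes {p}ᶜ (⊤ : Subgroup N))) = piRes {p} (piRes {p}ᶜ N) := by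
    rw [map_piRes, map_piRes, ← MonoidHom.range_eq_map, range_subtype]
  haveI : (piRes {p}ᶜ N).Normal := nrm
  have nR : (piRes {p} (piRes {p}ᶜ N)).Normal := nrm
  have b : piRes {p} (piRes {p}ᶜ N) = ⊥ := by
    refine eq_bot_iff.2 fun x hx => mem_bot.2 (hf x ?_)
    have xN : x ∈ N := piRes_le (piRes_le hx)
    have c := clifford hχ h1 h2
    have k : ∀ ψ ∈ cjOrbit θ, ψ ⟨x, xN⟩ = ψ 1 := by
      intro ψ hψ
      obtain ⟨g, rfl⟩ := mem_cjOrbit.1 hψ
      rw [CfsgH3.cj_apply, cj_apply_one]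
      have := nR.conj_mem x hx g
      rw [← e] at this
      obtain ⟨y, hy, ey⟩ := this
      have := h1.isCharacter.mem_charKer.1 (r hy)
      rw [← this]; congr 1; exact Subtype.ext ey.symm
    have c1 := congrFun c ⟨x, xN⟩
    have c2 := congrFun c 1
    simp only [Pi.smul_apply, Finset.sum_apply] at c1 c2
    rw [Finset.sum_congr rfl k, ← c2] at c1
    exact c1
  have := piN_relIndex_piRes (π := {p}) (M := piRes {p}ᶜ N)
  rw [b, relIndex_bot_left] at this
  exact isPGroup_iff_piN.2 this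

theorem comm_iff [L.Normal] : ⁅K, Q⁆ ≤ L ↔
    Q.map (QuotientGroup.mk' L) ≤ C[K.map (QuotientGroup.mk' L)] := by
  rw [← commutator_eq_bot_iff_le_centralizer, ← map_commutator, Subgroup.map_eq_bot_iff,
    QuotientGroup.ker_mk', commutator_comm]

theorem contra (s2 : ∀ N : Subgroup G, N.Normal → ¬ p ∣ N.index → N = ⊤) [L.Normal] [hK : K.Normal]
    (hQ : ¬ p ∣ Q.index) (h1 : L ≤ H) (h2 : Q ≤ H) (h3 : K ⊔ H = ⊤) (h4 : H ≠ ⊤) (h : ⁅K, Q⁆ ≤ L) :
    False := by
  haveI : (K.map (QuotientGroup.mk' L)).Normal := hK.map _ (QuotientGroup.mk'_surjective _)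
  have a : Q ≤ comap (QuotientGroup.mk' L) C[K.map (QuotientGroup.mk' L)] :=
    map_le_iff_le_comap.1 (comm_iff.1 h)
  have b := s2 _ inferInstance fun d => hQ (d.trans (index_dvd_of_le a))
  have c : ⁅K, ⊤⁆ ≤ L := comm_iff.2 (map_le_iff_le_comap.2 b.ge)
  have n : K ≤ N[H] := le_normalizer_iff_commutator_le_right.2
    ((commutator_mono le_rfl le_top).trans (c.trans h1))
  have nH : H.Normal := normalizer_eq_top_iff.1 (top_le_iff.1 (h3 ▸ sup_le n le_normalizer))
  exact h4 (s2 H nH fun d => hQ (d.trans (index_dvd_of_le h2)))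

theorem fix [L.Normal] [hK : K.Normal] (hLK : L ≤ K) (hQ : IsPGroup p Q) : ∃ D, L ≤ D ∧ D ≤ K ∧
    ⁅D, Q⁆ ≤ L ∧ L.relIndex K ≡ L.relIndex D [MOD p] := by
  set f := QuotientGroup.mk' L with hf
  have sf : Surjective f := QuotientGroup.mk'_surjective _
  have nK : (K.map f).Normal := hK.map _ sf
  have kf : f.ker = L := QuotientGroup.ker_mk' L
  have c := card_modEq_inf_cent (H := K.map f) (hQ.map f)
    (le_top.trans (normalizer_eq_top_iff.2 nK).ge)
  have e : map f (comap f (K.map f ⊓ C[Q.map f])) = K.map f ⊓ C[Q.map f] :=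
    map_comap_eq_self_of_surjective sf _
  refine ⟨comap f (K.map f ⊓ C[Q.map f]), kf.ge.trans (ker_le_comap _ _), ?_, ?_, ?_⟩
  · refine (comap_mono inf_le_left).trans ?_
    rw [comap_map_eq, kf]; exact sup_le le_rfl hLK
  · rw [comm_iff, ← hf, e]
    exact le_centralizer_iff.1 inf_le_right
  · have r1 := relIndex_ker K f
    have r2 := relIndex_ker (comap f (K.map f ⊓ C[Q.map f])) f
    rw [kf] at r1 r2
    rw [r1, r2, e]; exact c

theorem imprim (hs : Group.IsSolvable G) (hχ : IsIrrCharacter G χ) (hn : Nc p (charDegree χ))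
    (s2 : ∀ N : Subgroup G, N.Normal → ¬ p ∣ N.index → N = ⊤) [N.Normal] : CfsgCd.Hm N χ := by
  classical
  haveI := Fintype.ofFinite G
  by_contra h
  obtain ⟨T, t1, -, ψ, t2, t3⟩ := CfsgCd.exists_ind_of_not_hm hχ h
  obtain ⟨H, hH, tH⟩ := CfsgH1.exists_coatom_ge t1
  have d : H.index ∣ charDegree χ := by
    rw [← t3, deg_indFun t2.isCharacter]
    exact (index_dvd_of_le tH).trans (Dvd.intro _ rfl)
  obtain ⟨r, K, hr, nK, k1, k2, ⟨a, ha⟩, -⟩ := CfsgCd.exists_compl_core hH inferInstance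
  have e : H.normalCore.relIndex K = H.index := by
    have e1 := relIndex_mul_index (inf_le_left : K ⊓ H ≤ K)
    have e2 := relIndex_mul_index (inf_le_right : K ⊓ H ≤ H)
    have e3 : (K ⊓ H).relIndex H = K.index := by
      rw [inf_relIndex_right, ← relIndex_sup_left, k2, relIndex_top_right]
    rw [e3, ← e1, k1, mul_comm] at e2
    exact (Nat.eq_of_mul_eq_mul_right (Nat.pos_of_ne_zero index_ne_zero_of_finite) e2).symm
  have nd := hn.nd hp.out
  obtain ⟨Q, hQ, -⟩ := exists_syl_ge (p := p) (M := H) IsPGroup.of_bot bot_le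
  have qi : ¬ p ∣ Q.index := by
    rw [← relIndex_mul_index hQ.le]
    exact fun x => (hp.out.dvd_mul.1 x).elim hQ.nd fun y => nd (y.trans d)
  obtain ⟨D, d1, d2, d3, d4⟩ := fix (L := H.normalCore) (K := K) (k1.ge.trans inf_le_left) hQ.pg
  by_cases hD : K ≤ D
  · exact contra s2 qi (normalCore_le H) hQ.le k2 hH.1 ((commutator_mono hD le_rfl).trans d3)
  have m := relIndex_mul_relIndex _ _ _ d1 d2
  have dd : D.relIndex K ∣ r ^ a := ha ▸ Dvd.intro_left _ m
  obtain ⟨b, -, hb⟩ := (Nat.dvd_prime_pow hr).1 dd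
  have b0 : b ≠ 0 := by
    rintro rfl
    exact hD (relIndex_eq_one.1 (by simpa using hb))
  refine hn.one (q := D.relIndex K) (hb ▸ hr.isPrimePow.pow b0) ((ha ▸ dd).trans (e ▸ d)) ?_
  have c : (H.normalCore.relIndex D).Coprime p := (coprime_iff_not_dvd hp.out).2 fun x =>
    nd ((x.trans (Dvd.intro _ m)).trans (e ▸ d))
  rw [← m] at d4
  exact Nat.ModEq.cancel_left_of_coprime c.symm (d4.trans (by rw [mul_one]))

theorem cent_of_lin (hχ : IsCharacter G χ) (hf : ∀ g, χ g = χ 1 → g = 1) {θ : N → ℂ}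
    (hθ : IsCharacter N θ) (h1 : θ 1 = 1) {e : ℂ} (h : (fun a : N => χ a) = e • θ) :
    N ≤ center G := fun z hz => by
  refine mem_center_iff.2 fun g => ?_
  have := hf _ (hχ.mem_charKer.1 (hχ.commutator_mem_charKer
    (le_charCenter_of_restrict_eq_smul hχ hθ h1 h hz) g))
  rw [mul_inv_eq_one, mul_inv_eq_iff_eq_mul] at this
  exact this

theorem main : ∀ m, St.{u} p m := by
  intro m
  induction m with
  | zero => intro G _ _ h; exact absurd h (Nat.not_lt_zero _)
  | succ m ih0 =>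
  intro G _ _ hm hs χ hχ hf hn
  classical
  haveI := Fintype.ofFinite G
  have ih : St.{u} p (Nat.card G) := fun X _ _ h => ih0 X (by omega)
  by_contra hc
  have nd := hn.nd hp.out
  have o : piRes {p}ᶜ (⊤ : Subgroup G) = ⊤ := by
    by_contra h
    haveI : (piRes {p}ᶜ (⊤ : Subgroup G)).Normal := nrm
    exact hc (piRes_piRes (π := {p}ᶜ) (M := (⊤ : Subgroup G)) ▸ step1 ih hs hχ hf hn h)
  have s2 : ∀ N : Subgroup G, N.Normal → ¬ p ∣ N.index → N = ⊤ := fun N hN h =>
    top_le_iff.1 (o.ge.trans (piRes_le_of (normalizer_eq_top_iff.2 hN).ge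
      (by rw [relIndex_top_right]; exact (piN_compl_singleton hp.out).2 h)))
  rw [o] at hc
  have hm : ∀ N : Subgroup G, N.Normal → CfsgCd.Hm N χ := fun N _ => imprim hs hχ hn s2
  set K := piRes {p} (⊤ : Subgroup G) with hK
  haveI nK : K.Normal := nrm
  have t0 : (⊤ : Subgroup G) ≠ ⊥ := fun h => hc (h ▸ IsPGroup.of_bot)
  have k1 : K ≠ ⊤ := by
    obtain ⟨M, m1, m2, -, m4⟩ := CfsgH1.exists_normal_prime_relIndex (L := (⊤ : Subgroup G))
      inferInstance t0
    have nM : M.Normal := normalizer_eq_top_iff.1 (top_le_iff.1 m2)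
    have : p ∣ M.relIndex ⊤ := by
      by_contra h
      exact m1.ne (s2 M nM (by rwa [relIndex_top_right] at h))
    have e := (Nat.prime_dvd_prime_iff_eq hp.out m4).1 this
    exact fun h => m1.not_ge (h.ge.trans (piRes_le_of m2 (e ▸ PiN.of_prime hp.out rfl)))
  have kp : ¬ p ∣ Nat.card K := by
    have a1 := step1 ih hs hχ hf hn k1
    haveI : (piRes {p}ᶜ K).Normal := nrm
    haveI := Fintype.ofFinite (piRes {p}ᶜ K)
    obtain ⟨θ, h1, h2⟩ := hχ.exists_irr_under (H := piRes {p}ᶜ K)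
    have d := (deg_dvd_of_over h1 hχ h2).1
    have l := lin_of_pgroup a1 h1 fun x => nd (x.trans ((Dvd.intro_left _ rfl).trans d))
    have z := cent_of_lin hχ.isCharacter hf h1.isCharacter l (clifford_of_invariant hχ h1 h2
      ((hm _ inferInstance).inv hχ.isClassFunction h1 h2))
    have sA : Syl p (piRes {p}ᶜ K) K :=
      ⟨piRes_le, a1, (piN_compl_singleton hp.out).1 piN_relIndex_piRes⟩
    have := NPC.iff_piRes.1 (sA.npc_of_norm_le_cent (le_top.trans
      (le_centralizer_iff.1 (z.trans (center_le_centralizer _)))))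
    rwa [hK, piRes_piRes] at this
  obtain ⟨P, hP, -⟩ := exists_syl_ge (p := p) (M := (⊤ : Subgroup G)) IsPGroup.of_bot bot_le
  have kP : K ⊔ P = ⊤ := hP.piRes_sup
  have pi : ¬ p ∣ P.index := relIndex_top_right P ▸ hP.nd
  have k0 : ⊥ < K := bot_lt_iff_ne_bot.2 fun h => hc (by
    rw [h, bot_sup_eq] at kP; exact kP ▸ hP.pg)
  obtain ⟨L, -, ⟨nL, hLK⟩, mx⟩ := exists_maximal_ge (fun X : Subgroup G => X.Normal ∧ X < K)
    (H := ⊥) ⟨inferInstance, k0⟩
  have ch : ∀ M : Subgroup G, M.Normal → L ≤ M → M ≤ K → M = L ∨ M = K := fun M a b c =>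
    c.eq_or_lt.symm.imp (fun x => mx M ⟨a, x⟩ b) id
  have ab := CfsgCd.comm_le_of_chief hLK inferInstance ch
  have r1 : L.relIndex K ≠ 1 := fun h => hLK.not_ge (relIndex_eq_one.1 h)
  have rK : L.relIndex K ∣ Nat.card K := relIndex_dvd_card _ _
  have h4 : L ⊔ P ≠ ⊤ := fun h => by
    have e : L.index = L.relIndex P := by rw [← relIndex_sup_left, h, relIndex_top_right]
    have c : (Nat.card P).Coprime (Nat.card K) := coprime_of_pgroup hP.pg kp
    exact r1 (Nat.eq_one_of_dvd_coprimes c (((Dvd.intro _ (relIndex_mul_index hLK.le)).trans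
      e.dvd).trans (relIndex_dvd_card _ _)) rK)
  have md : L.relIndex K ≡ 1 [MOD p] := by
    obtain ⟨D, d1, d2, d3, d4⟩ := fix hLK.le hP.pg
    have nD : D.Normal := normalizer_eq_top_iff.1 (top_le_iff.1 (kP ▸ sup_le
      (le_normalizer_iff_commutator_le_right.2 ((commutator_mono le_rfl d2).trans (ab.trans d1)))
      (le_normalizer_iff_commutator_le_left.2 (d3.trans d1))))
    rcases ch D nD d1 d2 with rfl | rfl
    · rwa [relIndex_self] at d4
    · exact (contra s2 pi le_sup_left le_sup_right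
        (top_le_iff.1 (kP ▸ sup_le_sup_left le_sup_right _)) h4 d3).elim
  obtain ⟨n, hn1⟩ := hχ.isCharacter.exists_nat_apply_one
  have dn := charDegree_eq hn1
  have ki : PiN {p} K.index := relIndex_top_right K ▸ piN_relIndex_piRes
  have iK := restrict_irr_of_coprime (N := K) hχ hn1
    (ki.coprime ((piN_compl_singleton hp.out).2 (dn ▸ nd)))
  rcases CfsgCd.going_down hLK.le ch ab iK (cj_restrict hχ.isClassFunction) with
    h | ⟨φ, e, f1, f2, f3⟩ | ⟨F, f1, f2, f3⟩
  · have iL : IsIrrCharacter L fun x : L => χ x := h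
    have iH : IsIrrCharacter (L ⊔ P : Subgroup G) fun x => χ x :=
      (hχ.isCharacter.restrict _).isIrr_of_restrict (L.subgroupOf (L ⊔ P))
        (iL.comp_equiv (subgroupOfEquivOfLe le_sup_left))
    have b := (ih _ (card_lt_of_lt h4.lt_top |>.trans_eq card_top) inferInstance _ iH
      (fun g hg => Subtype.ext (hf _ hg)) hn).map (L ⊔ P).subtype
    rw [map_piRes, ← MonoidHom.range_eq_map, range_subtype] at b
    have pB : P ≤ piRes {p}ᶜ (L ⊔ P) := le_piRes le_sup_right
      (by rw [compl_compl]; exact isPGroup_iff_piN.1 hP.pg)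
    have c : ⁅L, P⁆ ≤ ⊥ := by
      have c1 : ⁅L, P⁆ ≤ piRes {p}ᶜ (L ⊔ P) := (commutator_mono le_rfl pB).trans
        (le_normalizer_iff_commutator_le_right.1 (le_sup_left.trans le_norm_piRes))
      exact (le_inf c1 ((commutator_le_left _ _).trans hLK.le)).trans
        (inf_eq_bot_of_coprime' (coprime_of_pgroup b kp)).le
    have c2 : P ≤ C[L] := le_centralizer_iff.1 (commutator_eq_bot_iff_le_centralizer.1
      (le_bot_iff.1 c))
    have c3 := s2 C[L] inferInstance fun d => pi (d.trans (index_dvd_of_le c2))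
    have l1 : χ 1 = 1 := lin_of_comm (G := L) iL fun g hg => by
      have : commutator L = ⊥ := by
        refine le_bot_iff.1 (commutator_le.2 fun a _ b _ => mem_bot.2 ?_)
        refine commutatorElement_eq_one_iff_mul_comm.2 (Subtype.ext ?_)
        exact (c3.ge (mem_top (b : G)) : (b : G) ∈ C[L]) a a.2
      rw [this, mem_bot] at hg
      rw [hg]
    have g0 : commutator G ≤ P := fun g hg => by
      rw [hf g ((lin_comm hχ.isCharacter l1 hg).trans l1.symm)]; exact one_mem _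
    exact hc (s2 P (Normal.of_commutator_le _ g0) pi ▸ hP.pg)
  · obtain ⟨c, hc1⟩ := f1.isCharacter.exists_nat_apply_one
    have e1 := congrFun f2 1
    have e2 : (n : ℂ) = e * c := by
      rw [← hn1, ← hc1]; exact e1
    have e3 : e ∣ charDegree χ := dn ▸ Dvd.intro c (by exact_mod_cast e2.symm)
    have pp : IsPrimePow (L.relIndex K) := by
      obtain ⟨r, hr, rd⟩ := Nat.exists_prime_and_dvd r1
      haveI := Fact.mk hr
      obtain ⟨R, hR, -⟩ := exists_syl_ge (p := r) (M := K) IsPGroup.of_bot bot_le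
      have lk := sup_le hLK.le hR.le
      have nD : (L ⊔ R).Normal := normalizer_eq_top_iff.1 (top_le_iff.1
        (hR.frattini_sup le_top (normalizer_eq_top_iff.2 nK).ge ▸ sup_le
          (le_normalizer_iff_commutator_le_right.2
            ((commutator_mono le_rfl lk).trans (ab.trans le_sup_left)))
          (le_norm_sup (le_top.trans (normalizer_eq_top_iff.2 nL).ge) inf_le_right)))
      rcases ch _ nD le_sup_left lk with x | x
      · exact (hR.not_dvd_of_le (le_sup_right.trans x.le) rd).elim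
      have y : L.relIndex K ∣ Nat.card R := by
        rw [← x, relIndex_sup_left]; exact relIndex_dvd_card _ _
      rw [hR.card_eq] at y
      obtain ⟨b, -, hb⟩ := (Nat.dvd_prime_pow hr).1 y
      refine hb ▸ hr.isPrimePow.pow ?_
      rintro rfl
      exact r1 (by simpa using hb)
    refine hn.sq hp.out ?_ e3 (f3 ▸ md)
    exact (isPrimePow_pow_iff two_ne_zero).1 (f3 ▸ pp)
  · haveI := Fintype.ofFinite L
    obtain ⟨φ, e, g1, g2⟩ := hm L nL
    have : ∀ a ∈ F, a = φ := fun a ha => by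
      by_contra x
      have i1 : classInner (∑ ψ ∈ F, ψ) a = 0 := by
        rw [← f3, show resLE hLK.le (fun n : K => χ n) = _ from g2, classInner_smul_left,
          g1.classInner_of_ne (f1 a ha) (Ne.symm x), mul_zero]
      rw [classInner_sum_left, Finset.sum_eq_single a
        (fun b hb y => (f1 b hb).classInner_of_ne (f1 a ha) y) (fun y => absurd ha y),
        (f1 a ha).classInner_self] at i1
      exact one_ne_zero i1
    have := Finset.card_le_one.2 fun a ha b hb => (this a ha).trans (this b hb).symm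
    have r0 : L.relIndex K ≠ 0 := ne_zero_of_dvd_ne_zero Nat.card_pos.ne' rK
    omega
end

/-- Let the finite solvable group G have a faithful irreducible character of degree n, and suppose that for the prime p a Sylow p-subgroup of G is not normal. Then n is divisible by a prime power q > 1 with q congruent to −1, 0 or 1 modulo p. -/
theorem result {G : Type*} [Group G] [Finite G] (χ : Cfsg.IrrCharacter G) (hfaith : ∀ g : G, (χ : G → ℂ) g = (χ : G → ℂ) 1 → g = 1) (n : ℕ) (hn : Cfsg.charDegree (χ : G → ℂ) = n) (hsolv : Group.IsSolvable G) (p : ℕ) (hp : p.Prime) (P : Sylow p G) (hP : ¬ (P : Subgroup G).Normal) : ∃ q : ℕ, IsPrimePow q ∧ q ∣ n ∧ ((q : ℤ) ≡ -1 [ZMOD p] ∨ (q : ℤ) ≡ 0 [ZMOD p] ∨ (q : ℤ) ≡ 1 [ZMOD p]) := by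
  haveI := Fact.mk hp
  by_contra h
  have a := main (p := p) _ G (Nat.lt_succ_self _) hsolv χ.1 χ.2 hfaith
    fun q h1 h2 h3 => h ⟨q, h1, hn ▸ h2, h3⟩
  have e := (syl_top P).eq_of_le a (le_piRes le_top
      (by rw [compl_compl]; exact isPGroup_iff_piN.1 P.isPGroup')) le_top
  exact hP (e ▸ nrm)


end Cfsg.Agent.S4467
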