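import Cfsg.Statements.S4473
import Cfsg.Agent.H3.Cd4
import Cfsg.Agent.H8.Mob
import Cfsg.Agent.H4.Real

set_option autoImplicit false
open Cfsg

open Cfsg CfsgH3 CfsgH4 CfsgCd CfsgH8 Function MulAction OnePoint

namespace Cfsg.Agent.S4473
theorem two {H X : Type*} [Group H] [Finite H] [MulAction H X] {e : X ≃ OnePoint ℂ} (hM : Mob H e) {h : H} (h1 : h ≠ 1) :
    ∃ x y, x ≠ y ∧ fixedBy X h = {x, y} := by
  obtain ⟨x, hx⟩ := hM.exists_fixed h
  obtain ⟨e, hM, a⟩ := hM.exists_inf x
  obtain ⟨χ, β, hχ⟩ := hM.exists_aff a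
  have h3 : χ ⟨h, hx⟩ ≠ 1 := fun c => by
    have k : ∀ n : ℕ, h ^ n • e.symm (0 : ℂ) = e.symm (n * β ⟨h, hx⟩ : ℂ) := fun n => by
      induction n with
      | zero => simp
      | succ n ih => rw [pow_succ', mul_smul, ih, hχ ⟨h, hx⟩, c]; simp [add_mul]
    have := k (orderOf h)
    rw [pow_orderOf_eq_one, one_smul] at this
    have b : β ⟨h, hx⟩ = 0 := by simpa [(orderOf_pos h).ne'] using this
    exact h1 (congrArg Subtype.val (Mob.aff_eq_one hM a hχ c (z := 0) (by rw [hχ, b]; simp)))
  refine ⟨x, e.symm (β ⟨h, hx⟩ / (1 - χ ⟨h, hx⟩) : ℂ), fun h => by simp [h] at a, Set.ext fun y => ?_⟩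
  rcases Mob.eq_or_exists a y with rfl | ⟨w, rfl⟩
  · simpa
  · rw [mem_fixedBy, Mob.aff_fix hM a hχ h3]
    simp [e.symm_apply_eq, a]
theorem cls {H X : Type*} [Group H] [Finite H] [MulAction H X] {e : X ≃ OnePoint ℂ} (hM : Mob H e)
    (h : ∀ x : X, 3 ≤ (stabilizer H x).index) : Nat.card H = 12 ∨ Nat.card H = 24 ∨ Nat.card H = 60 := by
  classical
  have := Fintype.ofFinite H
  obtain ⟨R, h1, -, -, h4⟩ := exists_orbit_reps (H := H) (X := X)
    (((Finset.univ.erase (1 : H)).finite_toSet.biUnion (t := fixedBy X) fun h hh => by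
      obtain ⟨x, y, -, e⟩ := two hM (Finset.ne_of_mem_erase hh)
      simp [e]).subset fun x hx => by
        obtain ⟨⟨h, hh⟩, h1⟩ := Subgroup.ne_bot_iff_exists_ne_one.1 hx
        exact Set.mem_biUnion (x := h) (by simpa using h1) hh)
  rw [Finset.sum_congr (s₁ := Finset.univ.erase (1 : H)) rfl (g := fun _ => 2) fun h hh => by
      obtain ⟨x, y, a, e⟩ := two hM (Finset.ne_of_mem_erase hh)
      rw [e, Set.ncard_pair a], Finset.sum_const, Finset.card_erase_of_mem (Finset.mem_univ _),
    Finset.card_univ, ← Nat.card_eq_fintype_card, smul_eq_mul] at h4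
  have g3 := (h (e.symm ∞)).trans (Nat.le_of_dvd Nat.card_pos (Subgroup.index_dvd_card _))
  have two : ∀ x ∈ R, 2 ≤ Nat.card (stabilizer H x) := fun x hx => (Subgroup.one_lt_card_iff_ne_bot _).2 (h1 x hx)
  have h7 := Finset.sum_le_card_nsmul R (fun y => (stabilizer H y).index * 2) _ fun x hx =>
    (stabilizer H x).index_mul_card ▸ Nat.mul_le_mul_left _ (two x hx)
  have h6 := Finset.card_nsmul_le_sum R _ _ fun x _ => h x
  rw [← Finset.sum_mul, smul_eq_mul] at h7
  have h8 : R.card < 4 := by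
    by_contra h9
    have := Nat.mul_le_mul_right (Nat.card H) (not_lt.1 h9)
    omega
  obtain h9 | h9 | h9 | h9 : R.card = 0 ∨ R.card = 1 ∨ R.card = 2 ∨ R.card = 3 := by omega
  any_goals rw [h9, smul_eq_mul] at h6; rw [h9] at h4; omega
  obtain ⟨x, y, z, a, b, c, rfl⟩ := Finset.card_eq_three.1 h9
  rw [h9, Finset.sum_insert (by simp [a, b]), Finset.sum_pair c] at h4
  have := platonic' (stabilizer H x).index_mul_card (stabilizer H y).index_mul_card (stabilizer H z).index_mul_card
    (two x (by simp)) (two y (by simp)) (two z (by simp)) (by omega)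
  have := h x
  have := h y
  have := h z
  omega
theorem split {T : Type*} [Group T] (φ : T →* GL (Fin 2) ℂ) (x : OnePoint ℂ) (h : ∀ t, φ t • x = x) :
    ∃ a d : T →* ℂ, ∀ t, (φ t).1.trace = a t + d t := by
  obtain ⟨c, hc⟩ : ∃ c : GL (Fin 2) ℂ, c • x = ∞ := by
    cases x with
    | infty => exact ⟨1, one_smul _ _⟩
    | coe c => exact ⟨mk2 0 1 1 (-c) (by simp), by simp [smul_some_eq_ite]⟩
  let ψ := (MulAut.conj c).toMonoidHom.comp φ
  have k : ∀ t, ψ t 1 0 = 0 := fun t => smul_infty_eq_self_iff.1 (by simp [ψ, ← hc, mul_smul, h])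
  refine ⟨⟨⟨fun t => ψ t 0 0, by simp⟩, fun s t => ?_⟩, ⟨⟨fun t => ψ t 1 1, by simp⟩, fun s t => ?_⟩, fun t => ?_⟩
  · simp only [map_mul, Units.val_mul, Matrix.mul_apply, Fin.sum_univ_two, k, mul_zero, add_zero]
  · simp only [map_mul, Units.val_mul, Matrix.mul_apply, Fin.sum_univ_two, k, zero_mul, zero_add]
  · exact (Matrix.trace_units_conj c _).symm.trans (Matrix.trace_fin_two _)

/-- Let the finite group G have a faithful irreducible character χ of degree 2 that is primitive: χ is not induced from a character of any proper subgroup. Then the centre of G has index 12, 24 or 60. -/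
theorem result {G : Type*} [Group G] [Fintype G] (χ : Cfsg.IrrCharacter G) (hfaith : ∀ g : G, (χ : G → ℂ) g = (χ : G → ℂ) 1 → g = 1) (h2 : Cfsg.charDegree (χ : G → ℂ) = 2) (hprim : ∀ H : Subgroup G, H ≠ ⊤ → ∀ θ : H → ℂ, Cfsg.IsCharacter H θ → (χ : G → ℂ) ≠ Cfsg.indFun H θ) : (Subgroup.center G).index = 12 ∨ (Subgroup.center G).index = 24 ∨ (Subgroup.center G).index = 60 := by
  obtain ⟨_, hχ⟩ := χ
  obtain ⟨n, ρ, hρ, rfl⟩ := id hχ
  obtain rfl : n = 2 := by
    have := coe_charDegree hχ.isCharacter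
    rw [h2, Representation.char_one, Module.finrank_fin_fun, Nat.cast_inj] at this
    exact this.symm
  let φ : G →* GL (Fin 2) ℂ := MonoidHom.toHomUnits ⟨⟨fun g => LinearMap.toMatrix' (ρ g), toM_one ρ⟩, toM_mul ρ⟩
  have e : ∀ g, (φ g).1 = LinearMap.toMatrix' (ρ g) := fun g => rfl
  let f := (toPermHom (GL (Fin 2) ℂ) (OnePoint ℂ)).comp φ
  have hk : f.ker = Subgroup.center G := by
    ext g
    constructor
    · intro h
      have k : ∀ x : OnePoint ℂ, φ g • x = x := fun x => DFunLike.congr_fun h x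
      have a := smul_infty_eq_self_iff.1 (k ∞)
      have b : φ g 1 1 ≠ 0 := fun b => gl2_det_ne (φ g) (by simp [a, b])
      have c : φ g 0 1 = 0 := by simpa [smul_some_eq_ite, a, b] using k (0 : ℂ)
      have d : φ g 0 0 = φ g 1 1 := by simpa [smul_some_eq_ite, a, b, c, div_eq_one_iff_eq] using k (1 : ℂ)
      refine Subgroup.mem_center_iff.2 fun x => mul_inv_eq_one.1 (hfaith _ ((character_eq_one_iff ρ _).2 ?_))
      have : φ (x * g) = φ (g * x) := by
        ext i j
        fin_cases i <;> fin_cases j <;> simp [Matrix.mul_apply, a, c, d, mul_comm]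
      rw [← mul_inv_eq_one, ← map_inv, ← map_mul] at this
      exact LinearMap.toMatrix'.injective ((congrArg Units.val this).trans LinearMap.toMatrix'_id.symm)
    · intro h
      obtain ⟨ω, hω⟩ := (norm_character_eq_iff ρ g).1 ((hχ.norm_apply_of_mem_center h).trans (by simp))
      have a : (φ g).1 = ω • 1 := by rw [e, hω, _root_.map_smul, LinearMap.toMatrix'_id]
      have b : ω ≠ 0 := fun b => gl2_det_ne (φ g) (by simp [a, b])
      ext x
      show φ g • x = x
      cases x with
      | infty => simp [smul_infty_eq_ite, a]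
      | coe c => simp [smul_some_eq_ite, a, b]
  rw [← hk, Subgroup.index_ker]
  haveI : Finite f.range := Finite.of_surjective _ f.rangeRestrict_surjective
  refine cls (e := Equiv.refl _) ⟨fun h a => Subtype.ext (Equiv.ext a), by rintro ⟨_, g, rfl⟩; exact ⟨φ g, fun x => rfl⟩⟩ fun x => ?_
  rw [← Subgroup.index_comap_of_surjective _ f.rangeRestrict_surjective]
  generalize hT : (stabilizer f.range x).comap f.rangeRestrict = T
  have := Fintype.ofFinite T
  obtain ⟨a, d, h⟩ := split (φ.comp T.subtype) x fun t => (hT.ge t.2 :)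
  have h1 : classInner (fun t : T => ρ.character t) d ≠ 0 := by
    rw [show (fun t : T => ρ.character t) = a + d from funext fun t => (character_eq_trace ρ _).trans (h t)]
    exact classInner_ne_zero_of_add (isIrr_of_monoidHom a).isCharacter (isIrr_of_monoidHom d).isCharacter (isIrr_of_monoidHom d)
      ((isIrr_of_monoidHom d).classInner_self.trans_ne one_ne_zero)
  have h3 : charDegree d = 1 := (charDegree_eq_one (isIrr_of_monoidHom d).isCharacter).2 d.map_one
  have h4 := deg_le_index_mul (isIrr_of_monoidHom d).isCharacter hχ h1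
  by_contra! h5
  rw [h2] at h4
  refine hprim T (fun e => ?_) d (isIrr_of_monoidHom d).isCharacter
    (indFun_eq_of_le (isIrr_of_monoidHom d).isCharacter hχ h1 (by rw [h2, h3]; omega)).symm
  rw [h3, e, Subgroup.index_top] at h4
  omega


end Cfsg.Agent.S4473
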