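import Cfsg.Statements.S4474
import Cfsg.Agent.H3.Rl

set_option autoImplicit false
open Cfsg

open Cfsg CfsgH3 CfsgH4 CfsgRl

namespace Cfsg.Agent.S4474

/-- Let χ be an irreducible character of the finite group G. Then the Frobenius–Schur indicator of χ (the average over s ∈ G of χ(s²)) equals 1 if and only if χ is afforded by a real representation: there is a representation of G on a real coordinate space whose trace function, viewed in ℂ, is χ. -/
theorem result {G : Type*} [Group G] [Fintype G] (χ : Cfsg.IrrCharacter G) : ((Nat.card G : ℂ)⁻¹ * ∑ s : G, (χ : G → ℂ) (s * s)) = 1 ↔ ∃ (n : ℕ) (ρ : Representation ℝ G (Fin n → ℝ)), ∀ g : G, ((LinearMap.trace ℝ (Fin n → ℝ) (ρ g) : ℝ) : ℂ) = (χ : G → ℂ) g := by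
  have t : ∀ {n : ℕ} (f : (Fin n → ℝ) →ₗ[ℝ] (Fin n → ℝ)), LinearMap.trace ℝ _ f = (LinearMap.toMatrix' f).trace := fun f => by
    rw [LinearMap.trace_eq_matrix_trace ℝ (Pi.basisFun ℝ _), LinearMap.toMatrix_eq_toMatrix']
  refine ⟨fun h => ?_, fun ⟨n, ρ, h⟩ => fs_of_real χ.2
    ((LinearMap.toMatrixAlgEquiv' : _ ≃ₐ[ℝ] Matrix (Fin n) (Fin n) ℝ).toMonoidHom.comp ρ) fun g => by rw [← h, t]; rfl⟩
  obtain ⟨n, ρ, hρ, e⟩ := χ.2
  obtain ⟨R, hR⟩ := exists_real ρ (e ▸ h)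
  exact ⟨n, ofM R, fun g => by rw [t, toM_ofM, hR, e]⟩


end Cfsg.Agent.S4474
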