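import Cfsg.Statements.S4476
import Mathlib
import Cfsg.Agent.H4.Ch1

set_option autoImplicit false
open Cfsg

open Cfsg CfsgH3 CfsgH4 CfsgH1 Function
open CfsgH2 hiding cj
open scoped ComplexConjugate Pointwise

namespace Cfsg.Agent.S4476

/-- Let G be a finite group of even order g with exactly t involutions, and put α = (g − 1)/t (a rational number). Then (a) some non-identity element x of G has at most α² conjugates; and (b) some non-principal real-valued irreducible character of G has degree at most α. -/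
theorem result {G : Type*} [Group G] [Fintype G] (heven : Even (Nat.card G)) (t : ℕ) (ht : Nat.card {x : G // orderOf x = 2} = t) : (∃ x : G, x ≠ 1 ∧ ((Subgroup.centralizer ({x} : Set G)).index : ℚ) ≤ (((Nat.card G : ℚ) - 1) / t) ^ 2) ∧ ∃ χ : Cfsg.IrrCharacter G, (χ : G → ℂ) ≠ (fun _ => 1) ∧ (∀ g : G, ((χ : G → ℂ) g).im = 0) ∧ (Cfsg.charDegree (χ : G → ℂ) : ℚ) ≤ ((Nat.card G : ℚ) - 1) / t := by
  classical
  have := Fact.mk Nat.prime_two
  have ht0 : 0 < t := by
    obtain ⟨x, hx⟩ := exists_prime_orderOf_dvd_card' 2 heven.two_dvd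
    exact ht ▸ Nat.card_pos_iff.2 ⟨⟨⟨x, hx⟩⟩, inferInstance⟩
  have ht1 : (0 : ℚ) < t := by exact_mod_cast ht0
  set o : IrrCharacter G := ⟨_, isIrr_one⟩
  set S := (Finset.univ.erase o).filter fun χ : IrrCharacter G => ∀ g, (χ.1 g).im = 0 with hS
  have h1 : (t : ℚ) ≤ ∑ χ ∈ S, (charDegree χ.1 : ℚ) := by
    have a := card_sqrt (1 : G)
    have b : Nat.card {x : G // x * x = 1} = 1 + t := by
      rw [← ht, Nat.card_eq_fintype_card, Nat.card_eq_fintype_card, Fintype.card_subtype,
        Fintype.card_subtype, add_comm, ← Finset.card_insert_of_notMem (a := 1) (by simp)]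
      congr 1; ext x
      by_cases h : x = 1 <;> simp [h, orderOf_eq_prime_iff, sq]
    rw [b, ← Finset.add_sum_erase _ _ (Finset.mem_univ o), fsi_one, mul_one, Nat.cast_add,
      Nat.cast_one, add_right_inj, ← Finset.sum_filter_of_ne (p := fun χ : IrrCharacter G =>
        ∀ g, (χ.1 g).im = 0) fun χ _ h => real_of_fsi χ.2 (left_ne_zero_of_mul h)] at a
    have c := (congrArg norm a).trans_le ((norm_sum_le _ _).trans (Finset.sum_le_sum
      (g := fun χ => (charDegree χ.1 : ℝ)) fun χ _ => by
        rw [norm_mul, norm_one_eq χ.2.isCharacter]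
        exact mul_le_of_le_one_left (by positivity) (norm_fsi_le χ.2)))
    rw [Complex.norm_natCast] at c
    exact_mod_cast c
  have h2 : ∑ χ ∈ S, (charDegree χ.1 : ℚ) ^ 2 ≤ Nat.card G - 1 := by
    rw [← sum_deg_sq_nat, ← Finset.add_sum_erase _ _ (Finset.mem_univ o),
      (charDegree_eq_one isCharacter_one).2 rfl]
    push_cast
    rw [add_sub_cancel_left]
    exact Finset.sum_le_sum_of_subset_of_nonneg (Finset.filter_subset _ _) fun _ _ _ => by positivity
  have hg : (1 : ℚ) < Nat.card G := by
    exact_mod_cast one_lt_two.trans_le (Nat.le_of_dvd Nat.card_pos heven.two_dvd)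
  constructor
  · by_contra! hc
    have h3 := sum_card_centralizer_mul (G := G) fun _ => 1
    simp only [mul_one, Finset.sum_const, Finset.card_univ, nsmul_one, ← Nat.card_eq_fintype_card,
      ← card_irr_eq_card_conjClasses] at h3
    replace h3 : ∑ g : G, (Nat.card (Subgroup.centralizer ({g} : Set G)) : ℚ) =
      Nat.card G * Nat.card (IrrCharacter G) := by exact_mod_cast h3
    have h4 : ∑ g ∈ Finset.univ.erase (1 : G), (Nat.card (Subgroup.centralizer ({g} : Set G)) : ℚ) *
        ((Nat.card G - 1) / t) ^ 2 < ∑ g ∈ Finset.univ.erase (1 : G), (Nat.card G : ℚ) := by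
      refine Finset.sum_lt_sum_of_nonempty ?_ fun g h => ?_
      · rw [← Finset.card_pos, Finset.card_erase_of_mem (Finset.mem_univ _), Finset.card_univ,
          ← Nat.card_eq_fintype_card, Nat.sub_pos_iff_lt]
        exact_mod_cast hg
      · refine (mul_lt_mul_of_pos_left (hc g (Finset.mem_erase.1 h).1)
          (by exact_mod_cast Nat.card_pos)).trans_eq ?_
        exact_mod_cast Subgroup.card_mul_index _
    rw [← Finset.add_sum_erase _ _ (Finset.mem_univ 1), Subgroup.centralizer_eq_top_iff_subset.2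
      (by simp), Subgroup.card_top] at h3
    rw [← Finset.sum_mul, eq_sub_of_add_eq' h3, Finset.sum_const,
      Finset.card_erase_of_mem (Finset.mem_univ _), Finset.card_univ, ← Nat.card_eq_fintype_card,
      nsmul_eq_mul, Nat.cast_pred Nat.card_pos, div_pow, ← mul_div_assoc,
      div_lt_iff₀ (by positivity)] at h4
    have h5 := (pow_le_pow_left₀ ht1.le h1 2).trans sq_sum_le_card_mul_sum_sq
    have h6 : (S.card : ℚ) ≤ Nat.card (IrrCharacter G) - 1 := by
      have := Finset.card_le_card (Finset.filter_subset (fun χ : IrrCharacter G =>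
        ∀ g, (χ.1 g).im = 0) (Finset.univ.erase o))
      rw [Finset.card_erase_of_mem (Finset.mem_univ _), Finset.card_univ,
        ← Nat.card_eq_fintype_card, ← Nat.cast_le (α := ℚ),
        Nat.cast_pred (Nat.card_pos_iff.2 ⟨⟨o⟩, inferInstance⟩)] at this
      exact this
    have h7 := h5.trans (mul_le_mul h6 h2 (by positivity) (by linarith [Nat.cast_nonneg (α := ℚ) S.card]))
    have h8 : (0 : ℚ) < (Nat.card G - 1) * Nat.card G := by nlinarith
    nlinarith
  · by_contra! hc
    have h3 : ∑ χ ∈ S, (Nat.card G - 1) / t * (charDegree χ.1 : ℚ) <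
        ∑ χ ∈ S, (charDegree χ.1 : ℚ) ^ 2 := by
      refine Finset.sum_lt_sum_of_nonempty (Finset.nonempty_iff_ne_empty.2 fun e => ?_) fun χ h => ?_
      · rw [e, Finset.sum_empty] at h1; exact h1.not_gt ht1
      · simp only [hS, Finset.mem_filter, Finset.mem_erase] at h
        rw [sq]
        exact mul_lt_mul_of_pos_right (hc χ (fun e => h.1.1 (Subtype.ext e)) h.2)
          (by exact_mod_cast charDegree_pos χ.2)
    rw [← Finset.mul_sum] at h3
    have := mul_le_mul_of_nonneg_left h1 (div_nonneg (sub_nonneg.2 hg.le) ht1.le)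
    rw [div_mul_cancel₀ _ ht1.ne'] at this
    linarith

end Cfsg.Agent.S4476
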