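import Cfsg.Statements.S4477
import Cfsg.Agent.H3.Cd4

set_option autoImplicit false
open Cfsg

open Cfsg CfsgH3 CfsgH4 CfsgCd Function Subgroup
open scoped ComplexConjugate

namespace Cfsg.Agent.S4477

/-- Let G be a finite 2-group whose number of involutions is congruent to 1 modulo 4. Then G is cyclic or its commutator subgroup has index 4. -/
theorem result {G : Type*} [Group G] [Finite G] (hG : IsPGroup 2 G) (ht : Nat.card {x : G // orderOf x = 2} % 4 = 1) : IsCyclic G ∨ (commutator G).index = 4 := by
  classical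
  haveI := Fintype.ofFinite G
  haveI : Fact (Nat.Prime 2) := ⟨Nat.prime_two⟩
  haveI := hG.isNilpotent
  refine or_iff_not_imp_left.2 fun hc => ?_
  have hΦ : 4 ∣ (frattini G).index := by
    obtain ⟨k, hk⟩ := IsPGroup.iff_card.1 (hG.to_quotient (frattini G))
    rw [index_eq_card, hk]
    refine pow_dvd_pow 2 (show 2 ≤ k from ?_)
    by_contra h
    apply hc
    have h1 : IsCyclic (G ⧸ frattini G) := by
      refine isCyclic_of_card_dvd_prime (p := 2) ?_
      rw [hk]
      exact (pow_dvd_pow 2 (by omega)).trans (pow_one 2).dvd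
    obtain ⟨g, hg⟩ := isCyclic_iff_exists_zpowers_eq_top.1 h1
    obtain ⟨g, rfl⟩ := QuotientGroup.mk_surjective g
    refine isCyclic_iff_exists_zpowers_eq_top.2 ⟨g, CfsgH1.eq_top_of_sup_le_frattini le_rfl ?_⟩
    have := congrArg (comap (QuotientGroup.mk' (frattini G))) hg
    rwa [comap_top, show zpowers (g : G ⧸ frattini G) = (zpowers g).map (QuotientGroup.mk' _) from
      (MonoidHom.map_zpowers (QuotientGroup.mk' (frattini G)) g).symm, comap_map_eq, QuotientGroup.ker_mk', sup_comm] at this
  choose e he hb using fun χ : IrrCharacter G => exists_int_fsi χ.2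
  have h1 : (Nat.card {x : G // orderOf x = 2} + 1 : ℤ) = ∑ χ : IrrCharacter G, e χ * charDegree χ.1 := by
    have h2 := card_sqrt (1 : G)
    have h3 : Nat.card {x : G // x * x = 1} = Nat.card {x : G // orderOf x = 2} + 1 := by
      rw [Nat.card_eq_fintype_card, Nat.card_eq_fintype_card, Fintype.card_subtype, Fintype.card_subtype,
        ← Finset.card_insert_of_notMem (a := 1) (by simp)]
      congr 1
      ext x
      simp only [Finset.mem_filter, Finset.mem_univ, true_and, Finset.mem_insert]
      refine ⟨fun h => or_iff_not_imp_left.2 fun h' => orderOf_eq_prime (by rwa [pow_two]) h', ?_⟩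
      rintro (rfl | h)
      · exact mul_one 1
      · rw [← pow_two, ← h, pow_orderOf_eq_one]
    rw [h3] at h2
    refine Int.cast_injective (α := ℂ) ?_
    push_cast at h2 ⊢
    rw [h2]
    exact Finset.sum_congr rfl fun χ _ => by rw [he, coe_charDegree χ.2.isCharacter]
  have hq : ∀ a b : G ⧸ frattini G, a * b = b * a := by
    intro a b
    obtain ⟨a, rfl⟩ := QuotientGroup.mk_surjective a
    obtain ⟨b, rfl⟩ := QuotientGroup.mk_surjective b
    rw [← commutatorElement_eq_one_iff_mul_comm]
    exact (QuotientGroup.eq_one_iff _).2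
      (CfsgH1.commutator_le_frattini (commutator_mem_commutator (mem_top a) (mem_top b)))
  have key : ∀ χ : IrrCharacter G, e χ * charDegree χ.1 ≡
      (if ∀ k ∈ frattini G, χ.1 k = χ.1 1 then 1 else 0) +
        2 * (if charDegree χ.1 = 2 ∧ (fun g => conj (χ.1 g)) = χ.1 then 1 else 0) [ZMOD 4] := by
    intro χ
    obtain ⟨k, hk⟩ := deg_pow_of_pgroup hG χ.2
    have hlin : (∀ k ∈ frattini G, χ.1 k = χ.1 1) → charDegree χ.1 = 1 := fun h =>
      (charDegree_eq_one χ.2.isCharacter).2 (lin_of_comm χ.2 fun g hg => h g (CfsgH1.commutator_le_frattini hg))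
    match k with
    | 0 =>
      have h1 := (charDegree_eq_one χ.2.isCharacter).1 hk
      rw [hk, if_neg (show ¬ (2 ^ 0 = 2 ∧ _) by simp)]
      split_ifs with h
      · have : fsi χ.1 = 1 := by
          rw [fsi, Finset.sum_congr rfl fun g _ => (h _ (pow_two g ▸ CfsgH1.pow_mem_frattini hG g)).trans h1,
            Finset.sum_const, Finset.card_univ, ← Nat.card_eq_fintype_card, nsmul_eq_mul, mul_one,
            inv_mul_cancel₀ (natCard_ne_zero G)]
        rw [he] at this
        rw [show e χ = 1 by exact_mod_cast this]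
        rfl
      · have : fsi χ.1 = 0 := by
          by_contra h0
          apply h
          have hr := real_of_fsi χ.2 h0
          haveI := χ.2.isCharacter.charKer_normal
          have : frattini G ≤ charKer χ.1 := CfsgH1.frattini_le_of_elementary_quotient Nat.prime_two
            (fun g hg => χ.2.isCharacter.mem_charKer.2 ((lin_comm χ.2.isCharacter h1 hg).trans h1.symm))
            fun x => χ.2.isCharacter.mem_charKer.2 (by
              rw [pow_two, χ.2.isCharacter.map_mul_of_apply_one h1]
              nth_rewrite 2 [← Complex.conj_eq_iff_im.2 (hr x)]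
              rw [← χ.2.isCharacter.apply_inv, ← χ.2.isCharacter.map_mul_of_apply_one h1, mul_inv_cancel])
          exact fun k hk => χ.2.isCharacter.mem_charKer.1 (this hk)
        rw [he] at this
        rw [show e χ = 0 by exact_mod_cast this]
        rfl
    | 1 =>
      rw [if_neg fun h => by simp [hlin h] at hk, hk]
      by_cases h : (fun g => conj (χ.1 g)) = χ.1
      · rw [if_pos ⟨rfl, h⟩]
        rcases fsi_of_real χ.2 (conj_eq_self_iff.1 h) with h | h <;> rw [he] at h
        · rw [show e χ = 1 by exact_mod_cast h]; rfl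
        · rw [show e χ = -1 by exact_mod_cast h]; rfl
      · rw [if_neg fun h' => h h'.2]
        have := fsi_of_not_real χ.2 (mt conj_eq_self_iff.2 h)
        rw [he] at this
        rw [show e χ = 0 by exact_mod_cast this]
        rfl
    | k + 2 =>
      have h4 : 4 ∣ charDegree χ.1 := ⟨2 ^ k, by rw [hk]; ring⟩
      rw [if_neg fun h => by simp [hlin h] at h4, if_neg fun h => by simp [h.1] at h4]
      exact (Int.modEq_zero_iff_dvd.2 (Dvd.dvd.mul_left (Int.natCast_dvd_natCast.2 h4) _))
  have h2 := Int.ModEq.sum (s := Finset.univ) fun χ _ => key χ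
  rw [← h1, Finset.sum_add_distrib, ← Finset.mul_sum, Finset.sum_boole, Finset.sum_boole,
    Finset.card_eq_sum_ones, sum_irr_quot (frattini G) fun _ => 1, ← Finset.card_eq_sum_ones, Finset.card_univ,
    ← Nat.card_eq_fintype_card, card_irr_of_comm hq, ← index_eq_card] at h2
  let X := {χ : IrrCharacter G // charDegree χ.1 = 2}
  have hodd : ¬ 2 ∣ Nat.card X := by
    let σ : Function.End X := fun χ => ⟨⟨_, χ.1.2.conj⟩, charDegree_eq (by
      show conj (χ.1.1 1) = _
      rw [conj_apply_one χ.1.2.isCharacter, ← coe_charDegree χ.1.2.isCharacter, χ.2])⟩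
    have h3 := Equiv.Perm.card_fixedPoints_modEq (f := σ) (p := 2) (n := 1) (by
      funext a; rw [pow_one, pow_two]; exact Subtype.ext (Subtype.ext (funext fun g => Complex.conj_conj _)))
    have h4 : Fintype.card (fixedPoints σ) = (Finset.univ.filter fun χ : IrrCharacter G =>
        charDegree χ.1 = 2 ∧ (fun g => conj (χ.1 g)) = χ.1).card := by
      rw [← Fintype.card_subtype]
      exact Fintype.card_congr ⟨fun a => ⟨a.1.1, a.1.2, congrArg (fun x : X => x.1.1) a.2⟩,
        fun a => ⟨⟨a.1, a.2.1⟩, Subtype.ext (Subtype.ext a.2.2)⟩, fun _ => rfl, fun _ => rfl⟩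
    rw [h4] at h3
    rw [Nat.card_eq_fintype_card]
    obtain ⟨c, hc⟩ := hΦ
    rw [hc] at h2
    unfold Int.ModEq at h2
    unfold Nat.ModEq at h3
    push_cast at h2
    omega
  letI : MulAction (G →* ℂˣ) X :=
    { smul := fun l χ => ⟨⟨_, isIrr_lin_mul χ.1.2 l⟩, charDegree_eq (by
        show (l 1 : ℂ) * χ.1.1 1 = _
        rw [map_one, Units.val_one, one_mul, ← coe_charDegree χ.1.2.isCharacter, χ.2])⟩
      one_smul := fun χ => Subtype.ext (Subtype.ext (funext fun g => one_mul _))
      mul_smul := fun a b χ => Subtype.ext (Subtype.ext (funext fun g => mul_assoc _ _ _)) }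
  obtain ⟨j, hj⟩ := IsPGroup.iff_card.1 (hG.to_quotient (commutator G))
  obtain ⟨χ, hχ⟩ := (IsPGroup.of_card (G := G →* ℂˣ) (card_unitsHom.trans hj)).nonempty_fixed_point_of_prime_not_dvd_card
    X hodd
  have hv : ∀ g, g ∉ commutator G → χ.1.1 g = 0 := by
    intro g hg
    obtain ⟨l, -, hl⟩ := exists_unitsHom_of_not_mem (N := commutator G)
      (fun a b => commutator_mem_commutator (mem_top a) (mem_top b)) hg
    by_contra h0
    exact hl (Units.ext (mul_right_cancel₀ h0
      ((congrFun (congrArg (fun x : X => x.1.1) (hχ l)) g).trans (one_mul _).symm)))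
  have h5 : (Nat.card G : ℝ) ≤ Nat.card (commutator G) * 4 := by
    rw [← sum_norm_sq_of_irr χ.1.2, ← Finset.sum_filter_add_sum_filter_not Finset.univ (· ∈ commutator G),
      Finset.sum_eq_zero (s := Finset.univ.filter (¬ · ∈ commutator G))
        fun g hg => by rw [hv g (Finset.mem_filter.1 hg).2]; simp, add_zero, Nat.card_eq_fintype_card,
      Fintype.card_subtype, ← nsmul_eq_mul]
    refine Finset.sum_le_card_nsmul _ _ _ fun g _ => ?_
    have := χ.1.2.isCharacter.norm_le g
    rw [norm_one_eq χ.1.2.isCharacter, χ.2] at this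
    have h0 := norm_nonneg (χ.1.1 g)
    push_cast at this
    nlinarith
  have h6 : (commutator G).index ≤ 4 := by
    rw [← (commutator G).card_mul_index] at h5
    exact Nat.le_of_mul_le_mul_left (by exact_mod_cast h5) (Nat.card_pos (α := commutator G))
  exact le_antisymm h6 (Nat.le_of_dvd (CfsgH2.index_pos _) (hΦ.trans (index_dvd_of_le CfsgH1.commutator_le_frattini)))


end Cfsg.Agent.S4477
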