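import Cfsg.Statements.S4478
import Mathlib
import Cfsg.Agent.H4.Rob2
import Cfsg.Agent.H3.Apps
import Cfsg.Agent.H3.More

set_option autoImplicit false
open Cfsg

open Cfsg CfsgH4 CfsgH1 CfsgL0 MonoidAlgebra Function
open CfsgH3 hiding cj cj_cj
open scoped ComplexConjugate Pointwise

namespace Cfsg.Agent.S4478

/-- Let G be a finite group of even order and χ an irreducible character of G whose degree x is divisible by the full power of 2 dividing the order of G and, for every odd prime p such that G has an element of order 2p, by the full power of p dividing the order of G. Then all involutions of G are conjugate, the centralizer of every involution has order exactly x with x coprime to its index, and the Frobenius–Schur indicator of χ equals 1. -/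
theorem result {G : Type*} [Group G] [Fintype G] (heven : Even (Nat.card G)) (χ : Cfsg.IrrCharacter G) (h2 : 2 ^ (Nat.card G).factorization 2 ∣ Cfsg.charDegree (χ : G → ℂ)) (hp : ∀ p : ℕ, p.Prime → p ≠ 2 → (∃ g : G, orderOf g = 2 * p) → p ^ (Nat.card G).factorization p ∣ Cfsg.charDegree (χ : G → ℂ)) : (∀ s t : G, orderOf s = 2 → orderOf t = 2 → IsConj s t) ∧ (∀ s : G, orderOf s = 2 → Nat.card (Subgroup.centralizer ({s} : Set G)) = Cfsg.charDegree (χ : G → ℂ) ∧ (Nat.card (Subgroup.centralizer ({s} : Set G))).Coprime (Subgroup.centralizer ({s} : Set G)).index) ∧ (Nat.card G : ℂ)⁻¹ * ∑ g : G, (χ : G → ℂ) (g * g) = 1 := by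
  classical
  have d0 := charDegree_ne_zero χ.2
  have v : ∀ p : ℕ, p.Prime → p ^ (Nat.card G).factorization p ∣ charDegree χ.1 → ∀ x, p ∣ orderOf x → χ.1 x = 0 :=
    fun p hp h x hx => χ.2.eq_zero_of_defect_zero hp (coe_charDegree χ.2.isCharacter).symm (fun e => by
      have := mul_dvd_mul h e
      rw [Nat.mul_div_cancel' (charDegree_dvd χ.2), ← pow_succ,
        hp.pow_dvd_iff_le_factorization Nat.card_pos.ne'] at this
      omega) hx
  have w : ∀ s : G, orderOf s = 2 → ∀ p : ℕ, p.Prime → p ∣ Nat.card (Subgroup.centralizer {s}) →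
      p ^ (Nat.card G).factorization p ∣ charDegree χ.1 := fun s hs p pp h => by
    rcases eq_or_ne p 2 with rfl | e; · exact h2
    have := Fact.mk pp
    obtain ⟨x, hx⟩ := exists_prime_orderOf_dvd_card' p h
    rw [← Subgroup.orderOf_coe] at hx
    exact hp p pp e ⟨s * x, by
      rw [(show Commute s x from (Subgroup.mem_centralizer_singleton_iff.1 x.2).symm).orderOf_mul_eq_mul_orderOf_of_coprime
        (by rw [hs, hx]; exact (Nat.coprime_primes Nat.prime_two pp).2 e.symm), hs, hx]⟩
  have z : ∀ s : G, orderOf s = 2 → ∀ x ∈ Subgroup.centralizer {s}, x ≠ 1 → χ.1 x = 0 := fun s hs x hx h1 =>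
    have := Nat.minFac_prime (mt orderOf_eq_one_iff.1 h1)
    v _ this (w s hs _ this ((Nat.minFac_dvd _).trans (Subgroup.orderOf_dvd_natCard _ hx))) x (Nat.minFac_dvd _)
  have le : ∀ s : G, orderOf s = 2 → Nat.card (Subgroup.centralizer {s}) ≤ charDegree χ.1 := fun s hs =>
    Nat.le_of_dvd (Nat.pos_of_ne_zero d0) (nat_dvd_of_isIntegral_div Nat.card_pos.ne' (by
      rw [coe_charDegree χ.2.isCharacter]
      exact (cs_irr χ).div_card_mem (y := 1) (Q := Subgroup.centralizer {s}) (fun a _ => by
        simp [Subgroup.mem_centralizer_singleton_iff]) fun u a b => by rw [mul_one, z s hs u a b]))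
  have a : ∑ g : G, χ.1 (g * g) = (Nat.card {s : G // orderOf s = 2} * charDegree χ.1 : ℕ) := by
    have b : ∑ g : G, χ.1 g = 0 := by
      have := χ.2.classInner_of_ne (irrOne G).2 fun e => by
        have := v 2 Nat.prime_two h2
        obtain ⟨t, ht⟩ := exists_prime_orderOf_dvd_card' 2 heven.two_dvd
        simpa [e, irrOne] using this t ht.symm.dvd
      simpa [classInner, irrOne] using this
    rw [← Finset.sum_filter_add_sum_filter_not _ fun g => 2 ∣ orderOf g] at b ⊢
    rw [Finset.sum_eq_zero fun x hx => v 2 Nat.prime_two h2 x (Finset.mem_filter.1 hx).2, zero_add] at b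
    obtain ⟨j, hj⟩ := Nat.not_even_iff_odd.1 (mt even_iff_two_dvd.1 (Nat.not_dvd_ordCompl Nat.prime_two (Nat.card_pos (α := G)).ne'))
    have o : ∀ g : G, ¬ 2 ∣ orderOf g → (g * g) ^ (j + 1) = g := fun g hg => by
      rw [← pow_two, ← pow_mul, show 2 * (j + 1) = 2 * j + 1 + 1 by ring, pow_succ, ← hj,
        orderOf_dvd_iff_pow_eq_one.1 (Nat.dvd_ordCompl_of_dvd_not_dvd (orderOf_dvd_natCard g) hg), one_mul]
    rw [Finset.sum_nbij' (t := Finset.univ.filter fun g => ¬ 2 ∣ orderOf g) (g := χ.1) (s := Finset.univ.filter fun g => ¬ 2 ∣ orderOf g) (fun g => g * g) (fun g => g ^ (j + 1))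
      (fun g hg => Finset.mem_filter.2 ⟨Finset.mem_univ _, fun e => (Finset.mem_filter.1 hg).2 (e.trans (pow_two g ▸ orderOf_pow_dvd 2))⟩)
      (fun g hg => Finset.mem_filter.2 ⟨Finset.mem_univ _, fun e => (Finset.mem_filter.1 hg).2 (e.trans (orderOf_pow_dvd _))⟩)
      (fun g hg => o g (Finset.mem_filter.1 hg).2) (fun g hg => by rw [← (Commute.refl g).mul_pow, o g (Finset.mem_filter.1 hg).2]) (fun _ _ => rfl), b, add_zero,
      Nat.card_eq_fintype_card, Fintype.card_subtype, Nat.cast_mul, coe_charDegree χ.2.isCharacter,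
      ← nsmul_eq_mul, ← Finset.sum_const, Finset.sum_filter, Finset.sum_filter]
    refine Finset.sum_congr rfl fun g _ => ?_
    by_cases e : orderOf g = 2
    · simp [e, inv_mul_self e]
    rw [if_neg e]; split_ifs with f
    · obtain ⟨k, hk⟩ := exists_pow_prime Nat.prime_two f
      refine z _ hk _ (Subgroup.mem_centralizer_singleton_iff.2 ((Commute.refl g).mul_left (Commute.refl g) |>.pow_right k)) fun h => e ?_
      exact Nat.dvd_antisymm (orderOf_dvd_of_pow_eq_one (by rwa [pow_two])) f
    · rfl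
  obtain ⟨t, ht⟩ := exists_prime_orderOf_dvd_card' 2 heven.two_dvd
  obtain ⟨m, n, -, -, c, e, f⟩ := χ.2.exists_fs
  have g : ∀ s : G, orderOf s = 2 → (Subgroup.centralizer {s}).index ≤ Nat.card {s : G // orderOf s = 2} := fun s hs => by
    rw [← card_isConj_eq_index]
    exact Nat.card_le_card_of_injective (fun a => ⟨a.1, (orderOf_isConj a.2).trans hs⟩) fun a b e => Subtype.ext (Subtype.ext_iff.1 e :)
  have h : Nat.card {s : G // orderOf s = 2} * charDegree χ.1 ≤ Nat.card G := by
    rw [a, inv_mul_eq_iff_eq_mul₀ (natCard_ne_zero G)] at c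
    have : m ≤ 1 := by by_cases r : ∀ g, (χ.1 g).im = 0; exacts [by have := e r; omega, by have := f r; omega]
    have c' : ((Nat.card {s : G // orderOf s = 2} * charDegree χ.1 : ℕ) : ℤ) = Nat.card G * (m - n) := by exact_mod_cast c
    rw [← Int.ofNat_le, c']; nlinarith [Int.natCast_nonneg (Nat.card G), Int.natCast_nonneg n]
  have k : ∀ s : G, orderOf s = 2 → (Subgroup.centralizer {s}).index = Nat.card {s : G // orderOf s = 2} ∧
      Nat.card (Subgroup.centralizer {s}) = charDegree χ.1 := fun s hs => by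
    have a := (Subgroup.centralizer {s}).index_mul_card
    have b := g s hs; have c := le s hs
    have : 0 < Nat.card (Subgroup.centralizer {s}) := Nat.card_pos
    have := Nat.pos_of_ne_zero (index_ne_zero' (Subgroup.centralizer {s}))
    constructor <;> nlinarith
  refine ⟨fun s t hs ht => ?_, fun s hs => ⟨(k s hs).2, Nat.Coprime.symm (Nat.coprime_of_dvd fun p pp a b => ?_)⟩, ?_⟩
  · have : Function.Bijective fun a : {x // IsConj s x} => (⟨a.1, (orderOf_isConj a.2).trans hs⟩ : {s : G // orderOf s = 2}) :=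
      (Nat.bijective_iff_injective_and_card _).2 ⟨fun a b e => Subtype.ext (Subtype.ext_iff.1 e :), by rw [card_isConj_eq_index, (k s hs).1]⟩
    obtain ⟨a, ha⟩ := this.2 ⟨t, ht⟩
    exact (show a.1 = t from Subtype.ext_iff.1 ha) ▸ a.2
  · have := mul_dvd_mul a (w s hs p pp b)
    rw [← (k s hs).2, Subgroup.index_mul_card, ← pow_succ', pp.pow_dvd_iff_le_factorization Nat.card_pos.ne'] at this
    omega
  · rw [a, ← (k t ht).1, ← (k t ht).2, Subgroup.index_mul_card, inv_mul_cancel₀ (natCard_ne_zero G)]

end Cfsg.Agent.S4478
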