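import Cfsg.Statements.S4480
import Mathlib
import Cfsg.Agent.H4.K4b

set_option autoImplicit false
open Cfsg

open Cfsg CfsgH3 CfsgH4 CfsgH1 CfsgL0 MonoidAlgebra

namespace Cfsg.Agent.S4480

/-- Same setting as the Klein-four order formula: G of order 4·g₀ (g₀ odd) with no normal 2-complement, P a Sylow 2-subgroup, J an involution of P, M over 2, principal 2-block {1, χ₁, χ₂, χ₃} with χ_i(J) = ε_i = ±1. Suppose ε₁ε₂ε₃ = −1 and ε₃ = −1, and put q = x₃ = χ₃(1). Then there is a natural number m with 4·c(J) = m·c(P)·(q + 1), and the order of G equals (m³·c(P)/4)·(q³ − q)/2, that is 8·#G = m³·c(P)·(q³ − q). -/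
theorem result {G : Type*} [Group G] [Finite G] (M : Ideal Cfsg.AlgInt) (hM : Cfsg.IsPModular 2 M) (g₀ : ℕ) (hg₀ : Odd g₀) (hG : Nat.card G = 4 * g₀) (hnc : ¬ ∃ N : Subgroup G, N.Normal ∧ Nat.card N = g₀) (P : Sylow 2 G) (J : G) (hJ : J ∈ (P : Subgroup G)) (hJ2 : orderOf J = 2) (χ₁ χ₂ χ₃ : Cfsg.IrrCharacter G) (ε₁ ε₂ ε₃ : ℤ) (hB : Cfsg.principalBlock M G = {χ : Cfsg.IrrCharacter G | (χ : G → ℂ) = (fun _ => 1) ∨ χ = χ₁ ∨ χ = χ₂ ∨ χ = χ₃}) (hdist : (χ₁ : G → ℂ) ≠ (fun _ => 1) ∧ (χ₂ : G → ℂ) ≠ (fun _ => 1) ∧ (χ₃ : G → ℂ) ≠ (fun _ => 1) ∧ χ₁ ≠ χ₂ ∧ χ₁ ≠ χ₃ ∧ χ₂ ≠ χ₃) (hε : (ε₁ = 1 ∨ ε₁ = -1) ∧ (ε₂ = 1 ∨ ε₂ = -1) ∧ (ε₃ = 1 ∨ ε₃ = -1)) (hval : (χ₁ : G → ℂ) J = ε₁ ∧ (χ₂ : G → ℂ) J = ε₂ ∧ (χ₃ : G → ℂ) J = ε₃) (hprod : ε₁ * ε₂ * ε₃ = -1) (hε₃ : ε₃ = -1) : ∃ m : ℕ, 4 * Nat.card (Subgroup.centralizer ({J} : Set G)) = m * Nat.card (Subgroup.centralizer ((P : Subgroup G) : Set G)) *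 (Cfsg.charDegree (χ₃ : G → ℂ) + 1) ∧ 8 * Nat.card G = m ^ 3 * Nat.card (Subgroup.centralizer ((P : Subgroup G) : Set G)) * (Cfsg.charDegree (χ₃ : G → ℂ) ^ 3 - Cfsg.charDegree (χ₃ : G → ℂ)) := by
  classical
  haveI : PMod 2 M := ⟨hM⟩
  have := Fintype.ofFinite G
  obtain ⟨h4, ⟨a, h⟩, h2, hsq, hone⟩ := k4_setup hg₀ hG hnc P hJ hJ2
  have hk := k4d_of h4 hsq hone hJ2 hB hdist hval
  have h1 := hk.order_formula h (CfsgH2.syl_top P) h2 h4 hone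
  have h3 := hk.sum_deg
  have h6 := hk.sum_fs hsq h4
  have d0 : charDegree (irrOne G).1 = 1 := charDegree_eq (by simp [irrOne])
  have f0 : fs (irrOne G).1 = 1 := by simp [fs, irrOne, natCard_ne_zero]
  simp only [Fin.sum_univ_four, Matrix.cons_val, d0, f0] at h1 h3 h6
  have g1 := hk.deg 1
  have g2 := hk.deg 2
  have g3 := hk.deg 3
  simp only [Matrix.cons_val] at g1 g2 g3
  subst hε₃
  obtain ⟨rfl, rfl⟩ : ε₁ = 1 ∧ ε₂ = 1 := by
    rcases hε.1 with rfl | rfl <;> rcases hε.2.1 with rfl | rfl <;> omega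
  have hf : ∀ χ : IrrCharacter G, Odd (charDegree χ.1) → fs χ.1 = 1 ∨
      (fs χ.1 = 0 ∧ ¬ ∀ g, (χ.1 g).im = 0) := fun χ hχ => by
    by_cases hr : ∀ g, (χ.1 g).im = 0
    · exact Or.inl (fs_eq_one_of_odd hr hχ)
    · exact Or.inr ⟨((fs_cases χ.2).resolve_left fun h => hr h.1).2, hr⟩
  have e1 : ¬ ∀ g, (χ₁.1 g).im = 0 := by
    rcases hf χ₁ (Nat.odd_iff.2 (by omega)) with e1 | e1
    swap
    · exact e1.2
    rcases hf χ₂ (Nat.odd_iff.2 (by omega)) with e2 | ⟨e2, -⟩ <;>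
      rcases hf χ₃ (Nat.odd_iff.2 (by omega)) with e3 | ⟨e3, -⟩ <;>
      rw [e1, e2, e3] at h6 <;> norm_num at h6
  have e2 : charDegree χ₂.1 = charDegree χ₁.1 := by
    have m1 : (⟨_, χ₁.2.conj⟩ : IrrCharacter G) ∈ principalBlock M G :=
      conj_mem_principal (p := 2) (hk.mem 1)
    rw [hB] at m1
    have v1 : (starRingEnd ℂ) (χ₁.1 J) = 1 := by rw [hval.1]; simp
    rcases m1 with e | e | e | e
    · exact absurd (funext fun g => by simpa using congrArg (starRingEnd ℂ) (congrFun e g)) hdist.1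
    · exact absurd (fun g => Complex.conj_eq_iff_im.1 (congrFun (congrArg Subtype.val e) g)) e1
    · rw [← e]
      exact charDegree_eq (by simp [irr_one_eq])
    · have := hval.2.2
      rw [← e] at this
      have := v1.symm.trans this
      norm_num at this
  have h5 := card_mul_relIndex (Subgroup.centralizer_le (Set.singleton_subset_iff.2 h.ma) :
    Subgroup.centralizer ((P : Subgroup G) : Set G) ≤ _)
  rw [← (Subgroup.centralizer ({J} : Set G)).card_mul_index, ← h5]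
  obtain ⟨t, ht⟩ : ∃ t : ℕ, charDegree χ₁.1 = 2 * t + 1 := ⟨charDegree χ₁.1 / 2, by omega⟩
  have ht3 : charDegree χ₃.1 = 4 * t + 3 := by omega
  rw [e2, ht, ht3] at h1
  rw [ht3]
  generalize (Subgroup.centralizer ((P : Subgroup G) : Set G)).relIndex
    (Subgroup.centralizer ({J} : Set G)) = r at *
  generalize (Subgroup.centralizer ({J} : Set G)).index = n at *
  have h7 : n * (t + 1) ^ 2 = (2 * t + 1) * (4 * t + 3) * r ^ 2 := by
    push_cast at h1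
    field_simp at h1
    have : (n : ℚ) * (t + 1) ^ 2 = (2 * t + 1) * (4 * t + 3) * r ^ 2 := by
      linear_combination h1 / 8
    exact_mod_cast this
  have h8 : (t + 1) ^ 2 ∣ r ^ 2 := by
    refine Nat.Coprime.dvd_of_dvd_mul_left (Nat.Coprime.pow_left 2 (Nat.Coprime.mul_right ?_ ?_))
      ⟨n, by rw [← h7, mul_comm]⟩
    · rw [← Nat.isCoprime_iff_coprime]; exact ⟨2, -1, by push_cast; ring⟩
    · rw [← Nat.isCoprime_iff_coprime]; exact ⟨4, -1, by push_cast; ring⟩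
  obtain ⟨m, rfl⟩ := (Nat.pow_dvd_pow_iff two_ne_zero).1 h8
  refine ⟨m, by ring, ?_⟩
  have h9 : n = (2 * t + 1) * (4 * t + 3) * m ^ 2 :=
    Nat.eq_of_mul_eq_mul_right (by positivity) (h7.trans (by ring))
  have h10 : (4 * t + 3) ^ 3 - (4 * t + 3) = 8 * (t + 1) * (2 * t + 1) * (4 * t + 3) :=
    Nat.sub_eq_of_eq_add (by ring)
  rw [h10, h9]
  ring

end Cfsg.Agent.S4480
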