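import Cfsg.Statements.S4481
import Mathlib
import Cfsg.Agent.H4.Di6
import Cfsg.Agent.H4.Ch1

set_option autoImplicit false
open Cfsg

open Cfsg MonoidAlgebra CfsgL0 CfsgH4 Module
open CfsgH3 hiding cj cj_cj
open scoped ComplexConjugate

namespace Cfsg.Agent.S4481

theorem eps {b g : ℕ} {s ε : ℤ} (hb : 0 < b) (hg : 0 < g) (hs : s = 1 ∨ s = -1)
    (hε : ε = 1 ∨ ε = -1) (h : (1 : ℂ) + s * b + ε * g = 0) : ε = -s := by
  have : 1 + s * b + ε * g = 0 := by exact_mod_cast h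
  rcases hs with rfl | rfl <;> rcases hε with rfl | rfl <;> omega

/-- The principal 2-block of a group with dihedral Sylow 2-subgroups. Let G be a finite group whose Sylow 2-subgroup P is dihedral of order 2^n ≥ 8, let σ be an element of P of order 2^(n−1), ζ a primitive 2^(n−1)-th root of unity, and M a maximal ideal of the algebraic integers containing 2. Then the principal 2-block consists of exactly 3 + 2^(n−2) irreducible characters, which can be labelled 1, χ₁, χ₂, χ₃ and χ^(j) for 1 ≤ j ≤ 2^(n−2) − 1 (all distinct), with signs δ₁, δ₂, δ₃ such that for 0 < λ < 2^(n−1): χ₁(σ^λ) = δ₁, χ₂(σ^λ) = δ₂(−1)^(λ+1), χ₃(σ^λ) = δ₃(−1)^(λ+1) and χ^(j)(σ^λ) = δ₁(ζ^(jλ) + ζ^(−jλ)); and for every element ρ of odd order and every j: 1 + δ₁χ₁(ρ) = −δ₂χ₂(ρ) − δ₃χ₃(ρ) = δ₁χ^(j)(ρ). -/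
theorem result {G : Type*} [Group G] [Finite G] (M : Ideal Cfsg.AlgInt) (hM : Cfsg.IsPModular 2 M) (n : ℕ) (hn : 3 ≤ n) (P : Sylow 2 G) (hP : Nonempty ((P : Subgroup G) ≃* DihedralGroup (2 ^ (n - 1)))) (σ : G) (hσ : σ ∈ (P : Subgroup G)) (hσo : orderOf σ = 2 ^ (n - 1)) (ζ : ℂ) (hζ : IsPrimitiveRoot ζ (2 ^ (n - 1))) : Nat.card (Cfsg.principalBlock M G) = 3 + 2 ^ (n - 2) ∧ ∃ (χ₁ χ₂ χ₃ : Cfsg.IrrCharacter G) (χ' : Fin (2 ^ (n - 2) - 1) → Cfsg.IrrCharacter G) (δ₁ δ₂ δ₃ : ℤ), (δ₁ = 1 ∨ δ₁ = -1) ∧ (δ₂ = 1 ∨ δ₂ = -1) ∧ (δ₃ = 1 ∨ δ₃ = -1) ∧ Function.Injective χ' ∧ (χ₁ : G → ℂ) ≠ (fun _ => 1) ∧ (χ₂ : G → ℂ) ≠ (fun _ => 1) ∧ (χ₃ : G → ℂ) ≠ (fun _ => 1) ∧ χ₁ ≠ χ₂ ∧ χ₁ ≠ χ₃ ∧ χ₂ ≠ χ₃ ∧ (∀ j, χ' j ≠ χ₁ ∧ χ' j ≠ χ₂ ∧ χ' j ≠ χ₃ ∧ (χ' j : G → ℂ) ≠ (fun _ => 1)) ∧ Cfsg.principalBlock M G = {χ : Cfsg.IrrCharacter G | (χ : G → ℂ) = (fun _ => 1) ∨ χ = χ₁ ∨ χ = χ₂ ∨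 χ = χ₃ ∨ ∃ j, χ = χ' j} ∧ (∀ l : ℕ, 0 < l → l < 2 ^ (n - 1) → (χ₁ : G → ℂ) (σ ^ l) = δ₁ ∧ (χ₂ : G → ℂ) (σ ^ l) = δ₂ * (-1) ^ (l + 1) ∧ (χ₃ : G → ℂ) (σ ^ l) = δ₃ * (-1) ^ (l + 1) ∧ ∀ j : Fin (2 ^ (n - 2) - 1), (χ' j : G → ℂ) (σ ^ l) = δ₁ * (ζ ^ (((j : ℕ) + 1) * l) + (ζ ^ (((j : ℕ) + 1) * l))⁻¹)) ∧ ∀ ρ : G, Odd (orderOf ρ) → ∀ j : Fin (2 ^ (n - 2) - 1), 1 + δ₁ * (χ₁ : G → ℂ) ρ = -δ₂ * (χ₂ : G → ℂ) ρ - δ₃ * (χ₃ : G → ℂ) ρ ∧ 1 + δ₁ * (χ₁ : G → ℂ) ρ = δ₁ * (χ' j : G → ℂ) ρ := by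
  classical
  haveI : PMod 2 M := ⟨hM⟩
  have := Fintype.ofFinite G
  obtain ⟨n, rfl⟩ : ∃ k, n = k + 3 := ⟨n - 3, by omega⟩
  have hx := dh_of_equiv (n := n) hP.some hσ hσo
  obtain ⟨f, hf, h1⟩ := hx.exists_diD_principal (M := M) (CfsgH1.isSylowIn_top P)
  have hψ := AddChar.zmodChar_primitive_of_primitive_root (2 ^ (n + 1 + 1)) hζ
  obtain ⟨a, b, c, d, sa, sb, sc, sd, g, ε, h3, h4, h5, h6, h7, h8, h9, -, h10, h11⟩ := hf.table hψ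
  have hN := pow_succ' 2 (n + 1)
  have hm := Nat.one_le_two_pow (n := n)
  have v1 := cast_valid (a := 1) hN (by rw [pow_succ]; omega) one_pos
  have v2 : ((2 : ℕ) : ZMod (2 ^ (n + 1 + 1))) ≠ 0 := by
    simpa using cast_ne_of_lt hN (a := 2) (by rw [pow_succ]; omega) (Nat.zero_le _) two_ne_zero
  have w1 : ((1 : ℕ) : ZMod (2 ^ (n + 1 + 1))).val = 1 := ZMod.val_cast_of_lt (by omega)
  have w2 : ((2 : ℕ) : ZMod (2 ^ (n + 1 + 1))).val = 2 :=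
    ZMod.val_cast_of_lt (by rw [pow_succ, pow_succ]; omega)
  have h12 := h1 _ irrOne_mem_principal
  have h13 : ∀ (χ : IrrCharacter G) (s : ℤ), (∀ i, i ≠ 0 → f χ.1 i = -s * (-1) ^ i.val) →
      irrOne G ≠ χ := fun χ s h e => by
    have e1 := h _ v1.1
    have e2 := h _ v2
    rw [← e, h12 _ v1.1, w1] at e1
    rw [← e, h12 _ v2, w2] at e2
    exact one_ne_zero (α := ℂ) (by
      change (1 : ℂ) = _ at e1 e2; linear_combination (e1 + e2) / 2)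
  have h14 : irrOne G = a ∨ irrOne G = b := by
    have := (h9 _).1 ⟨irrOne_mem_principal, by
      rw [height_principal irrOne_mem_principal]; simp [charDegree, irrOne]⟩
    simpa [h13 c sc fun i hi => (h10 i hi).2.2.1, h13 d sd fun i hi => (h10 i hi).2.2.2.1]
      using this
  wlog h15 : irrOne G = a generalizing a b sa sb
  · refine this b a sb sa ((List.Perm.swap _ _ _).nodup h3) (fun j h => h5 j
      ((List.Perm.swap _ _ _).subset h)) (fun s h => h6 s ((List.Perm.swap _ _ _).subset h))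
      (fun χ => by rw [h8, (List.Perm.swap _ _ _).mem_iff])
      (fun χ => by rw [h9, (List.Perm.swap _ _ _).mem_iff])
      (fun i hi => ⟨(h10 i hi).2.1, (h10 i hi).1, (h10 i hi).2.2⟩)
      (fun ρ hρ => by simpa only [add_comm ((sb : ℂ) * _)] using h11 ρ hρ) h14.symm
      (h14.resolve_left h15)
  subst h15
  obtain rfl : sa = 1 := by
    have := (h10 _ v1.1).1
    rw [h12 _ v1.1] at this
    exact_mod_cast (show (1 : ℂ) = sa from this).symm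
  have h16 : ∀ j, ε j = -sb := fun j => eps (charDegree_pos b.2) (charDegree_pos (g j).2)
    (h6 _ (by simp)) (h7 j) (by
      simpa [coe_charDegree b.2.isCharacter, coe_charDegree (g j).2.isCharacter, irrOne]
        using (h11 1 (by simp)).2 j)
  have h17 : ∀ χ : IrrCharacter G, χ.1 = (fun _ => 1) ↔ χ = irrOne G := fun χ =>
    ⟨fun h => Subtype.ext h, fun h => h ▸ rfl⟩
  have h18 := h3
  simp only [List.nodup_cons, List.mem_cons, not_or, List.not_mem_nil] at h18 h5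
  obtain ⟨⟨ab, ac, ad, -⟩, ⟨bc, bd, -⟩, ⟨cd, -⟩, -⟩ := h18
  refine ⟨?_, b, c, d, g, sb, sc, sd, h6 _ (by simp), h6 _ (by simp), h6 _ (by simp), h4,
    (h17 _).not.2 (Ne.symm ab), (h17 _).not.2 (Ne.symm ac), (h17 _).not.2 (Ne.symm ad), bc, bd, cd,
    fun j => ⟨(h5 j).2.1, (h5 j).2.2.1, (h5 j).2.2.2.1, (h17 _).not.2 (h5 j).1⟩,
    Set.ext fun χ => by
      simp only [h8, h17, or_assoc, List.mem_cons, List.not_mem_nil, or_false, Set.mem_setOf_eq]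
      rfl, fun l h19 h20 => ?_, fun ρ hρ j => ?_⟩
  · rw [card_of_table h3 h4 (fun j => by simpa using h5 j) h8, show n + 3 - 2 = n + 1 from rfl]
    omega
  · have w : (l : ZMod (2 ^ (n + 1 + 1))).val = l := ZMod.val_cast_of_lt h20
    have v : (l : ZMod (2 ^ (n + 1 + 1))) ≠ 0 := fun h => by rw [h, ZMod.val_zero] at w; omega
    obtain ⟨-, e1, e2, e3, e4⟩ := h10 _ v
    rw [h1 _ ((h8 _).2 (by simp)) _ v, w] at e1 e2 e3
    refine ⟨e1, by rw [e2]; ring, by rw [e3]; ring, fun j => ?_⟩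
    have e5 := e4 j
    rw [h1 _ ((h8 _).2 (Or.inr ⟨j, rfl⟩)) _ v, w, h16, AddChar.map_neg_eq_inv, ← Nat.cast_mul,
      AddChar.zmodChar_apply'] at e5
    simpa using e5
  · obtain ⟨e1, e2⟩ := h11 ρ (by rwa [Nat.two_dvd_ne_zero, ← Nat.odd_iff])
    have e3 := e2 j
    rw [h16] at e3
    simp only [irrOne, Int.cast_one, Int.cast_neg] at e1 e3
    exact ⟨by linear_combination e1, by linear_combination e3⟩

end Cfsg.Agent.S4481
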