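import Cfsg.Statements.S4482
import Mathlib
import Cfsg.Agent.H4.Di7
import Cfsg.Agent.S4481
import Cfsg.Agent.L0.Invol

set_option autoImplicit false
open Cfsg

open Cfsg MonoidAlgebra CfsgL0 CfsgH4 Module
open CfsgH3 hiding cj cj_cj
open scoped ComplexConjugate

namespace Cfsg.Agent.S4482

/-- An order formula for groups with dihedral Sylow 2-subgroups and one class of involutions. Let G be a finite group whose Sylow 2-subgroup P = ⟨σ, τ⟩ is dihedral of order 2^n ≥ 8 (σ of order 2^(n−1), τ an involution inverting σ), let J be the central involution σ^(2^(n−2)), and suppose J, τ and στ are conjugate in G. Fix M over 2 and let χ₁ be an irreducible character in the principal 2-block taking one constant value δ₁ = ±1 at every non-identity power of σ, with χ₁ ≠ 1. Then, with x₁ = χ₁(1) and c(·) denoting orders of centralizers, x₁ ≠ δ₁ and #G · (x₁ − δ₁)² = 2·x₁(x₁ + δ₁)·c(J)³·(1/c(J,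 τ) + 1/c(J, στ))², where c(J, y) is the order of the joint centralizer of J and y. -/
theorem result {G : Type*} [Group G] [Finite G] (M : Ideal Cfsg.AlgInt) (hM : Cfsg.IsPModular 2 M) (n : ℕ) (hn : 3 ≤ n) (P : Sylow 2 G) (σ τ : G) (hσ : σ ∈ (P : Subgroup G)) (hτ : τ ∈ (P : Subgroup G)) (hσo : orderOf σ = 2 ^ (n - 1)) (hτo : orderOf τ = 2) (hrel : τ * σ * τ⁻¹ = σ⁻¹) (hgen : Subgroup.closure ({σ, τ} : Set G) = (P : Subgroup G)) (hconj : IsConj (σ ^ (2 ^ (n - 2))) τ ∧ IsConj (σ ^ (2 ^ (n - 2))) (σ * τ)) (χ₁ : Cfsg.IrrCharacter G) (hχ₁ : χ₁ ∈ Cfsg.principalBlock M G) (h1 : (χ₁ : G → ℂ) ≠ (fun _ => 1)) (δ₁ : ℤ) (hδ₁ : δ₁ = 1 ∨ δ₁ = -1) (hval : ∀ l : ℕ, 0 < l → l < 2 ^ (n - 1) → (χ₁ : G → ℂ) (σ ^ l) = δ₁) : (Cfsg.charDegree (χ₁ : G → ℂ) : ℤ) ≠ δ₁ ∧ (Nat.card G : ℚ) * ((Cfsg.charDegree (χ₁ : G → ℂ) : ℚ) - δ₁) ^ 2 = 2 * (Cfsg.charDegree (χ₁ : G → ℂ) : ℚ) * ((Cfsg.charDegree (χ₁ : G →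 ℂ) : ℚ) + δ₁) * (Nat.card (Subgroup.centralizer ({σ ^ (2 ^ (n - 2))} : Set G)) : ℚ) ^ 3 * (1 / (Nat.card (Subgroup.centralizer ({σ ^ (2 ^ (n - 2)), τ} : Set G)) : ℚ) + 1 / (Nat.card (Subgroup.centralizer ({σ ^ (2 ^ (n - 2)), σ * τ} : Set G)) : ℚ)) ^ 2 := by
  classical
  haveI : PMod 2 M := ⟨hM⟩
  have := Fintype.ofFinite G
  obtain ⟨n, rfl⟩ : ∃ k, n = k + 3 := ⟨n - 3, by omega⟩
  change orderOf σ = 2 ^ (n + 1 + 1) at hσo
  have hm := Nat.one_le_two_pow (n := n)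
  have hN : 2 ^ (n + 1 + 1) = 4 * 2 ^ n := by ring
  have hN' : 2 ^ (n + 1) = 2 * 2 ^ n := by ring
  have hτn : τ ∉ Subgroup.zpowers σ := fun ⟨k, e⟩ => by
    have h2 : σ ^ 2 = 1 := by
      rw [sq, ← eq_inv_iff_mul_eq_one, ← hrel, ← e]
      group
    have := Nat.le_of_dvd two_pos (hσo ▸ orderOf_dvd_of_pow_eq_one h2)
    omega
  have hP : Nonempty ((P : Subgroup G) ≃* DihedralGroup (2 ^ (n + 1 + 1))) := by
    rw [← hσo, ← hgen, Set.pair_comm]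
    exact dihedral_iso τ σ (orderOf_two_iff.1 hτo).1 hrel hτn
  have hx := dh_of_equiv (n := n) hP.some hσ hσo
  obtain ⟨ζ, hζ⟩ : ∃ ζ : ℂ, IsPrimitiveRoot ζ (2 ^ (n + 1 + 1)) :=
    ⟨_, Complex.isPrimitiveRoot_exp (2 ^ (n + 1 + 1)) (by omega)⟩
  have hz : ζ ^ 2 ^ (n + 1) = -1 :=
    (hζ.pow (by positivity) (pow_succ 2 (n + 1))).eq_neg_one_of_two_right
  obtain ⟨-, a, b, c, g, sa, sb, sc, h2, h3, h4, -, -, -, -, -, -, -, -, hB, hv, ho⟩ :=
    S4481.result M hM (n + 3) hn P hP σ hσ hσo ζ hζ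
  change ∀ l, 0 < l → l < 2 ^ (n + 1 + 1) → _ at hv hval
  change IsConj (σ ^ 2 ^ (n + 1)) _ ∧ IsConj (σ ^ 2 ^ (n + 1)) _ at hconj
  have hd : (δ₁ : ℂ) ^ 2 = 1 := by rcases hδ₁ with rfl | rfl <;> simp
  have hd0 : (δ₁ : ℂ) ≠ 0 := fun e => by simp [e] at hd
  have v1 := hval 1 one_pos (by omega)
  have v2 := hval 2 two_pos (by omega)
  have v3 := hval (2 ^ (n + 1)) (by omega) (by omega)
  obtain ⟨w1, w2, w3, -⟩ := hv 1 one_pos (by omega)
  obtain ⟨-, w4, w5, -⟩ := hv 2 two_pos (by omega)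
  obtain ⟨-, -, -, w6⟩ := hv (2 ^ (n + 1)) (by omega) (by omega)
  obtain rfl : χ₁ = a := by
    rw [hB] at hχ₁
    rcases hχ₁ with e | e | rfl | rfl | ⟨j, rfl⟩
    · exact absurd e h1
    · exact e
    · exact absurd (by linear_combination (w2 + w4 - v1 - v2) / 2) hd0
    · exact absurd (by linear_combination (w3 + w5 - v1 - v2) / 2) hd0
    · have e := w6 j
      rw [v3, mul_comm _ (2 ^ (n + 1)), pow_mul, hz] at e
      rw [e] at hd
      rcases h2 with rfl | rfl <;> rcases neg_one_pow_eq_or ℂ (j + 1) with e | e <;>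
        norm_num [e] at hd
  obtain rfl : δ₁ = sa := by exact_mod_cast v1.symm.trans w1
  let j : Fin (2 ^ (n + 3 - 2) - 1) := ⟨0, by change 0 < 2 ^ (n + 1) - 1; omega⟩
  have hj : g j ∈ principalBlock M G := by rw [hB]; exact Or.inr (Or.inr (Or.inr (Or.inr ⟨j, rfl⟩)))
  obtain ⟨Θ, hΘ⟩ : ∃ Θ : G → ℂ, ∀ t, Θ t = 1 + δ₁ * χ₁.1 t - δ₁ * (g j).1 t := ⟨_, fun _ => rfl⟩
  have h5 : ∀ t, ¬ 2 ∣ orderOf t → Θ t = 0 := fun t ht => by
    rw [hΘ, (ho t (by rwa [Nat.two_dvd_ne_zero, ← Nat.odd_iff] at ht) j).2, sub_self]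
  have h6 : ∀ l, Θ (σ ^ l) = 2 - ζ ^ l - (ζ ^ l)⁻¹ := fun l => by
    rw [← pow_mod_orderOf, pow_eq_pow_mod l hζ.pow_eq_one, hσo]
    rcases (l % 2 ^ (n + 1 + 1)).eq_zero_or_pos with e | e
    · rw [e, pow_zero, h5 1 (by simp)]; norm_num
    · obtain ⟨e1, -, -, e2⟩ := hv _ e (Nat.mod_lt _ (by omega))
      rw [hΘ, e1, e2 j]
      simp only [j, zero_add, one_mul]
      linear_combination (1 - ζ ^ (l % 2 ^ (n + 1 + 1)) - (ζ ^ (l % 2 ^ (n + 1 + 1)))⁻¹) * hd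
  have hS := CfsgH2.syl_top P
  have key := hx.pair_sum M hS rfl hτ hτn hconj.1 hconj.2 (Θ := Θ) (fun t c => by
    rw [hΘ, hΘ, χ₁.2.isClassFunction, (g j).2.isClassFunction]) (fun t u hu e => by
      obtain ⟨c, rfl⟩ := isConj_iff.1 e
      by_cases e : ppart 2 t = 1
      · rw [h5 t (ppart_eq_one_iff.1 e), e, h5 _ (by simp)]
      rw [← ppart_conj] at hu ⊢
      have e' : ppart 2 (c * t * c⁻¹) ≠ 1 := by rwa [ppart_conj, ne_eq, conj_eq_one_iff]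
      rw [hΘ, hΘ, ← hx.principal_apply (CfsgH1.isSylowIn_top P) hχ₁ hu e',
        ← hx.principal_apply (CfsgH1.isSylowIn_top P) hj hu e', χ₁.2.isClassFunction,
        (g j).2.isClassFunction]) (h5 1 (by simp)) (fun u hu => by
      obtain ⟨l, rfl⟩ := (mem_powers_iff_mem_zpowers).2 hu
      rw [← pow_add, h6, h6, pow_add, hz, mul_neg_one, inv_neg]
      ring)
  have e1 := (irrOne G).2.sum_classInd_pair (σ ^ 2 ^ (n + 1)) (σ ^ 2 ^ (n + 1)) 1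
  have e2 := χ₁.2.sum_classInd_pair (σ ^ 2 ^ (n + 1)) (σ ^ 2 ^ (n + 1)) 1
  have e3 := (g j).2.sum_classInd_pair (σ ^ 2 ^ (n + 1)) (σ ^ 2 ^ (n + 1)) 1
  have e4 : (g j).1 1 = χ₁.1 1 + δ₁ := by
    linear_combination (-δ₁ : ℂ) * (ho 1 (by simp) j).2 + (χ₁.1 1 - (g j).1 1) * hd
  have e5 := (g j).2.apply_one_ne_zero
  have e6 := χ₁.2.apply_one_ne_zero
  have e7 := w6 j
  simp only [j, zero_add, one_mul, hz, inv_neg, inv_one] at e7
  simp only [mul_one, irrOne] at e1 e2 e3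
  simp only [hΘ, mul_sub, mul_add, mul_left_comm _ (δ₁ : ℂ), Finset.sum_sub_distrib,
    Finset.sum_add_distrib, ← Finset.mul_sum, mul_one] at key
  simp only [← Finset.mul_sum] at e1
  rw [e1, e2, e3, v3, e7, e4] at key
  rw [e4] at e5
  have e8 : ∀ t, Subgroup.centralizer ({σ ^ 2 ^ (n + 1), t} : Set G) =
      Subgroup.centralizer {σ ^ 2 ^ (n + 1)} ⊓ Subgroup.centralizer {t} := fun t => by
    ext; simp [Subgroup.mem_centralizer_iff]
  have e9 := congrArg (Nat.cast : ℕ → ℂ)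
    (Subgroup.centralizer ({σ ^ 2 ^ (n + 1)} : Set G)).index_mul_card
  have p1 : ∀ H : Subgroup G, (Nat.card H : ℂ) ≠ 0 := fun H => by exact_mod_cast Nat.card_pos.ne'
  have p2 := p1 (Subgroup.centralizer {σ ^ 2 ^ (n + 1)})
  have p3 : ((Subgroup.centralizer ({σ ^ 2 ^ (n + 1)} : Set G)).index : ℂ) ≠ 0 := by
    exact_mod_cast Subgroup.index_ne_zero_of_finite
  have main : (Nat.card G : ℚ) * ((charDegree χ₁.1 : ℚ) - δ₁) ^ 2 = 2 * (charDegree χ₁.1 : ℚ) *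
      ((charDegree χ₁.1 : ℚ) + δ₁) *
      (Nat.card (Subgroup.centralizer ({σ ^ 2 ^ (n + 1)} : Set G)) : ℚ) ^ 3 *
      (1 / (Nat.card (Subgroup.centralizer ({σ ^ 2 ^ (n + 1), τ} : Set G)) : ℚ) +
        1 / (Nat.card (Subgroup.centralizer ({σ ^ 2 ^ (n + 1), σ * τ} : Set G)) : ℚ)) ^ 2 := by
    apply Rat.cast_injective (α := ℂ)
    push_cast at e9 ⊢
    rw [coe_charDegree χ₁.2.isCharacter, e8, e8, ← e9]
    rw [← e9] at key
    generalize (Nat.card (Subgroup.centralizer ({σ ^ 2 ^ (n + 1)} : Set G)) : ℂ) = C at *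
    generalize ((Subgroup.centralizer ({σ ^ 2 ^ (n + 1)} : Set G)).index : ℂ) = I at *
    generalize χ₁.1 1 = X at *
    simp only [div_eq_mul_inv C, ← mul_add C, one_div] at key ⊢
    generalize ((_ : ℂ)⁻¹ + _) = T at *
    refine mul_left_cancel₀ p3 ?_
    rcases hδ₁ with rfl | rfl <;> push_cast at * <;> field_simp at key <;>
      linear_combination (exp := 1) I * C * key
  refine ⟨fun e => ?_, main⟩
  have q1 : ∀ H : Subgroup G, (0 : ℚ) < Nat.card H := fun H => by exact_mod_cast Nat.card_pos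
  have q2 : (charDegree χ₁.1 : ℚ) = δ₁ := by exact_mod_cast e
  have q3 : (0 : ℚ) < charDegree χ₁.1 := by exact_mod_cast charDegree_pos χ₁.2
  rw [← q2, sub_self, sq, mul_zero, mul_zero] at main
  refine (ne_of_lt (mul_pos (mul_pos (by positivity) (pow_pos (q1 _) _)) (pow_pos (add_pos
    (one_div_pos.2 (q1 _)) (one_div_pos.2 (q1 _))) _))) main

end Cfsg.Agent.S4482
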