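import Cfsg.Statements.S4483
import Mathlib
import Cfsg.Agent.H4.Real

set_option autoImplicit false
open Cfsg

open Cfsg CfsgH3 CfsgH4 CfsgH1 CfsgL0 MonoidAlgebra

namespace Cfsg.Agent.S4483

/-- Let G be a finite group of order 2^n·g₀ with g₀ odd, and M a maximal ideal of the algebraic integers containing 2. Every real-valued irreducible character of G of odd degree lies in the principal 2-block; consequently G has at most 2^(2n) real-valued irreducible characters of odd degree. -/
theorem result {G : Type*} [Group G] [Finite G] (M : Ideal Cfsg.AlgInt) (hM : Cfsg.IsPModular 2 M) : (∀ χ : Cfsg.IrrCharacter G, (∀ g : G, ((χ : G → ℂ) g).im = 0) → Odd (Cfsg.charDegree (χ : G → ℂ)) → χ ∈ Cfsg.principalBlock M G) ∧ Nat.card {χ : Cfsg.IrrCharacter G // (∀ g : G, ((χ : G → ℂ) g).im = 0) ∧ Odd (Cfsg.charDegree (χ : G → ℂ))} ≤ 2 ^ (2 * (Nat.card G).factorization 2) := by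
  haveI : PMod 2 M := ⟨hM⟩
  have := Fintype.ofFinite G
  haveI : Fact (Nat.Prime 2) := ⟨Nat.prime_two⟩
  have h : ∀ χ : IrrCharacter G, (∀ g : G, ((χ : G → ℂ) g).im = 0) → Odd (charDegree (χ : G → ℂ)) →
      χ ∈ principalBlock M G := fun χ h1 h2 => mem_principal_of_real (fun g _ => by
    rw [χ.2.isCharacter.apply_inv, Complex.conj_eq_iff_im.2 (h1 g)]) h2
  refine ⟨h, ?_⟩
  have h1 := (isPBlock_principal (M := M) (G := G)).four_mul_card_le (p := 2)
  have h2 : 2 ^ (2 * blockDefect 2 (principalBlock M G)) ≤ 2 ^ (2 * (Nat.card G).factorization 2) :=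
    Nat.pow_le_pow_right two_pos (Nat.mul_le_mul_left 2 (Nat.sub_le _ _))
  have h3 : Nat.card {χ : IrrCharacter G // (∀ g : G, ((χ : G → ℂ) g).im = 0) ∧
      Odd (charDegree (χ : G → ℂ))} ≤ Nat.card (principalBlock M G) :=
    Nat.card_le_card_of_injective (fun χ => ⟨χ.1, h χ.1 χ.2.1 χ.2.2⟩) fun a b hab =>
      Subtype.ext (Subtype.mk.inj hab)
  have h4 : 0 < 2 ^ (2 * (Nat.card G).factorization 2) := by positivity
  rcases (by omega : (Nat.card G).factorization 2 = 0 ∨ 1 ≤ (Nat.card G).factorization 2) with h5 | h5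
  · rw [h5] at h2 ⊢
    omega
  · have : 2 ^ (2 * 1) ≤ 2 ^ (2 * (Nat.card G).factorization 2) :=
      Nat.pow_le_pow_right two_pos (by omega)
    omega

end Cfsg.Agent.S4483
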