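import Cfsg.Statements.S4484
import Mathlib
import Cfsg.Agent.H4.Bli
import Cfsg.Agent.H4.Dim
import Cfsg.Agent.H1.KW

set_option autoImplicit false
open Cfsg

open CfsgH3 CfsgH4 CfsgH4.Jor Module
open scoped ComplexConjugate InnerProductSpace

namespace Cfsg.Agent.S4484

/-- A refinement of Burnside's result on simple groups of order divisible by only two primes. Let G be a finite simple group of order p^a · q^b · g₀ with p, q distinct primes, a > 0, g₀ coprime to p and q, and the order of G different from p. Then g₀ − 1 > log p / log 6, that is 6^(g₀ − 1) > p. -/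
theorem result {G : Type*} [Group G] [Finite G] [IsSimpleGroup G] (p q a b g₀ : ℕ) (hp : p.Prime) (hq : q.Prime) (hpq : p ≠ q) (ha : 0 < a) (hg : Nat.card G = p ^ a * q ^ b * g₀) (hcop : ¬ p ∣ g₀) (hcoq : ¬ q ∣ g₀) (hne : Nat.card G ≠ p) : p < 6 ^ (g₀ - 1) := by
  classical
  haveI := Fact.mk hp
  haveI := Fintype.ofFinite G
  have pG : p ∣ Nat.card G := hg ▸ ((dvd_pow_self p ha.ne').mul_right _).mul_right _
  have hG : ¬ ∀ a b : G, a * b = b * a := fun h => by
    letI : CommGroup G := { ‹Group G› with mul_comm := h }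
    exact hne ((Nat.prime_dvd_prime_iff_eq hp IsSimpleGroup.prime_card).1 pG).symm
  obtain ⟨P⟩ := (inferInstance : Nonempty (Sylow p G))
  obtain ⟨x, hx, ho⟩ := CfsgH1.exists_center_prime (A := P.1) P.2.isNilpotent hp
    (P.dvd_card_of_dvd_card pG)
  have hc : (Subgroup.centralizer {x}).index ∣ q ^ b * g₀ :=
    (Subgroup.index_dvd_of_le (show P.1 ≤ _ from fun g h =>
      Subgroup.mem_centralizer_singleton_iff.2 (hx.2 g h))).trans
      ((((hp.coprime_iff_not_dvd.2 P.not_dvd_index).symm).pow_right a).dvd_of_dvd_mul_left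
        (by rw [← mul_assoc, ← hg]; exact P.1.index_dvd_card))
  obtain ⟨M, hM⟩ := exists_pmod p
  obtain ⟨χ, h1, h2, -, h3⟩ := exists_principal_not_dvd (M := M) hq (g := x) (ho ▸ dvd_rfl)
  obtain ⟨m, W, σ, e, h⟩ := exists_uni χ.2.isCharacter
  obtain ⟨β, s, s1, s2, s3, s4⟩ := exists_eigenbasis_rep σ x
  have d : charDegree χ.1 = finrank ℂ W := by simp [← e, charDegree, Representation.char_one]
  have d0 : 0 < finrank ℂ W := d ▸ Nat.pos_of_ne_zero fun e => h3 (e ▸ dvd_zero q)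
  have s0 : ∀ i, s i ≠ 0 := fun i => norm_ne_zero_iff.1 ((s2 i).trans_ne one_ne_zero)
  let T := Finset.univ.image s
  have hT : T.card ≤ g₀ := by
    refine Nat.le_of_mul_le_mul_right ?_ d0
    rw [← smul_eq_mul, ← Finset.sum_const]
    conv_rhs => rw [← Fintype.card_fin (finrank ℂ W), ← Finset.card_univ,
      Finset.card_eq_sum_card_image s, Finset.mul_sum]
    refine Finset.sum_le_sum fun ζ hζ => ?_
    obtain ⟨i, -, rfl⟩ := Finset.mem_image.1 hζ
    refine Nat.le_of_dvd (Nat.mul_pos (Nat.pos_of_ne_zero fun e => hcop (e ▸ dvd_zero p))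
      (Finset.card_pos.2 ⟨i, by simp⟩)) (d.symm.dvd.trans (mult_dvd (fun h => hpq
        ((Nat.prime_dvd_prime_iff_eq hp hq).1 h)) h1 (hq.coprime_iff_not_dvd.2 h3) hc
        (ζ := (s i)⁻¹) (by rw [inv_pow, ← ho, s1, inv_one]) ?_))
    simp only [← e, ← zpow_natCast x, s4]
    simp only [zpow_natCast, Finset.sum_mul, ← mul_pow]
    rw [Finset.sum_comm, Finset.card_filter, Nat.cast_sum, Finset.mul_sum]
    refine Finset.sum_congr rfl fun j _ => ?_
    split_ifs with c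
    · simp [c, s0]
    · have := geom_sum_eq (x := s j * (s i)⁻¹) (fun e => c ((mul_inv_eq_one₀ (s0 i)).1 e)) p
      rw [this, mul_pow, inv_pow, ← ho, s1, s1]; simp
  by_contra! hl
  let i₀ : Fin (finrank ℂ W) := ⟨0, d0⟩
  have n1 : ∀ ζ ∈ T, ‖ζ‖ = 1 := fun ζ hζ => by
    obtain ⟨i, -, rfl⟩ := Finset.mem_image.1 hζ; exact s2 i
  obtain ⟨k, k', h4, h5⟩ := Fintype.exists_ne_map_eq_of_card_lt
    (fun (k : Fin p) (ζ : T.erase (s i₀)) => (⟨_, box6_lt ((ζ / s i₀) ^ (k : ℕ))⟩ : Fin 6)) (by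
      rw [Fintype.card_fun, Fintype.card_fin, Fintype.card_fin, Fintype.card_coe,
        Finset.card_erase_of_mem (Finset.mem_image_of_mem _ (Finset.mem_univ _))]
      refine ((Nat.pow_le_pow_right (by norm_num) (Nat.sub_le_sub_right hT 1)).trans hl).lt_of_ne
        fun e => ?_
      exact absurd (e ▸ hp : (6 ^ _).Prime).eq_one_of_pow fun c => by
        rw [c] at e; exact absurd (e ▸ hp) (by norm_num))
  obtain ⟨r, r0, r1, r2⟩ := exists_bound (fun ζ : T => ‖ζ.1 ^ (k - k' : ℤ) - s i₀ ^ (k - k' : ℤ)‖)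
    one_pos fun ⟨ζ, hζ⟩ => by
      by_cases c : ζ = s i₀
      · simp [c]
      have c1 : ∀ n : ℕ, ‖(ζ / s i₀) ^ n‖ = 1 := fun n => by simp [n1 ζ hζ, s2]
      convert box6 (c1 k) (c1 k') (congrArg Fin.val (congrFun h5
        ⟨ζ, Finset.mem_erase.2 ⟨c, hζ⟩⟩)) using 1
      have c2 : ζ ≠ 0 := norm_ne_zero_iff.1 ((n1 ζ hζ).trans_ne one_ne_zero)
      have := s0 i₀
      rw [show ζ ^ (k - k' : ℤ) - s i₀ ^ (k - k' : ℤ) = s i₀ ^ (k : ℕ) / ζ ^ (k' : ℕ) *
        ((ζ / s i₀) ^ (k : ℕ) - (ζ / s i₀) ^ (k' : ℕ)) by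
          rw [zpow_sub₀ c2, zpow_sub₀ this, div_pow, div_pow]; simp only [zpow_natCast]; field_simp]
      simp [n1 ζ hζ, s2]
  have y1 : x ^ (k - k' : ℤ) ≠ 1 := fun e => h4 (Fin.ext (by
    rw [zpow_sub, mul_inv_eq_one, zpow_natCast, zpow_natCast] at e
    exact pow_injOn_Iio_orderOf (ho ▸ k.2) (ho ▸ k'.2) e))
  have := rob (W := W) h (isIrreducible_of_isIrr σ (e ▸ χ.2)) y1 r1 (fun w => ?_)
    (by rw [norm_zpow, s2, one_zpow]) (β.ne_zero i₀) (s3 _ i₀)
  · refine y1 (Subgroup.mem_bot.1 ((χ.2.charCenter_eq_bot h2 hG).le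
      (χ.2.isCharacter.mem_charCenter.2 ?_)))
    rw [← e, Representation.character, show σ _ = s i₀ ^ (k - k' : ℤ) • 1 from LinearMap.ext this,
      map_smul, norm_smul, norm_zpow, s2, one_zpow, one_mul, ← map_one σ]; rfl
  let u : ℂ → W := fun ζ => ∑ i with s i = ζ, β.repr w i • β i
  have u1 : ∑ ζ ∈ T, u ζ = w := (Finset.sum_fiberwise_of_maps_to
    (fun i hi => Finset.mem_image_of_mem s hi) _).trans (β.sum_repr w)
  have u2 : ∀ (n : ℤ) ζ, σ (x ^ n) (u ζ) = ζ ^ n • u ζ := fun n ζ => by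
    rw [map_sum, Finset.smul_sum]
    exact Finset.sum_congr rfl fun i hi => by
      rw [map_smul, s3, (Finset.mem_filter.1 hi).2, smul_comm]
  convert norm_sum_le T u (fun ζ _ ξ _ c => h.orth (u2 1 ζ) (u2 1 ξ) (by simpa using c))
    (fun ζ => ζ ^ (k - k' : ℤ) - s i₀ ^ (k - k' : ℤ)) r0 fun ζ hζ => r2 ⟨ζ, hζ⟩
  · conv_lhs => rw [← u1]
    simp only [map_sum, u2, Finset.smul_sum, ← Finset.sum_sub_distrib, sub_smul]
  · exact u1.symm

end Cfsg.Agent.S4484
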