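import Cfsg.Statements.S4488
import Cfsg.Agent.H4.Br1
import Cfsg.Agent.H4.Dim
import Cfsg.Agent.H3.Galois

set_option autoImplicit false
open Cfsg

open Cfsg CfsgH3 CfsgH4 Function Subgroup

namespace Cfsg.Agent.S4488
theorem step {G : Type*} [Group G] [Finite G] {p : ℕ} [hp : Fact p.Prime] {χ : G → ℂ} (hχ : IsCharacter G χ) {n : ℕ}
    (hn : χ 1 = n) {g : G} {k : ℕ} (hg : orderOf g = p ^ (k + 1)) (h : ∀ j, j.Coprime (orderOf g) → χ (g ^ j) = χ g) :
    ∃ y : ℕ, y ≤ n / (p - 1) ∧ χ g + p * y = n := by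
  classical
  obtain ⟨M, _⟩ := exists_pmod p
  obtain ⟨c, hc⟩ := exists_int_of_fixed (hχ.isGen.isIntegral g) fun σ => by
    obtain ⟨j, hj, e⟩ := exists_pow_of_ringHom σ.toRingHom (orderOf_pos g).ne'
    exact (hχ.map_apply_eq_pow σ.toRingHom e dvd_rfl).trans (h j hj)
  have a := char_pmul_InP (M := M) hχ (Commute.one_right g) ⟨_, hg⟩
  rw [mul_one, hc, hn, ← Int.cast_natCast, ← Int.cast_sub, InP_intCast_iff, ← Int.dvd_neg, neg_sub] at a
  obtain ⟨y, hy⟩ := a
  have le : ∀ x, (χ x).re ≤ n := fun x => (Complex.re_le_norm _).trans ((hχ.norm_le x).trans (by simp [hn]))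
  have b : (c : ℝ) ≤ n := by simpa [hc] using le g
  have hp0 : (0 : ℤ) < p := by exact_mod_cast hp.1.pos
  obtain ⟨y, rfl⟩ := Int.eq_ofNat_of_zero_le (show 0 ≤ y from nonneg_of_mul_nonneg_right (a := (p : ℤ)) (by
    rw [← hy]; exact_mod_cast sub_nonneg.2 b) hp0)
  refine ⟨y, (Nat.le_div_iff_mul_le (Nat.sub_pos_of_lt hp.1.one_lt)).2 ?_, by
    rw [hc]; exact_mod_cast (by linarith : c + p * y = n)⟩
  obtain ⟨m, s, -, h1, -, h2⟩ := hχ.exists_eigenvalues g
  have d : 0 ≤ ∑ j ∈ Finset.range (orderOf g), (χ (g ^ j)).re := by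
    simp only [← zpow_natCast g, h2]
    simp only [zpow_natCast]
    rw [← Complex.re_sum, Finset.sum_comm, Complex.re_sum]
    refine Finset.sum_nonneg fun i _ => ?_
    have := sum_pow_div (h1 i) (one_pow _) (orderOf_pos g).ne'
    simp only [one_pow, div_one] at this
    rw [this]
    split_ifs <;> simp
  have e : ∑ j ∈ (Finset.range (orderOf g)).filter (orderOf g).Coprime, ((n : ℝ) - (χ (g ^ j)).re) ≤
      ∑ j ∈ Finset.range (orderOf g), ((n : ℝ) - (χ (g ^ j)).re) :=
    Finset.sum_le_sum_of_subset_of_nonneg (Finset.filter_subset _ _) fun j _ _ => sub_nonneg.2 (le _)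
  rw [Finset.sum_congr rfl (g := fun _ => (p * y : ℝ)) fun j hj => by
    rw [h j (Finset.mem_filter.1 hj).2.symm, hc, Complex.intCast_re]; exact_mod_cast hy, Finset.sum_const,
    ← Nat.totient_eq_card_coprime, Finset.sum_sub_distrib, Finset.sum_const, Finset.card_range] at e
  have f : (orderOf g).totient * (p * y) ≤ orderOf g * n := by
    rw [nsmul_eq_mul, nsmul_eq_mul] at e
    exact_mod_cast e.trans (sub_le_self _ d)
  rw [hg, Nat.totient_prime_pow_succ hp.1, pow_succ] at f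
  exact Nat.le_of_mul_le_mul_left (by linarith) (Nat.mul_pos (pow_pos hp.1.pos k) hp.1.pos)

/-- Let the finite group G have a faithful p-rational character χ of degree n (all values of χ lie in the field generated over ℚ by a root of unity of order prime to p), and let p^a be the order of a Sylow p-subgroup of G. Then a ≤ Σ_{i ≥ 0} ⌊n / ((p − 1)·p^i)⌋ (a finite sum; the terms vanish once (p − 1)p^i > n). -/
theorem result {G : Type*} [Group G] [Finite G] (p : ℕ) (hp : p.Prime) (χ : G → ℂ) (hχ : Cfsg.IsCharacter G χ) (hfaith : ∀ g : G, χ g = χ 1 → g = 1) (hrat : (∃ r : ℕ, 0 < r ∧ ¬ p ∣ r ∧ ∀ g : G, χ g ∈ IntermediateField.adjoin ℚ ({Complex.exp (2 * Real.pi * Complex.I / r)} : Set ℂ))) (n : ℕ) (hn : Cfsg.charDegree χ = n) : (Nat.card G).factorization p ≤ ∑ i ∈ Finset.range (n + 1), n / ((p - 1) * p ^ i) := by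
  classical
  haveI := Fact.mk hp
  obtain ⟨P⟩ : Nonempty (Sylow p G) := inferInstance
  haveI := Fintype.ofFinite P
  have h1 : χ 1 = n := by rw [← coe_charDegree hχ, hn]
  obtain ⟨r, hr, hpr, h⟩ := hrat
  have key : ∀ g : P, g ≠ 1 → ∃ y ∈ Finset.Icc 1 (n / (p - 1)), χ g + p * y - n = 0 := fun g hg => by
    obtain ⟨k, hk⟩ := IsPGroup.iff_orderOf.1 P.isPGroup' g
    obtain ⟨k, rfl⟩ := Nat.exists_eq_succ_of_ne_zero (n := k) fun e => hg (orderOf_eq_one_iff.1 (by rw [hk, e, pow_zero]))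
    rw [← orderOf_coe] at hk
    obtain ⟨y, hy, e⟩ := step hχ h1 hk fun j hj => by
      have c : (orderOf g.1).Coprime r := hk ▸ ((hp.coprime_iff_not_dvd).2 hpr).pow_left _
      obtain ⟨l, a, b⟩ := Nat.chineseRemainder c j 1
      obtain ⟨σ, hσ⟩ := exists_ringEquiv_pow (m := orderOf g.1 * r) (k := l) (mul_pos (orderOf_pos _) hr).ne'
        (Nat.Coprime.mul_right (by rw [Nat.Coprime, a.gcd_eq]; exact hj) (by rw [Nat.Coprime, b.gcd_eq]; simp))
      rw [← pow_eq_pow_iff_modEq.2 a, ← hχ.map_apply_eq_pow σ.toRingHom hσ (dvd_mul_right _ _)]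
      have z := (Complex.isPrimitiveRoot_exp r hr.ne').pow_eq_one
      refine IntermediateField.adjoin_induction ℚ (p := fun x _ => σ x = x) (fun x hx => ?_) (fun q => by simp)
        (fun x y _ _ a b => by rw [map_add, a, b]) (fun x _ a => by rw [map_inv₀, a])
        (fun x y _ _ a b => by rw [map_mul, a, b]) (h g)
      rw [Set.mem_singleton_iff.1 hx, hσ _ (by rw [mul_comm (orderOf _), pow_mul, z, one_pow]), pow_eq_pow_mod l z, b,
        ← pow_eq_pow_mod 1 z, pow_one]
    refine ⟨y, Finset.mem_Icc.2 ⟨Nat.pos_of_ne_zero fun h0 => hg (Subtype.ext (hfaith _ ?_)), hy⟩, sub_eq_zero.2 e⟩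
    simpa [h0, h1] using e
  have gen : IsGeneralizedCharacter P (∏ y ∈ Finset.Icc 1 (n / (p - 1)), fun g : P => χ g + p * y - n) :=
    Finset.prod_induction _ _ (fun _ _ a b => a.mul b) isGen_one fun y _ => by
      convert ((hχ.isGen.restrict P).add (isGen_one.nsmul (p * y))).sub (isGen_one.nsmul n) using 1
      funext g
      simp
  obtain ⟨c, hc⟩ := gen.exists_int_classInner isGen_one
  rw [classInner_one_right, Finset.sum_eq_single 1 (fun g _ hg => by
    obtain ⟨y, hy, e⟩ := key g hg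
    exact (Finset.prod_apply _ _ _).trans (Finset.prod_eq_zero hy e)) (by simp),
    inv_mul_eq_iff_eq_mul₀ (natCard_ne_zero P), Finset.prod_apply] at hc
  simp only [OneMemClass.coe_one, h1, add_sub_cancel_left, Finset.prod_mul_distrib, Finset.prod_const, Nat.card_Icc,
    add_tsub_cancel_right] at hc
  rw [← Nat.cast_prod, ← Finset.Ico_add_one_right_eq_Icc, Finset.prod_Ico_id_eq_factorial] at hc
  have d : Nat.card P ∣ p ^ (n / (p - 1)) * (n / (p - 1)).factorial := Int.natCast_dvd_natCast.1 ⟨c, by exact_mod_cast hc⟩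
  rw [P.card_eq_multiplicity, hp.pow_dvd_iff_le_factorization (mul_pos (pow_pos hp.pos _) (Nat.factorial_pos _)).ne',
    Nat.factorization_mul (pow_pos hp.pos _).ne' (Nat.factorial_pos _).ne', Finsupp.add_apply, hp.factorization_pow,
    Finsupp.single_eq_same, Nat.factorization_factorial hp (b := n + 1)
      (Nat.lt_succ_of_le ((Nat.log_le_self _ _).trans (Nat.div_le_self _ _)))] at d
  simp only [← Nat.div_div_eq_div_mul]
  rwa [Finset.range_eq_Ico, Finset.sum_eq_sum_Ico_succ_bot (Nat.succ_pos n), pow_zero, Nat.div_one]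


end Cfsg.Agent.S4488
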