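import Cfsg.Statements.S4489
import Cfsg.Agent.H3.Rq
import Cfsg.Agent.H3.Monomial
import Cfsg.Agent.H3.Galois
import Cfsg.Agent.H1.Frattini

set_option autoImplicit false
open Cfsg

open CfsgH3 CfsgH4 CfsgRg Function
universe u

namespace Cfsg.Agent.S4489
def Or {G : Type*} (χ : G → ℂ) : Set (G → ℂ) := {φ | ∃ σ : ℂ ≃+* ℂ, φ = fun g => σ (χ g)}

theorem or_fin {G : Type*} [Group G] [Finite G] {χ : G → ℂ} (h : IsIrrCharacter G χ) :
    (Or χ).Finite := (Set.finite_range fun φ : IrrCharacter G => φ.1).subset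
  (by rintro _ ⟨σ, rfl⟩; exact ⟨⟨_, h.map σ.toRingHom⟩, rfl⟩)

theorem aux {r : ℕ} [hp : Fact (r + 1).Prime] (n : ℕ) : ∀ (G : Type u) [Group G] [Finite G],
    Nat.card G = n → IsPGroup (r + 1) G → ∀ χ, IsIrrCharacter G χ → ∀ a t : ℕ,
      (charKer χ).index = (r + 1) ^ a → (Or χ).ncard ≤ r * (r + 1) ^ t →
        r * a + 1 ≤ charDegree χ + r * (t + 1) * charDegree χ := by
  classical
  induction n using Nat.strong_induction_on with | _ n ih => ?_
  intro G _ _ hn hG χ hχ a t ha ht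
  have r0 : 1 ≤ r := Nat.le_of_succ_le_succ hp.out.two_le
  by_cases h1 : χ 1 = 1
  · rw [(charDegree_eq_one hχ.isCharacter).2 h1, mul_one, add_comm]
    refine Nat.add_le_add_left (Nat.mul_le_mul_left _ ?_) _
    rcases a with _ | a
    · exact Nat.zero_le _
    obtain ⟨l, rfl⟩ := hχ.isCharacter.exists_monoidHom h1
    rw [show charKer (fun g => (l g : ℂ)) = l.ker from Subgroup.ext fun g => by
      simp [hχ.isCharacter.mem_charKer], Subgroup.index_ker] at ha
    haveI : Finite l.range := Set.finite_range l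
    obtain ⟨⟨_, g, rfl⟩, hg⟩ := IsCyclic.exists_generator (α := l.range)
    have a1 : orderOf (l g) = (r + 1) ^ (a + 1) := by
      rw [← ha, ← orderOf_eq_card_of_forall_mem_zpowers hg]
      exact (Subgroup.orderOf_mk _ _).symm
    obtain ⟨m, hm⟩ := IsPGroup.iff_card.1 hG
    have a2 := (Set.ncard_le_ncard_of_injOn (s := ↑((Finset.range ((r + 1) ^ (a + 1))).filter
      ((r + 1) ^ (a + 1)).Coprime)) (fun k x => (l (x ^ k) : ℂ)) (fun k hk => by
        obtain ⟨σ, hσ⟩ := exists_ringEquiv_pow_char G (k := k) (hm ▸ Nat.Coprime.pow_right _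
          ((Nat.coprime_pow_left_iff a.succ_pos _ _).1 (Finset.mem_filter.1 hk).2).symm)
        exact ⟨σ, funext fun x => (hσ _ hχ.isGen x).symm⟩) (fun k hk k' hk' e => by
        have := Units.val_injective (congrFun e g)
        rw [map_pow, map_pow] at this
        exact pow_injOn_Iio_orderOf (a1 ▸ Finset.mem_range.1 (Finset.mem_filter.1 hk).1)
          (a1 ▸ Finset.mem_range.1 (Finset.mem_filter.1 hk').1) this) (or_fin hχ)).trans ht
    rw [Set.ncard_coe_finset, ← Nat.totient_eq_card_coprime, Nat.totient_prime_pow_succ hp.out,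
      Nat.add_sub_cancel, mul_comm] at a2
    exact Nat.succ_le_succ ((Nat.pow_le_pow_iff_right hp.out.one_lt).1
      (Nat.le_of_mul_le_mul_left a2 r0))
  haveI := Fintype.ofFinite G
  haveI := hG.isNilpotent
  obtain ⟨U, l, e⟩ := hχ.isMonomial_of_nilpotent
  have a0 : χ 1 = U.index := by rw [e, indFun_apply_one]; simp
  obtain ⟨H, a1, a2⟩ := CfsgH1.exists_coatom_ge (H := U) fun c => h1 (by simp [a0, c])
  haveI := CfsgH1.normal_of_isCoatom_of_isNilpotent a1
  have a3 := CfsgH1.index_eq_of_isCoatom_of_isPGroup hG a1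
  obtain ⟨ψ, b1, b2, b3⟩ := exists_mid a2 (le_refl H) (hχ.isClassFunction.restrict H)
    (θ := fun x => l x) (by
      refine ne_of_eq_of_ne (classInner_indFun_right _ hχ.isClassFunction).symm ?_
      rw [← e, hχ.classInner_self]; exact one_ne_zero)
  have b4 : indFun H ψ = χ := indFun_eq_of_le b1.isCharacter hχ b2 (by
    have := deg_le_index_mul ((isIrr_subOf_iff a2).2 (isIrr_of_unitsHom l)).isCharacter b1
      ((CfsgRq.ov_iff a2).2 b3)
    rw [charDegree_eq (χ := subOf H fun g => (l g : ℂ)) (n := 1) ((congrArg Units.val (map_one l)).trans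
      (by simp)), mul_one] at this
    rw [charDegree_eq a0, ← Subgroup.relIndex_mul_index a2, mul_comm]
    exact Nat.mul_le_mul_right _ this)
  have b5 : charDegree χ = (r + 1) * charDegree ψ := by rw [← b4, deg_indFun b1.isCharacter, a3]
  obtain ⟨b, b6⟩ := (hG.to_subgroup H).index (charKer ψ)
  have b7 := ih _ (hn ▸ CfsgH2.card_lt_of_ne_top a1.1) H rfl (hG.to_subgroup H) ψ b1 b
  have i1 : ∀ σ : ℂ ≃+* ℂ, IsIrrCharacter H fun x => σ (ψ x) := fun σ => b1.map σ.toRingHom
  have c0 : ∀ σ : ℂ ≃+* ℂ, indFun H (fun x => σ (ψ x)) = fun g => σ (χ g) := fun σ =>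
    b4 ▸ indFun_map σ.toRingHom ψ
  have c1 : ∀ m, (∀ σ : ℂ ≃+* ℂ, ((or_fin b1).toFinset ∩ cjOrbit fun x => σ (ψ x)).card ≤ m) →
      (Or ψ).ncard ≤ m * (Or χ).ncard := fun m h => by
    rw [Set.ncard_eq_toFinset_card _ (or_fin b1), Set.ncard_eq_toFinset_card _ (or_fin hχ)]
    refine Finset.card_le_mul_card_image_of_maps_to (f := indFun H) (fun x hx => ?_) _ fun y hy => ?_
    · obtain ⟨σ, rfl⟩ := (or_fin b1).mem_toFinset.1 hx
      exact (or_fin hχ).mem_toFinset.2 ⟨σ, c0 σ⟩
    obtain ⟨σ, rfl⟩ := (or_fin hχ).mem_toFinset.1 hy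
    refine (Finset.card_le_card fun x hx => Finset.mem_inter.2 ⟨(Finset.mem_filter.1 hx).1, ?_⟩).trans
      (h σ)
    obtain ⟨τ, rfl⟩ := (or_fin b1).mem_toFinset.1 (Finset.mem_filter.1 hx).1
    by_contra c
    have := classInner_indFun_indFun_of_not_mem (b1.map σ.toRingHom) (b1.map τ.toRingHom) c
    exact one_ne_zero ((hχ.map σ.toRingHom).classInner_self.symm.trans
      ((congrArg₂ classInner (c0 σ) (Finset.mem_filter.1 hx).2).symm.trans this))
  have c2 : (r + 1) ^ a ≤ (⨅ φ : cjOrbit ψ, charKer φ.1).index * (r + 1) := by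
    rw [← ha, ← a3, ← Subgroup.index_map_subtype]
    refine Subgroup.index_antitone ?_
    rintro _ ⟨x, hx, rfl⟩
    have := clifford hχ b1 b2
    refine hχ.isCharacter.mem_charKer.2 ((congrFun this x).trans (Eq.trans ?_ (congrFun this 1).symm))
    simp only [Pi.smul_apply, Finset.sum_apply]
    refine congrArg _ (Finset.sum_congr rfl fun φ hφ => ?_)
    obtain ⟨g, rfl⟩ := mem_cjOrbit.1 hφ
    exact (b1.isCharacter.cj g).mem_charKer.1 (Subgroup.mem_iInf.1 hx ⟨_, hφ⟩)
  have c3 : ∀ σ : ℂ ≃+* ℂ, (cjOrbit fun x => σ (ψ x)).card = r + 1 := fun σ => by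
    rw [card_cjOrbit, inertia_eq_of_isIrr_indFun (i1 σ)
      ((c0 σ).symm ▸ hχ.map σ.toRingHom), a3]
  have c4 : ∀ g (x : H) (y : H), (y : G) = g * x * g⁻¹ →
      ((y : G) ∈ (charKer ψ).map H.subtype ↔ cj g ψ x = ψ 1) := fun g x y c => by
    rw [show (y : G) = H.subtype y from rfl, Subgroup.mem_map_iff_mem H.subtype_injective,
      b1.isCharacter.mem_charKer, cj_apply, show y = ⟨_, _⟩ from Subtype.ext c]
  obtain ⟨s, hs⟩ := Nat.exists_eq_succ_of_ne_zero (charDegree_ne_zero b1)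
  haveI := b1.isCharacter.charKer_normal
  rcases a1.le_iff.1 (CfsgH1.le_normalizer_map_subtype (charKer ψ)) with c | c
  · have d1 := b7 (t + 1) b6 ((c1 _ fun σ => (Finset.card_le_card Finset.inter_subset_right).trans_eq
      (c3 σ)).trans ((Nat.mul_le_mul_left _ ht).trans_eq (by ring)))
    have d2 : (⨅ φ : cjOrbit ψ, charKer φ.1).index ≤ (r + 1) ^ b := b6 ▸ Subgroup.index_antitone
      (le_iInf fun φ x hx => by
        obtain ⟨g, hg⟩ := mem_cjOrbit.1 φ.2
        rw [hg, (b1.isCharacter.cj g).mem_charKer, cj_apply_one]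
        exact (c4 g x ⟨_, Subgroup.Normal.conj_mem inferInstance _ x.2 g⟩ rfl).1
          (CfsgH2.conj_mem_of_norm (c.ge trivial) ⟨x, hx, rfl⟩))
    have d3 := (Nat.pow_le_pow_iff_right hp.out.one_lt).1
      ((c2.trans (Nat.mul_le_mul_right _ d2)).trans_eq (pow_succ ..).symm)
    rw [b5, hs] at *
    have d4 := Nat.mul_le_mul_left r d3
    have d5 := Nat.mul_le_mul_left (r * (t + 1) * (s + 1)) r0
    simp only [Nat.succ_eq_add_one] at *
    nlinarith [Nat.zero_le (r * t * (s + 1)), Nat.zero_le (r * s)]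
  · have d1 := b7 t b6 ((c1 1 fun σ => Finset.card_le_one_iff_subset_singleton.2
      ⟨fun x => σ (ψ x), fun φ hφ => by
        obtain ⟨τ, e1⟩ := (or_fin b1).mem_toFinset.1 (Finset.mem_inter.1 hφ).1
        obtain ⟨g, e2⟩ := mem_cjOrbit.1 (Finset.mem_inter.1 hφ).2
        rw [Finset.mem_singleton, e2, cj_of_mem (i1 σ).isClassFunction]
        refine c.le (CfsgH2.mem_norm_of_conj ?_)
        rintro _ ⟨x, hx, rfl⟩
        refine (c4 g x ⟨_, Subgroup.Normal.conj_mem inferInstance _ x.2 g⟩ rfl).2 (σ.injective ?_)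
        have e3 := e2.symm.trans e1
        exact (congrFun e3 x).trans (((congrArg τ (b1.isCharacter.mem_charKer.1 hx)).trans
          (congrFun e3 1).symm).trans (cj_apply_one ..))⟩).trans ((one_mul _).trans_le ht))
    have d2 : (⨅ φ : cjOrbit ψ, charKer φ.1).index ≤ (r + 1) ^ (b * (r + 1)) := by
      refine (Subgroup.index_iInf_le _).trans_eq ?_
      rw [Finset.prod_congr rfl (g := fun _ => (r + 1) ^ b) fun φ _ => ?_, Finset.prod_const,
        Finset.card_univ, Fintype.card_coe, pow_mul]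
      · exact congrArg _ (c3 (RingEquiv.refl ℂ))
      obtain ⟨g, hg⟩ := mem_cjOrbit.1 φ.2
      rw [← b6, ← (charKer ψ).index_comap_of_surjective (f := (MulAut.conjNormal g).toMonoidHom)
        (MulEquiv.surjective _), hg]
      exact congrArg _ (Subgroup.ext fun x => by
        rw [(b1.isCharacter.cj g).mem_charKer, cj_apply_one, Subgroup.mem_comap,
          b1.isCharacter.mem_charKer]; rfl)
    have d3 := (Nat.pow_le_pow_iff_right hp.out.one_lt).1
      ((c2.trans (Nat.mul_le_mul_right _ d2)).trans_eq (pow_succ ..).symm)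
    rw [b5]
    have d4 := Nat.mul_le_mul_left r d3
    have d5 := Nat.mul_le_mul_left (r + 1) d1
    nlinarith

/-- Let P be a finite p-group of order p^a with a > 0, and χ a faithful irreducible character of P of degree f whose field of values ℚ(χ) has degree (p − 1)·p^t over ℚ. Then a ≤ (f − 1)/(p − 1) + (t + 1)·f; in integer form, (p − 1)·a ≤ (f − 1) + (p − 1)(t + 1)·f. -/
theorem result {P : Type*} [Group P] [Finite P] (p a : ℕ) (hp : p.Prime) (ha : 0 < a) (hP : Nat.card P = p ^ a) (χ : Cfsg.IrrCharacter P) (hfaith : ∀ g : P, (χ : P → ℂ) g = (χ : P → ℂ) 1 → g = 1) (f t : ℕ) (hf : Cfsg.charDegree (χ : P → ℂ) = f) (hfield : Module.finrank ℚ (IntermediateField.adjoin ℚ (Set.range (χ : P → ℂ))) = (p - 1) * p ^ t) : (p - 1) * a ≤ (f - 1) + (p - 1) * (t + 1) * f := by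
  obtain ⟨r, rfl⟩ := Nat.exists_eq_succ_of_ne_zero hp.ne_zero
  haveI := Fact.mk hp
  haveI := IntermediateField.finiteDimensional_adjoin (K := ℚ) (S := Set.range χ.1)
    (by rintro _ ⟨g, rfl⟩; exact (χ.2.isCharacter.isIntegral g).tower_top)
  have := aux _ P rfl (IsPGroup.of_card hP) _ χ.2 a t (by
    rw [(Subgroup.eq_bot_iff_forall _).2 fun g hg => hfaith g (χ.2.isCharacter.mem_charKer.1 hg),
      Subgroup.index_bot, hP]) (by
    refine le_trans ?_ hfield.le
    rw [← AlgHom.natCard_of_splits ℚ _ ℂ fun _ => IsAlgClosed.splits _, ← Set.ncard_univ]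
    refine le_trans (Set.ncard_le_ncard ?_) (Set.ncard_image_le (f := fun φ g =>
      φ ⟨χ.1 g, IntermediateField.subset_adjoin _ _ ⟨g, rfl⟩⟩))
    rintro _ ⟨σ, rfl⟩
    exact ⟨σ.toRingHom.toRatAlgHom.comp (IntermediateField.val _), trivial, rfl⟩)
  rw [hf] at this
  simp only [Nat.succ_eq_add_one, Nat.add_sub_cancel]
  have := hf ▸ charDegree_pos χ.2
  omega


end Cfsg.Agent.S4489
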