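import Cfsg.Statements.S4492
import Mathlib
import Cfsg.Agent.H4.Fong2

set_option autoImplicit false
open Cfsg

open Cfsg CfsgH3 CfsgH4 CfsgH1 CfsgL0 MonoidAlgebra

namespace Cfsg.Agent.S4492

/-- Let G be a finite p-solvable group, N = O_{p'}(G) its largest normal subgroup of order prime to p, and θ an irreducible character of N invariant under conjugation by G; fix a maximal ideal M of the algebraic integers containing p. Then the irreducible characters of G lying over θ (those whose restriction to N contains θ) form a single p-block of G, and the defect groups of that block are exactly the Sylow p-subgroups of G. -/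
theorem result {G : Type*} [Group G] [Fintype G] (p : ℕ) [Fact p.Prime] (M : Ideal Cfsg.AlgInt) (hM : Cfsg.IsPModular p M) (hsolv : Cfsg.IsPSolvable p G) (N : Subgroup G) [hN : N.Normal] [Fintype N] (hNdef : N = Cfsg.pPrimeCore p G) (θ : Cfsg.IrrCharacter N) (hinv : ∀ (g : G) (n : N), (θ : N → ℂ) ⟨g * n * g⁻¹, hN.conj_mem n n.2 g⟩ = (θ : N → ℂ) n) : ∃ B : Set (Cfsg.IrrCharacter G), Cfsg.IsPBlock M B ∧ (∀ χ : Cfsg.IrrCharacter G, χ ∈ B ↔ Cfsg.classInner (fun n : N => (χ : G → ℂ) n) (θ : N → ℂ) ≠ 0) ∧ (∀ P : Sylow p G, Cfsg.IsDefectGroup p M B (P : Subgroup G)) ∧ ∀ D : Subgroup G, Cfsg.IsDefectGroup p M B D → ∃ P : Sylow p G, D = (P : Subgroup G) := by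
  haveI : PMod p M := ⟨hM⟩
  have hK : ¬ p ∣ Nat.card N := hNdef ▸ not_dvd_card_pPrimeCore p
  have hb := isPBlock_singleton (M := M) hK θ
  have hi : Inv ⊤ (ie M N {θ}) := fun x _ => (stab_irrCj_iff hb).1 (by
    rintro _ rfl θ' h
    exact Subtype.ext (funext fun n => by rw [h, hinv]))
  obtain ⟨h1, h2, k, h3⟩ := pPrimePCore_facts (G := G) (p := p)
  obtain ⟨Q, hQ⟩ := exists_isSylowIn (p := p) (H := pPrimePCore p G)
  rw [← hNdef] at h1 h3
  obtain ⟨B, hB, h4⟩ := (hb.isBlk_ie.principal_type h1 hK h3 hQ (cent_le_pPrimePCore hsolv hQ)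
    hi).1.exists_eq_eB
  have h5 : ∀ D, IsDefectGroup p M B D ↔ IsSylowIn p D ⊤ := fun D => by
    rw [hB.isDefectGroup_iff, ← h4, hb.isBlk_ie.isDef_iff_of_not_dvd le_top (top_le_norm N) hK hi]
  refine ⟨B, hB, fun χ => ?_, fun P => (h5 _).2 (isSylowIn_top P), fun D hD => ?_⟩
  · rw [← over_subtype_iff]
    refine ⟨fun h => ?_, fun h => (eq_over_of_eB_eq hb.fB_mem hB.fB_mem h4.symm h).2 rfl⟩
    obtain ⟨ψ, h6⟩ := CfsgH4.exists_under N.subtype χ
    rwa [← Set.mem_singleton_iff.1 ((eq_over_of_eB_eq hb.fB_mem hB.fB_mem h4.symm h6).1 h)]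
  · obtain ⟨S, hS⟩ := ((h5 D).1 hD).exists_sylow_top
    exact ⟨S, hS.symm⟩

end Cfsg.Agent.S4492
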