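import Cfsg.Statements.S4497
import Cfsg.Agent.H3.Sc

set_option autoImplicit false
open Cfsg

open Cfsg CfsgSc CfsgH2 Function Subgroup

namespace Cfsg.Agent.S4497

/-- Let the finite group G contain an element x of prime order p with C_G(x) = ⟨x⟩, let t be the number of conjugacy classes of elements of order p, and let S* = O_{p′}(G) be the largest normal subgroup of order prime to p. Then S* ≤ G′; if t ≠ p − 1 the quotient G′/S* is simple (in particular non-trivial); if t = p − 1 then G′ = S*. -/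
theorem result {G : Type*} [Group G] [Finite G] (p : ℕ) (hp : p.Prime) (x : G) (hx : orderOf x = p) (hC : Subgroup.centralizer ({x} : Set G) = Subgroup.zpowers x) (t : ℕ) (ht : Nat.card {C : ConjClasses G // ∃ g ∈ C.carrier, orderOf g = p} = t) : Cfsg.pPrimeCore p G ≤ commutator G ∧ (t ≠ p - 1 → ∀ h : ((Cfsg.pPrimeCore p G).subgroupOf (commutator G)).Normal, IsSimpleGroup (↥(commutator G) ⧸ (Cfsg.pPrimeCore p G).subgroupOf (commutator G))) ∧ (t = p - 1 → commutator G = Cfsg.pPrimeCore p G) := by
  haveI := Fact.mk hp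
  have h : SC p x := ⟨hx, hC⟩
  subst ht
  have hl := h.le_comm (S := pPrimeCore p G) le_normalizer_of_normal not_dvd_pPrimeCore
  refine ⟨hl, fun e hn => ?_, fun e => (h.of_eq e).1⟩
  haveI : Nontrivial (commutator G ⧸ (pPrimeCore p G).subgroupOf (commutator G)) :=
    QuotientGroup.nontrivial_iff.2 fun a => not_dvd_pPrimeCore (p := p) (G := G)
      (h.card.symm.dvd.trans (card_dvd_of_le ((h.le_of_ne e).trans (subgroupOf_eq_top.1 a))))
  refine ⟨fun H hH => ?_⟩
  rcases h.eq_or_le (map_subtype_le (H.comap (QuotientGroup.mk' _))) (le_norm_map_subtype _) e with a | a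
  · refine .inr (eq_top_iff.2 fun y _ => ?_)
    obtain ⟨y, rfl⟩ := QuotientGroup.mk_surjective y
    obtain ⟨z, hz, hzy⟩ := a.ge y.2
    exact Subtype.ext hzy ▸ hz
  · refine .inl (eq_bot_iff.2 fun y hy => ?_)
    obtain ⟨y, rfl⟩ := QuotientGroup.mk_surjective y
    exact (QuotientGroup.eq_one_iff y).2 (a ⟨y, hy, rfl⟩)


end Cfsg.Agent.S4497
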