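import Cfsg.Statements.S4731
import Mathlib
import Cfsg.Agent.H4.BT
import Cfsg.Agent.H4.Col

set_option autoImplicit false
open Cfsg

namespace Cfsg.Agent.S4731

open Cfsg Subgroup CfsgH4
open CfsgH3 hiding cj cj_cj
open scoped ComplexConjugate

/-- Let p ≠ q be primes, M_p and M_q maximal ideals of the algebraic integers containing p and q respectively, and G a finite group with no element of order pq; let q^b be the q-part of the order of G. For a p-block B_p (relative to M_p), a q-block B_q (relative to M_q) and a p-singular element y, the sum of χ(1)χ(y) over the irreducible characters χ lying in both B_p and B_q is q^b times an algebraic integer. -/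
theorem result {G : Type*} [Group G] [Finite G] (p q : ℕ) [Fact p.Prime] [Fact q.Prime] (hpq : p ≠ q) (Mp Mq : Ideal Cfsg.AlgInt) (hMp : Cfsg.IsPModular p Mp) (hMq : Cfsg.IsPModular q Mq) (hno : ∀ g : G, orderOf g ≠ p * q) (b : ℕ) (hb : (Nat.card G).factorization q = b) (Bp : Set (Cfsg.IrrCharacter G)) (hBp : Cfsg.IsPBlock Mp Bp) (Bq : Set (Cfsg.IrrCharacter G)) (hBq : Cfsg.IsPBlock Mq Bq) (y : G) (hy : p ∣ orderOf y) : ∃ ω : Cfsg.AlgInt, ∑ᶠ χ ∈ Bp ∩ Bq, (Cfsg.charDegree (χ : G → ℂ) : ℂ) * (χ : G → ℂ) y = (q : ℂ) ^ b * (ω : ℂ) := by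
  classical
  have hp : p.Prime := Fact.out
  have hq : q.Prime := Fact.out
  have : PMod p Mp := ⟨hMp⟩
  have : PMod q Mq := ⟨hMq⟩
  have e : colB (Bp ∩ Bq) y⁻¹ = blockPart Bq (colB Bp y⁻¹) := by
    rw [colB_eq_blockPart, colB_eq_blockPart, blockPart_smul, blockPart_blockPart, Set.inter_comm]
  have h1 : {g : G | ¬ q ∣ orderOf g}.indicator (colB Bp y⁻¹) = colB Bp y⁻¹ := Set.indicator_eq_self.2 fun g hg d =>
    hg (by
      rw [← conj_colB, colB_eq_zero_of_sing (p := p) hBp.fB_mem (fun d' => ?_) _ (by rwa [orderOf_inv]), map_zero]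
      have := ((Nat.coprime_primes hp hq).2 hpq).mul_dvd_of_dvd_of_dvd d' d
      exact hno (g ^ (orderOf g / (p * q))) (orderOf_pow_orderOf_div (orderOf_pos g).ne' this))
  have h2 := blockPart_indicator (p := q) hBq.fB_mem psat_reg (isClassFunction_colB Bp y⁻¹)
  rw [h1, ← e] at h2
  obtain ⟨Q⟩ : Nonempty (Sylow q G) := inferInstance
  have h3 := (cs_colB_ZI (Bp ∩ Bq) y⁻¹).div_card_mem_of_sing (p := q) (fun g hg => by
    rw [h2, Set.indicator_of_notMem (by simpa using hg)]) (y := 1) (by simp [hq.ne_one]) Q.isPGroup' (fun a _ => by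
      simp [Subgroup.mem_centralizer_singleton_iff])
  rw [Q.card_eq_multiplicity, hb, Nat.cast_pow] at h3
  refine ⟨⟨_, h3⟩, Eq.trans ?_ (mul_div_cancel₀ _ (pow_ne_zero _ (Nat.cast_ne_zero.2 hq.ne_zero))).symm⟩
  rw [colB_apply_finsum]
  -- [mul_div_cancel₀ _ (pow_ne_zero _ (Nat.cast_ne_zero.2 hq.ne_zero)), colB_apply_finsum]
  exact finsum_congr fun χ => finsum_congr fun _ => by
    rw [coe_charDegree χ.2.isCharacter, χ.2.isCharacter.apply_inv, Complex.conj_conj]

end Cfsg.Agent.S4731
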