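import Cfsg.Statements.S4498
import Mathlib
import Cfsg.Agent.H4.BT
import Cfsg.Agent.S4731

set_option autoImplicit false
open Cfsg

namespace Cfsg.Agent.S4498

open Cfsg Subgroup CfsgH4
open CfsgH3 hiding cj cj_cj

/-- Let p and q be distinct primes dividing the order of the finite group G, and suppose G has no element of order p·q. Fix maximal ideals M_p over p and M_q over q of the algebraic integers. Then the principal p-block and the principal q-block of G have a non-principal irreducible character in common. -/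
theorem result {G : Type*} [Group G] [Finite G] (p q : ℕ) [Fact p.Prime] [Fact q.Prime] (hpq : p ≠ q) (hp : p ∣ Nat.card G) (hq : q ∣ Nat.card G) (hno : ∀ g : G, orderOf g ≠ p * q) (Mp Mq : Ideal Cfsg.AlgInt) (hMp : Cfsg.IsPModular p Mp) (hMq : Cfsg.IsPModular q Mq) : ∃ χ : Cfsg.IrrCharacter G, (χ : G → ℂ) ≠ (fun _ => 1) ∧ χ ∈ Cfsg.principalBlock Mp G ∧ χ ∈ Cfsg.principalBlock Mq G := by
  have hq' : q.Prime := Fact.out
  have : PMod p Mp := ⟨hMp⟩
  have : PMod q Mq := ⟨hMq⟩
  by_contra! h
  obtain ⟨y, hy⟩ := exists_prime_orderOf_dvd_card' p hp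
  obtain ⟨ω, hω⟩ := Cfsg.Agent.S4731.result p q hpq Mp Mq hMp hMq hno _ rfl _ isPBlock_principal _ isPBlock_principal y hy.symm.dvd
  have e : principalBlock Mp G ∩ principalBlock Mq G = {irrOne G} := Set.eq_singleton_iff_unique_mem.2
    ⟨⟨irrOne_mem_principal, irrOne_mem_principal⟩, fun χ hχ => Subtype.ext (by_contra fun c => h χ c hχ.1 hχ.2)⟩
  rw [e, finsum_mem_singleton, coe_charDegree (irrOne G).2.isCharacter] at hω
  refine not_InP_one (M := Mq) ?_
  rw [show (1 : ℂ) = _ from (by simp [irrOne] : _ = _).trans hω, ← Nat.cast_pow]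
  exact InP.mul_right ((InP_natCast_iff _).2 (dvd_pow_self q (hq'.factorization_pos_of_dvd Nat.card_pos.ne' hq).ne'))
    (algInt_mem_Loc ω)

end Cfsg.Agent.S4498
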