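import Cfsg.Statements.S4500
import Mathlib
import Cfsg.Agent.H4.BF
import Cfsg.Agent.H4.Prin
import Cfsg.Agent.H4.Ch1
import Cfsg.Agent.H4.Col
import Cfsg.Agent.H3.Burnside

set_option autoImplicit false
open Cfsg

open Cfsg CfsgH4 CfsgH1 CfsgL0 MonoidAlgebra Function
open CfsgH3 hiding cj cj_cj
open scoped ComplexConjugate Pointwise

namespace Cfsg.Agent.S4500

theorem aux {G : Type*} [Group G] [Finite G] [Nontrivial G] {p q r a b c : ℕ} (hp : p.Prime)
    (hq : q.Prime) (hr : r.Prime) (hpq : p ≠ q) (hpr : p ≠ r) (ha : a ≤ 2)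
    (hG : Nat.card G = p ^ a * q ^ b * r ^ c) :
    ∃ χ : IrrCharacter G, (χ : G → ℂ) ≠ (fun _ => 1) ∧ ∃ k : ℕ, charDegree (χ : G → ℂ) = q ^ k := by
  classical
  by_cases h0 : a = 0
  · have := burnside_paqb q r b c hq hr (G := G) (by simp [hG, h0])
    obtain ⟨l, hl⟩ := exists_lin_ker_prime
      (Group.IsSolvable.commutator_lt_top_of_nontrivial (G := G)).ne
    refine ⟨⟨_, isIrr_of_unitsHom l⟩, fun h => hl.ne_one (Subgroup.index_eq_one.2
      (eq_top_iff.2 fun g _ => Units.ext (congrFun h g))), 0, by simp [charDegree]⟩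
  have := Fact.mk hp
  have := Fintype.ofFinite G
  have := Fact.mk hr
  obtain ⟨M, hM⟩ := exists_pmod p
  obtain ⟨M', hM'⟩ := exists_pmod r
  obtain ⟨y, hy⟩ := exists_prime_orderOf_dvd_card' (G := G) p
    (hG ▸ ((dvd_pow_self p h0).mul_right _).mul_right _)
  have h1 := colB_eq_zero_of_sing (p := p) (isPBlock_principal (M := M) (G := G)).fB_mem (y := 1)
    (by simp [hp.ne_one]) y hy.symm.dvd
  obtain ⟨χ, h2, h3, h4⟩ : ∃ χ ∈ principalBlock M G, χ ≠ irrOne G ∧ ¬ r ∣ charDegree χ.1 := by
    by_contra! h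
    rw [colB_apply, ← Finset.add_sum_erase _ _ (Finset.mem_univ (irrOne G)),
      if_pos irrOne_mem_principal] at h1
    refine not_InP_one (M := M') ?_
    have h2 := eq_neg_of_add_eq_zero_left h1
    rw [show (irrOne G).1 = 1 from rfl, Pi.one_apply, Pi.one_apply, map_one, mul_one] at h2
    rw [h2]
    refine InP.neg (InP.sum (M := M') _ _ fun χ hχ => ?_)
    split_ifs with h5
    · rw [irr_one_eq, map_intCast, Int.cast_natCast]
      exact InP.mul_left (irr_mem_Loc χ y) ((InP_natCast_iff _).2 (h χ h5 (Finset.ne_of_mem_erase hχ)))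
    · exact InP.zero (M := M')
  have h5 := (isPBlock_principal (M := M)).height_eq_zero_of_defect_le (p := p) (by
    rw [blockDefect_principal, hG, Nat.factorization_mul (by positivity [hp.pos, hq.pos])
      (by positivity [hr.pos]), Nat.factorization_mul (by positivity [hp.pos]) (by positivity [hq.pos])]
    simpa [hp.factorization_pow, hq.factorization_pow, hr.factorization_pow, hpq, hpr]) h2
  rw [height_principal h2, Nat.factorization_eq_zero_iff] at h5
  have h6 := hG ▸ charDegree_dvd χ.2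
  obtain ⟨k, -, hk⟩ := (Nat.dvd_prime_pow hq).1
    (((hp.coprime_iff_not_dvd.2 (by simpa [hp, charDegree_ne_zero χ.2] using h5)).symm.pow_right a).dvd_of_dvd_mul_left
      (((hr.coprime_iff_not_dvd.2 h4).symm.pow_right c).dvd_of_dvd_mul_right h6))
  exact ⟨χ, fun h => h3 (Subtype.ext h), k, hk⟩

/-- Let G be a non-trivial finite group of order p^a · q^b · r^c with p, q, r distinct primes and a ≤ 2. Then G has a non-principal irreducible character whose degree is a power of q, and a non-principal irreducible character whose degree is a power of r; the power may be the zeroth, so a non-principal linear character serves for both. -/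
theorem result {G : Type*} [Group G] [Finite G] [Nontrivial G] (p q r a b c : ℕ) (hp : p.Prime) (hq : q.Prime) (hr : r.Prime) (hpq : p ≠ q) (hpr : p ≠ r) (hqr : q ≠ r) (ha : a ≤ 2) (hG : Nat.card G = p ^ a * q ^ b * r ^ c) : (∃ χ : Cfsg.IrrCharacter G, (χ : G → ℂ) ≠ (fun _ => 1) ∧ ∃ k : ℕ, Cfsg.charDegree (χ : G → ℂ) = q ^ k) ∧ ∃ χ : Cfsg.IrrCharacter G, (χ : G → ℂ) ≠ (fun _ => 1) ∧ ∃ k : ℕ, Cfsg.charDegree (χ : G → ℂ) = r ^ k := by
  exact ⟨aux hp hq hr hpq hpr ha hG, aux hp hr hq hpr hpq ha (hG.trans (mul_right_comm _ _ _))⟩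

end Cfsg.Agent.S4500
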