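import Cfsg.Statements.S4635
import Mathlib
import Cfsg.Agent.H4.Cy10

set_option autoImplicit false
open Cfsg

open Cfsg CfsgH3 CfsgH4 CfsgH1 CfsgL0 MonoidAlgebra

namespace Cfsg.Agent.S4635

/-- Let B be a block of the finite group G relative to a maximal ideal M of the algebraic integers containing the prime p, with a nontrivial cyclic defect group P; let Z be the subgroup of order p of P and H = N_G(Z), which contains N_G(P). Let c be the block of H with defect group P that induces B. Then B and c contain the same number of irreducible characters, have the same p-regular rank, and there is a perfect isometry from c onto B. -/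
theorem result {G : Type*} [Group G] [Finite G] (p : ℕ) [Fact p.Prime] (M : Ideal Cfsg.AlgInt) (hM : Cfsg.IsPModular p M) (B : Set (Cfsg.IrrCharacter G)) (hB : Cfsg.IsPBlock M B) (P : Subgroup G) (hPD : Cfsg.IsDefectGroup p M B P) (hP1 : P ≠ ⊥) (hcyc : IsCyclic P) (Z : Subgroup G) (hZ : Z ≤ P) (hZcard : Nat.card Z = p) (H : Subgroup G) (hH : H = Subgroup.normalizer (Z : Set G)) (c : Set (Cfsg.IrrCharacter H)) (hcD : Cfsg.IsDefectGroup p M c (P.subgroupOf H)) (hc : Cfsg.IsInducedBlock M H c B) : Nat.card c = Nat.card B ∧ Cfsg.blockRank p c = Cfsg.blockRank p B ∧ ∃ (I : Cfsg.IrrCharacter H → Cfsg.IrrCharacter G) (ε : Cfsg.IrrCharacter H → ℤ), Cfsg.IsPerfectIsometry p M c B I ε := by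
  haveI : PMod p M := ⟨hM⟩
  subst hH
  have h1 := CfsgH2.norm_le_norm_of_cyclic hcyc hZ
  have h2 := Subgroup.le_normalizer.trans h1
  obtain ⟨f, hm'⟩ := exists_maxPr hc.1.isBlk (hc.1.isDefectGroup_iff.1 hcD)
  have hm := hm'.inc_of_ind hc hPD (brLoc_normalizer (IsPGroup.of_card (n := 1) (by simpa using hZcard))) hZ h2
  have h3 := Subgroup.subgroupOfEquivOfLe h2
  obtain ⟨u, β, e', Φ, _, X, y, ε, δ, h, s⟩ := hm.exists_cyS hB hcyc hP1
  obtain ⟨u', β', e'', Φ', _, X', y', ε', δ', h', s'⟩ := hm'.exists_cyS hc.1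
    (isCyclic_of_surjective _ h3.symm.surjective) fun h4 => hP1 (by
      rw [← Subgroup.map_subgroupOf_eq_of_le h2, h4, Subgroup.map_bot])
  have h4 := (card_autE_inc (f := f) h1).symm
  have h5 := Nat.card_congr h3.toEquiv
  obtain ⟨I, σ, h6, -⟩ := exists_perfect s h s' h' h5 h4
  exact ⟨by rw [s.card_B, s'.card_B, s.card_exc' h, s'.card_exc' h', h4, h5],
    by rw [s.blockRank_eq h, s'.blockRank_eq h', h4], I, σ, h6⟩

end Cfsg.Agent.S4635
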