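import Cfsg.Statements.S4502
import Cfsg.Agent.S4635
import Cfsg.Agent.S0920
import Cfsg.Agent.H4.Mx
import Cfsg.Agent.H4.Ch2
import Cfsg.Agent.H4.Dim
import Cfsg.Agent.H2.Syl
import Cfsg.Agent.L0.Count

set_option autoImplicit false
open Cfsg

open Cfsg CfsgH3 CfsgH4 Function Subgroup

namespace Cfsg.Agent.S4502
theorem key {G : Type*} [Group G] [Finite G] {p : ℕ} [hp : Fact p.Prime] {M : Ideal AlgInt} [PMod p M] {P : Subgroup G}
    (hP : Nat.card P = p) (hi : ¬ p ∣ P.index) (χ : IrrCharacter G) :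
    ¬ p ∣ charDegree χ.1 ↔ IsDefectGroup p M (blockOf M χ.1) P := by
  haveI := Fintype.ofFinite G
  have hB := isPBlock_blockOf (M := M) χ.2
  have hf : (Nat.card G).factorization p = 1 := by
    rw [← P.card_mul_index, Nat.factorization_mul Nat.card_pos.ne' index_ne_zero_of_finite, hP, Finsupp.add_apply,
      hp.1.factorization_self, Nat.factorization_eq_zero_of_not_dvd hi]
  refine ⟨fun h => ?_, fun h hd => ?_⟩
  · obtain ⟨D, hD⟩ := hB.exists_defectGroup (p := p)
    have s : CfsgH2.Syl p P ⊤ := ⟨le_top, CfsgH2.isPGroup_of_card' hP, by simpa using hi⟩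
    have a := sub_fact_eq (p := p) (M := M) (mem_blockOf_self (M := M) χ)
    rw [hf, Nat.factorization_eq_zero_of_not_dvd h] at a
    obtain ⟨g, -, hg⟩ := (s.of_card_ge hD.isPGroup le_top (by
      rw [hP, hD.card_eq hB]; exact Nat.le_self_pow (by omega) p)).conj s
    exact hg ▸ hD.conj hB g
  · have := h.eq_bot_of_dz hB (mem_blockOf_self χ) (hf.le.trans
      ((hp.1.dvd_iff_one_le_factorization (charDegree_pos χ.2).ne').1 hd))
    rw [this, card_bot] at hP
    exact hp.1.one_lt.ne hP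

/-- Let G be a finite group whose order is divisible by the prime p exactly once, and let P be a Sylow p-subgroup. Then the number of irreducible characters of G of degree not divisible by p equals the number of conjugacy classes of the normalizer of P. -/
theorem result {G : Type*} [Group G] [Finite G] (p : ℕ) [Fact p.Prime] (hdiv : p ∣ Nat.card G) (hsq : ¬ p ^ 2 ∣ Nat.card G) (P : Sylow p G) : Nat.card {χ : Cfsg.IrrCharacter G // ¬ p ∣ Cfsg.charDegree (χ : G → ℂ)} = Nat.card (ConjClasses (Subgroup.normalizer ((P : Subgroup G) : Set G))) := by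
  classical
  have hp : p.Prime := Fact.out
  obtain ⟨M, hM⟩ := exists_pmod p
  have hi := P.not_dvd_index
  have hP : Nat.card (P : Subgroup G) = p := by
    rw [P.card_eq_multiplicity, le_antisymm (Nat.lt_succ_iff.1 (not_le.1 fun h => hsq
      ((hp.pow_dvd_iff_le_factorization Nat.card_pos.ne').2 h))) ((hp.dvd_iff_one_le_factorization Nat.card_pos.ne').1 hdiv), pow_one]
  generalize (P : Subgroup G) = Q at *
  have hQ : IsPGroup p Q := CfsgH2.isPGroup_of_card' hP
  have hc := isCyclic_of_prime_card hP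
  obtain ⟨h1, h2⟩ := S0920.result p M hM.1 Q hQ
  have hP' : Nat.card (Q.subgroupOf (normalizer (Q : Set G))) = p := (CfsgH2.card_subgroupOf le_normalizer).trans hP
  have hi' : ¬ p ∣ (Q.subgroupOf (normalizer (Q : Set G))).index := fun h =>
    hi (h.trans (relIndex_dvd_index_of_le le_normalizer))
  have hN : ∀ b, IsPBlock M b → IsDefectGroup p M b (Q.subgroupOf (normalizer (Q : Set G))) := by
    rintro _ ⟨ψ, rfl⟩
    haveI := isCyclic_of_prime_card hP'
    exact (key hP' hi' ψ).1 fun h => hi' (h.trans (deg_dvd_index_ab ψ.2 _ fun a ha b hb =>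
      congrArg Subtype.val (mul_comm' (⟨a, ha⟩ : Q.subgroupOf (normalizer (Q : Set G))) ⟨b, hb⟩)))
  rw [← card_irr_eq_card_conjClasses]
  haveI := Fintype.ofFinite {b : Set (IrrCharacter (normalizer (Q : Set G))) // IsPBlock M b}
  choose f hf hu using fun χ : {χ : IrrCharacter G // ¬ p ∣ charDegree χ.1} =>
    h2 _ (isPBlock_blockOf χ.1.2) ((key hP hi χ.1).1 χ.2)
  rw [CfsgL0.card_eq_sum_fibers (B := {b : Set (IrrCharacter (normalizer (Q : Set G))) // IsPBlock M b})
    (fun χ => ⟨f χ, (hf χ).1⟩), CfsgL0.card_eq_sum_fibers (B := {b : Set (IrrCharacter (normalizer (Q : Set G))) // IsPBlock M b})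
    (fun ψ => ⟨_, isPBlock_blockOf ψ.2⟩)]
  refine Finset.sum_congr rfl fun ⟨b, hb⟩ _ => ?_
  obtain ⟨B, hB, hD, hI⟩ := h1 b hb (hN b hb)
  have e := (S4635.result p M hM.1 B hB Q hD (CfsgH2.ne_bot_of_card_prime (hP.symm ▸ hp)) hc Q le_rfl hP _ rfl b
    (hN b hb) hI).1
  refine Eq.trans (Nat.card_congr (β := B) ⟨fun χ => ⟨χ.1.1, ?_⟩, fun χ => ⟨⟨χ.1, (key hP hi χ.1).2 (hB.eq_blockOf χ.2 ▸ hD)⟩,
    Subtype.ext (hu _ b ⟨hb, hN b hb, hB.eq_blockOf χ.2 ▸ hI⟩).symm⟩, fun _ => rfl, fun _ => rfl⟩) (e.symm.trans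
    (Nat.card_congr (Equiv.subtypeEquivRight fun ψ => ⟨fun h => Subtype.ext (hb.eq_blockOf h).symm, fun h => ?_⟩)))
  · have a : f χ.1 = b := congrArg Subtype.val χ.2
    rw [hI.unique (a ▸ (hf χ.1).2.2)]
    exact mem_blockOf_self _
  · exact (show blockOf M ψ.1 = b from congrArg Subtype.val h) ▸ mem_blockOf_self ψ


end Cfsg.Agent.S4502
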