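import Cfsg.Statements.S4503
import Mathlib
import Cfsg.Agent.H4.Sml2

set_option autoImplicit false
open Cfsg

open Cfsg CfsgH4 CfsgH3

namespace Cfsg.Agent.S4503

/-- Let G be a finite group whose order is divisible by the prime p exactly once and which has no normal subgroup of order p. Then every faithful character χ of G has degree at least (p − 1)/2: 2·χ(1) + 1 ≥ p. -/
theorem result {G : Type*} [Group G] [Finite G] (p : ℕ) (hp : p.Prime) (hdiv : p ∣ Nat.card G) (hsq : ¬ p ^ 2 ∣ Nat.card G) (hnn : ∀ H : Subgroup G, H.Normal → Nat.card H ≠ p) (χ : G → ℂ) (hχ : Cfsg.IsCharacter G χ) (hfaith : ∀ g : G, χ g = χ 1 → g = 1) : p ≤ 2 * Cfsg.charDegree χ + 1 := by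
  haveI := Fact.mk hp
  by_contra hd
  obtain ⟨u, hu⟩ := exists_prime_orderOf_dvd_card' (G := G) p hdiv
  have a2 : ¬ p ∣ (Subgroup.zpowers u).index := fun e => hsq (by
    rw [← (Subgroup.zpowers u).index_mul_card, Nat.card_zpowers, hu, sq]; exact Nat.mul_dvd_mul_right e p)
  exact hnn _ (Sml.brauer_lin _ G u rfl hu a2 χ hχ hfaith (by omega)) (by rw [Nat.card_zpowers, hu])

end Cfsg.Agent.S4503
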