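import Cfsg.Statements.S4506
import Cfsg.Agent.H3.Cd4
import Cfsg.Agent.H4.Hgt

set_option autoImplicit false
open Cfsg

open Cfsg CfsgH3 CfsgH4 CfsgCd Function Subgroup

namespace Cfsg.Agent.S4506

/-- Let G be a finite group, p a prime, p^a the p-part of the order of G and g′ its p′-part. Call two irreducible characters p-conjugate when one is obtained from the other by applying a field automorphism of ℂ that fixes the g′-th roots of unity, and let r be the number of characters p-conjugate to the irreducible character χ (χ included). Then the exponent of p in r·χ(1) is at most a; and if p^a divides r·χ(1) then p^a already divides χ(1). -/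
theorem result {G : Type*} [Group G] [Finite G] (p : ℕ) (hp : p.Prime) (χ : Cfsg.IrrCharacter G) (r : ℕ) (hr : Nat.card {ψ : Cfsg.IrrCharacter G // ∃ σ : ℂ ≃+* ℂ, σ (Complex.exp (2 * Real.pi * Complex.I / ((Nat.card G / p ^ (Nat.card G).factorization p) : ℕ))) = Complex.exp (2 * Real.pi * Complex.I / ((Nat.card G / p ^ (Nat.card G).factorization p) : ℕ)) ∧ (ψ : G → ℂ) = fun g => σ ((χ : G → ℂ) g)} = r) : (r * Cfsg.charDegree (χ : G → ℂ)).factorization p ≤ (Nat.card G).factorization p ∧ (p ^ (Nat.card G).factorization p ∣ r * Cfsg.charDegree (χ : G → ℂ) → p ^ (Nat.card G).factorization p ∣ Cfsg.charDegree (χ : G → ℂ)) := by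
  classical
  haveI := Fintype.ofFinite G
  haveI := Fact.mk hp
  obtain ⟨M, hM⟩ := exists_isPModular hp
  haveI : PMod p M := ⟨hM⟩
  set a := (Nat.card G).factorization p with ha
  set ζ := Complex.exp (2 * Real.pi * Complex.I / ((Nat.card G / p ^ a) : ℕ)) with hζ
  let S := Finset.univ.filter fun ψ : IrrCharacter G => ∃ σ : ℂ ≃+* ℂ, σ ζ = ζ ∧ (ψ : G → ℂ) = fun g => σ (χ.1 g)
  rw [Nat.card_eq_fintype_card, Fintype.card_subtype] at hr
  have h0 : Nat.card G / p ^ a ≠ 0 := (Nat.ordCompl_pos p Nat.card_pos.ne').ne'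
  have hS : ∀ ψ ∈ S, mm p χ.1 ψ.1 = mm p χ.1 χ.1 := fun ψ hψ => by
    obtain ⟨σ, h1, h2⟩ := (Finset.mem_filter.1 hψ).2
    rw [mm_eq, mm_eq, rg_eq_iff.2 fun g hg => ?_]
    rw [h2]
    haveI := NeZero.mk h0
    refine (χ.2.isCharacter.map_apply_eq_pow (σ : ℂ →+* ℂ) (m := Nat.card G / p ^ a) (k := 1) (fun z hz => ?_) ?_).trans (by rw [pow_one])
    · obtain ⟨i, -, rfl⟩ := (Complex.isPrimitiveRoot_exp _ h0).eq_pow_of_pow_eq_one hz
      rw [map_pow, pow_one]
      exact congrArg (· ^ i) h1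
    · exact (((Nat.Prime.coprime_iff_not_dvd hp).2 hg).symm.pow_right a).dvd_of_dvd_mul_left
        ((orderOf_dvd_natCard g).trans (Nat.ordProj_mul_ordCompl_eq_self _ p).symm.dvd)
  have hd := charDegree_ne_zero χ.2
  have hb : (charDegree χ.1).factorization p ≤ a :=
    (Nat.factorization_le_iff_dvd hd Nat.card_pos.ne').2 (charDegree_dvd χ.2) p
  set b := a - (charDegree χ.1).factorization p with hbb
  choose n hn _ using fun ψ : IrrCharacter G => exists_int_mm (M := M) χ ψ.2.isCharacter.isGen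
  have hpb : (p : ℂ) ^ b ≠ 0 := pow_ne_zero _ (Nat.cast_ne_zero.2 hp.ne_zero)
  have h1 : ∑ ψ, n ψ ^ 2 = p ^ b * n χ := by
    refine Int.cast_injective (α := ℂ) ?_
    push_cast
    rw [← hn, mm_eq_sum_mm χ.2.isClassFunction, Finset.mul_sum, Finset.mul_sum]
    refine Finset.sum_congr rfl fun ψ _ => ?_
    rw [← hn, mm_comm ψ.2.isCharacter.isGen χ.2.isCharacter.isGen]
    ring
  have h2 : ∀ ψ ∈ S, n ψ = n χ := fun ψ hψ => Int.cast_injective (α := ℂ) (by rw [← hn, ← hn, hS ψ hψ])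
  have h3 : (p : ℂ) ^ b • rg p χ.1 = ∑ ψ : IrrCharacter G, (n ψ : ℂ) • ψ.1 := by
    rw [(isClassFunction_rg χ.2.isClassFunction).eq_sum_irr, Finset.smul_sum]
    exact Finset.sum_congr rfl fun ψ _ => by rw [smul_smul, ← hn]; rfl
  have h4 : n χ ≠ 0 := fun h => by
    rw [h, mul_zero, Finset.sum_eq_zero_iff_of_nonneg fun _ _ => sq_nonneg _] at h1
    have := congrFun h3 1
    rw [Finset.sum_eq_zero fun ψ hψ => by rw [pow_eq_zero_iff two_ne_zero |>.1 (h1 ψ hψ)]; simp, Pi.smul_apply,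
      rg_one] at this
    exact mul_ne_zero hpb χ.2.apply_one_ne_zero this
  rw [← Finset.sum_filter_add_sum_filter_not Finset.univ (· ∈ S), Finset.filter_mem_eq_inter, Finset.univ_inter,
    Finset.sum_congr rfl fun ψ hψ => by rw [h2 ψ hψ], Finset.sum_const, hr, nsmul_eq_mul] at h1
  have h5 := Finset.sum_nonneg (s := Finset.univ.filter (¬ · ∈ S)) fun ψ _ => sq_nonneg (n ψ)
  have hr0 : 0 < r := hr ▸ Finset.card_pos.2 ⟨χ, Finset.mem_filter.2 ⟨Finset.mem_univ _, RingEquiv.refl ℂ, rfl, rfl⟩⟩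
  have h6 : (0 : ℤ) < p ^ b := pow_pos (Nat.cast_pos.2 hp.pos) _
  have h7 : 0 < n χ := by
    refine lt_of_le_of_ne (le_of_mul_le_mul_left ?_ h6) h4.symm
    rw [← h1]; positivity
  have h8 : r * n χ ≤ p ^ b := le_of_mul_le_mul_right (by nlinarith) h7
  have h9 : r ≤ p ^ b := by
    have : (r : ℤ) ≤ p ^ b := by nlinarith
    exact_mod_cast this
  have h10 : r.factorization p ≤ b := (Nat.pow_le_pow_iff_right hp.one_lt).1 ((Nat.ordProj_le p hr0.ne').trans h9)
  refine ⟨by rw [Nat.factorization_mul hr0.ne' hd, Finsupp.add_apply]; omega, fun h => ?_⟩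
  rw [hp.pow_dvd_iff_le_factorization (mul_ne_zero hr0.ne' hd), Nat.factorization_mul hr0.ne' hd,
    Finsupp.add_apply] at h
  have h11 : r = p ^ b := h9.antisymm (Nat.le_of_dvd hr0 ((hp.pow_dvd_iff_le_factorization hr0.ne').2 (by omega)))
  have h12 : n χ = 1 := by
    rw [h11] at h8
    push_cast at h8
    nlinarith
  rw [h12, h11, one_pow, Nat.cast_pow, add_eq_left, Finset.sum_eq_zero_iff_of_nonneg fun _ _ => sq_nonneg _] at h1
  obtain ⟨P⟩ : Nonempty (Sylow p G) := inferInstance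
  haveI := Fintype.ofFinite (P : Subgroup G)
  obtain ⟨k, hk⟩ := (χ.2.isCharacter.restrict (P : Subgroup G)).exists_nat_classInner isCharacter_one
  rw [classInner_one_right, inv_mul_eq_iff_eq_mul₀ (natCard_ne_zero _), P.card_eq_multiplicity] at hk
  have h13 : ∑ x : (P : Subgroup G), ((p : ℂ) ^ b • rg p χ.1) x = p ^ b * χ.1 1 := by
    rw [Finset.sum_eq_single 1 (fun x _ hx => ?_) (by simp), Pi.smul_apply, OneMemClass.coe_one, rg_one, smul_eq_mul]
    obtain ⟨j, hj⟩ := IsPGroup.iff_orderOf.1 P.isPGroup' x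
    rw [Pi.smul_apply, rg_of_sing, smul_zero]
    rw [orderOf_coe, hj]
    exact dvd_pow_self p fun h => hx (orderOf_eq_one_iff.1 (by rw [hj, h, pow_zero]))
  rw [h3] at h13
  simp only [Finset.sum_apply, Pi.smul_apply, smul_eq_mul] at h13
  rw [Finset.sum_comm, ← Finset.sum_subset (Finset.subset_univ S) fun ψ _ hψ => by
    rw [pow_eq_zero_iff two_ne_zero |>.1 (h1 ψ (Finset.mem_filter.2 ⟨Finset.mem_univ _, hψ⟩))]; simp,
    Finset.sum_congr rfl (g := fun _ => ((p ^ a * k : ℕ) : ℂ)) fun ψ hψ => by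
      obtain ⟨σ, -, e⟩ := (Finset.mem_filter.1 hψ).2
      rw [← Finset.mul_sum, h2 ψ hψ, h12, e, ← map_sum, hk, ← Nat.cast_mul, map_natCast, Int.cast_one, one_mul],
    Finset.sum_const, hr, h11, nsmul_eq_mul, Nat.cast_pow, ← coe_charDegree χ.2.isCharacter] at h13
  exact ⟨k, by exact_mod_cast (mul_left_cancel₀ hpb h13).symm⟩


end Cfsg.Agent.S4506
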