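import Cfsg.Statements.S4507
import Mathlib
import Cfsg.Agent.H4.Cy8
import Cfsg.Agent.H3.Eta

set_option autoImplicit false
open Cfsg

open Cfsg CfsgH3 CfsgH4 CfsgH1 CfsgL0 MonoidAlgebra

namespace Cfsg.Agent.S4507

/-- Let G be a finite group whose order g is divisible by the prime p exactly once, g′ = g/p, and fix a maximal ideal M of the algebraic integers containing p. Call two irreducible characters p-conjugate when a field automorphism of ℂ fixing the g′-th roots of unity carries one to the other. Let B be a p-block of positive defect (its defect group is a Sylow p-subgroup). Then B contains a subset Y (the exceptional family) such that: Y is a full p-conjugacy class (its members are pairwise p-conjugate and every p-conjugate of a member of Y lies in Y); every member of B outside Y is p-conjugate only to itself; the size t of Y divides p − 1 and B has exactly t + (p − 1)/t members; and there are signs δ_χ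 = ±1 (χ ∈ B) such that for every p-regular element x and every θ ∈ Y, Σ_{χ ∈ B ∖ Y} δ_χ χ(x) + δ_θ θ(x) = 0. -/
theorem result {G : Type*} [Group G] [Finite G] (p : ℕ) [Fact p.Prime] (M : Ideal Cfsg.AlgInt) (hM : Cfsg.IsPModular p M) (hdiv : p ∣ Nat.card G) (hsq : ¬ p ^ 2 ∣ Nat.card G) (B : Set (Cfsg.IrrCharacter G)) (hB : Cfsg.IsPBlock M B) (hd : 0 < Cfsg.blockDefect p B) : ∃ Y : Set (Cfsg.IrrCharacter G), Y ⊆ B ∧ Y.Nonempty ∧ (∀ θ ∈ Y, ∀ ψ : Cfsg.IrrCharacter G, (∃ σ : ℂ ≃+* ℂ, σ (Complex.exp (2 * Real.pi * Complex.I / ((Nat.card G / p ^ (Nat.card G).factorization p) : ℕ))) = Complex.exp (2 * Real.pi * Complex.I / ((Nat.card G / p ^ (Nat.card G).factorization p) : ℕ)) ∧ (ψ : G → ℂ) = fun g => σ ((θ : G → ℂ) g)) ↔ ψ ∈ Y) ∧ (∀ χ ∈ B, χ ∉ Y → ∀ ψ : Cfsg.IrrCharacter G, (∃ σ : ℂ ≃+* ℂ, σ (Complex.exp (2 * Real.pi * Complex.I / ((Nat.card G / p ^ (Nat.card G).factorization p) : ℕ))) = Complex.exp (2 * Real.pi * Complex.I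 / ((Nat.card G / p ^ (Nat.card G).factorization p) : ℕ)) ∧ (ψ : G → ℂ) = fun g => σ ((χ : G → ℂ) g)) → ψ = χ) ∧ Nat.card Y ∣ p - 1 ∧ Nat.card B = Nat.card Y + (p - 1) / Nat.card Y ∧ ∃ δ : Cfsg.IrrCharacter G → ℤ, (∀ χ ∈ B, δ χ = 1 ∨ δ χ = -1) ∧ ∀ x : G, ¬ p ∣ orderOf x → ∀ θ ∈ Y, (∑ᶠ χ ∈ B \ Y, (δ χ : ℂ) * (χ : G → ℂ) x) + (δ θ : ℂ) * (θ : G → ℂ) x = 0 := by
  classical
  haveI : PMod p M := ⟨hM⟩
  have hp : p.Prime := Fact.out
  obtain ⟨P, hP⟩ := hB.exists_defectGroup (p := p)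
  have h1 : (Nat.card G).factorization p = 1 := le_antisymm (Nat.lt_succ_iff.1 (not_le.1 fun h =>
    hsq ((hp.pow_dvd_iff_le_factorization Nat.card_pos.ne').2 h)))
    (hp.factorization_pos_of_dvd Nat.card_pos.ne' hdiv)
  have h2 := hP.card_eq hB
  rw [show blockDefect p B = 1 from le_antisymm (h1 ▸ blockDefect_le B) hd, pow_one] at h2
  obtain ⟨u, hu, rfl⟩ := exists_zpowers_eq h2
  obtain ⟨e, hm⟩ := exists_maxPr hB.isBlk (hB.isDefectGroup_iff.1 hP)
  have := Fintype.ofFinite (Subgroup.centralizer (Subgroup.zpowers u : Set G))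
  obtain ⟨β, e', Φ, X, y, ε, δ, h⟩ := hm.exists_d1 hB hu
  have h3 := Nat.ordCompl_pos p (Nat.card_pos (α := G)).ne'
  have h4 := Complex.isPrimitiveRoot_exp _ h3.ne'
  have h5 : ∀ σ : ℂ ≃+* ℂ, σ _ = _ → FixReg G p σ := fun σ hσ => fixReg_of fun z hz => by
    have : NeZero _ := ⟨h3.ne'⟩
    obtain ⟨i, -, rfl⟩ := h4.eq_pow_of_pow_eq_one hz
    rw [map_pow]
    exact congrArg (· ^ i) hσ
  have h6 := h.s.card_exc h.d
  rw [h.card] at h6
  have h7 : p - 1 = Nat.card (autE (Subgroup.zpowers u) e) * (exc y).card := by omega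
  have h8 : 0 < (exc y).card := Nat.pos_of_mul_pos_left (h7 ▸ Nat.sub_pos_of_lt hp.one_lt)
  refine ⟨exc y, fun χ hχ => h.s.mem_iff.2 (.inr hχ), Finset.card_pos.1 h8, fun θ hθ ψ => ?_,
    fun χ h1 h2 ψ ⟨σ, h3, h4⟩ => Subtype.ext (h4.trans (funext
      (h.galX (h5 σ h3) ((h.s.mem_iff.1 h1).resolve_right h2)))), by simp [h7], ?_,
    fun χ => if χ ∈ X then ε χ else δ, fun χ _ => ?_, fun x hx θ hθ => ?_⟩
  · obtain ⟨l, hl, rfl⟩ := mem_exc.1 hθ
    refine ⟨fun ⟨σ, h1, h2⟩ => mem_exc.2 ⟨_, linMap_ne_one σ hl,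
      Subtype.ext ((funext (h.galY (h5 σ h1) hl)).symm.trans h2.symm)⟩, fun h1 => ?_⟩
    obtain ⟨k, hk, rfl⟩ := mem_exc.1 h1
    obtain ⟨σ, h1, h2⟩ := Ch.exists_gal (h.card.symm ▸ hp) (j := l) (k := k) hl hk h3.ne'
      (h.card.symm ▸ Nat.coprime_ordCompl hp Nat.card_pos.ne')
    exact ⟨σ, h2 _ h4.pow_eq_one, h1 ▸ (funext (h.galY (fixReg_of h2) hl)).symm⟩
  · rw [h.s.card_B, h7, Finset.coe_sort_coe, Nat.card_eq_finsetCard, Nat.mul_div_cancel _ h8,
      add_comm]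
  · dsimp only
    split_ifs
    exacts [h.s.sgn χ, h.s.sgn']
  · obtain ⟨l, hl, rfl⟩ := mem_exc.1 hθ
    beta_reduce
    rw [show B \ exc y = X from by
      rw [h.s.eq_union, Set.union_diff_cancel_right (Finset.disjoint_coe.2 h.s.disjoint).le_bot],
      finsum_mem_coe_finset, Finset.sum_congr rfl fun χ hχ => by rw [if_pos hχ],
      if_neg (h.s.notMem l hl), add_comm]
    exact h.s.rel l hl x hx

end Cfsg.Agent.S4507
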