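import Cfsg.Statements.S4508
import Cfsg.Agent.H3.Sc
import Cfsg.Agent.H4.Br2
import Cfsg.Agent.H4.Ext1

set_option autoImplicit false
open Cfsg

open Cfsg CfsgH3 CfsgH4 CfsgSc Function Subgroup

namespace Cfsg.Agent.S4508
theorem dt_reg {E : Type*} [Group E] [Finite E] {j : E} (hj : ∀ x, x ∈ zpowers j) (he : Even (Nat.card E)) :
    (dt (regChar E) j : ℂ) = -1 := by
  classical
  obtain ⟨m, hm⟩ := he
  have h0 : Nat.card E ≠ 0 := Nat.card_pos.ne'
  have hζ := (Complex.isPrimitiveRoot_exp _ h0).isUnit_unit h0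
  generalize ((Complex.isPrimitiveRoot_exp _ h0).isUnit h0).unit = z at hζ
  have ho := orderOf_eq_card_of_forall_mem_zpowers hj
  let l : E →* ℂˣ := monoidHomOfForallMemZpowers hj (g' := z) (by rw [← hζ.eq_orderOf, ho])
  have hl : l j = z := monoidHomOfForallMemZpowers_apply_gen _ _
  have e : regChar E = ∑ k ∈ Finset.range (Nat.card E), fun g => ((l ^ k) g : ℂ) := by
    funext g
    have := sum_pow_div (s := l g) (ζ := 1) (m := Nat.card E)
      (by rw [← Units.val_pow_eq_pow_val, ← map_pow, pow_card_eq_one', map_one, Units.val_one]) (one_pow _) h0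
    simp only [one_pow, div_one] at this
    simp only [Finset.sum_apply, MonoidHom.pow_apply, Units.val_pow_eq_pow_val, this]
    split_ifs with h
    · obtain ⟨k, rfl⟩ := mem_zpowers_iff.1 (hj g)
      rw [Units.val_eq_one, map_zpow, hl, hζ.zpow_eq_one_iff_dvd, ← ho, orderOf_dvd_iff_zpow_eq_one] at h
      rw [h, regChar_one]
    · exact regChar_of_ne fun e => h (by rw [e, map_one, Units.val_one])
  rw [e, dt_sum _ _ fun k _ => (isIrr_of_unitsHom (l ^ k)).isCharacter]
  simp only [dt_lin]
  simp only [MonoidHom.pow_apply, hl]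
  have a : ∑ k ∈ Finset.range (Nat.card E), k = m * (Nat.card E - 1) := by
    have := Finset.sum_range_id_mul_two (Nat.card E)
    nth_rw 2 [hm] at this
    nlinarith
  have b : z ^ m = -1 := Units.ext (by
    simpa using ((IsPrimitiveRoot.coe_units_iff.2 hζ).pow Nat.card_pos (hm.trans (mul_two m).symm)).eq_neg_one_of_two_right)
  rw [Finset.prod_pow_eq_pow_sum, a, pow_mul, b, Odd.neg_one_pow (Nat.Even.sub_odd Nat.card_pos ⟨m, hm⟩ odd_one)]
  simp

/-- Let the finite group G contain an element x of prime order p with C_G(x) = ⟨x⟩, and let t be the number of conjugacy classes of elements of order p. If G has an irreducible character of degree p − 1, then t is even or the commutator subgroup has even index. -/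
theorem result {G : Type*} [Group G] [Finite G] (p : ℕ) (hp : p.Prime) (x : G) (hx : orderOf x = p) (hC : Subgroup.centralizer ({x} : Set G) = Subgroup.zpowers x) (t : ℕ) (ht : Nat.card {C : ConjClasses G // ∃ g ∈ C.carrier, orderOf g = p} = t) (χ : Cfsg.IrrCharacter G) (hχ : Cfsg.charDegree (χ : G → ℂ) + 1 = p) : Even t ∨ Even (commutator G).index := by
  classical
  haveI := Fact.mk hp
  haveI := Fintype.ofFinite G
  have h : SC p x := ⟨hx, hC⟩
  subst ht
  by_contra hn
  rw [not_or, Nat.not_even_iff_odd, Nat.not_even_iff_odd] at hn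
  have hte := h.tc_mul
  rcases hp.eq_two_or_odd' with rfl | ho
  · exact absurd ((h.of_eq (Nat.eq_one_of_mul_eq_one_right hte)).2.1 ▸ hn.2) (by decide)
  obtain ⟨M, _⟩ := exists_pmod p
  obtain ⟨e, X, y, ε, δ, hb⟩ := exists_pb (M := M) hx h.not_dvd_index
  have hC' := h.cent'
  have he : (zpowers x).relIndex (normalizer (zpowers x : Set G)) = e := by rw [← hb.idx, hC']
  rw [he] at hte
  have hev : Even e := by
    have : Even (tc p G * e) := hte ▸ Nat.Odd.sub_odd ho odd_one
    exact (Nat.even_mul.1 this).resolve_left (Nat.not_even_iff_odd.2 hn.1)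
  have hp2 := hp.two_le
  have hele : e ≤ p - 1 := Nat.le_of_dvd (by omega) ⟨_, hte.symm.trans (mul_comm _ _)⟩
  have hd : χ.1 1 = (p : ℂ) - 1 := by rw [← coe_deg, ← hχ]; simp
  have hl : χ.1 1 + sS x χ.1 = p * (0 : ℕ) := by
    obtain ⟨l, hl⟩ := exists_sS χ.2.isCharacter x
    rw [hx] at hl
    suffices l = 0 from this ▸ hl
    rw [hd] at hl
    have key : ∀ s : ℤ, sS x χ.1 = s → (p - 1 + s : ℤ) = p * l := fun s hs => by
      rw [hs] at hl
      exact_mod_cast hl
    obtain ⟨k, rfl⟩ := ho
    obtain ⟨e', rfl⟩ := hev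
    have hpos := hb.pos
    by_contra h0
    have h1 : 1 ≤ l := Nat.pos_of_ne_zero h0
    by_cases hX : χ ∈ X
    · have := key ((2 * k + 1 - 1) * ε χ) (by rw [hb.sX hX]; push_cast; ring)
      rcases hb.sgn χ with a | a <;> rw [a] at this <;> push_cast at this
      · rcases h1.eq_or_lt with rfl | h1
        · omega
        · nlinarith
      · nlinarith
    by_cases hY : χ ∈ exc y
    · have := key (δ * (e' + e')) (by rw [hb.sY hY]; push_cast; ring)
      rcases hb.sgn' with a | a <;> rw [a] at this <;> push_cast at this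
      · rcases h1.eq_or_lt with rfl | h1
        · omega
        · have : e' ≤ k := by omega
          nlinarith
      · nlinarith
    · have := key 0 (by rw [hb.sOut hC' hX hY]; simp)
      push_cast at this
      nlinarith
  obtain ⟨μ, hμ, h1, h2⟩ := hb.exists_loc hC' χ.2.isCharacter hl
  obtain rfl := hμ.eq_zero_of_apply_one (by simpa using h1)
  obtain ⟨-, j, hj, hg⟩ := exists_gen_of_le_norm hx le_rfl
  rw [hC'] at hg
  have hs : zpowers x ⊔ zpowers j = normalizer (zpowers x : Set G) :=
    le_antisymm (sup_le le_normalizer (zpowers_le_of_mem hj)) fun g hg' => by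
      obtain ⟨k, hk⟩ := hg g hg'
      simpa using mul_mem (mem_sup_right (npow_mem_zpowers j k)) (mem_sup_left hk : _ ∈ zpowers x ⊔ zpowers j)
  have hjx : j ∉ zpowers x := fun a => by
    rw [← hs, sup_eq_left.2 (zpowers_le_of_mem a), relIndex_self] at he
    exact absurd (he ▸ hev) (by decide)
  have hb' := h.inf_bot (S := zpowers j) (by rw [Nat.card_zpowers]; exact ((hb.notMem_iff hC' hj).1 hjx).2)
  have hc := CfsgH2.card_sup_of_disj (.inr (zpowers_le_of_mem hj)) hb'
  rw [hs, hb.card_N hC', h.card, mul_comm] at hc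
  have hc' := Nat.eq_of_mul_eq_mul_left hp.pos hc
  have hr : (fun v : zpowers j => χ.1 v) = ((tc p G : ℕ) : ℂ) • regChar (zpowers j) := by
    funext v
    by_cases hv : v = 1
    · rw [hv, Pi.smul_apply, regChar_one, ← hc', OneMemClass.coe_one, hd, smul_eq_mul, ← Nat.cast_mul, hte]
      simp [hp.one_le]
    · rw [Pi.smul_apply, regChar_of_ne hv, smul_zero]
      exact h2 ⟨v, zpowers_le_of_mem hj v.2⟩ fun a => hv (Subtype.ext (mem_bot.1 (hb'.le ⟨a, v.2⟩)))
  have a := dt_restrict χ.2.isCharacter (zpowers j) ⟨j, mem_zpowers j⟩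
  rw [hr, dt_nsmul isCharacter_regChar] at a
  have b := dt_reg (j := (⟨j, mem_zpowers j⟩ : zpowers j)) (fun ⟨_, k, hk⟩ => ⟨k, Subtype.ext hk⟩) (hc' ▸ hev)
  have c : dt χ.1 j ^ (commutator G).index = 1 := by
    rw [← map_pow]
    exact Abelianization.commutator_subset_ker _ (pow_index_mem _ j)
  rw [← a, ← pow_mul, ← Units.val_eq_one, Units.val_pow_eq_pow_val, b, (hn.1.mul hn.2).neg_one_pow] at c
  norm_num at c


end Cfsg.Agent.S4508
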