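import Cfsg.Statements.S4509
import Cfsg.Agent.H3.Sc

set_option autoImplicit false
open Cfsg

open Cfsg CfsgSc CfsgH2 Function Subgroup

namespace Cfsg.Agent.S4509

/-- Let the finite group G contain an element x of prime order p with C_G(x) = ⟨x⟩; let t be the number of conjugacy classes of elements of order p and 1 + n·p the number of subgroups of order p. Then G has a normal subgroup of order 1 + n·p if and only if either t = p − 1, or t < p − 1 and G″ ≠ G′. Moreover, if t = p − 1 then G′ has order 1 + n·p and G/G′ is cyclic of order p; and if t < p − 1 and G″ ≠ G′ then G″ has order 1 + n·p and G′ has order p·(1 + n·p). -/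
theorem result {G : Type*} [Group G] [Finite G] (p : ℕ) (hp : p.Prime) (x : G) (hx : orderOf x = p) (hC : Subgroup.centralizer ({x} : Set G) = Subgroup.zpowers x) (t : ℕ) (ht : Nat.card {C : ConjClasses G // ∃ g ∈ C.carrier, orderOf g = p} = t) (n : ℕ) (hn : Nat.card {H : Subgroup G // Nat.card H = p} = 1 + n * p) : ((∃ S : Subgroup G, S.Normal ∧ Nat.card S = 1 + n * p) ↔ (t = p - 1 ∨ (t < p - 1 ∧ derivedSeries G 2 ≠ derivedSeries G 1))) ∧ (t = p - 1 → Nat.card (commutator G) = 1 + n * p ∧ IsCyclic (G ⧸ commutator G) ∧ (commutator G).index = p) ∧ (t < p - 1 → derivedSeries G 2 ≠ derivedSeries G 1 → Nat.card (derivedSeries G 2) = 1 + n * p ∧ Nat.card (commutator G) = p * (1 + n * p)) := by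
  haveI := Fact.mk hp
  have h : SC p x := ⟨hx, hC⟩
  subst ht
  rw [← hn]
  refine ⟨⟨fun ⟨S, _, hS⟩ => ?_, fun e => ?_⟩, fun e => ?_, fun e hd => h.of_ne e.ne hd⟩
  · exact h.tc_le.eq_or_lt.imp_right fun e => ⟨e, h.ne_of_card hS e.ne⟩
  · rcases e with e | ⟨e, hd⟩
    · exact ⟨_, inferInstance, (h.of_eq e).2.2⟩
    · exact ⟨_, inferInstance, (h.of_ne e.ne hd).1⟩
  · exact ⟨(h.of_eq e).2.2, isCyclic_of_prime_card (h.of_eq e).2.1, (h.of_eq e).2.1⟩


end Cfsg.Agent.S4509
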