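import Cfsg.Statements.S4510
import Mathlib
import Cfsg.Agent.H4.Rob

set_option autoImplicit false
open Cfsg

open Cfsg CfsgH3 CfsgH4 CfsgH1 CfsgL0 MonoidAlgebra Function
open scoped ComplexConjugate Pointwise

namespace Cfsg.Agent.S4510

/-- Let G be a finite group, p a prime, M a maximal ideal of the algebraic integers containing p, and call the defect of a conjugacy class the exponent of p in the order of the centralizer of its elements. Two irreducible characters lying in p-blocks of defect exactly d lie in the same block if and only if their central characters (class size times χ(x)/χ(1)) agree modulo the local ideal at M at every p-regular element x whose class has defect exactly d. -/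
theorem result {G : Type*} [Group G] [Finite G] (p : ℕ) [Fact p.Prime] (M : Ideal Cfsg.AlgInt) (hM : Cfsg.IsPModular p M) (d : ℕ) (χ ψ : Cfsg.IrrCharacter G) (hχ : Cfsg.blockDefect p (Cfsg.blockOf M (χ : G → ℂ)) = d) (hψ : Cfsg.blockDefect p (Cfsg.blockOf M (ψ : G → ℂ)) = d) : Cfsg.SameBlock M (χ : G → ℂ) (ψ : G → ℂ) ↔ ∀ x : G, ¬ p ∣ orderOf x → (Nat.card (Subgroup.centralizer ({x} : Set G))).factorization p = d → Cfsg.MemLocalIdeal M (Cfsg.centralChar (χ : G → ℂ) x - Cfsg.centralChar (ψ : G → ℂ) x) := by
  classical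
  haveI : PMod p M := ⟨hM⟩
  refine ⟨fun h x _ _ => h x, fun h => ?_⟩
  have := Fintype.ofFinite (ConjClasses G)
  let B : Bl M G := ⟨_, isPBlock_blockOf χ.2⟩
  let B' : Bl M G := ⟨_, isPBlock_blockOf ψ.2⟩
  refine mem_blockOf.1 (B.2.mem_iff_lam.2 ?_)
  rw [← B.2.lam_eB (mem_blockOf_self χ), lam_apply, lam_apply]
  refine Finset.sum_congr rfl fun c _ => ?_
  by_cases a : (eB M B.1).coeff (crep c) = 0; · simp [a]
  congr 1
  have b := hχ ▸ B.fact_le_of_coeff a
  rcases b.lt_or_eq with b | b
  · rw [← wB_eq B (mem_blockOf_self χ), ← wB_eq B' (mem_blockOf_self ψ),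
      of_not_not fun e => b.not_ge (hχ ▸ B.fact_le_of_wB e), of_not_not fun e => b.not_ge (hψ ▸ B'.fact_le_of_wB e)]
  · exact ((red_eq_iff (centralChar_mem_Loc χ.2 _) (centralChar_mem_Loc ψ.2 _)).2
      (h _ (B.reg_of_coeff a) b)).symm

end Cfsg.Agent.S4510
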