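import Cfsg.Statements.S4511
import Mathlib
import Cfsg.Agent.H4.Sub

set_option autoImplicit false
open Cfsg

open Cfsg CfsgH3 CfsgH4 CfsgH1 CfsgL0 MonoidAlgebra

namespace Cfsg.Agent.S4511

/-- Brauer's count of the irreducible characters in a block by subsections. Let M be a maximal ideal of the algebraic integers containing the prime p, B a p-block of the finite group G, and X a set of representatives of the conjugacy classes of p-elements of G (elements of p-power order, the identity included: every p-element is conjugate to exactly one member of X). Then the number of irreducible characters in B is the sum, over x ∈ X and over the blocks b of C_G(x) that induce B, of the p-regular rank of b (the number of irreducible Brauer characters of b, here the dimension of the span of the restrictions of the members of b to the p-regular elements of C_G(x)). -/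
theorem result {G : Type*} [Group G] [Finite G] (p : ℕ) (M : Ideal Cfsg.AlgInt) (hM : Cfsg.IsPModular p M)
    (B : Set (Cfsg.IrrCharacter G)) (hB : Cfsg.IsPBlock M B) (X : Finset G)
    (hX : ∀ x ∈ X, ∃ k : ℕ, orderOf x = p ^ k)
    (hXrep : ∀ g : G, (∃ k : ℕ, orderOf g = p ^ k) → ∃! x, x ∈ X ∧ IsConj g x) :
    Nat.card B = ∑ x ∈ X, ∑ᶠ b ∈ {b : Set (Cfsg.IrrCharacter ↥(Subgroup.centralizer ({x} : Set G))) | Cfsg.IsInducedBlock M (Subgroup.centralizer ({x} : Set G)) b B},
      Cfsg.blockRank p b := by
  haveI : PMod p M := ⟨hM⟩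
  haveI : Fact p.Prime := ⟨hM.1⟩
  classical
  haveI := Fintype.ofFinite G
  have key : ∀ χ : IrrCharacter G, ∑ x ∈ X, classInner ({g | IsConj x (ppart p g)}.indicator χ.1) χ.1 = 1 := by
    intro χ
    rw [← classInner_sum_left, ← χ.2.classInner_self]
    refine congrArg (fun t => classInner t χ.1) (funext fun g => ?_)
    obtain ⟨x, ⟨hx, hc⟩, hu⟩ := hXrep _ (pelt_ppart p g)
    rw [Finset.sum_apply, Finset.sum_eq_single x, Set.indicator_of_mem (by exact hc.symm)]
    · intro y hy hne
      exact Set.indicator_of_notMem (s := {g | IsConj y (ppart p g)}) (fun h => hne (hu y ⟨hy, IsConj.symm h⟩)) χ.1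
    · exact fun h => (h hx).elim
  apply Nat.cast_injective (R := ℂ)
  rw [natCard_set_irr, Nat.cast_sum, Nat.cast_sum]
  have h1 : ∀ x ∈ X, ((∑ᶠ b ∈ {b : Set (IrrCharacter ↥(Subgroup.centralizer ({x} : Set G))) |
      IsInducedBlock M (Subgroup.centralizer ({x} : Set G)) b B}, blockRank p b : ℕ) : ℂ) =
      ∑ χ : IrrCharacter G, if χ ∈ B then classInner ({g | IsConj x (ppart p g)}.indicator χ.1) χ.1 else 0 := by
    intro x hx
    haveI := Fintype.ofFinite (Subgroup.centralizer ({x} : Set G))
    rw [← blockRank_brSet rfl (hX x hx) hB, ← sum_mm_tr rfl (hX x hx) hB.fB_mem]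
    refine Finset.sum_congr rfl fun χ _ => ?_
    rw [classInner_section rfl (hX x hx) χ.2.isClassFunction χ.2.isClassFunction]
  rw [Finset.sum_congr rfl h1, Finset.sum_comm]
  refine Finset.sum_congr rfl fun χ _ => ?_
  split_ifs with h
  · rw [key, Nat.cast_one]
  · simp

end Cfsg.Agent.S4511
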