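import Cfsg.Statements.S4512
import Mathlib
import Cfsg.Agent.H4.K4

set_option autoImplicit false
open Cfsg

open Cfsg CfsgH3 CfsgH4 CfsgH1 CfsgL0 MonoidAlgebra

namespace Cfsg.Agent.S4512

/-- If G is a finite group with a Sylow 2-subgroup that is a Klein four-group and a single conjugacy class of involutions, then its principal 2-block (relative to a maximal ideal M of the algebraic integers containing 2) has 2-regular rank 3: the restrictions of its irreducible characters to the elements of odd order span a space of dimension 3 (it has three irreducible Brauer characters). -/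
theorem result {G : Type*} [Group G] [Finite G] (M : Ideal Cfsg.AlgInt) (hM : Cfsg.IsPModular 2 M) (P : Sylow 2 G)
    (hP : Nat.card P = 4) (hexp : ∀ x : P, x * x = 1)
    (hone : ∀ s t : G, orderOf s = 2 → orderOf t = 2 → IsConj s t) :
    Cfsg.blockRank 2 (Cfsg.principalBlock M G) = 3 := by
  haveI : PMod 2 M := ⟨hM⟩
  obtain ⟨η, ε, h⟩ := exists_k4d (M := M) (G := G) (by
    rw [P.card_eq_multiplicity] at hP
    exact Nat.pow_right_injective le_rfl hP) (fun g hg => by
      obtain ⟨x, hx⟩ := GQ.exists_conj_mem (CfsgH2.syl_top P) hg
      simpa using congrArg Subtype.val (hexp ⟨_, hx⟩)) hone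
  exact h.rank

end Cfsg.Agent.S4512
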