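import Cfsg.Statements.S4513
import Mathlib
import Cfsg.Agent.H4.Gdn
import Cfsg.Agent.H4.G2

set_option autoImplicit false
open Cfsg

open Cfsg CfsgH3 CfsgH4 CfsgH1 CfsgL0 MonoidAlgebra

namespace Cfsg.Agent.S4513

/-- Blocks of defect one for p = 2. Let M be a maximal ideal of the algebraic integers containing 2, B a 2-block of the finite group G whose defect group is the subgroup generated by an involution x, C = C_G(x), b a block of C inducing B and θ a member of b taking the same value at x as at 1 (there is exactly one). Then B consists of exactly two irreducible characters, which agree on every element of odd order, and they can be labelled χ₁, χ₂ with signs ε₁, ε₂ = ±1, ε₁ε₂ = −1, such that χᵢ(x y) = εᵢ θ(y) for every element y of C of odd order. -/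
theorem result {G : Type*} [Group G] [Finite G] (M : Ideal Cfsg.AlgInt) (hM : Cfsg.IsPModular 2 M) (x : G) (hx : orderOf x = 2)
    (B : Set (Cfsg.IrrCharacter G)) (hB : Cfsg.IsPBlock M B) (hBD : Cfsg.IsDefectGroup 2 M B (Subgroup.zpowers x))
    (b : Set (Cfsg.IrrCharacter ↥(Subgroup.centralizer ({x} : Set G)))) (hb : Cfsg.IsInducedBlock M (Subgroup.centralizer ({x} : Set G)) b B)
    (θ : Cfsg.IrrCharacter ↥(Subgroup.centralizer ({x} : Set G))) (hθ : θ ∈ b)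
    (hθx : ∀ z : ↥(Subgroup.centralizer ({x} : Set G)), (z : G) = x → (θ : ↥(Subgroup.centralizer ({x} : Set G)) → ℂ) z = (θ : ↥(Subgroup.centralizer ({x} : Set G)) → ℂ) 1) :
    Nat.card B = 2 ∧ (∀ χ ∈ B, ∀ ψ ∈ B, ∀ g : G, ¬ 2 ∣ orderOf g → (χ : G → ℂ) g = (ψ : G → ℂ) g) ∧
      ∃ χ₁ ∈ B, ∃ χ₂ ∈ B, χ₁ ≠ χ₂ ∧ ∃ ε₁ ε₂ : ℤ, (ε₁ = 1 ∨ ε₁ = -1) ∧ (ε₂ = 1 ∨ ε₂ = -1) ∧ ε₁ * ε₂ = -1 ∧
        ∀ y : ↥(Subgroup.centralizer ({x} : Set G)), ¬ 2 ∣ orderOf y →
          (χ₁ : G → ℂ) (x * y) = (ε₁ : ℂ) * (θ : ↥(Subgroup.centralizer ({x} : Set G)) → ℂ) y ∧ (χ₂ : G → ℂ) (x * y) = (ε₂ : ℂ) * (θ : ↥(Subgroup.centralizer ({x} : Set G)) → ℂ) y := by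
  classical
  haveI : PMod 2 M := ⟨hM⟩
  have := Fintype.ofFinite G
  clear hθx
  revert b θ
  rw [← centralizer_zpowers]
  intro b hb θ hθ
  have hm := hb.maxPr hBD
  have hP : Subgroup.zpowers x ≤ Subgroup.centralizer (Subgroup.zpowers x : Set G) :=
    Subgroup.le_centralizer_iff_isMulCommutative.2 inferInstance
  have hN : Subgroup.normalizer (Subgroup.zpowers x : Set G) ≤
      Subgroup.centralizer (Subgroup.zpowers x : Set G) := fun g hg => by
    have h1 := orderOf_dvd_natCard ((Subgroup.zpowers x).normalizerMonoidHom ⟨g, hg⟩)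
    rw [IsCyclic.card_mulAut, Nat.card_zpowers, hx, Nat.totient_two, Nat.dvd_one,
      orderOf_eq_one_iff, ← MonoidHom.mem_ker, Subgroup.normalizerMonoidHom_ker] at h1
    exact h1
  have hU := (isNilpotentBlock_iff.2 ⟨hB, (hm.nil_iff_of_comm hP).2
    ((stab_le _ _).trans hN)⟩).unif hBD hP
  have hxx : x * x = 1 := by rw [← sq, ← hx, pow_orderOf_eq_one]
  have hx' : ∃ k, orderOf x = 2 ^ k := ⟨1, hx⟩
  obtain ⟨β, hβ, h1, h2, -, h3, h4, h5⟩ := hm.exists_gd hB hP (Subgroup.mem_zpowers x) inf_le_left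
  rw [Nat.card_zpowers, hx] at hU h2 h5
  have h6 : brSet M (Subgroup.subtype _) B = β := by
    have h7 : ∀ γ, IsInducedBlock M _ γ B → γ = b := fun γ hγ => by
      obtain ⟨y, hy, h8⟩ := hm.pr.exists_cnj_eq hm.blk hm.mul hm.isDef
        (hγ.1.pr hm.pr.pgrp) (hγ.br_mul hm.pr.pgrp)
      rw [((hγ.1.pr hm.pr.pgrp).cent_le_stab (hN hy)).2] at h8
      exact hγ.1.ie_inj hb.1 h8
    rw [h7 β hβ]
    refine Set.Subset.antisymm (fun ξ hξ => ?_) (hb.subset_brSet (centralizer_zpowers x) hx')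
    rw [← h7 _ ((mem_brSet_cent_iff (centralizer_zpowers x) hx' hB).1 hξ)]
    exact mem_blockOf_self ξ
  obtain rfl : b = β := hb.1.ie_inj hβ.1 (hm.pr.dn_self.symm.trans h1)
  choose d hd using fun χ : IrrCharacter G =>
    exists_int_gsum_tr (centralizer_zpowers x) hxx b χ.2.isCharacter.isGen
  have h7 : ∀ χ ∈ B, ∀ y : Subgroup.centralizer (Subgroup.zpowers x : Set G), ¬ 2 ∣ orderOf y →
      χ.1 (x * y) = d χ * θ.1 y := fun χ hχ y hy => by
    rw [← hd, ← h2.blockPart_apply hθ _ hy, ← h6,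
      blockPart_tr_brSet (centralizer_zpowers x) hx' hB.fB_mem χ.2.isClassFunction hy,
      blockPart_irr_of_mem hχ]
  refine ⟨hU.card, fun χ hχ ψ hψ => rg_eq_iff.1 (hU.eq χ hχ ψ hψ), ?_⟩
  obtain ⟨χ₁, χ₂, h12, rfl⟩ := Set.ncard_eq_two.1 hU.card
  have hs : ∀ F : IrrCharacter G → ℂ, (∀ χ, χ ∉ ({χ₁, χ₂} : Set _) → F χ = 0) →
      ∑ χ, F χ = F χ₁ + F χ₂ := fun F hF =>
    Fintype.sum_eq_add χ₁ χ₂ h12 fun χ hχ => hF χ (by simpa [not_or] using hχ)
  rw [hs _ fun χ hχ => by rw [h4 χ hχ, zero_mul]] at h5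
  simp only [hd, map_intCast] at h3 h5
  have h8 := block_orthogonality (p := 2) hB.fB_mem (x := x) (y := 1) (by
    rw [ppart_of_pelt hx', ppart_one, isConj_one_left]
    rintro rfl
    simp at hx)
  have h9 := h7 χ₁ (by simp) 1 (by simp)
  have h10 := h7 χ₂ (by simp) 1 (by simp)
  rw [OneMemClass.coe_one, mul_one] at h9 h10
  rw [hs _ fun χ hχ => by rw [if_neg hχ], if_pos (by simp), if_pos (by simp), h9, h10,
    rg_eq_iff.1 (hU.eq χ₁ (by simp) χ₂ (by simp)) 1 (by simp), ← add_mul, ← add_mul,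
    mul_eq_zero, mul_eq_zero, map_eq_zero] at h8
  have h11 : d χ₁ + d χ₂ = 0 := by
    exact_mod_cast (h8.resolve_right χ₂.2.apply_one_ne_zero).resolve_right θ.2.apply_one_ne_zero
  have h12' : d χ₁ * d χ₁ + d χ₂ * d χ₂ = 2 := by exact_mod_cast h5
  have h13 : d χ₂ = -d χ₁ := by omega
  have h14 : d χ₁ * d χ₁ = 1 := by rw [h13] at h12'; linarith
  refine ⟨χ₁, by simp, χ₂, by simp, h12, d χ₁, d χ₂, mul_self_eq_one_iff.1 h14, ?_, ?_,
    fun y hy => ⟨h7 _ (by simp) y hy, h7 _ (by simp) y hy⟩⟩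
  · rcases mul_self_eq_one_iff.1 h14 with h | h <;> omega
  · rw [h13]; linarith

end Cfsg.Agent.S4513
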