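import Cfsg.Statements.S4633
import Mathlib
import Cfsg.Agent.H4.Trn
import Cfsg.Agent.H2.PG1

set_option autoImplicit false
open Cfsg

open Cfsg CfsgH3 CfsgH4 CfsgH1 CfsgL0 MonoidAlgebra

namespace Cfsg.Agent.S4633

/-- Let B be a block of the finite group G relative to a maximal ideal M of the algebraic integers containing the prime p, with a nontrivial cyclic defect group P. Let c be a block of C_G(P) inducing B and T the stabilizer of c in N_G(P) (the elements of N_G(P) conjugating c to itself); T contains C_G(P). Then T/C_G(P) is cyclic of order dividing p − 1, and it acts freely on the non-identity elements of P: an element of T fixing some non-identity element of P under conjugation lies in C_G(P). -/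
theorem result {G : Type*} [Group G] [Finite G] (p : ℕ) [Fact p.Prime] (M : Ideal Cfsg.AlgInt) (hM : Cfsg.IsPModular p M) (B : Set (Cfsg.IrrCharacter G)) (hB : Cfsg.IsPBlock M B) (P : Subgroup G) (hPD : Cfsg.IsDefectGroup p M B P) (hP1 : P ≠ ⊥) (hcyc : IsCyclic P) (c : Set (Cfsg.IrrCharacter (Subgroup.centralizer (P : Set G)))) (hc : Cfsg.IsInducedBlock M (Subgroup.centralizer (P : Set G)) c B) (T : Subgroup G) (hT : ∀ g : G, g ∈ T ↔ (g ∈ Subgroup.normalizer (P : Set G) ∧ Cfsg.StabilizesBlock (Subgroup.centralizer (P : Set G)) c g)) [hn : ((Subgroup.centralizer (P : Set G)).subgroupOf T).Normal] : IsCyclic (T ⧸ (Subgroup.centralizer (P : Set G)).subgroupOf T) ∧ (Subgroup.centralizer (P : Set G)).relIndex T ∣ p - 1 ∧ ∀ g ∈ T, ∀ x ∈ P, x ≠ 1 → g * x * g⁻¹ = x → g ∈ Subgroup.centralizer (P : Set G) := by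
  haveI : PMod p M := ⟨hM⟩
  have hm := hc.maxPr hPD
  obtain rfl := eq_stab_of hc.1 hT
  have hf := fun g hg x hx h1 h => hm.free_of_cyclic hcyc (g := g) (x := x) hg hx h1 h
  have hp : p.Prime := Fact.out
  obtain ⟨k, hk⟩ := IsPGroup.iff_card.1 hm.pr.pgrp
  have h1 : p ∣ Nat.card P := by
    rcases k with _ | k
    · exact absurd (Subgroup.card_eq_one.1 (by simpa using hk)) hP1
    · exact hk ▸ Dvd.intro_left _ rfl
  obtain ⟨⟨x, hx⟩, hx1⟩ := exists_prime_orderOf_dvd_card' p h1
  rw [Subgroup.orderOf_mk] at hx1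
  have h2 : stab (Subgroup.normalizer (P : Set G)) (ie M _ c) ≤
      Subgroup.normalizer (Subgroup.zpowers x : Set G) :=
    (stab_le _ _).trans (CfsgH2.norm_le_norm_of_cyclic hcyc (Subgroup.zpowers_le.2 hx))
  let φ := (Subgroup.zpowers x).normalizerMonoidHom.comp (Subgroup.inclusion h2)
  have h3 : φ.ker = (Subgroup.centralizer (P : Set G)).subgroupOf _ := by
    ext g
    rw [← MonoidHom.comap_ker, Subgroup.normalizerMonoidHom_ker, Subgroup.mem_comap,
      Subgroup.mem_subgroupOf, Subgroup.mem_subgroupOf, Subgroup.coe_inclusion]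
    refine ⟨fun h => hf _ g.2 x hx (fun h0 => hp.one_lt.ne' (by rw [← hx1, h0, orderOf_one])) ?_,
      fun h => cent_anti (Subgroup.zpowers_le.2 hx) h⟩
    rw [mem_cent_zpowers.1 h, mul_inv_cancel_right]
  have h4 : Nat.card (MulAut (Subgroup.zpowers x)) = p - 1 := by
    rw [IsCyclic.card_mulAut, Nat.card_zpowers, hx1, Nat.totient_prime hp]
  have h5 : IsCyclic (MulAut (Subgroup.zpowers x)) := by
    have e := IsCyclic.mulAutMulEquiv (Subgroup.zpowers x)
    rw [Nat.card_zpowers, hx1] at e
    have := ZMod.isCyclic_units_prime hp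
    exact isCyclic_of_surjective e.symm e.symm.surjective
  refine ⟨?_, ?_, hf⟩
  · have e := (QuotientGroup.quotientMulEquivOfEq h3.symm).trans
      (QuotientGroup.quotientKerEquivRange φ)
    exact isCyclic_of_surjective e.symm e.symm.surjective
  · rw [Subgroup.relIndex, ← h3, Subgroup.index_ker, ← h4]
    exact Subgroup.card_subgroup_dvd_card _

end Cfsg.Agent.S4633
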