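import Cfsg.Statements.S4634
import Mathlib
import Cfsg.Agent.H4.Cy10
import Cfsg.Agent.H3.Apps2
import Cfsg.Agent.H4.PC

set_option autoImplicit false
open Cfsg

open Cfsg CfsgH3 CfsgH4 CfsgH1 CfsgL0 MonoidAlgebra

namespace Cfsg.Agent.S4634

/-- Let B be a block of the finite group G relative to a maximal ideal M of the algebraic integers containing the prime p, with a nontrivial cyclic defect group P, let c be a block of C_G(P) inducing B, T the stabilizer of c in N_G(P) and e the index of C_G(P) in T. Let F be any finite group of order #P · e having a cyclic subgroup Q of order #P that is its own centralizer (F is then the semidirect product of Q by a cyclic group of order e acting faithfully). Then there is a perfect isometry from the set of all irreducible characters of F onto B whose signs agree on all the characters of F that do not contain Q in their kernel. -/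
theorem result {G : Type*} [Group G] [Finite G] (p : ℕ) [Fact p.Prime] (M : Ideal Cfsg.AlgInt) (hM : Cfsg.IsPModular p M) (B : Set (Cfsg.IrrCharacter G)) (hB : Cfsg.IsPBlock M B) (P : Subgroup G) (hPD : Cfsg.IsDefectGroup p M B P) (hP1 : P ≠ ⊥) (hcyc : IsCyclic P) (c : Set (Cfsg.IrrCharacter (Subgroup.centralizer (P : Set G)))) (hc : Cfsg.IsInducedBlock M (Subgroup.centralizer (P : Set G)) c B) (T : Subgroup G) (hT : ∀ g : G, g ∈ T ↔ (g ∈ Subgroup.normalizer (P : Set G) ∧ Cfsg.StabilizesBlock (Subgroup.centralizer (P : Set G)) c g)) (e : ℕ) (he : (Subgroup.centralizer (P : Set G)).relIndex T = e) (F : Type*) [Group F] [Finite F] (hF : Nat.card F = Nat.card P * e) (Q : Subgroup F) (hQ : IsCyclic Q) (hQcard : Nat.card Q = Nat.card P) (hQC : Subgroup.centralizer (Q : Set F) = Q) : ∃ (I : Cfsg.IrrCharacter F → Cfsg.IrrCharacter G) (ε : Cfsg.IrrCharacter F → ℤ), Cfsg.IsPerfectIsometry p M (Set.univ : Set (Cfsg.IrrCharacter F)) B I ε ∧ ∀ η η' : Cfsg.IrrCharacter F,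 (∃ x ∈ Q, (η : F → ℂ) x ≠ (η : F → ℂ) 1) → (∃ x ∈ Q, (η' : F → ℂ) x ≠ (η' : F → ℂ) 1) → ε η = ε η' := by
  classical
  haveI : PMod p M := ⟨hM⟩
  have hp : p.Prime := Fact.out
  have hm := hc.maxPr hPD
  obtain rfl := eq_stab_of hc.1 hT
  obtain ⟨u, β, e', Φ, _, X, y, ε, δ, h, s⟩ := hm.exists_cyS hB hcyc hP1
  have h1 := h.toCyL.relIndex_dvd
  rw [he] at h1
  have h2 : Q.index = e := Nat.eq_of_mul_eq_mul_left (Nat.card_pos (α := P)) (by
    rw [← hF, ← hQcard, Q.card_mul_index])
  have h3 : e < p := (Nat.le_of_dvd (Nat.sub_pos_of_lt hp.one_lt) h1).trans_lt (Nat.sub_one_lt hp.ne_zero)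
  have h0 : 0 < e := h2 ▸ Nat.pos_of_ne_zero Q.index_ne_zero_of_finite
  obtain ⟨k, hk⟩ := IsPGroup.iff_card.1 hm.pr.pgrp
  have h4 : IsPGroup p Q := IsPGroup.of_card (hQcard.trans hk)
  let S := h4.toSylow (h2 ▸ Nat.not_dvd_of_pos_of_lt h0 h3)
  have h5 : Nat.card (Sylow p F) = 1 := Nat.ModEq.eq_of_lt_of_lt (card_sylow_modEq_one p F)
    ((Nat.le_of_dvd h0 (h2 ▸ S.card_dvd_index)).trans_lt h3) hp.one_lt
  have := (Nat.card_eq_one_iff_unique.1 h5).1
  have h6 : Q.Normal := S.normal_of_subsingleton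
  have hm' : MaxPr p _ Q _ := maxPr_principal (M := M) (isSylowIn_top S)
  obtain ⟨w, h7, h8⟩ := hm'.exists_order fun h => hP1 (Subgroup.card_eq_one.1 (by
    rw [← hQcard, h, Subgroup.card_bot]))
  obtain ⟨γ, f', h9⟩ := hm'.exists_cyL isPBlock_principal hQ h7 h8
  have a1 := stab_principal (M := M) h4
  rw [Subgroup.normalizer_eq_top] at a1
  have a2 : ∀ v ∈ Q, v ≠ 1 → Subgroup.centralizer (Subgroup.zpowers v : Set F) ≤ Q := fun v h1 h2 => by
    simpa [hQC, a1, Subgroup.normalizer_eq_top] using h9.free h1 h2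
  have a3 : γ = Set.univ := eB_eq_one_of_centralizer_le (p := p) (by
    rw [pCore_eq_top_iff.2 (h4.to_le (a2 w h7 h9.ne_one))]; exact le_top) h9.hβ
  subst a3
  obtain ⟨Ψ, a4, a5⟩ := h9.exists_abF (θ := irrOne _) trivial
  have h' : CyD p Q _ _ w _ f' Ψ := ⟨h9, a4, fun _ _ _ _ _ => by rw [a5]; rfl⟩
  have := Fintype.ofFinite (Subgroup.centralizer (Subgroup.zpowers w : Set F))
  obtain ⟨X', y', ε', δ', s'⟩ := h'.exists_cyS
  have a6 : Nat.card (autE Q (ie M (Subgroup.centralizer (Q : Set F)) (principalBlock M _))) = e := by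
    rw [card_autE, Subgroup.normalizer_eq_top, a1, Subgroup.relIndex_top_right, hQC, h2]
  obtain ⟨I, σ, a7, a8⟩ := exists_perfect s h s' h' hQcard (by rw [a6, card_autE, he])
  have a9 : principalBlock M F = Set.univ := eB_eq_one_of_centralizer_le (p := p) (
    (Subgroup.centralizer_le (le_pCore h4)).trans (hQC.le.trans (le_pCore h4))) isPBlock_principal
  refine ⟨I, σ, a9 ▸ a7, fun η η' b1 b2 => ?_⟩
  have b3 := card_irr_not_le_ker (N := Q) fun n h1 h2 => centralizer_zpowers n ▸ a2 n h1 h2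
  rw [CfsgH4.card_irr_of_comm (comm_of_le_cent hQC.ge), h2] at b3
  by_cases b4 : Nat.card {χ : IrrCharacter F // ∃ n ∈ Q, χ.1 n ≠ χ.1 1} = 1
  · exact congrArg σ (congrArg Subtype.val ((Nat.card_eq_one_iff_unique.1 b4).1.elim ⟨η, b1⟩ ⟨η', b2⟩))
  have b5 : ∀ η : IrrCharacter F, (∃ x ∈ Q, η.1 x ≠ η.1 1) → η ∈ exc y' := fun η ⟨x, b1, b2⟩ => by
    refine (s'.mem_iff.1 (a9 ▸ trivial)).resolve_left fun b5 => ?_
    have := Fintype.ofFinite Q
    have := Fintype.ofFinite F
    have b6 : ∀ v : Q, v ≠ 1 → η.1 v = -ε' η := fun v hv => by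
      have := a4.blockPart_central (fun c => η.1 c) (x := v) (ppart_of_pelt (by
        rw [orderOf_injective _ a4.hι]; exact (IsPGroup.iff_orderOf.1 h4) v))
        (Subgroup.mem_center_iff.2 fun c => Subtype.ext
          (Subgroup.mem_centralizer_iff.1 (hQC.ge v.2) c (a2 w h7 h9.ne_one c.2)))
      rw [blockPart_univ (η.2.isClassFunction.restrict _), a5] at this
      exact this.trans ((mul_one _).trans (s'.dX η b5 v hv))
    have b7 := by_contra fun h => b2 (apply_eq_of_classInner_one (N := Q) η.2 h b1)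
    rw [classInner, mul_eq_zero, or_iff_right (inv_ne_zero (Nat.cast_ne_zero.2 Nat.card_pos.ne')),
      ← Finset.add_sum_erase _ _ (Finset.mem_univ 1), Finset.sum_congr rfl fun v hv => by
        rw [b6 v (Finset.mem_erase.1 hv).1], Finset.sum_const,
      Finset.card_erase_of_mem (Finset.mem_univ _), Finset.card_univ, ← Nat.card_eq_fintype_card,
      ← b3, Subgroup.coe_one, ← coe_charDegree η.2.isCharacter] at b7
    simp only [map_one, mul_one, Nat.add_sub_cancel, nsmul_eq_mul] at b7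
    have b8 := Finset.single_le_sum (f := fun χ : IrrCharacter F => charDegree χ.1 ^ 2)
      (fun _ _ => Nat.zero_le _) (Finset.mem_univ η)
    rw [sum_charDegree_sq, hF, ← hQcard, ← b3] at b8
    have : Nonempty {χ : IrrCharacter F // ∃ n ∈ Q, χ.1 n ≠ χ.1 1} := ⟨⟨η, x, b1, b2⟩⟩
    have b9 := Nat.card_pos (α := {χ : IrrCharacter F // ∃ n ∈ Q, χ.1 n ≠ χ.1 1})
    generalize Nat.card {χ : IrrCharacter F // ∃ n ∈ Q, χ.1 n ≠ χ.1 1} = m at *
    have c1 : (charDegree η.1 : ℤ) + (m * e : ℕ) * -ε' η = 0 := by exact_mod_cast b7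
    have c2 : charDegree η.1 = m * e := by
      have := Nat.mul_pos b9 h0
      rcases s'.sgn η with h | h <;> rw [h] at c1 <;> omega
    rw [c2] at b8
    have c3 : 2 ≤ m := by omega
    nlinarith [Nat.mul_le_mul c3 h0, Nat.mul_pos b9 h0]
  rw [a8 η (b5 η b1), a8 η' (b5 η' b2)]

end Cfsg.Agent.S4634
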