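import Cfsg.Statements.S4636
import Mathlib
import Cfsg.Agent.H4.Ch1
import Cfsg.Agent.H2.PG1

set_option autoImplicit false
open scoped Pointwise
open Cfsg

open Cfsg CfsgH3 CfsgH4 CfsgH1 Function
open CfsgH2 hiding cj
open scoped ComplexConjugate Pointwise

namespace Cfsg.Agent.S4636

/-- Let P be a nontrivial cyclic p-subgroup of the finite group G and Z its subgroup of order p. For every x outside N_G(Z), P meets its conjugate xPx⁻¹ trivially; consequently N_G(Q) ≤ N_G(Z) for every nontrivial subgroup Q of P. -/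
theorem result {G : Type*} [Group G] [Finite G] (p : ℕ) [Fact p.Prime] (P : Subgroup G) (hP : IsPGroup p P) (hP1 : P ≠ ⊥) (hcyc : IsCyclic P) (Z : Subgroup G) (hZ : Z ≤ P) (hZcard : Nat.card Z = p) : (∀ x : G, x ∉ Subgroup.normalizer (Z : Set G) → P ⊓ MulAut.conj x • P = ⊥) ∧ ∀ Q : Subgroup G, Q ≤ P → Q ≠ ⊥ → Subgroup.normalizer (Q : Set G) ≤ Subgroup.normalizer (Z : Set G) := by
  have hp : p.Prime := Fact.out
  have h : ∀ (x : G) (Q : Subgroup G), Q ≠ ⊥ → Q ≤ P → Q ≤ MulAut.conj x • P →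
      x ∈ Subgroup.normalizer (Z : Set G) := fun x Q h0 h1 h2 => by
    obtain ⟨n, h3, hn⟩ := (hP.to_le h1).nontrivial_iff_card.1 ((Subgroup.nontrivial_iff_ne_bot Q).2 h0)
    obtain ⟨y, hy⟩ := exists_prime_orderOf_dvd_card' p (hn ▸ dvd_pow_self p h3.ne')
    rw [← Subgroup.orderOf_coe] at hy
    have h4 : Nat.card (Subgroup.zpowers (y : G)) = Nat.card Z := by rw [Nat.card_zpowers, hy, hZcard]
    have h5 := CfsgH2.eq_of_card_eq_of_cyclic hcyc (Subgroup.zpowers_le.2 (h1 y.2)) hZ h4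
    rw [← conj_smul_eq_iff_mem_normalizer]
    refine (CfsgH2.eq_of_card_eq_of_cyclic ?_ (Subgroup.pointwise_smul_le_pointwise_smul_iff.2 hZ)
      (Subgroup.zpowers_le.2 (h2 y.2)) ?_).trans h5
    · exact isCyclic_of_surjective _ (Subgroup.equivSMul (MulAut.conj x) P).surjective
    · rw [h4]; exact (Nat.card_congr (Subgroup.equivSMul (MulAut.conj x) Z).toEquiv).symm
  refine ⟨fun x hx => of_not_not fun e => hx (h x _ e inf_le_left inf_le_right), fun Q h1 h0 x hx =>
    h x Q h0 h1 ?_⟩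
  rw [← conj_smul_eq_iff_mem_normalizer.2 hx]
  exact Subgroup.pointwise_smul_le_pointwise_smul_iff.2 h1

end Cfsg.Agent.S4636
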