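import Cfsg.Statements.S4637
import Mathlib
import Cfsg.Agent.H4.Gdn
import Cfsg.Agent.H4.G2

set_option autoImplicit false
open Cfsg

open Cfsg CfsgH3 CfsgH4 CfsgH1 CfsgL0 MonoidAlgebra

namespace Cfsg.Agent.S4637

theorem card_four {ι : Type*} (s : Finset ι) (d : ι → ℤ) (h0 : ∀ i ∈ s, d i ≠ 0)
    (h : ∑ i ∈ s, d i * d i = 4) (h2 : 2 ≤ s.card) : s.card = 4 := by
  classical
  have h1 : ∀ i ∈ s, 1 ≤ d i * d i := fun i hi => mul_self_pos.2 (h0 i hi)
  by_cases h3 : ∀ i ∈ s, d i * d i = 1
  · rw [Finset.sum_congr rfl h3] at h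
    simp at h
    exact_mod_cast h
  · push Not at h3
    obtain ⟨i, hi, h3⟩ := h3
    have h4 : 4 ≤ d i * d i := by
      have := h0 i hi
      have h5 : d i ≠ 1 := fun h => h3 (by simp [h])
      have h6 : d i ≠ -1 := fun h => h3 (by simp [h])
      rcases (by omega : d i ≤ -2 ∨ 2 ≤ d i) with h | h <;> nlinarith
    have h5 := Finset.card_nsmul_le_sum (s.erase i) _ 1 fun j hj => h1 j (Finset.mem_of_mem_erase hj)
    rw [← Finset.add_sum_erase _ _ hi] at h
    rw [Finset.card_erase_of_mem hi, nsmul_one] at h5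
    omega

/-- Let B be a block of the finite group G relative to a maximal ideal M of the algebraic integers containing 2, with a Klein four defect group P. Let c be a block of C_G(P) inducing B, T the stabilizer of c in N_G(P) and e the index of C_G(P) in T (the inertial index). Then e is 1 or 3, B contains exactly four irreducible characters, and the 2-regular rank of B (its number of irreducible Brauer characters) equals e. -/
theorem result {G : Type*} [Group G] [Finite G] (M : Ideal Cfsg.AlgInt) (hM : Cfsg.IsPModular 2 M) (B : Set (Cfsg.IrrCharacter G)) (hB : Cfsg.IsPBlock M B) (P : Subgroup G) (hPD : Cfsg.IsDefectGroup 2 M B P) (hV : IsKleinFour P) (c : Set (Cfsg.IrrCharacter (Subgroup.centralizer (P : Set G)))) (hc : Cfsg.IsInducedBlock M (Subgroup.centralizer (P : Set G)) c B) (T : Subgroup G) (hT : ∀ g : G, g ∈ T ↔ (g ∈ Subgroup.normalizer (P : Set G) ∧ Cfsg.StabilizesBlock (Subgroup.centralizer (P : Set G)) c g)) (e : ℕ) (he : (Subgroup.centralizer (P : Set G)).relIndex T = e) : (e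 = 1 ∨ e = 3) ∧ Nat.card B = 4 ∧ Cfsg.blockRank 2 B = e := by
  classical
  haveI : PMod 2 M := ⟨hM⟩
  have := Fintype.ofFinite G
  have hm := hc.maxPr hPD
  obtain rfl := eq_stab_of hc.1 hT
  have hP : P ≤ Subgroup.centralizer (P : Set G) :=
    Subgroup.le_centralizer_iff_isMulCommutative.2 IsKleinFour.isMulCommutative
  have h2 : ∀ u ∈ P, u * u = 1 := fun u hu =>
    congrArg Subtype.val (IsKleinFour.mul_self (⟨u, hu⟩ : P))
  have hf : ∀ u ∈ P, u ≠ 1 → Subgroup.centralizer (Subgroup.zpowers u : Set G) ⊓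
      stab (Subgroup.normalizer (P : Set G)) (ie M _ c) ≤ Subgroup.centralizer (P : Set G) :=
    fun u hu h1 g hg => hm.mem_cent_of_comm hP hg.2 (mem_cent_of_relIndex_two hm.pr.pgrp
      (Subgroup.zpowers_le.2 hu) (by
        have h3 := card_inf_mul_relIndex (Subgroup.zpowers u) P
        rw [inf_eq_left.2 (Subgroup.zpowers_le.2 hu), Nat.card_zpowers,
          orderOf_eq_prime ((sq u).trans (h2 u hu)) h1, hV.card_four] at h3
        omega) (Nat.not_even_iff_odd.1 (mt even_iff_two_dvd.1 (reg_rpart 2 g)))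
      (rpart_mem 2 hg.2.1) (rpart_mem 2 hg.1))
  have h3 := hm.card_of_free hB hP hf
  rw [he, hV.card_four] at h3
  have h4 := blockRank_pos (p := 2) hB.nonempty
  have h5 := blockRank_le_card (p := 2) B
  have : Nontrivial P := Finite.one_lt_card_iff_nontrivial.1 (by rw [hV.card_four]; norm_num)
  obtain ⟨⟨u, hu⟩, h1⟩ := exists_ne (1 : P)
  obtain ⟨β, -, -, -, -, h6, h7, h8⟩ := hm.exists_gd hB hP hu (hf u hu fun h => h1 (Subtype.ext h))
  choose d hd using fun χ : IrrCharacter G =>
    exists_int_gsum_tr (centralizer_zpowers u) (h2 u hu) β χ.2.isCharacter.isGen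
  simp only [hd, map_intCast, hV.card_four] at h6 h7 h8
  have h9 := card_four (Finset.univ.filter (· ∈ B)) d (fun χ hχ => by simpa using h6 χ (by simpa using hχ))
    (by
      rw [Finset.sum_filter_of_ne fun χ _ h => by_contra fun h' => h (by
        rw [Int.cast_eq_zero.1 (h7 χ h'), mul_zero])]
      exact_mod_cast h8)
  rw [← Fintype.card_subtype, ← Nat.card_eq_fintype_card] at h9
  have h10 : Nat.card B = 4 := h9 (by
    by_contra h
    rw [show Nat.card B = blockRank 2 B from le_antisymm (by change ¬ 2 ≤ Nat.card B at h; omega) h5] at h3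
    omega)
  rw [h10] at h3 h5
  generalize blockRank 2 B = l at h3 h4 h5 ⊢
  interval_cases l <;> omega

end Cfsg.Agent.S4637
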