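import Cfsg.Statements.S4638
import Mathlib
import Cfsg.Agent.H4.Fr1
import Cfsg.Agent.H4.G2

set_option autoImplicit false
open Cfsg

open Cfsg CfsgH4 CfsgH1 CfsgL0 MonoidAlgebra Function
open CfsgH3 hiding cj cj_cj
open scoped ComplexConjugate Pointwise

namespace Cfsg.Agent.S4638

theorem klein {G : Type*} [Group G] [Fintype G] {M : Ideal AlgInt} [PMod 2 M] {B : Set (IrrCharacter G)}
    (hB : IsPBlock M B) {P : Subgroup G} {e : (Res M)[G]} (hm : MaxPr 2 (eB M B) P e)
    (hV : IsKleinFour P) : (Nat.card (autE P e) = 1 ∧ ∃ Φ d, Injective Φ ∧ B = Set.range Φ ∧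
      GD 2 e B d ∧ ∀ (l : P →* ℂˣ) v, d (Φ l).1 v = l v) ∨ (Nat.card (autE P e) = 3 ∧
      ∃ (f : Fin 4 → _) (ε : Fin 4 → ℤ) (d : _), Injective f ∧ B = Set.range f ∧ GD 2 e B d ∧
        (∀ i, ε i = 1 ∨ ε i = -1) ∧ ∀ i (v : P), d (f i).1 v = ε i) := by
  classical
  have hP : P ≤ Subgroup.centralizer (P : Set G) :=
    Subgroup.le_centralizer_iff_isMulCommutative.2 IsKleinFour.isMulCommutative
  have h2 : ∀ u ∈ P, u * u = 1 := fun u hu =>
    congrArg Subtype.val (IsKleinFour.mul_self (⟨u, hu⟩ : P))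
  have hf : Free P e :=
    fun u hu h1 g hg => hm.mem_cent_of_comm hP hg.2 (mem_cent_of_relIndex_two hm.pr.pgrp
      (Subgroup.zpowers_le.2 hu) (by
        have h3 := card_inf_mul_relIndex (Subgroup.zpowers u) P
        rw [inf_eq_left.2 (Subgroup.zpowers_le.2 hu), Nat.card_zpowers,
          orderOf_eq_prime ((sq u).trans (h2 u hu)) h1, hV.card_four] at h3
        omega) (Nat.not_even_iff_odd.1 (mt even_iff_two_dvd.1 (reg_rpart 2 g)))
      (rpart_mem 2 hg.2.1) (rpart_mem 2 hg.1))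
  have h3 := hm.card_of_free hB hP hf
  rw [← card_autE, hV.card_four] at h3
  obtain ⟨k, hk⟩ := Nat.exists_eq_add_of_le (blockRank_le_card (p := 2) B)
  have h4 : Nat.card (autE P e) * k = 3 := by rw [hk, mul_add] at h3; omega
  rcases (Nat.dvd_prime Nat.prime_three).1 ⟨k, h4.symm⟩ with h5 | h5
  · obtain ⟨θ, hθ⟩ := hB.nonempty
    obtain ⟨Φ, hΦ, -⟩ := exists_abF hm hB P.subtype_injective P.range_subtype hP
      (Subgroup.relIndex_eq_one.1 (card_autE.symm.trans h5)) hθ
    refine .inl ⟨h5, Φ, ⟨⟨dl Φ, fun a c => funext fun v => ?_⟩, fun z a => funext fun v => ?_⟩,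
      hΦ.inj, Set.ext hΦ.mem, ⟨hm, hB, hP, fun a c ha hc v _ => hΦ.cP_dl ha hc v⟩, hΦ.dl_self⟩
    · simp [dl, classInner_add_left, add_mul, Finset.sum_add_distrib]
    · simp [dl, classInner_smul_left, Finset.mul_sum, mul_assoc]
  have := Fintype.ofFinite P
  have : Nontrivial P := Finite.one_lt_card_iff_nontrivial.1 (by rw [hV.card_four]; norm_num)
  obtain ⟨u, h1⟩ := exists_ne (1 : P)
  obtain ⟨β, -, -, -, h6, h7, h8, h9⟩ := hm.exists_gd hB hP u.2 (hf u u.2 (by simpa using h1))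
  choose n hn using fun χ : IrrCharacter G =>
    exists_int_gsum_tr (centralizer_zpowers u.1) (h2 u u.2) β χ.2.isCharacter.isGen
  simp only [hn, map_intCast, hV.card_four] at h7 h8 h9
  have h10 : ∑ χ with χ ∈ B, n χ * n χ = 4 := by
    rw [Finset.sum_filter_of_ne fun χ _ h => by_contra fun h' => h (by
      rw [Int.cast_eq_zero.1 (h8 χ h'), mul_zero])]
    exact_mod_cast h9
  have h11 : ∀ χ ∈ Finset.univ.filter (· ∈ B), 1 ≤ n χ * n χ := fun χ hχ =>
    mul_self_pos.2 (by simpa using h7 χ (by simpa using hχ))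
  have h12 : Nat.card B = (Finset.univ.filter (· ∈ B)).card := Nat.subtype_card _ (by simp)
  have h13 : ∀ χ ∈ B, n χ = 1 ∨ n χ = -1 := fun χ hχ => by
    have h13 := Finset.card_nsmul_le_sum _ _ 1 fun ψ hψ => h11 ψ (Finset.mem_of_mem_erase (a := χ) hψ)
    rw [← Finset.add_sum_erase _ _ (a := χ) (by simpa using hχ)] at h10
    rw [Finset.card_erase_of_mem (by simpa using hχ), ← h12, nsmul_one] at h13
    have := blockRank_pos (p := 2) hB.nonempty
    have := h11 χ (by simpa using hχ)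
    have h14 : n χ * n χ < 4 := by rw [h5] at h4; omega
    have : -2 < n χ ∧ n χ < 2 := ⟨by nlinarith, by nlinarith⟩
    have : n χ ≠ 0 := by rintro h; simp [h] at *
    omega
  have h14 : Nat.card B = 3 + 1 := by
    rw [Finset.sum_congr rfl (g := fun _ => 1) fun χ hχ => by
      rcases h13 χ (by simpa using hχ) with h | h <;> simp [h]] at h10
    rw [h12]
    simpa using (by exact_mod_cast h10 : ∑ χ with χ ∈ B, 1 = 4)
  obtain ⟨θ, hθ⟩ := hB.nonempty
  obtain ⟨f, a1, a2, -⟩ := exists_fin_of_card h14 hθ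
  have a3 : Surjective fun σ : autE P e => (⟨σ.1 u, by simpa using h1⟩ : {v : P // v ≠ 1}) :=
    ((Nat.bijective_iff_injective_and_card _).2 ⟨fun σ τ h => Subtype.ext (inv_mul_eq_one.1
      (hf.aut (mul_mem (inv_mem σ.2) τ.2) h1 (by
        rw [Subtype.mk.injEq] at h
        simp [← h]))), by
      rw [h5, Nat.card_eq_fintype_card, Fintype.card_subtype_compl, ← Nat.card_eq_fintype_card,
        hV.card_four, Fintype.card_unique]⟩).2
  refine .inr ⟨h5, f, fun i => n (f i), ⟨⟨fun a _ => gsum β (tr _ u a), fun a c => funext fun v =>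
    gsum_add _ _⟩, fun z a => funext fun v => gsum_smul _ _⟩, a1, a2.symm,
    ⟨hm, hB, hP, fun a c ha hc v hv => ?_⟩, fun i => h13 _ (a2 ▸ ⟨i, rfl⟩), fun i v => hn _⟩
  obtain ⟨σ, hσ⟩ := a3 ⟨v, hv⟩
  obtain rfl : σ.1 u = v := Subtype.ext_iff.1 hσ
  exact (congrArg _ (hm.pr.cP_aut ha hc σ.2 u)).trans (h6 a c ha hc)

/-- Let B be a block of the finite group G relative to a maximal ideal M of the algebraic integers containing 2, with a Klein four defect group P, and let c be its Brauer correspondent: the block of N_G(P) with defect group P that induces B. Then there is a perfect isometry from c onto B. -/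
theorem result {G : Type*} [Group G] [Finite G] (M : Ideal Cfsg.AlgInt) (hM : Cfsg.IsPModular 2 M) (B : Set (Cfsg.IrrCharacter G)) (hB : Cfsg.IsPBlock M B) (P : Subgroup G) (hPD : Cfsg.IsDefectGroup 2 M B P) (hV : IsKleinFour P) (c : Set (Cfsg.IrrCharacter (Subgroup.normalizer (P : Set G)))) (hcD : Cfsg.IsDefectGroup 2 M c (P.subgroupOf (Subgroup.normalizer (P : Set G)))) (hc : Cfsg.IsInducedBlock M (Subgroup.normalizer (P : Set G)) c B) : ∃ (I : Cfsg.IrrCharacter (Subgroup.normalizer (P : Set G)) → Cfsg.IrrCharacter G) (ε : Cfsg.IrrCharacter (Subgroup.normalizer (P : Set G)) → ℤ), Cfsg.IsPerfectIsometry 2 M c B I ε := by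
  haveI : PMod 2 M := ⟨hM⟩
  have := Fintype.ofFinite G
  have := Fintype.ofFinite (Subgroup.normalizer (P : Set G))
  obtain ⟨f, hm'⟩ := exists_maxPr hc.1.isBlk (hc.1.isDefectGroup_iff.1 hcD)
  have hm := hm'.inc_of_ind hc hPD (brLoc_normalizer (hB.isDefectGroup_iff.1 hPD).pgrp) le_rfl Subgroup.le_normalizer
  have κ := (Subgroup.subgroupOfEquivOfLe (Subgroup.le_normalizer (H := P))).symm
  have h1 := card_autE_inc (f := f) (le_refl (Subgroup.normalizer (P : Set G)))
  rcases klein hB hm hV with ⟨a1, Φ, d, a2, rfl, a3, a4⟩ | ⟨a1, Φ, ε, d, a2, rfl, a3, a4, a5⟩ <;>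
  rcases klein hc.1 hm' ⟨(Nat.card_congr κ.toEquiv).symm.trans hV.card_four,
    (Monoid.exponent_eq_of_mulEquiv κ).symm.trans hV.exponent_two⟩ with
    ⟨b1, Ψ, d', b2, rfl, b3, b4⟩ | ⟨b1, Ψ, ε', d', b2, rfl, b3, b4, b5⟩
  · have h2 := (κ.monoidHomCongrLeftEquiv (N := ℂˣ)).surjective.range_comp Ψ
    rw [← h2] at b3 ⊢
    exact a3.exists_perfect b3 a2 (b2.comp (Equiv.injective _)) (ε := fun _ => 1) (fun _ => .inl rfl) κ
      (fun l v _ => by simp [a4, b4]) (i₀ := 1) fun v _ => by simp [a4]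
  · omega
  · omega
  · exact a3.exists_perfect b3 a2 b2 (ε := fun i => ε i * ε' i) (fun i => by
      rcases a4 i with h | h <;> rcases b4 i with h' | h' <;> simp [h, h']) κ (fun i v _ => by
      rcases a4 i with h | h <;> simp [a5, b5, h]) (i₀ := 0) fun v _ => by
      rcases a4 0 with h | h <;> simp [a5, h]

end Cfsg.Agent.S4638
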