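import Cfsg.Statements.S4640
import Mathlib
import Cfsg.Agent.H4.Lin

set_option autoImplicit false
open Cfsg

open Cfsg CfsgH3 CfsgH4 CfsgH1 CfsgL0 MonoidAlgebra

namespace Cfsg.Agent.S4640

/-- Let N be a normal subgroup of the finite group G of index a power of the prime p, M a maximal ideal of the algebraic integers containing p, b a block of N stabilized by every element of G, and B a block of G covering b (some member of B has a member of b as a constituent of its restriction to N). Suppose that B has a commutative defect group P. Then G = NP and P ∩ N is a defect group of b; every member of B restricts to a member of b; every member of b is the restriction of exactly [G : N] members of B; B contains exactly [G : N] times as many irreducible characters as b; and B and b have the same p-regular rank. -/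
theorem result {G : Type*} [Group G] [Fintype G] (p : ℕ) [Fact p.Prime] (M : Ideal Cfsg.AlgInt) (hM : Cfsg.IsPModular p M) (N : Subgroup G) [N.Normal] [Fintype N] (hNi : ∃ k : ℕ, N.index = p ^ k) (b : Set (Cfsg.IrrCharacter N)) (hb : Cfsg.IsPBlock M b) (hstab : ∀ g : G, Cfsg.StabilizesBlock N b g) (B : Set (Cfsg.IrrCharacter G)) (hB : Cfsg.IsPBlock M B) (hcov : ∃ χ ∈ B, ∃ θ ∈ b, Cfsg.classInner (fun n : N => (χ : G → ℂ) n) (θ : N → ℂ) ≠ 0) (P : Subgroup G) (hPD : Cfsg.IsDefectGroup p M B P) (hPab : ∀ x ∈ P, ∀ y ∈ P, x * y = y * x) : N ⊔ P = ⊤ ∧ Cfsg.IsDefectGroup p M b ((P ⊓ N).subgroupOf N) ∧ (∀ χ ∈ B, ∃ θ ∈ b, ∀ n : N, (χ : G → ℂ) n = (θ : N → ℂ) n) ∧ (∀ θ ∈ b, Nat.card {χ : Cfsg.IrrCharacter G // χ ∈ B ∧ ∀ n : N, (χ : G → ℂ) n = (θ : N → ℂ) n} = N.index) ∧ Nat.card B = N.index * Nat.card b ∧ Cfsg.blockRank p B = Cfsg.blockRank p b := by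
  classical
  haveI : PMod p M := ⟨hM⟩
  obtain ⟨k, hk⟩ := hNi
  have hi : Inv ⊤ (ie M N b) := fun g _ => ((stabilizesBlock_iff hb).1 (hstab g)).2
  have hn : (⊤ : Subgroup G) ≤ Subgroup.normalizer (N : Set G) := Subgroup.le_normalizer_of_normal
  have hk' : N.relIndex ⊤ = p ^ k := by simpa using hk
  have h1 : eB M B = ie M N b := hB.isBlk.eq_of_mul_ne le_rfl
    ((isBlk_iff_of_relIndex le_top hn hk').1 (hb.isBlk_ie.of_inv le_top hi))
    ((covers_iff_eB_mul_ne hB.fB_mem hb.fB_mem).1 (covers_iff.2 hcov))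
  have hD := hB.isDefectGroup_iff.1 hPD
  obtain ⟨e, hm⟩ := exists_maxPr hB.isBlk hD
  rw [h1] at hD
  have h2 : N ⊔ P = ⊤ := sup_comm N P ▸ hb.isBlk_ie.sup_eq_of_relIndex le_top hn hi hD hk'
  have hP : P ≤ Subgroup.centralizer (P : Set G) := fun x hx =>
    Subgroup.mem_centralizer_iff.2 fun y hy => hPab y hy x hx
  have h3 : ∀ g : G, ∃ n ∈ N, ∃ u ∈ P, n * u = g := fun g =>
    Subgroup.mem_sup_of_normal_left.1 (h2 ▸ Subgroup.mem_top g)
  have hc : ∀ a b : G, a * b * a⁻¹ * b⁻¹ ∈ N := fun a b => by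
    obtain ⟨n, hn, u, hu, rfl⟩ := h3 a
    obtain ⟨m, hm, v, hv, rfl⟩ := h3 b
    rw [← QuotientGroup.eq_one_iff]
    simp only [QuotientGroup.mk_mul, QuotientGroup.mk_inv, (QuotientGroup.eq_one_iff _).2 hn,
      (QuotientGroup.eq_one_iff _).2 hm, one_mul]
    rw [← QuotientGroup.mk_mul, hPab u hu v hv, QuotientGroup.mk_mul]
    group
  have h4 : ∀ χ ∈ B, ∀ l : trivSub N, irrLin χ l.1 = χ → l = 1 := fun χ hχ l hl => by
    have h5 := hm.eq_one_of_irrLin hB hP hχ
      (fun g hg => l.2 g (mem_of_reg_of_index ⟨k, hk⟩ hg)) hl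
    refine Subtype.ext (MonoidHom.ext fun g => ?_)
    obtain ⟨n, hn, u, hu, rfl⟩ := h3 g
    rw [map_mul, l.2 n hn, h5 u hu, one_mul]; rfl
  have h5 : ∀ (χ : IrrCharacter G) (θ : IrrCharacter N), (∀ n : N, χ.1 n = θ.1 n) →
      (χ ∈ B ↔ θ ∈ b) := fun χ θ h =>
    eq_over_of_eB_eq hb.fB_mem hB.fB_mem h1 (over_subtype_iff.2 (by
      rw [funext h, θ.2.classInner_self]; exact one_ne_zero))
  have h6 : ∀ χ ∈ B, ∃ θ ∈ b, ∀ n : N, χ.1 n = θ.1 n := fun χ hχ =>
    ⟨⟨_, isIrr_restrict_of_free hc (h4 χ hχ)⟩, (h5 χ _ fun _ => rfl).1 hχ, fun _ => rfl⟩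
  have h7 : ∀ θ ∈ b, Nat.card {χ : IrrCharacter G // χ ∈ B ∧ ∀ n : N, χ.1 n = θ.1 n} = N.index :=
    fun θ hθ => by
      obtain ⟨χ, hχ⟩ := exists_over N θ
      have h8 := (eq_over_of_eB_eq hb.fB_mem hB.fB_mem h1 hχ).2 hθ
      have h9 := congrFun ((isIrr_restrict_of_free hc (h4 χ h8)).eq_of_classInner_ne_zero θ.2
        (over_subtype_iff.1 hχ))
      rw [← card_ext_of_free hc (h4 χ h8)]
      exact Nat.card_congr (Equiv.subtypeEquivRight fun ψ => by
        simp only [h9, and_iff_right_iff_imp]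
        exact fun h => (h5 ψ θ h).2 hθ)
  choose r hr1 hr2 using h6
  have h8 := sum_fiber_const (fun χ : B => (⟨r χ.1 χ.2, hr1 _ _⟩ : b)) (n := N.index) fun θ => by
    rw [← h7 θ.1 θ.2]
    refine Nat.card_congr ((Equiv.subtypeEquivRight fun χ => ?_).trans
      (Equiv.subtypeSubtypeEquivSubtypeInter _ _))
    simp only [hr2 χ.1 χ.2, Subtype.ext_iff, funext_iff]
  have h0 : (N.index : ℂ) ≠ 0 := Nat.cast_ne_zero.2 Subgroup.index_ne_zero_of_finite
  refine ⟨h2, (hb.isDefectGroup_ie_iff inf_le_right).2 (hb.isBlk_ie.isDef_inf le_top hn hi hD),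
    fun χ hχ => ⟨_, hr1 χ hχ, hr2 χ hχ⟩, h7, ?_, ?_⟩
  · have := h8 fun _ => 1
    simp only [Finset.sum_const, Finset.card_univ, nsmul_eq_mul, mul_one,
      ← Nat.card_eq_fintype_card] at this
    exact_mod_cast this
  · rw [← Nat.cast_inj (R := ℂ), blockRank_eq_sum_mm hB.fB_mem, blockRank_eq_sum_mm hb.fB_mem,
      sum_ite_mem_eq, sum_ite_mem_eq, ← mul_right_inj' h0, ← h8, Finset.mul_sum]
    refine Finset.sum_congr rfl fun χ _ => ?_
    rw [← mm_restrict_of_index ⟨k, hk⟩, funext (hr2 χ.1 χ.2)]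

end Cfsg.Agent.S4640
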