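import Cfsg.Statements.S4641
import Mathlib
import Cfsg.Agent.H4.IB2

set_option autoImplicit false
open Cfsg

open Cfsg MonoidAlgebra CfsgH4 Module
open CfsgH3 hiding cj cj_cj
open scoped ComplexConjugate

namespace Cfsg.Agent.S4641

/-- Let B be a block of the finite group G relative to a maximal ideal M of the algebraic integers containing the prime p, let p^a be the p-part of the order of G and p^d the order of a defect group D of B, and let g be the greatest common divisor of the degrees of the members of B. Then the p-part of g is exactly p^(a−d), and writing g = p^(a−d)·u there is a positive integer v, prime to p and at least the p-regular rank of B (its number of irreducible Brauer characters), with Σ_{χ ∈ B} χ(1)² = p^(2a−d)·u²·v. -/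
theorem result {G : Type*} [Group G] [Finite G] (p : ℕ) [Fact p.Prime] (M : Ideal Cfsg.AlgInt) (hM : Cfsg.IsPModular p M) (B : Set (Cfsg.IrrCharacter G)) (hB : Cfsg.IsPBlock M B) (D : Subgroup G) (hD : Cfsg.IsDefectGroup p M B D) (a d : ℕ) (ha : (Nat.card G).factorization p = a) (hd : Nat.card D = p ^ d) (g : ℕ) (hg1 : ∀ χ ∈ B, g ∣ Cfsg.charDegree (χ : G → ℂ)) (hg2 : ∀ g' : ℕ, (∀ χ ∈ B, g' ∣ Cfsg.charDegree (χ : G → ℂ)) → g' ∣ g) : g.factorization p = a - d ∧ ∃ v : ℕ, 0 < v ∧ ¬ p ∣ v ∧ Cfsg.blockRank p B ≤ v ∧ ∑ᶠ χ ∈ B, Cfsg.charDegree (χ : G → ℂ) ^ 2 = p ^ (2 * a - d) * (g / p ^ (a - d)) ^ 2 * v := by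
  classical
  haveI : PMod p M := ⟨hM⟩
  have hp : p.Prime := Fact.out
  have := Fintype.ofFinite G
  have hp0 := hp.pos
  obtain rfl : blockDefect p B = d :=
    Nat.pow_right_injective hp.two_le ((CfsgH4.Cfsg.IsDefectGroup.card_eq hB hD).symm.trans hd)
  subst ha
  have h0 := blockDefect_le (p := p) B
  obtain ⟨χ, hχ, h1⟩ := exists_height_zero (p := p) hB.nonempty
  have h2 := fact_degree_add (p := p) hχ
  have h3 := (irr_deg_pos χ).ne'
  have hg : g ≠ 0 := ne_zero_of_dvd_ne_zero h3 (hg1 χ hχ)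
  obtain ⟨u, hu⟩ := hg2 (p ^ ((Nat.card G).factorization p - blockDefect p B)) fun ψ hψ =>
    let ⟨n, h, _⟩ := exists_degree_eq (p := p) (M := M) hψ; ⟨n, h⟩
  have h4 := (Nat.factorization_le_iff_dvd hg h3).2 (hg1 χ hχ) p
  have h5 := (hp.pow_dvd_iff_le_factorization hg).1 ⟨u, hu⟩
  have h6 : ¬ p ∣ u := fun ⟨w, hw⟩ => by
    have := (hp.pow_dvd_iff_le_factorization hg).1
      (⟨w, by rw [hu, hw, pow_succ, mul_assoc]⟩ : p ^ (_ + 1) ∣ g)
    omega
  refine ⟨by omega, ?_⟩
  have h7 : ∀ j : Pim G M, ∃ v, j.In B → 0 < v ∧ j.deg * j.pdeg =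
      p ^ (2 * (Nat.card G).factorization p - blockDefect p B) * u ^ 2 * v := fun j => by
    by_cases h : j.In B
    · obtain ⟨x, hx⟩ := h.dvd_deg hB.fB_mem hg1
      obtain ⟨y, hy⟩ := Nat.Coprime.mul_dvd_of_dvd_of_dvd
        (Nat.Coprime.pow_left _ ((Nat.Prime.coprime_iff_not_dvd hp).2 h6)) j.pow_dvd_pdeg
        ((Dvd.intro_left _ hu.symm).trans (h.dvd_pdeg hB.fB_mem hg1))
      refine ⟨x * y, fun _ => ⟨Nat.mul_pos (Nat.pos_of_mul_pos_left (hx ▸ j.coe_deg.2))
        (Nat.pos_of_mul_pos_left (hy ▸ j.pdeg_pos)), ?_⟩⟩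
      rw [hx, hy, hu, show 2 * (Nat.card G).factorization p - blockDefect p B =
        (Nat.card G).factorization p - blockDefect p B + (Nat.card G).factorization p by omega]
      ring
    · exact ⟨0, fun h' => absurd h' h⟩
  choose v hv using h7
  have h8 : ∑ᶠ χ ∈ B, charDegree χ.1 ^ 2 = p ^ (2 * (Nat.card G).factorization p - blockDefect p B)
      * u ^ 2 * ∑ j : Pim G M with j.In B, v j := by
    rw [Pim.sum_sq_eq hB.fB_mem, Finset.mul_sum]
    exact Finset.sum_congr rfl fun j hj => (hv j (by simpa using hj)).2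
  have h9 : blockRank p B ≤ ∑ j : Pim G M with j.In B, v j := by
    rw [Pim.blockRank_eq hB.fB_mem, Nat.card_eq_fintype_card, Fintype.card_subtype,
      Finset.card_eq_sum_ones]
    exact Finset.sum_le_sum fun j hj => (hv j (by simpa using hj)).1
  have h10 := (blockRank_pos (p := p) hB.nonempty).trans_le h9
  refine ⟨_, h10, fun h => ?_, h9, ?_⟩
  · have h11 := CfsgH4.Cfsg.IsPBlock.fact_sum_sq (p := p) hB
    have h12 : u ≠ 0 := fun h => hg (by simp [hu, h])
    rw [h8, Nat.factorization_mul (by positivity) h10.ne', Nat.factorization_mul (by positivity)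
      (by positivity)] at h11
    have := hp.factorization_pos_of_dvd h10.ne' h
    simp [hp.factorization_pow] at h11
    omega
  · rw [h8]
    congr 3
    rw [hu, Nat.mul_div_cancel_left _ (pow_pos hp.pos _)]

end Cfsg.Agent.S4641
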