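import Cfsg.Statements.S4642
import Mathlib
import Cfsg.Agent.H4.Fong2

set_option autoImplicit false
open Cfsg

open Cfsg CfsgH3 CfsgH4 CfsgH1 CfsgL0 MonoidAlgebra

namespace Cfsg.Agent.S4642

/-- Let G be a finite group, p a prime, M a maximal ideal of the algebraic integers containing p, K the largest normal subgroup of G of order prime to p, and L the preimage in G of the largest normal p-subgroup of G/K. Let Q be a Sylow p-subgroup of L and suppose C_G(Q) ≤ L. Let θ be an irreducible character of K invariant under conjugation by every element of G, and let B be the set of irreducible characters of G whose restriction to K contains θ. Then B is a block of G, every Sylow p-subgroup of G is a defect group of B, and B is of principal type: for every p-subgroup R of G exactly one block of C_G(R) induces B. -/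
theorem result {G : Type*} [Group G] [Fintype G] (p : ℕ) [Fact p.Prime] (M : Ideal Cfsg.AlgInt) (hM : Cfsg.IsPModular p M) (K : Subgroup G) (hK : K = Cfsg.pPrimeCore p G) [Fintype K] (L : Subgroup G) (hL : L = Cfsg.pPrimePCore p G) (Q : Subgroup G) (hQL : Q ≤ L) (hQp : IsPGroup p Q) (hQS : ¬ p ∣ Q.relIndex L) (hCQ : Subgroup.centralizer (Q : Set G) ≤ L) (θ : Cfsg.IrrCharacter K) (hθ : ∀ g : G, Cfsg.IsConjCharOf K g (θ : K → ℂ) (θ : K → ℂ)) (B : Set (Cfsg.IrrCharacter G)) (hBdef : ∀ χ : Cfsg.IrrCharacter G, χ ∈ B ↔ Cfsg.classInner (fun k : K => (χ : G → ℂ) k) (θ : K → ℂ) ≠ 0) : Cfsg.IsPBlock M B ∧ (∀ S : Sylow p G, Cfsg.IsDefectGroup p M B S) ∧ ∀ R : Subgroup G, IsPGroup p R → ∃! f : Set (Cfsg.IrrCharacter (Subgroup.centralizer (R : Set G))), Cfsg.IsInducedBlock M (Subgroup.centralizer (R : Set G)) f B := by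
  haveI : PMod p M := ⟨hM⟩
  obtain ⟨h1, h2, k, h3⟩ := pPrimePCore_facts (G := G) (p := p)
  rw [← hL] at h1 h2 h3
  rw [← hK] at h1 h3
  haveI : K.Normal := hK ▸ inferInstance
  have hK' : ¬ p ∣ Nat.card K := hK ▸ not_dvd_card_pPrimeCore p
  have hb := isPBlock_singleton (M := M) hK' θ
  have hi : Inv ⊤ (ie M K {θ}) := fun x _ => ((stabilizesBlock_iff hb).1 ⟨top_le_norm K trivial, by
    rintro _ rfl
    exact ⟨_, rfl, hθ x⟩⟩).2
  obtain ⟨h4, h5⟩ := hb.isBlk_ie.principal_type h1 hK' h3 ⟨hQL, hQp, hQS⟩ hCQ hi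
  obtain ⟨B', hB, h6⟩ := h4.exists_eq_eB
  obtain rfl : B = B' := by
    ext χ
    rw [hBdef, ← over_subtype_iff]
    refine ⟨fun h => (eq_over_of_eB_eq hb.fB_mem hB.fB_mem h6.symm h).2 rfl, fun h => ?_⟩
    obtain ⟨ψ, h7⟩ := CfsgH4.exists_under K.subtype χ
    rwa [← Set.mem_singleton_iff.1 ((eq_over_of_eB_eq hb.fB_mem hB.fB_mem h6.symm h7).1 h)]
  refine ⟨hB, fun S => ?_, fun R hR => ?_⟩
  · rw [hB.isDefectGroup_iff, ← h6, hb.isBlk_ie.isDef_iff_of_not_dvd le_top (top_le_norm K) hK' hi]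
    exact isSylowIn_top S
  · obtain ⟨f, hf, h7⟩ := (h5 R hR).exists_eq
    refine ⟨f, ((brLoc_centralizer hR).isInducedBlock_iff hf hB).2 (by
      rw [← h6, h7]; exact hf.isBlk_ie.idem), fun g hg => ?_⟩
    have h8 := hg.br_mul hR
    rw [← h6, h7] at h8
    exact (hf.ie_inj hg.1 (hf.isBlk_ie.eq_of_mul_ne le_rfl hg.1.isBlk_ie (by
      rw [h8]; exact hg.1.isBlk_ie.ne))).symm

end Cfsg.Agent.S4642
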