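import Cfsg.Statements.S4645
import Mathlib
import Cfsg.Agent.H4.Wat
import Cfsg.Agent.H2.PG1

set_option autoImplicit false
open Cfsg

open Cfsg CfsgH3 CfsgH4 CfsgH1 CfsgL0 MonoidAlgebra

namespace Cfsg.Agent.S4645

/-- Let B be a block of the finite group G relative to a maximal ideal M of the algebraic integers containing the prime p, with a nontrivial cyclic defect group P; let c be a block of C_G(P) inducing B and T the stabilizer of c in N_G(P). Let Q be a nontrivial subgroup of P (so C_G(P) ≤ C_G(Q)), f the block of C_G(Q) induced by c inside C_G(Q), and T' the stabilizer of f in N_G(Q). Then T' = T·C_G(Q), the index of C_G(Q) in T' equals the index of C_G(P) in T, f has p-regular rank 1, and f is a nilpotent block of C_G(Q). -/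
theorem result {G : Type*} [Group G] [Finite G] (p : ℕ) [Fact p.Prime] (M : Ideal Cfsg.AlgInt) (hM : Cfsg.IsPModular p M) (B : Set (Cfsg.IrrCharacter G)) (hB : Cfsg.IsPBlock M B) (P : Subgroup G) (hPD : Cfsg.IsDefectGroup p M B P) (hP1 : P ≠ ⊥) (hcyc : IsCyclic P) (c : Set (Cfsg.IrrCharacter (Subgroup.centralizer (P : Set G)))) (hc : Cfsg.IsInducedBlock M (Subgroup.centralizer (P : Set G)) c B) (T : Subgroup G) (hT : ∀ g : G, g ∈ T ↔ (g ∈ Subgroup.normalizer (P : Set G) ∧ Cfsg.StabilizesBlock (Subgroup.centralizer (P : Set G)) c g)) (Q : Subgroup G) (hQP : Q ≤ P) (hQ1 : Q ≠ ⊥) (f : Set (Cfsg.IrrCharacter (Subgroup.centralizer (Q : Set G)))) (hf : Cfsg.IsInducedBlockIn M (Subgroup.centralizer (Q : Set G)) (Subgroup.centralizer (P : Set G)) c f) (T' : Subgroup G) (hT' : ∀ g : G, g ∈ T' ↔ (g ∈ Subgroup.normalizer (Q : Set G) ∧ Cfsg.StabilizesBlock (Subgroup.centralizer (Q : Set G)) f g)) : T' = T ⊔ Subgroup.centralizer (Q : Set G) ∧ (Subgroup.centralizer (Q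 : Set G)).relIndex T' = (Subgroup.centralizer (P : Set G)).relIndex T ∧ Cfsg.blockRank p f = 1 ∧ Cfsg.IsNilpotentBlock p M f := by
  haveI : PMod p M := ⟨hM⟩
  have hm := hc.maxPr hPD
  obtain rfl := eq_stab_of hc.1 hT
  obtain rfl := eq_stab_of hf.2.1 hT'
  have hP : P ≤ Subgroup.centralizer (P : Set G) :=
    Subgroup.le_centralizer_iff_isMulCommutative.2 inferInstance
  have h1 := hf.eq_dn hm.pr.pgrp hQP (hP.trans (cent_anti hQP))
  have h2 := hm.pr.ple_dn hQP
  rw [← h1] at h2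
  have h3 : stab (Subgroup.normalizer (P : Set G)) (ie M _ c) ≤ Subgroup.normalizer (Q : Set G) :=
    (stab_le _ _).trans (CfsgH2.norm_le_norm_of_cyclic hcyc hQP)
  have h4 := hm.stab_eq_of_comm hP h2
  rw [inf_eq_left.2 h3] at h4
  obtain ⟨⟨x, hx⟩, hx1⟩ := Subgroup.ne_bot_iff_exists_ne_one.1 hQ1
  have h5 : Subgroup.centralizer (Q : Set G) ⊓ stab (Subgroup.normalizer (P : Set G)) (ie M _ c) ≤
      Subgroup.centralizer (P : Set G) := fun g hg =>
    hm.free_of_cyclic hcyc hg.2 (hQP hx) (fun h => hx1 (Subtype.ext h)) (by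
      rw [← Subgroup.mem_centralizer_iff.1 hg.1 x hx, mul_inv_cancel_right])
  have h6 := isNilpotentBlock_ie_iff.2 ⟨hf.2.1, hm.nilR_of_comm hP h2 h5⟩
  refine ⟨h4, ?_, h6.blockRank, h6⟩
  rw [h4, CfsgH2.relIndex_sup_of_norm (h3.trans (norm_le_norm_cent Q)),
    ← Subgroup.inf_relIndex_right, ← Subgroup.inf_relIndex_right (Subgroup.centralizer (P : Set G)),
    le_antisymm (le_inf h5 inf_le_right) (inf_le_inf_right _ (cent_anti hQP))]

end Cfsg.Agent.S4645
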