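import Cfsg.Statements.S4647
import Mathlib
import Cfsg.Agent.H4.MinD
import Cfsg.Agent.H4.Sec

set_option autoImplicit false
open Cfsg

open Cfsg MonoidAlgebra CfsgL0 CfsgH4 Module
open CfsgH3 hiding cj cj_cj
open scoped ComplexConjugate

namespace Cfsg.Agent.S4647

/-- Let B be a block of the finite group G relative to a maximal ideal M of the algebraic integers containing the prime p, p^a the p-part of the order of G and p^d the order of a defect group D of B. If Σ_{χ ∈ B} χ(1)² = p^(2a−d) (the least possible value), then B is nilpotent. -/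
theorem result {G : Type*} [Group G] [Finite G] (p : ℕ) [Fact p.Prime] (M : Ideal Cfsg.AlgInt) (hM : Cfsg.IsPModular p M) (B : Set (Cfsg.IrrCharacter G)) (hB : Cfsg.IsPBlock M B) (D : Subgroup G) (hD : Cfsg.IsDefectGroup p M B D) (a d : ℕ) (ha : (Nat.card G).factorization p = a) (hd : Nat.card D = p ^ d) (hmin : ∑ᶠ χ ∈ B, Cfsg.charDegree (χ : G → ℂ) ^ 2 = p ^ (2 * a - d)) : Cfsg.IsNilpotentBlock p M B := by
  classical
  haveI : PMod p M := ⟨hM⟩
  have hp : p.Prime := Fact.out
  refine isNilpotentBlock_iff.2 ⟨hB, nil_of_dim (inv_eB B) hB.eB_idem (hB.isDefectGroup_iff.1 hD)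
    (U := redS M (LinearMap.range (two (fB B) 1))) (fun z => mem_redS.2 ⟨_, ⟨single z 1, rfl⟩, ?_⟩)
    ?_⟩
  · have h1 : single z (1 : ℂ) ∈ LG G M := single_mem_LG z (one_mem _)
    rw [two_apply, mul_one, redG_mul hB.fB_mem h1, redG_single_one]
    exact ⟨mul_mem hB.fB_mem h1, rfl⟩
  have h1 := finrank_redS_two (M := M) (u := fB B) (v := 1) (by rw [fB_mul_fB, Set.inter_self])
    (mul_one _) (ql_fB B) (ql_of_mem (one_mem _))
  have h2 : finrank (Res M) (redS M (LinearMap.range (two (fB B) 1))) = p ^ (2 * a - d) := by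
    rw [← hmin, finsum_mem_irr]
    apply Nat.cast_injective (R := ℂ)
    rw [h1]
    push_cast
    refine Finset.sum_congr rfl fun χ _ => ?_
    rw [← mul_one (fB B)]
    split_ifs with h
    · rw [ev_fB_mul_of_mem h, ev_one, coe_charDegree χ.2.isCharacter, sq]
    · rw [ev_fB_mul_of_notMem h, zero_mul]
  have h3 : d ≤ a := by
    have := CfsgH4.Cfsg.IsDefectGroup.card_eq hB hD
    rw [hd] at this
    rw [Nat.pow_right_injective hp.two_le this, ← ha]
    exact blockDefect_le B
  rw [h2, hd, ha, ← pow_add, ← pow_mul]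
  exact Nat.pow_le_pow_right hp.pos (by omega)

end Cfsg.Agent.S4647
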