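import Cfsg.Statements.S4648
import Mathlib
import Cfsg.Agent.H4.SLB

set_option autoImplicit false
open Cfsg

open Cfsg MonoidAlgebra CfsgH4 Module
open CfsgH3 hiding cj cj_cj
open scoped ComplexConjugate

namespace Cfsg.Agent.S4648

/-- Let B be a block of the finite group G relative to a maximal ideal M of the algebraic integers containing the prime p, with a nontrivial defect group D. If B has p-regular rank 1 and at most four irreducible characters, then B is nilpotent, D has exactly as many elements as B has irreducible characters, and p is 2 or 3. -/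
theorem result {G : Type*} [Group G] [Finite G] (p : ℕ) [Fact p.Prime] (M : Ideal Cfsg.AlgInt) (hM : Cfsg.IsPModular p M) (B : Set (Cfsg.IrrCharacter G)) (hB : Cfsg.IsPBlock M B) (D : Subgroup G) (hD : Cfsg.IsDefectGroup p M B D) (hD1 : D ≠ ⊥) (hl : Cfsg.blockRank p B = 1) (hk : Nat.card B ≤ 4) : Cfsg.IsNilpotentBlock p M B ∧ Nat.card D = Nat.card B ∧ (p = 2 ∨ p = 3) := by
  haveI : PMod p M := ⟨hM⟩
  have hp : p.Prime := Fact.out
  obtain ⟨h1, d, h2⟩ := CfsgH4.Cfsg.IsPBlock.small hB hl hk
  have h3 := CfsgH4.Cfsg.IsDefectGroup.card_eq hB hD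
  have h4 : blockDefect p B ≠ 0 := fun h => hD1 (Subgroup.card_eq_one.1 (by simp [h3, h]))
  have h5 : p ≤ 4 := (Nat.le_self_pow h4 p).trans (h1.le.trans hk)
  have h6 : blockDefect p B < 3 := (Nat.pow_lt_pow_iff_right hp.one_lt).1
    ((h1.le.trans hk).trans_lt (lt_of_lt_of_le (by norm_num) (Nat.pow_le_pow_left hp.two_le 3)))
  refine ⟨CfsgH4.Cfsg.IsDefectGroup.nil_of_deg hD hB (fun x hx y hy => congrArg Subtype.val
    (?_ : (⟨y, hy⟩ : D) * ⟨x, hx⟩ = ⟨x, hx⟩ * ⟨y, hy⟩)) h2, h3.trans h1, ?_⟩
  · obtain h | h : blockDefect p B = 1 ∨ blockDefect p B = 2 := by omega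
    · exact (isCyclic_of_prime_card (by rw [h3, h, pow_one])).commutative.is_comm.comm _ _
    · exact IsPGroup.commutative_of_card_eq_prime_sq (h ▸ h3) _ _
  · have := hp.two_le
    interval_cases p <;> simp_all (config := {decide := true})

end Cfsg.Agent.S4648
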