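import Cfsg.Statements.S4649
import Mathlib
import Cfsg.Agent.H4.Cy6

set_option autoImplicit false
open Cfsg

open Cfsg CfsgH3 CfsgH4 CfsgH1 CfsgL0 MonoidAlgebra

namespace Cfsg.Agent.S4649

/-- A block with cyclic defect group, of a finite group relative to a maximal ideal M of the algebraic integers containing the prime p, is nilpotent if and only if its p-regular rank is 1 (it has a unique irreducible Brauer character). -/
theorem result {G : Type*} [Group G] [Finite G] (p : ℕ) [Fact p.Prime] (M : Ideal Cfsg.AlgInt) (hM : Cfsg.IsPModular p M) (B : Set (Cfsg.IrrCharacter G)) (hB : Cfsg.IsPBlock M B) (P : Subgroup G) (hPD : Cfsg.IsDefectGroup p M B P) (hcyc : IsCyclic P) : Cfsg.IsNilpotentBlock p M B ↔ Cfsg.blockRank p B = 1 := by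
  haveI : PMod p M := ⟨hM⟩
  refine ⟨fun h => h.blockRank, fun h => ?_⟩
  obtain ⟨e, hm⟩ := exists_maxPr hB.isBlk (hB.isDefectGroup_iff.1 hPD)
  refine isNilpotentBlock_iff.2 ⟨hB, (hm.nil_iff_of_comm (le_cent_of_cyclic hcyc)).2 ?_⟩
  by_cases h1 : P = ⊥
  · subst h1
    exact fun g _ => Subgroup.mem_centralizer_iff.2 fun x hx => by simp [Subgroup.mem_bot.1 hx]
  obtain ⟨u, β, e', Φ, _, X, y, ε, δ, h2, s⟩ := hm.exists_cyS hB hcyc h1
  rw [s.blockRank_eq h2, card_autE] at h
  exact Subgroup.relIndex_eq_one.1 h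

end Cfsg.Agent.S4649
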