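import Cfsg.Statements.S4650
import Mathlib
import Cfsg.Agent.H4.PairF

set_option autoImplicit false
open Cfsg

open Cfsg CfsgH3 CfsgH4 CfsgH1 CfsgL0 MonoidAlgebra

namespace Cfsg.Agent.S4650

/-- Let B be a block of the finite group G relative to a maximal ideal M of the algebraic integers containing the prime p, with a nontrivial commutative defect group P; let c be a block of C_G(P) inducing B and T the stabilizer of c in N_G(P). Then T/C_G(P) acts freely on the non-identity elements of P (an element of T fixing a non-identity element of P under conjugation lies in C_G(P)) if and only if, for every nontrivial subgroup Q of P, the block of C_G(Q) induced by c inside C_G(Q) is a nilpotent block of C_G(Q). -/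
theorem result {G : Type*} [Group G] [Finite G] (p : ℕ) [Fact p.Prime] (M : Ideal Cfsg.AlgInt) (hM : Cfsg.IsPModular p M) (B : Set (Cfsg.IrrCharacter G)) (hB : Cfsg.IsPBlock M B) (P : Subgroup G) (hPD : Cfsg.IsDefectGroup p M B P) (hPab : ∀ x ∈ P, ∀ y ∈ P, x * y = y * x) (hP1 : P ≠ ⊥) (c : Set (Cfsg.IrrCharacter (Subgroup.centralizer (P : Set G)))) (hc : Cfsg.IsInducedBlock M (Subgroup.centralizer (P : Set G)) c B) (T : Subgroup G) (hT : ∀ g : G, g ∈ T ↔ (g ∈ Subgroup.normalizer (P : Set G) ∧ Cfsg.StabilizesBlock (Subgroup.centralizer (P : Set G)) c g)) : (∀ g ∈ T, ∀ x ∈ P, x ≠ 1 → g * x * g⁻¹ = x → g ∈ Subgroup.centralizer (P : Set G)) ↔ ∀ Q : Subgroup G, Q ≤ P → Q ≠ ⊥ → ∀ f : Set (Cfsg.IrrCharacter (Subgroup.centralizer (Q : Set G))), Cfsg.IsInducedBlockIn M (Subgroup.centralizer (Q : Set G)) (Subgroup.centralizer (P : Set G)) c f → Cfsg.IsNilpotentBlock p M f := by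
  haveI : PMod p M := ⟨hM⟩
  have hm := hc.maxPr hPD
  obtain rfl := eq_stab_of hc.1 hT
  have hP : P ≤ Subgroup.centralizer (P : Set G) := fun x hx y hy => hPab y hy x hx
  have key : ∀ Q ≤ P, ∀ f : Set (IrrCharacter (Subgroup.centralizer (Q : Set G))), IsPBlock M f →
      (IsInducedBlockIn M _ (Subgroup.centralizer (P : Set G)) c f ↔
        PLe p Q (ie M _ f) P (ie M _ c)) := fun Q hQ f hf => by
    have h1 := hP.trans (cent_anti hQ)
    rw [isInducedBlockIn_iff_br hm.pr.pgrp h1 (cent_anti hQ) inf_le_right (cent_le_norm P)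
      (.inl hP) hc.1 hf]
    exact ⟨fun h => NSub.ple ⟨hf.pr (hm.pr.pgrp.to_le hQ), hm.pr, hQ, h1.trans (cent_le_norm Q),
      hf.isBlk_ie.inv.mono h1, h⟩, fun h => (h.nsub hm.pr (h1.trans (cent_le_norm Q))).mul⟩
  constructor
  · intro h Q hQ h1 f hf
    obtain ⟨x, hx, h2⟩ := (Subgroup.bot_or_exists_ne_one Q).resolve_left h1
    have h3 : IsPBlock M f := hf.2.1
    exact isNilpotentBlock_ie_iff.2 ⟨h3, hm.nilR_of_comm hP ((key Q hQ f h3).1 hf) fun g hg =>
      h g hg.2 x (hQ hx) h2 (mem_cent_iff_conj.1 hg.1 x hx)⟩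
  · intro h g hg x hx h1 h2
    have hQ : Subgroup.zpowers x ≤ P := Subgroup.zpowers_le.2 hx
    obtain ⟨f, hf⟩ := hm.pr.exists_ple hQ
    obtain ⟨f, h3, rfl⟩ := (hf.pr_left hm.pr).exists_eq
    refine (hm.nilR_iff_of_comm hP hf).1 (isNilpotentBlock_ie_iff.1
      (h _ hQ (by simpa using h1) f ((key _ hQ f h3).2 hf))).2 ⟨?_, hg⟩
    rw [centralizer_zpowers]
    exact Subgroup.mem_centralizer_singleton_iff.2 (mul_inv_eq_iff_eq_mul.1 h2)

end Cfsg.Agent.S4650
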