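import Cfsg.Statements.S4651
import Mathlib
import Cfsg.Agent.H4.KR
import Cfsg.Agent.H3.Misc2

set_option autoImplicit false
open Cfsg

open Cfsg MonoidAlgebra CfsgL0 CfsgH4 Module
open CfsgH3 hiding cj cj_cj
open scoped ComplexConjugate

namespace Cfsg.Agent.S4651

/-- An alternating-sum identity over chains of p-subgroups (the character-count form behind the chain reformulation of Alperin's weight conjecture, which holds unconditionally for the difference k − l). Let b be a block of the finite group G relative to a maximal ideal M of the algebraic integers containing the prime p. Consider the nonempty chains s = {Q_0 < Q_1 < ⋯ < Q_m} of nontrivial p-subgroups of G in which every member is normal in the largest member; let N_G(s) be the intersection of the normalizers of the members (the stabilizer of the chain), and let b_s be the set of irreducible characters of N_G(s) lying in blocks of N_G(s) that induce b. Then #G · (k(b) − l(b)) equals the sum over all such chains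 s of (−1)^m · #N_G(s) · (k(b_s) − l(b_s)), where k counts irreducible characters and l is the p-regular rank; equivalently, k(b) − l(b) is the alternating sum of k(b_s) − l(b_s) over representatives of the conjugacy classes of such chains. -/
theorem result {G : Type*} [Group G] [Finite G] (p : ℕ) [Fact p.Prime] (M : Ideal Cfsg.AlgInt) (hM : Cfsg.IsPModular p M) (b : Set (Cfsg.IrrCharacter G)) (hb : Cfsg.IsPBlock M b) : (Nat.card G : ℤ) * ((Nat.card b : ℤ) - (Cfsg.blockRank p b : ℤ)) = ∑ᶠ s ∈ {s : Finset (Subgroup G) | s.Nonempty ∧ (∀ Q ∈ s, ∀ R ∈ s, Q ≤ R ∨ R ≤ Q) ∧ (∀ Q ∈ s, Q ≠ ⊥ ∧ IsPGroup p Q) ∧ ∃ T ∈ s, ∀ Q ∈ s, Q ≤ T ∧ T ≤ Subgroup.normalizer ((Q : Subgroup G) : Set G)}, (-1 : ℤ) ^ (s.card - 1) * (Nat.card (((⨅ Q ∈ s, Subgroup.normalizer ((Q : Subgroup G) : Set G) : Subgroup G))) : ℤ) * ((Nat.card {ψ : Cfsg.IrrCharacter (((⨅ Q ∈ s, Subgroup.normalizer ((Q : Subgroup G) : Set G) : Subgroup G))) | ∃ β : Set (Cfsg.IrrCharacter (((⨅ Q ∈ s, Subgroup.normalizer ((Q : Subgroup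 G) : Set G) : Subgroup G)))), ψ ∈ β ∧ Cfsg.IsInducedBlock M (((⨅ Q ∈ s, Subgroup.normalizer ((Q : Subgroup G) : Set G) : Subgroup G))) β b} : ℤ) - (Cfsg.blockRank p {ψ : Cfsg.IrrCharacter (((⨅ Q ∈ s, Subgroup.normalizer ((Q : Subgroup G) : Set G) : Subgroup G))) | ∃ β : Set (Cfsg.IrrCharacter (((⨅ Q ∈ s, Subgroup.normalizer ((Q : Subgroup G) : Set G) : Subgroup G)))), ψ ∈ β ∧ Cfsg.IsInducedBlock M (((⨅ Q ∈ s, Subgroup.normalizer ((Q : Subgroup G) : Set G) : Subgroup G))) β b} : ℤ)) := by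
  classical
  haveI : PMod p M := ⟨hM⟩
  have := Fintype.ofFinite G
  have := Fintype.ofFinite (Subgroup G)
  let N : Finset (Subgroup G) → Subgroup G := fun s => ⨅ Q ∈ s, Subgroup.normalizer (Q : Set G)
  have hl : ∀ s, KCh p s → BrLoc p (sSup (s : Set (Subgroup G))) (N s).subtype.range := fun s h => by
    rw [Subgroup.range_subtype]
    exact ⟨h.pg_sup, le_iInf₂ fun Q hQ => (Subgroup.centralizer_le (le_sSup hQ :
      Q ≤ sSup (s : Set (Subgroup G)))).trans (Subgroup.centralizer_le_normalizer _),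
      fun x hx => mem_norm_sSup_kr (by simpa [N, Subgroup.mem_iInf] using hx),
      Or.inl (le_iInf₂ h.nrm)⟩
  have hβ : ∀ s, KCh p s → {ψ : IrrCharacter (N s) | ∃ β : Set (IrrCharacter (N s)), ψ ∈ β ∧
      IsInducedBlock M (N s) β b} = brSet M (N s).subtype b := fun s h => Set.ext fun ψ => by
    rw [(hl s h).mem_brSet_iff (N s).subtype_injective hb]
    exact ⟨fun ⟨β, h1, h2⟩ => h2.1.eq_blockOf h1 ▸ h2.indB, fun h1 => ⟨_, mem_blockOf_self ψ,
      isInducedBlock_iff.2 ⟨isPBlock_blockOf ψ.2, hb, h1⟩⟩⟩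
  let T : G → Finset (Subgroup G) → ℂ := fun g s =>
    if hg : g ∈ N s then colB (brSet M (N s).subtype b) ⟨g, hg⟩ ⟨g, hg⟩ else 0
  have hS : {s : Finset (Subgroup G) | s.Nonempty ∧ (∀ Q ∈ s, ∀ R ∈ s, Q ≤ R ∨ R ≤ Q) ∧
      (∀ Q ∈ s, Q ≠ ⊥ ∧ IsPGroup p Q) ∧ ∃ T ∈ s, ∀ Q ∈ s, Q ≤ T ∧
      T ≤ Subgroup.normalizer ((Q : Subgroup G) : Set G)} =
      ((Finset.univ.filter (KCh p)).erase (∅ : Finset (Subgroup G)) : Finset _) := by
    ext s
    simp only [Set.mem_setOf_eq, Finset.coe_erase, Finset.coe_filter, Finset.mem_univ, true_and,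
      Set.mem_diff, Set.mem_singleton_iff, ← Ne.eq_def, ← Finset.nonempty_iff_ne_empty]
    exact ⟨fun ⟨h1, h2, h3, T, _, h4⟩ => ⟨⟨h2, h3, fun Q hQ =>
      (sSup_le fun R hR => (h4 R hR).1).trans (h4 Q hQ).2⟩, h1⟩, fun ⟨h1, h2⟩ => ⟨h2, h1.cmp, h1.pg,
      _, sSup_mem_of_cmp h1.cmp h2, fun Q hQ => ⟨le_sSup hQ, h1.nrm Q hQ⟩⟩⟩
  have h0 : KCh p (∅ : Finset (Subgroup G)) := ⟨by simp, by simp, by simp⟩
  have h1 : ∀ s, (Nat.card (N s) : ℂ) * (Nat.card (brSet M (N s).subtype b) -
      blockRank p (brSet M (N s).subtype b)) = ∑ g, if p ∣ orderOf g then T g s else 0 := fun s => by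
    rw [card_mul_sub_rank (fB_brSet_mem _ _), ← Finset.sum_filter_of_ne (p := (· ∈ N s))
      fun g _ hg => by_contra fun e => hg (by simp [T, e]), ← sum_subgroup_eq]
    exact Finset.sum_congr rfl fun g _ => by simp [T]
  rw [hS, finsum_mem_coe_finset]
  apply Int.cast_injective (α := ℂ)
  push_cast
  rw [card_mul_sub_rank hb.fB_mem, Finset.sum_congr rfl (g := fun s => ∑ g, if p ∣ orderOf g then
    -((-1) ^ s.card * T g s) else 0) fun s hs => ?_, Finset.sum_comm]
  · refine Finset.sum_congr rfl fun g _ => ?_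
    split_ifs with hg
    swap
    · simp
    have h2 := kr_sum_zero (pelt_ppart p g) (fun e => ppart_eq_one_iff.1 e hg)
      (centralizer_le_centralizer_ppart g (Subgroup.mem_centralizer_singleton_iff.2 rfl))
      (fun K => ppart_mem p) (T g) fun s t hs ht h3 h4 h5 h6 => by
        simp only [T]
        rw [dif_pos h3, dif_pos h4]
        refine colB_congr (p := p) (g := g) (N s).subtype_injective (N t).subtype_injective
          (fB_brSet_mem _ _) (fB_brSet_mem _ _) rfl rfl (by simpa [N] using h6) ?_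
        rw [(hl s hs).inc_eB_brSet (N s).subtype_injective hb.fB_mem,
          (hl t ht).inc_eB_brSet (N t).subtype_injective hb.fB_mem, br_br, br_br, sup_comm,
          sup_comm _ (sSup _)]
        exact congrArg (br · _) h5
    rw [← Finset.filter_filter, Finset.sum_filter_of_ne fun s _ h => by_contra fun e => h (by
      simp only [T, N, dif_neg e, mul_zero]), ← Finset.add_sum_erase _ _
      (Finset.mem_filter.2 ⟨Finset.mem_univ _, h0⟩)] at h2
    have h3 : g ∈ N ∅ := by simp [N]
    rw [Finset.sum_neg_distrib, ← eq_neg_of_add_eq_zero_left h2, Finset.card_empty, pow_zero,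
      one_mul]
    simp only [T, dif_pos h3]
    refine colB_congr (p := p) (φ := MonoidHom.id G) Function.injective_id
      (N ∅).subtype_injective hb.fB_mem (fB_brSet_mem _ _) rfl rfl (by ext; simp [N]) ?_
    rw [(hl _ h0).inc_eB_brSet (N ∅).subtype_injective hb.fB_mem, Finset.coe_empty, sSup_empty,
      br_bot]
    exact congrArg _ (ga_ext fun x => coeff_inc (φ := MonoidHom.id G) Function.injective_id _ x)
  · rw [Finset.mem_erase, Finset.mem_filter, ← Finset.nonempty_iff_ne_empty, ← Finset.card_pos]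
      at hs
    rw [mul_assoc]
    erw [hβ s hs.2.2, h1 s]
    rw [Finset.mul_sum]
    refine Finset.sum_congr rfl fun g _ => ?_
    obtain ⟨k, hk⟩ := Nat.exists_eq_succ_of_ne_zero hs.1.ne'
    rw [hk]
    split_ifs <;> simp [pow_succ]

end Cfsg.Agent.S4651
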