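import Cfsg.Statements.S4654
import Mathlib
import Cfsg.Agent.H4.Fong2

set_option autoImplicit false
open Cfsg

open Cfsg CfsgH3 CfsgH4 CfsgH1 CfsgL0 MonoidAlgebra

namespace Cfsg.Agent.S4654

/-- Fix a prime p and a maximal ideal M of the algebraic integers containing p. Let P be a normal p-subgroup of the finite group G, B a p-block of G and e a p-block of C_G(P) such that (P, e) is a Brauer pair of B (as P is normal, this says that e occurs in the idempotent of B, which is supported on C_G(P)). Let T be the stabilizer of e in G under conjugation. Then the idempotent of e is a block idempotent of T: some block E of T has, at every element of T, the same idempotent coefficient as e (zero off C_G(P)); and the idempotent of B is the sum of the distinct G-conjugates of the idempotent of e: its coefficient at g is the sum over all x in G of the coefficient of e at x⁻¹ g x, divided by the order of T. -/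
theorem result {G : Type*} [Group G] [Fintype G] (p : ℕ) [Fact p.Prime] (M : Ideal Cfsg.AlgInt) (hM : Cfsg.IsPModular p M) (P : Subgroup G) [P.Normal] (hP : IsPGroup p P) (B : Set (Cfsg.IrrCharacter G)) (e : Set (Cfsg.IrrCharacter (Subgroup.centralizer (P : Set G)))) (hBe : Cfsg.IsBrauerPairOf p M B P e) (T : Subgroup G) (hT : ∀ x : G, x ∈ T ↔ Cfsg.StabilizesBlock (Subgroup.centralizer (P : Set G)) e x) : (∃ E : Set (Cfsg.IrrCharacter T), Cfsg.IsPBlock M E ∧ ∀ t : T, Cfsg.blockCoeff E t = Cfsg.subgroupBlockCoeff (Subgroup.centralizer (P : Set G)) e (t : G)) ∧ ∀ g : G, Cfsg.blockCoeff B g = (Nat.card T : ℂ)⁻¹ * ∑ x : G, Cfsg.subgroupBlockCoeff (Subgroup.centralizer (P : Set G)) e (x⁻¹ * g * x) := by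
  haveI : PMod p M := ⟨hM⟩
  obtain ⟨-, he, hB, h⟩ := isBrauerPairOf_iff.1 hBe
  have hn : ⊤ ≤ Subgroup.normalizer (Subgroup.centralizer (P : Set G) : Set G) :=
    (top_le_norm P).trans (norm_le_norm_cent P)
  have h1 : T = stab (Subgroup.normalizer (P : Set G)) (ie M _ e) :=
    eq_stab_of he fun y => by rw [hT, and_iff_right (top_le_norm P trivial)]
  constructor
  · obtain ⟨E, hE, h2⟩ := (h1 ▸ hBe.pr.isBlk_stab : IsBlk T T _).exists_ie
    exact ⟨E, hE, (coeff_eq_iff_ie (h1 ▸ hBe.pr.cent_le_stab) he.fB_mem hE.fB_mem).2 h2.symm⟩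
  · intro g
    have hn' : ⊤ ≤ Subgroup.normalizer ((Subgroup.centralizer (P : Set G)).subtype.range : Set G) := by
      rwa [Subgroup.range_subtype]
    have h2 := stab_inc_eB (Subgroup.subtype_injective _) hn' he.fB_mem
    have h3 : eB M B = osum ⊤ (ie M _ e) := by
      have h4 := br_eq_self_of_idem hP le_top (top_le_norm P) (eB_mem_ZA B) hB.isBlk.idem
      rw [h4] at h
      refine hB.isBlk.eq_of_mul_ne le_rfl ((isBlk_iff_of_normal_p hP le_top (top_le_norm P)
        inf_le_right le_top).1 (he.isBlk_ie.isBlk_osum le_rfl le_top hn hn)) ?_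
      rw [he.isBlk_ie.mul_osum_ne_iff le_rfl hn hn (inv_eB B), h]
      exact he.isBlk_ie.ne
    have h4 : fB B = osum ⊤ (inc (Subgroup.subtype _) (fB e)) := by
      refine idem_eq_of_redG hB.fB_mem (osum_mem_LG (inc_mem_LG _ he.fB_mem)) (fB_idem B)
        (osum_idem (inc_fB_idem _ e) fun x hx => ?_) ((inv_fB B).commute _).symm
        (by rw [redG_osum_inc (Subgroup.subtype_injective _) hn' he.fB_mem]; exact h3)
      rcases (he.isBlk_ie.cnj_of_norm (hn hx) (hn hx)).eq_or le_rfl he.isBlk_ie with h5 | h5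
      · exact .inl (h2.le ⟨hx, h5⟩).2
      · have h6 := cnj_mem_ZA (inc_fB_mem_ZA' _ e) x
        rw [mem_normalizer_iff_cj.1 (hn hx)] at h6
        have h7 := inc_mem_LG (Subgroup.subtype _) he.fB_mem
        refine .inr (idem_eq_zero_of_redG (mul_mem (cnj_mem_LG x h7) h7) ?_ ?_)
        · rw [mul_assoc, ← mul_assoc _ (cnj x _), ← ZA_comm le_rfl h6 (inc_fB_mem_ZA' _ e),
            mul_assoc, inc_fB_idem, ← mul_assoc, ← map_mul, inc_fB_idem]
        · rw [redG_mul (cnj_mem_LG x h7) h7, redG_cnj, redG_inc_fB, h5]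
    have := Fintype.ofFinite (⊤ : Subgroup G)
    have h5 := sum_cnj_eq ⊤ (inc (Subgroup.subtype _) (fB e)) fun a => a.coeff g
    rw [Subgroup.normalizer_eq_top P] at h1
    have h6 : ∑ a ∈ orb ⊤ (inc (Subgroup.subtype _) (fB e)), a.coeff g = (fB B).coeff g := by
      rw [h4, osum, coeff_sum, Finsupp.finset_sum_apply]
    rw [← h2, ← h1, h6, coeff_fB, nsmul_eq_mul] at h5
    rw [eq_inv_mul_iff_mul_eq₀ (natCard_ne_zero T), ← h5]
    simp only [coeff_cnj, coeff_inc_fB]
    exact Fintype.sum_equiv Subgroup.topEquiv.toEquiv _ _ fun _ => rfl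

end Cfsg.Agent.S4654
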