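import Cfsg.Statements.S4661
import Mathlib
import Cfsg.Agent.H4.PairD

set_option autoImplicit false
open Cfsg

open Cfsg CfsgH4 CfsgH1 CfsgL0 MonoidAlgebra

namespace Cfsg.Agent.S4661

/-- Fix a prime p and a maximal ideal M of the algebraic integers containing p. Let (P, e) be a maximal Brauer pair of the p-block B of the finite group G, Q ≤ P, and f the p-block of C_G(Q) with (Q, f) ≤ (P, e). Then C_P(Q) is contained in a defect group of f (as a block of the group C_G(Q)); and for some x in G the conjugate pair (x Q x⁻¹, conjugate of f) again lies below (P, e) and C_P(x Q x⁻¹) is a defect group of the conjugate of f in C_G(x Q x⁻¹). -/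
theorem result {G : Type*} [Group G] [Fintype G] (p : ℕ) [Fact p.Prime] (M : Ideal Cfsg.AlgInt) (hM : Cfsg.IsPModular p M) (B : Set (Cfsg.IrrCharacter G)) (P Q : Subgroup G) (e : Set (Cfsg.IrrCharacter (Subgroup.centralizer (P : Set G)))) (f : Set (Cfsg.IrrCharacter (Subgroup.centralizer (Q : Set G)))) (hmax : Cfsg.IsMaximalBrauerPair p M B P e) (hQP : Q ≤ P) (hf : Cfsg.IsPBlock M f) (hle : Cfsg.SubpairLE p M Q f P e) : (∃ D : Subgroup (Subgroup.centralizer (Q : Set G)), Cfsg.IsDefectGroup p M f D ∧ (P ⊓ Subgroup.centralizer (Q : Set G)).subgroupOf (Subgroup.centralizer (Q : Set G)) ≤ D) ∧ ∃ x : G, Cfsg.SubpairLE p M (Q.map (MulAut.conj x).toMonoidHom) (Cfsg.conjBlock Q x f) P e ∧ Cfsg.IsDefectGroup p M (Cfsg.conjBlock Q x f) ((P ⊓ Subgroup.centralizer ((Q.map (MulAut.conj x).toMonoidHom) : Set G)).subgroupOf (Subgroup.centralizer ((Q.map (MulAut.conj x).toMonoidHom) : Set G))) := by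
  haveI : PMod p M := ⟨hM⟩
  have h := hmax.maxPr
  obtain ⟨h1, h2⟩ := h.of_ple hle.ple
  obtain ⟨D, hD⟩ := h1.blk.exists_isDef (p := p) le_rfl Subgroup.le_normalizer
  constructor
  · obtain ⟨E, hE, h3⟩ := h.exists_isDef_ge hle.ple h1.cent_le_stab hD
    exact ⟨E.subgroupOf _, (hf.isDefectGroup_subgroupOf_iff hE.le).2 hE, Subgroup.comap_mono h3⟩
  · obtain ⟨x, h3, -, h4⟩ := h.exists_cnj_isDef h1 h2 h1.cent_le_stab hD
    refine ⟨x, (subpairLE_conj_iff hf hmax.1.1.2 x).2 h3, ?_⟩
    rw [cj_centralizer, ← ie_conjBlock hf] at h4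
    exact ((hf.conjBlock x).isDefectGroup_subgroupOf_iff inf_le_right).2 h4

end Cfsg.Agent.S4661
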