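import Cfsg.Statements.S4662
import Mathlib
import Cfsg.Agent.H4.PairD

set_option autoImplicit false
open Cfsg

open Cfsg CfsgH4 CfsgH1 CfsgL0 MonoidAlgebra

namespace Cfsg.Agent.S4662

/-- Fix a prime p and a maximal ideal M of the algebraic integers containing p. Let (P, e) be a maximal Brauer pair of the p-block B of the finite group G, Q ≤ P, and f the p-block of C_G(Q) with (Q, f) ≤ (P, e). Let T be the stabilizer of f in N_G(Q). Then the idempotent of f is a block idempotent of T, and N_P(Q) is contained in a defect group of that block of T; moreover for some x in G the conjugate pair (x Q x⁻¹, conjugate of f) again lies below (P, e) and, with T' the stabilizer of the conjugate of f in N_G(x Q x⁻¹), N_P(x Q x⁻¹) is a defect group of the block of T' whose idempotent is that of the conjugate of f. -/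
theorem result {G : Type*} [Group G] [Fintype G] (p : ℕ) [Fact p.Prime] (M : Ideal Cfsg.AlgInt) (hM : Cfsg.IsPModular p M) (B : Set (Cfsg.IrrCharacter G)) (P Q : Subgroup G) (e : Set (Cfsg.IrrCharacter (Subgroup.centralizer (P : Set G)))) (f : Set (Cfsg.IrrCharacter (Subgroup.centralizer (Q : Set G)))) (hmax : Cfsg.IsMaximalBrauerPair p M B P e) (hQP : Q ≤ P) (hf : Cfsg.IsPBlock M f) (hle : Cfsg.SubpairLE p M Q f P e) (T : Subgroup G) (hT : ∀ y : G, y ∈ T ↔ y ∈ Subgroup.normalizer (Q : Set G) ∧ Cfsg.StabilizesBlock (Subgroup.centralizer (Q : Set G)) f y) : (∃ F : Set (Cfsg.IrrCharacter T), Cfsg.IsPBlock M F ∧ (∀ t : T, Cfsg.blockCoeff F t = Cfsg.subgroupBlockCoeff (Subgroup.centralizer (Q : Set G)) f (t : G)) ∧ ∃ D : Subgroup T, Cfsg.IsDefectGroup p M F D ∧ (P ⊓ Subgroup.normalizer (Q : Set G)).subgroupOf T ≤ D) ∧ ∃ x : G, Cfsg.SubpairLE p M (Q.map (MulAut.conj x).toMonoidHom) (Cfsg.conjBlock Q x f) P e ∧ ∀ (T' : Subgroup G), (∀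 y : G, y ∈ T' ↔ y ∈ Subgroup.normalizer ((Q.map (MulAut.conj x).toMonoidHom) : Set G) ∧ Cfsg.StabilizesBlock (Subgroup.centralizer ((Q.map (MulAut.conj x).toMonoidHom) : Set G)) (Cfsg.conjBlock Q x f) y) → ∃ F' : Set (Cfsg.IrrCharacter T'), Cfsg.IsPBlock M F' ∧ (∀ t : T', Cfsg.blockCoeff F' t = Cfsg.subgroupBlockCoeff (Subgroup.centralizer ((Q.map (MulAut.conj x).toMonoidHom) : Set G)) (Cfsg.conjBlock Q x f) (t : G)) ∧ Cfsg.IsDefectGroup p M F' ((P ⊓ Subgroup.normalizer ((Q.map (MulAut.conj x).toMonoidHom) : Set G)).subgroupOf T') := by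
  haveI : PMod p M := ⟨hM⟩
  have h := hmax.maxPr
  obtain ⟨h1, h2⟩ := h.of_ple hle.ple
  obtain rfl := eq_stab_of hf hT
  obtain ⟨D, hD, -⟩ := h1.exists_isDef_stab
  constructor
  · obtain ⟨E, hE, h3⟩ := h.exists_isDef_ge hle.ple le_rfl hD
    obtain ⟨F, hF, h4⟩ := h1.isBlk_stab.exists_eq_subtype
    rw [hle.ple.inf_stab h.pr] at h3
    refine ⟨F, hF, (coeff_eq_iff_ie h1.cent_le_stab hf.fB_mem hF.fB_mem).2 h4.symm,
      E.subgroupOf _, (hF.isDefectGroup_subgroupOf_iff hE.le).2 ?_, Subgroup.comap_mono h3⟩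
    rwa [← h4]
  · obtain ⟨x, h3, -, h4⟩ := h.exists_cnj_isDef h1 h2 le_rfl hD
    refine ⟨x, (subpairLE_conj_iff hf hmax.1.1.2 x).2 h3, fun T' hT' => ?_⟩
    have hf' := hf.conjBlock x
    obtain rfl := eq_stab_of hf' hT'
    rw [cj_stab, cj_normalizer, h3.inf_stab h.pr, ← ie_conjBlock hf] at h4
    have h5 := hf'.pr (isPGroup_cj h1.pgrp x)
    obtain ⟨F, hF, h6⟩ := h5.isBlk_stab.exists_eq_subtype
    refine ⟨F, hF, (coeff_eq_iff_ie h5.cent_le_stab hf'.fB_mem hF.fB_mem).2 h6.symm,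
      (hF.isDefectGroup_subgroupOf_iff h4.le).2 ?_⟩
    rwa [← h6]

end Cfsg.Agent.S4662
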