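import Cfsg.Statements.S4664
import Mathlib
import Cfsg.Agent.H4.Sec
import Cfsg.Agent.H4.Dict

set_option autoImplicit false
open Cfsg

open Cfsg CfsgH4 CfsgH1 CfsgL0 MonoidAlgebra Function
open CfsgH3
open scoped ComplexConjugate Pointwise

namespace Cfsg.Agent.S4664

/-- Fix a prime p and a maximal ideal M of the algebraic integers containing p, and let B be a p-block of the finite group G. Let m be the p'-part of the order of G and η = exp(2πi/m). Then every coefficient of the idempotent of B lies in the cyclotomic field ℚ(η). -/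
theorem result {G : Type*} [Group G] [Fintype G] (p : ℕ) [Fact p.Prime] (M : Ideal Cfsg.AlgInt) (hM : Cfsg.IsPModular p M) (B : Set (Cfsg.IrrCharacter G)) (hB : Cfsg.IsPBlock M B) (g : G) : Cfsg.blockCoeff B g ∈ IntermediateField.adjoin ℚ ({Complex.exp (2 * Real.pi * Complex.I / ((Nat.card G / p ^ (Nat.card G).factorization p : ℕ) : ℂ))} : Set ℂ) := by
  classical
  haveI : PMod p M := ⟨hM⟩
  by_cases hg : p ∣ orderOf g
  · have := colB_eq_zero (p := p) hB.fB_mem (x := 1) (y := g) fun h => ppart_eq_one_iff.1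
      (by simpa [ppart_eq_one_iff.2 (show ¬ p ∣ orderOf (1 : G) by simp [(Fact.out : p.Prime).ne_one])] using h.symm) hg
    rw [colB_one, mul_eq_zero, or_iff_right (Nat.cast_ne_zero.2 Nat.card_pos.ne')] at this
    rw [this]
    exact zero_mem _
  have h0 := (Nat.ordCompl_pos p (Nat.card_pos (α := G)).ne').ne'
  have h1 : orderOf g ∣ Nat.card G / p ^ (Nat.card G).factorization p :=
    (((Fact.out : p.Prime).coprime_iff_not_dvd.2 hg).symm.pow_right _).dvd_of_dvd_mul_left
      (by rw [Nat.ordProj_mul_ordCompl_eq_self]; exact orderOf_dvd_natCard g)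
  have : NeZero _ := ⟨h0⟩
  have h2 : ∀ (χ : IrrCharacter G) (x : G), orderOf x ∣ orderOf g → χ.1 x ∈ IntermediateField.adjoin ℚ
      {Complex.exp (2 * Real.pi * Complex.I / ((Nat.card G / p ^ (Nat.card G).factorization p : ℕ) : ℂ))} := fun χ x hx => by
    obtain ⟨n, s, -, a1, -, a2⟩ := χ.2.isCharacter.exists_eigenvalues x
    rw [← zpow_one x, a2]
    refine sum_mem fun i _ => zpow_mem ?_ _
    obtain ⟨k, -, hk⟩ := (Complex.isPrimitiveRoot_exp _ h0).eq_pow_of_pow_eq_one
      (ξ := s i) (by obtain ⟨m, hm⟩ := hx.trans h1; rw [hm, pow_mul, a1, one_pow])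
    exact hk ▸ pow_mem (IntermediateField.mem_adjoin_simple_self ℚ _) k
  rw [blockCoeff_eq]
  refine mul_mem (inv_mem (natCast_mem _ _)) (sum_mem fun χ _ => ?_)
  split_ifs
  · rw [← χ.2.isCharacter.apply_inv]
    exact mul_mem (h2 χ 1 (by simp)) (h2 χ _ (by simp))
  · exact zero_mem _

end Cfsg.Agent.S4664
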