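import Cfsg.Statements.S4665
import Mathlib
import Cfsg.Agent.H4.Dim

set_option autoImplicit false
open Cfsg

open Cfsg CfsgH3 CfsgH4 CfsgH1 CfsgL0 MonoidAlgebra

namespace Cfsg.Agent.S4665

/-- Fix a prime p, a maximal ideal M of the algebraic integers containing p, and a p-block B of the finite group G, and let p^a be the p-part of the order of G. Let χ be an integer combination of the irreducible characters in B. If the function that agrees with χ on p-regular elements and vanishes on p-singular elements is again an integer combination of the irreducible characters in B, then p^a divides χ(1). -/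
theorem result {G : Type*} [Group G] [Fintype G] (p : ℕ) [Fact p.Prime] (M : Ideal Cfsg.AlgInt) (hM : Cfsg.IsPModular p M) (B : Set (Cfsg.IrrCharacter G)) (hB : Cfsg.IsPBlock M B) (χ : G → ℂ) (hχ : (∃ n : Cfsg.IrrCharacter G → ℤ, ∀ g : G, χ g = ∑ᶠ ψ ∈ B, (n ψ : ℂ) * (ψ : G → ℂ) g)) (h0 : (∃ n : Cfsg.IrrCharacter G → ℤ, ∀ g : G, Cfsg.pRegularPart p χ g = ∑ᶠ ψ ∈ B, (n ψ : ℂ) * (ψ : G → ℂ) g)) : ∃ k : ℤ, χ 1 = (p ^ (Nat.card G).factorization p : ℂ) * k := by
  haveI : PMod p M := ⟨hM⟩
  classical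
  obtain ⟨n, hn⟩ := h0
  rw [pRegularPart_eq] at hn
  have h1 : rg p χ = ∑ ψ : IrrCharacter G, ((if ψ ∈ B then n ψ else 0 : ℤ) : ℂ) • ψ.1 := by
    funext g
    rw [hn, finsum_mem_irr, Finset.sum_apply]
    refine Finset.sum_congr rfl fun ψ _ => ?_
    split_ifs <;> simp
  have h2 : IsGeneralizedCharacter G (rg p χ) :=
    h1 ▸ isGen_sum _ _ fun ψ _ => ψ.2.isGen.intCast_smul _
  rw [← rg_one (p := p) χ]
  exact pow_dvd_of_vanish (M := M) h2 fun g hg => rg_of_sing _ hg

end Cfsg.Agent.S4665
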