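import Cfsg.Statements.S4666
import Mathlib
import Cfsg.Agent.H4.BF

set_option autoImplicit false
open Cfsg

open Cfsg CfsgH3 CfsgH4 CfsgH1 CfsgL0 MonoidAlgebra

namespace Cfsg.Agent.S4666

/-- Fix a prime p and a maximal ideal M of the algebraic integers containing p, and a p-block B of the finite group G of defect d. For every integer combination χ of the irreducible characters in B, p^d times the function that agrees with χ on p-regular elements and vanishes elsewhere is again an integer combination of the irreducible characters in B. -/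
theorem result {G : Type*} [Group G] [Fintype G] (p : ℕ) [Fact p.Prime] (M : Ideal Cfsg.AlgInt) (hM : Cfsg.IsPModular p M) (B : Set (Cfsg.IrrCharacter G)) (hB : Cfsg.IsPBlock M B) (χ : G → ℂ) (hχ : (∃ n : Cfsg.IrrCharacter G → ℤ, ∀ g : G, χ g = ∑ᶠ ψ ∈ B, (n ψ : ℂ) * (ψ : G → ℂ) g)) : (∃ n : Cfsg.IrrCharacter G → ℤ, ∀ g : G, (p ^ Cfsg.blockDefect p B : ℂ) * Cfsg.pRegularPart p χ g = ∑ᶠ ψ ∈ B, (n ψ : ℂ) * (ψ : G → ℂ) g) := by
  haveI : PMod p M := ⟨hM⟩
  classical
  obtain ⟨n, hn⟩ := hχ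
  have h1 : χ = ∑ ψ : IrrCharacter G, (if ψ ∈ B then (n ψ : ℂ) else 0) • ψ.1 := by
    funext g
    rw [hn, finsum_mem_irr, Finset.sum_apply]
    refine Finset.sum_congr rfl fun ψ _ => ?_
    split_ifs <;> simp
  have hc : IsClassFunction G χ := h1 ▸ isClassFunction_sum_irr _
  refine ⟨fun ξ => ∑ ψ : IrrCharacter G, if ψ ∈ B then n ψ * dd p B ψ.1 ξ.1 else 0, fun g => ?_⟩
  rw [pRegularPart_eq, (isClassFunction_rg hc).apply_eq_sum_irr g, finsum_mem_irr, Finset.mul_sum]
  refine Finset.sum_congr rfl fun ξ _ => ?_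
  rw [← mm, mm_eq_sum_left hc, ← mul_assoc]
  have h2 : ∀ ψ : IrrCharacter G, classInner χ ψ.1 = if ψ ∈ B then (n ψ : ℂ) else 0 := fun ψ => by
    rw [h1, classInner_sum_irr]
  simp only [h2]
  split_ifs with hξ
  · congr 1
    push_cast
    rw [Finset.mul_sum]
    refine Finset.sum_congr rfl fun ψ _ => ?_
    split_ifs with hψ
    · rw [coe_dd (M := M) hψ ξ.2.isGen]; ring
    · simp
  · rw [Finset.sum_eq_zero, mul_zero, zero_mul]
    intro ψ _
    split_ifs with hψ
    · rw [mm_eq_zero hB.fB_mem hψ hξ, mul_zero]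
    · simp

end Cfsg.Agent.S4666
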