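import Cfsg.Statements.S4667
import Mathlib
import Cfsg.Agent.H4.BF

set_option autoImplicit false
open Cfsg

open Cfsg CfsgH3 CfsgH4 CfsgH1 CfsgL0 MonoidAlgebra

namespace Cfsg.Agent.S4667

/-- Fix a prime p and a maximal ideal M of the algebraic integers containing p, and a p-block B of the finite group G. The p-regular rank of B (the number of irreducible Brauer characters in B) times the order of G equals the sum over the p-regular elements x of G of Σ_{χ ∈ B} χ(x) χ(x⁻¹) (written with the restriction of χ to p-regular elements, which vanishes at p-singular x). -/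
theorem result {G : Type*} [Group G] [Fintype G] (p : ℕ) [Fact p.Prime] (M : Ideal Cfsg.AlgInt) (hM : Cfsg.IsPModular p M) (B : Set (Cfsg.IrrCharacter G)) (hB : Cfsg.IsPBlock M B) : (Nat.card G : ℂ) * (Cfsg.blockRank p B : ℂ) = ∑ x : G, ∑ᶠ χ ∈ B, Cfsg.pRegularPart p (χ : G → ℂ) x * (χ : G → ℂ) x⁻¹ := by
  haveI : PMod p M := ⟨hM⟩
  rw [card_mul_blockRank hB.fB_mem]
  refine Finset.sum_congr rfl fun x _ => ?_
  simp only [pRegularPart_eq]
  by_cases hx : p ∣ orderOf x
  · simp [rg_of_sing _ hx]
  · simp only [rg_of_reg _ hx, colB_apply_finsum]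
    refine finsum_congr fun χ => ?_
    rw [χ.2.isCharacter.apply_inv]

end Cfsg.Agent.S4667
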