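import Cfsg.Statements.S4668
import Mathlib
import Cfsg.Agent.H4.Fong2

set_option autoImplicit false
open Cfsg

open Cfsg CfsgH3 CfsgH4 CfsgH1 CfsgL0 MonoidAlgebra

namespace Cfsg.Agent.S4668

/-- Fix a prime p and a maximal ideal M of the algebraic integers containing p. Let Q₀ < Q₁ < ⋯ < Q_m be a strictly increasing chain of p-subgroups of the finite group G and N the intersection of their normalizers. Then every block idempotent of N is supported on C_G(Q_m): for every p-block E of N, the idempotent coefficient of E vanishes at every element of N outside C_G(Q_m). -/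
theorem result {G : Type*} [Group G] [Fintype G] (p : ℕ) [Fact p.Prime] (M : Ideal Cfsg.AlgInt) (hM : Cfsg.IsPModular p M) (m : ℕ) (Q : Fin (m + 1) → Subgroup G) (hQ : StrictMono Q) (hQp : ∀ i, IsPGroup p (Q i)) (N : Subgroup G) (hN : ∀ g : G, g ∈ N ↔ ∀ i, g ∈ Subgroup.normalizer (Q i : Set G)) (E : Set (Cfsg.IrrCharacter N)) (hE : Cfsg.IsPBlock M E) (n : N) (hn : (n : G) ∉ Subgroup.centralizer (Q (Fin.last m) : Set G)) : Cfsg.blockCoeff E n = 0 := by
  haveI : PMod p M := ⟨hM⟩
  by_contra h
  have h1 : ¬ p ∣ orderOf (n : G) := fun h1 => h (blockCoeff_eq_zero hE.fB_mem (by simpa using h1))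
  have hQN : ∀ i, N ≤ Subgroup.normalizer (Q i : Set G) := fun i g hg => (hN g).1 hg i
  haveI : ((Q (Fin.last m)).subgroupOf N).Normal :=
    Subgroup.normal_subgroupOf_of_le_normalizer (hQN _)
  have h2 : ∀ x ∈ Q (Fin.last m), x ∈ N → x ∈ Subgroup.centralizer (Subgroup.zpowers (n : G) : Set G) := by
    intro x h3 h4
    have h5 : n ∈ Subgroup.centralizer ((Q (Fin.last m)).subgroupOf N : Set N) := by_contra fun h5 =>
      h (blockCoeff_eq_zero_of_normal (isPGroup_subgroupOf (hQp _) N) hE.fB_mem h5)
    have := congrArg Subtype.val (h5 ⟨x, h4⟩ h3)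
    exact cent_le_cent_comm (P := Subgroup.zpowers (n : G)) (Q := Subgroup.zpowers x) (by
      rw [Subgroup.zpowers_le]
      rintro _ ⟨k, rfl⟩
      exact (Commute.zpow_left this k)) (Subgroup.mem_zpowers x)
  have h3 : ∀ i, Subgroup.zpowers (n : G) ≤ Subgroup.centralizer (Q i : Set G) := by
    intro i
    induction i using Fin.induction with
    | zero => exact cent_le_cent_comm fun x hx => h2 x (hQ.monotone (Fin.le_last _) hx)
                ((hN x).2 fun j => Subgroup.le_normalizer (hQ.monotone (Fin.zero_le j) hx))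
    | succ i ih =>
      refine thompson_p_times_q (hQp i.castSucc) (by
        rw [Nat.card_zpowers]; exact ((Nat.Prime.coprime_iff_not_dvd Fact.out).2 h1).symm)
        (hQp i.succ) (cent_le_cent_comm ih)
        ((hQ.monotone (Fin.castSucc_lt_succ).le).trans Subgroup.le_normalizer)
        (by rw [Subgroup.zpowers_le]; exact hQN _ n.2) fun x hx =>
          h2 x (hQ.monotone (Fin.le_last _) hx.1) ((hN x).2 fun j => ?_)
      rcases le_or_gt j i.castSucc with h4 | h4
      · exact cent_le_norm _ (cent_anti (hQ.monotone h4) hx.2)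
      · exact Subgroup.le_normalizer (hQ.monotone (Fin.castSucc_lt_iff_succ_le.1 h4) hx.1)
  exact hn (h3 _ (Subgroup.mem_zpowers _))

end Cfsg.Agent.S4668
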