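import Cfsg.Statements.S4670
import Mathlib
import Cfsg.Agent.H4.Fong

set_option autoImplicit false
open Cfsg

open Cfsg CfsgH3 CfsgH4 CfsgH1 CfsgL0 MonoidAlgebra

namespace Cfsg.Agent.S4670

/-- Fix a prime p and a maximal ideal M of the algebraic integers containing p. Let P be a p-subgroup of the finite group G and H a subgroup containing N_G(P). For every p-block B of G with defect group P there is exactly one p-block c of H with defect group P whose idempotent agrees with that of B, modulo the local ideal at M, at every element of C_G(P) (their Brauer-map images at P coincide); and every p-block c of H with defect group P arises in this way from exactly one such B. This is the Brauer correspondence over H. -/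
theorem result {G : Type*} [Group G] [Fintype G] (p : ℕ) [Fact p.Prime] (M : Ideal Cfsg.AlgInt) (hM : Cfsg.IsPModular p M) (P H : Subgroup G) (hP : IsPGroup p P) (hH : Subgroup.normalizer (P : Set G) ≤ H) : (∀ B : Set (Cfsg.IrrCharacter G), Cfsg.IsPBlock M B → Cfsg.IsDefectGroup p M B P → ∃! c : Set (Cfsg.IrrCharacter H), Cfsg.IsPBlock M c ∧ Cfsg.IsDefectGroup p M c (P.subgroupOf H) ∧ ∀ x : G, x ∈ Subgroup.centralizer (P : Set G) → Cfsg.MemLocalIdeal M (Cfsg.blockCoeff B x - Cfsg.subgroupBlockCoeff H c x)) ∧ (∀ c : Set (Cfsg.IrrCharacter H), Cfsg.IsPBlock M c → Cfsg.IsDefectGroup p M c (P.subgroupOf H) → ∃! B : Set (Cfsg.IrrCharacter G), Cfsg.IsPBlock M B ∧ Cfsg.IsDefectGroup p M B P ∧ ∀ x : G, x ∈ Subgroup.centralizer (P : Set G) → Cfsg.MemLocalIdeal M (Cfsg.blockCoeff B x - Cfsg.subgroupBlockCoeff H c x)) := by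
  haveI : PMod p M := ⟨hM⟩
  have hPH : P ≤ H := Subgroup.le_normalizer.trans hH
  have key : ∀ B : Set (IrrCharacter G), IsPBlock M B → ∀ c : Set (IrrCharacter H), IsPBlock M c →
      ((∀ x : G, x ∈ Subgroup.centralizer (P : Set G) →
        MemLocalIdeal M (blockCoeff B x - subgroupBlockCoeff H c x)) ↔
      br P (eB M B) = br P (ie M H c)) := by
    intro B hB c hc
    have h1 : ∀ x, MemLocalIdeal M (blockCoeff B x - subgroupBlockCoeff H c x) ↔
        (eB M B).coeff x = (ie M H c).coeff x := fun x => by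
      rw [coeff_eB, coeff_ie, red_eq_iff (hB.blockCoeff_mem x)]
      rw [← coeff_inc_fB]
      exact LG.coeff (inc_mem_LG _ hc.fB_mem) x
    simp only [h1]
    refine ⟨fun h => ga_ext fun g => ?_, fun h x hx => ?_⟩
    · classical
      rw [br_def, br_def, coeff_cut, coeff_cut]
      split_ifs with hg
      exacts [h g hg, rfl]
    · rw [← coeff_cut_of_mem (eB M B) hx, ← coeff_cut_of_mem (ie M H c) hx, ← br_def, ← br_def, h]
  refine ⟨fun B hB hD => ?_, fun c hc hD => ?_⟩
  · rw [hB.isDefectGroup_iff] at hD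
    obtain ⟨e, he, h1, h2⟩ := hB.isBlk.exists_corr le_top hH hD
    obtain ⟨c, hc, rfl⟩ := he.exists_ie
    refine ⟨c, ⟨hc, (hc.isDefectGroup_ie_iff hPH).2 h1, (key B hB c hc).2 h2.symm⟩,
      fun c' ⟨h3, _, h4⟩ => h3.ie_inj hc (h3.isBlk_ie.eq_of_br_eq le_rfl hPH hP he ?_ ?_)⟩
    · rw [← (key B hB c' h3).1 h4]; exact hD.ne
    · rw [← (key B hB c' h3).1 h4, h2]
  · rw [hc.isDefectGroup_ie_iff hPH] at hD
    obtain ⟨e, he, h1, h2⟩ := hc.isBlk_ie.exists_corr hH le_top hD
    obtain ⟨B, hB, rfl⟩ := he.exists_eq_eB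
    refine ⟨B, ⟨hB, hB.isDefectGroup_iff.2 h1, (key B hB c hc).2 h2⟩,
      fun B' ⟨h3, _, h4⟩ => h3.eB_inj hB (h3.isBlk.eq_of_br_eq le_rfl le_top hP he ?_ ?_)⟩
    · rw [(key B' h3 c hc).1 h4]; exact hD.ne
    · rw [(key B' h3 c hc).1 h4, h2]

end Cfsg.Agent.S4670
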