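import Cfsg.Statements.S4671
import Mathlib
import Cfsg.Agent.H4.Fong

set_option autoImplicit false
open Cfsg

open Cfsg CfsgH3 CfsgH4 CfsgH1 CfsgL0 MonoidAlgebra

namespace Cfsg.Agent.S4671

/-- Fix a prime p and a maximal ideal M of the algebraic integers containing p. Let N be a normal subgroup of the finite group G, B a p-block of G and P a defect group of B. Then there is a p-block c of N, stable under conjugation by P and covered by B (some member of B has a constituent in c on restriction to N), such that P ∩ N is a defect group of c. -/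
theorem result {G : Type*} [Group G] [Fintype G] (p : ℕ) [Fact p.Prime] (M : Ideal Cfsg.AlgInt) (hM : Cfsg.IsPModular p M) (N : Subgroup G) [N.Normal] [Fintype N] (B : Set (Cfsg.IrrCharacter G)) (hB : Cfsg.IsPBlock M B) (P : Subgroup G) (hP : Cfsg.IsDefectGroup p M B P) : ∃ c : Set (Cfsg.IrrCharacter N), Cfsg.IsPBlock M c ∧ (∀ x ∈ P, Cfsg.StabilizesBlock N c x) ∧ (∃ χ ∈ B, ∃ θ ∈ c, Cfsg.classInner (fun n : N => (χ : G → ℂ) n) (θ : N → ℂ) ≠ 0) ∧ Cfsg.IsDefectGroup p M c ((P ⊓ N).subgroupOf N) := by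
  haveI : PMod p M := ⟨hM⟩
  obtain ⟨b, hb, h⟩ := exists_covered (M := M) N hB.nonempty
  have h1 := (covers_iff_eB_mul_ne hB.fB_mem hb.fB_mem).1 h
  obtain ⟨x, hx, h2, -, h3⟩ := hB.isBlk.exists_cnj_isDef_inf le_top le_rfl (top_le_norm N)
    (top_le_norm ⊤) hb.isBlk_ie h1 (hB.isDefectGroup_iff.1 hP)
  obtain ⟨c, hc, h4⟩ := (hb.isBlk_ie.cnj_of_norm (top_le_norm N hx) (top_le_norm N hx)).exists_ie
  rw [h4] at h2 h3
  refine ⟨c, hc, fun y hy => (stabilizesBlock_iff hc).2 ⟨top_le_norm N trivial, h2 y hy⟩,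
    covers_iff.1 ((covers_iff_eB_mul_ne hB.fB_mem hc.fB_mem).2 ?_),
    (hc.isDefectGroup_ie_iff inf_le_right).2 h3⟩
  rw [← ie, ← h4]
  exact (mul_cnj_ne_iff (inv_eB B) hx).2 h1

end Cfsg.Agent.S4671
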