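import Cfsg.Statements.S4672
import Mathlib
import Cfsg.Agent.H4.Fong

set_option autoImplicit false
open Cfsg

open Cfsg CfsgH3 CfsgH4 CfsgH1 CfsgL0 MonoidAlgebra

namespace Cfsg.Agent.S4672

/-- Fix a prime p and a maximal ideal M of the algebraic integers containing p. Let N be a normal subgroup of the finite group G of p-power index and c a p-block of N stable under conjugation by G. Then the idempotent of c is a block idempotent of G: there is a p-block B of G whose idempotent coefficients agree with those of c on N and vanish off N; and for every defect group P of such a block B, G = NP and P ∩ N is a defect group of c. -/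
theorem result {G : Type*} [Group G] [Fintype G] (p : ℕ) [Fact p.Prime] (M : Ideal Cfsg.AlgInt) (hM : Cfsg.IsPModular p M) (N : Subgroup G) [N.Normal] (hN : ∃ k : ℕ, N.index = p ^ k) (c : Set (Cfsg.IrrCharacter N)) (hc : Cfsg.IsPBlock M c) (hst : ∀ x : G, Cfsg.StabilizesBlock N c x) : (∃ B : Set (Cfsg.IrrCharacter G), Cfsg.IsPBlock M B ∧ ∀ g : G, Cfsg.blockCoeff B g = Cfsg.subgroupBlockCoeff N c g) ∧ ∀ B : Set (Cfsg.IrrCharacter G), Cfsg.IsPBlock M B → (∀ g : G, Cfsg.blockCoeff B g = Cfsg.subgroupBlockCoeff N c g) → ∀ P : Subgroup G, Cfsg.IsDefectGroup p M B P → N ⊔ P = ⊤ ∧ Cfsg.IsDefectGroup p M c ((P ⊓ N).subgroupOf N) := by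
  haveI : PMod p M := ⟨hM⟩
  obtain ⟨k, hk⟩ := hN
  rw [← Subgroup.relIndex_top_right] at hk
  have hi : Inv ⊤ (ie M N c) := fun x _ => ((stabilizesBlock_iff hc).1 (hst x)).2
  constructor
  · obtain ⟨B, hB, h⟩ := ((isBlk_iff_of_relIndex le_top (top_le_norm N) hk).1
      (hc.isBlk_ie.of_inv le_top hi)).exists_eq_eB
    exact ⟨B, hB, (coeff_eq_iff_eB hc.fB_mem hB.fB_mem).2 h.symm⟩
  · intro B hB h P hP
    rw [coeff_eq_iff_eB hc.fB_mem hB.fB_mem] at h
    rw [hB.isDefectGroup_iff, h] at hP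
    exact ⟨by rw [sup_comm]; exact hc.isBlk_ie.sup_eq_of_relIndex le_top (top_le_norm N) hi hP hk,
      (hc.isDefectGroup_ie_iff inf_le_right).2 (hc.isBlk_ie.isDef_inf le_top (top_le_norm N) hi hP)⟩

end Cfsg.Agent.S4672
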