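import Cfsg.Statements.S4673
import Mathlib
import Cfsg.Agent.H4.Fong

set_option autoImplicit false
open Cfsg

open Cfsg CfsgH3 CfsgH4 CfsgH1 CfsgL0 MonoidAlgebra

namespace Cfsg.Agent.S4673

/-- Fix a prime p and a maximal ideal M of the algebraic integers containing p. Let N ≤ L be normal subgroups of the finite group G with L/N a p-group, let B be a p-block of G covering the p-block c of N (some member of B has a constituent in c on restriction to N), and suppose that N contains a defect group of B. Then the stabilizer T of c in G satisfies T ∩ L = N. -/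
theorem result {G : Type*} [Group G] [Fintype G] (p : ℕ) [Fact p.Prime] (M : Ideal Cfsg.AlgInt) (hM : Cfsg.IsPModular p M) (N L : Subgroup G) [N.Normal] [L.Normal] [Fintype N] (hNL : N ≤ L) (hLN : ∃ k : ℕ, (N.subgroupOf L).index = p ^ k) (B : Set (Cfsg.IrrCharacter G)) (hB : Cfsg.IsPBlock M B) (c : Set (Cfsg.IrrCharacter N)) (hc : Cfsg.IsPBlock M c) (hcov : (∃ χ ∈ B, ∃ θ ∈ c, Cfsg.classInner (fun n : N => (χ : G → ℂ) n) (θ : N → ℂ) ≠ 0)) (hD : ∃ D : Subgroup G, Cfsg.IsDefectGroup p M B D ∧ D ≤ N) (T : Subgroup G) (hT : ∀ x : G, x ∈ T ↔ Cfsg.StabilizesBlock N c x) : T ⊓ L = N := by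
  haveI : PMod p M := ⟨hM⟩
  obtain ⟨k, hk⟩ := hLN
  obtain ⟨D, hD, hDN⟩ := hD
  have h1 := (covers_iff_eB_mul_ne hB.fB_mem hc.fB_mem).1 (covers_iff.2 hcov)
  have hn : L ≤ Subgroup.normalizer (N : Set G) := le_top.trans (top_le_norm N)
  have h2 : T ⊓ L = stab L (ie M N c) := by
    ext x
    rw [Subgroup.mem_inf, hT, stabilizesBlock_iff hc, mem_stab, mem_stab, and_comm]
    exact and_congr_right fun h => and_iff_right (hn h)
  have h3 : N ≤ stab L (ie M N c) := le_stab hNL hc.isBlk_ie.inv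
  have h4 := (stab_le L (ie M N c)).trans hn
  obtain ⟨E, hE⟩ := (hc.isBlk_ie.stab hNL).exists_isDef (p := p) h3 h4
  have h5 := (isBlk_iff_of_relIndex hNL hn hk).1 (hc.isBlk_ie.isBlk_osum le_rfl hNL hn hn)
  obtain ⟨P, hP, h6⟩ := hB.isBlk.knorr le_top le_rfl (top_le_norm L) (top_le_norm ⊤) h5
    ((hc.isBlk_ie.mul_osum_ne_iff le_rfl hn hn (inv_eB B).top).2 h1)
    (hc.isBlk_ie.isDef_osum le_rfl hn hn hE)
  obtain ⟨x, -, rfl⟩ := (hB.isDefectGroup_iff.1 hD).exists_conj hP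
  have h7 : E ≤ N := by
    rw [← h6, ← cj_normal x N]
    exact inf_le_left.trans (cj_mono x hDN)
  obtain ⟨m, -, hm⟩ := (Nat.dvd_prime_pow Fact.out).1
    ((CfsgH1.relIndex_dvd_of_le_normalizer hNL hn (stab_le L (ie M N c))).trans hk.dvd)
  rw [h2, ← hc.isBlk_ie.sup_eq_of_relIndex h3 h4 (inv_stab _ _) hE hm, sup_eq_right.2 h7]

end Cfsg.Agent.S4673
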