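import Cfsg.Statements.S4674
import Mathlib
import Cfsg.Agent.H4.Fong

set_option autoImplicit false
open Cfsg

open Cfsg CfsgH3 CfsgH4 CfsgH1 CfsgL0 MonoidAlgebra

namespace Cfsg.Agent.S4674

local notation "C[" Q "]" => Subgroup.centralizer (SetLike.coe (Q : Subgroup _))
local notation "N[" Q "]" => Subgroup.normalizer (SetLike.coe (Q : Subgroup _))

/-- Fix a prime p and a maximal ideal M of the algebraic integers containing p. Let N be a normal subgroup of the finite group G, Q a p-subgroup of N, H = N_G(Q) and L = H ∩ N = N_N(Q). Let d be a p-block of N with defect group Q and e the p-block of L with defect group Q that induces d inside N (its Brauer correspondent). Then block induction from H to G is a bijection from the p-blocks of H covering e onto the p-blocks of G covering d: every block of H covering e induces exactly one block of G, and that block covers d; and every block of G covering d is induced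 by exactly one block of H covering e. -/
theorem result {G : Type*} [Group G] [Fintype G] (p : ℕ) [Fact p.Prime] (M : Ideal Cfsg.AlgInt) (hM : Cfsg.IsPModular p M) (N : Subgroup G) [N.Normal] [Fintype N] (Q : Subgroup G) (hQ : IsPGroup p Q) (hQN : Q ≤ N) [Fintype ↥(Subgroup.normalizer (Q : Set G) ⊓ N)] (d : Set (Cfsg.IrrCharacter N)) (hd : Cfsg.IsPBlock M d) (hdQ : Cfsg.IsDefectGroup p M d (Q.subgroupOf N)) (e : Set (Cfsg.IrrCharacter ↥(Subgroup.normalizer (Q : Set G) ⊓ N))) (he : Cfsg.IsPBlock M e) (heQ : Cfsg.IsDefectGroup p M e (Q.subgroupOf (Subgroup.normalizer (Q : Set G) ⊓ N))) (hed : Cfsg.IsInducedBlockIn M N (Subgroup.normalizer (Q : Set G) ⊓ N) e d) : (∀ c : Set (Cfsg.IrrCharacter ↥(Subgroup.normalizer (Q : Set G))), Cfsg.IsPBlock M c → (∃ ψ ∈ c, ∃ ξ ∈ e, Cfsg.classInner (fun l : ↥(Subgroup.normalizer (Q : Set G) ⊓ N) => (ψ : ↥(Subgroup.normalizer (Q : Set G)) → ℂ) (Subgroup.inclusion inf_le_left l)) (ξ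 : ↥(Subgroup.normalizer (Q : Set G) ⊓ N) → ℂ) ≠ 0) → ∃! B : Set (Cfsg.IrrCharacter G), Cfsg.IsInducedBlock M (Subgroup.normalizer (Q : Set G)) c B ∧ (∃ χ ∈ B, ∃ θ ∈ d, Cfsg.classInner (fun n : N => (χ : G → ℂ) n) (θ : N → ℂ) ≠ 0)) ∧ (∀ B : Set (Cfsg.IrrCharacter G), Cfsg.IsPBlock M B → (∃ χ ∈ B, ∃ θ ∈ d, Cfsg.classInner (fun n : N => (χ : G → ℂ) n) (θ : N → ℂ) ≠ 0) → ∃! c : Set (Cfsg.IrrCharacter ↥(Subgroup.normalizer (Q : Set G))), (Cfsg.IsPBlock M c ∧ ∃ ψ ∈ c, ∃ ξ ∈ e, Cfsg.classInner (fun l : ↥(Subgroup.normalizer (Q : Set G) ⊓ N) => (ψ : ↥(Subgroup.normalizer (Q : Set G)) → ℂ) (Subgroup.inclusion inf_le_left l)) (ξ : ↥(Subgroup.normalizer (Q : Set G) ⊓ N) → ℂ) ≠ 0) ∧ Cfsg.IsInducedBlock M (Subgroup.normalizer (Q : Set G)) c B) := by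
  haveI : PMod p M := ⟨hM⟩
  simp only [← covers_iff, ← covB_iff (φ := Subgroup.inclusion (inf_le_left : N[Q] ⊓ N ≤ N[Q]))]
  have hd1 := (hd.isDefectGroup_ie_iff hQN).1 hdQ
  have hQH : Q ≤ N[Q] ⊓ N := le_inf Subgroup.le_normalizer hQN
  have he1 := (he.isDefectGroup_ie_iff hQH).1 heQ
  have hn : N[Q] ≤ N[N[Q] ⊓ N] := fun x hx => mem_normalizer_iff_cj.2 (by
    rw [cj_inf, cj_eq_of_mem hx, cj_normal])
  have h1 : ie M _ e = br Q (ie M N d) := by
    have h2 := hd.isBlk_ie.isBlk_br_inf hd1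
    rw [inf_comm] at h2
    refine (h2.eq_of_mul_ne le_rfl he.isBlk_ie ?_).symm
    rw [(isInducedBlockIn_iff_br hQ hQN inf_le_right (le_inf (inf_le_right.trans (cent_le_norm Q))
      inf_le_left) inf_le_left (.inl hQH) he hd).1 hed]
    exact he.isBlk_ie.ne
  have h2 : br Q (osum ⊤ (ie M N d)) = osum N[Q] (ie M _ e) := by
    rw [hd.isBlk_ie.br_osum (top_le_norm N) le_top hd1, top_inf_eq, h1]
  have h3 : ∀ D : Subgroup G, D ⊓ N = Q → N[D] ≤ N[Q] := fun D h x hx =>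
    mem_normalizer_iff_cj.2 (by rw [← h, cj_inf, mem_normalizer_iff_cj.1 hx, cj_normal])
  have hs := hd.isBlk_ie.osum_idem le_rfl (top_le_norm N) (top_le_norm N)
  have hs' := he.isBlk_ie.osum_idem le_rfl hn hn
  have h4 : ∀ D : Subgroup G, D ⊓ N = Q →
      br D (osum ⊤ (ie M N d)) = br D (osum N[Q] (ie M _ e)) := fun D h => by
    rw [← h2, br_br_of_le (h ▸ inf_le_left)]
  have h5 : ∀ c : Set (IrrCharacter N[Q]), IsPBlock M c →
      CovB (Subgroup.inclusion (inf_le_left : N[Q] ⊓ N ≤ N[Q])) c e →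
      ∃ D, IsDef p N[Q] (ie M _ c) D ∧ D ⊓ N = Q := fun c hc h => by
    obtain ⟨D, h6, h7⟩ := hc.isBlk_ie.knorr inf_le_left le_rfl hn Subgroup.le_normalizer he.isBlk_ie
      ((covB_iff_ie _ hc.fB_mem he.fB_mem).1 h) he1
    exact ⟨D, h6, by rwa [← inf_assoc, inf_eq_left.2 h6.le] at h7⟩
  have h6 : ∀ (c : Set (IrrCharacter N[Q])) (B : Set (IrrCharacter G)) (D : Subgroup G),
      IsPBlock M c → IsPBlock M B → IsPGroup p D → D ⊓ N = Q →
      br D (eB M B) * br D (ie M _ c) ≠ 0 →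
      (Covers N B d ↔ CovB (Subgroup.inclusion (inf_le_left : N[Q] ⊓ N ≤ N[Q])) c e) := by
    intro c B D hc hB hD h h0
    have hDH : D ≤ N[Q] := Subgroup.le_normalizer.trans (h3 D h)
    rw [covers_iff_eB_mul_ne hB.fB_mem hd.fB_mem, covB_iff_ie _ hc.fB_mem he.fB_mem]
    constructor
    · intro h7
      rw [← he.isBlk_ie.mul_osum_ne_iff le_rfl hn hn hc.isBlk_ie.inv]
      intro h8
      apply h0
      rw [← hB.isBlk.osum_mul_of_cover le_top le_top (top_le_norm N) hd.isBlk_ie h7,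
        ← ((inv_osum _ _).commute _).eq, br_mul' hD (inv_eB B).top (inv_osum _ _).top, h4 D h,
        mul_assoc, ← br_mul' hD ((inv_osum _ _).mono hDH) (hc.isBlk_ie.inv.mono hDH),
        ← (commute_of_supp_inv hc.isBlk_ie.supp (inv_osum _ _)).eq, h8, map_zero, mul_zero]
    · intro h7
      rw [← ie, ← hd.isBlk_ie.mul_osum_ne_iff le_rfl (top_le_norm N) (top_le_norm N) (inv_eB B)]
      intro h8
      apply h0
      rw [← hc.isBlk_ie.osum_mul_of_cover inf_le_left inf_le_left hn he.isBlk_ie h7,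
        br_mul' hD ((inv_osum _ _).mono hDH) (hc.isBlk_ie.inv.mono hDH), ← h4 D h, ← mul_assoc,
        ← br_mul' hD (inv_eB B).top (inv_osum _ _).top, h8, map_zero, zero_mul]
  refine ⟨fun c hc h => ?_, fun B hB h => ?_⟩
  · obtain ⟨D, h7, h8⟩ := h5 c hc h
    have h9 := (cent_le_norm D).trans (h3 D h8)
    obtain ⟨B, hB⟩ := exists_isInducedBlock_of_cent_le h7.pgrp h7.le h9 hc h7.ne
    exact ⟨B, ⟨hB, (h6 c B D hc hB.2.1 h7.pgrp h8 ((isInducedBlock_iff_of_cent_le h7.pgrp h7.le h9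
      hc h7.ne hB.2.1).1 hB)).2 h⟩, fun B' h' => h'.1.unique hB⟩
  · obtain ⟨D, h7, h8⟩ := hB.isBlk.knorr le_top le_rfl (top_le_norm N) (top_le_norm ⊤) hd.isBlk_ie
      ((covers_iff_eB_mul_ne hB.fB_mem hd.fB_mem).1 h) hd1
    obtain ⟨f, hf, h9, h10⟩ := hB.isBlk.exists_corr le_top (h3 D h8) h7
    obtain ⟨c, hc, rfl⟩ := hf.exists_ie
    have h11 : br D (eB M B) * br D (ie M _ c) ≠ 0 := by
      rw [h10, br_idem h7.pgrp (inv_eB B).top hB.isBlk.idem]; exact h7.ne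
    refine ⟨c, ⟨⟨hc, (h6 c B D hc hB h7.pgrp h8 h11).1 h⟩, (isInducedBlock_iff_of_cent_le h7.pgrp
      h9.le ((cent_le_norm D).trans (h3 D h8)) hc h9.ne hB).2 h11⟩, fun c' ⟨⟨hc', h12⟩, h13⟩ => ?_⟩
    obtain ⟨D', h14, h15⟩ := h5 c' hc' h12
    obtain ⟨h16, h17⟩ := h13.br_eq_of_norm_le (h3 D' h15) h14
    obtain ⟨x, -, rfl⟩ := h7.exists_conj h16
    have hx : x ∈ N[Q] := mem_normalizer_iff_cj.2 (by
      conv_lhs => rw [← h8]
      rw [cj_inf, cj_normal x N, h15])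
    refine hc'.ie_inj hc (hc'.isBlk_ie.eq_of_br_eq le_rfl h14.le h14.pgrp hf h14.ne ?_)
    rw [← h17, ← hf.inv x hx, ← cnj_br, h10, cnj_br, inv_eB B x trivial]

end Cfsg.Agent.S4674
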