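import Cfsg.Statements.S4683
import Mathlib
import Cfsg.Agent.H4.PairD

set_option autoImplicit false
open Cfsg

open Cfsg CfsgH3 CfsgH4 CfsgH1 CfsgL0 MonoidAlgebra

namespace Cfsg.Agent.S4683

open scoped ComplexConjugate in
theorem aux {H : Type*} [Group H] [Finite H] (b : Set (IrrCharacter H)) (η : H → ℂ) (s : H) :
    blockPart b (fun c => conj (η c⁻¹)) s⁻¹ = conj (blockPart b η s) := by
  classical
  have := Fintype.ofFinite H
  rw [blockPart_eq, blockPart_eq, map_sum]
  refine Finset.sum_congr rfl fun ξ _ => ?_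
  split_ifs
  · rw [map_mul, ξ.2.isCharacter.apply_inv, ← CfsgH3.classInner_comp_equiv (Equiv.inv H),
      CfsgH3.conj_classInner, ← CfsgH3.classInner_conj_conj η]
    simp only [Equiv.inv_apply, inv_inv, ξ.2.isCharacter.apply_inv]
  · rw [map_zero]

/-- Fix a prime p and a maximal ideal M of the algebraic integers containing p, a p-block B of the finite group G, a p-element u and a p-block e of C = C_G(u) such that (⟨u⟩, e) is a Brauer pair of B (a Brauer element of B). For χ ∈ B let χ_u be the e-part of the class function c ↦ χ(u c) on C and χ_u' the e-part of c ↦ χ(u⁻¹ c). Then the sum over χ ∈ B and over the p-regular elements s of C of χ_u(s)·χ_u'(s⁻¹) equals the order of C times the p-regular rank of e (the number of irreducible Brauer characters of e). -/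
theorem result {G : Type*} [Group G] [Fintype G] (p : ℕ) [Fact p.Prime] (M : Ideal Cfsg.AlgInt) (hM : Cfsg.IsPModular p M) (B : Set (Cfsg.IrrCharacter G)) (u : G) (hu : ∃ k : ℕ, orderOf u = p ^ k) (e : Set (Cfsg.IrrCharacter (Subgroup.centralizer (Subgroup.zpowers u : Set G)))) (hBe : Cfsg.IsBrauerPairOf p M B (Subgroup.zpowers u) e) : ∑ᶠ χ ∈ B, ∑ᶠ s : Subgroup.centralizer (Subgroup.zpowers u : Set G), Cfsg.pRegularPart p (Cfsg.blockPart e (fun c : Subgroup.centralizer (Subgroup.zpowers u : Set G) => (χ : G → ℂ) (u * c))) s * Cfsg.blockPart e (fun c : Subgroup.centralizer (Subgroup.zpowers u : Set G) => (χ : G → ℂ) (u⁻¹ * c)) s⁻¹ = (Nat.card (Subgroup.centralizer (Subgroup.zpowers u : Set G)) : ℂ) * (Cfsg.blockRank p e : ℂ) := by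
  haveI : PMod p M := ⟨hM⟩
  classical
  have hC := centralizer_zpowers u
  haveI := Fintype.ofFinite (Subgroup.centralizer (Subgroup.zpowers u : Set G))
  have hind := (isBrauerPairOf_iff_induced.1 hBe).2
  have h1 : ∀ χ : IrrCharacter G, (fun c : Subgroup.centralizer (Subgroup.zpowers u : Set G) =>
      χ.1 (u⁻¹ * c)) = fun c => (starRingEnd ℂ) (tr _ u χ.1 c⁻¹) := by
    intro χ; funext c
    rw [tr_apply, ← χ.2.isCharacter.apply_inv, mul_inv_rev, Subgroup.coe_inv, inv_inv,
      (commute_of_eq_cent hC c).inv_left.eq]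
  rw [card_mul_blockRank hind.1.fB_mem, finsum_mem_irr]
  simp only [h1, aux, finsum_eq_sum_of_fintype, pRegularPart_eq]
  have h2 : ∀ χ : IrrCharacter G, (if χ ∈ B then ∑ s, rg p (blockPart e (tr _ u χ.1)) s *
      (starRingEnd ℂ) (blockPart e (tr _ u χ.1) s) else 0) = ∑ s, rg p (blockPart e (tr _ u χ.1)) s *
      (starRingEnd ℂ) (blockPart e (tr _ u χ.1) s) := by
    intro χ
    split_ifs with h
    · rfl
    · simp [hind.rg_blockPart_tr_eq_zero hC hu h]
  refine (Finset.sum_congr rfl fun χ _ => h2 χ).trans ?_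
  rw [Finset.sum_comm]
  refine Finset.sum_congr rfl fun s _ => ?_
  by_cases hs : p ∣ orderOf s
  · simp [rg_of_sing _ hs]
  · simp only [rg_of_reg _ hs]
    rw [sum_blockPart_tr_mul hC hu hind.1.fB_mem hind.1.fB_mem hs hs, Set.inter_self]

end Cfsg.Agent.S4683
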