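import Cfsg.Statements.S4684
import Mathlib
import Cfsg.Agent.H4.NilB

set_option autoImplicit false
open Cfsg

open Cfsg CfsgH3 CfsgH4 CfsgH1 CfsgL0 MonoidAlgebra

namespace Cfsg.Agent.S4684

/-- Fix a prime p and a maximal ideal M of the algebraic integers containing p, a p-block B of the finite group G with maximal Brauer pair (P, e) and fusion system F on P. Then the number of irreducible characters of height zero in B is divisible by the index in P of the focal subgroup of F. -/
theorem result {G : Type*} [Group G] [Fintype G] (p : ℕ) [Fact p.Prime] (M : Ideal Cfsg.AlgInt) (hM : Cfsg.IsPModular p M) (B : Set (Cfsg.IrrCharacter G)) (P : Subgroup G) (e : Set (Cfsg.IrrCharacter (Subgroup.centralizer (P : Set G)))) (hmax : Cfsg.IsMaximalBrauerPair p M B P e) (F : Cfsg.FusionSystem P) (hF : Cfsg.IsBlockFusionSystemOn p M B P e F) : (F.focalSubgroup.subgroupOf P).index ∣ Nat.card {χ : Cfsg.IrrCharacter G // χ ∈ B ∧ Cfsg.blockHeight p B (χ : G → ℂ) = 0} := by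
  haveI : PMod p M := ⟨hM⟩
  have hB := (isMaximalBrauerPair_iff.1 hmax).1
  have hm := hmax.maxPr
  exact hm.relIndex_dvd hB (fun u x hx => mem_foc (hF.bfs.M_conj hx) (Subgroup.mem_zpowers u)) le_rfl _
    (fun χ h => h.1) (fun χ ψ h h1 h2 => ⟨h1, by rw [← h.2]; simp only [blockHeight, charDegree, h2]⟩)
    fun χ h u hu => ⟨_, hm.cP_ne_zero hB hu h.1 h.2 h.1 h.2⟩

end Cfsg.Agent.S4684
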