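import Cfsg.Statements.S4685
import Mathlib
import Cfsg.Agent.H4.NilB

set_option autoImplicit false
open Cfsg

open Cfsg CfsgH3 CfsgH4 CfsgH1 CfsgL0 MonoidAlgebra

namespace Cfsg.Agent.S4685

/-- Fix a prime p and a maximal ideal M of the algebraic integers containing p, a p-block B of the finite group G with maximal Brauer pair (P, e) and fusion system F on P. Then for every h the number of irreducible characters of height h in B is divisible by the index of Z(P) ∩ foc(F) in Z(P), where foc(F) is the focal subgroup of F. -/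
theorem result {G : Type*} [Group G] [Fintype G] (p : ℕ) [Fact p.Prime] (M : Ideal Cfsg.AlgInt) (hM : Cfsg.IsPModular p M) (B : Set (Cfsg.IrrCharacter G)) (P : Subgroup G) (e : Set (Cfsg.IrrCharacter (Subgroup.centralizer (P : Set G)))) (hmax : Cfsg.IsMaximalBrauerPair p M B P e) (F : Cfsg.FusionSystem P) (hF : Cfsg.IsBlockFusionSystemOn p M B P e F) (h : ℕ) : ((P ⊓ Subgroup.centralizer (P : Set G) ⊓ F.focalSubgroup).subgroupOf (P ⊓ Subgroup.centralizer (P : Set G))).index ∣ Nat.card {χ : Cfsg.IrrCharacter G // χ ∈ B ∧ Cfsg.blockHeight p B (χ : G → ℂ) = h} := by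
  haveI : PMod p M := ⟨hM⟩
  have hB := (isMaximalBrauerPair_iff.1 hmax).1
  have hm := hmax.maxPr
  obtain ⟨ψ, hψ, h0⟩ := exists_height_zero (p := p) hB.nonempty
  rw [Subgroup.inf_subgroupOf_left]
  exact hm.relIndex_dvd hB (fun u x hx => mem_foc (hF.bfs.M_conj hx) (Subgroup.mem_zpowers u)) inf_le_left _
    (fun χ h => h.1) (fun χ ψ h h1 h2 => ⟨h1, by rw [← h.2]; simp only [blockHeight, charDegree, h2]⟩)
    fun χ h u hu => ⟨_, hm.cP_ne_zero_of_cent hB hu.1
      (fun x hx => mem_cent_zpowers.2 (hu.2 x hx)) h.1 hψ h0⟩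

end Cfsg.Agent.S4685
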