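import Cfsg.Statements.S4687
import Mathlib
import Cfsg.Agent.H4.PairF

set_option autoImplicit false
open Cfsg

open Cfsg CfsgH3 CfsgH4 CfsgH1 CfsgL0 MonoidAlgebra

namespace Cfsg.Agent.S4687

/-- Fix a prime p and a maximal ideal M of the algebraic integers containing p, and a p-block B of the finite group G with maximal Brauer pair (P, e), P abelian. Then B is nilpotent if and only if its inertial quotient is trivial: every element of N_G(P) stabilizing e centralizes P. -/
theorem result {G : Type*} [Group G] [Fintype G] (p : ℕ) [Fact p.Prime] (M : Ideal Cfsg.AlgInt) (hM : Cfsg.IsPModular p M) (B : Set (Cfsg.IrrCharacter G)) (P : Subgroup G) (e : Set (Cfsg.IrrCharacter (Subgroup.centralizer (P : Set G)))) (hmax : Cfsg.IsMaximalBrauerPair p M B P e) (hab : ∀ x ∈ P, ∀ y ∈ P, x * y = y * x) : Cfsg.IsNilpotentBlock p M B ↔ ∀ x : G, x ∈ Subgroup.normalizer (P : Set G) → Cfsg.StabilizesBlock (Subgroup.centralizer (P : Set G)) e x → x ∈ Subgroup.centralizer (P : Set G) := by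
  haveI : PMod p M := ⟨hM⟩
  have hP : P ≤ Subgroup.centralizer (P : Set G) := fun x hx y hy => hab y hy x hx
  obtain ⟨hB, he, hm⟩ := isMaximalBrauerPair_iff.1 hmax
  rw [isNilpotentBlock_iff, and_iff_right hB, hm.nil_iff_of_comm hP]
  exact ⟨fun h x h1 h2 => h ((norm_and_stabilizes_iff he).1 ⟨h1, h2⟩),
    fun h x hx => h x hx.1 ((norm_and_stabilizes_iff he).2 hx).2⟩

end Cfsg.Agent.S4687
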