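import Cfsg.Statements.S4692
import Mathlib
import Cfsg.Agent.H4.Mx
import Cfsg.Agent.H1.Coprime

set_option autoImplicit false
open Cfsg

open Cfsg CfsgH4 CfsgH1 CfsgL0 MonoidAlgebra Function
open CfsgH3 hiding cj cj_cj
open scoped ComplexConjugate Pointwise

namespace Cfsg.Agent.S4692

theorem supp_aux {G : Type*} [Group G] [Finite G] {p : ℕ} {M : Ideal AlgInt} [PMod p M]
    {N : Subgroup G} [N.Normal] (hN : ∃ k : ℕ, N.index = p ^ k) {K : Subgroup G}
    {f : (Res M)[G]} (hf : IsBlk K K f) : Supp (N ⊓ K) f := by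
  haveI : Fact p.Prime := ⟨PMod.prime M⟩
  refine Supp.inf ?_ hf.supp
  obtain ⟨b, hb, rfl⟩ := hf.exists_eq_subtype
  obtain ⟨k, hk⟩ := hN
  have h1 := hb.supp_of_index (p := p) (N := N.subgroupOf K) (by
    obtain ⟨j, -, hj⟩ := (Nat.dvd_prime_pow Fact.out).1
      (hk ▸ Subgroup.relIndex_dvd_index_of_normal N K)
    exact ⟨j, hj⟩)
  exact ((supp_inc_iff K.subtype_injective).2 h1).mono (by
    rw [Subgroup.subgroupOf_map_subtype]; exact inf_le_left)

/-- Fix a prime p and a maximal ideal M of the algebraic integers containing p. Let N be a normal subgroup of p-power index in the finite group G and c a p-block of N stable under conjugation by G, and let B be the p-block of G whose idempotent is that of c (it exists and is unique). Then c is nilpotent as a block of N if and only if B is nilpotent as a block of G. -/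
theorem result {G : Type*} [Group G] [Fintype G] (p : ℕ) [Fact p.Prime] (M : Ideal Cfsg.AlgInt) (hM : Cfsg.IsPModular p M) (N : Subgroup G) [N.Normal] (hN : ∃ k : ℕ, N.index = p ^ k) (c : Set (Cfsg.IrrCharacter N)) (hc : Cfsg.IsPBlock M c) (hst : ∀ x : G, Cfsg.StabilizesBlock N c x) (B : Set (Cfsg.IrrCharacter G)) (hB : Cfsg.IsPBlock M B) (hBc : ∀ g : G, Cfsg.blockCoeff B g = Cfsg.subgroupBlockCoeff N c g) : Cfsg.IsNilpotentBlock p M c ↔ Cfsg.IsNilpotentBlock p M B := by
  haveI : PMod p M := ⟨hM⟩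
  have he := (coeff_eq_iff_eB hc.fB_mem hB.fB_mem).1 hBc
  rw [isNilpotentBlock_ie_iff, isNilpotentBlock_iff, ← he]
  simp only [hc, hB, true_and]
  have hb := hB.isBlk
  generalize eB M B = b at hb
  have hn : ∀ R : Subgroup G, Subgroup.normalizer (R : Set G) ≤
      Subgroup.normalizer ((N ⊓ Subgroup.centralizer (R : Set G) : Subgroup G) : Set G) :=
    fun R x hx => mem_normalizer_iff_cj.2 (by
      rw [cj_inf, cj_normal, mem_normalizer_iff_cj.1 (norm_le_norm_cent R hx)])
  constructor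
  · intro h Q f hQ h1 x hx hr
    have hxN := mem_of_reg_of_index hN hr
    have hxR : x ∈ Subgroup.normalizer ((Q ⊓ N : Subgroup G) : Set G) :=
      mem_normalizer_iff_cj.2 (by rw [cj_inf, cj_normal x N, mem_normalizer_iff_cj.1 hx.1])
    obtain ⟨f', hf'⟩ := hQ.exists_ple (Q := Q ⊓ N) inf_le_left
    have hR := hf'.pr_left hQ
    have h2 := hf'.cnj_eq hQ hx hxR
    have h3 := (hf'.block_iff hb).1 h1
    generalize hR' : Q ⊓ N = R at hxR hf' hR h3
    have hm : f' ∈ ZA (Res M) (N ⊓ Subgroup.centralizer (R : Set G))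
        (N ⊓ Subgroup.centralizer (R : Set G)) := ⟨supp_aux hN hR.blk, hR.blk.inv.mono inf_le_right⟩
    obtain ⟨g, hg, hfg⟩ := exists_blk_le le_rfl hm hR.blk.idem hR.blk.ne
    have hg' := hg.cnj_of_norm (hn R hxR) (hn R hxR)
    obtain ⟨u, hu, hug⟩ := IsBlk.exists_cnj_eq le_rfl inf_le_right hR.blk hg hg'
      ((cent_le_norm R).trans (hn R)) ((cent_le_norm R).trans (hn R))
      (by rw [← ZA_comm le_rfl hm hg.mem, hfg]) (by
        rw [← h2, ← map_mul, hfg]
        exact hg'.ne)
    have h4 : ∀ n : ℕ, cnj (x ^ n) g = cnj (u ^ n) g := by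
      intro n
      induction n with
      | zero => simp
      | succ n ih =>
        have h5 : (u ^ n)⁻¹ * (x * u ^ n * x⁻¹) ∈ N ⊓ Subgroup.centralizer (R : Set G) := by
          refine Subgroup.mem_inf.2 ⟨?_, mul_mem (inv_mem (pow_mem hu n))
            (CfsgL0.conj_mem_of_mem_normalizer (norm_le_norm_cent R hxR) (pow_mem hu n))⟩
          have := mul_mem (‹N.Normal›.conj_mem x hxN (u ^ n)⁻¹) (inv_mem hxN)
          simpa [mul_assoc] using this
        rw [pow_succ', ← cnj_cnj, ih, cnj_cnj, pow_succ, ← cnj_cnj (u ^ n), hug,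
          ← hg'.inv _ h5, cnj_cnj, cnj_cnj]
        congr 2
        group
    obtain ⟨k, hk⟩ := hN
    have h5 : x ∈ stab ⊤ g := by
      refine mem_of_pow_pow_mem hr (k := k) ⟨trivial, ?_⟩
      rw [h4]
      exact hg.inv _ ⟨hk ▸ N.pow_index_mem u, pow_mem hu _⟩
    have h6 := h R (hR' ▸ inf_le_right) g hR.pgrp hg (by rw [← hfg, ← mul_assoc, h3]) x
      ⟨⟨hxN, hxR⟩, h5.2⟩ hr
    obtain ⟨j, hj⟩ := IsPGroup.iff_card.1 hQ.pgrp
    refine coprime_le_centralizer_of_commutator (A := Subgroup.zpowers x) (K := Q)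
      (Subgroup.zpowers_le.2 hx.1) ?_ (.inl ?_) ?_ (Subgroup.mem_zpowers x)
    · rw [hj, Nat.card_zpowers]
      exact (((Nat.Prime.coprime_iff_not_dvd Fact.out).2 hr).symm).pow_right j
    · infer_instance
    · refine le_trans ?_ (cent_le_cent_comm (Subgroup.zpowers_le.2 h6))
      rw [← hR', Subgroup.commutator_le]
      intro a ha y hy
      refine Subgroup.mem_inf.2 ⟨?_, ?_⟩
      · have := mul_mem ha (CfsgL0.conj_mem_of_mem_normalizer
          (Subgroup.zpowers_le.2 hx.1 hy) (inv_mem ha))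
        simpa [commutatorElement_def, mul_assoc] using this
      · have h7 := Subgroup.zpowers_le.2 hxN hy
        exact mul_mem (‹N.Normal›.conj_mem y h7 a) (inv_mem h7)
  · intro h R hR g hp hg h1 x hx hr
    obtain ⟨f, hf, hfg⟩ := exists_blk_mul_ne_zero' (F := Res M)
      (le_refl (Subgroup.centralizer (R : Set G))) hg.ne
    have h2 := hg.mul_eq_of_ne ⟨supp_aux hN hf, hf.inv.mono inf_le_right⟩ hf.idem hfg
    have hP : Pr p R f := ⟨hp, hf⟩
    have hf' := hf.cnj_of_norm (norm_le_norm_cent R hx.1.2) (norm_le_norm_cent R hx.1.2)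
    refine h R f hP (hP.mul_eq_of_ne hb.inv.top hb.inv.top hb.idem fun h0 => hg.ne ?_) x
      ⟨hx.1.2, hf'.eq_of_mul_ne le_rfl hf fun h0 => hg.ne ?_⟩ hr
    · rw [← h1, ← h2, ← mul_assoc, h0, zero_mul]
    · have h3 : cnj x f * g = g := by
        conv_lhs => rw [← hx.2]
        rw [← map_mul, h2, hx.2]
      rw [← h3, ← h2, ← mul_assoc, h0, zero_mul]

end Cfsg.Agent.S4692
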