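import Cfsg.Statements.S4693
import Mathlib
import Cfsg.Agent.H4.PairF

set_option autoImplicit false
open Cfsg

open Cfsg CfsgH3 CfsgH4 CfsgH1 CfsgL0 MonoidAlgebra

namespace Cfsg.Agent.S4693

/-- Fix a prime p and a maximal ideal M of the algebraic integers containing p, a p-block B of the finite group G with maximal Brauer pair (P, e) and fusion system F on P, and a Brauer pair (Q, f) ≤ (P, e) with Q centric in F. Suppose every element of G normalizes Q and stabilizes f. Then the idempotent of B agrees with that of f modulo M at every element of G, and f is the idempotent of a nilpotent block of Q·C_G(Q): some p-block of Q·C_G(Q) has the idempotent coefficients of f and is nilpotent. -/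
theorem result {G : Type*} [Group G] [Fintype G] (p : ℕ) [Fact p.Prime] (M : Ideal Cfsg.AlgInt) (hM : Cfsg.IsPModular p M) (B : Set (Cfsg.IrrCharacter G)) (P : Subgroup G) (e : Set (Cfsg.IrrCharacter (Subgroup.centralizer (P : Set G)))) (hmax : Cfsg.IsMaximalBrauerPair p M B P e) (F : Cfsg.FusionSystem P) (hF : Cfsg.IsBlockFusionSystemOn p M B P e F) (Q : Subgroup G) (f : Set (Cfsg.IrrCharacter (Subgroup.centralizer (Q : Set G)))) (hQP : Q ≤ P) (hf : Cfsg.IsPBlock M f) (hle : Cfsg.SubpairLE p M Q f P e) (hcen : F.IsCentric Q) (hG : ∀ x : G, x ∈ Subgroup.normalizer (Q : Set G) ∧ Cfsg.StabilizesBlock (Subgroup.centralizer (Q : Set G)) f x) : (∀ g : G, Cfsg.MemLocalIdeal M (Cfsg.blockCoeff B g - Cfsg.subgroupBlockCoeff (Subgroup.centralizer (Q : Set G)) f g)) ∧ ∃ F' : Set (Cfsg.IrrCharacter ↥(Q ⊔ Subgroup.centralizer (Q : Set G))), Cfsg.IsPBlock M F' ∧ (∀ t : ↥(Q ⊔ Subgroup.centralizer (Q : Set G)), Cfsg.blockCoeff F' t = Cfsg.subgroupBlockCoeff (Subgroup.centralizer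 (Q : Set G)) f (t : G)) ∧ Cfsg.IsNilpotentBlock p M F' := by
  haveI : PMod p M := ⟨hM⟩
  obtain ⟨hB, he, hm⟩ := isMaximalBrauerPair_iff.1 hmax
  obtain ⟨h1, h2⟩ := hm.of_ple hle.ple
  have h3 : stab (Subgroup.normalizer (Q : Set G)) (ie M _ f) = ⊤ :=
    top_unique fun x _ => (norm_and_stabilizes_iff hf).1 (hG x)
  constructor
  · have h4 := h1.isBlk_stab
    rw [h3] at h4
    rw [br_eq_self_of_idem h1.pgrp le_top (fun x _ => (hG x).1) (eB_mem_ZA B) hB.isBlk.idem] at h2
    have h5 := hB.isBlk.eq_of_mul_ne le_rfl h4 (by rw [h2]; exact h4.ne)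
    intro g
    rw [(coeff_eq_iff_eB hf.fB_mem hB.fB_mem).2 h5 g, sub_self]
    exact InP.zero
  · obtain ⟨E, hE, h4⟩ := h1.isBlk_sup.exists_ie
    refine ⟨E, hE, (coeff_eq_iff_ie le_sup_right hf.fB_mem hE.fB_mem).2 h4.symm,
      isNilpotentBlock_ie_iff.2 ⟨hE, h4 ▸ nilR_of_normal
        (h1.isDef_sup_iff.2 ((hF.bfs.centric_iff hm hle.ple).1 hcen)) (sup_cent_le_norm Q)
        fun x hx hr => ?_⟩⟩
    have hn : Q ≤ Subgroup.normalizer (Subgroup.centralizer (Q : Set G) : Set G) :=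
      Subgroup.le_normalizer.trans (norm_le_norm_cent Q)
    obtain ⟨k, hk⟩ := (Nat.dvd_prime_pow (Fact.out : p.Prime)).1
      ((IsPGroup.iff_card.1 h1.pgrp).choose_spec ▸
        Subgroup.relIndex_dvd_card (Subgroup.centralizer (Q : Set G)) Q)
    exact mem_of_reg_of_relIndex ((sup_cent_le_norm Q).trans (norm_le_norm_cent Q))
      ((CfsgH2.relIndex_sup_of_norm hn).trans hk.2) hx hr

end Cfsg.Agent.S4693
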