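import Cfsg.Statements.S4694
import Mathlib
import Cfsg.Agent.H4.Mx
import Cfsg.Agent.H4.Gal

set_option autoImplicit false
open Cfsg

open Cfsg CfsgH4 CfsgH1 CfsgL0 MonoidAlgebra Function
open CfsgH3 hiding cj cj_cj
open scoped ComplexConjugate Pointwise

namespace Cfsg.Agent.S4694

theorem aux {G : Type*} [Group G] [Finite G] {p : ℕ} {M : Ideal AlgInt} [PMod p M]
    {Z R : Subgroup G} [Z.Normal] [R.Normal] (hR : IsPGroup p R) {θ : IrrCharacter G}
    (hk : ∀ z ∈ Z, θ.1 z = θ.1 1)
    (hd : (Nat.card G).factorization p ≤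
      (charDegree θ.1).factorization p + (Nat.card Z).factorization p) : R ≤ Z := by
  haveI : Fact p.Prime := ⟨PMod.prime M⟩
  have hs := QuotientGroup.mk'_surjective Z
  have hker : (QuotientGroup.mk' Z).ker = Z := QuotientGroup.ker_mk' Z
  obtain ⟨χ, hχ⟩ := exists_irrComp_eq_of_ker hs (ξ := θ) (by rw [hker]; exact hk)
  have hb := isPBlock_blockOf (M := M) χ.2
  obtain ⟨P, hP⟩ := hb.exists_defectGroup (p := p)
  have h2 : P = ⊥ := by
    refine hP.eq_bot_of_dz hb (χ := χ) (mem_blockOf_self χ) ?_
    rw [← charDegree_irrComp hs χ, hχ]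
    have := fact_card_eq_add p Z
    rw [Subgroup.index_eq_card] at this
    omega
  haveI := Subgroup.Normal.map ‹R.Normal› _ hs
  have h3 : R.map (QuotientGroup.mk' Z) ≤ P := (hb.isDefectGroup_iff.1 hP).normal_le
    (eB_mem_ZA _) hb.eB_idem (hR.map _) le_top (by rw [Subgroup.normalizer_eq_top])
  rwa [h2, le_bot_iff, Subgroup.map_eq_bot_iff, hker] at h3

/-- Fix a prime p and a maximal ideal M of the algebraic integers containing p, a p-block B of the finite group G and a Brauer pair (Q, e) of B. Let T be the stabilizer of e in N_G(Q) and suppose that (Q, e) carries a weight: the block of T whose idempotent is that of e contains an irreducible character χ that is constant on the cosets of Q and whose degree has p-part equal to the p-part of the index of Q in T. Then Z(Q) is a defect group of e as a block of C_G(Q), and Q is the largest normal p-subgroup of T: every p-subgroup of T normalized by T lies in Q. -/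
theorem result {G : Type*} [Group G] [Fintype G] (p : ℕ) [Fact p.Prime] (M : Ideal Cfsg.AlgInt) (hM : Cfsg.IsPModular p M) (B : Set (Cfsg.IrrCharacter G)) (Q : Subgroup G) (e : Set (Cfsg.IrrCharacter (Subgroup.centralizer (Q : Set G)))) (hQe : Cfsg.IsBrauerPairOf p M B Q e) (T : Subgroup G) (hT : ∀ y : G, y ∈ T ↔ y ∈ Subgroup.normalizer (Q : Set G) ∧ Cfsg.StabilizesBlock (Subgroup.centralizer (Q : Set G)) e y) (F' : Set (Cfsg.IrrCharacter T)) (hF' : Cfsg.IsPBlock M F') (hF'e : ∀ t : T, Cfsg.blockCoeff F' t = Cfsg.subgroupBlockCoeff (Subgroup.centralizer (Q : Set G)) e (t : G)) (χ : Cfsg.IrrCharacter T) (hχ : χ ∈ F') (hχQ : ∀ q : G, q ∈ Q → ∀ t : T, ∀ t' : T, (t' : G) = q * (t : G) → (χ : T → ℂ) t' = (χ : T → ℂ) t) (hdeg : (Cfsg.charDegree (χ : T → ℂ)).factorization p + (Nat.card Q).factorization p = (Nat.card T).factorization p) : Cfsg.IsDefectGroup p M e ((Q ⊓ Subgroup.centralizer (Q : Set G)).subgroupOf (Subgroup.centralizer (Q : Set G))) ∧ ∀ R : Subgroup G, R ≤ T → IsPGroup p R → (∀ t ∈ T, t ∈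 Subgroup.normalizer (R : Set G)) → R ≤ Q := by
  classical
  haveI : PMod p M := ⟨hM⟩
  have hP := hQe.pr
  obtain ⟨hQ, he, -, -⟩ := isBrauerPairOf_iff.1 hQe
  have hT' := eq_stab_of he hT
  have hLT : Q ⊔ Subgroup.centralizer (Q : Set G) ≤ T := by rw [hT']; exact hP.sup_le_stab
  have hQT : Q ≤ T := le_sup_left.trans hLT
  have hTN : T ≤ Subgroup.normalizer (Q : Set G) := fun y hy => ((hT y).1 hy).1
  have hie := (coeff_eq_iff_ie (le_sup_right.trans hLT) he.fB_mem hF'.fB_mem).1 hF'e
  have hk : ∀ z : T, (z : G) ∈ Q → χ.1 z = χ.1 1 := fun z hz => hχQ z hz 1 z (by simp)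
  have hcQ : ∀ {K : Subgroup G}, Q ≤ K → Nat.card (Q.subgroupOf K) = Nat.card Q := fun h =>
    Nat.card_congr (Subgroup.subgroupOfEquivOfLe h).toEquiv
  constructor
  · obtain ⟨b, hb, hbe⟩ := ((isBlk_inc_subtype_iff (K := Q ⊔ Subgroup.centralizer (Q : Set G))
      (e := pull (Subgroup.subtype _) (ie M _ e))).1 (by
        rw [inc_pull (Subgroup.subtype_injective _) (by
          rw [Subgroup.range_subtype]; exact hP.isBlk_sup.supp)]
        exact hP.isBlk_sup)).exists_eq_eB
    have hbe' : ie M _ b = ie M _ e := by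
      show inc _ (eB M b) = _
      rw [← hbe, inc_pull (Subgroup.subtype_injective _) (by
          rw [Subgroup.range_subtype]; exact hP.isBlk_sup.supp)]
    have hcov : CovB (Subgroup.inclusion hLT) F' b := by
      rw [covB_iff_ie hLT hF'.fB_mem hb.fB_mem, hie, hbe', hP.blk.idem]
      exact hP.blk.ne
    have hn : ((Q ⊔ Subgroup.centralizer (Q : Set G)).subgroupOf T).Normal :=
      (Subgroup.normal_subgroupOf_iff_le_normalizer hLT).2 (hTN.trans (norm_le_norm_sup_cent Q))
    haveI : (Subgroup.inclusion hLT).range.Normal := by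
      rw [Subgroup.inclusion_range]; exact hn
    obtain ⟨ψ, hψ, ho⟩ := hcov.exists_under (Subgroup.inclusion_injective hLT) hF' hb hχ
    haveI := normal_of_sup_cent (sup_cent_subgroupOf Q)
    have hZ : IsPGroup p (Q.subgroupOf (Q ⊔ Subgroup.centralizer (Q : Set G))) :=
      hQ.comap_of_injective _ (Subgroup.subtype_injective _)
    have hD := hb.isDefectGroup_of_ker hZ (reg_mem_cent hZ (sup_cent_subgroupOf Q)) hψ
      (fun z hz => by
        refine (χ.2.isCharacter.comp _).apply_eq_of_constituent ψ.2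
          (over_iff.1 ho) ?_
        rw [map_one]
        exact hk _ hz) (by
        have h1 := (deg_dvd_of_over ((isIrr_subOf_iff hLT).2 ψ.2) χ.2
          (over_subtype_iff.1 ((over_subOf_iff hLT).2 ho))).2
        have h2 : charDegree (subOf T ψ.1) = charDegree ψ.1 := by
          apply charDegree_eq
          rw [coe_charDegree ψ.2.isCharacter, subOf_eq_comp hLT]
          simp
        rw [h2] at h1
        have h3 := (Nat.factorization_le_iff_dvd (charDegree_ne_zero χ.2)
          (mul_ne_zero Subgroup.FiniteIndex.index_ne_zero (charDegree_ne_zero ψ.2))).2 h1 p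
        rw [Nat.factorization_mul Subgroup.FiniteIndex.index_ne_zero (charDegree_ne_zero ψ.2),
          Finsupp.add_apply] at h3
        have h4 := fact_card_eq_add p ((Q ⊔ Subgroup.centralizer (Q : Set G)).subgroupOf T)
        rw [Nat.card_congr (Subgroup.subgroupOfEquivOfLe hLT).toEquiv] at h4
        rw [hcQ le_sup_left]
        omega)
    have h5 := (isDefectGroup_inf_iff hb).1 hD
    rw [hbe', inf_eq_left.2 le_sup_left] at h5
    rw [Subgroup.inf_subgroupOf_right]
    exact (isDefectGroup_inf_iff he).2 (hP.isDef_sup_iff.1 h5)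
  · intro R hRT hR hn x hx
    haveI := (Subgroup.normal_subgroupOf_iff_le_normalizer hRT).2 hn
    haveI := (Subgroup.normal_subgroupOf_iff_le_normalizer hQT).2 hTN
    exact aux (M := M) (Z := Q.subgroupOf T) (R := R.subgroupOf T)
      (hR.comap_of_injective _ (Subgroup.subtype_injective _)) (θ := χ) hk
      (by rw [hcQ hQT, hdeg]) (show (⟨x, hRT hx⟩ : T) ∈ _ from hx)

end Cfsg.Agent.S4694
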