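import Cfsg.Statements.S4697
import Mathlib
import Cfsg.Agent.H4.KW

set_option autoImplicit false
open Cfsg

open Cfsg CfsgH4 CfsgH1 CfsgL0 MonoidAlgebra Function
open CfsgH3 hiding cj cj_cj
open scoped ComplexConjugate Pointwise

namespace Cfsg.Agent.S4697

universe u

theorem two {G : Type*} [Group G] [Finite G] {p : ℕ} {M : Ideal AlgInt} [PMod p M]
    {B : Set (IrrCharacter G)} (hB : IsPBlock M B) {D : Subgroup G} (hD : IsDefectGroup p M B D)
    {a b : D} (h : a * b = b * a) (h' : Subgroup.closure {a, b} = ⊤) : Nat.card B ≤ Nat.card D := by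
  refine hB.card_le_of_cyclic_quot hD a.2 b.2 (congrArg Subtype.val h) fun x hx => ?_
  exact (h'.ge.trans ((Subgroup.closure_le ((_ ⊔ _ : Subgroup G).subgroupOf D)).2 (by
    rintro _ (rfl | rfl)
    exacts [Subgroup.mem_sup_left (Subgroup.mem_zpowers _),
      Subgroup.mem_sup_right (Subgroup.mem_zpowers _)]))) (Subgroup.mem_top ⟨x, hx⟩)

theorem three {G : Type u} [Group G] [Finite G] {p : ℕ} {M : Ideal AlgInt} [PMod p M]
    {B : Set (IrrCharacter G)} (hB : IsPBlock M B) {D : Subgroup G} (hD : IsDefectGroup p M B D)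
    (hab : ∀ a b : D, a * b = b * a) {a b c : D} (h' : Subgroup.closure {a, b, c} = ⊤) :
    Nat.card B * orderOf a ≤ Nat.card D * Nat.card D := by
  haveI : Fact p.Prime := ⟨PMod.prime M⟩
  have h : D ≤ Subgroup.centralizer {a.1} := fun x hx =>
    Subgroup.mem_centralizer_singleton_iff.2 (congrArg Subtype.val (hab ⟨x, hx⟩ a))
  obtain ⟨β, H, _, _, φ, hφ, h1, h2, h3, -, -, h6, h7, h8, h9, -, h11⟩ :=
    hB.exists_red hD rfl a.2 h
  have := Fintype.ofFinite (Subgroup.centralizer {a.1})
  have := Fintype.ofFinite H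
  let ψ : D →* (D.subgroupOf _).map φ := (φ.comp (Subgroup.inclusion h)).codRestrict _
    fun x => ⟨_, x.2, rfl⟩
  have hψ : Surjective ψ := by
    rintro ⟨_, x, hx, rfl⟩
    exact ⟨⟨x, hx⟩, rfl⟩
  have h4 : ψ a = 1 := Subtype.ext ((h6 _).2 (Subgroup.mem_zpowers a.1))
  have h5 := two h7 h8 (a := ψ b) (b := ψ c) (by rw [← map_mul, hab, map_mul]) (by
    have := congrArg (Subgroup.map ψ) h'
    rwa [MonoidHom.map_closure, Subgroup.map_top_of_surjective _ hψ, Set.image_insert_eq, h4,
      Subgroup.closure_insert_one, Set.image_pair] at this)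
  have h10 := h1.card_le_rank rfl h3 h2
  rw [← hD.card_eq hB, ← h9] at h10
  rw [← Subgroup.orderOf_coe]
  nth_rw 2 [← h11]
  rw [← mul_assoc]
  exact Nat.mul_le_mul_right _ (h10.trans (Nat.mul_le_mul_left _ ((blockRank_le_card _).trans h5)))

/-- Let p be a prime, M a maximal ideal of the algebraic integers containing p, and B a p-block of the finite group G with an abelian defect group D of order p^d. If D has rank 2 (its least number of generators is 2) then B contains at most p^d irreducible characters; if D has rank 3 then the number k of irreducible characters in B satisfies k^3 ≤ p^(5d). -/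
theorem result {G : Type*} [Group G] [Finite G] (p : ℕ) [Fact p.Prime] (M : Ideal Cfsg.AlgInt) (hM : Cfsg.IsPModular p M) (B : Set (Cfsg.IrrCharacter G)) (hB : Cfsg.IsPBlock M B) (D : Subgroup G) (hBD : Cfsg.IsDefectGroup p M B D) (hab : IsMulCommutative D) (d : ℕ) (hDd : Nat.card D = p ^ d) : (Group.rank D = 2 → Nat.card B ≤ p ^ d) ∧ (Group.rank D = 3 → Nat.card B ^ 3 ≤ p ^ (5 * d)) := by
  classical
  haveI : PMod p M := ⟨hM⟩
  obtain ⟨S, h1, h2⟩ := Group.rank_spec D
  have hc : ∀ a b : D, a * b = b * a := fun a b => hab.is_comm.comm a b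
  refine ⟨fun h => ?_, fun h => ?_⟩
  · obtain ⟨a, b, -, rfl⟩ := Finset.card_eq_two.1 (h1.trans h)
    exact hDd ▸ two hB hBD (hc a b) (by simpa using h2)
  obtain ⟨a, b, c, -, -, -, rfl⟩ := Finset.card_eq_three.1 (h1.trans h)
  rw [Finset.coe_insert, Finset.coe_pair] at h2
  have a1 := three hB hBD hc h2
  have a2 := three hB hBD hc (a := b) (b := a) (c := c) (Set.insert_comm _ _ _ ▸ h2)
  have a3 := three hB hBD hc (a := c) (b := a) (c := b) (by
    rwa [Set.insert_comm, Set.pair_comm c b])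
  have hn : ∀ K : Subgroup D, K.Normal := fun K => ⟨fun x hx g => by
    rwa [hc g, mul_inv_cancel_right]⟩
  have a4 : p ^ d ≤ orderOf a * (orderOf b * orderOf c) := by
    rw [← hDd, ← Subgroup.card_top, ← h2, Set.insert_eq, Set.insert_eq, Subgroup.closure_union,
      Subgroup.closure_union]
    simp only [← Subgroup.zpowers_eq_closure, ← Nat.card_zpowers]
    refine Nat.le_of_dvd (by simp [isOfFinOrder_of_finite]) ((CfsgH1.card_sup_dvd ?_).trans
      (mul_dvd_mul_left _ (CfsgH1.card_sup_dvd ?_))) <;>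
    exact le_top.trans (Subgroup.normalizer_eq_top_iff.2 (hn _)).ge
  rw [hDd] at a1 a2 a3
  refine Nat.le_of_mul_le_mul_right ((Nat.mul_le_mul_left _ a4).trans ?_)
    (pow_pos (Fact.out : p.Prime).pos d)
  calc _ = (Nat.card B * orderOf a) * ((Nat.card B * orderOf b) * (Nat.card B * orderOf c)) := by ring
    _ ≤ _ := Nat.mul_le_mul a1 (Nat.mul_le_mul a2 a3)
    _ = _ := by ring

end Cfsg.Agent.S4697
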