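import Cfsg.Statements.S4716
import Mathlib
import Cfsg.Agent.H4.Ctr

set_option autoImplicit false
open Cfsg

open Cfsg CfsgH3 CfsgH4 CfsgH1 CfsgL0 MonoidAlgebra

namespace Cfsg.Agent.S4716

/-- Let p be a prime, M a maximal ideal of the algebraic integers containing p, and B a p-block of defect d of the finite group G all of whose irreducible characters have height zero. Let y be a p-element, C = C_G(y), and b a block of C inducing B and having the same defect d (a major subsection). Then k(B)^2 ≤ p^(2d)·l(b), where k(B) is the number of irreducible characters in B and l(b) the p-regular rank of b (its number of irreducible Brauer characters); in particular (y = 1) k(B)^2 ≤ p^(2d)·l(B). -/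
theorem result {G : Type*} [Group G] [Finite G] (p : ℕ) [Fact p.Prime] (M : Ideal Cfsg.AlgInt) (hM : Cfsg.IsPModular p M) (B : Set (Cfsg.IrrCharacter G)) (hB : Cfsg.IsPBlock M B) (d : ℕ) (hd : Cfsg.blockDefect p B = d) (hh : ∀ χ ∈ B, Cfsg.blockHeight p B (χ : G → ℂ) = 0) (y : G) (hy : ∃ k : ℕ, orderOf y = p ^ k) (b : Set (Cfsg.IrrCharacter ↥(Subgroup.centralizer ({y} : Set G)))) (hind : Cfsg.IsInducedBlock M (Subgroup.centralizer ({y} : Set G)) b B) (hbd : Cfsg.blockDefect p b = d) : Nat.card B ^ 2 ≤ p ^ (2 * d) * Cfsg.blockRank p b := by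
  classical
  haveI : PMod p M := ⟨hM⟩
  have := Fintype.ofFinite (Subgroup.centralizer ({y} : Set G))
  have h := sum_le_of_cyc (ι := IrrCharacter G × IrrCharacter G)
    (Finset.univ.filter fun x => x.1 ∈ B ∧ x.2 ∈ B) (fun _ => 1)
    (fun x => (p : ℂ) ^ blockDefect p b * ctr p _ y b x.1.1 x.2.1)
    (fun x => cyc_pow_ctr (M := M) rfl x.1.2.isGen x.2.2.isGen)
    (fun x _ => isIntegral_pow_ctr (M := M) rfl x.1.2.isGen x.2.2.isGen)
    (fun x hx => by
      simp only [Finset.mem_filter, Finset.mem_univ, true_and] at hx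
      exact mul_ne_zero (p_pow_ne_zero (M := M) _)
        (hind.ctr_ne_zero rfl hy hx.1 (hh _ hx.1) hx.2 (hh _ hx.2)))
    (c := p ^ (2 * d) * blockRank p b) (by
      rw [Nat.cast_mul, ← sum_sum_ctr rfl hy hind.1.fB_mem, Fintype.sum_prod_type, Finset.mul_sum]
      refine Finset.sum_congr rfl fun χ _ => ?_
      rw [Finset.mul_sum]
      refine Finset.sum_congr rfl fun ψ _ => ?_
      rw [hbd, map_mul, map_pow, map_natCast]
      push_cast; ring)
  refine le_trans (le_of_eq ?_) h
  rw [natCard_set_irr, pow_two, Finset.sum_mul_sum, Finset.sum_filter, Fintype.sum_prod_type]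
  refine Finset.sum_congr rfl fun χ _ => Finset.sum_congr rfl fun ψ _ => ?_
  by_cases h1 : χ ∈ B <;> by_cases h2 : ψ ∈ B <;> simp [h1, h2]

end Cfsg.Agent.S4716
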