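import Cfsg.Statements.S4698
import Mathlib
import Cfsg.Agent.H4.KW
import Cfsg.Agent.S4716
import Cfsg.Agent.S4697

set_option autoImplicit false
open Cfsg

open Cfsg CfsgH4 CfsgH1 CfsgL0 MonoidAlgebra Function
open CfsgH3 hiding cj cj_cj
open scoped ComplexConjugate Pointwise

namespace Cfsg.Agent.S4698

universe u

theorem small {G : Type*} [Group G] [Finite G] {p : ℕ} {M : Ideal AlgInt} [PMod p M]
    {B : Set (IrrCharacter G)} (hB : IsPBlock M B) (hd : blockDefect p B ≤ 2) :
    Nat.card B ≤ p ^ blockDefect p B := by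
  haveI hp : Fact p.Prime := ⟨PMod.prime M⟩
  obtain ⟨D, hD⟩ := hB.exists_defectGroup (p := p)
  have h1 := hD.card_eq hB
  rw [← h1]
  by_cases hc : IsCyclic D
  · obtain ⟨a, ha⟩ := hc
    exact S4697.two hB hD (a := a) (b := a) rfl (by
      rw [Set.pair_eq_singleton, ← Subgroup.zpowers_eq_closure]
      exact eq_top_iff.2 fun x _ => ha x)
  have h2 : Nat.card D = p ^ 2 := by
    generalize blockDefect p B = d at hd h1
    interval_cases d
    · exact (hc (isCyclic_of_card_dvd_prime (p := p) (by simp [h1]))).elim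
    · exact (hc (isCyclic_of_card_dvd_prime (p := p) (by simp [h1]))).elim
    · exact h1
  have : Nontrivial D := Finite.one_lt_card_iff_nontrivial.1
    (h2 ▸ Nat.one_lt_pow two_ne_zero hp.out.one_lt)
  obtain ⟨a, ha⟩ := exists_ne (1 : D)
  obtain ⟨b, hb⟩ : ∃ b, b ∉ Subgroup.zpowers a := by
    by_contra! h
    exact hc ⟨a, h⟩
  refine S4697.two hB hD (a := a) (b := b) (IsPGroup.commutative_of_card_eq_prime_sq h2 a b) ?_
  have h3 : Subgroup.zpowers a < Subgroup.closure {a, b} := lt_of_le_of_ne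
    (Subgroup.zpowers_le.2 (Subgroup.subset_closure (by simp))) fun h =>
      hb (h ▸ Subgroup.subset_closure (by simp))
  obtain ⟨i, -, hi⟩ := (Nat.dvd_prime_pow hp.out).1 (h2 ▸ (Subgroup.zpowers a).card_subgroup_dvd_card)
  obtain ⟨j, h4, hj⟩ := (Nat.dvd_prime_pow hp.out).1
    (h2 ▸ (Subgroup.closure {a, b}).card_subgroup_dvd_card)
  have h5 : i < j := (Nat.pow_lt_pow_iff_right hp.out.one_lt).1
    (hi ▸ hj ▸ CfsgH1.card_lt_of_lt h3)
  have h6 : i ≠ 0 := by
    rintro rfl
    exact ha (by simpa using hi)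
  exact Subgroup.eq_top_of_card_eq _ (by rw [hj, h2, show j = 2 by omega])

theorem large {p : ℕ} {M : Ideal AlgInt} [hM : PMod p M] (d : ℕ) : ∀ {G : Type u} [Group G] [Finite G]
    {B : Set (IrrCharacter G)}, IsPBlock M B → blockDefect p B = d → 3 ≤ d →
    Nat.card B ≤ p ^ (2 * d - 2) := by
  haveI hp : Fact p.Prime := ⟨PMod.prime M⟩
  induction d using Nat.strong_induction_on with
  | _ d ih =>
  intro G _ _ B hB hd h3
  have := Fintype.ofFinite G
  by_cases hh : ∀ χ ∈ B, blockHeight p B χ.1 = 0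
  swap
  · push Not at hh
    obtain ⟨χ, h1, h2⟩ := hh
    have := hB.two_mul_card_le h1 h2
    rw [hd] at this
    omega
  obtain ⟨D, hD⟩ := hB.exists_defectGroup (p := p)
  have h1 := hD.card_eq hB
  have : Nontrivial D := Finite.one_lt_card_iff_nontrivial.1
    (h1 ▸ Nat.one_lt_pow (by omega) hp.out.one_lt)
  have := (IsPGroup.of_card h1).center_nontrivial
  obtain ⟨⟨a, h2⟩, ha⟩ := exists_ne (1 : Subgroup.center D)
  have h : D ≤ Subgroup.centralizer {a.1} := fun x hx => Subgroup.mem_centralizer_singleton_iff.2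
    (congrArg Subtype.val (Subgroup.mem_center_iff.1 h2 ⟨x, hx⟩))
  obtain ⟨β, H, _, _, φ, hφ, a1, a2, ⟨k, a3⟩, -, -, -, a7, a8, a9, -, a11⟩ :=
    hB.exists_red hD rfl a.2 h
  have h4 := S4716.result p M hM.1 B hB d hd hh a ⟨k, a3⟩ β a1 (a2.trans hd)
  have h5 : k ≠ 0 := by
    rintro rfl
    exact ha (by simpa using a3)
  rw [a8.card_eq a7, a3, h1, hd, ← pow_add, Nat.pow_right_inj hp.out.one_lt] at a11
  have := Fintype.ofFinite H
  have h6 : blockRank p β ≤ p ^ (2 * d - 4) := by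
    rw [← a9]
    refine (blockRank_le_card _).trans ?_
    rcases le_or_gt (blockDefect p (irrComp φ hφ ⁻¹' β)) 2 with h6 | h6
    · exact (small a7 h6).trans (Nat.pow_le_pow_right hp.out.pos (by omega))
    · exact (ih _ (by omega) a7 rfl h6).trans (Nat.pow_le_pow_right hp.out.pos (by omega))
  refine (Nat.pow_le_pow_iff_left two_ne_zero).1 (h4.trans ((Nat.mul_le_mul_left _ h6).trans ?_))
  rw [← pow_add, ← pow_mul]
  exact Nat.pow_le_pow_right hp.out.pos (by omega)

/-- Let p be a prime, M a maximal ideal of the algebraic integers containing p, and B a p-block of defect d of the finite group G, containing k irreducible characters. Then k ≤ p^d when d ≤ 2, and k ≤ p^(2d − 2) when d ≥ 3. -/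
theorem result {G : Type*} [Group G] [Finite G] (p : ℕ) [Fact p.Prime] (M : Ideal Cfsg.AlgInt) (hM : Cfsg.IsPModular p M) (B : Set (Cfsg.IrrCharacter G)) (hB : Cfsg.IsPBlock M B) (d : ℕ) (hd : Cfsg.blockDefect p B = d) : (d ≤ 2 → Nat.card B ≤ p ^ d) ∧ (3 ≤ d → Nat.card B ≤ p ^ (2 * d - 2)) := by
  haveI : PMod p M := ⟨hM⟩
  exact ⟨fun h => hd ▸ small hB (hd ▸ h), large d hB hd⟩

end Cfsg.Agent.S4698
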