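import Cfsg.Statements.S4699
import Mathlib

set_option autoImplicit false
open Cfsg

open Cfsg Module Polynomial

namespace Cfsg.Agent.S4699

theorem free_sum {Γ X A : Type*} [Group Γ] [Fintype Γ] [AddCommMonoid A] (act : Γ → X → X)
    (h1 : ∀ x, act 1 x = x) (hmul : ∀ a b x, act (a * b) x = act a (act b x)) (W : AddSubmonoid A)
    (φ : X → A) (s : Finset X) (hs : ∀ u, ∀ x ∈ s, act u x ∈ s)
    (hf : ∀ u, ∀ x ∈ s, act u x = x → u = 1) (hW : ∀ x ∈ s, ∑ u, φ (act u x) ∈ W) :
    ∑ x ∈ s, φ x ∈ W := by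
  classical
  induction s using Finset.strongInduction with
  | H s ih =>
    rcases s.eq_empty_or_nonempty with rfl | ⟨y, hy⟩
    · simp
    have h2 : (Finset.univ.image (act · y)) ⊆ s := fun z hz => by
      obtain ⟨u, -, rfl⟩ := Finset.mem_image.1 hz
      exact hs u y hy
    rw [← Finset.sum_sdiff h2]
    refine W.add_mem (ih _ (Finset.sdiff_ssubset h2 ⟨_, Finset.mem_image_of_mem _
      (Finset.mem_univ 1)⟩) (fun u x hx => ?_) (fun u x hx => hf u x (Finset.mem_sdiff.1 hx).1)
      fun x hx => hW x (Finset.mem_sdiff.1 hx).1) ?_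
    · rw [Finset.mem_sdiff] at hx ⊢
      refine ⟨hs u x hx.1, fun h => hx.2 ?_⟩
      obtain ⟨v, -, e⟩ := Finset.mem_image.1 h
      exact Finset.mem_image.2 ⟨u⁻¹ * v, Finset.mem_univ _, by
        rw [hmul, e, ← hmul, inv_mul_cancel, h1]⟩
    · rw [Finset.sum_image fun a _ b _ e => (inv_mul_eq_one.1 (hf _ y hy (by
        rw [hmul, ← (e : act a y = act b y), ← hmul, inv_mul_cancel, h1])))]
      exact hW y hy

theorem nil {R : Type*} [Ring R] {a f : R} {j d : ℕ} (h : a ^ j = a ^ (j + 1) * f)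
    (hd : a ^ d = 0) : a ^ j = 0 := by
  have : ∀ k, a ^ j = a ^ (k + j) * f ^ k := fun k => by
    induction k with
    | zero => simp
    | succ k ih => rw [ih, pow_add, h, pow_succ' f, ← mul_assoc, ← mul_assoc, ← pow_add]; ring_nf
  rw [this d, pow_add, hd, zero_mul, zero_mul]

variable {p : ℕ} [hp : Fact p.Prime] (F : Type*) [Field F] [CharP F p] {A : Type*} [Ring A]
  [Algebra F A]

include F

theorem sub_pow (T : A) (n : ℕ) : (T - 1) ^ p ^ n = T ^ p ^ n - 1 := by
  simpa using congrArg (aeval T) (sub_pow_char_pow (X : F[X]) 1 n)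

theorem geom (T : A) (n : ℕ) : ∑ i ∈ Finset.range (p ^ n), T ^ i = (T - 1) ^ (p ^ n - 1) := by
  have h : ∑ i ∈ Finset.range (p ^ n), (X : F[X]) ^ i = (X - 1) ^ (p ^ n - 1) := by
    apply mul_right_cancel₀ (X_sub_C_ne_zero (1 : F))
    rw [C_1, geom_sum_mul, ← pow_succ, Nat.sub_add_cancel (Nat.one_le_pow _ _ hp.out.pos),
      sub_pow F]
  simpa [map_sum] using congrArg (aeval T) h

theorem tr_dvd {a b : A} {d n : ℕ} (hb : (b - 1) ^ d = 0) (h : d + p ≤ p ^ n) (f : A) :
    ∃ g, ∑ i ∈ Finset.range (p ^ n), a ^ i * f * b ^ i = (a - 1) ^ p * g := by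
  have h1 := LinearMap.commute_mulLeft_right (R := F) (A := A)
  have h2 : (LinearMap.mulLeft F a * LinearMap.mulRight F b - 1 : End F A) =
      LinearMap.mulLeft F (a - 1) * LinearMap.mulRight F b + LinearMap.mulRight F (b - 1) := by
    ext y
    simp [mul_sub, sub_mul]
  obtain ⟨c, hc⟩ := Commute.pow_dvd_add_pow_of_pow_eq_zero_right (n := d) (m := p) (p := p ^ n - 1)
    (x := LinearMap.mulLeft F (a - 1) * LinearMap.mulRight F b) (y := LinearMap.mulRight F (b - 1))
    (by omega) ((h1 _ _).mul_left (by ext y; simp [mul_sub, sub_mul]))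
    (by rw [LinearMap.pow_mulRight, hb]; ext; simp)
  rw [← h2, ← geom F, (h1 _ _).mul_pow, LinearMap.pow_mulLeft] at hc
  refine ⟨_, Eq.trans ?_ (LinearMap.congr_fun hc f)⟩
  simp [(h1 _ _).mul_pow, mul_assoc]

theorem pow_sub (a : A) {k : ℕ} (hk : ¬ p ∣ k) :
    ∃ g, (a ^ k - 1) ^ (p - 1) = (a - 1) ^ (p - 1) + (a - 1) ^ p * g := by
  obtain ⟨h, e⟩ : (X - C (1 : F)) ∣ (∑ i ∈ Finset.range k, X ^ i) ^ (p - 1) - 1 := by
    rw [dvd_iff_isRoot]
    have := (CharP.natCast_eq_natCast F p).2 (Nat.ModEq.pow_totient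
      ((Nat.Prime.coprime_iff_not_dvd hp.out).2 hk).symm)
    rw [Nat.totient_prime hp.out] at this
    simpa [eval_finset_sum, sub_eq_zero] using this
  have h2 : ((X : F[X]) ^ k - 1) ^ (p - 1) = (X - 1) ^ (p - 1) + (X - 1) ^ (p - 1 + 1) * h := by
    rw [← geom_sum_mul, mul_pow, sub_eq_iff_eq_add.1 e, C_1]
    ring
  rw [Nat.sub_add_cancel hp.out.pos] at h2
  exact ⟨aeval a h, by simpa using congrArg (aeval a) h2⟩

omit F hp

/-- Let p be a prime and G a finite group whose Sylow p-subgroup P is cyclic of order p^n with n ≥ 2 and meets every other Sylow p-subgroup trivially. Then every faithful irreducible representation of G on a finite-dimensional space over a finite field of characteristic p has dimension at least p^n − (p − 1). -/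
theorem result {G : Type*} [Group G] [Finite G] (p : ℕ) [Fact p.Prime] (P : Sylow p G) (hcyc : IsCyclic P) (n : ℕ) (hn : 2 ≤ n) (hPn : Nat.card P = p ^ n) (hTI : ∀ Q : Sylow p G, Q ≠ P → (P : Subgroup G) ⊓ (Q : Subgroup G) = ⊥) (F : Type*) [Field F] [Finite F] [CharP F p] (V : Type*) [AddCommGroup V] [Module F V] [FiniteDimensional F V] (ρ : Representation F G V) (hfaith : Function.Injective ρ) (hirr : ρ.IsIrreducible) : p ^ n - (p - 1) ≤ Module.finrank F V := by
  classical
  have := Fintype.ofFinite G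
  have hp : p.Prime := Fact.out
  by_contra hlt
  have hV : Nontrivial V := by
    by_contra h
    rw [not_nontrivial_iff_subsingleton] at h
    exact hirr.bot_ne_top (Subrepresentation.toSubmodule_injective (Subsingleton.elim _ _))
  obtain ⟨x, hx⟩ := IsCyclic.exists_generator (α := P)
  have ho : orderOf x = p ^ n := (orderOf_eq_card_of_forall_mem_zpowers hx).trans hPn
  have hq : Module.finrank F V + p ≤ p ^ n := by have := hp.pos; omega
  have h0 : ∀ u : P, (ρ u - 1) ^ Module.finrank F V = 0 := fun u => by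
    have h1 : IsNilpotent (ρ u - 1) := ⟨p ^ n, by
      rw [sub_pow F, ← map_pow, ← Subgroup.coe_pow, ← hPn, pow_card_eq_one']; simp⟩
    simpa [h1.charpoly_eq_X_pow_finrank] using (ρ u - 1).aeval_self_charpoly
  have hsum : ∀ {A : Type _} [AddCommMonoid A] (φ : P → A),
      ∑ u, φ u = ∑ i ∈ Finset.range (p ^ n), φ (x ^ i) := fun φ => by
    refine (Finset.sum_bij (fun i _ => x ^ i) (fun _ _ => Finset.mem_univ _) (fun i hi j hj e =>
      pow_injOn_Iio_orderOf (by simpa [ho] using hi) (by simpa [ho] using hj) e) (fun u _ => ?_)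
      fun _ _ => rfl).symm
    simpa [ho] using mem_zpowers_iff_mem_range_orderOf.1 (hx u)
  have hc : ∀ u v : P, (u : G) * v * (u : G)⁻¹ = v := fun u v =>
    mul_inv_eq_of_eq_mul (congrArg Subtype.val (hcyc.commutative.is_comm.comm u v))
  let s := Finset.univ.filter fun y : G => IsConj (x : G) y ∧ y ∉ (P : Subgroup G)
  let t := Finset.univ.filter fun y : G => IsConj (x : G) y ∧ y ∈ (P : Subgroup G)
  have hst : ∀ (φ : G → End F V),
      ∑ y with IsConj (x : G) y, φ y = ∑ y ∈ t, φ y + ∑ y ∈ s, φ y := fun φ => by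
    rw [← Finset.sum_filter_add_sum_filter_not _ (· ∈ (P : Subgroup G)), Finset.filter_filter,
      Finset.filter_filter]
  have hoc : ∀ y, IsConj (x : G) y → orderOf y = p ^ n := fun y hy => by
    obtain ⟨c, hc⟩ := hy
    rw [← ho, ← Subgroup.orderOf_coe, hc.orderOf_eq]
  have key : ∀ (W : AddSubmonoid (End F V)) (φ : G → End F V),
      (∀ y, ∑ u : P, φ (u * y * (u : G)⁻¹) ∈ W) → ∑ y ∈ s, φ y ∈ W := fun W φ h => by
    refine free_sum (fun (u : P) y => u * y * (u : G)⁻¹) (by simp) (by simp [mul_assoc]) W φ s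
      (fun u y hy => ?_) (fun u y hy e => ?_) fun y _ => h y
    · simp only [s, Finset.mem_filter, Finset.mem_univ, true_and] at hy ⊢
      exact ⟨hy.1.trans (isConj_iff.2 ⟨_, rfl⟩), fun h => hy.2 (by
        simpa [mul_assoc] using (P : Subgroup G).mul_mem (mul_mem (inv_mem u.2) h) u.2)⟩
    · simp only [s, Finset.mem_filter, Finset.mem_univ, true_and] at hy
      have h1 : IsPGroup p (Subgroup.zpowers y) :=
        IsPGroup.of_card (n := n) (by rw [Nat.card_zpowers, hoc y hy.1])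
      obtain ⟨Q, hQ⟩ := (h1.to_sup_of_normal_left' (P.isPGroup'.to_le
        (Subgroup.zpowers_le.2 u.2)) (Subgroup.zpowers_le.2 (Subgroup.centralizer_le_normalizer _
        (by rintro _ ⟨k, rfl⟩; exact ((Commute.zpow_right (mul_inv_eq_iff_eq_mul.1 e)
          k).symm :))))).exists_le_sylow
      by_cases h2 : Q = P
      · exact absurd (h2 ▸ hQ (Subgroup.mem_sup_left (Subgroup.mem_zpowers y))) hy.2
      · exact Subtype.ext ((hTI Q h2).le
          ⟨u.2, hQ (Subgroup.mem_sup_right (Subgroup.mem_zpowers _))⟩)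
  have hm : (t.card : F) ≠ 0 := fun e => by
    have h1 := hst fun _ => 1
    rw [AddSubmonoid.mem_bot.1 (key ⊥ (fun _ => 1) fun y => by
      have : n ≠ 0 := by omega
      rw [Finset.sum_const, ← Nat.cast_smul_eq_nsmul F]
      simp [← Nat.card_eq_fintype_card, hPn, this])] at h1
    simp only [Finset.sum_const, ← Nat.cast_smul_eq_nsmul F, e, add_zero, zero_smul, smul_eq_zero,
      one_ne_zero, or_false, CharP.cast_eq_zero_iff F p] at h1
    refine P.not_dvd_index (h1.trans ?_)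
    have h2 : (MulAction.stabilizer (ConjAct G) (x : G)).index = _ :=
      MulAction.index_stabilizer (ConjAct G) (x : G)
    rw [ConjAct.orbit_eq_carrier_conjClasses] at h2
    have h3 : (Finset.univ.filter fun y : G => IsConj (x : G) y).card =
        (ConjClasses.mk (x : G)).carrier.ncard := by
      rw [← Set.ncard_coe_finset]
      congr 1
      ext y
      simp only [Finset.coe_filter, Finset.mem_univ, true_and, Set.mem_setOf_eq,
        ConjClasses.mem_carrier_iff_mk_eq, ConjClasses.mk_eq_mk_iff_isConj, isConj_comm]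
    rw [h3, ← h2]
    exact Subgroup.index_dvd_of_le (G := ConjAct G) (H := (P : Subgroup G)) fun u hu => hc ⟨u, hu⟩ x
  let W : AddSubmonoid (End F V) :=
    { carrier := {a | ∃ g, a = (ρ x - 1) ^ p * g}
      add_mem' := by rintro _ _ ⟨a, rfl⟩ ⟨b, rfl⟩; exact ⟨a + b, (mul_add _ _ _).symm⟩
      zero_mem' := ⟨0, by simp⟩ }
  have hcj : ∀ g y : G, (ρ (g * y * g⁻¹) - 1) ^ (p - 1) = ρ g * (ρ y - 1) ^ (p - 1) * ρ g⁻¹ :=
    fun g y => by
      have := Units.conj_pow (MonoidHom.toHomUnits ρ g) (ρ y - 1) (p - 1)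
      simpa [mul_sub, sub_mul, ← map_mul, ← map_inv] using this
  obtain ⟨f, hf⟩ := key W (fun y => (ρ y - 1) ^ (p - 1)) fun y => by
    refine (hsum fun u : P => (ρ (u * y * (u : G)⁻¹) - 1) ^ (p - 1)) ▸ ?_
    obtain ⟨g, hg⟩ := tr_dvd F (a := ρ x) (h0 x⁻¹) hq ((ρ y - 1) ^ (p - 1))
    refine ⟨g, Eq.trans (Finset.sum_congr rfl fun i _ => ?_) hg⟩
    rw [hcj, ← map_pow, ← map_pow]
    simp
  obtain ⟨f', hf'⟩ := W.sum_mem (t := t) (f := fun y => (ρ y - 1) ^ (p - 1) - (ρ x - 1) ^ (p - 1))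
    fun y hy => by
      simp only [t, Finset.mem_filter, Finset.mem_univ, true_and] at hy
      obtain ⟨k, e⟩ := (mem_powers_iff_mem_zpowers).2 (hx ⟨y, hy.2⟩)
      obtain rfl : (x : G) ^ k = y := congrArg Subtype.val e
      obtain ⟨g, hg⟩ := pow_sub F (ρ x) (k := k) fun ⟨j, hj⟩ => by
        have h1 := hoc _ hy.1
        have h2 : p ^ n ∣ p ^ (n - 1) := by
          rw [← h1, orderOf_dvd_iff_pow_eq_one, hj, ← pow_mul, mul_right_comm, ← pow_succ',
            Nat.sub_add_cancel (by omega), pow_mul, ← ho, ← Subgroup.coe_pow, pow_orderOf_eq_one]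
          simp
        rw [Nat.pow_dvd_pow_iff_le_right hp.one_lt] at h2
        omega
      exact ⟨g, by rw [map_pow, hg, add_sub_cancel_left]⟩
  have h1 := hst fun y => (ρ y - 1) ^ (p - 1)
  rw [Finset.sum_sub_distrib, sub_eq_iff_eq_add, Finset.sum_const] at hf'
  rw [hf, hf'] at h1
  have hp1 : p - 1 + 1 = p := Nat.sub_add_cancel hp.pos
  rcases Representation.IsIrreducible.bijective_or_eq_zero (ρ := ρ) (σ := ρ)
    ⟨∑ y with IsConj (x : G) y, (ρ y - 1) ^ (p - 1), fun g => by
      show _ * ρ g = ρ g * _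
      rw [Finset.sum_mul, Finset.mul_sum]
      refine (Finset.sum_equiv (MulAut.conj g).toEquiv (fun y => ?_) fun y _ => ?_).symm
      · simp only [Finset.mem_filter, Finset.mem_univ, true_and]
        exact ⟨fun h => h.trans (isConj_iff.2 ⟨g, rfl⟩),
          fun h => h.trans (isConj_iff.2 ⟨g, rfl⟩).symm⟩
      · show _ = (ρ (g * y * g⁻¹) - 1) ^ (p - 1) * _
        rw [hcj, mul_assoc, ← map_mul, inv_mul_cancel, map_one, mul_one]⟩ with h | h
  · obtain ⟨c, hc⟩ := ((Module.End.isUnit_iff _).2 h).exists_right_inv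
    change (∑ y with IsConj (x : G) y, (ρ y - 1) ^ (p - 1)) * c = 1 at hc
    obtain ⟨r, rfl⟩ : ∃ r, p = r + 2 := ⟨p - 2, by have := hp.two_le; omega⟩
    refine one_ne_zero (nil (j := 0) (f := ((ρ x - 1) ^ (r + 1) * f' + t.card • (ρ x - 1) ^ r +
      (ρ x - 1) ^ (r + 1) * f) * c) ?_ (h0 x))
    rw [pow_zero, ← mul_assoc]
    simp only [zero_add, pow_one, mul_add, mul_smul_comm, ← mul_assoc, ← pow_succ']
    rw [h1] at hc
    exact hc.symm
  · have h2 : ∑ y with IsConj (x : G) y, (ρ y - 1) ^ (p - 1) = 0 :=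
      congrArg Representation.IntertwiningMap.toLinearMap h
    have h3 := nil (j := p - 1) (f := -(t.card : F)⁻¹ • (f' + f)) (by
      rw [hp1, mul_smul_comm, neg_smul, eq_neg_iff_add_eq_zero, ← smul_right_inj hm, smul_add,
        smul_inv_smul₀ hm, smul_zero, ← h2, h1, Nat.cast_smul_eq_nsmul, mul_add]
      abel) (h0 x)
    have h4 : ρ ((x : G) ^ p ^ 1) = ρ 1 := by
      rw [map_pow, map_one, ← sub_eq_zero, ← sub_pow F, pow_one]
      exact pow_eq_zero_of_le (Nat.sub_le _ _) h3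
    have h5 := orderOf_dvd_of_pow_eq_one (hfaith h4)
    rw [Subgroup.orderOf_coe, ho, Nat.pow_dvd_pow_iff_le_right hp.one_lt] at h5
    omega

end Cfsg.Agent.S4699
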