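import Mathlib
import Cfsg.Statements.S4702
import Cfsg.Agent.H8.Za3

set_option autoImplicit false
open Cfsg

namespace Cfsg.Agent.S4702

open CfsgH8 CfsgH8.Za

/-- Let G be a triply transitive permutation group on a finite set of odd size m ≥ 3 in which only the identity fixes three or more points. Then m = 2^a + 1 for some a ≥ 1 and G is isomorphic to SL(2, 2^a). -/
theorem result {α : Type*} [Fintype α] [DecidableEq α] (hm : 3 ≤ Fintype.card α) (hodd : Odd (Fintype.card α)) (G : Subgroup (Equiv.Perm α)) (h3 : MulAction.IsMultiplyPretransitive G α 3) (hfix : ∀ g : G, 3 ≤ Nat.card (MulAction.fixedBy α g) → g = 1) : ∃ a : ℕ, 1 ≤ a ∧ Fintype.card α = 2 ^ a + 1 ∧ ∃ (F : Type) (_ : Field F) (_ : Fintype F), Fintype.card F = 2 ^ a ∧ Nonempty (G ≃* Matrix.SpecialLinearGroup (Fin 2) F) := by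
  have s : S3 G α := S3.of h3 (by rw [Nat.card_eq_fintype_card]; omega) fun g a b c h1 h2 h3 e1 e2 e3 =>
    hfix g (by
      rw [Nat.card_coe_set_eq]
      exact (Set.two_lt_ncard_iff (Set.toFinite _)).2 ⟨a, b, c, e1, e2, e3, h1, h2, h3⟩)
  obtain ⟨a, b, hab⟩ := Fintype.exists_pair_of_one_lt_card (α := α) (by omega)
  obtain ⟨K, h⟩ := s.toZT.exists_K hab
  have hK := h.card_Ω'
  rw [Nat.card_eq_fintype_card] at hK
  have he : Even (Nat.card K) := by
    rw [hK, Nat.odd_add_one] at hodd; exact Nat.not_odd_iff_even.1 hodd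
  have hd := s.card_H h (by omega)
  have hp := h.isPrimePow (fun e => by rw [e, Subgroup.card_bot] at hK; omega) (by omega)
  obtain ⟨F, _, _, hF⟩ := exists_field_card hp
  obtain ⟨p, k, hp, hk, e⟩ := (isPrimePow_nat_iff _).1 hp
  obtain rfl : p = 2 := ((Nat.prime_dvd_prime_iff_eq Nat.prime_two hp).1
    (Nat.prime_two.dvd_of_dvd_pow (e ▸ he.two_dvd))).symm
  obtain ⟨e1⟩ := h.iso_even hd he F hF
  obtain ⟨e2⟩ := psl_pgl (hF ▸ he)
  obtain ⟨e3⟩ := sl_psl (hF ▸ he)
  exact ⟨k, hk, by rw [hK, e], F, inferInstance, inferInstance, hF.trans e.symm, ⟨(e1.trans e2).trans e3⟩⟩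

end Cfsg.Agent.S4702
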