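import Cfsg.Statements.S4706
import Mathlib
import Cfsg.Agent.H4.Dg2

set_option autoImplicit false
open Cfsg

open Cfsg CfsgH4 MulAction

namespace Cfsg.Agent.S4706

/-- Let p > 2 be a prime and G a permutation group on p letters whose Sylow p-subgroup P has normalizer of order 2p. Then either P is normal in G, or p − 1 = 2^a for some a and G is isomorphic to SL(2, 2^a). -/
theorem result {α : Type*} [Fintype α] [DecidableEq α] {p : ℕ} [Fact p.Prime] (hp : 2 < p) (hα : Fintype.card α = p) (G : Subgroup (Equiv.Perm α)) (P : Sylow p G) (hN : Nat.card (Subgroup.normalizer ((P : Subgroup G) : Set G)) = 2 * p) : (P : Subgroup G).Normal ∨ ∃ (a : ℕ) (F : Type) (_ : Field F) (_ : Fintype F), p = 2 ^ a + 1 ∧ Fintype.card F = 2 ^ a ∧ Nonempty (G ≃* Matrix.SpecialLinearGroup (Fin 2) F) := by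
  have hp' : p.Prime := Fact.out
  obtain rfl | h3 := (Nat.succ_le_of_lt hp).eq_or_lt
  · have := Subgroup.card_subgroup_dvd_card G
    rw [Nat.card_perm, Nat.card_eq_fintype_card (α := α), hα] at this
    exact .inl (Subgroup.normalizer_eq_top_iff.1 (Subgroup.eq_top_of_le_card _ (hN ▸ Nat.le_of_dvd (by decide) this)))
  by_cases h : (P : Subgroup G) = ⊥
  · exact .inl (h ▸ inferInstance)
  obtain ⟨g, h1⟩ := (Subgroup.ne_bot_iff_exists_ne_one).1 h
  obtain ⟨a, ha⟩ : ∃ a : α, g • a ≠ a := by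
    by_contra! e
    exact h1 (Subtype.ext (Subtype.ext (Equiv.ext e)))
  obtain ⟨k, hk⟩ := P.2.card_orbit a
  rw [Nat.card_coe_set_eq] at hk
  have h2 : 1 < (orbit (P : Subgroup G) a).ncard := (Set.one_lt_ncard (Set.toFinite _)).2
    ⟨_, ⟨g, rfl⟩, _, mem_orbit_self a, ha⟩
  have hc := Nat.card_eq_fintype_card.trans hα
  have : IsPretransitive G α := (isPretransitive_iff_orbit_eq_univ a).2 (Set.eq_univ_of_univ_subset
    ((Set.eq_univ_iff_ncard _).2 ((Set.ncard_le_card _).antisymm (by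
      rw [hc, hk]; exact Nat.le_self_pow (by rintro rfl; simp [hk] at h2) p)) ▸ orbit_subgroup_subset (P : Subgroup G) a))
  have := IsPreprimitive.of_prime_card (G := G) (hc ▸ hp')
  exact (perm_two (Ω := α) h3 (k := 1) (by omega) (.inl rfl) P hN).imp (·.1)
    fun ⟨_, m, F, _, _, a, b, _, c⟩ => ⟨m, F, _, _, b, a, c⟩

end Cfsg.Agent.S4706
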