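import Cfsg.Statements.S4708
import Mathlib
import Cfsg.Agent.H4.P0

set_option autoImplicit false
open Cfsg

open Cfsg CfsgH4 CfsgH1 CfsgL0 MonoidAlgebra Function
open CfsgH3 hiding cj cj_cj
open scoped ComplexConjugate Pointwise

namespace Cfsg.Agent.S4708

/-- Let p be a prime, M a maximal ideal of the algebraic integers containing p, G a finite group and H a normal subgroup. Write λ(X) for the sum of the squares of the degrees of the irreducible characters in the principal p-block of a group X. Then λ(H) ≤ λ(G) ≤ [G : H]·λ(H). -/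
theorem result {G : Type*} [Group G] [Finite G] (p : ℕ) [Fact p.Prime] (M : Ideal Cfsg.AlgInt) (hM : Cfsg.IsPModular p M) (H : Subgroup G) [H.Normal] : (∑ᶠ θ ∈ Cfsg.principalBlock M H, Cfsg.charDegree (θ : H → ℂ) ^ 2) ≤ (∑ᶠ χ ∈ Cfsg.principalBlock M G, Cfsg.charDegree (χ : G → ℂ) ^ 2) ∧ (∑ᶠ χ ∈ Cfsg.principalBlock M G, Cfsg.charDegree (χ : G → ℂ) ^ 2) ≤ H.index * ∑ᶠ θ ∈ Cfsg.principalBlock M H, Cfsg.charDegree (θ : H → ℂ) ^ 2 := by
  classical
  haveI : PMod p M := ⟨hM⟩
  have := Fintype.ofFinite G
  have := Fintype.ofFinite H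
  obtain ⟨m, h1, h2, h3, -⟩ := exists_mult H
  simp only [finsum_mem_irr]
  constructor
  · calc _ ≤ ∑ θ : IrrCharacter H, ∑ χ : IrrCharacter G,
          if χ ∈ principalBlock M G then m χ θ * charDegree θ.1 * charDegree χ.1 else 0 :=
          Finset.sum_le_sum fun θ _ => ?_
      _ = _ := by
        rw [Finset.sum_comm]
        refine Finset.sum_congr rfl fun χ _ => ?_
        split_ifs
        · rw [← Finset.sum_mul, ← h2, sq]
        · simp
    split_ifs with h
    · obtain ⟨χ, h4, h5⟩ := exists_principal_over_normal h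
      refine le_trans ?_ (Finset.single_le_sum (fun _ _ => Nat.zero_le _) (Finset.mem_univ χ))
      rw [if_pos h4, sq, mul_assoc]
      exact (Nat.mul_le_mul_left _ (deg_le_of_under θ.2 χ.2.isCharacter
        (over_subtype_iff.1 h5))).trans (Nat.le_mul_of_pos_left _ (Nat.pos_of_ne_zero
          ((h1 _ _).2 h5)))
    · exact Nat.zero_le _
  · calc _ ≤ ∑ χ : IrrCharacter G, ∑ θ : IrrCharacter H,
          if θ ∈ principalBlock M H then m χ θ * charDegree χ.1 * charDegree θ.1 else 0 :=
          Finset.sum_le_sum fun χ _ => ?_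
      _ = _ := by
        rw [Finset.sum_comm, Finset.mul_sum]
        refine Finset.sum_congr rfl fun θ _ => ?_
        split_ifs
        · rw [← Finset.sum_mul, ← h3, sq, mul_assoc]
        · simp
    split_ifs with h
    · rw [sq]; nth_rw 2 [h2]
      rw [Finset.mul_sum]
      refine Finset.sum_le_sum fun θ _ => ?_
      by_cases e : m χ θ = 0
      · simp [e]
      · rw [if_pos (((h1 _ _).1 e).mem_principal h), mul_left_comm, mul_assoc]
    · exact Nat.zero_le _

end Cfsg.Agent.S4708
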