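import Cfsg.Statements.S4709
import Cfsg.Agent.H3.Hv1
import Cfsg.Agent.H3.Bf3

set_option autoImplicit false
open Cfsg

namespace Cfsg.Agent.S4709
open CfsgBf CfsgH2 CfsgH4

/-- Let p be a prime, M a maximal ideal of the algebraic integers containing p, and G a finite group with a nontrivial abelian Sylow p-subgroup P; put N = N_G(P), C = C_G(P). Suppose N/C is cyclic of order m with 1 < m < #P − 1 (C has index m in N and N is generated by C and one element), and C_G(y) ∩ N = C for every non-identity y ∈ P. Put r = (#P − 1)/m. Then there is s ≤ m such that the principal p-block is the disjoint union of a set X of s characters containing the principal character and a set Y of r characters, with integers a_χ ≠ 0 (χ ∈ X), d and a sign δ = ±1, such that: every χ ∈ X takes the value a_χ at every element whose p-part is a non-identity element of P; there is a map ζ from the non-principal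 linear characters ψ of P onto Y, constant on N-conjugacy classes, with ζ_ψ(z) = d + δ·Σ ψ'(y) for every z whose p-part y is a non-identity element of P, the sum running over the N-conjugates ψ' of ψ; (d − δ)^2 + (r − 1) d^2 + Σ_{χ ∈ X} a_χ^2 = m + 1; all members of Y agree on p-regular elements; and (r d − δ) η(g) + Σ_{χ ∈ X} a_χ χ(g) = 0 for every η ∈ Y and every p-regular g. -/
theorem result {G : Type*} [Group G] [Finite G] (p : ℕ) [Fact p.Prime] (M : Ideal Cfsg.AlgInt) (hM : Cfsg.IsPModular p M) (P : Sylow p G) (hab : IsMulCommutative P) (hP1 : Nat.card P ≠ 1) (m : ℕ) (hm1 : 1 < m) (hm2 : m + 1 < Nat.card P) (hCN : (Subgroup.centralizer ((P : Subgroup G) : Set G)).relIndex (Subgroup.normalizer ((P : Subgroup G) : Set G)) = m) (hcyc : ∃ g : G, g ∈ Subgroup.normalizer ((P : Subgroup G) : Set G) ∧ Subgroup.centralizer ((P : Subgroup G) : Set G) ⊔ Subgroup.zpowers g = Subgroup.normalizer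 ((P : Subgroup G) : Set G)) (hfrob : ∀ y : G, y ∈ (P : Subgroup G) → y ≠ 1 → Subgroup.centralizer ({y} : Set G) ⊓ Subgroup.normalizer ((P : Subgroup G) : Set G) = Subgroup.centralizer ((P : Subgroup G) : Set G)) : ∃ (s : ℕ) (X Y : Set (Cfsg.IrrCharacter G)), s ≤ m ∧ Cfsg.principalBlock M G = X ∪ Y ∧ Disjoint X Y ∧ Nat.card X = s ∧ Nat.card Y = (Nat.card P - 1) / m ∧ (∃ χ₁ ∈ X, (χ₁ : G → ℂ) = fun _ => 1) ∧ ∃ (a : Cfsg.IrrCharacter G → ℤ) (d δ : ℤ) (ζ : (↥(P : Subgroup G) →* ℂˣ) → Cfsg.IrrCharacter G), (δ = 1 ∨ δ = -1) ∧ (∀ χ ∈ X, a χ ≠ 0 ∧ ∀ z y : G, Cfsg.IsPPart p z y → y ∈ (P : Subgroup G) → y ≠ 1 → (χ : G → ℂ) z = (a χ : ℂ)) ∧ (∀ ψ : ↥(P : Subgroup G) →* ℂˣ, ψ ≠ 1 → ζ ψ ∈ Y) ∧ (∀ η ∈ Y, ∃ ψ : ↥(P : Subgroup G) →* ℂˣ, ψ ≠ 1 ∧ ζ ψ = η) ∧ (∀ ψ ψ' : ↥(P : Subgroup G) →* ℂˣ, ψ ≠ 1 → (∃ n : G, n ∈ Subgroup.normalizer ((P : Subgroup G) : Set G) ∧ ∀ w w' : ↥(P : Subgroup G), (w' :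 G) = n * w * n⁻¹ → ψ' w' = ψ w) → ζ ψ' = ζ ψ) ∧ (∀ ψ : ↥(P : Subgroup G) →* ℂˣ, ψ ≠ 1 → ∀ (z : G) (y : ↥(P : Subgroup G)), Cfsg.IsPPart p z (y : G) → (y : G) ≠ 1 → (ζ ψ : G → ℂ) z = (d : ℂ) + (δ : ℂ) * ∑ᶠ ψ' ∈ {ψ' : ↥(P : Subgroup G) →* ℂˣ | ∃ n : G, n ∈ Subgroup.normalizer ((P : Subgroup G) : Set G) ∧ ∀ w w' : ↥(P : Subgroup G), (w' : G) = n * w * n⁻¹ → ψ' w' = ψ w}, ((ψ' y : ℂˣ) : ℂ)) ∧ ((d - δ) ^ 2 + ((Nat.card P - 1) / m - 1 : ℤ) * d ^ 2 + ∑ᶠ χ ∈ X, a χ ^ 2 = (m : ℤ) + 1) ∧ (∀ η ∈ Y, ∀ η' ∈ Y, ∀ g : G, ¬ p ∣ orderOf g → (η : G → ℂ) g = (η' : G → ℂ) g) ∧ (∀ η ∈ Y, ∀ g : G, ¬ p ∣ orderOf g → ((((Nat.card P - 1) / m : ℕ) : ℂ) * d - δ) * (η : G → ℂ) g + ∑ᶠ χ ∈ X, (a χ : ℂ) * (χ : G → ℂ) g = 0) := by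
  classical
  haveI : PMod p M := ⟨hM⟩
  have h : AF p (P : Subgroup G) := ⟨syl_top P, hab, fun y hy h1 => (hfrob y hy h1).le⟩
  obtain ⟨X, ζ, a, d, δ, h⟩ := h.exists_bd (M := M) hCN hm2
  have cY := h.cardY' (by omega)
  refine ⟨X.card, X, exc ζ, ?_, h.eq, by exact_mod_cast h.disj, by simp, by simp [cY], ⟨_, h.one, rfl⟩, a, d, δ, ζ,
    h.sgn, fun χ hχ => ⟨h.aX χ hχ, fun z y hz hy h1 => h.valX χ hχ z ⟨y, hy⟩ (isPPart_iff.1 hz).symm
      (by simpa using h1)⟩, fun ψ h1 => mem_exc.2 ⟨ψ, h1, rfl⟩, fun η hη => mem_exc.1 hη,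
    fun ψ ψ' h1 e => ((h.rel _ _ h1 (R.ne_one e h1)).2 e).symm, fun ψ h1 z y hz hy => ?_, ?_,
    fun η hη η' hη' => h.reg η hη η' hη', fun η hη g hg => ?_⟩
  · have h1 := h.norm
    have h2 : (X.card : ℤ) ≤ ∑ χ ∈ X, a χ ^ 2 := by
      rw [Finset.card_eq_sum_ones]
      push_cast
      exact Finset.sum_le_sum fun χ hχ => by have := h.aX χ hχ; nlinarith [sq_pos_of_ne_zero this]
    have h3 : (2 : ℤ) ≤ (exc ζ).card := by exact_mod_cast h.two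
    have h4 : 1 ≤ (d - δ) ^ 2 + ((exc ζ).card - 1) * d ^ 2 := by
      by_cases hd : d = 0
      · rcases h.sgn with e | e <;> simp [hd, e]
      · have := sq_pos_of_ne_zero hd
        nlinarith [sq_nonneg (d - δ)]
    have : (X.card : ℤ) ≤ m := by linarith
    exact_mod_cast this
  · rw [h.valY _ (mem_exc.2 ⟨ψ, h1, rfl⟩) z y (isPPart_iff.1 hz).symm (by simpa using hy), ← h.finsum_eq h1]
    rfl
  · rw [finsum_mem_coe_finset, ← h.norm]
    congr 3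
    have h2 : (Nat.card P : ℤ) = m * (exc ζ).card + 1 := by exact_mod_cast h.cardY.symm
    rw [h2, add_sub_cancel_right, Int.mul_ediv_cancel_left _ (by omega)]
  · rw [finsum_mem_coe_finset, ← cY]
    exact h.regX η hη g hg


end Cfsg.Agent.S4709
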