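import Cfsg.Statements.S4711
import Mathlib
import Cfsg.Agent.H4.P1
import Cfsg.Agent.H2.PL1

set_option autoImplicit false
open Cfsg

open Cfsg CfsgH4 CfsgH1 CfsgL0 MonoidAlgebra Function
open CfsgH3 hiding cj cj_cj
open scoped ComplexConjugate Pointwise

namespace Cfsg.Agent.S4711

/-- Let p be a prime, M a maximal ideal of the algebraic integers containing p, G a finite group, P a Sylow p-subgroup and N = N_G(P). Then G has p-length 1 (G = O_{p',p,p'}(G)) if and only if every irreducible character in the principal p-block of G restricts to an irreducible character of N. -/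
theorem result {G : Type*} [Group G] [Finite G] (p : ℕ) [Fact p.Prime] (M : Ideal Cfsg.AlgInt) (hM : Cfsg.IsPModular p M) (P : Sylow p G) : Cfsg.PLengthLE p 1 G ↔ ∀ χ ∈ Cfsg.principalBlock M G, Cfsg.IsIrrCharacter ↥(Subgroup.normalizer ((P : Subgroup G) : Set G)) (fun n : ↥(Subgroup.normalizer ((P : Subgroup G) : Set G)) => (χ : G → ℂ) n) := by
  haveI : PMod p M := ⟨hM⟩
  have hS := CfsgH2.syl_top P
  rw [CfsgH2.pl1_top_iff]
  refine ⟨fun h χ hχ => ?_, fun h => ?_⟩
  · obtain ⟨β, -, h3, h4⟩ := χ.2.isCharacter.exists_deflation _ fun n hn => principal_ker hχ hn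
    have h1 := h.frattini hS
    rw [top_inf_eq, ← CfsgH2.pPrimeCore_eq'] at h1
    have := (h3 χ.2).comp_of_surjective ((QuotientGroup.mk' _).comp (Subgroup.subtype
      (Subgroup.normalizer ((P : Subgroup G) : Set G)))) fun x => by
        obtain ⟨g, rfl⟩ := QuotientGroup.mk_surjective x
        obtain ⟨a, ha, b, hb, rfl⟩ := Subgroup.mem_sup_of_normal_left.1 (h1 ▸ Subgroup.mem_top g)
        exact ⟨⟨b, hb⟩, by simp [(QuotientGroup.eq_one_iff a).2 ha]⟩
    simpa [h4] using this
  let K := Subgroup.normalClosure (P : Set G)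
  have hK : (P : Subgroup G) ≤ K := Subgroup.le_normalClosure
  have := Fintype.ofFinite P
  refine CfsgH2.pl1_of_npc_sub (N := K) le_top Subgroup.le_normalizer_of_normal
    (CfsgH2.npc_iff.1 (npc_of_over_one (M := M) (P.subtype hK) fun θ h1 h2 g => ?_)) (by
      rw [Subgroup.relIndex_top_right]
      exact fun e => P.not_dvd_index (e.trans (Subgroup.index_dvd_of_le hK)))
  obtain ⟨χ, h3, h4⟩ := exists_principal_over_normal h1
  have h5 := h4.trans χ.2.isCharacter isIrr_one.isCharacter ((over_subOf_iff hK).1 h2)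
  have h6 := (over_one_iff (χ := ⟨_, h χ h3⟩)).1 ((over_subOf_iff (θ := fun _ => 1)
    (P : Subgroup G).le_normalizer).2 (over_iff.2 (over_iff.1 h5)))
  haveI := χ.2.isCharacter.charKer_normal
  have h7 : K ≤ charKer χ.1 := Subgroup.normalClosure_le_normal fun x hx =>
    χ.2.isCharacter.mem_charKer.2 (h6 ⟨x, Subgroup.le_normalizer hx⟩ hx)
  have := Fintype.ofFinite K
  exact (χ.2.isCharacter.restrict K).apply_eq_of_constituent θ.2 (over_subtype_iff.1 h4)
    (χ.2.isCharacter.mem_charKer.1 (h7 g.2))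

end Cfsg.Agent.S4711
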