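import Cfsg.Statements.S4712
import Mathlib
import Cfsg.Agent.H4.IB
import Cfsg.Agent.H4.Sub
import Cfsg.Agent.H4.Dim
import Cfsg.Agent.H4.BF
import Cfsg.Agent.H4.Col

set_option autoImplicit false
open Cfsg

open CfsgH3 CfsgH4
open scoped ComplexConjugate

namespace Cfsg.Agent.S4712

theorem trace_nat {G : Type*} [Group G] [Fintype G] {p : ℕ} [Fact p.Prime] {M : Ideal AlgInt}
    [PMod p M] {A : Set (IrrCharacter G)} (hA : fB A ∈ LG G M) {α : G →* G}
    (hα : Function.Injective α) [DecidablePred fun s : G => ¬ p ∣ orderOf s] :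
    ∃ n : ℕ, ∑ s with ¬ p ∣ orderOf s, colB A s (α s) = n := by
  classical
  choose m hm using fun j : Pim G M => Pim.exists_mult' (inc_mem_LG α j.prim.mem)
    (by rw [← map_mul, j.prim.idem])
  refine ⟨∑ j : Pim G M, if j.In A then Nat.card G * m j j else 0, ?_⟩
  have h1 : ∀ s, ¬ p ∣ orderOf s → colB A s (α s) =
      ∑ j : Pim G M, j.br0 (α s) * conj (blockPart A j.Phi s) := fun s hs => by
    simp only [colB_apply, blockPart_eq, map_sum, Finset.mul_sum, Pim.inner_Phi]
    rw [Finset.sum_comm]
    refine Finset.sum_congr rfl fun χ _ => ?_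
    split_ifs
    · rw [← rg_of_reg χ.1 (g := α s) (by rwa [orderOf_injective α hα]), Pim.rg_irr (M := M),
        Finset.sum_apply, Finset.sum_mul]
      exact Finset.sum_congr rfl fun j _ => by simp; ring
    · simp
  rw [Finset.sum_congr rfl fun s hs => h1 s (Finset.mem_filter.1 hs).2, Finset.sum_comm, Nat.cast_sum]
  refine Finset.sum_congr rfl fun j _ => ?_
  rw [Pim.blockPart_Phi hA]
  split_ifs
  · rw [Nat.cast_mul, ← (hm j).1 j, ev_inc, j.ev_class (j.isClass_br0.comp α), classInner,
      mul_inv_cancel_left₀ (natCard_ne_zero G)]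
    exact Finset.sum_filter_of_ne fun s _ h hs => h (by rw [j.Phi_sing hs]; simp)
  · simp

/-- Let p be an odd prime, M a maximal ideal of the algebraic integers containing p, G a finite group of order n with p-part p^a, and B a p-block of G. Call an irreducible character χ p-rational when χ(g^k) = χ(g) for every g and every k coprime to n with k ≡ 1 modulo n/p^a (χ is fixed by the Galois automorphisms fixing the roots of unity of order prime to p). Then the number of p-rational irreducible characters in B is at least the p-regular rank of B (the number of irreducible Brauer characters in B). -/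
theorem result {G : Type*} [Group G] [Finite G] (p : ℕ) [Fact p.Prime] (hodd : p ≠ 2) (M : Ideal Cfsg.AlgInt) (hM : Cfsg.IsPModular p M) (B : Set (Cfsg.IrrCharacter G)) (hB : Cfsg.IsPBlock M B) : Cfsg.blockRank p B ≤ Nat.card {χ : Cfsg.IrrCharacter G // χ ∈ B ∧ ∀ k : ℕ, Nat.Coprime k (Nat.card G) → k ≡ 1 [MOD Nat.card G / p ^ (Nat.card G).factorization p] → ∀ g : G, (χ : G → ℂ) (g ^ k) = (χ : G → ℂ) g} := by
  classical
  haveI : PMod p M := ⟨hM⟩
  haveI := Fintype.ofFinite G
  have hp : p.Prime := Fact.out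
  have h0 := (Nat.card_pos (α := G)).ne'
  have h1 := Nat.coprime_ordCompl hp h0
  have h2 := Nat.ordProj_mul_ordCompl_eq_self (Nat.card G) p
  set a := (Nat.card G).factorization p
  set m := Nat.card G / p ^ a
  obtain ⟨γ, hγ⟩ := (ZMod.isCyclic_units_of_prime_pow p hp hodd a).exists_monoid_generator
  obtain ⟨k, k1, k2⟩ := Nat.chineseRemainder (h1.pow_left a) (γ : ZMod (p ^ a)).val 1
  have hk : k.Coprime (Nat.card G) := h2 ▸ Nat.Coprime.mul_right
    (k1.gcd_eq.trans (ZMod.val_coe_unit_coprime γ)) (k2.gcd_eq.trans (Nat.gcd_one_left m))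
  have h3 : ∀ g : G, ¬ p ∣ orderOf g → g ^ k = g := fun g hg => by
    rw [← pow_one g, ← pow_mul, one_mul, pow_eq_pow_iff_modEq]
    exact k2.of_dvd (((hp.coprime_iff_not_dvd.2 hg).symm.pow_right a).dvd_of_dvd_mul_left
      (h2 ▸ orderOf_dvd_natCard g))
  have h4 : ∀ u : G, ∃ n : ℕ, ∑ g with ppart p g = u, colB B g (g ^ k) = n := fun u => by
    by_cases hu : ∃ j, orderOf u = p ^ j
    swap
    · exact ⟨0, (Finset.sum_eq_zero fun g hg => (hu (by
        rw [← (Finset.mem_filter.1 hg).2]; exact pelt_ppart p g)).elim).trans Nat.cast_zero.symm⟩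
    by_cases hc : IsConj (u ^ k) u
    swap
    · refine ⟨0, (Finset.sum_eq_zero fun g hg => colB_eq_zero hB.fB_mem ?_).trans Nat.cast_zero.symm⟩
      rwa [← zpow_natCast, ppart_zpow, (Finset.mem_filter.1 hg).2, zpow_natCast]
    obtain ⟨c, hc⟩ := isConj_iff.1 hc
    let α : Subgroup.centralizer {u} →* Subgroup.centralizer {u} :=
      ((MulAut.conj c).toMonoidHom.comp (Subgroup.subtype _)).codRestrict _ fun y =>
        Subgroup.mem_centralizer_singleton_iff.2 (by
          have := (Commute.pow_right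
            (Subgroup.mem_centralizer_singleton_iff.1 y.2) k).map (MulAut.conj c)
          rwa [MulAut.conj_apply c (u ^ k), hc] at this)
    have hα : Function.Injective α := fun x y e =>
      Subtype.ext ((MulAut.conj c).injective (congrArg Subtype.val e))
    obtain ⟨n, hn⟩ := trace_nat (fB_brSet_mem (M := M) (Subgroup.subtype _) B) hα
    refine ⟨n, (sum_ppart_fiber _ hu).trans (Eq.trans ?_ hn)⟩
    refine (Finset.sum_bij (fun (s : Subgroup.centralizer {u}) _ => (s : G)) (fun s hs => ?_)
      (fun _ _ _ _ => Subtype.ext)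
      (fun y hy => ?_) fun s hs => ?_).symm
    · exact Finset.mem_filter.2 ⟨Finset.mem_univ _, by
        simpa using (Finset.mem_filter.1 hs).2, (Subgroup.mem_centralizer_singleton_iff.1 s.2).symm⟩
    · exact ⟨⟨y, Subgroup.mem_centralizer_singleton_iff.2 (Finset.mem_filter.1 hy).2.2.symm⟩,
        Finset.mem_filter.2 ⟨Finset.mem_univ _, by simpa using (Finset.mem_filter.1 hy).2.1⟩, rfl⟩
    · have hs := (Finset.mem_filter.1 hs).2
      rw [← colB_cent rfl hu hB.fB_mem (by rwa [orderOf_injective α hα]) hs,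
        ← isClassFunction_colB B _ ((u * s) ^ k) c, (show Commute u s from
          (Subgroup.mem_centralizer_singleton_iff.1 s.2).symm).mul_pow, h3 s (by simpa using hs)]
      exact congrArg _ ((congrArg (· * _) hc.symm).trans (by simp [α]))
  choose n hn using h4
  have h5 : ∑ g, colB B g (g ^ k) = Nat.card G * Nat.card {χ : IrrCharacter G // χ ∈ B ∧
      (fun g => χ.1 (g ^ k)) = χ.1} := by
    simp only [colB_apply]
    rw [Finset.sum_comm, Nat.card_eq_fintype_card (α := Subtype _), Fintype.card_subtype,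
      Finset.card_filter, Nat.cast_sum, Finset.mul_sum]
    refine Finset.sum_congr rfl fun χ _ => ?_
    by_cases h : χ ∈ B
    · simp only [h, if_true, true_and]
      rw [← mul_inv_cancel_left₀ (natCard_ne_zero G) (∑ _, _)]
      refine congrArg _ (show classInner _ χ.1 = _ from ?_)
      split_ifs with e
      · rw [e, χ.2.classInner_self, Nat.cast_one]
      · rw [(χ.2.comp_pow hk).classInner_of_ne χ.2 e, Nat.cast_zero]
    · simp [h]
  have h6 : (Nat.card G : ℂ) * blockRank p B = n 1 := by
    rw [card_mul_blockRank hB.fB_mem, ← hn, Finset.sum_filter]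
    refine Finset.sum_congr rfl fun g _ => ?_
    by_cases h : p ∣ orderOf g
    · rw [rg_of_sing _ h, if_neg fun e => reg_rpart (p := p) g (by
        rwa [← ppart_mul_rpart (p := p) g, e, one_mul] at h)]
    · rw [rg_of_reg _ h, if_pos (ppart_of_reg h), h3 g h]
  rw [← Finset.sum_fiberwise Finset.univ (ppart p), Finset.sum_congr rfl fun u _ => hn u] at h5
  refine Nat.le_of_mul_le_mul_left (c := Nat.card G) ?_ Nat.card_pos
  rw [show Nat.card G * blockRank p B = n 1 by exact_mod_cast h6]
  rw [← Nat.cast_sum, ← Nat.cast_mul, Nat.cast_inj] at h5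
  refine ((Finset.single_le_sum (fun _ _ => Nat.zero_le _) (Finset.mem_univ 1)).trans
    h5.le).trans (Nat.mul_le_mul_left _ (Nat.card_le_card_of_injective
      (Subtype.map id fun χ ⟨b1, b2⟩ => ⟨b1, fun l l1 l2 g => ?_⟩)
      (Subtype.map_injective _ Function.injective_id)))
  obtain ⟨j, hj⟩ := hγ (ZMod.unitOfCoprime l (l1.coprime_dvd_right ⟨m, h2.symm⟩))
  have : g ^ l = g ^ k ^ j := pow_eq_pow_iff_modEq.2 (Nat.ModEq.of_dvd (orderOf_dvd_natCard g)
    (h2 ▸ (Nat.modEq_and_modEq_iff_modEq_mul (h1.pow_left a)).1 ⟨by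
      rw [← ZMod.natCast_eq_natCast_iff, Nat.cast_pow, (ZMod.natCast_eq_natCast_iff _ _ _).2 k1,
        ZMod.natCast_zmod_val, ← Units.val_pow_eq_pow_val, show γ ^ j = _ from hj]; rfl,
      l2.trans (by simpa using (k2.pow j).symm)⟩))
  rw [this]
  clear this hj
  induction j with
  | zero => simp
  | succ j ih => rw [pow_succ, pow_mul, ← ih]; exact congrFun b2 _

end Cfsg.Agent.S4712
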