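import Cfsg.Statements.S4714
import Mathlib
import Cfsg.Agent.H4.PC

set_option autoImplicit false
open Cfsg

open Cfsg CfsgH3 CfsgH4 CfsgH1 CfsgL0 MonoidAlgebra

namespace Cfsg.Agent.S4714

/-- Let p be a prime, M a maximal ideal of the algebraic integers containing p, D a p-subgroup of the finite group G with G = D·C_G(D), and B a p-block with defect group D. Let χ be a member of B having D in its kernel (there is exactly one, the canonical character of B). Then the irreducible characters in B are exactly the functions θ on G for which there is an irreducible character ζ of D such that θ(yx) = ζ(y)χ(x) whenever y ∈ D, x has order prime to p and x commutes with y, and θ(z) = 0 whenever the p-part of z does not lie in D. -/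
theorem result {G : Type*} [Group G] [Finite G] (p : ℕ) [Fact p.Prime] (M : Ideal Cfsg.AlgInt) (hM : Cfsg.IsPModular p M) (D : Subgroup G) (hD : IsPGroup p D) (hG : D ⊔ Subgroup.centralizer (D : Set G) = ⊤) (B : Set (Cfsg.IrrCharacter G)) (hB : Cfsg.IsPBlock M B) (hBD : Cfsg.IsDefectGroup p M B D) (χ : Cfsg.IrrCharacter G) (hχ : χ ∈ B) (hχD : ∀ y ∈ D, (χ : G → ℂ) y = (χ : G → ℂ) 1) : (∀ θ : Cfsg.IrrCharacter G, θ ∈ B ↔ ∃ ζ : Cfsg.IrrCharacter D, (∀ (y : D) (x : G), ¬ p ∣ orderOf x → Commute (y : G) x → (θ : G → ℂ) ((y : G) * x) = (ζ : D → ℂ) y * (χ : G → ℂ) x) ∧ (∀ z : G, (∀ y : G, Cfsg.IsPPart p z y → y ∉ D) → (θ : G → ℂ) z = 0)) ∧ ∀ ζ : Cfsg.IrrCharacter D, ∃ θ ∈ B, (∀ (y : D) (x : G), ¬ p ∣ orderOf x → Commute (y : G) x → (θ : G → ℂ) ((y : G) * x) = (ζ : D → ℂ) y * (χ : G → ℂ) x) ∧ (∀ z : G, (∀ y : G, Cfsg.IsPPart p z y → y ∉ D) → (θ : G → ℂ) z = 0) := by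
  haveI : PMod p M := ⟨hM⟩
  haveI := normal_of_sup_cent hG
  obtain ⟨Z, hZ, hs⟩ := hB.pc_structure hBD hG hχ hχD
  have h0 : ∀ θ ∈ B, ∀ z : G, (∀ y : G, IsPPart p z y → y ∉ D) → θ.1 z = 0 := fun θ hθ z hz =>
    hB.eq_zero_of_normal hBD hθ (hz _ (isPPart_ppart p z))
  have h1 : ∀ ζ : IrrCharacter D, ∃ θ ∈ B, (∀ (y : D) (x : G), ¬ p ∣ orderOf x → Commute (y : G) x →
      (θ : G → ℂ) ((y : G) * x) = (ζ : D → ℂ) y * (χ : G → ℂ) x) ∧
      (∀ z : G, (∀ y : G, IsPPart p z y → y ∉ D) → (θ : G → ℂ) z = 0) := by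
    intro ζ
    obtain ⟨θ, hθ, rfl⟩ := hZ.surjOn (Set.mem_univ ζ)
    exact ⟨θ, hθ, fun y x hx _ => (hs θ hθ).1 y x hx, h0 θ hθ⟩
  refine ⟨fun θ => ⟨fun hθ => ⟨Z θ, fun y x hx _ => (hs θ hθ).1 y x hx, h0 θ hθ⟩, ?_⟩, h1⟩
  rintro ⟨ζ, h2, h3⟩
  obtain ⟨θ', hθ', h4, h5⟩ := h1 ζ
  have : θ = θ' := by
    refine Subtype.ext (funext fun g => ?_)
    by_cases hg : ppart p g ∈ D
    · have e1 := h2 ⟨_, hg⟩ _ (reg_rpart p g) (commute_ppart_rpart p g)
      have e2 := h4 ⟨_, hg⟩ _ (reg_rpart p g) (commute_ppart_rpart p g)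
      simp only [ppart_mul_rpart] at e1 e2
      exact e1.trans e2.symm
    · have hz : ∀ y : G, IsPPart p g y → y ∉ D := fun y hy => by rwa [hy.eq_ppart]
      exact (h3 g hz).trans (h5 g hz).symm
  rwa [this]

end Cfsg.Agent.S4714
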