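import Cfsg.Statements.S4715
import Mathlib
import Cfsg.Agent.H4.KW
import Cfsg.Agent.H4.Rey

set_option autoImplicit false
open Cfsg

open Cfsg MonoidAlgebra CfsgL0 CfsgH4 Module
open CfsgH3 hiding cj cj_cj
open scoped ComplexConjugate

namespace Cfsg.Agent.S4715

local notation "C[" Q "]" => Subgroup.centralizer (SetLike.coe (Q : Subgroup _))
local notation "N[" Q "]" => Subgroup.normalizer (SetLike.coe (Q : Subgroup _))
local notation "Z[" u "]" => Subgroup.zpowers u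

section
variable {G : Type*} [Group G] [Fintype G] {M : Ideal AlgInt} {p : ℕ} [hM : PMod p M]
  [hp : Fact p.Prime] {P : Subgroup G} {e : (Res M)[G]} {B : Set (IrrCharacter G)}

open Classical in
theorem sum_fw (hP : Pr p P e) {z : G} (hz : z ∈ P) :
    ∑ u with ∃ x, Fuses p P e Z[z] x ∧ x * z * x⁻¹ = u, fw p P e u = 1 := by
  rw [Finset.sum_congr rfl (g := fun _ => fw p P e z) fun u hu => by
    obtain ⟨x, h1, rfl⟩ := (Finset.mem_filter.1 hu).2
    exact hP.fSt_fw z x h1, Finset.sum_const, nsmul_eq_mul, fw, ← mul_div_assoc, div_eq_one_iff_eq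
      (Nat.cast_ne_zero.2 (have : Nonempty {x // Fuses p P e Z[z] x} :=
        ⟨1, hP.fuses_of_cent (Subgroup.zpowers_le.2 hz) (one_mem _)⟩; Nat.card_pos.ne'))]
  norm_cast
  rw [Nat.card_eq_fintype_card (α := {x // Fuses p P e Z[z] x}), Fintype.card_subtype,
    Finset.card_eq_sum_card_fiberwise (s := Finset.univ.filter fun x => Fuses p P e Z[z] x)
    (f := fun x => x * z * x⁻¹) (t := Finset.univ.filter fun u => ∃ x, Fuses p P e Z[z] x ∧
      x * z * x⁻¹ = u) (fun x hx => by simpa using ⟨x, by simpa using hx, rfl⟩), ← smul_eq_mul,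
    ← Finset.sum_const]
  refine Finset.sum_congr rfl fun u hu => ?_
  obtain ⟨x, h1, rfl⟩ := (Finset.mem_filter.1 hu).2
  rw [Nat.card_eq_fintype_card, Fintype.card_subtype]
  refine Finset.card_bij (fun c _ => x * c) (fun c hc => ?_) (fun _ _ _ _ h => mul_left_cancel h)
    fun y hy => ⟨x⁻¹ * y, ?_, by simp⟩
  · have hc : c ∈ C[Z[z]] := (Finset.mem_filter.1 hc).2
    simp only [Finset.mem_filter, Finset.mem_univ, true_and]
    refine ⟨(hP.fuses_of_cent h1.le hc).mul hP ?_, ?_⟩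
    · rwa [mem_normalizer_iff_cj.1 (cent_le_norm _ hc)]
    · rw [mul_assoc x, mem_cent_zpowers.1 hc]; group
  · simp only [Finset.mem_filter, Finset.mem_univ, true_and] at hy ⊢
    refine mem_cent_zpowers.2 ?_
    calc x⁻¹ * y * z = x⁻¹ * (y * z * y⁻¹) * y := by group
      _ = _ := by rw [hy.2]; group

open Classical in
theorem card_le {b : (Res M)[G]} (hm : MaxPr p b P e) (u : G) :
    (Finset.univ.filter fun z => z ∈ P ⊓ C[P] ∧ ∃ x, Fuses p P e Z[z] x ∧ x * z * x⁻¹ = u).card ≤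
      (P ⊔ C[P]).relIndex (stab N[P] e) := by
  rcases Finset.eq_empty_or_nonempty (Finset.univ.filter fun z => z ∈ P ⊓ C[P] ∧
    ∃ x, Fuses p P e Z[z] x ∧ x * z * x⁻¹ = u) with h | ⟨z, h⟩
  · rw [h]; simp
  obtain ⟨-, hz, x, h1, rfl⟩ := Finset.mem_filter.1 h
  have hc : ∀ z ∈ P ⊓ C[P], P ≤ C[Z[z]] := fun z hz y hy => mem_cent_zpowers.2 (hz.2 y hy)
  rw [Subgroup.relIndex, Subgroup.index, Nat.card_eq_fintype_card, ← Finset.card_univ]
  refine Finset.card_le_card_of_surjOn (fun q => q.out.1 * z * q.out.1⁻¹) fun z' h' => ?_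
  obtain ⟨-, hz', y, h2, h3⟩ := Finset.mem_filter.1 h'
  have h4 : cj y Z[z'] = cj x Z[z] := by rw [cj_zpowers, cj_zpowers, h3]
  obtain ⟨f, h5, h6⟩ := h1.mul hm.pr (h4 ▸ h2.inv)
  have h7 : y⁻¹ * x * z * (y⁻¹ * x)⁻¹ = z' := by
    calc _ = y⁻¹ * (x * z * x⁻¹) * y := by group
      _ = _ := by rw [← h3]; group
  obtain ⟨t, ht, c, h8, h9⟩ := hm.exists_mul_of_cent h5 (hc z hz) h6 (by
    rw [cj_zpowers, h7]; exact hc z' hz')
  obtain ⟨k, hk⟩ := QuotientGroup.mk_out_eq_mul ((P ⊔ C[P]).subgroupOf (stab N[P] e)) ⟨t, ht⟩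
  have h10 : P ⊔ C[P] ≤ C[Z[z]] := sup_le (hc z hz) (cent_anti (Subgroup.zpowers_le.2 hz.1))
  refine ⟨(⟨t, ht⟩ : stab N[P] e), by simp, ?_⟩
  simp only [hk, Subgroup.coe_mul]
  rw [← h7, h9, mul_assoc t, mem_cent_zpowers.1 (show k.1.1 ∈ _ from h10 k.2), mul_assoc t c, mem_cent_zpowers.1 h8]
  group

theorem integral (hm : MaxPr p (eB M B) P e) (hB : IsPBlock M B) {χ : IrrCharacter G} (hχ : χ ∈ B)
    {z : G} (hz : z ∈ P ⊓ C[P]) : IsIntegral ℤ ((p : ℂ) ^ ((Nat.card G).factorization p -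
      (charDegree χ.1).factorization p) * cP p P e χ.1 χ.1 z) := by
  have hc : P ≤ C[Z[z]] := fun y hy => mem_cent_zpowers.2 (hz.2 y hy)
  have h1 := hm.pr.isIntegral_cP hz.1 (hm.isDef_cent_of_le (hm.pr.ple_dn
    (Subgroup.zpowers_le.2 hz.1)) hc) χ.2.isGen χ.2.isGen
  rw [hm.card_eq hB, sub_fact_eq (M := M) hχ, pow_add] at h1
  obtain ⟨β, -, -, h2⟩ := hm.exists_cP hB hz.1
  have := Fintype.ofFinite C[Z[z]]
  have hC : C[Z[z]] = Subgroup.centralizer ({z} : Set G) := centralizer_zpowers z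
  have hu : ∃ k, orderOf z = p ^ k := by
    simpa using IsPGroup.iff_orderOf.1 hm.pr.pgrp ⟨z, hz.1⟩
  have h3 := conj_ctr_eq_om (p := p) (u := z) (b := β) χ.1 χ
  rw [← h2 _ _ χ.2.isClassFunction, hm.pr.conj_cP hz.1 χ.2.isClassFunction χ.2.isClassFunction] at h3
  have h4 : IsIntegral ℤ (om χ.1 (mk fun g => conj (cmp p C[Z[z]] z β χ.1 g))) := by
    have := Fintype.ofFinite (ConjClasses G)
    rw [om_eq_sum χ.2.isClassFunction (inv_mk (isClassFunction_cmp _).conj)]
    exact IsIntegral.sum _ fun c _ => (isIntegral_conj (mem_ZI.1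
      (cmp_mem (M := M) hC hu (cs_of_gen χ.2.isGen) _))).mul (isIntegral_centralChar χ.2 _)
  obtain ⟨s, hs⟩ := Nat.ordProj_dvd (Nat.card G) p
  obtain ⟨n, hn⟩ := Nat.ordProj_dvd (charDegree χ.1) p
  have h5 : Nat.Coprime (p ^ blockHeight p B χ.1) s := Nat.Coprime.pow_left _ (by
    have := Nat.coprime_ordCompl hp.out (Nat.card_pos (α := G)).ne'
    rwa [Nat.div_eq_of_eq_mul_right (pow_pos hp.out.pos _) hs] at this)
  obtain ⟨a, b, hab⟩ := Nat.isCoprime_iff_coprime.2 h5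
  have h6 := congrArg (Int.cast : ℤ → ℂ) hab
  have h7 := congrArg (Nat.cast : ℕ → ℂ) hs
  have h8 := congrArg (Nat.cast : ℕ → ℂ) hn
  have h9 := congrArg (fun k => (p : ℂ) ^ k) (Nat.sub_add_cancel (fact_degree_le (p := p) χ))
  push_cast at h1 h6 h7 h8
  simp only [pow_add] at h9
  rw [← coe_charDegree χ.2.isCharacter, div_mul_eq_mul_div, eq_div_iff (by simp), h7, h8, ← h9] at h3
  have h10 := mul_left_cancel₀ (p_pow_ne_zero (M := M) ((charDegree χ.1).factorization p))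
    (show _ * (s * ((p : ℂ) ^ ((Nat.card G).factorization p - (charDegree χ.1).factorization p) *
      cP p P e χ.1 χ.1 z)) = _ * (n * om χ.1 (mk fun g => conj (cmp p C[Z[z]] z β χ.1 g))) by
      linear_combination h3)
  have h11 := ((isIntegral_intCast a).mul h1).add ((isIntegral_intCast b).mul
    ((isIntegral_natCast n).mul h4))
  rw [← h10] at h11
  refine (congrArg (IsIntegral ℤ) ?_).mp h11
  linear_combination ((p : ℂ) ^ ((Nat.card G).factorization p - (charDegree χ.1).factorization p) *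
    cP p P e χ.1 χ.1 z) * h6

theorem main (hm : MaxPr p (eB M B) P e) (hB : IsPBlock M B) {χ : IrrCharacter G} (hχ : χ ∈ B) :
    Nat.card (P ⊓ C[P] : Subgroup G) ≤ (P ⊔ C[P]).relIndex (stab N[P] e) *
      p ^ ((Nat.card G).factorization p - (charDegree χ.1).factorization p) := by
  classical
  have hc := χ.2.isClassFunction
  set r := (Nat.card G).factorization p - (charDegree χ.1).factorization p
  let w : G → ℕ := fun u => Nat.card C[Z[u]] * ((Nat.card G).factorial / Nat.card {x // Fuses p P e Z[u] x})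
  have hw : ∀ u ∈ P, (w u : ℂ) = (Nat.card G).factorial * fw p P e u := fun u hu => by
    have : Nonempty {x // Fuses p P e Z[u] x} :=
      ⟨1, hm.pr.fuses_of_cent (Subgroup.zpowers_le.2 hu) (one_mem _)⟩
    simp only [w, fw]
    rw [Nat.cast_mul, Nat.cast_div (Nat.dvd_factorial Nat.card_pos (Finite.card_subtype_le _))
      (Nat.cast_ne_zero.2 Nat.card_pos.ne')]
    ring
  obtain ⟨ψ, hψ, h0⟩ := exists_height_zero (p := p) hB.nonempty
  have h1 := sum_le_of_tp (Finset.univ.filter fun u => ∃ z ∈ P ⊓ C[P], ∃ x, Fuses p P e Z[z] x ∧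
    x * z * x⁻¹ = u) w (fun u => if u ∈ P then (p : ℂ) ^ r * cP p P e χ.1 χ.1 u else 0)
    (fun u => by
      split_ifs with h
      · exact (Nat.cast_pow (α := ℂ) p _ ▸ tp_natCast _).mul (hm.pr.tp_cP h χ.2.isGen)
      · exact Nat.cast_zero (R := ℂ) ▸ tp_natCast 0)
    (fun u hu => by
      obtain ⟨-, z, hz, x, h1, rfl⟩ := Finset.mem_filter.1 hu
      rw [if_pos h1.conj_mem, hm.pr.fSt_cP hc hc z x h1]
      exact integral hm hB hχ hz)
    (fun u hu => by
      obtain ⟨-, z, hz, x, h1, rfl⟩ := Finset.mem_filter.1 hu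
      rw [if_pos h1.conj_mem, hm.pr.fSt_cP hc hc z x h1]
      refine mul_ne_zero (p_pow_ne_zero (M := M) _) fun h2 => hm.cP_ne_zero_of_cent hB hz.1
        (fun y hy => mem_cent_zpowers.2 (hz.2 y hy)) hχ hψ h0 ?_
      obtain ⟨β, a1, -, a2⟩ := hm.exists_cP hB hz.1
      have := Fintype.ofFinite C[Z[z]]
      rw [a2 _ _ hc, ctr_eq_mm (centralizer_zpowers z) a1.1.fB_mem hc hc, mm_self_eq_zero] at h2
      rw [a2 _ _ hc, ctr, mm, h2, classInner_zero_left])
    (c := (Nat.card G).factorial * p ^ r) (by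
      have := hm.sum_cP hB hc hc
      rw [blockPart_irr_of_mem hχ, χ.2.classInner_self] at this
      push_cast
      rw [← mul_one (_ * _), ← this, Finset.mul_sum, Finset.sum_filter]
      refine Finset.sum_congr rfl fun u _ => ?_
      split_ifs with h
      · rw [hw u h]; ring
      · simp)
  refine Nat.le_of_mul_le_mul_left ?_ (Nat.factorial_pos (Nat.card G))
  rw [mul_left_comm]
  refine le_trans ?_ (Nat.mul_le_mul_left _ h1)
  have h2 : ∀ z ∈ P, ∑ u with ∃ x, Fuses p P e Z[z] x ∧ x * z * x⁻¹ = u, w u =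
      (Nat.card G).factorial := fun z hz => by
    apply Nat.cast_injective (R := ℂ)
    rw [← mul_one ((Nat.card G).factorial : ℂ), ← sum_fw hm.pr hz, Finset.mul_sum, Nat.cast_sum]
    refine Finset.sum_congr rfl fun u hu => hw u ?_
    obtain ⟨-, x, h1, rfl⟩ := Finset.mem_filter.1 hu
    exact h1.conj_mem
  rw [Nat.card_eq_fintype_card (α := (P ⊓ C[P] : Subgroup G)), Fintype.card_subtype, mul_comm,
    ← smul_eq_mul, ← Finset.sum_const, Finset.sum_congr rfl fun z hz =>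
      (h2 z (Finset.mem_filter.1 hz).2.1).symm, Finset.sum_comm' (t' := Finset.univ.filter fun u =>
      ∃ z ∈ P ⊓ C[P], ∃ x, Fuses p P e Z[z] x ∧ x * z * x⁻¹ = u) (s' := fun u => Finset.univ.filter
      fun z => z ∈ P ⊓ C[P] ∧ ∃ x, Fuses p P e Z[z] x ∧ x * z * x⁻¹ = u) (by
        simp only [Finset.mem_filter, Finset.mem_univ, true_and]
        exact fun z u => ⟨fun h => ⟨h, z, h⟩, fun h => h.1⟩), Finset.mul_sum]
  refine Finset.sum_le_sum fun u _ => ?_
  rw [Finset.sum_const, smul_eq_mul]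
  exact Nat.mul_le_mul_right _ (card_le hm u)

end

/-- Let p be a prime, M a maximal ideal of the algebraic integers containing p, B a p-block of the finite group G with defect group D of order p^d, H = D·C_G(D), b a block of H inducing B, T the stabilizer of b in N_G(D) and e = [T : H] the inertial index of B; let n be the integer with p^n ≤ e < p^(n+1) and p^c the order of the centre of D. Then every irreducible character in B has height h with h + c ≤ n + d. -/
theorem result {G : Type*} [Group G] [Finite G] (p : ℕ) [Fact p.Prime] (M : Ideal Cfsg.AlgInt) (hM : Cfsg.IsPModular p M) (B : Set (Cfsg.IrrCharacter G)) (hB : Cfsg.IsPBlock M B) (D : Subgroup G) (hBD : Cfsg.IsDefectGroup p M B D) (d : ℕ) (hDd : Nat.card D = p ^ d) (H : Subgroup G) (hH : H = D ⊔ Subgroup.centralizer (D : Set G)) (b : Set (Cfsg.IrrCharacter H)) (hind : Cfsg.IsInducedBlock M H b B) (T : Subgroup G) (hT : ∀ g : G, g ∈ T ↔ (g ∈ Subgroup.normalizer (D : Set G)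 ∧ ∀ θ ∈ b, ∀ θ' : Cfsg.IrrCharacter H, (∀ h h' : H, (h' : G) = g * h * g⁻¹ → (θ' : H → ℂ) h' = (θ : H → ℂ) h) → θ' ∈ b)) (e : ℕ) (he : H.relIndex T = e) (n : ℕ) (hn : p ^ n ≤ e ∧ e < p ^ (n + 1)) (c : ℕ) (hc : Nat.card (Subgroup.center D) = p ^ c) : ∀ χ ∈ B, Cfsg.blockHeight p B (χ : G → ℂ) + c ≤ n + d := by
  haveI : PMod p M := ⟨hM⟩
  have hp : p.Prime := Fact.out
  have := Fintype.ofFinite G
  subst hH
  intro χ hχ
  have h1 := main (CfsgH4.Cfsg.IsInducedBlock.maxPr_root hBD hind) hB hχ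
  have h2 := sub_fact_eq (p := p) (M := M) hχ
  obtain rfl : blockDefect p B = d :=
    Nat.pow_right_injective hp.two_le ((CfsgH4.Cfsg.IsDefectGroup.card_eq hB hBD).symm.trans hDd)
  have h3 : (D ⊔ C[D]).relIndex (stab N[D] (ie M _ b)) ≤ e := he ▸ Subgroup.relIndex_le_of_le_right
    (fun x hx => (hT x).2 ⟨hx.1, fun θ hθ θ' h => by
      obtain ⟨h4, h5⟩ := (stabilizesBlock_iff hind.1).2 ⟨norm_le_norm_sup_cent D hx.1, hx.2⟩
      obtain ⟨θ'', h6, h7⟩ := h5 θ hθ
      convert h6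
      ext y
      have h8 := CfsgL0.conj_mem_of_mem_normalizer (inv_mem h4) y.2
      rw [h ⟨_, h8⟩ y (by simp [mul_assoc]), h7 ⟨_, h8⟩ y (by simp [mul_assoc])]⟩)
    Subgroup.index_ne_zero_of_finite
  have h4 : Nat.card (D ⊓ C[D] : Subgroup G) = p ^ c := by
    rw [← hc, ← Subgroup.card_map_of_injective D.subtype_injective (K := Subgroup.center D)]
    congr 2
    ext x
    exact ⟨fun h => ⟨⟨x, h.1⟩, Subgroup.mem_center_iff.2 fun y => Subtype.ext (h.2 y y.2), rfl⟩,
      fun ⟨y, h, h'⟩ => h' ▸ ⟨y.2, fun z hz => congrArg Subtype.val (Subgroup.mem_center_iff.1 h ⟨z, hz⟩)⟩⟩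
  have h5 := (h4 ▸ h1).trans_lt (Nat.mul_lt_mul_of_lt_of_le (h3.trans_lt hn.2) le_rfl (pow_pos hp.pos _))
  rw [← pow_add, Nat.pow_lt_pow_iff_right hp.one_lt] at h5
  omega

end Cfsg.Agent.S4715
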