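import Cfsg.Statements.S4717
import Mathlib
import Cfsg.Agent.H4.Fong2

set_option autoImplicit false
open Cfsg

open Cfsg CfsgH3 CfsgH4 CfsgH1 CfsgL0 MonoidAlgebra

namespace Cfsg.Agent.S4717

/-- Let p be a prime, M a maximal ideal of the algebraic integers containing p, and r a natural number; say that a finite group X has deficiency class r when X has no non-principal p-block of defect ≥ r. If G has deficiency class r then so does the centralizer of every p-element of G; conversely, if r > 0 and the centralizer of every element of order p has deficiency class r, then G has deficiency class r. -/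
theorem result {G : Type*} [Group G] [Finite G] (p : ℕ) [Fact p.Prime] (M : Ideal Cfsg.AlgInt) (hM : Cfsg.IsPModular p M) (r : ℕ) : ((∀ B' : Set (Cfsg.IrrCharacter G), Cfsg.IsPBlock M B' → B' ≠ Cfsg.principalBlock M G → Cfsg.blockDefect p B' < r) → ∀ y : G, (∃ k : ℕ, orderOf y = p ^ k) → (∀ B' : Set (Cfsg.IrrCharacter ↥(Subgroup.centralizer ({y} : Set G))), Cfsg.IsPBlock M B' → B' ≠ Cfsg.principalBlock M ↥(Subgroup.centralizer ({y} : Set G)) → Cfsg.blockDefect p B' < r)) ∧ (0 < r → (∀ y : G, orderOf y = p → (∀ B' : Set (Cfsg.IrrCharacter ↥(Subgroup.centralizer ({y} : Set G))), Cfsg.IsPBlock M B' → B' ≠ Cfsg.principalBlock M ↥(Subgroup.centralizer ({y} : Set G)) → Cfsg.blockDefect p B' < r)) → (∀ B' : Set (Cfsg.IrrCharacter G), Cfsg.IsPBlock M B' → B' ≠ Cfsg.principalBlock M G → Cfsg.blockDefect p B' < r)) := by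
  haveI : PMod p M := ⟨hM⟩
  have hp : p.Prime := Fact.out
  have := Fintype.ofFinite G
  classical
  refine ⟨fun h y hy b hb hne => ?_, fun hr h B hB hne => ?_⟩
  · obtain ⟨B, hB⟩ := (brLoc_cent_pelt hy).exists_isInducedBlock hb
    obtain ⟨D, hD⟩ := hb.exists_defectGroup
    obtain ⟨E, hE, h1⟩ := hB.indB.exists_isDef_ge (Subgroup.subtype_injective _) hb hB.2.1 hD
    refine lt_of_le_of_lt ?_ (h B hB.2.1 fun h2 =>
      hne ((hB.indB.principal_iff (Subgroup.subtype_injective _) hb hB.2.1).1 h2))
    have h2 := Subgroup.card_le_of_le h1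
    rwa [Subgroup.card_map_of_injective (Subgroup.subtype_injective _), hD.card_eq hb,
      hE.card_eq hB.2.1, Nat.pow_le_pow_iff_right hp.one_lt] at h2
  · obtain ⟨D, hD⟩ := hB.exists_defectGroup
    by_contra! h1
    have h2 : Nontrivial D := Finite.one_lt_card_iff_nontrivial.1 (by
      rw [hD.card_eq hB]; exact Nat.one_lt_pow (by omega) hp.one_lt)
    haveI h0 := hD.isPGroup.center_nontrivial
    obtain ⟨n, hn, h3⟩ := (hD.isPGroup.to_subgroup (Subgroup.center D)).nontrivial_iff_card.1 h0
    obtain ⟨z, hz⟩ := exists_prime_orderOf_dvd_card' (G := Subgroup.center D) p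
      (h3 ▸ dvd_pow_self p hn.ne')
    have h4 : orderOf ((z : D) : G) = p := by rw [Subgroup.orderOf_coe, Subgroup.orderOf_coe, hz]
    have h5 : ∃ k, orderOf ((z : D) : G) = p ^ k := ⟨1, by simpa using h4⟩
    have hD' := hB.isDefectGroup_iff.1 hD
    have h6 : D ≤ Subgroup.centralizer ({((z : D) : G)} : Set G) := fun x hx =>
      Subgroup.mem_centralizer_singleton_iff.2
        (congrArg Subtype.val (Subgroup.mem_center_iff.1 z.2 ⟨x, hx⟩))
    have h7 : Subgroup.zpowers ((z : D) : G) ≤ D := by simp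
    obtain ⟨f, hf, h8⟩ := exists_blk_br_mul_ne_zero (N := Subgroup.centralizer ({((z : D) : G)} : Set G))
      le_rfl D hD'.ne
    obtain ⟨b, hb, rfl⟩ := hf.exists_ie
    have hl := brLoc_cent_pelt h5
    have h9 : IsInducedBlock M _ b B := (hl.isInducedBlock_iff_ne hb hB).2 fun h9 => h8 (by
      have := congrArg (br D) h9
      rw [br_mul' hD'.pgrp ((inv_eB B).top.br (h6.trans hl.le_norm)) (hf.inv.mono h6), map_zero,
        br_br_of_le h7] at this
      rw [← br_br_of_le h7 (eB M B), ← br_mul' hD'.pgrp (hf.inv.mono h6)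
        ((inv_eB B).top.br (h6.trans hl.le_norm)), ZA_comm le_rfl hf.mem (hl.br_mem (inv_eB B).top),
        br_mul' hD'.pgrp ((inv_eB B).top.br (h6.trans hl.le_norm)) (hf.inv.mono h6), br_br_of_le h7,
        this])
    obtain ⟨E, hE⟩ := hf.exists_isDef (p := p) le_rfl Subgroup.le_normalizer
    have h10 := hE.card_le h6 hD'.pgrp (left_ne_zero_of_mul h8)
    rw [← card_subgroupOf_of_le hE.le, ((hb.isDefectGroup_ie_iff hE.le).2 hE).card_eq hb,
      hD.card_eq hB, Nat.pow_le_pow_iff_right hp.one_lt] at h10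
    have := h _ h4 b hb fun h2 =>
      hne ((h9.indB.principal_iff (Subgroup.subtype_injective _) hb hB).2 h2)
    omega

end Cfsg.Agent.S4717
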