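import Cfsg.Statements.S4719
import Mathlib
import Cfsg.Agent.H4.Lan
import Cfsg.Agent.H4.Sub

set_option autoImplicit false
universe u
open Cfsg

open Cfsg CfsgH4 CfsgH1 CfsgL0 MonoidAlgebra Function
open CfsgH3 hiding cj cj_cj
open scoped ComplexConjugate Pointwise

namespace Cfsg.Agent.S4719

theorem aux (a : ℕ) : ∃ N : ℕ, ∀ (G : Type u) [Group G] [Finite G] (M : Ideal AlgInt) (r : ℕ),
    IsPModular 2 M → (Nat.card G).factorization 2 ≤ a →
    (∀ B : Set (IrrCharacter G), IsPBlock M B → B ≠ principalBlock M G → blockDefect 2 B < r) →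
    (∃ E : Subgroup G, (∀ x ∈ E, x * x = 1) ∧ Nat.card E = 2 ^ (r + 1)) → Nat.card G ≤ N := by
  induction a with
  | zero =>
    refine ⟨0, fun G _ _ M r _ ha _ ⟨E, _, hE⟩ => ?_⟩
    have := (Nat.prime_two.pow_dvd_iff_le_factorization Nat.card_pos.ne').1
      (hE ▸ E.card_subgroup_dvd_card)
    omega
  | succ a ih =>
    obtain ⟨N1, h1⟩ := ih
    obtain ⟨N0, h0⟩ := single_block_bound.{u} 2 (a + 1)
    obtain ⟨N2, h2⟩ := four_group_bound.{u} (6 * N1 + (a + 1))
    refine ⟨N0 + N2, fun G _ _ M r hM ha hB ⟨E, hE, hc⟩ => ?_⟩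
    haveI : PMod 2 M := ⟨hM⟩
    rcases r with _ | r
    · refine le_add_right (h0 G M hM ha fun B hb => ?_)
      by_contra h
      exact Nat.not_lt_zero _ (hB B hb h)
    have hcomm : ∀ x ∈ E, ∀ y ∈ E, x * y = y * x := fun x hx y hy => by
      have e1 := inv_eq_of_mul_eq_one_right (hE _ (mul_mem hx hy))
      rw [← e1, mul_inv_rev, inv_eq_of_mul_eq_one_right (hE x hx),
        inv_eq_of_mul_eq_one_right (hE y hy)]
    have key : ∀ t ∈ E, t ≠ 1 → Nat.card (Subgroup.centralizer ({t} : Set G)) ≤ 2 * N1 := by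
      intro t ht ht1
      obtain ⟨C, hC⟩ : ∃ C, C = Subgroup.centralizer ({t} : Set G) := ⟨_, rfl⟩
      rw [← hC]
      have ho : orderOf t = 2 := orderOf_eq_prime (by rw [pow_two, hE t ht]) ht1
      have hEC : E ≤ C := fun x hx => by
        rw [hC, Subgroup.mem_centralizer_singleton_iff]; exact hcomm x hx t ht
      obtain ⟨Z, hZ⟩ : ∃ Z : Subgroup C, Z = Subgroup.zpowers ⟨t, self_mem_of_eq_cent hC⟩ :=
        ⟨_, rfl⟩
      have hZc : Z ≤ Subgroup.center C := by
        rw [hZ, Subgroup.zpowers_le]; exact mem_center_of_eq_cent hC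
      haveI : Z.Normal := ⟨fun z hz g => by
        rw [Subgroup.mem_center_iff.1 (hZc hz) g, mul_inv_cancel_right]; exact hz⟩
      have hZ2 : Nat.card Z = 2 := by rw [hZ, Nat.card_zpowers, Subgroup.orderOf_mk, ho]
      have hZp : IsPGroup 2 Z := IsPGroup.of_card (n := 1) hZ2
      have hs := QuotientGroup.mk'_surjective Z
      have hker : (QuotientGroup.mk' Z).ker = Z := QuotientGroup.ker_mk' Z
      have hp : IsPGroup 2 (QuotientGroup.mk' Z).ker := by rw [hker]; exact hZp
      have hcc : ∀ x : C, ¬ 2 ∣ orderOf x →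
          x ∈ Subgroup.centralizer ((QuotientGroup.mk' Z).ker : Set C) := fun x _ z hz => by
        rw [hker] at hz
        exact (Subgroup.mem_center_iff.1 (hZc hz) x).symm
      have hmap : ∀ P : Subgroup C, Z ≤ P →
          Nat.card (P.map (QuotientGroup.mk' Z)) * 2 = Nat.card P := fun P hP => by
        rw [← CfsgH1.card_map_mul_card_inf_ker (QuotientGroup.mk' Z) P, hker, inf_eq_left.2 hP, hZ2]
      rw [Z.card_eq_card_quotient_mul_card_subgroup, hZ2, mul_comm]
      refine Nat.mul_le_mul_left 2 (h1 (C ⧸ Z) M r hM ?_ (fun A hA hne => ?_)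
        ⟨(E.subgroupOf C).map (QuotientGroup.mk' Z), ?_, ?_⟩)
      · have e1 := fact_card_eq_add 2 Z
        have e2 := fact_card_eq_add 2 C
        rw [hZ2, Subgroup.index_eq_card, Nat.Prime.factorization_self Nat.prime_two] at e1
        omega
      · obtain ⟨b, hb, hAb⟩ := hA.exists_dom hs
        have hb' := hb.comap_of_pker hs hp hcc
        obtain ⟨χ, hχ⟩ := hA.nonempty
        obtain rfl := hA.eq_of_mem hb' hχ (hAb hχ)
        obtain ⟨B, hbB⟩ := (brLoc_of_eq_cent (p := 2) hC ⟨1, ho⟩).exists_isInducedBlock hb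
        have := Fintype.ofFinite G
        have := Fintype.ofFinite C
        have e0 := IndB.principal_iff C.subtype_injective hbB.indB hb hbB.2.1
        have e1 := hB B hbB.2.1 fun h => hne (by
          rw [e0.1 h, principal_comap_of_pker hs hp hcc])
        obtain ⟨P, hP⟩ := hb.exists_defectGroup (p := 2)
        obtain ⟨Q, hQ, hPQ⟩ := hbB.indB.exists_isDef_ge C.subtype_injective hb hbB.2.1 hP
        have e2 := (hP.map_of_comap hs hp hb hA).fact_card hA
        have e3 := hQ.fact_card hbB.2.1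
        have e4 := hmap P ((hb.isDefectGroup_iff.1 hP).normal_le (eB_mem_ZA _) hb.eB_idem hZp
          le_top (by rw [Subgroup.normalizer_eq_top]))
        have e5 : Nat.card P ∣ Nat.card Q := by
          rw [← Subgroup.card_map_of_injective C.subtype_injective]
          exact Subgroup.card_dvd_of_le hPQ
        have e6 := (Nat.factorization_le_iff_dvd Nat.card_pos.ne' Nat.card_pos.ne').2 e5 2
        rw [← e4, Nat.factorization_mul Nat.card_pos.ne' two_ne_zero, Finsupp.add_apply,
          Nat.Prime.factorization_self Nat.prime_two] at e6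
        omega
      · rintro _ ⟨x, hx, rfl⟩
        rw [← map_mul, show x * x = 1 from Subtype.ext (hE x hx), map_one]
      · have e1 := hmap (E.subgroupOf C) (by rw [hZ, Subgroup.zpowers_le]; exact ht)
        rw [Nat.card_congr (Subgroup.subgroupOfEquivOfLe hEC).toEquiv, hc, pow_succ] at e1
        omega
    have h4 : 2 < Nat.card E := by
      rw [hc, pow_succ, pow_succ]
      have := Nat.two_pow_pos r
      omega
    obtain ⟨s, hs, hs1⟩ : ∃ s ∈ E, s ≠ 1 := by
      by_contra! h
      rw [(Subgroup.eq_bot_iff_forall E).2 h] at h4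
      simp at h4
    obtain ⟨t, ht, ht1⟩ : ∃ t ∈ E, t ∉ Subgroup.zpowers s := by
      by_contra! h
      have := Subgroup.card_le_of_le (show E ≤ _ from h)
      rw [Nat.card_zpowers, orderOf_eq_prime (p := 2) (by rw [pow_two, hE s hs]) hs1] at this
      omega
    have hst : s * t ≠ 1 := fun h => ht1 (by
      rw [eq_inv_of_mul_eq_one_right h]; exact inv_mem (Subgroup.mem_zpowers s))
    have ht2 : t ≠ 1 := by rintro rfl; exact ht1 (one_mem _)
    refine le_add_left (h2 G s t (hE s hs) (hE t ht) (hcomm s hs t ht) hs1 ht2 hst ?_)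
    have := key s hs hs1
    have := key t ht ht2
    have := key _ (mul_mem hs ht) hst
    omega

/-- For every natural number a there is a bound N with the following property. Let G be a finite group with Sylow 2-subgroups of order 2^a and r ≥ 0 such that G has no non-principal 2-block (relative to a maximal ideal of the algebraic integers containing 2) of defect ≥ r, and suppose a Sylow 2-subgroup of G contains an elementary abelian subgroup of order 2^(r+1). Then the order of G is at most N. -/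
theorem result (a : ℕ) : ∃ N : ℕ, ∀ (G : Type u) [Group G] [Finite G] (M : Ideal Cfsg.AlgInt) (r : ℕ) (P : Sylow 2 G), Cfsg.IsPModular 2 M → Nat.card P = 2 ^ a → (∀ B : Set (Cfsg.IrrCharacter G), Cfsg.IsPBlock M B → B ≠ Cfsg.principalBlock M G → Cfsg.blockDefect 2 B < r) → (∃ E : Subgroup G, E ≤ (P : Subgroup G) ∧ IsMulCommutative E ∧ (∀ x ∈ E, x * x = 1) ∧ Nat.card E = 2 ^ (r + 1)) → Nat.card G ≤ N := by
  obtain ⟨N, hN⟩ := aux.{u} a
  refine ⟨N, fun G _ _ M r P hM hP hB ⟨E, _, _, h1, h2⟩ => hN G M r hM ?_ hB ⟨E, h1, h2⟩⟩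
  rw [P.card_eq_multiplicity] at hP
  exact (Nat.pow_right_injective le_rfl hP).le

end Cfsg.Agent.S4719
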