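import Cfsg.Statements.S4720
import Mathlib
import Cfsg.Agent.H4.Real

set_option autoImplicit false
open Cfsg

open Cfsg CfsgH3 CfsgH4 CfsgH1 CfsgL0 MonoidAlgebra

namespace Cfsg.Agent.S4720

/-- Let p be a prime, M a maximal ideal of the algebraic integers containing p, P a p-subgroup of the finite group G, N a subgroup with P ≤ N ≤ N_G(P), and U a nonempty subset of P normalized by N such that an element of U and an element of P that are conjugate in G are already conjugate in N, and such that λ(C_G(y)) = w·#C_N(y) for every y ∈ U with one rational number w, where λ(X) denotes the sum of the squares of the degrees of the irreducible characters in the principal p-block of X. For a complex function θ on P and χ in the principal block of G put a_χ(θ) = #P⁻¹ Σ_{y ∈ P} χ(y) θ(y⁻¹). Then for generalized characters θ, η of P with θ vanishing outside U, Σ_χ a_χ(θ)·conj(a_χ(η)) = (w/#P²)·Σ_{y ∈ P} θ(y)·conj(Σ_{x ∈ N} η(x y x⁻¹)) (η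 extended by zero off P; the conjugates lie in P), the first sum over the principal p-block of G. -/
theorem result {G : Type*} [Group G] [Finite G] (p : ℕ) [Fact p.Prime] (M : Ideal Cfsg.AlgInt) (hM : Cfsg.IsPModular p M) (P : Subgroup G) (hP : IsPGroup p P) (N : Subgroup G) (hPN : P ≤ N) (hNN : N ≤ Subgroup.normalizer (P : Set G)) (U : Set G) (hUne : U.Nonempty) (hUP : U ⊆ (P : Set G)) (hUN : ∀ n ∈ N, ∀ u ∈ U, n * u * n⁻¹ ∈ U) (hfus : ∀ u ∈ U, ∀ g : G, g * u * g⁻¹ ∈ (P : Set G) → ∃ n ∈ N, n * u * n⁻¹ = g * u * g⁻¹) (w : ℚ) (hw : ∀ y ∈ U, ((∑ᶠ ψ ∈ Cfsg.principalBlock M ↥(Subgroup.centralizer ({y} : Set G)), Cfsg.charDegree (ψ : ↥(Subgroup.centralizer ({y} : Set G)) → ℂ) ^ 2) : ℚ) = w * Nat.card ↥(N ⊓ Subgroup.centralizer ({y} : Set G))) (θ η : ↥P → ℂ) (hθ : Cfsg.IsGeneralizedCharacter ↥P θ) (hη : Cfsg.IsGeneralizedCharacter ↥P η) (hθU : ∀ y : ↥P, (y : G) ∉ U → θ y = 0) : ∑ᶠ χ ∈ Cfsg.principalBlock M G, ((Nat.card ↥P : ℂ)⁻¹ *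 ∑ᶠ y : ↥P, (χ : G → ℂ) (y : G) * θ y⁻¹) * (starRingEnd ℂ) ((Nat.card ↥P : ℂ)⁻¹ * ∑ᶠ y : ↥P, (χ : G → ℂ) (y : G) * η y⁻¹) = ((w : ℂ) / ((Nat.card ↥P : ℂ) ^ 2)) * ∑ᶠ y : ↥P, θ y * (starRingEnd ℂ) (∑ᶠ x : ↥N, Cfsg.extendByZero P η ((x : G) * (y : G) * (x : G)⁻¹)) := by
  classical
  haveI : PMod p M := ⟨hM⟩
  have := Fintype.ofFinite G
  have hp : ∀ y : P, ∃ k, orderOf (y : G) = p ^ k := fun y => by
    rw [Subgroup.orderOf_coe]; exact IsPGroup.iff_orderOf.1 hP y
  have key : ∀ y : P, θ y * ∑ z : P, (starRingEnd ℂ) (η z) * colB (principalBlock M G) y z =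
      w * (θ y * (starRingEnd ℂ) (∑ᶠ x : N, extendByZero P η ((x : G) * (y : G) * (x : G)⁻¹))) := by
    intro y
    by_cases hy : (y : G) ∈ U
    swap
    · rw [hθU y hy]; simp
    rw [mul_left_comm]
    congr 1
    have h1 : colB (principalBlock M G) y y =
        w * Nat.card (N ⊓ Subgroup.centralizer ({(y : G)} : Set G) : Subgroup G) := by
      rw [colB_principal_pelt (hp y), colB_one_one]
      have := hw y hy
      rw [finsum_mem_irr] at this ⊢
      have h2 := congrArg (Rat.cast : ℚ → ℂ) this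
      push_cast [apply_ite (Rat.cast : ℚ → ℂ)] at h2 ⊢
      exact h2
    rw [finsum_eq_sum_of_fintype, sum_conj_eq, nsmul_eq_mul, map_mul, map_natCast, ← mul_assoc, ← h1,
      map_sum, Finset.mul_sum, Finset.sum_filter,
      ← sum_extendByZero_mul (fun z => (starRingEnd ℂ) (η z)) (colB (principalBlock M G) y)]
    refine Finset.sum_congr rfl fun z _ => ?_
    rw [extendByZero_map]
    split_ifs with hz
    · obtain ⟨n, -, rfl⟩ := hz
      rw [isClassFunction_colB, mul_comm]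
    · by_cases hzP : z ∈ P
      · rw [colB_eq_zero (p := p) isPBlock_principal.fB_mem, mul_zero]
        rw [ppart_of_pelt (hp y), ppart_of_pelt (hp ⟨z, hzP⟩)]
        intro h
        obtain ⟨c, rfl⟩ := isConj_iff.1 h.symm
        exact hz (hfus y hy c hzP)
      · rw [extendByZero_of_not_mem _ hzP, map_zero, zero_mul]
  have h2 : ∀ χ : IrrCharacter G, ((Nat.card P : ℂ)⁻¹ * ∑ᶠ y : P, χ.1 y * θ y⁻¹) *
      (starRingEnd ℂ) ((Nat.card P : ℂ)⁻¹ * ∑ᶠ y : P, χ.1 y * η y⁻¹) = ((Nat.card P : ℂ) ^ 2)⁻¹ *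
      ∑ y : P, θ y * ∑ z : P, (starRingEnd ℂ) (η z) * (χ.1 z * (starRingEnd ℂ) (χ.1 y)) := by
    intro χ
    obtain ⟨a, ha⟩ := hθ.ind.exists_int_classInner χ.2.isGen
    obtain ⟨b, hb⟩ := hη.ind.exists_int_classInner χ.2.isGen
    rw [← avg_eq_inner hθ χ.2.isGen] at ha
    rw [← avg_eq_inner hη χ.2.isGen] at hb
    have h3 : ((Nat.card P : ℂ)⁻¹ * ∑ᶠ y : P, χ.1 y * θ y⁻¹) =
        (starRingEnd ℂ) ((Nat.card P : ℂ)⁻¹ * ∑ᶠ y : P, χ.1 y * θ y⁻¹) := by
      rw [ha, map_intCast]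
    rw [h3, hb, map_intCast, ← hb, finsum_eq_sum_of_fintype, finsum_eq_sum_of_fintype, map_mul,
      map_inv₀, map_natCast, map_sum, mul_mul_mul_comm, ← mul_inv, ← sq, Finset.sum_mul]
    congr 1
    refine Finset.sum_congr rfl fun y _ => ?_
    rw [Finset.mul_sum, Finset.mul_sum]
    refine Finset.sum_congr rfl fun z _ => ?_
    rw [map_mul, hθ.apply_inv, hη.apply_inv, Complex.conj_conj]
    ring
  simp only [h2]
  rw [finsum_mem_irr, finsum_eq_sum_of_fintype, div_eq_mul_inv, mul_comm (w : ℂ), mul_assoc,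
    Finset.mul_sum, ← Finset.sum_congr rfl fun y _ => key y]
  simp only [colB_apply, Finset.mul_sum]
  rw [Finset.sum_congr rfl fun y _ => Finset.sum_comm, Finset.sum_comm]
  refine Finset.sum_congr rfl fun χ _ => ?_
  split_ifs <;> simp

end Cfsg.Agent.S4720
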