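import Cfsg.Statements.S4721
import Mathlib
import Cfsg.Agent.H4.Fr3

set_option autoImplicit false
open Cfsg

open Cfsg CfsgH4 CfsgH1 CfsgL0 MonoidAlgebra Function
open CfsgH3 hiding cj cj_cj
open scoped ComplexConjugate Pointwise

namespace Cfsg.Agent.S4721

/-- Let p be a prime, M a maximal ideal of the algebraic integers containing p, and G a finite group with a nontrivial abelian Sylow p-subgroup P, N = N_G(P), C = C_G(P), such that N/C is cyclic of order 3, #P > 4, and C_G(y) ∩ N = C for every non-identity y ∈ P. Then the principal p-block is the disjoint union of a set X of exactly 3 characters containing the principal character and a set Y of (#P − 1)/3 characters, with signs a_χ = ±1 (χ ∈ X, a = 1 at the principal character) and δ = ±1 such that every χ ∈ X takes the value a_χ at every element whose p-part is a non-identity element of P, and there is a map ζ from the non-principal linear characters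 of P onto Y, constant on N-conjugacy classes, with ζ_ψ(z) = δ·Σ ψ'(y) over the N-orbit of ψ, for z with p-part y ≠ 1 in P. If moreover G has an involution lying in no proper normal subgroup of G, then exactly two of the three numbers −δ and a_χ (χ ∈ X non-principal) equal −1, and the product of the degrees of the two non-principal members of X and of any member of Y is a perfect square. -/
theorem result {G : Type*} [Group G] [Finite G] (p : ℕ) [Fact p.Prime] (M : Ideal Cfsg.AlgInt) (hM : Cfsg.IsPModular p M) (P : Sylow p G) (hab : IsMulCommutative P) (hP1 : Nat.card P ≠ 1) (hCN : (Subgroup.centralizer ((P : Subgroup G) : Set G)).relIndex (Subgroup.normalizer ((P : Subgroup G) : Set G)) = 3) (hcyc : ∃ g : G, g ∈ Subgroup.normalizer ((P : Subgroup G) : Set G) ∧ Subgroup.centralizer ((P : Subgroup G) : Set G) ⊔ Subgroup.zpowers g = Subgroup.normalizer ((P : Subgroup G) : Set G)) (hm2 : 3 + 1 < Nat.card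 P) (hfrob : ∀ y : G, y ∈ (P : Subgroup G) → y ≠ 1 → Subgroup.centralizer ({y} : Set G) ⊓ Subgroup.normalizer ((P : Subgroup G) : Set G) = Subgroup.centralizer ((P : Subgroup G) : Set G)) : ∃ (X Y : Set (Cfsg.IrrCharacter G)), Cfsg.principalBlock M G = X ∪ Y ∧ Disjoint X Y ∧ Nat.card X = 3 ∧ Nat.card Y = (Nat.card P - 1) / 3 ∧ (∃ χ₁ ∈ X, (χ₁ : G → ℂ) = fun _ => 1) ∧ ∃ (a : Cfsg.IrrCharacter G → ℤ) (δ : ℤ) (ζ : (↥(P : Subgroup G) →* ℂˣ) → Cfsg.IrrCharacter G), (δ = 1 ∨ δ = -1) ∧ (∀ χ ∈ X, (a χ = 1 ∨ a χ = -1) ∧ ∀ z y : G, Cfsg.IsPPart p z y → y ∈ (P : Subgroup G) → y ≠ 1 → (χ : G → ℂ) z = (a χ : ℂ)) ∧ (∀ ψ : ↥(P : Subgroup G) →* ℂˣ, ψ ≠ 1 → ζ ψ ∈ Y) ∧ (∀ η ∈ Y, ∃ ψ : ↥(P : Subgroup G) →* ℂˣ, ψ ≠ 1 ∧ ζ ψ = η) ∧ (∀ ψ ψ' : ↥(P : Subgroup G) →* ℂˣ, ψ ≠ 1 → (∃ n : G, n ∈ Subgroup.normalizer ((P : Subgroup G) : Set G) ∧ ∀ w w' : ↥(P : Subgroup G), (w' : G) = n * w * n⁻¹ → ψ' w' = ψ w) → ζ ψ' = ζ ψ) ∧ (∀ ψ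 : ↥(P : Subgroup G) →* ℂˣ, ψ ≠ 1 → ∀ (z : G) (y : ↥(P : Subgroup G)), Cfsg.IsPPart p z (y : G) → (y : G) ≠ 1 → (ζ ψ : G → ℂ) z = (δ : ℂ) * ∑ᶠ ψ' ∈ {ψ' : ↥(P : Subgroup G) →* ℂˣ | ∃ n : G, n ∈ Subgroup.normalizer ((P : Subgroup G) : Set G) ∧ ∀ w w' : ↥(P : Subgroup G), (w' : G) = n * w * n⁻¹ → ψ' w' = ψ w}, ((ψ' y : ℂˣ) : ℂ)) ∧ ((∃ t : G, orderOf t = 2 ∧ ∀ K : Subgroup G, K.Normal → t ∈ K → K = ⊤) → Nat.card {χ : Cfsg.IrrCharacter G // χ ∈ X ∧ (χ : G → ℂ) ≠ (fun _ => 1) ∧ a χ = -1} + (if δ = 1 then 1 else 0) = 2 ∧ ∀ η ∈ Y, IsSquare (Cfsg.charDegree (η : G → ℂ) * ∏ᶠ χ ∈ {χ : Cfsg.IrrCharacter G | χ ∈ X ∧ (χ : G → ℂ) ≠ fun _ => 1}, Cfsg.charDegree (χ : G → ℂ))) := by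
  classical
  haveI : PMod p M := ⟨hM⟩
  have := Fintype.ofFinite G
  have h : FP p (P : Subgroup G) := ⟨isSylowIn_top P, Subgroup.le_centralizer_iff_isMulCommutative.2 hab,
    fun u hu h1 => (hfrob u hu h1).le⟩
  obtain ⟨χ, ψ, y, a, δ, hF, a1, a2, a3, a4, a5, a6⟩ := h.exists_three M hCN hm2
  have a7 := hF.card
  rw [h.card M, hCN] at a7
  have a8 : ∀ η : IrrCharacter G, (η ∈ ({irrOne G, χ, ψ} : Finset _) ∧ η.1 ≠ fun _ => 1) ↔
      η ∈ ({χ, ψ} : Finset _) := fun η => by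
    rw [show (η.1 ≠ fun _ => 1) ↔ η ≠ irrOne G from (Subtype.ext_iff (a2 := irrOne G)).not.symm]
    simp only [Finset.mem_insert, Finset.mem_singleton]
    exact ⟨fun h => h.1.resolve_left h.2, fun h => ⟨.inr h, by rcases h with rfl | rfl; exacts [a1.symm, a2.symm]⟩⟩
  refine ⟨({irrOne G, χ, ψ} : Finset _), exc y, Set.ext hF.mem,
    Finset.disjoint_coe.2 (Finset.disjoint_right.2 ?_), ?_, by rw [← a7]; simp, ⟨irrOne G, by simp, rfl⟩,
    a, δ, y, hF.sgn, fun η hη => ⟨?_, fun z v hz hv h1 =>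
      (h.val ((hF.mem η).2 (.inl hη)) hz hv h1).trans (h.dX hF hη hv h1)⟩,
    fun l hl => mem_exc.2 ⟨l, hl, rfl⟩, fun η hη => mem_exc.1 hη, fun l k hl hk =>
      ((hF.eq_iff _ _ hl ((h.orb_iff (M := M).2 hk).ne_one hl)).2 (h.orb_iff.2 hk)).symm,
    fun l hl z v hz hv => ?_, fun ⟨t, ht, hK⟩ => ?_⟩
  · intro χ hχ
    obtain ⟨l, hl, rfl⟩ := mem_exc.1 hχ
    exact hF.notMem l hl
  · simp [Finset.card_eq_three.2 ⟨_, _, _, a1, a2, a3, rfl⟩]
  · simp only [Finset.coe_insert, Finset.coe_singleton, Set.mem_insert_iff, Set.mem_singleton_iff] at hη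
    rcases hη with rfl | rfl | rfl
    exacts [.inl a4, a5, a6]
  · rw [h.finsum_eq M hl, h.val (hF.y_mem hl) hz v.2 hv, h.dY hF hl v hv, Int.cast_zero, zero_add]
  obtain ⟨l, hl, τ, α, β, D, A, B, b1, b2, rfl, rfl, rfl, b3⟩ := h.three_int hF a1 a2 a3 a4 hCN ht
  have b4 : ∀ η : IrrCharacter G, (0 : ℤ) < charDegree η.1 := fun η =>
    Nat.cast_pos.2 (Nat.pos_of_ne_zero (charDegree_ne_zero η.2))
  have b5 : ∀ (η : IrrCharacter G) (n : ℤ), irrOne G ≠ η → η.1 t = n → n ≠ charDegree η.1 :=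
    fun η n h1 h2 h3 => η.2.charKer_ne_top (fun h => h1 (Subtype.ext h.symm)) (hK _
      η.2.isCharacter.charKer_normal (η.2.isCharacter.mem_charKer.2 (by rw [h2, h3, irr_one_eq])))
  obtain ⟨b6, b7⟩ := three_num hF.sgn a5 a6 (b4 _) (b4 _) (b4 _) b3.1 b3.2.1 b3.2.2 (b5 _ _ a1 b1)
    (b5 _ _ a2 b2)
  refine ⟨?_, fun η hη => ?_⟩
  · rw [← b6, Nat.subtype_card (({χ, ψ} : Finset _).filter (a · = -1)) fun η => by
      rw [Finset.mem_filter, ← a8, and_assoc]; rfl, Finset.card_filter, Finset.sum_pair a3]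
  · erw [show {η : IrrCharacter G | _} = (({χ, ψ} : Finset _) : Set _) from Set.ext a8]
    rw [finprod_mem_coe_finset, Finset.prod_pair a3, ← mul_assoc, ← Int.isSquare_natCast_iff,
      show charDegree η.1 = charDegree (y l).1 from by
        rw [charDegree, charDegree, hF.reg_eq hη (mem_exc.2 ⟨l, hl, rfl⟩) (by simp [(Fact.out : p.Prime).ne_one])]]
    exact_mod_cast b7

end Cfsg.Agent.S4721
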