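import Cfsg.Statements.S4722
import Mathlib
import Cfsg.Agent.H4.Real
import Cfsg.Agent.H4.BS1

set_option autoImplicit false
open Cfsg

open Cfsg CfsgH3 CfsgH4 CfsgH1 CfsgL0 MonoidAlgebra

namespace Cfsg.Agent.S4722

/-- Let M be a maximal ideal of the algebraic integers containing 2, P a 2-subgroup of the finite group G, U a subset of P, and t an involution of G such that no element of U is inverted by any conjugate of t. Let θ be a generalized character of P vanishing outside U, and for χ in the principal 2-block B₀ put a_χ = #P⁻¹ Σ_{y ∈ P} χ(y) θ(y⁻¹). Then Σ_{χ ∈ B₀} a_χ χ(t)^2/χ(1) = 0, Σ_{χ ∈ B₀} a_χ χ(1) = 0 and Σ_{χ ∈ B₀} a_χ χ(t) = 0. If moreover #P⁻¹ Σ_{y ∈ P} θ(y) ≠ 0, then either at least two of the a_χ have positive real part and at least two have negative real part, or G has a proper normal subgroup containing O_2'(G) and t. -/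
theorem result {G : Type*} [Group G] [Finite G] (M : Ideal Cfsg.AlgInt) (hM : Cfsg.IsPModular 2 M) (P : Subgroup G) (hP : IsPGroup 2 P) (U : Set G) (hUP : U ⊆ (P : Set G)) (t : G) (ht : orderOf t = 2) (hinv : ∀ u ∈ U, ∀ g : G, (g * t * g⁻¹) * u * (g * t * g⁻¹)⁻¹ ≠ u⁻¹) (θ : ↥P → ℂ) (hθ : Cfsg.IsGeneralizedCharacter ↥P θ) (hθU : ∀ y : ↥P, (y : G) ∉ U → θ y = 0) : (∑ᶠ χ ∈ Cfsg.principalBlock M G, ((Nat.card ↥P : ℂ)⁻¹ * ∑ᶠ y : ↥P, (χ : G → ℂ) (y : G) * θ y⁻¹) * (χ : G → ℂ) t ^ 2 / (χ : G → ℂ) 1 = 0) ∧ (∑ᶠ χ ∈ Cfsg.principalBlock M G, ((Nat.card ↥P : ℂ)⁻¹ * ∑ᶠ y : ↥P, (χ : G → ℂ) (y : G) * θ y⁻¹) * (χ : G → ℂ) 1 = 0) ∧ (∑ᶠ χ ∈ Cfsg.principalBlock M G, ((Nat.card ↥P : ℂ)⁻¹ * ∑ᶠ y : ↥P, (χ : G → ℂ) (y : G) * θ y⁻¹) * (χ : G → ℂ) t = 0) ∧ ((Nat.card ↥P : ℂ)⁻¹ * ∑ᶠ y : ↥P, θ y ≠ 0 → (2 ≤ Nat.card {χ : Cfsg.IrrCharacter G // χ ∈ Cfsg.principalBlock M G ∧ 0 < (((Nat.card ↥P : ℂ)⁻¹ * ∑ᶠ y : ↥P, (χ : G → ℂ) (y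 : G) * θ y⁻¹)).re} ∧ 2 ≤ Nat.card {χ : Cfsg.IrrCharacter G // χ ∈ Cfsg.principalBlock M G ∧ (((Nat.card ↥P : ℂ)⁻¹ * ∑ᶠ y : ↥P, (χ : G → ℂ) (y : G) * θ y⁻¹)).re < 0}) ∨ ∃ K : Subgroup G, K.Normal ∧ K ≠ ⊤ ∧ Cfsg.pPrimeCore 2 G ≤ K ∧ t ∈ K) := by
  classical
  haveI : PMod 2 M := ⟨hM⟩
  haveI : Fact (Nat.Prime 2) := ⟨Nat.prime_two⟩
  have := Fintype.ofFinite G
  have ht2 : t * t = 1 := by rw [← sq, ← ht, pow_orderOf_eq_one]
  set B := principalBlock M G with hB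
  have hz : ∀ x g : G, IsConj t x → x * g * x⁻¹ = g⁻¹ → blockPart B (indFun P θ) g = 0 := by
    intro x g hx hg
    refine blockPart_indFun_eq_zero (p := 2) isPBlock_principal.fB_mem hP fun y hy =>
      hθU y fun hU => ?_
    obtain ⟨c, rfl⟩ := isConj_iff.1 hx
    obtain ⟨d, hd⟩ := isConj_iff.1 hy.symm
    have h1 : c * t * c⁻¹ * ppart 2 g * (c * t * c⁻¹)⁻¹ = (ppart 2 g)⁻¹ := by
      obtain ⟨k, hk⟩ := Subgroup.mem_zpowers_iff.1 (ppart_mem_zpowers 2 g)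
      rw [← hk, ← conj_zpow, hg, inv_zpow]
    refine hinv y hU (d * c) ?_
    rw [← hd]
    calc _ = d * (c * t * c⁻¹ * ppart 2 g * (c * t * c⁻¹)⁻¹) * d⁻¹ := by group
      _ = _ := by rw [h1]; group
  have hcf := (blockPart_isGen B hθ.ind).isClassFunction
  have ha : ∀ χ : IrrCharacter G, (Nat.card P : ℂ)⁻¹ * ∑ᶠ y : P, χ.1 y * θ y⁻¹ =
      classInner (indFun P θ) χ.1 := fun χ => avg_eq_inner hθ χ.2.isGen
  obtain ⟨c, hc, -⟩ := (blockPart_isGen B hθ.ind).exists_eq_sum_irr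
  have e1 := sum_pair_eq_zero hcf (a := t) (b := t) fun x y hx hy => hz x _ hx (by
    obtain ⟨c, rfl⟩ := isConj_iff.1 hx
    obtain ⟨d, rfl⟩ := isConj_iff.1 hy
    have : t⁻¹ = t := inv_eq_of_mul_eq_one_right ht2
    calc _ = c * (t * t) * c⁻¹ * (d * t * d⁻¹) * (c * t * c⁻¹)⁻¹ := by group
      _ = (d * t⁻¹ * d⁻¹) * (c * t * c⁻¹)⁻¹ := by rw [ht2, this]; group
      _ = _ := by group)
  have e2 := (hcf.apply_eq_sum_irr 1).symm.trans (hz t 1 (IsConj.refl t) (by simp))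
  have e3 := (hcf.apply_eq_sum_irr t).symm.trans (hz t t (IsConj.refl t) (by
    rw [mul_inv_cancel_right, eq_inv_iff_mul_eq_one, ht2]))
  simp only [ha, finsum_mem_irr]
  refine ⟨?_, ?_, ?_, fun h0 => ?_⟩
  · refine Eq.trans (Finset.sum_congr rfl fun χ _ => ?_) e1
    rw [classInner_blockPart]; split_ifs <;> ring
  · refine Eq.trans (Finset.sum_congr rfl fun χ _ => ?_) e2
    rw [classInner_blockPart]; split_ifs <;> ring
  · refine Eq.trans (Finset.sum_congr rfl fun χ _ => ?_) e3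
    rw [classInner_blockPart]; split_ifs <;> ring
  choose τ hτ using fun χ : IrrCharacter G => exists_int_of_sq χ.2.isGen ht2
  have hd : ∀ χ : IrrCharacter G, (0 : ℝ) < charDegree χ.1 := fun χ => by
    exact_mod_cast (charDegree_ne_zero χ.2).bot_lt
  simp only [hc, hτ, irr_one_eq] at e1 e2 e3
  have hcB : ∀ χ, c χ ≠ 0 → χ ∈ B ∧ classInner (indFun P θ) χ.1 = c χ := fun χ h => by
    have := hc χ
    rw [classInner_blockPart] at this
    split_ifs at this with h1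
    · exact ⟨h1, this⟩
    · exact absurd (by exact_mod_cast this.symm) h
  have h1 : c (irrOne G) ≠ 0 := fun h => h0 (by
    have := hc (irrOne G)
    rw [classInner_blockPart, if_pos irrOne_mem_principal, h, ← ha, Int.cast_zero] at this
    rw [← this, finsum_eq_sum_of_fintype, finsum_eq_sum_of_fintype, ← Equiv.sum_comp (Equiv.inv P)]
    simp [irrOne])
  rw [or_iff_not_imp_left, not_and_or]
  intro hn
  obtain ⟨j, hj, hj0⟩ : ∃ j, j ≠ irrOne G ∧ c j ≠ 0 := by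
    by_contra h
    push Not at h
    rw [Finset.sum_eq_single (irrOne G) (fun j _ hj => by rw [h j hj]; simp) (by simp)] at e2
    exact (mul_ne_zero (Int.cast_ne_zero.2 h1) (by exact_mod_cast (hd _).ne')) e2
  have key := sign_lemma' (c := fun χ => (c χ : ℝ)) (τ := fun χ => (τ χ : ℝ)) hd
    (by exact_mod_cast e2) (by exact_mod_cast e3)
    (by simp only [sq, ← mul_assoc]; exact_mod_cast e1) ?_ (i := j) (j := irrOne G)
    (by exact_mod_cast hj0) (by exact_mod_cast h1)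
  · refine ⟨charKer j.1, j.2.isCharacter.charKer_normal, j.2.charKer_ne_top fun h =>
      hj (Subtype.ext h), fun g hg => j.2.isCharacter.mem_charKer.2
      (principal_ker (hcB j hj0).1 hg), j.2.isCharacter.mem_charKer.2 ?_⟩
    have h2 : (τ (irrOne G) : ℂ) = charDegree (irrOne G).1 := by
      rw [← hτ, coe_charDegree (irrOne G).2.isCharacter]; rfl
    have h3 : (τ (irrOne G) : ℝ) = charDegree (irrOne G).1 := by exact_mod_cast h2
    simp only [h3] at key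
    rw [div_self (hd _).ne', div_eq_one_iff_eq (hd _).ne'] at key
    rw [hτ, irr_one_eq]
    exact_mod_cast key
  · refine hn.imp (fun h i j hi hj => ?_) fun h i j hi hj => ?_
    all_goals
      by_contra hij
      refine h (Finite.one_lt_card_iff_nontrivial.2 ⟨⟨i, ?_⟩, ⟨j, ?_⟩,
        fun h => hij (Subtype.mk.inj h)⟩)
    · have := hcB i (by exact_mod_cast hi.ne'); exact ⟨this.1, by rw [this.2]; exact hi⟩
    · have := hcB j (by exact_mod_cast hj.ne'); exact ⟨this.1, by rw [this.2]; exact hj⟩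
    · have := hcB i (by exact_mod_cast hi.ne); exact ⟨this.1, by rw [this.2]; exact hi⟩
    · have := hcB j (by exact_mod_cast hj.ne); exact ⟨this.1, by rw [this.2]; exact hj⟩

end Cfsg.Agent.S4722
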