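import Cfsg.Statements.S4723
import Mathlib
import Cfsg.Agent.H4.P1

set_option autoImplicit false
open Cfsg

open Cfsg CfsgH4 CfsgH1 CfsgL0 MonoidAlgebra Function
open CfsgH3 hiding cj cj_cj
open scoped ComplexConjugate Pointwise

namespace Cfsg.Agent.S4723

/-- Let p be a prime, M a maximal ideal of the algebraic integers containing p, H a normal subgroup of the finite group G and b a p-block of H. Let T be the stabilizer of b in G. Then b contains a character θ of height zero whose own stabilizer in G (the elements g with θ(g h g⁻¹) = θ(h) for all h ∈ H) has index prime to p in T, i.e. contains a Sylow p-subgroup of T. -/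
theorem result {G : Type*} [Group G] [Finite G] (p : ℕ) [Fact p.Prime] (M : Ideal Cfsg.AlgInt) (hM : Cfsg.IsPModular p M) (H : Subgroup G) [H.Normal] (b : Set (Cfsg.IrrCharacter ↥H)) (hb : Cfsg.IsPBlock M b) (T : Subgroup G) (hT : (∀ g : G, g ∈ T ↔ ∀ θ ∈ b, ∀ θ' : Cfsg.IrrCharacter ↥H, (∀ h h' : ↥H, (h' : G) = g * h * g⁻¹ → (θ' : ↥H → ℂ) h' = (θ : ↥H → ℂ) h) → θ' ∈ b)) : ∃ θ ∈ b, Cfsg.blockHeight p b (θ : ↥H → ℂ) = 0 ∧ ∃ S : Subgroup G, S ≤ T ∧ (∀ g : G, g ∈ S ↔ (g ∈ T ∧ ∀ h h' : ↥H, (h' : G) = g * h * g⁻¹ → (θ : ↥H → ℂ) h' = (θ : ↥H → ℂ) h)) ∧ ¬ p ∣ S.relIndex T := by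
  classical
  haveI : PMod p M := ⟨hM⟩
  have hp : p.Prime := Fact.out
  have := Fintype.ofFinite H
  have hc : ∀ (g : G) (θ θ' : IrrCharacter H), (∀ h h' : H, (h' : G) = g * h * g⁻¹ →
      θ'.1 h' = θ.1 h) ↔ θ' = irrCj g⁻¹ θ := fun g θ θ' =>
    ⟨fun h => Subtype.ext (funext fun x => by rw [irrCj_apply]; exact h _ _ (by simp [mul_assoc])),
      fun e h h' e' => by
        rw [e, irrCj_apply]; exact congrArg _ (Subtype.ext (by simp [e', mul_assoc]))⟩
  simp only [hc, forall_eq] at hT ⊢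
  have hH : H ≤ T := fun g hg => (hT g).2 fun θ h => by rwa [irrCj_of_mem (inv_mem hg)]
  obtain ⟨Q, hQ⟩ := exists_isSylowIn (p := p) (H := T)
  have hS := hQ.inf_of_le_normalizer hH Subgroup.le_normalizer_of_normal
  have := Fintype.ofFinite hS.toSylow
  choose m h1 h2 using fun θ : IrrCharacter H =>
    (θ.2.isCharacter.restrict (hS.toSylow : Subgroup H)).exists_eq_sum_irr
  obtain ⟨n, h3, h4⟩ := hb.exists_blockPart_perm hS.toSylow
  set k := (Nat.card H).factorization p - blockDefect p b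
  have h5 : ∀ θ ∈ b, (charDegree θ.1).factorization p = k + blockHeight p b θ.1 := fun θ h => by
    have := sub_fact_eq (M := M) h
    have := (Nat.factorization_le_iff_dvd (charDegree_ne_zero θ.2) Nat.card_pos.ne').2
      (charDegree_dvd θ.2) p
    have := blockDefect_le (p := p) b
    simp only [k]; omega
  have h6 : ∀ θ ∈ b, p ^ k ∣ charDegree θ.1 := fun θ h =>
    (hp.pow_dvd_iff_le_factorization (charDegree_ne_zero θ.2)).2 (by rw [h5 θ h]; omega)
  let φ : IrrCharacter H → ℤ := fun θ => (m θ (irrOne _) * (charDegree θ.1 / p ^ k) : ℕ)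
  let s := Finset.univ.filter (· ∈ b)
  have h7 : ∑ θ ∈ s, φ θ = n := by
    apply Int.cast_injective (α := ℂ)
    apply mul_left_cancel₀ (p_pow_ne_zero (M := M) k)
    rw [← h3, blockPart_eq, Int.cast_sum, Finset.mul_sum, Finset.sum_filter]
    refine Finset.sum_congr rfl fun θ _ => ?_
    split_ifs with h
    · rw [classInner_indFun_left _ θ.2.isClassFunction,
        isIrr_one.isCharacter.classInner_comm (θ.2.isCharacter.restrict _),
        show classInner _ (fun _ => 1) = _ from h1 θ (irrOne _), ← coe_charDegree θ.2.isCharacter,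
        Int.cast_natCast, ← Nat.cast_pow, ← Nat.cast_mul, mul_left_comm,
        Nat.mul_div_cancel' (h6 θ h), Nat.cast_mul]
    · rfl
  have h8 := sum_sub_sum_fixed_mem' hQ.isPGroup (fun q (θ : IrrCharacter H) => irrCj (q : G)⁻¹ θ)
    (fun θ => by simp [irrCj_one]) (fun a b θ => by simp [irrCj_irrCj])
    (AddSubgroup.zmultiples (p : ℤ)) φ s
    (fun q θ h => by simpa [s] using (hT q).1 (hQ.le q.2) θ (by simpa [s] using h))
    (fun q θ _ => by
      have e : m (irrCj (q : G)⁻¹ θ) (irrOne _) = m θ (irrOne _) := by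
        apply Nat.cast_injective (R := ℂ)
        rw [← h1, ← h1]
        simp only [irrOne, classInner_one_right]
        congr 1
        let f : hS.toSylow → hS.toSylow := fun x => ⟨MulAut.conjNormal (q : G)⁻¹ x.1,
          ⟨Q.mul_mem (Q.mul_mem (Q.inv_mem q.2) x.2.1) (Q.inv_mem (Q.inv_mem q.2)), Subtype.prop _⟩⟩
        exact Fintype.sum_bijective f (Finite.injective_iff_bijective.1 fun x y e => Subtype.ext
          ((MulAut.conjNormal (q : G)⁻¹).injective (Subtype.mk.inj e))) _ _ fun x => rfl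
      have e2 : (irrCj (q : G)⁻¹ θ).1 1 = θ.1 1 := congrArg θ.1 (Subtype.ext (by simp))
      simp only [φ, e, charDegree, e2]) fun θ _ => ⟨φ θ, by simp [mul_comm]⟩
  rw [Int.mem_zmultiples_iff] at h8
  by_contra! h
  refine h4 (h7 ▸ Finset.sum_filter_add_sum_filter_not s (fun θ => ∀ q : Q, irrCj (q : G)⁻¹ θ = θ) φ
    ▸ dvd_add (Finset.dvd_sum fun θ hθ => ?_) h8)
  simp only [s, Finset.mem_filter, Finset.mem_univ, true_and] at hθ
  refine Int.natCast_dvd_natCast.2 (Dvd.dvd.mul_left (by_contra fun e => hQ.not_dvd ?_) _)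
  refine (h θ hθ.1 ?_ (inertia θ.1 ⊓ T) inf_le_right fun g => ?_).trans
    (Subgroup.relIndex_dvd_of_le_left _ (le_inf (fun q hq => ?_) hQ.le))
  · by_contra e'
    exact e ((Nat.dvd_div_iff_mul_dvd (h6 θ hθ.1)).2 (by
      rw [← pow_succ, hp.pow_dvd_iff_le_factorization (charDegree_ne_zero θ.2), h5 θ hθ.1]; omega))
  · rw [Subgroup.mem_inf, and_comm, ← inv_mem_iff (x := g) (H := inertia θ.1), mem_inertia, eq_comm,
      Subtype.ext_iff]; rfl
  · exact inv_mem_iff.1 (mem_inertia.2 (congrArg Subtype.val (hθ.2 ⟨q, hq⟩)))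

end Cfsg.Agent.S4723
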