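import Cfsg.Statements.S4725
import Mathlib
import Cfsg.Agent.H4.Dim

set_option autoImplicit false
open Cfsg

open Cfsg CfsgH3 CfsgH4 CfsgH1 CfsgL0 MonoidAlgebra

namespace Cfsg.Agent.S4725

/-- Let p be a prime, M a maximal ideal of the algebraic integers containing p, H a subgroup of the finite group G, and b a p-block of H inducing the p-block B of G, with b and B of the same defect. Then for every height-zero ζ ∈ b there is a height-zero χ ∈ B whose multiplicity in the character induced from ζ is not divisible by p. -/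
theorem result {G : Type*} [Group G] [Fintype G] (p : ℕ) [Fact p.Prime] (M : Ideal Cfsg.AlgInt) (hM : Cfsg.IsPModular p M) (H : Subgroup G) (b : Set (Cfsg.IrrCharacter ↥H)) (B : Set (Cfsg.IrrCharacter G)) (hind : Cfsg.IsInducedBlock M H b B) (hdef : Cfsg.blockDefect p b = Cfsg.blockDefect p B) (ζ : Cfsg.IrrCharacter ↥H) (hζ : ζ ∈ b) (hζ0 : Cfsg.blockHeight p b (ζ : ↥H → ℂ) = 0) : ∃ χ ∈ B, Cfsg.blockHeight p B (χ : G → ℂ) = 0 ∧ ∃ a : ℕ, Cfsg.classInner (Cfsg.indFun H (ζ : ↥H → ℂ)) (χ : G → ℂ) = (a : ℂ) ∧ ¬ p ∣ a := by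
  haveI : PMod p M := ⟨hM⟩
  classical
  have hp := PMod.prime M
  obtain ⟨n, h1, h2, h3⟩ := hind.indB.exists_blockPart_indFun_one hind.2.1 hζ
  have hc := ζ.2.isCharacter.ind (G := G)
  by_contra h4
  push Not at h4
  have h5 : (charDegree (indFun H ζ.1)).factorization p =
      (Nat.card G).factorization p - blockDefect p B := by
    rw [charDegree_indFun, Nat.factorization_mul (index_ne_zero' H) (charDegree_ne_zero ζ.2),
      Finsupp.add_apply]
    have h6 := fact_degree_add (p := p) hζ
    have h7 := fact_card_eq_add p H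
    omega
  have h6 : MemLocalIdeal M ((n : ℂ) / (p ^ ((Nat.card G).factorization p - blockDefect p B) : ℕ)) := by
    rw [← h1, blockPart_eq, Finset.sum_div]
    refine InP.sum _ _ fun χ _ => ?_
    split_ifs with hχ
    · obtain ⟨a, ha⟩ := hc.exists_nat_classInner χ.2.isCharacter
      obtain ⟨d, hd, hd', -⟩ := exists_degree_eq (M := M) hχ
      rw [ha, ← coe_charDegree χ.2.isCharacter, hd, Nat.cast_mul, mul_left_comm,
        mul_div_cancel_left₀ _ (Nat.cast_ne_zero.2 (pow_ne_zero _ hp.ne_zero)), ← Nat.cast_mul,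
        InP_natCast_iff]
      by_cases h0 : blockHeight p B χ.1 = 0
      · exact (h4 χ hχ h0 a ha).mul_right _
      · exact (hd'.2 h0).mul_left _
    · simpa using InP.zero
  rw [InP_div_iff h2 (pow_ne_zero _ hp.ne_zero), hp.factorization_pow, Finsupp.single_eq_same] at h6
  omega

end Cfsg.Agent.S4725
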