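import Cfsg.Statements.S4726
import Mathlib
import Cfsg.Agent.H4.Fong2

set_option autoImplicit false
open Cfsg

open Cfsg CfsgH3 CfsgH4 CfsgH1 CfsgL0 MonoidAlgebra

namespace Cfsg.Agent.S4726

/-- Let p be a prime, M a maximal ideal of the algebraic integers containing p, H a subgroup of the finite group G and b a p-block of H with defect group D₀ such that C_G(D₀) ≤ H. Then b induces a block of G, and for every block B of G induced by b there is a defect group D of B with Z(D) ≤ Z(D₀) ≤ D₀ ≤ D (as subgroups of G). In particular, if the defect groups of B are abelian then D₀ is a defect group of B. -/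
theorem result {G : Type*} [Group G] [Finite G] (p : ℕ) [Fact p.Prime] (M : Ideal Cfsg.AlgInt) (hM : Cfsg.IsPModular p M) (H : Subgroup G) (b : Set (Cfsg.IrrCharacter ↥H)) (hb : Cfsg.IsPBlock M b) (D₀ : Subgroup ↥H) (hD₀ : Cfsg.IsDefectGroup p M b D₀) (hC : Subgroup.centralizer ((D₀.map H.subtype : Subgroup G) : Set G) ≤ H) : Cfsg.InducedBlockDefined M H b ∧ ∀ B : Set (Cfsg.IrrCharacter G), Cfsg.IsInducedBlock M H b B → (∃ D : Subgroup G, Cfsg.IsDefectGroup p M B D ∧ (Subgroup.center ↥D).map D.subtype ≤ ((Subgroup.center ↥D₀).map D₀.subtype).map H.subtype ∧ ((Subgroup.center ↥D₀).map D₀.subtype).map H.subtype ≤ D₀.map H.subtype ∧ D₀.map H.subtype ≤ D) ∧ (∀ D : Subgroup G, Cfsg.IsDefectGroup p M B D → IsMulCommutative ↥D → Cfsg.IsDefectGroup p M B (D₀.map H.subtype)) := by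
  haveI : PMod p M := ⟨hM⟩
  have hD := hb.isDefectGroup_iff_inc.1 hD₀
  obtain ⟨Q, hQ⟩ : ∃ Q, Q = D₀.map H.subtype := ⟨_, rfl⟩
  rw [← hQ] at hD hC ⊢
  have hz : ∀ D : Subgroup G, (Subgroup.center D).map D.subtype = D ⊓ Subgroup.centralizer (D : Set G) := by
    intro D
    ext x
    constructor
    · rintro ⟨y, hy, rfl⟩
      exact ⟨y.2, fun z hz => congrArg Subtype.val (Subgroup.mem_center_iff.1 hy ⟨z, hz⟩)⟩
    · rintro ⟨h1, h2⟩
      exact ⟨⟨x, h1⟩, Subgroup.mem_center_iff.2 fun z => Subtype.ext (h2 z z.2), rfl⟩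
  have hz' : Q ⊓ Subgroup.centralizer (Q : Set G) ≤
      ((Subgroup.center ↥D₀).map D₀.subtype).map H.subtype := by
    subst hQ
    rintro _ ⟨⟨x, h1, rfl⟩, h2⟩
    exact ⟨x, ⟨⟨x, h1⟩, Subgroup.mem_center_iff.2 fun z => Subtype.ext (Subtype.ext
      (h2 _ ⟨z, z.2, rfl⟩)), rfl⟩, rfl⟩
  refine ⟨exists_isInducedBlock_of_cent_le hD.pgrp hD.le hC hb hD.ne, fun B hB => ?_⟩
  have hi := hb.isBlk_ie.inv
  obtain ⟨f, hf, h1⟩ := exists_blk_mul_ne_zero (N := Subgroup.centralizer (Q : Set G)) le_rfl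
    ((isInducedBlock_iff_of_cent_le hD.pgrp hD.le hC hb hD.ne hB.2.1).1 hB)
  have hp : Pr p Q f := ⟨hD.pgrp, hf⟩
  have h2 := hp.mul_eq_of_ne (hi.mono hD.le) (hi.mono hC) hb.isBlk_ie.idem fun h2 => h1 (by
    rw [mul_assoc, h2, mul_zero])
  have h3 := hp.mul_eq_of_ne (inv_eB B).top (inv_eB B).top hB.2.1.isBlk.idem fun h3 => h1 (by
    rw [mul_assoc, h2, h3])
  obtain ⟨D, g, h4, h5⟩ := hp.exists_max hB.2.1.isBlk h3
  have h6 : D ⊓ Subgroup.centralizer (Q : Set G) ≤ Q := by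
    have h7 : Q ⊔ D ⊓ Subgroup.centralizer (Q : Set G) ≤ D := sup_le h5.le inf_le_left
    have h8 : Q ⊔ D ⊓ Subgroup.centralizer (Q : Set G) ≤ Q ⊔ Subgroup.centralizer (Q : Set G) :=
      sup_le_sup_left inf_le_right _
    have h9 := h8.trans (sup_le hD.le hC)
    have h10 := hD.eq_of_le h9 (h4.pgrp.to_le h7) (br_ne_zero_of_br_mul (h4.pgrp.to_le h7) le_sup_left
      (h8.trans (sup_cent_le_norm Q)) (hi.mono h9) (hp.inv_sup.mono h8) h2
      (PLe.br_ne (h5.pr_right hp) h5 h7 (h8.trans (sup_cent_le_norm Q)))) le_sup_left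
    exact le_sup_right.trans h10.le
  refine ⟨⟨D, hB.2.1.isDefectGroup_iff.2 h4, le_trans ?_ hz',
    hQ ▸ Subgroup.map_mono (Subgroup.map_subtype_le _), h5.le⟩, fun E hE hc => ?_⟩
  · rw [hz]
    exact le_inf ((inf_le_inf_left _ (cent_anti h5.le)).trans h6) (inf_le_right.trans (cent_anti h5.le))
  · obtain ⟨x, -, rfl⟩ := (hB.2.1.isDefectGroup_iff.1 hE).exists_conj h4
    have h7 : cj x E ≤ Subgroup.centralizer (cj x E : Set G) := by
      rw [← cj_centralizer]
      exact cj_mono x fun a ha b hb => isMulCommutative_iff'.1 hc b hb a ha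
    rw [le_antisymm h5.le ((le_inf le_rfl (h7.trans (cent_anti h5.le))).trans h6)]
    exact hB.2.1.isDefectGroup_iff.2 h4

end Cfsg.Agent.S4726
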