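import Cfsg.Statements.S4734
import Mathlib
import Cfsg.Agent.H4.Eps

set_option autoImplicit false
open Cfsg

open Cfsg CfsgH4 CfsgH1 CfsgL0 MonoidAlgebra Function
open CfsgH3 hiding cj cj_cj
open scoped ComplexConjugate Pointwise

namespace Cfsg.Agent.S4734

/-- Let p be a prime, π a set of primes containing p, M a maximal ideal of the algebraic integers containing p, B a p-block of the finite group G with defect group D, and B₁ the block of N_G(D) with defect group D inducing B. Write O_π'(X) for the largest normal subgroup of X whose order has no prime divisor in π, and suppose every element of O_π'(N_G(D)) lies in the kernel of every member of B₁. Let G₀ be a subgroup and B₀ a block of G₀ with defect group D₀ such that C_G(D₀) ≤ G₀ and B₀ induces B. Then every element of O_π'(G₀) lies in the kernel of every member of B₀. -/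
theorem result {G : Type*} [Group G] [Finite G] (p : ℕ) [Fact p.Prime] (M : Ideal Cfsg.AlgInt) (hM : Cfsg.IsPModular p M) (π : Set ℕ) (hpπ : p ∈ π) (B : Set (Cfsg.IrrCharacter G)) (hB : Cfsg.IsPBlock M B) (D : Subgroup G) (hBD : Cfsg.IsDefectGroup p M B D) (B₁ : Set (Cfsg.IrrCharacter ↥(Subgroup.normalizer (D : Set G)))) (hB₁ : Cfsg.IsInducedBlock M (Subgroup.normalizer (D : Set G)) B₁ B) (hB₁D : Cfsg.IsDefectGroup p M B₁ (D.subgroupOf (Subgroup.normalizer (D : Set G)))) (hker : ∀ n : ↥(Subgroup.normalizer (D : Set G)), n ∈ Cfsg.piCore {q | q ∉ π} ↥(Subgroup.normalizer (D : Set G)) → n ∈ Cfsg.blockKer B₁) (G₀ : Subgroup G) (B₀ : Set (Cfsg.IrrCharacter ↥G₀)) (hB₀ : Cfsg.IsInducedBlock M G₀ B₀ B) (D₀ : Subgroup ↥G₀) (hD₀ : Cfsg.IsDefectGroup p M B₀ D₀) (hC : Subgroup.centralizer ((D₀.map G₀.subtype : Subgroup G) : Set G) ≤ G₀) : ∀ x : ↥G₀, x ∈ Cfsg.piCore {q | q ∉ π} ↥G₀ → x ∈ Cfsg.blockKer B₀ := by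
  haveI : PMod p M := ⟨hM⟩
  have hρ : p ∉ {q | q ∉ π} := fun h => h hpπ
  have hnd : ∀ K : Subgroup G, ¬ p ∣ Nat.card (piCoreOf {q | q ∉ π} K) := fun K hd =>
    hρ (CfsgH2.piN_piCoreOf p Fact.out hd)
  obtain ⟨e, hm⟩ := exists_maxPr hB.isBlk (hB.isDefectGroup_iff.1 hBD)
  have h1 : Lf (piCoreOf {q | q ∉ π} (Subgroup.normalizer (D : Set G))) (ie M _ B₁) :=
    (lf_ie_iff (hnd _) CfsgH2.piCoreOf_le hB₁.1.fB_mem).2 fun l hl => hker l (by
      obtain ⟨m, hm, h⟩ := hl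
      rwa [← Subtype.ext h])
  have h2 : Lf (piCoreOf {q | q ∉ π} (Subgroup.centralizer (D : Set G))) e := by
    rw [← hm.mul, ← hB₁.inc_eq_br hBD]
    refine (h1.mono ?_).mul e
    exact CfsgH2.le_piCoreOf (CfsgH2.piCoreOf_le.trans (cent_le_norm D))
      ((norm_le_norm_cent D).trans CfsgH2.norm_le_norm_piCoreOf) CfsgH2.piN_piCoreOf
  have hD := hB₀.1.isDefectGroup_iff_inc.1 hD₀
  have hb := hB₀.1.isBlk_subtype
  have hle : D₀.map G₀.subtype ≤ G₀ := Subgroup.map_subtype_le _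
  obtain ⟨g, hg, hg'⟩ := exists_pr_of_br_ne hD.pgrp (hb.inv.mono hle) (hb.inv.mono hC) hb.idem hD.ne
  have h3 : br (D₀.map G₀.subtype) (eB M B) * g = g := by
    obtain ⟨c, hc, rfl⟩ := hg.exists_eq
    have h4 := (isInducedBlockIn_iff_br hD.pgrp hle hC inf_le_right (cent_le_norm _)
      (.inr le_rfl) hc hB₀.1).2 hg'
    have h5 := IndB.trans hB₀.1 ((isInducedBlockIn_iff hC).1 h4).2.2 hB₀.indB
    exact (isInducedBlock_iff.2 ⟨hc, hB, h5⟩).br_mul hD.pgrp
  have h4 := (hb.lf_iff (hnd G₀) CfsgH2.piCoreOf_le CfsgH2.le_norm_piCoreOf hD.pgrp hle hg.blk.ne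
    hg').2 ((hm.lf_down hρ h2 hg h3).mono (CfsgH2.inf_piCoreOf_le hC))
  intro x hx
  exact (lf_ie_iff (hnd _) CfsgH2.piCoreOf_le hB₀.1.fB_mem).1 h4 x ⟨x, hx, rfl⟩

end Cfsg.Agent.S4734
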