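import Cfsg.Statements.S4727
import Mathlib
import Cfsg.Agent.H4.Eps
import Cfsg.Agent.H4.Sub
import Cfsg.Agent.S4734

set_option autoImplicit false
open Cfsg

open Cfsg CfsgH4 CfsgH1 CfsgL0 MonoidAlgebra Function
open CfsgH3 hiding cj cj_cj
open scoped ComplexConjugate Pointwise

namespace Cfsg.Agent.S4727

/-- Let p be a prime, π a set of primes containing p, M a maximal ideal of the algebraic integers containing p, and B a p-block of the finite group G with defect group D; let B₁ be the block of N_G(D) with defect group D that induces B (the Brauer correspondent of B). Suppose every element of O_π'(N_G(D)), the largest normal subgroup of N_G(D) whose order has no prime divisor in π, lies in the kernel of every member of B₁. If y is a p-element whose centralizer C has a normal Hall π'-subgroup (every element of C whose order has no prime divisor in π lies in O_π'(C)), then χ(y x) = χ(y) for every χ ∈ B and every x ∈ C whose order has no prime divisor in π. -/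
theorem result {G : Type*} [Group G] [Finite G] (p : ℕ) [Fact p.Prime] (M : Ideal Cfsg.AlgInt) (hM : Cfsg.IsPModular p M) (π : Set ℕ) (hpπ : p ∈ π) (B : Set (Cfsg.IrrCharacter G)) (hB : Cfsg.IsPBlock M B) (D : Subgroup G) (hBD : Cfsg.IsDefectGroup p M B D) (B₁ : Set (Cfsg.IrrCharacter ↥(Subgroup.normalizer (D : Set G)))) (hB₁ : Cfsg.IsInducedBlock M (Subgroup.normalizer (D : Set G)) B₁ B) (hB₁D : Cfsg.IsDefectGroup p M B₁ (D.subgroupOf (Subgroup.normalizer (D : Set G)))) (hker : ∀ n : ↥(Subgroup.normalizer (D : Set G)), n ∈ Cfsg.piCore {q | q ∉ π} ↥(Subgroup.normalizer (D : Set G)) → n ∈ Cfsg.blockKer B₁) (y : G) (hy : ∃ k : ℕ, orderOf y = p ^ k) (hC : ∀ x : ↥(Subgroup.centralizer ({y} : Set G)), (∀ q : ℕ, q.Prime → q ∣ orderOf x → q ∉ π) → x ∈ Cfsg.piCore {q | q ∉ π} ↥(Subgroup.centralizer ({y} : Set G))) : ∀ χ ∈ B, ∀ x : G, x ∈ Subgroup.centralizer ({y} : Set G) → (∀ q : ℕ, q.Prime → q ∣ orderOf x → q ∉ π) → (χ : G → ℂ) (y * x) = (χ : G → ℂ) y := by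
  classical
  haveI : PMod p M := ⟨hM⟩
  have := Fintype.ofFinite G
  intro χ hχ x hx hπ
  have hC' : Subgroup.centralizer ({y} : Set G) = Subgroup.centralizer ({y} : Set G) := rfl
  have h1 : ∀ s : Subgroup.centralizer ({y} : Set G), ¬ p ∣ orderOf s → χ.1 (y * s) =
      blockPart (brSet M (Subgroup.subtype _) B) (tr _ y χ.1) s := fun s hs => by
    rw [blockPart_tr_brSet hC' hy hB.fB_mem χ.2.isClassFunction hs, blockPart_irr_of_mem hχ]
  have h2 := h1 ⟨x, hx⟩ (by rw [Subgroup.orderOf_mk]; exact fun h => hπ p Fact.out h hpπ)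
  have h3 := h1 1 (by simpa using (Fact.out : p.Prime).ne_one)
  simp only [OneMemClass.coe_one, mul_one] at h3
  rw [h2, h3, blockPart_eq, blockPart_eq]
  refine Finset.sum_congr rfl fun ξ _ => ?_
  split_ifs with hξ
  · have h4 := (mem_brSet_cent_iff hC' hy hB).1 hξ
    obtain ⟨D₀, hD₀⟩ := h4.1.exists_defectGroup (p := p)
    have h5 : (⟨y, self_mem_of_eq_cent hC'⟩ : Subgroup.centralizer ({y} : Set G)) ∈ D₀ := by
      obtain ⟨k, hk⟩ := hy
      refine (h4.1.isDefectGroup_iff.1 hD₀).normal_le (eB_mem_ZA _) h4.1.eB_idem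
        (P := Subgroup.zpowers _) (isPGroup_zpowers (k := k) ?_) le_top ?_ (Subgroup.mem_zpowers _)
      · ext
        simp [← hk]
      · refine fun g _ => cent_le_norm _ fun z hz => ?_
        exact (Subgroup.mem_center_iff.1 ((Subgroup.zpowers_le.2 (mem_center_of_eq_cent hC')) hz)
          g).symm
    have h6 := S4734.result p M hM π hpπ B hB D hBD B₁ hB₁ hB₁D hker _ _ h4 D₀ hD₀
      (Subgroup.centralizer_le (Set.singleton_subset_iff.2 ⟨_, h5, rfl⟩)) ⟨x, hx⟩
      (hC _ (by rw [Subgroup.orderOf_mk]; exact hπ)) ξ (mem_blockOf_self ξ)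
    rw [h6]
  · rfl

end Cfsg.Agent.S4727
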