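import Cfsg.Statements.S4728
import Mathlib
import Cfsg.Agent.H4.Eps

set_option autoImplicit false
open Cfsg

open Cfsg CfsgH4 CfsgH1 CfsgL0 MonoidAlgebra Function
open CfsgH3 hiding cj cj_cj
open scoped ComplexConjugate Pointwise

namespace Cfsg.Agent.S4728

/-- Let p be a prime, π a set of primes containing p, M a maximal ideal of the algebraic integers containing p, B a p-block of the finite group G with defect group D, and B₁ the block of N_G(D) with defect group D inducing B. Let D₀ be a p-subgroup, H₀ = D₀·C_G(D₀), and b a block of H₀ inducing B. Write O_π'(X) for the largest normal subgroup of X whose order has no prime divisor in π. Suppose that O_π'(C_G(D₀)) is a normal Hall π'-subgroup of C_G(D₀) (it contains every element of C_G(D₀) whose order has no prime divisor in π) and that every element of it lies in the kernel of every member of b. Then every element of O_π'(N_G(D)) lies in the kernel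 of every member of B₁. -/
theorem result {G : Type*} [Group G] [Finite G] (p : ℕ) [Fact p.Prime] (M : Ideal Cfsg.AlgInt) (hM : Cfsg.IsPModular p M) (π : Set ℕ) (hpπ : p ∈ π) (B : Set (Cfsg.IrrCharacter G)) (hB : Cfsg.IsPBlock M B) (D : Subgroup G) (hBD : Cfsg.IsDefectGroup p M B D) (B₁ : Set (Cfsg.IrrCharacter ↥(Subgroup.normalizer (D : Set G)))) (hB₁ : Cfsg.IsInducedBlock M (Subgroup.normalizer (D : Set G)) B₁ B) (hB₁D : Cfsg.IsDefectGroup p M B₁ (D.subgroupOf (Subgroup.normalizer (D : Set G)))) (D₀ : Subgroup G) (hD₀ : IsPGroup p D₀) (H₀ : Subgroup G) (hH₀ : H₀ = D₀ ⊔ Subgroup.centralizer (D₀ : Set G)) (b : Set (Cfsg.IrrCharacter ↥H₀)) (hb : Cfsg.IsInducedBlock M H₀ b B) (hcompl : ∀ x : ↥(Subgroup.centralizer (D₀ : Set G)), (∀ q : ℕ, q.Prime → q ∣ orderOf x → q ∉ π) → x ∈ Cfsg.piCore {q | q ∉ π} ↥(Subgroup.centralizer (D₀ : Set G))) (hkerb : ∀ x : ↥(Subgroup.centralizer (D₀ : Set G)), x ∈ Cfsg.piCore {q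 | q ∉ π} ↥(Subgroup.centralizer (D₀ : Set G)) → ∀ θ ∈ b, ∀ h : ↥H₀, (h : G) = (x : G) → (θ : ↥H₀ → ℂ) h = (θ : ↥H₀ → ℂ) 1) : ∀ n : ↥(Subgroup.normalizer (D : Set G)), n ∈ Cfsg.piCore {q | q ∉ π} ↥(Subgroup.normalizer (D : Set G)) → n ∈ Cfsg.blockKer B₁ := by
  haveI : PMod p M := ⟨hM⟩
  subst hH₀
  have hρ : p ∉ {q | q ∉ π} := fun h => h hpπ
  have hnd : ∀ K : Subgroup G, ¬ p ∣ Nat.card (piCoreOf {q | q ∉ π} K) := fun K hd =>
    hρ (CfsgH2.piN_piCoreOf p Fact.out hd)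
  have hord : ∀ (K : Subgroup G), ∀ y ∈ piCoreOf {q | q ∉ π} K,
      ∀ q : ℕ, q.Prime → q ∣ orderOf y → q ∉ π := fun K y hy q hq hd =>
    CfsgH2.piN_piCoreOf q hq (hd.trans (Subgroup.orderOf_dvd_natCard _ hy))
  obtain ⟨e, hm⟩ := exists_maxPr hB.isBlk (hB.isDefectGroup_iff.1 hBD)
  have hP : Pr p D₀ (ie M _ b) := hb.1.isBlk_subtype.pr_of_sup hD₀
  have h1 := ((brLoc_sup hD₀).isInducedBlock_iff hb.1 hB).1 hb
  obtain ⟨x, hx⟩ := hm.exists_cnj_ple hP h1
  have h2 : Lf (piCoreOf {q | q ∉ π} (Subgroup.centralizer (D₀ : Set G))) (ie M _ b) :=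
    (lf_ie_iff (hnd _) (CfsgH2.piCoreOf_le.trans le_sup_right) hb.1.fB_mem).2 fun l hl => by
      obtain ⟨m, hm, h⟩ := hl
      exact fun θ hθ => hkerb m hm θ hθ l h.symm
  have h3 : ∀ y, y ∈ cj x (piCoreOf {q | q ∉ π} (Subgroup.centralizer (D₀ : Set G))) ↔
      y ∈ Subgroup.centralizer (cj x D₀ : Set G) ∧ ∀ q : ℕ, q.Prime → q ∣ orderOf y → q ∉ π := by
    intro y
    have h4 : orderOf (x⁻¹ * y * x) = orderOf y := by
      simpa using (MulAut.conj x⁻¹).orderOf_eq y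
    rw [← cj_centralizer, mem_cj, mem_cj, ← h4]
    refine ⟨fun h => ⟨CfsgH2.piCoreOf_le h, hord _ _ h⟩, fun h => ⟨⟨_, h.1⟩, hcompl _ ?_, rfl⟩⟩
    rw [Subgroup.orderOf_mk]
    exact h.2
  have h4 := hx.lf_up (S := fun y => ∀ q : ℕ, q.Prime → q ∣ orderOf y → q ∉ π)
    (fun g y h => by
      have h4 : orderOf (g * y * g⁻¹) = orderOf y := (MulAut.conj g).orderOf_eq y
      rwa [h4]) (by rw [card_cj]; exact hnd _) h3 (h2.cnj x)
  have h5 : br D (ie M _ B₁) * e = e := by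
    show br D (inc _ _) * e = e
    rw [hB₁.inc_eq_br hBD, br_br_of_le le_rfl, hm.mul]
  have h6 := (hB₁.1.isBlk_subtype.lf_iff (hnd _) CfsgH2.piCoreOf_le CfsgH2.le_norm_piCoreOf
    hm.pr.pgrp Subgroup.le_normalizer hm.pr.blk.ne h5).2 (h4.mono fun y hy =>
      ⟨(h3 y).2 ⟨cent_anti hx.le hy.2, hord _ _ hy.1⟩, hy.2⟩)
  intro n hn
  exact (lf_ie_iff (hnd _) CfsgH2.piCoreOf_le hB₁.1.fB_mem).1 h6 n ⟨n, hn, rfl⟩

end Cfsg.Agent.S4728
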