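import Cfsg.Statements.S4729
import Mathlib
import Cfsg.Agent.H4.Br1

set_option autoImplicit false
open Cfsg

open Cfsg CfsgH3 CfsgH4 CfsgH1 Function
open scoped ComplexConjugate Pointwise

namespace Cfsg.Agent.S4729

/-- Let p be a prime, M a maximal ideal of the algebraic integers containing p, G a finite perfect group and P a Sylow p-subgroup. If the principal p-block of G contains a faithful irreducible character of degree less than 2p, then the centralizer of P is a p-group. -/
theorem result {G : Type*} [Group G] [Finite G] (p : ℕ) [Fact p.Prime] (M : Ideal Cfsg.AlgInt) (hM : Cfsg.IsPModular p M) (hperf : commutator G = ⊤) (P : Sylow p G) (χ : Cfsg.IrrCharacter G) (hχ : χ ∈ Cfsg.principalBlock M G) (hfaith : ∀ g : G, (χ : G → ℂ) g = (χ : G → ℂ) 1 → g = 1) (hdeg : Cfsg.charDegree (χ : G → ℂ) < 2 * p) : IsPGroup p ↥(Subgroup.centralizer ((P : Subgroup G) : Set G)) := by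
  obtain ⟨_⟩ : Nonempty (PMod p M) := ⟨⟨hM⟩⟩
  refine isPGroup_of_forall_prime_dvd fun q hq hd => by_contra fun e => ?_
  have := Fact.mk hq
  obtain ⟨g, hg⟩ := exists_prime_orderOf_dvd_card' q hd
  rw [← Subgroup.orderOf_coe] at hg
  have := hfaith g (principal_ker_of_cent hχ (by
    rw [hg]; exact fun a => e ((Nat.prime_dvd_prime_iff_eq Fact.out hq).1 a).symm)
    (fun a => P.not_dvd_index (a.trans (Subgroup.index_dvd_of_le fun x hx =>
      Subgroup.mem_centralizer_singleton_iff.2 (g.2 x hx)))) (.inr ⟨hdeg, hperf⟩))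
  rw [this, orderOf_one] at hg
  exact hq.one_lt.ne hg

end Cfsg.Agent.S4729
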