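import Cfsg.Statements.S4730
import Mathlib
import Cfsg.Agent.H4.BT
import Cfsg.Agent.L0.Kaz2

set_option autoImplicit false
open Cfsg

namespace Cfsg.Agent.S4730

open Cfsg Subgroup CfsgH4 CfsgL0
open CfsgH3 hiding cj cj_cj

/-- Let p be a prime, M a maximal ideal of the algebraic integers containing p, and G a finite group with trivial centre, Sylow p-subgroup P of order p^a and centre Z(P) of order p^b. If χ is a faithful irreducible character of G whose degree is a power of p, then the p-block of χ has defect at most a − b; in particular, if P is abelian then χ lies in a block of defect zero. -/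
theorem result {G : Type*} [Group G] [Finite G] (p : ℕ) [Fact p.Prime] (M : Ideal Cfsg.AlgInt) (hM : Cfsg.IsPModular p M) (hZ : Subgroup.center G = ⊥) (P : Sylow p G) (a b : ℕ) (ha : Nat.card P = p ^ a) (hb : Nat.card (Subgroup.center ↥(P : Subgroup G)) = p ^ b) (χ : Cfsg.IrrCharacter G) (hfaith : ∀ g : G, (χ : G → ℂ) g = (χ : G → ℂ) 1 → g = 1) (n : ℕ) (hdeg : Cfsg.charDegree (χ : G → ℂ) = p ^ n) : Cfsg.blockDefect p (Cfsg.blockOf M (χ : G → ℂ)) ≤ a - b ∧ (IsMulCommutative ↥(P : Subgroup G) → Cfsg.blockDefect p (Cfsg.blockOf M (χ : G → ℂ)) = 0) := by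
  classical
  have hp : p.Prime := Fact.out
  have : PMod p M := ⟨hM⟩
  have hd := (coe_charDegree χ.2.isCharacter).symm
  let Z := (center (P : Subgroup G)).map (P : Subgroup G).subtype
  have hZc : Nat.card Z = p ^ b := by rw [card_map_of_injective (subtype_injective _), hb]
  have h1 : ∀ z ∈ Z, ¬ p ∣ (centralizer ({z} : Set G)).index := by
    rintro _ ⟨z, hz, rfl⟩
    exact not_dvd_cs (CfsgH2.syl_top P) fun x hx => mem_c1.2 (congrArg Subtype.val (mem_center_iff.1 hz ⟨x, hx⟩))
  have h2 : ∀ z ∈ Z, z ≠ 1 → χ.1 z = 0 := fun z hz z1 =>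
    (χ.2.eq_zero_or_norm_eq_of_coprime hd z (hdeg ▸ ((hp.coprime_iff_not_dvd.2 (h1 z hz)).pow_left _))).resolve_right
      fun h => z1 (mem_bot.1 (hZ.le (mem_center_iff.2 fun g => by
        have := hfaith _ (χ.2.isCharacter.mem_charKer.1
          (χ.2.isCharacter.commutator_mem_charKer (χ.2.isCharacter.mem_charCenter.2 h) g))
        rwa [mul_inv_eq_one, mul_inv_eq_iff_eq_mul] at this)))
  have := Fintype.ofFinite Z
  have key : ∀ ψ ∈ blockOf M χ.1, b ≤ (charDegree ψ.1).factorization p := fun ψ hψ => by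
    obtain ⟨m, hm⟩ := (ψ.2.isCharacter.restrict Z).exists_nat_classInner (isIrr_one (G := Z)).isCharacter
    have h3 := InP.sum Finset.univ (fun z : Z => χ.1 z / χ.1 1 - ψ.1 z / ψ.1 1) fun (z : Z) _ => by
      convert InP.mul_left (inv_natCast_mem_Loc (h1 z z.2)) (hψ z) using 1
      have : ((centralizer ({(z : G)} : Set G)).index : ℂ) ≠ 0 := Nat.cast_ne_zero.2 index_ne_zero_of_finite
      simp only [centralChar]; field_simp
    have h4 : ∑ z : Z, ψ.1 z = (p ^ b * m : ℕ) := by
      rw [Nat.cast_mul, ← hm, ← hZc, classInner]; simp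
    rw [Finset.sum_sub_distrib, ← Finset.sum_div, ← Finset.sum_div, Finset.sum_eq_single (1 : Z)
      (fun z _ h => h2 z z.2 (by simpa using h)) (by simp), h4, ← coe_charDegree ψ.2.isCharacter, OneMemClass.coe_one,
      div_self χ.2.apply_one_ne_zero] at h3
    have h5 : ¬ MemLocalIdeal M (((p ^ b * m : ℕ) : ℂ) / charDegree ψ.1) := fun h => not_InP_one (M := M) (by
      simpa using InP.add h3 h)
    have m0 : m ≠ 0 := by rintro rfl; exact h5 (by simpa using InP.zero)
    rw [InP_div_iff (mul_ne_zero (pow_ne_zero _ hp.ne_zero) m0) (charDegree_ne_zero ψ.2),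
      Nat.factorization_mul (pow_ne_zero _ hp.ne_zero) m0, hp.factorization_pow] at h5
    simp at h5; omega
  have h6 : blockDefect p (blockOf M χ.1) ≤ a - b := by
    have := P.card_eq_multiplicity
    rw [ha] at this
    rw [blockDefect, ← Nat.pow_right_injective hp.two_le this]
    exact Nat.sub_le_sub_left (le_csInf (Set.Nonempty.image _ ⟨χ, mem_blockOf_self χ⟩) (by rintro _ ⟨ψ, hψ, rfl⟩; exact key ψ hψ)) a
  refine ⟨h6, fun h => ?_⟩
  rw [center_eq_top, card_top, ha] at hb
  rw [Nat.pow_right_injective hp.two_le hb] at h6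
  omega

end Cfsg.Agent.S4730
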