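import Cfsg.Statements.S4735
import Mathlib
import Cfsg.Agent.H4.P0

set_option autoImplicit false
open Cfsg

open Cfsg CfsgH4 CfsgH1 CfsgL0 MonoidAlgebra Function
open CfsgH3 hiding cj cj_cj
open scoped ComplexConjugate Pointwise

namespace Cfsg.Agent.S4735

theorem transfer {G : Type*} [Group G] [Finite G] {p : ℕ} [Fact p.Prime] {M : Ideal AlgInt}
    [PMod p M] {A : Type*} [AddCommMonoid A] (f : IrrCharacter G → A) :
    ∑ᶠ χ ∈ principalBlock M G, f χ = ∑ᶠ ψ ∈ principalBlock M (G ⧸ pPrimeCore p G),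
      f (irrComp _ (QuotientGroup.mk'_surjective _) ψ) := by
  have h := principal_comap_of_not_dvd (M := M) (QuotientGroup.mk'_surjective (pPrimeCore p G))
    (by rw [QuotientGroup.ker_mk']; exact not_dvd_card_pPrimeCore p)
  refine (finsum_mem_eq_of_bijOn _ ⟨fun ψ hψ => ?_, (irrComp_injective _ _).injOn, fun χ hχ => ?_⟩
    fun _ _ => rfl).symm
  · rwa [← h] at hψ
  · obtain ⟨ψ, rfl⟩ := exists_irrComp_eq_of_ker (QuotientGroup.mk'_surjective (pPrimeCore p G))
      (ξ := χ) fun n hn => principal_ker hχ (by simpa using hn)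
    exact ⟨ψ, h ▸ hχ, rfl⟩

theorem coe_sum {G : Type*} [Group G] [Finite G] (B : Set (IrrCharacter G)) (x : G) :
    ((∑ᶠ χ ∈ B, Complex.normSq (χ.1 x) : ℝ) : ℂ) = colB B x x := by
  classical
  have := Fintype.ofFinite G
  rw [finsum_mem_irr, colB_apply, Complex.ofReal_sum]
  refine Finset.sum_congr rfl fun χ _ => ?_
  split_ifs <;> simp [Complex.mul_conj]

/-- Let p be a prime, M a maximal ideal of the algebraic integers containing p, G a finite group, H = O_p'(G) and Ḡ = G/H. For x ∈ G write λ(G, x) for the sum of |χ(x)|^2 over the irreducible characters χ in the principal p-block of G. Then λ(G, x) is a positive integer, λ(G, x) = λ(Ḡ, x̄) where x̄ is the image of x, and λ(G, x) ≤ #C_Ḡ(x̄). Moreover λ(G, 1) = [G : H] if and only if the principal block is the only p-block of Ḡ. -/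
theorem result {G : Type*} [Group G] [Finite G] (p : ℕ) [Fact p.Prime] (M : Ideal Cfsg.AlgInt) (hM : Cfsg.IsPModular p M) (x : G) : (∃ n : ℕ, 0 < n ∧ ∑ᶠ χ ∈ Cfsg.principalBlock M G, Complex.normSq ((χ : G → ℂ) x) = n) ∧ ∑ᶠ χ ∈ Cfsg.principalBlock M G, Complex.normSq ((χ : G → ℂ) x) = ∑ᶠ ψ ∈ Cfsg.principalBlock M (G ⧸ Cfsg.pPrimeCore p G), Complex.normSq ((ψ : G ⧸ Cfsg.pPrimeCore p G → ℂ) (QuotientGroup.mk x)) ∧ ∑ᶠ χ ∈ Cfsg.principalBlock M G, Complex.normSq ((χ : G → ℂ) x) ≤ (Nat.card ↥(Subgroup.centralizer ({(QuotientGroup.mk x : G ⧸ Cfsg.pPrimeCore p G)} : Set (G ⧸ Cfsg.pPrimeCore p G))) : ℝ) ∧ ((∑ᶠ χ ∈ Cfsg.principalBlock M G, Cfsg.charDegree (χ : G → ℂ) ^ 2) = (Cfsg.pPrimeCore p G).index ↔ ∀ B : Set (Cfsg.IrrCharacter (G ⧸ Cfsg.pPrimeCore p G)), Cfsg.IsPBlock M B → B = Cfsg.principalBlock M (G ⧸ Cfsg.pPrimeCore p G)) := by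
  classical
  haveI : PMod p M := ⟨hM⟩
  have := Fintype.ofFinite G
  have := Fintype.ofFinite (G ⧸ pPrimeCore p G)
  refine ⟨?_, transfer _, ?_, ?_⟩
  · obtain ⟨n, hn⟩ : ∃ n : ℤ, colB (principalBlock M G) x x = n := by
      refine exists_int_of_fixed ?_ fun σ => ?_
      · rw [colB_apply]
        refine IsIntegral.sum _ fun χ _ => ?_
        split_ifs
        · exact (χ.2.isCharacter.isIntegral x).mul (χ.2.conj.isCharacter.isIntegral x)
        · exact isIntegral_zero
      obtain ⟨k, hk, h⟩ := exists_pow_of_ringHom_char G σ.toRingHom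
      have hi : Injective (irrPw k : IrrCharacter G → _) := fun a b e => Subtype.ext (funext
        fun g => by
          obtain ⟨g, rfl⟩ := (powCoprime hk.symm).surjective g
          rw [powCoprime_apply, ← irrPw_apply hk, e, irrPw_apply hk])
      nth_rw 2 [colB_apply_finsum]
      rw [← finsum_mem_eq_of_bijOn (irrPw k) ((Set.toFinite _).injOn_iff_bijOn_of_mapsTo
        (fun χ h => pw_mem_principal h) |>.1 hi.injOn) fun _ _ => rfl, finsum_mem_irr, colB_apply,
        map_sum]
      refine Finset.sum_congr rfl fun χ _ => ?_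
      split_ifs
      · rw [map_mul, irrPw_apply hk]
        exact congrArg₂ _ (h _ χ.2.isCharacter.isGen x) (h _ χ.2.conj.isCharacter.isGen x)
      · simp
    rw [← coe_sum] at hn
    have h1 : ∑ᶠ χ ∈ principalBlock M G, Complex.normSq (χ.1 x) = n := by exact_mod_cast hn
    have h2 : (1 : ℝ) ≤ n := by
      rw [← h1, finsum_mem_irr]
      refine le_trans ?_ (Finset.single_le_sum (fun χ _ => ?_) (Finset.mem_univ (irrOne G)))
      · rw [if_pos irrOne_mem_principal]; simp [irrOne]
      · split_ifs; exacts [Complex.normSq_nonneg _, le_rfl]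
    have h3 : 1 ≤ n := by exact_mod_cast h2
    lift n to ℕ using by omega
    exact ⟨n, by omega, by simpa using h1⟩
  · have h := coe_sum (Set.univ : Set (IrrCharacter (G ⧸ pPrimeCore p G))) x
    rw [colB_univ, classInd_of_isConj (IsConj.refl _), mul_one] at h
    rw [transfer, ← show _ = (Nat.card _ : ℝ) by exact_mod_cast h, finsum_mem_irr, finsum_mem_irr]
    refine Finset.sum_le_sum fun χ _ => ?_
    rw [if_pos (Set.mem_univ _)]
    split_ifs; exacts [le_rfl, Complex.normSq_nonneg _]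
  · rw [transfer, finsum_mem_irr, Subgroup.index, ← sum_deg_sq_nat]
    simp only [charDegree_irrComp]
    rw [Finset.sum_eq_sum_iff_of_le fun χ _ => by split_ifs <;> simp]
    refine ⟨fun h B hB => ?_, fun h χ _ => if_pos (h _ (isPBlock_blockOf χ.2) ▸ mem_blockOf_self χ)⟩
    obtain ⟨χ, hχ⟩ := hB.nonempty
    refine hB.eq_of_mem isPBlock_principal hχ (by_contra fun e => ?_)
    have := h χ (Finset.mem_univ _)
    rw [if_neg e] at this
    exact pow_ne_zero 2 (charDegree_ne_zero χ.2) this.symm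

end Cfsg.Agent.S4735
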