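import Cfsg.Statements.S4736
import Mathlib
import Cfsg.Agent.H4.FongP
import Cfsg.Agent.S4713

set_option autoImplicit false
open Cfsg

open Cfsg CfsgH4 CfsgH1 CfsgL0 MonoidAlgebra Function
open CfsgH3 hiding cj cj_cj
open scoped ComplexConjugate Pointwise

namespace Cfsg.Agent.S4736

/-- Let p be a prime, M a maximal ideal of the algebraic integers containing p, and G a finite p-solvable group with Sylow p-subgroup P. Then P is abelian if and only if every irreducible character in the principal p-block of G has height zero. -/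
theorem result {G : Type*} [Group G] [Finite G] (p : ℕ) [Fact p.Prime] (M : Ideal Cfsg.AlgInt) (hM : Cfsg.IsPModular p M) (hsolv : Cfsg.IsPSolvable p G) (P : Sylow p G) : IsMulCommutative P ↔ ∀ χ ∈ Cfsg.principalBlock M G, Cfsg.blockHeight p (Cfsg.principalBlock M G) (χ : G → ℂ) = 0 := by
  haveI : PMod p M := ⟨hM⟩
  have hf := QuotientGroup.mk'_surjective (pPrimeCore p G)
  have hs := IsPSolvable.quotient' hsolv (pPrimeCore p G)
  have hi : Injective ((QuotientGroup.mk' (pPrimeCore p G)).comp (P : Subgroup G).subtype) := by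
    rw [injective_iff_map_eq_one]
    intro x hx
    have : x.1 ∈ (P : Subgroup G) ⊓ pPrimeCore p G := ⟨x.2, (QuotientGroup.eq_one_iff _).1 hx⟩
    rw [Subgroup.inf_eq_bot_of_coprime (by
      obtain ⟨k, hk⟩ := P.isPGroup'.exists_card_eq
      exact hk ▸ (coprime_pPrimeCore p).symm.pow_left k)] at this
    exact Subtype.ext this
  have h1 := S4713.result p hs (P.mapSurjective hf)
  have h2 : (∀ χ ∈ principalBlock M G, blockHeight p (principalBlock M G) χ.1 = 0) ↔
      ∀ χ : IrrCharacter (G ⧸ pPrimeCore p G), ¬ p ∣ charDegree χ.1 := by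
    refine ⟨fun h χ e => ?_, fun h χ hχ => ?_⟩
    · have h3 := (mem_principal_iff_of_psolv (M := M) hsolv (χ := irrComp _ hf χ)).2 fun n hn =>
        irrComp_ker hf χ (by rwa [QuotientGroup.ker_mk'])
      have h4 := h _ h3
      rw [height_principal h3, charDegree_irrComp] at h4
      exact ((Fact.out : p.Prime).factorization_pos_of_dvd (charDegree_ne_zero χ.2) e).ne' h4
    · obtain ⟨η, rfl⟩ := exists_irrComp_eq_of_ker hf (ξ := χ) (by
        rw [QuotientGroup.ker_mk']; exact (mem_principal_iff_of_psolv hsolv).1 hχ)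
      rw [height_principal hχ, charDegree_irrComp, Nat.factorization_eq_zero_of_not_dvd (h η)]
  rw [h2, ← h1]
  refine ⟨fun h => ?_, fun h => ⟨⟨fun a b => hi ?_⟩⟩⟩
  · have h3 : ∀ a ∈ (P.mapSurjective hf : Subgroup (G ⧸ pPrimeCore p G)), ∀ b ∈ (P.mapSurjective hf : Subgroup (G ⧸ pPrimeCore p G)),
        a * b = b * a := by
      rintro _ ⟨a, ha, rfl⟩ _ ⟨b, hb, rfl⟩
      rw [← map_mul, ← map_mul]
      exact congrArg (fun x : P => QuotientGroup.mk' _ x.1) (h.is_comm.comm ⟨a, ha⟩ ⟨b, hb⟩)
    have h4 := (isSylowIn_top (P.mapSurjective hf)).ge_of_le_normalizer (isPGroup_pCore p) le_top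
      (le_top.trans (top_le_norm _))
    have h5 := le_antisymm h4 (le_trans (b := Subgroup.centralizer _) (fun a ha b hb => h3 b (h4 hb) a ha)
      (centralizer_pCore_le hs (pPrimeCore_quotient_pPrimeCore p)))
    exact ⟨h5 ▸ inferInstance, ⟨⟨fun a b => Subtype.ext (h3 _ a.2 _ b.2)⟩⟩⟩
  · rw [map_mul, map_mul]
    exact congrArg Subtype.val (h.2.is_comm.comm ⟨_, a, a.2, rfl⟩ ⟨_, b, b.2, rfl⟩)

end Cfsg.Agent.S4736
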