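import Cfsg.Statements.S4955
import Mathlib
import Cfsg.Agent.H4.KG
import Cfsg.Agent.H4.KG2

set_option autoImplicit false
open Cfsg

open Cfsg CfsgH4 CfsgH3 CfsgH4.KG Subgroup

namespace Cfsg.Agent.S4955

/-- Let X be a finite group with an abelian normal Sylow p-subgroup V (a normal p-subgroup of index prime to p in which any two elements commute), and let G be a complement to V in X. Then for every v in V, writing C for the centralizer of v in G, the number k(X) of conjugacy classes of X satisfies k(X) ≤ (order of C)·(order of V) − ((order of G) − k(G)); the statement is written with the subtracted term moved to the left. In particular, if some v in V is centralized by no nonidentity element of G, then k(X) is at most the order of V. -/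
theorem result {X : Type*} [Group X] [Finite X] (p : ℕ) [Fact p.Prime] (V : Subgroup X) [V.Normal] (hVp : IsPGroup p V) (hidx : ¬ p ∣ V.index) (hab : ∀ a ∈ V, ∀ b ∈ V, a * b = b * a) (G : Subgroup X) (hGV : Subgroup.IsComplement' V G) (v : X) (hv : v ∈ V) : Nat.card (ConjClasses X) + Nat.card G ≤ Nat.card ↥(G ⊓ Subgroup.centralizer ({v} : Set X)) * Nat.card V + Nat.card (ConjClasses G) := by
  classical
  have : Fintype X := Fintype.ofFinite X
  have hp : p.Prime := Fact.out
  let s : Finset X := Finset.univ.filter fun g => ∃ k : ℕ, k.Coprime (Nat.card X) ∧ g = v ^ k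
  have hs : ∀ g ∈ s, ∀ k : ℕ, k.Coprime (Nat.card X) → g ^ k ∈ s := by
    intro g hg k hk
    obtain ⟨j, hj, rfl⟩ := (Finset.mem_filter.1 hg).2
    exact Finset.mem_filter.2 ⟨Finset.mem_univ _, j * k, Nat.Coprime.mul_left hj hk, by rw [pow_mul]⟩
  have hsV : ∀ g ∈ s, g ∈ V := by
    intro g hg
    obtain ⟨j, hj, rfl⟩ := (Finset.mem_filter.1 hg).2
    exact pow_mem hv j
  have hs0 : (0 : ℝ) < s.card := by
    have hvs : v ∈ s := Finset.mem_filter.2 ⟨Finset.mem_univ _, 1, by simp, by simp⟩
    exact_mod_cast Finset.card_pos.2 ⟨v, hvs⟩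
  have hC : ∀ g ∈ s, Nat.card (centralizer ({g} : Set X)) ≤
      Nat.card ↥(G ⊓ centralizer ({v} : Set X)) * Nat.card V := by
    intro g hg
    obtain ⟨j, hj, rfl⟩ := (Finset.mem_filter.1 hg).2
    rw [mul_comm]
    refine card_le_mul fun c hc => ?_
    obtain ⟨⟨a, b⟩, rfl⟩ := hGV.2 c
    refine ⟨a, a.2, b, ⟨b.2, ?_⟩, rfl⟩
    obtain ⟨m, hm⟩ := exists_pow_eq_self_of_coprime (x := v)
      (hj.coprime_dvd_right (orderOf_dvd_natCard v))
    have h1 : Commute ((a : X) * b) v := by
      rw [← hm]; exact (show Commute ((a : X) * b) (v ^ j) from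
        mem_centralizer_singleton_iff.1 hc).pow_right m
    have h2 : Commute (a : X) v := hab _ a.2 _ hv
    have h3 := h2.inv_left.mul_left h1
    rw [inv_mul_cancel_left] at h3
    exact mem_centralizer_singleton_iff.2 h3
  have hnz : ∀ χ : IrrCharacter X, ∀ g ∈ s, χ.1 g ≠ 0 := by
    intro χ g hg
    obtain ⟨k, hk⟩ := hVp ⟨g, hsV g hg⟩
    refine χ.2.isCharacter.isGen.apply_ne_zero_of_not_dvd hp (k := k)
      (by simpa using congrArg Subtype.val hk) (coe_charDegree χ.2.isCharacter).symm fun h => hidx ?_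
    refine h.trans (χ.2.degree_dvd_index_of_abelian_normal (coe_charDegree χ.2.isCharacter).symm V
      fun a ha b hb => ?_)
    rw [hab a ha b hb]; simp
  let Kp : IrrCharacter X → Prop := fun χ => ∀ k ∈ V, χ.1 k = χ.1 1
  have e : X ⧸ V ≃* G := hGV.symm.QuotientMulEquiv
  have c1 : (Finset.univ.filter Kp).card = Nat.card (ConjClasses G) := by
    rw [Finset.card_eq_sum_ones, sum_irr_quot V (fun _ => 1), ← Finset.card_eq_sum_ones,
      Finset.card_univ, ← Nat.card_eq_fintype_card, card_irr_eq_card_conjClasses, card_cc_congr e]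
  have c2 : ∑ χ ∈ Finset.univ.filter Kp, ‖χ.1 1‖ ^ 2 = Nat.card G := by
    rw [sum_irr_quot V (fun χ => ‖χ 1‖ ^ 2), ← Nat.card_congr e.toEquiv, ← sum_deg_sq_real]
    refine Finset.sum_congr rfl fun β _ => ?_
    rw [← norm_one_eq β.2.isCharacter]; rfl
  have c3 : (Finset.univ.filter Kp).card + (Finset.univ.filter fun χ => ¬ Kp χ).card =
      Nat.card (ConjClasses X) := by
    rw [Finset.card_filter_add_card_filter_not, Finset.card_univ, ← Nat.card_eq_fintype_card,
      card_irr_eq_card_conjClasses]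
  have h1 : ∀ g ∈ s, (Nat.card G : ℝ) + ∑ χ ∈ Finset.univ.filter fun χ => ¬ Kp χ, ‖χ.1 g‖ ^ 2 ≤
      Nat.card ↥(G ⊓ centralizer ({v} : Set X)) * Nat.card V := by
    intro g hg
    have h2 := column_orthogonality_self g
    rw [← Finset.sum_filter_add_sum_filter_not _ Kp, Finset.sum_congr rfl fun χ hχ => by
      rw [(Finset.mem_filter.1 hχ).2 g (hsV g hg)], c2] at h2
    rw [h2]
    exact_mod_cast hC g hg
  have h2 := Finset.sum_le_sum h1
  rw [Finset.sum_add_distrib, Finset.sum_comm, Finset.sum_const, Finset.sum_const] at h2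
  have h3 := Finset.sum_le_sum fun (χ : IrrCharacter X) (_ : χ ∈ Finset.univ.filter fun χ => ¬ Kp χ) =>
    card_le_sum_norm_sq χ.2.isCharacter.isGen s hs (hnz χ)
  rw [Finset.sum_const] at h3
  simp only [nsmul_eq_mul] at h2 h3
  rw [← c3, ← c1]
  have h4 : (Nat.card G : ℝ) + (Finset.univ.filter fun χ => ¬ Kp χ).card ≤
      Nat.card ↥(G ⊓ centralizer ({v} : Set X)) * Nat.card V := by
    refine le_of_mul_le_mul_left ?_ hs0
    linarith
  have h5 : Nat.card G + (Finset.univ.filter fun χ => ¬ Kp χ).card ≤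
      Nat.card ↥(G ⊓ centralizer ({v} : Set X)) * Nat.card V := by exact_mod_cast h4
  omega

end Cfsg.Agent.S4955
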