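import Cfsg.Statements.S4956
import Mathlib
import Cfsg.Agent.H4.KG

set_option autoImplicit false
open Cfsg

open Cfsg CfsgH4 CfsgH4.KG Subgroup

namespace Cfsg.Agent.S4956

theorem card_sub_sum {α β : Type*} [Fintype α] [Finite β] (P : α → β → Prop) :
    Nat.card {p : α × β // P p.1 p.2} = ∑ a, Nat.card {b // P a b} := by
  rw [← Nat.card_sigma]
  exact Nat.card_congr (Equiv.subtypeProdEquivSigmaSubtype P)

/-- Let X be a finite group, V an abelian normal subgroup of X (any two elements of V commute) and G a complement to V in X whose order is coprime to that of V. Let S be a set of representatives of the orbits of G on V under conjugation: S lies in V and every element of V is conjugate under G to exactly one member of S. Then the number of conjugacy classes of X equals the sum, over s in S, of the number of conjugacy classes of the centralizer of s in G. -/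
theorem result {X : Type*} [Group X] [Finite X] (V : Subgroup X) [V.Normal] (hab : ∀ a ∈ V, ∀ b ∈ V, a * b = b * a) (G : Subgroup X) (hGV : Subgroup.IsComplement' V G) (hcop : (Nat.card V).Coprime (Nat.card G)) (S : Finset X) (hSV : ∀ s ∈ S, s ∈ V) (hrep : ∀ v ∈ V, ∃! s, s ∈ S ∧ ∃ g ∈ G, g * v * g⁻¹ = s) : Nat.card (ConjClasses X) = ∑ s ∈ S, Nat.card (ConjClasses ↥(G ⊓ Subgroup.centralizer ({s} : Set X))) := by
  classical
  letI : CommGroup V := { (inferInstance : Group V) with
    mul_comm := fun a b => Subtype.ext (hab a a.2 b b.2) }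
  have : Fintype X := Fintype.ofFinite X
  let φ : G →* MulAut V := (MulAut.conjNormal (H := V)).comp G.subtype
  have hφ : ∀ (g : G) (v : V), ((φ g v : V) : X) = g * v * g⁻¹ := fun g v => by simp [φ]
  let e : V × G ≃ X := Equiv.ofBijective _ hGV
  have he : ∀ p : V × G, e p = p.1 * p.2 := fun _ => rfl
  let C : X → Subgroup X := fun v => G ⊓ centralizer {v}
  let κ : X → ℕ := fun v => Nat.card (ConjClasses (C v))
  -- step 1
  have s1 : Nat.card {p : X × X // Commute p.1 p.2} =
      ∑ q : G × G, Nat.card {p : V × V // Commute q.1 q.2 ∧ p.1 * φ q.1 p.2 = p.2 * φ q.2 p.1} := by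
    rw [← card_sub_sum (fun (q : G × G) (p : V × V) =>
      Commute q.1 q.2 ∧ p.1 * φ q.1 p.2 = p.2 * φ q.2 p.1)]
    symm
    refine Nat.card_congr (Equiv.subtypeEquiv
      (((Equiv.prodComm _ _).trans (Equiv.prodProdProdComm _ _ _ _)).trans
        (Equiv.prodCongr e e)) ?_)
    rintro ⟨⟨g, h⟩, ⟨a, b⟩⟩
    simp only [Equiv.trans_apply, Equiv.prodComm_apply, Prod.swap_prod_mk,
      Equiv.prodProdProdComm_apply, Equiv.prodCongr_apply, Prod.map_fst, Prod.map_snd]
    have k1 : e (a, g) * e (b, h) = e (a * φ g b, g * h) := by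
      simp only [he, coe_mul, hφ, coe_inv]; group
    have k2 : e (b, h) * e (a, g) = e (b * φ h a, h * g) := by
      simp only [he, coe_mul, hφ, coe_inv]; group
    simp only [Commute, SemiconjBy, k1, k2, e.apply_eq_iff_eq, Prod.mk.injEq]
    exact and_comm
  have s2 : ∀ q : G × G,
      Nat.card {p : V × V // Commute q.1 q.2 ∧ p.1 * φ q.1 p.2 = p.2 * φ q.2 p.1} =
        Nat.card V * Nat.card {v : V // Commute q.1 q.2 ∧ φ q.1 v = v ∧ φ q.2 v = v} := by
    intro q
    by_cases hq : Commute q.1 q.2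
    · simp only [hq, true_and]
      exact card_ker_pair φ hcop q.1 q.2
    · simp [hq]
  have s3 : ∑ q : G × G, Nat.card {v : V // Commute q.1 q.2 ∧ φ q.1 v = v ∧ φ q.2 v = v} =
      ∑ v : V, κ v * Nat.card (C v) := by
    rw [← card_sub_sum (fun (q : G × G) (v : V) =>
      Commute q.1 q.2 ∧ φ q.1 v = v ∧ φ q.2 v = v)]
    refine (Nat.card_congr (Equiv.subtypeEquiv (Equiv.prodComm (G × G) V) (q := fun p =>
      Commute p.2.1 p.2.2 ∧ φ p.2.1 p.1 = p.1 ∧ φ p.2.2 p.1 = p.1) fun _ => Iff.rfl)).trans ?_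
    rw [card_sub_sum (fun (v : V) (q : G × G) =>
      Commute q.1 q.2 ∧ φ q.1 v = v ∧ φ q.2 v = v)]
    refine Finset.sum_congr rfl fun v _ => ?_
    rw [← card_comm_eq_card_conjClasses_mul_card]
    have hm : ∀ g : G, φ g v = v ↔ (g : X) ∈ C v := fun g => by
      simp only [C, mem_inf, g.2, true_and, mem_centralizer_singleton_iff, Subtype.ext_iff, hφ,
        coe_inv, mul_inv_eq_iff_eq_mul]
    refine Nat.card_congr
      { toFun := fun q => ⟨(⟨q.1.1, (hm _).1 q.2.2.1⟩, ⟨q.1.2, (hm _).1 q.2.2.2⟩),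
          Subtype.ext (congrArg Subtype.val q.2.1 :)⟩
        invFun := fun q => ⟨(⟨q.1.1, q.1.1.2.1⟩, ⟨q.1.2, q.1.2.2.1⟩),
          Subtype.ext (congrArg Subtype.val q.2 :), (hm _).2 q.1.1.2, (hm _).2 q.1.2.2⟩
        left_inv := fun _ => rfl
        right_inv := fun _ => rfl }
  have hκ : ∀ (v : X) (t : G), κ ((t : X)⁻¹ * v * t) = κ v := by
    intro v t
    have : (C v).map (MulAut.conj (t : X)⁻¹).toMonoidHom = C ((t : X)⁻¹ * v * t) := by
      ext x
      simp only [C, mem_map, mem_inf, mem_centralizer_singleton_iff, MulEquiv.coe_toMonoidHom,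
        MulAut.conj_apply, inv_inv]
      constructor
      · rintro ⟨y, ⟨h1, h2⟩, rfl⟩
        refine ⟨mul_mem (mul_mem (inv_mem t.2) h1) t.2, ?_⟩
        calc _ = (t : X)⁻¹ * (y * v) * t := by group
          _ = _ := by rw [h2]; group
      · rintro ⟨h1, h2⟩
        refine ⟨t * x * t⁻¹, ⟨mul_mem (mul_mem t.2 h1) (inv_mem t.2), ?_⟩, by simp [mul_assoc]⟩
        simp only [coe_inv]
        calc _ = t * (x * ((t : X)⁻¹ * v * t)) * (t : X)⁻¹ := by group
          _ = _ := by rw [h2]; group
    simp only [κ]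
    rw [← this]
    exact (card_cc_congr ((C v).equivMapOfInjective _ (MulAut.conj (t : X)⁻¹).injective)).symm
  have hC : ∀ v : V, Nat.card (C v) = ∑ s ∈ S, ∑ t : G, if (t : X) * v * (t : X)⁻¹ = s then 1 else 0 := by
    intro v
    rw [Finset.sum_comm]
    obtain ⟨s, ⟨hs, g, hg, hgs⟩, hu⟩ := hrep v v.2
    have : ∀ t : G, (∑ s ∈ S, if (t : X) * v * (t : X)⁻¹ = s then 1 else 0) =
        if (t : X) * v * (t : X)⁻¹ = s then 1 else 0 := by
      intro t
      rw [Finset.sum_ite_eq]
      congr 1
      exact propext ⟨fun h => hu _ ⟨h, t, t.2, rfl⟩, fun h => h ▸ hs⟩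
    rw [Finset.sum_congr rfl fun t _ => this t, Finset.sum_boole, Nat.cast_id,
      ← Fintype.card_subtype, ← Nat.card_eq_fintype_card]
    refine Nat.card_congr
      { toFun := fun c => ⟨⟨g * c, mul_mem hg c.2.1⟩, ?_⟩
        invFun := fun t => ⟨g⁻¹ * t.1, mem_inf.2 ⟨mul_mem (inv_mem hg) t.1.2, ?_⟩⟩
        left_inv := fun c => by simp
        right_inv := fun c => by simp }
    · have := mem_centralizer_singleton_iff.1 c.2.2
      rw [← hgs]
      calc _ = g * (c * v) * (c : X)⁻¹ * g⁻¹ := by simp only []; group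
        _ = _ := by rw [this]; group
    · have := t.2.trans hgs.symm
      rw [mem_centralizer_singleton_iff]
      calc _ = g⁻¹ * (t.1 * v * (t.1 : X)⁻¹) * t.1 := by group
        _ = _ := by rw [this]; group
  have s4 : ∑ v : V, κ v * Nat.card (C v) = (∑ s ∈ S, κ s) * Nat.card G := by
    simp only [hC, Finset.mul_sum, mul_ite, mul_one, mul_zero]
    rw [Finset.sum_comm, Finset.sum_mul]
    refine Finset.sum_congr rfl fun s hs => ?_
    rw [Finset.sum_comm]
    have : ∀ t : G, (∑ v : V, if (t : X) * v * (t : X)⁻¹ = s then κ v else 0) = κ s := by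
      intro t
      rw [Finset.sum_eq_single (φ t⁻¹ ⟨s, hSV s hs⟩)]
      · rw [hφ, if_pos (by simp [mul_assoc])]
        simpa using hκ s t
      · intro b _ hb
        rw [if_neg]
        intro h
        apply hb
        apply Subtype.ext
        rw [hφ]
        simp [← h, mul_assoc]
      · simp
    rw [Finset.sum_congr rfl fun t _ => this t, Finset.sum_const, Finset.card_univ,
      ← Nat.card_eq_fintype_card, smul_eq_mul, mul_comm]
  rw [card_comm_eq_card_conjClasses_mul_card, Finset.sum_congr rfl fun q _ => s2 q,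
    ← Finset.mul_sum, s3, s4, ← hGV.card_mul_card] at s1
  refine Nat.eq_of_mul_eq_mul_right (Nat.mul_pos (Nat.card_pos (α := V)) (Nat.card_pos (α := G))) ?_
  rw [s1]
  ring

end Cfsg.Agent.S4956
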