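import Cfsg.Statements.S4958
import Mathlib
import Cfsg.Agent.H4.KG2

set_option autoImplicit false
open Cfsg

open Cfsg CfsgH4 CfsgH3 CfsgH4.KG Subgroup

namespace Cfsg.Agent.S4958

theorem aux {X : Type*} [Group X] [Finite X] (p : ℕ) [Fact p.Prime] (V : Subgroup X) [V.Normal] (hVexp : ∀ v ∈ V, v ^ p = 1) (hidx : ¬ p ∣ V.index) (hself : Subgroup.centralizer (V : Set X) = V) (G : Subgroup X) (hGV : Subgroup.IsComplement' V G) (v : X) (hv : v ∈ V) (hv1 : v ≠ 1) (hab : ∀ a ∈ G ⊓ Subgroup.centralizer ({v} : Set X), ∀ b ∈ G ⊓ Subgroup.centralizer ({v} : Set X), a * b = b * a) : Nat.card (ConjClasses X) ≤ Nat.card V := by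
  classical
  have hp : p.Prime := Fact.out
  set H := G ⊓ centralizer ({v} : Set X) with hH
  have hV : ∀ a ∈ V, ∀ b ∈ V, a * b = b * a := fun a ha b hb => (hself.ge hb) a ha
  have hVp : IsPGroup p V := fun x => ⟨1, Subtype.ext (by simpa using hVexp x x.2)⟩
  have hG : Nat.card G = V.index := hGV.symm.index_eq_card.symm
  have hcop : (Nat.card G).Coprime (Nat.card V) := by
    obtain ⟨n, hn⟩ := IsPGroup.iff_card.1 hVp
    rw [hn, hG]
    exact ((Nat.Prime.coprime_iff_not_dvd hp).2 hidx).symm.pow_right n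
  have ho : orderOf v = p := orderOf_eq_prime (hVexp v hv) hv1
  have hzV : zpowers v ≤ V := by simpa using hv
  have hcm : ∀ (x : zpowers v) (h : H), Commute (x : X) h := by
    rintro ⟨_, k, rfl⟩ h
    exact (show Commute (h : X) v from mem_centralizer_singleton_iff.1 h.2.2).symm.zpow_left k
  let A := zpowers v × H
  have : Fintype A := Fintype.ofFinite _
  let φ : A →* X := MonoidHom.noncommCoprod (zpowers v).subtype H.subtype hcm
  have hφ : ∀ a : A, φ a = a.1 * a.2 := fun _ => rfl
  have hc : ∀ a b : A, a * b = b * a := fun a b => Prod.ext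
    (Subtype.ext (hV _ (hzV a.1.2) _ (hzV b.1.2))) (Subtype.ext (hab _ a.2.2 _ b.2.2))
  have hpw : ∀ a : A, φ a ^ Nat.card G = a.1 ^ Nat.card G := fun a => by
    rw [hφ, (hcm a.1 a.2).mul_pow, show (a.2 : X) ^ Nat.card G = 1 from
      congrArg Subtype.val (pow_card_eq_one' (x := (⟨a.2, a.2.2.1⟩ : G))), mul_one]
  have hgood := good_dl hc V hV φ (fun a => ⟨_, hcop, by
    rw [hpw, hself]; exact pow_mem (hzV a.1.2) _⟩) V le_rfl
    fun a w hw => ‹V.Normal›.conj_mem w hw _
  obtain ⟨K1, hK0⟩ : ∃ K1 : Subgroup A, K1 = (MonoidHom.fst (zpowers v) H).ker := ⟨_, rfl⟩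
  have hK1 : ∀ a : A, a ∈ K1 ↔ a.1 = 1 := fun _ => by rw [hK0]; exact Iff.rfl
  have hi : K1.index = p := by
    rw [hK0, index_ker, MonoidHom.range_eq_top.2 Prod.fst_surjective, card_top, Nat.card_zpowers, ho]
  have hKK : K1 ⊓ (centralizer (V : Set X)).comap φ = ⊥ := by
    rw [eq_bot_iff]
    rintro a ⟨h1, h2⟩
    have h1' : a.1 = 1 := (hK1 a).1 h1
    have h2' : φ a ∈ centralizer (V : Set X) := h2
    rw [hself, hφ, h1', OneMemClass.coe_one, one_mul] at h2'
    have : (a.2 : X) ∈ V ⊓ G := ⟨h2', a.2.2.1⟩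
    rw [hGV.disjoint.eq_bot, mem_bot] at this
    exact mem_bot.2 (Prod.ext h1' (Subtype.ext this))
  have hcA : Nat.card A = p * Nat.card H := by rw [Nat.card_prod, Nat.card_zpowers, ho]
  have hw : ∀ a : A, (0 : ℝ) ≤ (p + (0 : ℕ) - if a ∈ K1 then (p : ℝ) else 0) := fun a => by
    split_ifs <;> simp
  have key : ∀ χ : IrrCharacter X, (p - 1 : ℝ) * (p * Nat.card H) ^ 2 ≤ p *
      ∑ a : A, KG.dl V (φ a) * ((p + (0 : ℕ) - if a ∈ K1 then (p : ℝ) else 0) * ‖χ.1 (φ a)‖ ^ 2) := by
    intro χ
    have := step hc K1 _ (fun a => KG.dl V (φ a)) (fun a => (dl_pos _ _).le)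
      (fun k hk a => by rw [map_mul]; exact dl_mul _ hk _) hgood 0
      (χ.2.isCharacter.isGen.comp φ) (by
        rw [hKK]; intro k hk a; rw [mem_bot.1 hk, one_mul]) (by
        rw [hi]
        refine (Finset.sum_pos' (fun a _ => ?_) ⟨(⟨v, mem_zpowers v⟩, 1), Finset.mem_univ _, ?_⟩).ne'
        · exact mul_nonneg (dl_pos V (φ a)).le (mul_nonneg (hw a) (sq_nonneg _))
        · have := dl_pos V (φ (⟨v, mem_zpowers v⟩, 1))
          have h0 : χ.1 (φ (⟨v, mem_zpowers v⟩, 1)) ≠ 0 := by
            refine χ.2.isCharacter.isGen.apply_ne_zero_of_not_dvd hp (k := 1)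
              (by simpa [hφ] using hVexp v hv) (coe_charDegree χ.2.isCharacter).symm
              fun h => hidx ?_
            refine h.trans (χ.2.degree_dvd_index_of_abelian_normal
              (coe_charDegree χ.2.isCharacter).symm V fun a ha b hb => ?_)
            rw [hV a ha b hb]; simp
          rw [if_neg (by rw [hK1]; exact fun h => hv1 (congrArg Subtype.val h))]
          have := hp.pos
          simp only [Nat.cast_zero, add_zero, sub_zero]
          positivity)
    rw [hKK, hi, hcA] at this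
    simpa using this
  have hC : ∀ a : A, a ∉ K1 → KG.dl V (φ a) * Nat.card (centralizer ({φ a} : Set X)) ≤
      Nat.card V * Nat.card H := by
    intro a ha
    have h1 : Nat.card (centralizer ({φ a} : Set X)) ≤
        Nat.card ↥(V ⊓ centralizer {φ a}) * Nat.card H := by
      refine card_le_mul fun c hc' => ?_
      obtain ⟨⟨x, b⟩, rfl⟩ := hGV.2 c
      have hvz : v ∈ zpowers (φ a) := by
        have h2 : (a.1 : X) ^ Nat.card G ∈ zpowers (φ a) := by
          rw [← hpw a]; exact pow_mem (mem_zpowers _) _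
        obtain ⟨m, hm⟩ := exists_pow_eq_self_of_coprime (x := (a.1 : X))
          (hcop.coprime_dvd_right (orderOf_dvd_natCard V (hzV a.1.2)))
        have h3 : (a.1 : X) ∈ zpowers (φ a) := hm ▸ pow_mem h2 m
        have h4 : (⟨v, mem_zpowers v⟩ : zpowers v) ∈ zpowers a.1 :=
          mem_zpowers_of_prime_card (by rw [Nat.card_zpowers, ho]) (fun h => ha ((hK1 a).2 h))
        obtain ⟨k, hk⟩ := h4
        have h5 : (a.1 : X) ^ k = v := congrArg Subtype.val hk
        have h6 := zpow_mem h3 k
        rwa [h5] at h6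
      have h1 : Commute ((x : X) * b) v := by
        obtain ⟨k, hk⟩ := hvz
        rw [← hk]
        exact (show Commute ((x : X) * b) (φ a) from
          mem_centralizer_singleton_iff.1 hc').zpow_right k
      have h2 : Commute (x : X) v := hV _ x.2 _ hv
      have h3 := h2.inv_left.mul_left h1
      rw [inv_mul_cancel_left] at h3
      have hb : (b : X) ∈ H := ⟨b.2, mem_centralizer_singleton_iff.2 h3⟩
      refine ⟨x, ⟨x.2, ?_⟩, b, hb, rfl⟩
      have h4 : (b : X) ∈ centralizer ({φ a} : Set X) := by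
        rw [mem_centralizer_singleton_iff]
        have h5 := congrArg φ (hc (1, ⟨b, hb⟩) a)
        rw [map_mul, map_mul, hφ (1, ⟨b, hb⟩)] at h5
        simpa using h5
      simpa using mul_mem hc' (inv_mem h4)
    have p1 : (0 : ℝ) < Nat.card ↥(V ⊓ centralizer {φ a}) := by exact_mod_cast Nat.card_pos
    have h2 : (Nat.card (centralizer ({φ a} : Set X)) : ℝ) ≤
        Nat.card ↥(V ⊓ centralizer {φ a}) * Nat.card H := by exact_mod_cast h1
    rw [KG.dl, div_mul_eq_mul_div, div_le_iff₀ p1, mul_assoc]
    exact mul_le_mul_of_nonneg_left (by linarith) (Nat.cast_nonneg _)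
  have h1 := Finset.sum_le_sum fun χ (_ : χ ∈ Finset.univ) => key χ
  rw [Finset.sum_const, Finset.card_univ, ← Nat.card_eq_fintype_card, card_irr_eq_card_conjClasses,
    ← Finset.mul_sum, Finset.sum_comm, nsmul_eq_mul] at h1
  simp only [← Finset.mul_sum, column_orthogonality_self] at h1
  have h2 : ∑ a : A, KG.dl V (φ a) * ((p + (0 : ℕ) - if a ∈ K1 then (p : ℝ) else 0) *
      Nat.card (centralizer ({φ a} : Set X))) ≤
      ∑ a : A, (p - if a ∈ K1 then (p : ℝ) else 0) * (Nat.card V * Nat.card H) := by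
    refine Finset.sum_le_sum fun a _ => ?_
    split_ifs with ha
    · simp
    · simp only [Nat.cast_zero, add_zero, sub_zero]
      rw [mul_left_comm]
      exact mul_le_mul_of_nonneg_left (hC a ha) (Nat.cast_nonneg _)
  have h3 : ∑ a : A, (p - if a ∈ K1 then (p : ℝ) else 0) = p * ((p - 1) * Nat.card H) := by
    rw [Finset.sum_sub_distrib, ← Finset.sum_filter, Finset.sum_const, Finset.sum_const,
      Finset.card_univ, ← Nat.card_eq_fintype_card, hcA, ← Fintype.card_subtype,
      ← Nat.card_eq_fintype_card]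
    have h4 := card_mul_index K1
    rw [hi, hcA, mul_comm] at h4
    have h5 : Nat.card {a // a ∈ K1} = Nat.card H := Nat.eq_of_mul_eq_mul_left hp.pos h4
    rw [h5]
    simp only [nsmul_eq_mul]
    push_cast; ring
  rw [← Finset.sum_mul, h3] at h2
  have p1 : (1 : ℝ) < p := by exact_mod_cast hp.one_lt
  have p2 : (0 : ℝ) < Nat.card H := by exact_mod_cast Nat.card_pos
  have p3 : (0 : ℝ) < (p - 1) * (p * Nat.card H) ^ 2 := by
    have : (0 : ℝ) < p - 1 := by linarith
    positivity
  have h6 : (Nat.card (ConjClasses X) : ℝ) ≤ Nat.card V := by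
    refine le_of_mul_le_mul_right (h1.trans ?_) p3
    refine (mul_le_mul_of_nonneg_left h2 (by positivity)).trans (le_of_eq ?_)
    ring
  exact_mod_cast h6

/-- Let X be a finite group and V a normal subgroup of X in which every element has order dividing the prime p, whose index in X is prime to p and which is its own centralizer in X; so V is an elementary abelian normal Sylow p-subgroup, and any complement G to V in X is a group of order prime to p acting faithfully on the vector space V by conjugation (the coprime linear setting of the k(GV) problem). Let G be a complement to V in X and suppose that for some v in V the centralizer of v in G is abelian. Then the number of conjugacy classes of X is at most the order of V (the abelian-stabilizer criterion for the k(GV) problem). -/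
theorem result {X : Type*} [Group X] [Finite X] (p : ℕ) [Fact p.Prime] (V : Subgroup X) [V.Normal] (hVexp : ∀ v ∈ V, v ^ p = 1) (hidx : ¬ p ∣ V.index) (hself : Subgroup.centralizer (V : Set X) = V) (G : Subgroup X) (hGV : Subgroup.IsComplement' V G) (v : X) (hv : v ∈ V) (hab : ∀ a ∈ G ⊓ Subgroup.centralizer ({v} : Set X), ∀ b ∈ G ⊓ Subgroup.centralizer ({v} : Set X), a * b = b * a) : Nat.card (ConjClasses X) ≤ Nat.card V := by
  by_cases hv1 : v = 1
  · subst hv1
    by_cases hV : V = ⊥
    · subst hV
      have : (⊤ : Subgroup X) = ⊥ := by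
        rw [← hself, eq_comm, eq_top_iff]
        intro a _ x hx
        rw [SetLike.mem_coe, mem_bot] at hx
        simp [hx]
      have h1 : Nat.card X = 1 := by rw [← card_top, this, card_bot]
      rw [card_bot, ← h1]
      exact Nat.card_le_card_of_surjective _ ConjClasses.mk_surjective
    · obtain ⟨⟨w, hw⟩, hw1⟩ := ne_bot_iff_exists_ne_one.1 hV
      refine aux p V hVexp hidx hself G hGV w hw (fun h => hw1 (Subtype.ext h)) fun a ha b hb =>
        hab a ⟨ha.1, ?_⟩ b ⟨hb.1, ?_⟩ <;> exact mem_centralizer_singleton_iff.2 (by simp)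
  · exact aux p V hVexp hidx hself G hGV v hv hv1 hab

end Cfsg.Agent.S4958
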