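import Cfsg.Statements.S4964
import Mathlib
import Cfsg.Agent.H4.Quo
import Cfsg.Agent.H1.Coprime
import Cfsg.Agent.H1.Frattini

set_option autoImplicit false
open Cfsg

open Cfsg CfsgH3 CfsgH4 CfsgH1 CfsgL0 MonoidAlgebra

namespace Cfsg.Agent.S4964

/-- Let D be a normal p-subgroup of the finite group G, let D′ be its commutator subgroup (normal in G), and fix a maximal ideal M of the algebraic integers containing p. Then (i) two irreducible characters of G ⧸ D′ lie in the same p-block if and only if their inflations to G do, and (ii) every p-block of G contains the inflation of some irreducible character of G ⧸ D′; so inflation induces a bijection between the p-blocks of G ⧸ D′ and the p-blocks of G. -/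
theorem result {G : Type*} [Group G] [Finite G] (p : ℕ) [Fact p.Prime] (M : Ideal Cfsg.AlgInt) (hM : Cfsg.IsPModular p M) (D : Subgroup G) [D.Normal] (hD : IsPGroup p D) : (∀ χ ψ : Cfsg.IrrCharacter (G ⧸ ⁅D, D⁆), Cfsg.SameBlock M (χ : G ⧸ ⁅D, D⁆ → ℂ) (ψ : G ⧸ ⁅D, D⁆ → ℂ) ↔ Cfsg.SameBlock M ((χ : G ⧸ ⁅D, D⁆ → ℂ) ∘ QuotientGroup.mk) ((ψ : G ⧸ ⁅D, D⁆ → ℂ) ∘ QuotientGroup.mk)) ∧ ∀ B : Set (Cfsg.IrrCharacter G), Cfsg.IsPBlock M B → ∃ χ : Cfsg.IrrCharacter (G ⧸ ⁅D, D⁆), ∃ θ ∈ B, (θ : G → ℂ) = (χ : G ⧸ ⁅D, D⁆ → ℂ) ∘ QuotientGroup.mk := by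
  haveI : PMod p M := ⟨hM⟩
  have hφ := QuotientGroup.mk'_surjective ⁅D, D⁆
  have hle : ⁅D, D⁆ ≤ D := Subgroup.commutator_le_left D D
  have hk : IsPGroup p (QuotientGroup.mk' ⁅D, D⁆).ker := by
    rw [QuotientGroup.ker_mk']; exact hD.to_le hle
  refine ⟨fun χ ψ => ?_, fun B hB => ?_⟩
  · haveI : (D.map (QuotientGroup.mk' ⁅D, D⁆)).Normal := Subgroup.Normal.map inferInstance _ hφ
    refine (sameBlock_comp_iff_of_pker' hφ hk (hD.map (QuotientGroup.mk' ⁅D, D⁆)) ?_ χ.2 ψ.2).symm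
    intro x hx hc
    rw [QuotientGroup.ker_mk']
    refine Subgroup.centralizer_le (show ((⁅D, D⁆ : Subgroup G) : Set G) ⊆ D from hle) ?_
    haveI : Group.IsNilpotent D := hD.isNilpotent
    refine coprime_le_centralizer_of_frattini (A := Subgroup.zpowers x) (K := D)
      Subgroup.le_normalizer_of_normal ?_ ?_ (Subgroup.mem_zpowers x)
    · rw [Nat.card_zpowers]
      obtain ⟨k, hk⟩ := (hD.to_subgroup (frattini D)).exists_card_eq
      rw [hk]
      exact (((Nat.Prime.coprime_iff_not_dvd Fact.out).2 hx).symm).pow_right k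
    · refine le_trans ?_ (commutator_le_frattiniOf D)
      rw [Subgroup.commutator_le]
      intro d hd y hy
      rw [← QuotientGroup.eq_one_iff]
      have h1 : QuotientGroup.mk' ⁅D, D⁆ y ∈ Subgroup.centralizer
          (D.map (QuotientGroup.mk' ⁅D, D⁆) : Set (G ⧸ ⁅D, D⁆)) := by
        obtain ⟨n, rfl⟩ := hy
        rw [map_zpow]; exact zpow_mem hc n
      have h2 := h1 _ (Subgroup.mem_map_of_mem _ hd)
      exact (map_commutatorElement (QuotientGroup.mk' ⁅D, D⁆) d y).trans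
        (commutatorElement_eq_one_iff_mul_comm.2 h2)
  · obtain ⟨χ, hχ⟩ := hB.comap_nonempty hφ hk
    exact ⟨χ, _, hχ, rfl⟩

end Cfsg.Agent.S4964
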