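import Cfsg.Statements.S4965
import Mathlib
import Cfsg.Agent.H4.KG

set_option autoImplicit false
open Cfsg

open Cfsg CfsgH4 CfsgH4.KG Subgroup

namespace Cfsg.Agent.S4965

/-- Let X be a finite group with an abelian normal subgroup V (any two elements of V commute), and let φ be the action of X ⧸ V on V induced by conjugation (well defined because V is abelian; the hypothesis hφ says that the class of x acts as conjugation by x). Then X has at most as many conjugacy classes as the semidirect product of V by X ⧸ V formed with this action: the split extension has the largest class number among extensions with the given action. -/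
theorem result {X : Type*} [Group X] [Finite X] (V : Subgroup X) [V.Normal] (hab : ∀ a ∈ V, ∀ b ∈ V, a * b = b * a) (φ : X ⧸ V →* MulAut ↥V) (hφ : ∀ (x : X) (v : ↥V), ((φ (QuotientGroup.mk x) v : ↥V) : X) = x * v * x⁻¹) : Nat.card (ConjClasses X) ≤ Nat.card (ConjClasses (SemidirectProduct ↥V (X ⧸ V) φ)) := by
  classical
  have h1 := card_comm_eq_card_conjClasses_mul_card X
  have : Finite (SemidirectProduct ↥V (X ⧸ V) φ) := Finite.of_equiv _ (SemidirectProduct.equivProd).symm
  have h2 := card_comm_eq_card_conjClasses_mul_card (SemidirectProduct ↥V (X ⧸ V) φ)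
  have h3 : Nat.card (SemidirectProduct ↥V (X ⧸ V) φ) = Nat.card X := by
    rw [SemidirectProduct.card, Subgroup.card_eq_card_quotient_mul_card_subgroup V, mul_comm]
  let P := {p : X × X // Commute p.1 p.2}
  have : Nonempty P := ⟨⟨(1, 1), Commute.refl _⟩⟩
  let q : P → (X ⧸ V) × (X ⧸ V) := fun p => (p.1.1, p.1.2)
  let c : P → P := fun p => Function.invFun q (q p)
  have hc : ∀ p, q (c p) = q p := fun p => Function.invFun_eq ⟨p, rfl⟩
  have hc1 : ∀ p : P, p.1.1 * (c p).1.1⁻¹ ∈ V := fun p => by
    have := congrArg Prod.fst (hc p)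
    simp only [q] at this
    rw [← QuotientGroup.eq_one_iff, QuotientGroup.mk_mul, QuotientGroup.mk_inv, this,
      mul_inv_cancel]
  have hc2 : ∀ p : P, p.1.2 * (c p).1.2⁻¹ ∈ V := fun p => by
    have := congrArg Prod.snd (hc p)
    simp only [q] at this
    rw [← QuotientGroup.eq_one_iff, QuotientGroup.mk_mul, QuotientGroup.mk_inv, this,
      mul_inv_cancel]
  let F : P → {p : SemidirectProduct ↥V (X ⧸ V) φ × SemidirectProduct ↥V (X ⧸ V) φ // Commute p.1 p.2} := fun p =>
    ⟨(⟨⟨_, hc1 p⟩, (p.1.1 : X ⧸ V)⟩, ⟨⟨_, hc2 p⟩, (p.1.2 : X ⧸ V)⟩), by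
      have e1 : ((p.1.1 : X) : X ⧸ V) = (c p).1.1 := (congrArg Prod.fst (hc p)).symm
      have e2 : ((p.1.2 : X) : X ⧸ V) = (c p).1.2 := (congrArg Prod.snd (hc p)).symm
      have k1 : p.1.1 * p.1.2 = p.1.2 * p.1.1 := p.2
      have k2 : (c p).1.1 * (c p).1.2 = (c p).1.2 * (c p).1.1 := (c p).2
      refine SemidirectProduct.ext ?_ ?_
      · apply Subtype.ext
        rw [SemidirectProduct.mul_left, SemidirectProduct.mul_left, Subgroup.coe_mul,
          Subgroup.coe_mul]
        simp only
        rw [e1, e2, hφ, hφ]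
        simp only
        have a1 := hab _ (hc1 p) _ (‹V.Normal›.conj_mem _ (hc2 p) (c p).1.1)
        generalize (c p).1.1 = x0 at *
        generalize (c p).1.2 = y0 at *
        generalize p.1.1 = x at *
        generalize p.1.2 = y at *
        calc x * x0⁻¹ * (x0 * (y * y0⁻¹) * x0⁻¹) = (x * y) * (x0 * y0)⁻¹ := by group
          _ = (y * x) * (y0 * x0)⁻¹ := by rw [k1, k2]
          _ = _ := by group
      · rw [SemidirectProduct.mul_right, SemidirectProduct.mul_right]
        simp only [← QuotientGroup.mk_mul, k1]⟩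
  have hF : Function.Injective F := by
    intro p p' h
    have h' := congrArg Subtype.val h
    have a1 : p.1.1 * (c p).1.1⁻¹ = p'.1.1 * (c p').1.1⁻¹ :=
      congrArg (fun z => (z.1.left : X)) h'
    have b1 : p.1.2 * (c p).1.2⁻¹ = p'.1.2 * (c p').1.2⁻¹ :=
      congrArg (fun z => (z.2.left : X)) h'
    have a2 : (p.1.1 : X ⧸ V) = p'.1.1 := congrArg (fun z => z.1.right) h'
    have b2 : (p.1.2 : X ⧸ V) = p'.1.2 := congrArg (fun z => z.2.right) h'
    have hq : q p = q p' := Prod.ext a2 b2
    have hcc : c p = c p' := by simp only [c, hq]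
    rw [hcc] at a1 b1
    exact Subtype.ext (Prod.ext (mul_right_cancel a1) (mul_right_cancel b1))
  have := Nat.card_le_card_of_injective F hF
  rw [h1, h2, h3] at this
  exact Nat.le_of_mul_le_mul_right this Nat.card_pos

end Cfsg.Agent.S4965
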