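import Cfsg.Statements.S4966
import Mathlib
import Cfsg.Agent.H4.Ch1

set_option autoImplicit false
open Cfsg

open Module Function LinearMap

namespace Cfsg.Agent.S4966

variable {F G V : Type*} [Field F] [Group G] [AddCommGroup V] [Module F V]
  {ρ : Representation F G V} {U Z : Submodule F V} {A C : LinearMap.BilinForm F V}

variable (ρ) in
/-- invariant subspace -/
def Iv (U : Submodule F V) : Prop := ∀ g : G, ∀ u ∈ U, ρ g u ∈ U

variable (ρ) in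
/-- invariant subspace with an invariant nondegenerate form -/
def Nd (U : Submodule F V) (A : LinearMap.BilinForm F V) : Prop :=
  Iv ρ U ∧ (∀ g : G, ∀ x ∈ U, ∀ y ∈ U, A (ρ g x) (ρ g y) = A x y) ∧
    ∀ x ∈ U, (∀ y ∈ U, A x y = 0) → x = 0

theorem Iv.sup (a : Iv ρ U) (b : Iv ρ Z) : Iv ρ (U ⊔ Z) := fun g x hx => by
  obtain ⟨u, hu, z, hz, rfl⟩ := Submodule.mem_sup.1 hx
  exact map_add (ρ g) u z ▸ Submodule.add_mem_sup (a g u hu) (b g z hz)

theorem exists_ab (h : Disjoint Z U) :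
    ∃ a b : End F V, (∀ u ∈ U, a u = u ∧ b u = 0) ∧ ∀ z ∈ Z, a z = 0 ∧ b z = z := by
  obtain ⟨Y, h1, h2⟩ := h.exists_isCompl
  exact ⟨U.projection Y h2.symm, Y.projection U h2, fun u hu =>
    ⟨Submodule.projection_apply_left _ ⟨u, hu⟩, (Submodule.projection_apply_eq_zero_iff _).2 hu⟩,
    fun u hu => ⟨(Submodule.projection_apply_eq_zero_iff _).2 (h1 hu),
      Submodule.projection_apply_left _ ⟨u, h1 hu⟩⟩⟩

theorem glue (h : Disjoint Z U) (h1 : Nd ρ U A) (h2 : Nd ρ Z C) :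
    ∃ a b : End F V, Nd ρ (U ⊔ Z) (A.compl₁₂ a a + C.compl₁₂ b b) := by
  obtain ⟨a, b, h3, h4⟩ := exists_ab h
  have e : ∀ u ∈ U, ∀ z ∈ Z, ∀ v ∈ U, ∀ w ∈ Z,
      (A.compl₁₂ a a + C.compl₁₂ b b) (u + z) (v + w) = A u v + C z w := fun u hu z hz v hv w hw => by
    simp [h3 u hu, h3 v hv, h4 z hz, h4 w hw]
  refine ⟨a, b, h1.1.sup h2.1, fun g x hx y hy => ?_, fun x hx h => ?_⟩ <;>
    obtain ⟨u, hu, z, hz, rfl⟩ := Submodule.mem_sup.1 hx
  · obtain ⟨v, hv, w, hw, rfl⟩ := Submodule.mem_sup.1 hy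
    rw [map_add (ρ g), map_add (ρ g), e _ (h1.1 g u hu) _ (h2.1 g z hz) _ (h1.1 g v hv) _
      (h2.1 g w hw), e u hu z hz v hv w hw, h1.2.1 g u hu v hv, h2.2.1 g z hz w hw]
  · rw [h1.2.2 u hu fun v hv => by
      simpa using (e u hu z hz v hv 0 Z.zero_mem).symm.trans
        (h _ (Submodule.add_mem_sup hv Z.zero_mem)), h2.2.2 z hz fun w hw => by
      simpa using (e u hu z hz 0 U.zero_mem w hw).symm.trans
        (h _ (Submodule.add_mem_sup U.zero_mem hw)), add_zero]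

theorem Iv.compl [Finite G] [NeZero (Nat.card G : F)] (h : Iv ρ U) (h' : Iv ρ Z) (l : U ≤ Z) :
    ∃ W, Iv ρ W ∧ Disjoint W U ∧ U ⊔ W = Z := by
  obtain ⟨W, hW⟩ := exists_isCompl (⟨U, fun g v => h g v⟩ : Subrepresentation ρ)
  refine ⟨W.1 ⊓ Z, fun g v hv => ⟨W.2 g hv.1, h' g v hv.2⟩, (disjoint_iff.2 (congrArg
    Subrepresentation.toSubmodule hW.symm.inf_eq_bot)).mono_left inf_le_left, ?_⟩
  rw [← sup_inf_assoc_of_le _ l,
    show U ⊔ W.1 = ⊤ from congrArg Subrepresentation.toSubmodule hW.sup_eq_top, top_inf_eq]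

theorem exists_pair [Finite V] [FiniteDimensional F V] (h : Nd ρ ⊤ A) (h1 : Nd ρ U C) (h2 : Iv ρ Z)
    (h3 : IsCompl U Z) (h4 : Z ≠ ⊥) : ∃ β : LinearMap.BilinForm F V,
      (∀ g x y, β (ρ g x) (ρ g y) = β x y) ∧ ∃ x ∈ Z, ∃ y ∈ Z, β x y ≠ 0 := by
  by_contra! h5
  let e := linearEquivOfInjective (C.domRestrict₁₂ U U) ((injective_iff_map_eq_zero _).2
    fun x hx => Subtype.ext (h1.2.2 x x.2 fun y hy => LinearMap.congr_fun hx ⟨y, hy⟩))
      Subspace.dual_finrank_eq.symm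
  let φ : End F V := U.subtype ∘ₗ e.symm.toLinearMap ∘ₗ A.domRestrict₂ U
  have a1 : ∀ v, φ v ∈ U := fun v => Subtype.prop _
  have a2 : ∀ v, ∀ u ∈ U, C (φ v) u = A v u := fun v u hu =>
    LinearMap.congr_fun (e.apply_symm_apply (A.domRestrict₂ U v)) ⟨u, hu⟩
  have a3 : ∀ g v, φ (ρ g v) = ρ g (φ v) := fun g v => sub_eq_zero.1 (h1.2.2 _
    (sub_mem (a1 _) (h1.1 g _ (a1 v))) fun u hu => by
      have := h1.2.1 g _ (a1 v) _ (h1.1 g⁻¹ u hu)
      rw [a2 _ _ (h1.1 g⁻¹ u hu), ← h.2.1 g _ trivial _ trivial] at this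
      simp only [Representation.self_inv_apply] at this
      rw [map_sub, LinearMap.sub_apply, a2 _ _ hu, this, sub_self])
  let E := {f : End F V // (∀ g v, f (ρ g v) = ρ g (f v)) ∧ ∀ u ∈ U, f u = 0}
  haveI : Finite (End F V) := Finite.of_injective _ DFunLike.coe_injective
  have sp : ∀ v, ∃ u ∈ U, ∃ z ∈ Z, u + z = v := fun v => Submodule.mem_sup.1 (h3.sup_eq_top.ge trivial)
  obtain ⟨f, hf⟩ := Finite.surjective_of_injective (f := fun f : E => (⟨φ ∘ₗ f.1, fun g v => by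
    simp [f.2.1, a3], fun u hu => by simp [f.2.2 u hu]⟩ : E)) (fun f f' e => Subtype.ext
      (LinearMap.ext fun v => sub_eq_zero.1 (h.2.2 _ trivial fun w _ => by
        obtain ⟨u, hu, z, hz, rfl⟩ := sp w
        obtain ⟨u', hu', z', hz', rfl⟩ := sp v
        have b1 := h5 (A ∘ₗ (f.1 - f'.1)) (fun g x y => by
          simp only [LinearMap.comp_apply, LinearMap.sub_apply, f.2.1, f'.2.1, ← map_sub]
          exact h.2.1 g _ trivial _ trivial) z' hz' z hz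
        have b2 : φ (f.1 z') = φ (f'.1 z') := LinearMap.congr_fun (congrArg Subtype.val e) z'
        rw [map_add, ← a2 _ _ hu]
        simpa [f.2.2 _ hu', f'.2.2 _ hu', b2] using b1)))
    ⟨Z.projection U h3.symm, fun g v => by
      obtain ⟨u, hu, z, hz, rfl⟩ := sp v
      simp only [map_add, (Submodule.projection_apply_eq_zero_iff _).2 hu, map_zero,
        (Submodule.projection_apply_eq_zero_iff _).2 (h1.1 g u hu),
        Submodule.projection_apply_of_mem_left _ hz,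
        Submodule.projection_apply_of_mem_left _ (h2 g z hz)],
      fun u => (Submodule.projection_apply_eq_zero_iff _).2⟩
  refine h4 (eq_bot_iff.2 fun z hz => h3.disjoint.le_bot ⟨?_, hz⟩)
  exact Submodule.projection_apply_of_mem_left h3.symm hz ▸
    LinearMap.congr_fun (congrArg Subtype.val hf) z ▸ a1 _

theorem exists_piece [Finite G] [NeZero (Nat.card G : F)] [FiniteDimensional F V] (p : ℕ) [CharP F p]
    (h : Iv ρ Z) (h1 : ∀ g x y, A (ρ g x) (ρ g y) = A x y) (h2 : ∃ x ∈ Z, ∃ y ∈ Z, A x y ≠ 0) :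
    ∃ S C, S ≤ Z ∧ S ≠ ⊥ ∧ Nd ρ S C ∧ ((∀ x, C x x = 0) ∨ (∀ x y, C x y = C y x) ∧
      (p = 2 → ∀ g, ∀ w ∈ S, ρ g w = w)) := by
  obtain ⟨S, ⟨s1, s2, x₀, s3, y₀, s4, s5⟩, mn⟩ := exists_minimal_of_wellFoundedLT
    (fun S => S ≤ Z ∧ Iv ρ S ∧ ∃ x ∈ S, ∃ y ∈ Z, A x y ≠ 0) ⟨Z, le_rfl, h, h2⟩
  have s0 : S ≠ ⊥ := fun e => s5 (by rw [(Submodule.mem_bot F).1 (e.le s3)]; simp)
  have rad : ∀ {T} (C : LinearMap.BilinForm F V), Iv ρ S → Iv ρ T → (∀ g, ∀ x ∈ S, ∀ y ∈ T,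
      C (ρ g x) (ρ g y) = C x y) → Iv ρ (S ⊓ (C.domRestrict₂ T).ker) := fun C a b c g x hx =>
    ⟨a g x hx.1, LinearMap.ext fun y => by
      have := c g x hx.1 _ (b g⁻¹ _ y.2)
      rw [Representation.self_inv_apply] at this
      exact this.trans (LinearMap.congr_fun hx.2 ⟨_, b g⁻¹ _ y.2⟩)⟩
  have a1 : ∀ x ∈ S, (∀ y ∈ Z, A x y = 0) → x = 0 := fun x hx h3 => by
    obtain ⟨W, w1, w2, w3⟩ := (rad A s2 h fun g x _ y _ => h1 g x y).compl s2 inf_le_left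
    have w4 : W ≤ S := w3 ▸ le_sup_right
    refine w2.le_bot ⟨mn ⟨w4.trans s1, w1, ?_⟩ w4 hx, hx, LinearMap.ext fun y => h3 _ y.2⟩
    obtain ⟨u, hu, w, hw, rfl⟩ := Submodule.mem_sup.1 (w3.ge s3)
    refine ⟨w, hw, y₀, s4, ?_⟩
    rwa [map_add, LinearMap.add_apply, show A u y₀ = 0 from LinearMap.congr_fun hu.2 ⟨_, s4⟩,
      zero_add] at s5
  have a2 : ∀ T, T ≤ S → Iv ρ T → T = ⊥ ∨ S ≤ T := fun T b1 b2 => or_iff_not_imp_left.2 fun b3 => by
    obtain ⟨x, b4, b5⟩ := (Submodule.ne_bot_iff _).1 b3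
    exact mn ⟨b1.trans s1, b2, x, b4, by_contra fun b6 => b5 (a1 x (b1 b4) (by simpa using b6))⟩ b1
  have a3 : ∀ C : LinearMap.BilinForm F V, (∀ g, ∀ x ∈ S, ∀ y ∈ S, C (ρ g x) (ρ g y) = C x y) →
      (¬ ∀ x ∈ S, ∀ y ∈ S, C x y = 0) → Nd ρ S C := fun C b1 b2 => ⟨s2, b1, fun x hx b3 =>
    ((a2 _ inf_le_left (rad C s2 s2 b1)).resolve_right fun b4 => b2 fun x hx y hy =>
      LinearMap.congr_fun (b4 hx).2 ⟨y, hy⟩).le ⟨hx, LinearMap.ext fun y => b3 _ y.2⟩⟩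
  by_cases c1 : ∀ x ∈ S, ∀ y ∈ S, A x y = 0
  · have r1 : Iv ρ (Z ⊓ (A.flip.domRestrict₂ S).ker) := fun g x hx =>
      ⟨h g x hx.1, LinearMap.ext fun y => by
        have := h1 g (ρ g⁻¹ y) x
        rw [Representation.self_inv_apply] at this
        exact this.trans (LinearMap.congr_fun hx.2 ⟨_, s2 g⁻¹ _ y.2⟩)⟩
    obtain ⟨W, w1, w2, w3⟩ := r1.compl h inf_le_left
    obtain ⟨a, b, h3, h4⟩ := exists_ab (w2.mono_right (show S ≤ Z ⊓ _ from fun x hx =>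
      ⟨s1 hx, LinearMap.ext fun y => c1 _ y.2 x hx⟩))
    have e : ∀ u ∈ S, ∀ z ∈ W, ∀ v ∈ S, ∀ w ∈ W, (A.compl₁₂ a b - (A.compl₁₂ a b).flip)
        (u + z) (v + w) = A u w - A v z := fun u hu z hz v hv w hw => by
      simp [h3 u hu, h3 v hv, h4 z hz, h4 w hw]
    have w4 : W ≤ Z := w3 ▸ le_sup_right
    refine ⟨S ⊔ W, A.compl₁₂ a b - (A.compl₁₂ a b).flip, sup_le s1 w4,
      fun e => s0 (sup_eq_bot_iff.1 e).1, ⟨s2.sup w1, fun g x hx y hy => ?_, fun x hx h => ?_⟩,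
      .inl fun x => by simp⟩ <;> obtain ⟨u, hu, z, hz, rfl⟩ := Submodule.mem_sup.1 hx
    · obtain ⟨v, hv, w, hw, rfl⟩ := Submodule.mem_sup.1 hy
      rw [map_add (ρ g), map_add (ρ g), e _ (s2 g u hu) _ (w1 g z hz) _ (s2 g v hv) _ (w1 g w hw),
        e u hu z hz v hv w hw, h1, h1]
    · rw [a1 u hu fun y hy => ?_, show z = 0 from w2.le_bot ⟨hz, w4 hz, LinearMap.ext fun y => show A y z = 0 by
        simpa using (e u hu z hz y y.2 0 W.zero_mem).symm.trans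
          (h _ (Submodule.add_mem_sup y.2 W.zero_mem))⟩, add_zero]
      obtain ⟨r, hr, w, hw, rfl⟩ := Submodule.mem_sup.1 (w3.ge hy)
      rw [map_add, show A u r = 0 from LinearMap.congr_fun hr.2 ⟨u, hu⟩, zero_add]
      simpa using (e u hu z hz 0 S.zero_mem w hw).symm.trans
        (h _ (Submodule.add_mem_sup S.zero_mem hw))
  by_cases c2 : ∀ x ∈ S, ∀ y ∈ S, (A - A.flip) x y = 0
  swap
  · exact ⟨S, _, s1, s0, a3 _ (fun g x _ y _ => by simp [h1]) c2, .inl fun x => by simp⟩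
  replace c2 : ∀ x ∈ S, ∀ y ∈ S, A x y = A y x := by simpa [sub_eq_zero] using c2
  obtain ⟨T, hT⟩ := S.exists_isCompl
  have t1 := fun x => Submodule.projection_apply_mem hT x
  have t2 := fun x => Submodule.projection_apply_of_mem_left hT (x := x)
  refine ⟨S, A.compl₁₂ (S.projection T hT) (S.projection T hT), s1, s0, a3 _ (fun g x hx y hy => by
    simp [t2, hx, hy, s2 g, h1]) (by simpa +contextual [t2] using c1), ?_⟩
  by_cases hp : p = 2
  swap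
  · exact .inr ⟨fun x y => c2 _ (t1 x) _ (t1 y), fun e => absurd e hp⟩
  subst hp
  refine (a2 { carrier := {x | x ∈ S ∧ A x x = 0}
               add_mem' := fun {x y} hx hy => ⟨add_mem hx.1 hy.1, by
                 simp [hx.2, hy.2, c2 x hx.1 y hy.1, CharTwo.add_self_eq_zero]⟩
               zero_mem' := ⟨S.zero_mem, by simp⟩
               smul_mem' := fun c x hx => ⟨S.smul_mem c hx.1, by simp [hx.2]⟩ }
    (fun _ h => h.1) fun g x hx => ⟨s2 g x hx.1, (h1 g x x).trans hx.2⟩).symm.imp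
      (fun e x => (e (t1 x)).2) fun e => ⟨fun x y => c2 _ (t1 x) _ (t1 y), fun _ g w hw =>
        sub_eq_zero.1 (e.le ⟨sub_mem (s2 g w hw) hw, ?_⟩)⟩
  simp only [map_sub, LinearMap.sub_apply, h1, c2 w hw _ (s2 g w hw), CharTwo.sub_eq_add]
  exact CharTwo.add_eq_zero.2 (add_comm _ _)

/-- Let F be a finite field of characteristic p, G a finite group of order prime to p, and V a finite-dimensional representation of G over F carrying a nondegenerate G-invariant bilinear form (equivalently, V is self-dual). Then V is the direct sum of two G-invariant subspaces U and W such that U carries a G-invariant alternating bilinear form that is nondegenerate on U and W carries a G-invariant symmetric bilinear form that is nondegenerate on W; moreover when p = 2 the decomposition can be chosen with G acting trivially on W. -/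
theorem result {F : Type*} [Field F] [Fintype F] (p : ℕ) [Fact p.Prime] [CharP F p] {G : Type*} [Group G] [Finite G] (hcop : ¬ p ∣ Nat.card G) {V : Type*} [AddCommGroup V] [Module F V] [FiniteDimensional F V] (ρ : Representation F G V) (B : LinearMap.BilinForm F V) (hB : B.Nondegenerate) (hBinv : ∀ g : G, ∀ x y : V, B (ρ g x) (ρ g y) = B x y) : ∃ U W : Submodule F V, IsCompl U W ∧ (∀ g : G, ∀ u ∈ U, ρ g u ∈ U) ∧ (∀ g : G, ∀ w ∈ W, ρ g w ∈ W) ∧ (∃ A : LinearMap.BilinForm F V, (∀ x : V, A x x = 0) ∧ (∀ g : G, ∀ x ∈ U, ∀ y ∈ U, A (ρ g x) (ρ g y) = A x y) ∧ (∀ x ∈ U, (∀ y ∈ U, A x y = 0) → x = 0)) ∧ (∃ S : LinearMap.BilinForm F V, (∀ x y : V, S x y = S y x) ∧ (∀ g : G, ∀ x ∈ W, ∀ y ∈ W, S (ρ g x) (ρ g y) = S x y) ∧ (∀ x ∈ W, (∀ y ∈ W, S x y = 0) → x = 0)) ∧ (p = 2 → ∀ g : G, ∀ w ∈ W, ρ g w = w) := by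
  haveI : NeZero (Nat.card G : F) := ⟨fun e => hcop ((CharP.cast_eq_zero_iff F p _).1 e)⟩
  haveI : Finite V := Module.finite_of_finite F
  obtain ⟨_, ⟨U, W, A, S, rfl, h1, h2, h3, h4, h5, h6⟩, mx⟩ := exists_maximal_of_wellFoundedGT
    (fun X : Submodule F V => ∃ U W A S, U ⊔ W = X ∧ Disjoint W U ∧ Nd ρ U A ∧ Nd ρ W S ∧
      (∀ x, A x x = 0) ∧ (∀ x y, S x y = S y x) ∧ (p = 2 → ∀ g, ∀ w ∈ W, ρ g w = w))
    ⟨_, ⊥, ⊥, 0, 0, rfl, disjoint_bot_left, ⟨by simp [Iv], by simp⟩, ⟨by simp [Iv], by simp⟩,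
      by simp⟩
  obtain ⟨Y, y1, y2, y3⟩ := (h2.1.sup h3.1).compl (Z := ⊤) (fun _ _ _ => trivial) le_top
  refine ⟨U, W, ⟨h1.symm, codisjoint_iff.2 (by_contra fun e => ?_)⟩, h2.1, h3.1, ⟨A, h4, h2.2⟩,
    ⟨S, h5, h3.2⟩, h6⟩
  obtain ⟨a, b, h7⟩ := glue h1 h2 h3
  obtain ⟨β, b1, b2⟩ := exists_pair (A := B) ⟨fun _ _ _ => trivial, fun g x _ y _ => hBinv g x y,
    fun x _ h => hB.1 x fun y => h y trivial⟩ h7 y1 ⟨y2.symm, codisjoint_iff.2 y3⟩
    fun c => e (by rwa [c, sup_bot_eq] at y3)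
  obtain ⟨Z, C, c1, c2, c3, c4⟩ := exists_piece p y1 b1 b2
  have c5 := y2.mono_left c1
  refine c2 (c5.eq_bot_of_le (le_sup_right.trans (mx (y := U ⊔ W ⊔ Z) ?_ le_sup_left)))
  rcases c4 with c4 | ⟨c4, c6⟩
  · obtain ⟨a, b, c7⟩ := glue (c5.mono_right le_sup_left) h2 c3
    exact ⟨U ⊔ Z, W, _, S, sup_right_comm _ _ _, sup_comm Z U ▸
      (h1.symm.disjoint_sup_left_of_disjoint_sup_right c5).symm, c7, h3, by simp [h4, c4], h5, h6⟩
  · obtain ⟨a, b, c7⟩ := glue (c5.mono_right le_sup_right) h3 c3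
    refine ⟨U, W ⊔ Z, A, _, (sup_assoc _ _ _).symm, sup_comm Z W ▸
      h1.disjoint_sup_left_of_disjoint_sup_right (sup_comm U W ▸ c5), h2, c7, h4,
      fun x y => by simp [h5 (a x), c4 (b x)], fun e g x hx => ?_⟩
    obtain ⟨u, hu, z, hz, rfl⟩ := Submodule.mem_sup.1 hx
    rw [map_add, h6 e g u hu, c6 e g z hz]

end Cfsg.Agent.S4966
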