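import Cfsg.Statements.S4967
import Mathlib
import Cfsg.Agent.H4.Ch1

set_option autoImplicit false
open Cfsg

open Module Function

namespace Cfsg.Agent.S4967

theorem exists_field.{u} {F : Type*} [Field F] [Finite F] {H : Type*} [CommGroup H] {V : Type u}
    [AddCommGroup V] [Module F V] [FiniteDimensional F V] [Nontrivial V] (ρ : Representation F H V)
    (hf : Injective ρ) (hirr : ∀ U : Submodule F V, (∀ h : H, ∀ u ∈ U, ρ h u ∈ U) → U = ⊥ ∨ U = ⊤) :
    ∃ (K : Type u) (_ : Field K) (_ : Algebra F K) (_ : Finite K) (e : K ≃ₗ[F] V) (j : H →* K),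
      Injective j ∧ (∀ h a, ρ h (e a) = e (j h * a)) ∧ Algebra.adjoin F (Set.range j) = ⊤ := by
  let A := Algebra.adjoin F (Set.range ρ)
  haveI : Finite V := Module.finite_of_finite F
  haveI : Finite (End F V) := Finite.of_injective _ DFunLike.coe_injective
  haveI : IsMulCommutative A := Algebra.isMulCommutative_adjoin F (by
    rintro _ ⟨a, rfl⟩ _ ⟨b, rfl⟩
    rw [← map_mul, ← map_mul, mul_comm])
  letI : CommRing A := { (inferInstance : Ring A) with mul_comm := IsMulCommutative.is_comm.comm }
  let j : H →* A := ρ.codRestrict A fun h => Algebra.subset_adjoin ⟨h, rfl⟩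
  have h1 : ∀ (a : A) v, a.1 v = 0 → a = 0 ∨ v = 0 := fun a v h =>
    (hirr (LinearMap.ker a.1) fun g u hu => by
      have := congrArg (fun b : A => b.1 u) (mul_comm a (j g))
      exact this.trans ((congrArg (ρ g) hu).trans (map_zero _))).symm.imp
      (fun e => Subtype.ext (LinearMap.ker_eq_top.1 e)) fun e => (Submodule.mem_bot F).1 (e.le h)
  obtain ⟨v, hv⟩ := exists_ne (0 : V)
  haveI : NoZeroDivisors A := ⟨fun {a b} h => (h1 a (b.1 v)
    (congrArg (fun c : A => c.1 v) h)).imp_right fun e => (h1 b v e).resolve_right hv⟩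
  haveI : IsDomain A := NoZeroDivisors.to_isDomain A
  letI := (Finite.isField_of_domain A).toField
  let f : A →ₗ[F] V := LinearMap.applyₗ v ∘ₗ A.val.toLinearMap
  refine ⟨A, inferInstance, inferInstance, inferInstance, LinearEquiv.ofBijective f
    ⟨(injective_iff_map_eq_zero f).2 fun a h => (h1 a v h).resolve_right hv,
      LinearMap.range_eq_top.1 ((hirr _ ?_).resolve_left fun e => hv
        ((Submodule.mem_bot F).1 (e.le ⟨1, rfl⟩)))⟩, j, fun a b e => hf (congrArg Subtype.val e),
      fun _ _ => rfl, ?_⟩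
  · rintro h _ ⟨a, rfl⟩
    exact ⟨j h * a, rfl⟩
  · rw [show Set.range j = Subtype.val ⁻¹' Set.range ρ from
      Set.ext fun a => exists_congr fun h => Subtype.ext_iff]
    exact Algebra.adjoin_adjoin_coe_preimage

/-- Let F be a finite field with r elements and of characteristic p, H a finite abelian group of order prime to p, and V a faithful irreducible representation of H over F of dimension n (faithful: distinct elements act differently; irreducible: the only H-invariant subspaces are 0 and V). Call V self-dual when it carries a nondegenerate H-invariant bilinear form. If n = 1 and V is self-dual then H has order at most 2. If n ≥ 2 then V is self-dual if and only if n is even and the order of H divides r^(n/2) + 1. -/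
theorem result {F : Type*} [Field F] [Fintype F] (p : ℕ) [Fact p.Prime] [CharP F p] {H : Type*} [CommGroup H] [Finite H] (hcop : ¬ p ∣ Nat.card H) {V : Type*} [AddCommGroup V] [Module F V] [FiniteDimensional F V] (ρ : Representation F H V) (hfaith : Function.Injective ρ) (hirr : ∀ U : Submodule F V, (∀ h : H, ∀ u ∈ U, ρ h u ∈ U) → U = ⊥ ∨ U = ⊤) : (Module.finrank F V = 1 → (∃ B : LinearMap.BilinForm F V, B.Nondegenerate ∧ ∀ h : H, ∀ x y : V, B (ρ h x) (ρ h y) = B x y) → Nat.card H ≤ 2) ∧ (2 ≤ Module.finrank F V → ((∃ B : LinearMap.BilinForm F V, B.Nondegenerate ∧ ∀ h : H, ∀ x y : V, B (ρ h x) (ρ h y) = B x y) ↔ (Even (Module.finrank F V) ∧ Nat.card H ∣ Fintype.card F ^ (Module.finrank F V / 2) + 1))) := by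
  refine ⟨fun h1 ⟨B, b1, b2⟩ => ?_, fun h2 => ?_⟩
  · obtain ⟨v, hv, h3⟩ := finrank_eq_one_iff'.1 h1
    have h4 : Set.range ρ ⊆ {1, -1} := by
      rintro _ ⟨h, rfl⟩
      obtain ⟨c, hc⟩ := h3 (ρ h v)
      have h5 := b2 h v v
      rw [← hc, map_smul, map_smul, LinearMap.smul_apply, smul_smul, smul_eq_mul,
        mul_eq_right₀ fun e => hv (b1.1 v fun w => by
          obtain ⟨d, rfl⟩ := h3 w; rw [map_smul, e, smul_zero]), mul_self_eq_one_iff] at h5
      refine h5.imp (fun e => ?_) fun e => ?_ <;> refine LinearMap.ext fun w => ?_ <;>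
        obtain ⟨d, rfl⟩ := h3 w <;> simp [← hc, e]
    rw [← Set.ncard_univ, ← Set.ncard_image_of_injective _ hfaith, Set.image_univ]
    exact (Set.ncard_le_ncard h4).trans ((Set.ncard_insert_le _ _).trans (by simp))
  haveI : Nontrivial V := Module.nontrivial_of_finrank_pos (R := F) (by omega)
  obtain ⟨K, _, _, _, e, j, j1, j2, j3⟩ := exists_field ρ hfaith hirr
  have hn := e.finrank_eq
  haveI := Module.Free.of_divisionRing F K
  let φ := FiniteField.frobeniusAlgHom F K
  have hφ : ∀ k a, (φ ^ k) a = a ^ Fintype.card F ^ k := fun k a => by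
    rw [AlgHom.coe_pow, FiniteField.coe_frobeniusAlgHom, pow_iterate]
  haveI := isCyclic_of_injective_ringHom j j1
  refine ⟨fun ⟨B, b1, b2⟩ => ?_, fun ⟨⟨m, hm⟩, h3⟩ => ?_⟩
  · have a1 : ∀ h x y, B (e (j h * x)) (e y) = B (e x) (e (j h⁻¹ * y)) := fun h x y => by
      rw [← b2 h (e x), j2, j2, ← mul_assoc, ← map_mul, mul_inv_cancel, map_one, one_mul]
    have a2 : ∀ {a b : K}, (∀ x, B (e x) (e a) = B (e x) (e b)) → a = b := fun {a b} h =>
      e.injective (sub_eq_zero.1 (b1.2 _ fun x => by
        obtain ⟨x, rfl⟩ := e.surjective x; rw [map_sub, h, sub_self]))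
    have a3 : ∀ a, ∃ b, ∀ x y, B (e (a * x)) (e y) = B (e x) (e (b * y)) := fun a => by
      induction j3.ge (Algebra.mem_top : a ∈ ⊤) using Algebra.adjoin_induction with
      | mem _ h => obtain ⟨h, rfl⟩ := h; exact ⟨_, a1 h⟩
      | algebraMap c => exact ⟨algebraMap F K c, fun x y => by simp [← Algebra.smul_def]⟩
      | add a b _ _ ha hb =>
        exact ⟨ha.choose + hb.choose, fun x y => by
          simp only [add_mul, map_add, LinearMap.add_apply, ← ha.choose_spec, ← hb.choose_spec]⟩
      | mul a b _ _ ha hb =>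
        exact ⟨hb.choose * ha.choose, fun x y => by
          rw [mul_assoc, ha.choose_spec, hb.choose_spec, mul_assoc]⟩
    choose s hs using a3
    have a4 : ∀ {a b}, (∀ x, B (e (a * x)) (e 1) = B (e x) (e b)) → s a = b := fun h =>
      a2 fun x => by rw [← h, hs, mul_one]
    let σ : K →ₐ[F] K :=
      { toFun := s
        map_one' := a4 fun x => by rw [one_mul]
        map_mul' := fun a b => a4 fun x => by rw [mul_assoc, hs, hs, mul_one, mul_comm]
        map_zero' := a4 fun x => by simp
        map_add' := fun a b => a4 fun x => by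
          simp only [add_mul, map_add, LinearMap.add_apply, hs, mul_one]
        commutes' := fun c => a4 fun x => by simp [← Algebra.smul_def, Algebra.algebraMap_eq_smul_one] }
    have a5 : ∀ h, σ (j h) = j h⁻¹ := fun h => a4 fun x => by rw [a1, mul_one]
    obtain ⟨⟨k, hk⟩, a6⟩ := (FiniteField.bijective_frobeniusAlgHom_pow F K).2 σ
    replace a6 : φ ^ k = σ := a6
    have a7 : finrank F K ∣ k + k := by
      rw [← FiniteField.orderOf_frobeniusAlgHom, orderOf_dvd_iff_pow_eq_one, pow_add, a6]
      refine AlgHom.ext_of_adjoin_eq_top j3 ?_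
      rintro _ ⟨h, rfl⟩
      rw [AlgHom.mul_apply, a5, a5, inv_inv, AlgHom.one_apply]
    have a8 : k ≠ 0 := by
      rintro rfl
      have b3 : ∀ h, j h = 1 ∨ j h = -1 := fun h => mul_self_eq_one_iff.1 (by
        nth_rw 1 [← AlgHom.one_apply (R := F) (j h), ← pow_zero φ, a6, a5, ← map_mul,
          inv_mul_cancel, map_one])
      have : Algebra.adjoin F (Set.range j) ≤ ⊥ := Algebra.adjoin_le (by
        rintro _ ⟨h, rfl⟩
        exact (b3 h).elim (· ▸ one_mem _) (· ▸ neg_mem (one_mem _)))
      have := Subalgebra.bot_eq_top_iff_finrank_eq_one.1 (top_le_iff.1 (j3.ge.trans this))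
      omega
    obtain ⟨c, hc⟩ := a7
    have a9 : finrank F V = k + k := by
      rcases c with _ | _ | _ | c <;> nlinarith [Nat.pos_of_ne_zero a8]
    refine ⟨⟨k, a9⟩, ?_⟩
    rw [← IsCyclic.exponent_eq_card, show finrank F V / 2 = k by omega]
    exact Monoid.exponent_dvd_of_forall_pow_eq_one fun h => j1 (by
      rw [map_pow, pow_succ, ← hφ, a6, a5, ← map_mul, inv_mul_cancel])
  · rw [show finrank F V / 2 = m by omega] at h3
    have a1 := traceForm_nondegenerate F K
    have a2 : Bijective (φ ^ m) := (Finite.injective_iff_bijective).1 (φ ^ m).injective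
    refine ⟨(Algebra.traceForm F K).compl₁₂ e.symm.toLinearMap
      ((φ ^ m).toLinearMap ∘ₗ e.symm.toLinearMap), ⟨fun x hx => ?_, fun x hx => ?_⟩, fun h x y => ?_⟩
    · refine e.symm.map_eq_zero_iff.1 (a1.1 _ fun y => ?_)
      obtain ⟨y, rfl⟩ := a2.2 y
      simpa using hx (e y)
    · refine e.symm.map_eq_zero_iff.1 ((map_eq_zero_iff _ a2.1).1 (a1.2 _ fun y => ?_))
      simpa using hx (e y)
    · obtain ⟨x, rfl⟩ := e.surjective x
      obtain ⟨y, rfl⟩ := e.surjective y
      have : j h * (φ ^ m) (j h) = 1 := by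
        rw [hφ, ← pow_succ', ← map_pow, orderOf_dvd_iff_pow_eq_one.1
          ((orderOf_dvd_natCard h).trans h3), map_one]
      simp only [j2, LinearMap.compl₁₂_apply, LinearMap.comp_apply, LinearEquiv.coe_coe,
        e.symm_apply_apply, AlgHom.toLinearMap_apply, Algebra.traceForm_apply, map_mul]
      rw [mul_mul_mul_comm, this, one_mul]

end Cfsg.Agent.S4967
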