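import Cfsg.Statements.S5005
import Mathlib
import Cfsg.Agent.H7.Ob.M22

set_option autoImplicit false
open Cfsg

namespace Cfsg.Agent.S5005

open CfsgH7

/-- All irreducible complex characters of the Mathieu group `M₂₂` lie in a single 2-block: any two of them lie in the same block relative to every maximal ideal of the algebraic integers containing 2. -/
theorem result (M : Ideal Cfsg.AlgInt) (hM : Cfsg.IsPModular 2 M)
    (χ ψ : Cfsg.IrrCharacter ↥Cfsg.Spor.M22) : Cfsg.SameBlock M (χ : ↥Cfsg.Spor.M22 → ℂ) (ψ : ↥Cfsg.Spor.M22 → ℂ) := by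
  obtain ⟨e⟩ := CfsgH7.M22.iso Gol.mdl22
  have := Gol.mdl22.1
  exact oneBlock hM (@CfsgH7.M22.Ob.hA _ _ _ (_) _ _ (CfsgH7.M22.M0.congr e)) (@CfsgH7.M22.Ob.hB _ _ _ (_) _ _ (CfsgH7.M22.M0.congr e)) χ ψ

end Cfsg.Agent.S5005
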