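import Cfsg.Statements.S5013
import Cfsg.Agent.H1.RS1

set_option autoImplicit false
open Cfsg

namespace Cfsg.Agent.S5013

/-- In a rank one group with unipotent subgroups A and B (conjugation written g H g⁻¹), for every non-identity a in A the non-identity b in B with b⁻¹ A b = a⁻¹ B a is unique, every non-identity b in B arises in this way from exactly one such a (so a ↦ b(a) is a bijection between the non-identity elements of A and of B), and no non-identity element of A normalizes B (and vice versa). -/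
theorem result {G : Type*} [Group G] {A B : Subgroup G} (h : Cfsg.IsRankOnePair A B) :
    (∀ a ∈ A, a ≠ 1 → ∃! b : G, b ∈ B ∧ b ≠ 1 ∧ Cfsg.conjBy A b⁻¹ = Cfsg.conjBy B a⁻¹) ∧
    (∀ b ∈ B, b ≠ 1 → ∃! a : G, a ∈ A ∧ a ≠ 1 ∧ Cfsg.conjBy A b⁻¹ = Cfsg.conjBy B a⁻¹) ∧
    A ⊓ Subgroup.normalizer (B : Set G) = ⊥ ∧ B ⊓ Subgroup.normalizer (A : Set G) = ⊥ := by
  open Subgroup CfsgH1 CfsgH9 in
  open scoped commutatorElement in
  · have h : RP A B := h
    refine ⟨fun a ha h1 => ?_, fun b hb h1 => ?_, h.infL, h.infR⟩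
    · obtain ⟨b, hb, hb1, e⟩ := h.cond_left a ha h1
      refine ⟨b, ⟨hb, hb1, e⟩, fun b' ⟨hb', _, e'⟩ => ?_⟩
      exact inv_injective (h.injR (inv_mem hb') (inv_mem hb) (e'.trans e.symm))
    · obtain ⟨a, ha, ha1, e⟩ := h.cond_right b hb h1
      refine ⟨a, ⟨ha, ha1, e.symm⟩, fun a' ⟨ha', _, e'⟩ => ?_⟩
      exact inv_injective (h.injL (inv_mem ha') (inv_mem ha) (e'.symm.trans e.symm))

end Cfsg.Agent.S5013
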