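import Cfsg.Statements.S5014
import Cfsg.Agent.H1.RS1

set_option autoImplicit false
open Cfsg

namespace Cfsg.Agent.S5014

/-- Let X = ⟨A, B⟩ be a rank one group with unipotent subgroups A and B and let Ω be the set of conjugates of A under X. Then Ω has at least three members, X acts doubly transitively on Ω by conjugation (any two ordered pairs of distinct members are carried to one another by a single element of X), and A acts regularly on Ω with A removed: for C, D in Ω different from A there is exactly one element of A conjugating C to D. -/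
theorem result {G : Type*} [Group G] {A B : Subgroup G} (h : Cfsg.IsRankOnePair A B) :
    (∃ C₁ ∈ Cfsg.unipotentSubgroups A B, ∃ C₂ ∈ Cfsg.unipotentSubgroups A B, ∃ C₃ ∈ Cfsg.unipotentSubgroups A B,
      C₁ ≠ C₂ ∧ C₁ ≠ C₃ ∧ C₂ ≠ C₃) ∧
    (∀ C₁ ∈ Cfsg.unipotentSubgroups A B, ∀ C₂ ∈ Cfsg.unipotentSubgroups A B, ∀ D₁ ∈ Cfsg.unipotentSubgroups A B,
      ∀ D₂ ∈ Cfsg.unipotentSubgroups A B, C₁ ≠ C₂ → D₁ ≠ D₂ →
        ∃ x ∈ A ⊔ B, Cfsg.conjBy C₁ x = D₁ ∧ Cfsg.conjBy C₂ x = D₂) ∧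
    (∀ C ∈ Cfsg.unipotentSubgroups A B, ∀ D ∈ Cfsg.unipotentSubgroups A B, C ≠ A → D ≠ A →
      ∃! a : G, a ∈ A ∧ Cfsg.conjBy C a = D) := by
  open Subgroup CfsgH1 CfsgH9 in
  open scoped commutatorElement in
  · have h : RP A B := h
    refine ⟨?_, fun C₁ h1 C₂ h2 D₁ h3 D₂ h4 n1 n2 => ?_, fun C hC D hD n1 n2 => ?_⟩
    · obtain ⟨a, ha, ha1⟩ := h.exA
      exact ⟨A, RP.left_mem _ _, B, h.right_mem, cj a B, RP.cj_mem_Om h.right_mem (mem_sup_left ha),
        h.ne, (h.cj_ne ha).symm, fun e => ha1 (h.normL ha e.symm)⟩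
    · obtain ⟨x, hx, rfl, rfl⟩ := h.trans2 h1 h2 n1
      obtain ⟨y, hy, rfl, rfl⟩ := h.trans2 h3 h4 n2
      refine ⟨y * x⁻¹, mul_mem hy (inv_mem hx), ?_, ?_⟩
      · change cj _ _ = _
        rw [cj_cj, inv_mul_cancel_right]
      · change cj _ _ = _
        rw [cj_cj, inv_mul_cancel_right]
    · obtain ⟨c, hc, rfl⟩ := (h.mem_iff.1 hC).resolve_left n1
      obtain ⟨d, hd, rfl⟩ := (h.mem_iff.1 hD).resolve_left n2
      refine ⟨d * c⁻¹, ⟨mul_mem hd (inv_mem hc), ?_⟩, fun a ⟨ha, e⟩ => ?_⟩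
      · change cj _ _ = _
        rw [cj_cj, inv_mul_cancel_right]
      · have e : cj a (cj c B) = cj d B := e
        rw [cj_cj] at e
        rw [← h.injL (mul_mem ha hc) hd e, mul_inv_cancel_right]

end Cfsg.Agent.S5014
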