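import Cfsg.Statements.S5015
import Cfsg.Agent.H1.RS1

set_option autoImplicit false
open Cfsg

namespace Cfsg.Agent.S5015

/-- Let a group Y act doubly transitively on a set Ω with at least three points, and suppose that the stabilizer of a point α contains a nilpotent subgroup A, normalized by that stabilizer, which acts regularly on the points other than α. Then for any y in Y moving α, the subgroups A and y A y⁻¹ are the unipotent subgroups of a rank one group, and the normal closure of A in Y (the subgroup generated by all conjugates of A) is generated by A and y A y⁻¹ alone. -/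
theorem result {Y Ω : Type*} [Group Y] [MulAction Y Ω]
    (h2 : MulAction.IsMultiplyPretransitive Y Ω 2) (hΩ : 3 ≤ ENat.card Ω) (α : Ω) (A : Subgroup Y)
    (hA : A ≤ MulAction.stabilizer Y α) (hAn : ∀ y ∈ MulAction.stabilizer Y α, Cfsg.conjBy A y = A)
    (hnil : Group.IsNilpotent A) (hreg : ∀ β γ : Ω, β ≠ α → γ ≠ α → ∃! a : Y, a ∈ A ∧ a • β = γ)
    (y : Y) (hy : y ∉ MulAction.stabilizer Y α) :
    Cfsg.IsRankOnePair A (Cfsg.conjBy A y) ∧ Subgroup.normalClosure (A : Set Y) = A ⊔ Cfsg.conjBy A y := by
  open Subgroup CfsgH1 CfsgH9 in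
  open scoped commutatorElement in
  · have hy' : y • α ≠ α := hy
    -- conjugates of `A` are determined by the image of `α`
    have key : ∀ u v : Y, u • α = v • α → cj u A = cj v A := by
      intro u v e
      rw [cj_eq_cj_iff]
      apply hAn
      rw [MulAction.mem_stabilizer_iff, mul_smul, e, inv_smul_smul]
    have free : ∀ a ∈ A, ∀ β, β ≠ α → a • β = β → a = 1 := by
      intro a ha β hβ e
      obtain ⟨c, -, hc⟩ := hreg β β hβ hβ
      rw [hc a ⟨ha, e⟩, hc 1 ⟨one_mem _, one_smul _ _⟩]
    have third : ∀ β : Ω, ∃ γ, γ ≠ α ∧ γ ≠ β := by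
      intro β
      by_contra hc
      push Not at hc
      have : (Set.univ : Set Ω) ⊆ {α, β} := fun γ _ => by
        by_cases e : γ = α
        · exact Or.inl e
        · exact Or.inr (hc γ e)
      have h1 := Set.encard_le_encard this
      rw [Set.encard_univ] at h1
      have h2 := Set.encard_insert_le {β} α
      rw [Set.encard_singleton] at h2
      have := hΩ.trans (h1.trans h2)
      norm_num at this
    have mv : ∀ a ∈ A, ∀ β, β ≠ α → a • β ≠ α := by
      intro a ha β hβ e
      apply hβ
      rw [← inv_smul_smul a β, e]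
      exact hA (inv_mem ha)
    -- regularity of the conjugate
    have hB : ∀ γ δ, γ ≠ y • α → δ ≠ y • α → ∃ b ∈ cj y A, b • γ = δ := by
      intro γ δ h1 h2
      obtain ⟨c, ⟨hc, e⟩, -⟩ := hreg (y⁻¹ • γ) (y⁻¹ • δ)
        (fun e => h1 (by rw [← e, smul_inv_smul])) (fun e => h2 (by rw [← e, smul_inv_smul]))
      refine ⟨y * c * y⁻¹, conj_mem_cj y hc, ?_⟩
      rw [mul_smul, mul_smul, e, smul_inv_smul]
    have hBfix : ∀ b ∈ cj y A, b • y • α = y • α := by
      rintro _ ⟨c, hc, rfl⟩
      have : c • α = α := hA hc
      simp [mul_smul, this]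
    have hrp : RP A (cj y A) := by
      refine RP.of ?_ hnil (nilp_map _ hnil) ?_ ?_
      · intro e
        obtain ⟨γ, h1, h2⟩ := third (y • α)
        obtain ⟨a, ⟨ha, e'⟩, -⟩ := hreg (y • α) γ hy' h1
        rw [hBfix a (e ▸ ha)] at e'
        exact h2 e'.symm
      · intro a ha h1
        obtain ⟨b, hb, e⟩ := hB α (a • y • α) hy'.symm (fun e => h1 (free a ha _ hy' e))
        refine ⟨b, hb, ?_, ?_⟩
        · rintro rfl
          rw [one_smul] at e
          exact mv a ha _ hy' e.symm
        · rw [cj_cj]; apply key; rw [e, mul_smul]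
      · intro b hb h1
        have n1 : b • α ≠ α := by
          intro e
          obtain ⟨c, hc, rfl⟩ := hb
          have : c • y⁻¹ • α = y⁻¹ • α := by
            have e : (y * c * y⁻¹) • α = α := e
            rw [mul_smul, mul_smul] at e
            rw [← inv_smul_smul y (c • y⁻¹ • α), e]
          have := free c hc _ (fun e => hy' (by conv_lhs => rw [← e]; rw [smul_inv_smul])) this
          apply h1
          rw [this, map_one]
        obtain ⟨a, ⟨ha, e⟩, -⟩ := hreg (y • α) (b • α) hy' n1
        refine ⟨a, ha, ?_, ?_⟩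
        · rintro rfl
          rw [one_smul] at e
          apply hy'
          have := hBfix b⁻¹ (inv_mem hb)
          rw [e, inv_smul_smul] at this
          rw [e, ← this]
        · rw [cj_cj]; apply key; rw [← e, mul_smul]
    refine ⟨hrp, le_antisymm ?_ (sup_le le_normalClosure ?_)⟩
    · intro x hx
      refine (closure_le (K := A ⊔ cj y A)).2 ?_ hx
      intro x hx
      obtain ⟨a, ha, g, rfl⟩ : ∃ a ∈ A, ∃ g : Y, g * a * g⁻¹ = x := by
        obtain ⟨a, ha, h⟩ := Group.mem_conjugatesOfSet_iff.1 hx
        obtain ⟨g, hg⟩ := isConj_iff.1 h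
        exact ⟨a, ha, g, hg⟩
      have : cj g A ≤ A ⊔ cj y A := by
        by_cases e : g • α = α
        · rw [key g 1 (by rw [e, one_smul]), cj_one]; exact le_sup_left
        · obtain ⟨c, ⟨hc, e'⟩, -⟩ := hreg (y • α) (g • α) hy' e
          rw [key g (c * y) (by rw [mul_smul, e']), ← cj_cj]
          exact cj_le_of_mem (mem_sup_left hc) le_sup_right
      exact this (conj_mem_cj g ha)
    · exact cj_le_of_mem_normalizer (by rw [normalizer_eq_top]; trivial) le_normalClosure

end Cfsg.Agent.S5015
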