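import Cfsg.Statements.S5017
import Cfsg.Agent.H1.RS1

set_option autoImplicit false
open Cfsg

namespace Cfsg.Agent.S5017

/-- Let X be a rank one group with unipotent subgroups A and B and N a normal subgroup of X. Then either X = N A or N lies in the centre of X. Consequently a perfect rank one group is quasisimple. -/
theorem result {X : Type*} [Group X] {A B : Subgroup X} (h : Cfsg.IsRankOneGroup X A B) :
    (∀ N : Subgroup X, N.Normal → N ⊔ A = ⊤ ∨ N ≤ Subgroup.center X) ∧
    (Group.IsPerfect X → Cfsg.IsQuasisimple X) := by
  open Subgroup CfsgH1 CfsgH9 in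
  open scoped commutatorElement in
  · obtain ⟨ht, h⟩ := h
    have h : RP A B := h
    refine ⟨fun N hN => ?_, fun hp => ?_⟩
    · rcases h.normal (N := N) (ht ▸ le_top) (by rw [normalizer_eq_top]; exact le_top) with e | e
      · exact Or.inl (e.trans ht)
      · right
        rw [ht, comm_bot_iff, coe_top, centralizer_univ] at e
        exact e
    · rw [← qs_top, ← ht]
      apply h.qs
      rw [ht]
      exact hp.commutator_eq_top

end Cfsg.Agent.S5017
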