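import Cfsg.Statements.S5018
import Cfsg.Agent.H1.RS1

set_option autoImplicit false
open Cfsg

namespace Cfsg.Agent.S5018

/-- A rank one group is not nilpotent, and its second centre equals its centre. -/
theorem result {X : Type*} [Group X] {A B : Subgroup X} (h : Cfsg.IsRankOneGroup X A B) :
    Subgroup.upperCentralSeries X 2 = Subgroup.center X ∧ ¬ Group.IsNilpotent X := by
  open Subgroup CfsgH1 CfsgH9 in
  open scoped commutatorElement in
  · obtain ⟨ht, h⟩ := h
    have h : RP A B := h
    refine ⟨le_antisymm (fun x hx => ?_) ?_, fun hn => h.not_nilp (by rw [ht]; infer_instance)⟩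
    · rw [Subgroup.mem_upperCentralSeries_succ_iff] at hx
      simp only [Subgroup.upperCentralSeries_one] at hx
      rw [mem_center_iff]
      intro y
      exact (h.z2 (ht ▸ mem_top x) (fun y _ z _ => (mem_center_iff.1 (hx y) z).symm) y
        (ht ▸ mem_top y)).symm
    · rw [← Subgroup.upperCentralSeries_one]; exact Subgroup.upperCentralSeries_mono X (by norm_num)

end Cfsg.Agent.S5018
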