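import Cfsg.Statements.S5019
import Cfsg.Agent.H1.RS3

set_option autoImplicit false
open Cfsg

namespace Cfsg.Agent.S5019

/-- Let X be a rank one group with abelian unipotent subgroups A and B, and suppose X acts on an abelian group N (written additively) in such a way that A acts quadratically, meaning a' • (a • n − n) = a • n − n for all a, a' in A and n in N, while X as a whole does not: y • (x • n − n) ≠ x • n − n for some x, y in X and n in N. Then X is a special rank one group. -/
theorem result {X : Type*} [Group X] {A B : Subgroup X} (h : Cfsg.IsRankOneGroup X A B)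
    (hab : Cfsg.HasAbelianUnipotents A B) {N : Type*} [AddCommGroup N] [DistribMulAction X N]
    (hq : ∀ a ∈ A, ∀ a' ∈ A, ∀ n : N, a' • (a • n - n) = a • n - n)
    (hX : ∃ x y : X, ∃ n : N, y • (x • n - n) ≠ x • n - n) : Cfsg.IsSpecialRankOnePair A B := by
  open Subgroup CfsgH1 CfsgH9 in
  open scoped commutatorElement in
  · obtain ⟨x, y, n, hn⟩ := hX
    exact RP.sp_of_quad (N := N) h.2 hq ⟨x, h.1 ▸ mem_top x, y, h.1 ▸ mem_top y, n, hn⟩

end Cfsg.Agent.S5019
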