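import Cfsg.Statements.S5020
import Cfsg.Agent.H1.RS3

set_option autoImplicit false
open Cfsg

namespace Cfsg.Agent.S5020

/-- Let X be a special rank one group with abelian unipotent subgroups A and B, and H = N(A) ∩ N(B) its diagonal subgroup. Then either A has at most three elements and X is isomorphic to SL₂(2), SL₂(3) or PSL₂(3); or X = X' A with the commutator subgroup X' quasisimple and the commutator subgroup ⁅A, H⁆ having more than three elements. -/
theorem result {X : Type*} [Group X] {A B : Subgroup X} (h : Cfsg.IsRankOneGroup X A B)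
    (hs : Cfsg.IsSpecialRankOnePair A B) (hab : Cfsg.HasAbelianUnipotents A B) :
    (ENat.card A ≤ 3 ∧ (Nonempty (X ≃* Matrix.SpecialLinearGroup (Fin 2) (ZMod 2)) ∨
        Nonempty (X ≃* Matrix.SpecialLinearGroup (Fin 2) (ZMod 3)) ∨
        Nonempty (X ≃* Matrix.ProjectiveSpecialLinearGroup (Fin 2) (ZMod 3)))) ∨
    (commutator X ⊔ A = ⊤ ∧ Cfsg.IsQuasisimple (commutator X) ∧
      3 < ENat.card ↥(⁅A, Cfsg.rankOneDiagonal A B⁆ : Subgroup X)) := by
  open Subgroup CfsgH1 CfsgH9 in
  open scoped commutatorElement in
  · have hs : Sp A B := hs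
    by_cases h3 : 3 < ENat.card A
    · right
      have hp := hs.perfect hab.1 h3
      have hq := hs.rp.qs hp
      rw [h.1] at hp hq
      rw [_root_.commutator_def, hp, top_sup_eq, ← qs_iff, hs.comm_diag hab.1 h3]
      exact ⟨rfl, hq, h3⟩
    · left
      have h3 := not_lt.1 h3
      refine ⟨h3, ?_⟩
      haveI : Finite A := ENat.card_lt_top.1 (h3.trans_lt (by decide))
      rw [ENat.card_eq_coe_natCard] at h3
      have h3 : Nat.card A ≤ 3 := by exact_mod_cast h3
      have h1 : 1 < Nat.card A := (one_lt_card_iff_ne_bot A).2 hs.rp.neL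
      have key : ∀ p : ℕ, ∀ [Fact p.Prime], Nat.card A = p →
          Nonempty (X ≃* Matrix.SpecialLinearGroup (Fin 2) (ZMod p)) ∨
          Nonempty (X ≃* Matrix.ProjectiveSpecialLinearGroup (Fin 2) (ZMod p)) := by
        intro p hp hc
        obtain ⟨a, ha, ha1⟩ := hs.rp.exA
        obtain ⟨b, m⟩ := hs.rp.exM ha ha1
        have gen : ∀ {C : Subgroup X}, Nat.card C = p → ∀ c ∈ C, c ≠ 1 → c ^ p = 1 ∧ C ≤ zpowers c := by
          intro C hC c hc hc1
          haveI : Finite C := Nat.finite_of_card_ne_zero (hC ▸ hp.out.ne_zero)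
          have e : c ^ p = 1 := by
            have := pow_card_eq_one' (x := (⟨c, hc⟩ : C))
            rw [hC] at this
            exact congrArg Subtype.val this
          refine ⟨e, (eq_of_le_of_card_ge (zpowers_le.2 hc) ?_).ge⟩
          rw [Nat.card_zpowers, orderOf_eq_prime e hc1, hC]
        have hB : Nat.card B = p := by
          obtain ⟨x, -, e⟩ := hs.rp.right_mem
          rw [e]; exact (card_cj x A).trans hc
        obtain ⟨e, g1⟩ := gen hc a ha ha1
        obtain ⟨-, g2⟩ := gen hB b m.2.1 (hs.rp.ne2 m)
        have ht : closure ({a, b} : Set X) = ⊤ := by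
          rw [eq_top_iff, ← h.1]
          exact sup_le (g1.trans (zpowers_le.2 (subset_closure (by simp))))
            (g2.trans (zpowers_le.2 (subset_closure (by simp))))
        have := hs.closure_iso hab.1 m e
        rw [ht] at this
        exact this.imp (fun ⟨f⟩ => ⟨topEquiv.symm.trans f⟩) (fun ⟨f⟩ => ⟨topEquiv.symm.trans f⟩)
      obtain hc | hc : Nat.card A = 2 ∨ Nat.card A = 3 := by omega
      · left
        rcases key 2 hc with h | ⟨⟨f⟩⟩
        · exact h
        · have : center (Matrix.SpecialLinearGroup (Fin 2) (ZMod 2)) = ⊥ := by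
            rw [eq_bot_iff]
            intro g hg
            rcases sl2_center hg with rfl | rfl
            · exact one_mem _
            · rw [mem_bot]; apply sl2_ext <;> simp <;> decide
          exact ⟨f.trans ((QuotientGroup.quotientMulEquivOfEq this).trans QuotientGroup.quotientBot)⟩
      · haveI : Fact (Nat.Prime 3) := ⟨by norm_num⟩
        exact Or.inr (key 3 hc)

end Cfsg.Agent.S5020
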