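import Cfsg.Statements.S5021
import Cfsg.Agent.H1.RS3

set_option autoImplicit false
open Cfsg

namespace Cfsg.Agent.S5021

/-- In a special rank one group with abelian unipotent subgroups A and B, either A is an elementary abelian p-group for some prime p, or A is torsion-free and divisible (every element of A has an n-th root in A for every positive n). -/
theorem result {X : Type*} [Group X] {A B : Subgroup X} (h : Cfsg.IsRankOneGroup X A B)
    (hs : Cfsg.IsSpecialRankOnePair A B) (hab : Cfsg.HasAbelianUnipotents A B) :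
    (∃ p : ℕ, p.Prime ∧ Cfsg.IsElementaryAbelian p A) ∨
    ((∀ a ∈ A, a ≠ 1 → ¬ IsOfFinOrder a) ∧ ∀ a ∈ A, ∀ n : ℕ, 0 < n → ∃ c ∈ A, c ^ n = a) := by
  open Subgroup CfsgH1 CfsgH9 in
  open scoped commutatorElement in
  · have hs : Sp A B := hs
    rcases hs.exp_or_tf hab.1 with ⟨p, hp, e⟩ | e
    · exact Or.inl ⟨p, hp, hab.1, e⟩
    · refine Or.inr ⟨e, fun a ha n hn => ?_⟩
      by_cases h1 : a = 1
      · exact ⟨1, one_mem _, by rw [h1, one_pow]⟩
      · exact hs.exists_root hab.1 ha
          (fun e' => e a ha h1 (isOfFinOrder_iff_pow_eq_one.2 ⟨n, hn, e'⟩))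

end Cfsg.Agent.S5021
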