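import Cfsg.Statements.S5023
import Cfsg.Agent.H1.RS3

set_option autoImplicit false
open Cfsg

namespace Cfsg.Agent.S5023

/-- Let X be a rank one group with unipotent subgroups A and B that acts faithfully on an abelian group V (written additively) with A acting quadratically: a' • (a • v − v) = a • v − v for all a, a' in A and v in V. Then A is either torsion-free or an elementary abelian p-group for some prime p. -/
theorem result {X : Type*} [Group X] {A B : Subgroup X} (h : Cfsg.IsRankOneGroup X A B)
    {V : Type*} [AddCommGroup V] [DistribMulAction X V] (hf : ∀ x : X, (∀ v : V, x • v = v) → x = 1)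
    (hq : ∀ a ∈ A, ∀ a' ∈ A, ∀ v : V, a' • (a • v - v) = a • v - v) :
    (∀ a ∈ A, a ≠ 1 → ¬ IsOfFinOrder a) ∨ ∃ p : ℕ, p.Prime ∧ Cfsg.IsElementaryAbelian p A := by
  open Subgroup CfsgH1 CfsgH9 in
  open scoped commutatorElement in
  · have hq : Quad V A := hq
    have hc : ∀ {C : Subgroup X}, Quad V C → IsMulCommutative C := fun hC => isComm_of fun a ha b hb => by
      rw [← inv_mul_eq_one]
      apply hf
      intro v
      rw [mul_smul, ← hC.comm ha hb, inv_smul_smul]
    have hs : Sp A B := by
      apply RP.sp_of_quad h.2 hq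
      by_contra hn
      push Not at hn
      exact RP.not_nilp h.2 (nilp_of_comm (hc fun a ha a' ha' n => hn a ha a' ha' n))
    rcases hs.exp_or_tf (hc hq) with ⟨p, hp, e⟩ | e
    · exact Or.inr ⟨p, hp, hc hq, e⟩
    · exact Or.inl e

end Cfsg.Agent.S5023
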