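import Cfsg.Statements.S5024
import Cfsg.Agent.H1.RS7

set_option autoImplicit false
open Cfsg

namespace Cfsg.Agent.S5024

/-- Let S be a set of abstract root subgroups of G, A and C members of S, B a rank one partner of A in S and D a rank one partner of C in S. If the rank one group ⟨A, B⟩ is contained in ⟨C, D⟩ then the two coincide, and C and D are conjugates of A inside ⟨A, B⟩. -/
theorem result {G : Type*} [Group G] {S : Set (Subgroup G)} (hS : Cfsg.IsRootSubgroupSet S)
    {A B C D : Subgroup G} (hA : A ∈ S) (hC : C ∈ S) (hB : B ∈ Cfsg.rankOnePartners S A) (hD : D ∈ Cfsg.rankOnePartners S C)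
    (hle : A ⊔ B ≤ C ⊔ D) : A ⊔ B = C ⊔ D ∧ C ∈ Cfsg.unipotentSubgroups A B ∧ D ∈ Cfsg.unipotentSubgroups A B := by
  open Subgroup CfsgH1 CfsgH9 in
  open scoped commutatorElement in
  · have hS : RS S := hS
    have r : RP A B := hB.2
    have r' : RP C D := hD.2
    have h1 := hS.mem_Om_of_le hC r' hA (le_sup_left.trans hle)
      (fun e => r.not_comm (comm_bot_mono e le_rfl (le_sup_right.trans hle)))
    have h2 := hS.mem_Om_of_le hC r' hB.1 (le_sup_right.trans hle)
      (fun e => r.symm.not_comm (comm_bot_mono e le_rfl (le_sup_left.trans hle)))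
    have e := r'.Om_of_mem h1 h2 r.ne
    exact ⟨r'.sup_of_mem h1 h2 r.ne, e.ge (RP.left_mem _ _), e.ge r'.right_mem⟩

end Cfsg.Agent.S5024
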