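import Cfsg.Statements.S5026
import Cfsg.Agent.H1.RS7

set_option autoImplicit false
open Cfsg

namespace Cfsg.Agent.S5026

/-- Let S be a degenerate set of abstract root subgroups of G (a set of abstract transvection groups) and let a, b be commuting non-identity elements of members of S with a b ≠ 1. Then the members of S centralizing a b are exactly those centralizing both a and b. -/
theorem result {G : Type*} [Group G] {S : Set (Subgroup G)} (hS : Cfsg.IsRootSubgroupSet S) (hdeg : Cfsg.IsDegenerateRootSet S)
    {a b : G} (ha : a ∈ Cfsg.rootElements S) (hb : b ∈ Cfsg.rootElements S) (hab : a * b = b * a) (hab1 : a * b ≠ 1) :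
    Cfsg.centralizingMembers S (Subgroup.zpowers (a * b)) =
      Cfsg.centralizingMembers S (Subgroup.zpowers a) ∩ Cfsg.centralizingMembers S (Subgroup.zpowers b) := by
  open Subgroup CfsgH1 CfsgH9 in
  open scoped commutatorElement in
  · have hS : RS S := hS
    have k : ∀ {E : Subgroup G} {x : G}, E ≤ centralizer (zpowers x : Set G) ↔ ∀ e ∈ E, Commute x e := by
      intro E x
      rw [CfsgH9.centralizer_zpowers]
      exact ⟨fun h e he => (mem_centralizer_singleton_iff.1 (h he)).symm,
        fun h e he => mem_centralizer_singleton_iff.2 (h e he).symm⟩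
    obtain ⟨a1, A, hA, ha⟩ := ha
    obtain ⟨b1, B, hB, hb⟩ := hb
    ext E
    constructor
    · rintro ⟨hE, h⟩
      rw [k] at h
      have h1 : ∀ e ∈ E, Commute a e := by
        rcases hS.tri hA hE with r | r | r
        · exact fun e he => cm_of r ha he
        · exfalso
          have e1 : cj a E = cj b⁻¹ E := by rw [cj_eq_cj_iff, inv_inv, ← hab, cj_of_cm h]
          have r1 := r.symm.rp_cj_right ha a1
          obtain ⟨r2, e2⟩ := hS.rp_of_cj hE hB (inv_mem hb) (e1 ▸ r1)
          rw [← e1, r.symm.sup_cj_right ha a1] at e2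
          have m : B ∈ Om E A := by
            obtain ⟨y, hy, e⟩ := r2.right_mem
            exact ⟨y, e2 ▸ hy, e⟩
          by_cases e : A = B
          · exact hab1 (r.normL (mul_mem ha (e ▸ hb)) (cj_of_cm h))
          · have r3 := r.symm.rp_of_mem r.symm.right_mem m e
            have : b ∈ B ⊓ cj a B := mem_inf.2 ⟨hb, by rw [mem_cj, mul_assoc, ← hab]; simpa using hb⟩
            rw [(r3.symm.rp_cj_right ha a1).inf] at this
            exact b1 this
        · exact absurd r (hdeg A hA E hE)
      refine ⟨⟨hE, k.2 h1⟩, hE, k.2 fun e he => ?_⟩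
      rw [← inv_mul_cancel_left a b]
      exact (h1 e he).inv_left.mul_left (h e he)
    · rintro ⟨⟨hE, h1⟩, -, h2⟩
      exact ⟨hE, k.2 fun e he => (k.1 h1 e he).mul_left (k.1 h2 e he)⟩

end Cfsg.Agent.S5026
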