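import Cfsg.Statements.S5027
import Cfsg.Agent.H1.RS7

set_option autoImplicit false
open Cfsg

namespace Cfsg.Agent.S5027

/-- Let S be a set of abstract root subgroups of G such that every member of S has a rank one partner in S (the graph of rank one pairs on S has no isolated vertex). Then the second centre of G equals its centre. -/
theorem result {G : Type*} [Group G] {S : Set (Subgroup G)} (hS : Cfsg.IsRootSubgroupSet S)
    (hF : ∀ A ∈ S, ¬ Cfsg.IsIsolatedIn (Cfsg.FAdj S) S A) : Subgroup.upperCentralSeries G 2 = Subgroup.center G := by
  open Subgroup CfsgH1 CfsgH9 in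
  open scoped commutatorElement in
  · have hS : RS S := hS
    refine le_antisymm (fun z hz => ?_) ?_
    · rw [Subgroup.mem_upperCentralSeries_succ_iff] at hz
      simp only [Subgroup.upperCentralSeries_one] at hz
      have : centralizer {z} = ⊤ := hS.le_of_forall fun A hA a ha => by
        rw [mem_centralizer_singleton_iff]
        by_cases a1 : a = 1
        · simp [a1]
        obtain ⟨B, hB, r⟩ := (ni_iff hA).1 (hF A hA)
        have := hS.no_translate hA hB r (fun x _ => (mem_center_iff.1 (hz a) x).symm) ha a1
          (hS.cjm hA z) (by rw [commutatorElement_def, inv_mul_cancel_right]; exact conj_mem_cj z ha)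
        exact (commutatorElement_eq_one_iff_commute.1 this).symm
      rw [mem_center_iff]
      intro g
      exact mem_centralizer_singleton_iff.1 (this ▸ mem_top g)
    · rw [← Subgroup.upperCentralSeries_one]; exact Subgroup.upperCentralSeries_mono G (by norm_num)

end Cfsg.Agent.S5027
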