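import Cfsg.Statements.S5029
import Cfsg.Agent.H1.RS7

set_option autoImplicit false
open Cfsg

namespace Cfsg.Agent.S5029

/-- Let S be a set of abstract root subgroups of G, A ∈ S having a rank one partner in S, and B ∈ S with C = ⁅A, B⁆ ∈ S. Then the members of S contained in AC are the conjugates of A by elements of B together with C, they partition AC, the members of S inside AC partition AC so that A is a line partner of C, and for every non-identity a ∈ A the map b ↦ a⁻¹ b⁻¹ a b is an isomorphism from B onto C. -/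
theorem result {G : Type*} [Group G] {S : Set (Subgroup G)} (hS : Cfsg.IsRootSubgroupSet S)
    {A B : Subgroup G} (hA : ¬ Cfsg.IsIsolatedIn (Cfsg.FAdj S) S A) (hAS : A ∈ S) (hB : B ∈ S) (hC : ⁅A, B⁆ ∈ S) :
    Cfsg.membersIn S (A ⊔ ⁅A, B⁆) = (fun b : G => Cfsg.conjBy A b) '' (B : Set G) ∪ {⁅A, B⁆} ∧
    Cfsg.IsSubgroupPartition (A ⊔ ⁅A, B⁆) (Cfsg.membersIn S (A ⊔ ⁅A, B⁆)) ∧
    A ∈ Cfsg.linePartners S ⁅A, B⁆ ∧
    ∀ a ∈ A, a ≠ 1 → ∃ φ : ↥B ≃* ↥⁅A, B⁆, ∀ b : ↥B, (φ b : G) = a⁻¹ * (b : G)⁻¹ * a * b := by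
  open Subgroup CfsgH1 CfsgH9 in
  open scoped commutatorElement in
  · have hS : RS S := hS
    have hn := (ni_iff hAS).1 hA
    have h := hS.rc_of_mem hAS hB hC
    refine ⟨?_, hS.line_part hAS hn h, (hS.lp_of_rc hAS hn h).symm.mem, fun a ha a1 => ?_⟩
    · ext E
      constructor
      · rintro ⟨hE, hl⟩
        rcases hS.line_mem hAS hn h hE hl with e | ⟨b, hb, e⟩
        · exact Or.inr e
        · exact Or.inl ⟨b, hb, e.symm⟩
      · rintro (⟨b, hb, rfl⟩ | rfl)
        · exact ⟨hS.cjm hAS b, by rw [Subgroup.commutator_comm]; exact cj_le_sup hb⟩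
        · exact ⟨hC, le_sup_right⟩
    · let f : B →* ↥⁅A, B⁆ := MonoidHom.mk'
        (fun b => ⟨⁅a, (b : G)⁆, commutator_mem_commutator ha b.2⟩)
        (fun b b' => Subtype.ext (h.mul_right ha b.2 b'.2))
      have hf : Function.Bijective f := by
        constructor
        · rw [injective_iff_map_eq_one]
          intro b e
          exact Subtype.ext (hS.rc_inj hAS hB hn h ha b.2 a1
            (commutatorElement_eq_one_iff_commute.1 (congrArg Subtype.val e)))
        · intro c
          obtain ⟨b, hb, e⟩ := h.surjR ha a1 c.2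
          exact ⟨⟨b, hb⟩, Subtype.ext e⟩
      refine ⟨MulEquiv.ofBijective f hf, fun b => ?_⟩
      change ⁅a, (b : G)⁆ = _
      have := h.inv_left ha (inv_mem b.2)
      rw [h.inv_right ha b.2, inv_inv] at this
      rw [← this, commutatorElement_def, inv_inv, inv_inv]

end Cfsg.Agent.S5029
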