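import Cfsg.Statements.S5030
import Cfsg.Agent.H1.RS7

set_option autoImplicit false
open Cfsg

namespace Cfsg.Agent.S5030

/-- Let S be a set of abstract root subgroups of G and A, B, C ∈ S with ⁅A, B⁆ ∈ S and ⁅B, C⁆ ∈ S, where A and C are different and commute. For a non-identity b ∈ B put X = ⟨A, b⁻¹ C b⟩ and Y = ⟨b⁻¹ A b, C⟩ and R = ⟨A, B, C⟩. Then X and Y are either both abelian or both nilpotent of class exactly two; X and Y commute elementwise; XY is normal in R with R = (XY) B; and R is nilpotent. -/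
theorem result {G : Type*} [Group G] {S : Set (Subgroup G)} (hS : Cfsg.IsRootSubgroupSet S)
    {A B C : Subgroup G} (hA : A ∈ S) (hB : B ∈ S) (hC : C ∈ S) (hAB : ⁅A, B⁆ ∈ S) (hBC : ⁅B, C⁆ ∈ S)
    (hAC : C ∈ Cfsg.commutingPartners S A)
    {b : G} (hb : b ∈ B) (hb1 : b ≠ 1) :
    ((IsMulCommutative ↥(A ⊔ Cfsg.conjBy C b⁻¹) ∧ IsMulCommutative ↥(Cfsg.conjBy A b⁻¹ ⊔ C)) ∨
      ((¬ IsMulCommutative ↥(A ⊔ Cfsg.conjBy C b⁻¹) ∧
          ⁅⁅A ⊔ Cfsg.conjBy C b⁻¹, A ⊔ Cfsg.conjBy C b⁻¹⁆, A ⊔ Cfsg.conjBy C b⁻¹⁆ = ⊥) ∧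
        (¬ IsMulCommutative ↥(Cfsg.conjBy A b⁻¹ ⊔ C) ∧
          ⁅⁅Cfsg.conjBy A b⁻¹ ⊔ C, Cfsg.conjBy A b⁻¹ ⊔ C⁆, Cfsg.conjBy A b⁻¹ ⊔ C⁆ = ⊥))) ∧
    ⁅A ⊔ Cfsg.conjBy C b⁻¹, Cfsg.conjBy A b⁻¹ ⊔ C⁆ = ⊥ ∧
    (∀ r ∈ A ⊔ B ⊔ C, Cfsg.conjBy ((A ⊔ Cfsg.conjBy C b⁻¹) ⊔ (Cfsg.conjBy A b⁻¹ ⊔ C)) r =
      (A ⊔ Cfsg.conjBy C b⁻¹) ⊔ (Cfsg.conjBy A b⁻¹ ⊔ C)) ∧
    ((A ⊔ Cfsg.conjBy C b⁻¹) ⊔ (Cfsg.conjBy A b⁻¹ ⊔ C)) ⊔ B = A ⊔ B ⊔ C ∧
    Group.IsNilpotent ↥(A ⊔ B ⊔ C) := by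
  open Subgroup CfsgH1 CfsgH9 in
  open scoped commutatorElement in
  · have hS : RS S := hS
    have h1 := hS.rc_of_mem hA hB hAB
    have h2 := (hS.rc_of_mem hB hC hBC).symm
    have c := hAC.2.2
    have hb' := inv_mem hb
    have b1 := inv_ne_one.2 hb1
    have e := RS.chain_sup h1 h2 hb' b1
    have k : (A ⊔ cj b⁻¹ C ⊔ (cj b⁻¹ A ⊔ C)) ⊔ B = A ⊔ B ⊔ C := by
      apply le_antisymm
      · refine sup_le (sup_le (sup_le ?_ ?_) (sup_le ?_ le_sup_right)) ?_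
        · exact le_sup_left.trans le_sup_left
        · exact cj_le_of_mem (mem_sup_left (mem_sup_right hb')) le_sup_right
        · exact cj_le_of_mem (mem_sup_left (mem_sup_right hb')) (le_sup_left.trans le_sup_left)
        · exact le_sup_right.trans le_sup_left
      · exact sup_le (sup_le (le_sup_left.trans (le_sup_left.trans le_sup_left)) le_sup_right)
          (le_sup_right.trans (le_sup_right.trans le_sup_left))
    refine ⟨?_, hS.chain_comm hA hC h1 h2 c hb', fun r hr => ?_, k, hS.chain_nilp hA hB hC h1 h2 c⟩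
    · have c1 := hS.chain_cls hA hC h2 c hb' b1
      have c2 := hS.chain_cls hC hA h1 (comm_bot_symm c) hb' b1
      rw [sup_comm] at c2
      have a1 := hS.chain_ab hA hC h1 h2 c hb' b1
      have a2 := hS.chain_ab hC hA h2 h1 (comm_bot_symm c) hb' b1
      rw [sup_comm C, sup_comm _ A] at a2
      rw [isComm_iff, isComm_iff]
      by_cases q : ⁅A ⊔ cj b⁻¹ C, A ⊔ cj b⁻¹ C⁆ = ⊥
      · exact Or.inl ⟨q, a1 q⟩
      · exact Or.inr ⟨⟨q, c1⟩, fun q' => q (a2 q'), c2⟩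
    · refine cj_eq_of_mem_normalizer ?_
      rw [← k] at hr
      refine (sup_le le_normalizer ?_ : _ ≤ _) hr
      rw [e]
      have n : ∀ {A : Subgroup G}, RC S A B → B ≤ normalizer ((A ⊔ ⁅A, B⁆ : Subgroup G) : Set G) :=
        fun h => le_norm_of_comm (commutator_sup_le (le_normalizer.trans' le_sup_left)
          (le_normalizer.trans' le_sup_right) le_sup_right (comm_le_of_bot h.cenR))
      exact le_normalizer_sup (n h1) (n h2)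

end Cfsg.Agent.S5030
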