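import Cfsg.Statements.S5033
import Cfsg.Agent.H1.RS7

set_option autoImplicit false
open Cfsg

namespace Cfsg.Agent.S5033

/-- Quasisimplicity criterion for groups generated by abstract root subgroups. Let S be a set of abstract root subgroups of G with more than one member such that: the graph of rank one pairs on S is connected; no two different members of S have the same set of commuting members of S; if S is degenerate then every member of S has more than three elements; and every rank one pair in S is special. Then for every A ∈ S one has G = G' A with A ∩ G' ≠ 1, and the commutator subgroup G' is quasisimple. Moreover G is perfect if S is non-degenerate, or if some rank one pair A, B in S generates a perfect group. -/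
theorem result {G : Type*} [Group G] {S : Set (Subgroup G)} (hS : Cfsg.IsRootSubgroupSet S) (h2 : ∃ A ∈ S, ∃ B ∈ S, A ≠ B)
    (h1 : Cfsg.IsConnectedFamily (Cfsg.FAdj S) S)
    (h2' : ∀ A ∈ S, ∀ C ∈ S, A ≠ C → Cfsg.centralizingMembers S A ≠ Cfsg.centralizingMembers S C)
    (h3 : Cfsg.IsDegenerateRootSet S → ∀ A ∈ S, 3 < ENat.card A)
    (h4 : ∀ A ∈ S, ∀ B ∈ Cfsg.rankOnePartners S A, Cfsg.IsSpecialRankOnePair A B) :
    (∀ A ∈ S, commutator G ⊔ A = ⊤ ∧ A ⊓ commutator G ≠ ⊥) ∧ Cfsg.IsQuasisimple ↥(commutator G) ∧
    (Cfsg.IsNondegenerateRootSet S → commutator G = ⊤) ∧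
    ((∃ A ∈ S, ∃ B ∈ Cfsg.rankOnePartners S A, Group.IsPerfect ↥(A ⊔ B)) → commutator G = ⊤) := by
  open Subgroup CfsgH1 CfsgH9 in
  open scoped commutatorElement in
  · have hS : RS S := hS
    have q : QS (⊤ : Subgroup G) := by
      refine hS.qs_top (RS.cl_of_conn h1) (RS.ni_of_conn h1 h2) (h2.imp fun _ h => h.1) ?_ ?_
      · intro A hA C hC h
        by_contra hne
        apply h2' A hA C hC hne
        ext B
        exact ⟨fun hB => ⟨hB.1, comm_bot_iff'.1 ((h B hB.1).1 (comm_bot_iff'.2 hB.2))⟩,
          fun hB => ⟨hB.1, comm_bot_iff'.1 ((h B hB.1).2 (comm_bot_iff'.2 hB.2))⟩⟩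
      · by_cases hd : IsDegenerateRootSet S
        · exact Or.inr fun A hA B hB r => Sp.perfect (h4 A hA B ⟨hB, r⟩) (hS.commutative A hA) (h3 hd A hA)
        · left
          by_contra hc
          exact hd fun A hA B _ h => hc ⟨A, hA, B, h⟩
    have e : commutator G = ⊤ := q.perf
    refine ⟨fun A hA => ⟨by rw [e, top_sup_eq], by rw [e, inf_top_eq]; exact hS.ne_bot A hA⟩, ?_,
      fun _ => e, fun _ => e⟩
    rw [e, ← qs_iff]; exact q

end Cfsg.Agent.S5033
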