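import Cfsg.Statements.S5034
import Cfsg.Agent.H1.RS7

set_option autoImplicit false
open Cfsg

namespace Cfsg.Agent.S5034

/-- Let S be a non-degenerate class of abstract root subgroups of G, A ∈ S and B a rank one partner of A. Then some line partner C of A has ⁅B, C⁆ ∈ S, and the rank one pair A, B is special. -/
theorem result {G : Type*} [Group G] {S : Set (Subgroup G)} (hS : Cfsg.IsRootSubgroupClass S) (hnd : Cfsg.IsNondegenerateRootSet S)
    {A B : Subgroup G} (hA : A ∈ S) (hB : B ∈ Cfsg.rankOnePartners S A) :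
    (∃ C ∈ Cfsg.linePartners S A, C ∈ Cfsg.commutatorPartners S B) ∧ Cfsg.IsSpecialRankOnePair A B := by
  open Subgroup CfsgH1 CfsgH9 in
  open scoped commutatorElement in
  · obtain ⟨hS, -, hc⟩ := hS
    have hS : RS S := hS
    obtain ⟨-, -, C, hC, D, -, h⟩ := hnd
    have hn := hS.ni_all hc hA ⟨B, hB.1, hB.2⟩
    refine ⟨?_, hS.sp_of_rc hc hn hC h hA hB.1 hB.2⟩
    obtain ⟨P, l⟩ := hS.exists_lp hc hn hC h hA
    obtain ⟨T, F, o, -, -, l2⟩ := hS.exists_op hn l hB.1 hB.2
    exact ⟨T, l2.mem, o.mA, o.rc.symm.1⟩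

end Cfsg.Agent.S5034
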