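import Cfsg.Statements.S5035
import Cfsg.Agent.H1.RS7

set_option autoImplicit false
open Cfsg

namespace Cfsg.Agent.S5035

/-- Let S be a set of abstract root subgroups of G whose graph of rank one pairs is connected, and f a homomorphism from G onto a group H. Then either the images of the members of S form a set of abstract root subgroups of H whose graph of rank one pairs is again connected, or H equals the image of a member of S. -/
theorem result {G H : Type*} [Group G] [Group H] {S : Set (Subgroup G)} (hS : Cfsg.IsRootSubgroupSet S)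
    (hc : Cfsg.IsConnectedFamily (Cfsg.FAdj S) S) (f : G →* H) (hf : Function.Surjective f) :
    (Cfsg.IsRootSubgroupSet ((fun A : Subgroup G => A.map f) '' S) ∧
      Cfsg.IsConnectedFamily (Cfsg.FAdj ((fun A : Subgroup G => A.map f) '' S)) ((fun A : Subgroup G => A.map f) '' S)) ∨
    ∃ A ∈ S, A.map f = ⊤ := by
  open Subgroup CfsgH1 CfsgH9 in
  open scoped commutatorElement in
  · have hS : RS S := hS
    by_cases h0 : ∃ A ∈ S, A.map f = ⊥
    · right
      obtain ⟨A, hA, e⟩ := h0
      refine ⟨A, hA, ?_⟩
      have : f.ker = ⊤ := hS.eq_top_of_le (RS.cl_of_conn hc) hA ((Subgroup.map_eq_bot_iff A).1 e)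
      rw [eq_top_iff]
      intro y _
      obtain ⟨x, rfl⟩ := hf y
      rw [MonoidHom.mem_ker.1 (this ▸ mem_top x)]
      exact one_mem _
    left
    push Not at h0
    constructor
    · refine ⟨?_, ?_, ?_, ?_, ?_⟩
      · rintro _ ⟨A, hA, rfl⟩; exact isComm_map f (hS.commutative A hA)
      · rintro _ ⟨A, hA, rfl⟩; exact h0 A hA
      · rw [iSup_image, ← Subgroup.map_top_of_surjective f hf, ← hS.generates]
        simp only [Subgroup.map_iSup]
      · rintro _ ⟨A, hA, rfl⟩ g
        obtain ⟨x, rfl⟩ := hf g
        exact ⟨cj x A, hS.cjm hA x, map_cj f x A⟩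
      · rintro _ ⟨A, hA, rfl⟩ _ ⟨B, hB, rfl⟩
        dsimp only
        rcases hS.tri hA hB with r | r | r
        · left; rw [← Subgroup.map_commutator, r, Subgroup.map_bot]
        · by_cases e : A.map f = B.map f
          · left; rw [← e, ← Subgroup.map_commutator, hS.cm hA, Subgroup.map_bot]
          · exact Or.inr (Or.inl (r.map f e))
        · refine Or.inr (Or.inr (RC.of ⟨_, r.1, Subgroup.map_commutator _ _ _⟩ ?_ ?_ ?_))
          · rw [← Subgroup.map_commutator, ← Subgroup.map_sup]
            rintro _ ⟨c, hc, rfl⟩ _ ⟨x, hx, rfl⟩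
            exact (r.cen hc hx).map f
          · rw [← Subgroup.map_commutator]
            rintro _ ⟨a, ha, rfl⟩ a1 _ ⟨c, hc, rfl⟩
            obtain ⟨b, hb, rfl⟩ := r.surjR ha (fun e => a1 (by rw [e, map_one])) hc
            exact ⟨f b, mem_map_of_mem f hb, (map_commutatorElement _ _ _).symm⟩
          · rw [← Subgroup.map_commutator]
            rintro _ ⟨a, ha, rfl⟩ a1 _ ⟨c, hc, rfl⟩
            obtain ⟨b, hb, rfl⟩ := r.surjL ha (fun e => a1 (by rw [e, map_one])) hc
            exact ⟨f b, mem_map_of_mem f hb, (map_commutatorElement _ _ _).symm⟩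
    · rintro _ ⟨A, hA, rfl⟩ _ ⟨B, hB, rfl⟩
      have := hc A hA B hB
      clear hB
      induction this with
      | refl => exact .refl
      | @tail P Q _ h ih =>
        by_cases e : P.map f = Q.map f
        · dsimp only at ih ⊢; rwa [← e]
        · exact ih.tail ⟨⟨P, h.1, rfl⟩, ⟨Q, h.2.1, rfl⟩, RP.map f h.2.2 e⟩

end Cfsg.Agent.S5035
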