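import Cfsg.Statements.S5037
import Cfsg.Agent.H1.RS7

set_option autoImplicit false
open Cfsg

namespace Cfsg.Agent.S5037

/-- Let S be a class of abstract root subgroups of G that is either degenerate or non-degenerate (so either the commutator case never occurs, or all three cases occur), and A ≠ C members of S. If every member of S commuting with A commutes with C, then A and C have the same commuting members of S; and if every rank one partner of A is a rank one partner of C, then A and C commute and have the same rank one partners. -/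
theorem result {G : Type*} [Group G] {S : Set (Subgroup G)} (hS : Cfsg.IsRootSubgroupClass S)
    (hdn : Cfsg.IsDegenerateRootSet S ∨ Cfsg.IsNondegenerateRootSet S)
    {A C : Subgroup G} (hA : A ∈ S) (hC : C ∈ S) (hAC : A ≠ C) :
    (Cfsg.centralizingMembers S A ⊆ Cfsg.centralizingMembers S C →
      Cfsg.centralizingMembers S A = Cfsg.centralizingMembers S C) ∧
    (Cfsg.rankOnePartners S A ⊆ Cfsg.rankOnePartners S C →
      ⁅A, C⁆ = ⊥ ∧ Cfsg.rankOnePartners S A = Cfsg.rankOnePartners S C) := by
  open Subgroup CfsgH1 CfsgH9 in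
  open scoped commutatorElement in
  · obtain ⟨hS, -, hc⟩ := hS
    have hS : RS S := hS
    by_cases hn : ∀ E ∈ S, NI S E
    · refine ⟨fun h => Set.Subset.antisymm h fun D hD => ⟨hD.1, ?_⟩, fun h => ?_⟩
      · exact comm_bot_iff'.1 (hS.cent_eq hn hA hC
          (fun B hB c => comm_bot_iff'.2 (h ⟨hB, comm_bot_iff'.1 c⟩).2) hD.1 (comm_bot_iff'.2 hD.2))
      · have h' : ∀ B ∈ S, RP A B → RP C B := fun B hB r => (h ⟨hB, r⟩).2
        exact ⟨hS.omega_comm hn hA hC h', Set.Subset.antisymm h fun D hD =>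
          ⟨hD.1, hS.omega_eq hn hA hC h' hD.1 hD.2⟩⟩
    · have n : ∀ E ∈ S, ∀ F ∈ S, ¬ RP E F := fun E hE F hF r => hn (hS.ni_all hc hE ⟨F, hF, r⟩)
      have c : ∀ E ∈ S, ∀ F ∈ S, ⁅E, F⁆ = ⊥ := by
        intro E hE F hF
        rcases hdn with h | ⟨-, ⟨P, hP, Q, hQ, r⟩, -⟩
        · exact ((hS.tri hE hF).resolve_right (not_or.2 ⟨n E hE F hF, h E hE F hF⟩))
        · exact absurd r (n P hP Q hQ)
      exact ⟨fun h => Set.Subset.antisymm h fun D hD => ⟨hD.1, comm_bot_iff.1 (c D hD.1 A hA)⟩,
        fun h => ⟨c A hA C hC, Set.Subset.antisymm h fun D hD => absurd hD.2 (n C hC D hD.1)⟩⟩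

end Cfsg.Agent.S5037
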