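import Cfsg.Statements.S5040
import Cfsg.Agent.H1.RS7

set_option autoImplicit false
open Cfsg

namespace Cfsg.Agent.S5040

/-- Let S be a non-degenerate class of abstract root subgroups of G and Δ a weak TI-subset of S. Then the members of Δ commute with one another elementwise. -/
theorem result {G : Type*} [Group G] {S : Set (Subgroup G)} (hS : Cfsg.IsRootSubgroupClass S) (hnd : Cfsg.IsNondegenerateRootSet S)
    {Δ : Set (Subgroup G)} (hΔ : Cfsg.IsWeakTISubset S Δ) : Cfsg.IsAbelianFamily Δ := by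
  open Subgroup CfsgH1 CfsgH9 in
  open scoped commutatorElement in
  · obtain ⟨hS, -, hc⟩ := hS
    have hS : RS S := hS
    obtain ⟨-, ⟨P, hP, Q, hQ, r⟩, C, hC, D, -, h⟩ := hnd
    have hn := hS.ni_all hc hP ⟨Q, hQ, r⟩
    intro A hA B hB a ha b hb
    refine cm_of (hS.block_comm hc hn hC h hΔ.1 hΔ.2.2.1 ?_ hA hB) ha hb
    intro E hE e he A hA h1 B hB
    by_cases e1 : e = 1
    · rwa [e1, cj_one]
    rcases hΔ.2.2.2 e ⟨e1, E, hE, he⟩ with q | q
    · rw [← q]; exact ⟨B, hB, rfl⟩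
    · exact absurd h1 (Set.disjoint_left.1 q ⟨A, hA, rfl⟩)

end Cfsg.Agent.S5040
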