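import Cfsg.Statements.S5041
import Cfsg.Agent.H1.RS7

set_option autoImplicit false
open Cfsg

namespace Cfsg.Agent.S5041

/-- Let S be a non-degenerate class of abstract root subgroups of G. Then the graph on S joining A to its line partners, and the commuting graph on S, are both connected. -/
theorem result {G : Type*} [Group G] {S : Set (Subgroup G)} (hS : Cfsg.IsRootSubgroupClass S) (hnd : Cfsg.IsNondegenerateRootSet S) :
    Cfsg.IsConnectedFamily (Cfsg.EAdj S S) S ∧ Cfsg.IsConnectedFamily (Cfsg.DAdj S) S := by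
  open Subgroup CfsgH1 CfsgH9 in
  open scoped commutatorElement in
  · obtain ⟨hS, -, hc⟩ := hS
    have hS : RS S := hS
    obtain ⟨-, ⟨P, hP, Q, hQ, r⟩, C, hC, D, -, h⟩ := hnd
    have hn := hS.ni_all hc hP ⟨Q, hQ, r⟩
    constructor
    · intro A hA B hB
      obtain ⟨g, rfl⟩ := hc A hA B hB
      exact Relation.ReflTransGen.mono (fun _ _ l => ⟨l.l, l.r, l.mem⟩) _ _ (hS.er_cj hc hn hC h hA g)
    · intro A hA B hB
      obtain ⟨g, rfl⟩ := hc A hA B hB
      exact Relation.ReflTransGen.mono (fun _ _ l => ⟨l.l, l.r, l.ne, l.cm⟩) _ _ (hS.er_cj hc hn hC h hA g)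

end Cfsg.Agent.S5041
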