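import Mathlib
import Cfsg.Statements.S5043
import Cfsg.Agent.H8.RT3

set_option autoImplicit false
open Matrix
open Cfsg

namespace Cfsg.Agent.S5043

open CfsgH8.RT CfsgH5 in
theorem aux (k : Type*) [Field k] (n : ℕ) :
    {A : Subgroup (Matrix.SpecialLinearGroup (Fin (n + 3)) k) |
        ∃ g : Matrix.SpecialLinearGroup (Fin (n + 3)) k,
          A = Cfsg.conjBy (Subgroup.closure {t : Matrix.SpecialLinearGroup (Fin (n + 3)) k |
            ∃ c : k, (t : Matrix (Fin (n + 3)) (Fin (n + 3)) k) = Matrix.transvection 0 1 c}) g} =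
      T k (rSL k (n + 3)) '' NL k (Fin (n + 3) → k) := by
  have e : Subgroup.closure {t : Matrix.SpecialLinearGroup (Fin (n + 3)) k |
      ∃ c : k, (t : Matrix (Fin (n + 3)) (Fin (n + 3)) k) = Matrix.transvection 0 1 c} =
      T k (rSL k (n + 3)) (Eij k 0 1) := by
    unfold T
    simp only [rSL_eq_iff]
  have hm : T k (rSL k (n + 3)) (Eij k 0 1) ∈ T k (rSL k (n + 3)) '' NL k (Fin (n + 3) → k) :=
    ⟨_, Eij_mem (by simp), rfl⟩
  rw [e]
  ext A
  constructor
  · rintro ⟨g, rfl⟩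
    exact (SL_fam.krs SL_gen).1.conj_mem _ hm g
  · exact fun hA => SL_class.2 _ hm A hA

/-- Let k be a field and n a natural number. In SL_{n+3}(k) (so in every dimension at least 3) the conjugates of the root subgroup of elementary transvections 1 + c E₁₂ (c ∈ k) — that is, the groups of transvections attached to an incident point–hyperplane pair — form a non-degenerate class of abstract k-root subgroups of SL_{n+3}(k) whose graph of rank one pairs is connected. -/
theorem result (k : Type*) [Field k] (n : ℕ) :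
    Cfsg.IsRootSubgroupClass {A : Subgroup (Matrix.SpecialLinearGroup (Fin (n + 3)) k) |
        ∃ g : Matrix.SpecialLinearGroup (Fin (n + 3)) k,
          A = Cfsg.conjBy (Subgroup.closure {t : Matrix.SpecialLinearGroup (Fin (n + 3)) k |
            ∃ c : k, (t : Matrix (Fin (n + 3)) (Fin (n + 3)) k) = Matrix.transvection 0 1 c}) g} ∧
    Cfsg.IsNondegenerateRootSet {A : Subgroup (Matrix.SpecialLinearGroup (Fin (n + 3)) k) |
        ∃ g : Matrix.SpecialLinearGroup (Fin (n + 3)) k,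
          A = Cfsg.conjBy (Subgroup.closure {t : Matrix.SpecialLinearGroup (Fin (n + 3)) k |
            ∃ c : k, (t : Matrix (Fin (n + 3)) (Fin (n + 3)) k) = Matrix.transvection 0 1 c}) g} ∧
    Cfsg.IsKRootSubgroupSet k {A : Subgroup (Matrix.SpecialLinearGroup (Fin (n + 3)) k) |
        ∃ g : Matrix.SpecialLinearGroup (Fin (n + 3)) k,
          A = Cfsg.conjBy (Subgroup.closure {t : Matrix.SpecialLinearGroup (Fin (n + 3)) k |
            ∃ c : k, (t : Matrix (Fin (n + 3)) (Fin (n + 3)) k) = Matrix.transvection 0 1 c}) g} ∧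
    Cfsg.IsConnectedFamily (Cfsg.FAdj {A : Subgroup (Matrix.SpecialLinearGroup (Fin (n + 3)) k) |
        ∃ g : Matrix.SpecialLinearGroup (Fin (n + 3)) k,
          A = Cfsg.conjBy (Subgroup.closure {t : Matrix.SpecialLinearGroup (Fin (n + 3)) k |
            ∃ c : k, (t : Matrix (Fin (n + 3)) (Fin (n + 3)) k) = Matrix.transvection 0 1 c}) g})
      {A : Subgroup (Matrix.SpecialLinearGroup (Fin (n + 3)) k) |
        ∃ g : Matrix.SpecialLinearGroup (Fin (n + 3)) k,
          A = Cfsg.conjBy (Subgroup.closure {t : Matrix.SpecialLinearGroup (Fin (n + 3)) k |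
            ∃ c : k, (t : Matrix (Fin (n + 3)) (Fin (n + 3)) k) = Matrix.transvection 0 1 c}) g} := by
  open CfsgH8.RT CfsgH5 CfsgH1 in
  rw [aux]
  have hS := (SL_fam (F := k) (n := n + 3)).krs SL_gen
  have h01 : (0 : Fin (n + 3)) ≠ 1 := by simp
  have h12 : (1 : Fin (n + 3)) ≠ 2 := by
    simp [Fin.ext_iff, Nat.mod_eq_of_lt (show 2 < n + 3 by omega)]
  have h02 : (0 : Fin (n + 3)) ≠ 2 := by
    simp [Fin.ext_iff, Nat.mod_eq_of_lt (show 2 < n + 3 by omega)]
  have e : Eij k (0 : Fin (n + 3)) 1 * Eij k 1 2 - Eij k 1 2 * Eij k 0 1 = Eij k 0 2 := by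
    refine LinearMap.ext fun v => ?_
    simp [Eij, h02.symm]
  have hr : RC (T k (rSL k (n + 3)) '' NL k (Fin (n + 3) → k)) (T k (rSL k (n + 3)) (Eij k 0 1))
      (T k (rSL k (n + 3)) (Eij k 1 2)) := by
    refine rc SL_fam.inj (SL_fam.full _ (Eij_mem h01)) (SL_fam.full _ (Eij_mem h12))
      (LinearMap.ext fun v => by simp [Eij, h02.symm]) (LinearMap.ext fun v => by simp [Eij, h02.symm])
      (e ▸ SL_fam.full _ (Eij_mem h02)) (e ▸ ⟨_, Eij_mem h02, rfl⟩)
  refine ⟨⟨hS.1, SL_class⟩, ⟨⟨_, hr.mem, _, ⟨_, Eij_mem h01, rfl⟩, (RS.rc_neL hS.1 hr).symm, hr.cenL⟩,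
    ⟨_, ⟨_, Eij_mem h01, rfl⟩, _, ⟨_, Eij_mem h01.symm, rfl⟩, (psl2 SL_fam.inj (SL_fam.full _ (Eij_mem h01))
      (SL_fam.full _ (Eij_mem h01.symm)) (r1_opp (by simp) (by simp))).2⟩,
    ⟨_, ⟨_, Eij_mem h01, rfl⟩, _, ⟨_, Eij_mem h12, rfl⟩, hr⟩⟩, hS, SL_conn⟩

end Cfsg.Agent.S5043
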