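import Cfsg.Statements.S5045
import Mathlib
import Cfsg.Agent.H1.TT2
import Cfsg.Agent.H2.Misc

set_option autoImplicit false
open Cfsg

namespace Cfsg.Agent.S5045

section
open Subgroup CfsgH9
open scoped commutatorElement

section
variable {G : Type*} [Group G] {D : Set G}
theorem sq (hD : IsRootInvolutionSet D) {d : G} (hd : d ∈ D) : d * d = 1 := by
  rw [← pow_two, ← hD.orderOf_eq d hd, pow_orderOf_eq_one]
theorem iv (hD : IsRootInvolutionSet D) {d : G} (hd : d ∈ D) : d⁻¹ = d :=
  inv_eq_of_mul_eq_one_right (sq hD hd)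
theorem od {x : G} {k : ℕ} (h1 : Odd (orderOf x)) (h2 : x ^ 2 ^ k = 1) : x = 1 :=
  orderOf_eq_one_iff.1 (Nat.eq_one_of_dvd_coprimes ((Nat.coprime_two_right.2 h1).pow_right k) dvd_rfl
    (orderOf_dvd_of_pow_eq_one h2))
theorem sq2 (hD : IsRootInvolutionSet D) {a b : G} (ha : a ∈ D) (hb : b ∈ D) (c : Commute a b) :
    (a * b) ^ 2 = 1 := by rw [c.mul_pow, pow_two, pow_two, sq hD ha, sq hD hb, one_mul]
theorem nc (hD : IsRootInvolutionSet D) {a b : G} (h : OddAdj D a b) : ¬ Commute a b := fun c =>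
  h.2.2.1 ((eq_inv_of_mul_eq_one_left (od (k := 1) h.2.2.2 (sq2 hD h.1 h.2.1 c))).trans (iv hD h.2.1))
theorem sy (hD : IsRootInvolutionSet D) {a b : G} (h : OddAdj D a b) : OddAdj D b a :=
  ⟨h.2.1, h.1, h.2.2.1.symm, by
    rw [← orderOf_inv, mul_inv_rev, iv hD h.1, iv hD h.2.1]; exact h.2.2.2⟩
theorem four (hD : IsRootInvolutionSet D) {a b : G} (ha : a ∈ D) (hb : b ∈ D) (h : ¬ OddAdj D a b) :
    (a * b) ^ 4 = 1 := by
  rcases hD.pair a ha b hb with e | e | e
  · rw [show 4 = 2 * 2 from rfl, pow_mul, sq2 hD ha hb e, one_pow]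
  · by_cases c : a = b
    · rw [c, sq hD hb, one_pow]
    · exact absurd ⟨ha, hb, c, e⟩ h
  · rw [← e.1, pow_orderOf_eq_one]
theorem br (hD : IsRootInvolutionSet D) {a b : G} (ha : a ∈ D) (hb : b ∈ D) (h : (a * b) ^ 4 = 1) :
    a * b * a * b = b * a * b * a := by
  have : a * b * a * b * (a * b * a * b) = 1 := by rw [← h]; simp only [pow_succ, pow_zero]; group
  rw [eq_inv_of_mul_eq_one_left this]
  simp only [mul_inv_rev, iv hD ha, iv hD hb, mul_assoc]
theorem l1 [Finite G] (hD : IsRootInvolutionSet D) {a e f x : G} (he : e ∈ D) (hf : f ∈ D)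
    (c : Commute e f) (ea : a = e * f) (h : OddAdj D a x) : OddAdj D e x ∨ OddAdj D f x := by
  by_contra n
  have hx := h.2.1
  have b1 := br hD he hx (four hD he hx fun k => n (.inl k))
  have b2 := br hD hf hx (four hD hf hx fun k => n (.inr k))
  have ee : ∀ {d}, d ∈ D → ∀ y, d * (d * y) = y := fun hd y => by rw [← mul_assoc, sq hD hd, one_mul]
  have zx : ∀ {e}, e * x * e * x = x * e * x * e → Commute x (e * x * e * x) := fun {e} b => by
    change x * _ = _ * x
    calc x * (e * x * e * x) = (x * e * x * e) * x := by simp only [mul_assoc]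
      _ = _ := by rw [← b]
  have e1 : (a * x) ^ 2 = f * (e * x * e * x) * f⁻¹ * (f * x * f * x) := by
    rw [ea, pow_two, iv hD hf]
    calc e * f * x * (e * f * x) = f * e * x * e * f * x := by nth_rewrite 1 [c.eq]; simp only [mul_assoc]
      _ = _ := by simp only [mul_assoc, ee hx, ee hf]
  have e2 : f * x * f⁻¹ = x * (f * x * f * x) := by
    rw [b2, iv hD hf]; simp only [mul_assoc, ee hx]
  have c1 : Commute (f * x * f⁻¹) ((a * x) ^ 2) := by
    rw [e1]
    refine ((zx b1).conj f).mul_right ?_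
    rw [e2]
    exact (zx b2).mul_left (Commute.refl _)
  have c2 : Commute (f * x * f⁻¹) (a * x) := by
    obtain ⟨k, hk⟩ := h.2.2.2
    have := (c1.pow_right (k + 1))
    rwa [← pow_mul, show 2 * (k + 1) = orderOf (a * x) + 1 by omega, pow_succ, pow_orderOf_eq_one,
      one_mul] at this
  have c3 : Commute (f * x * f⁻¹) x := by rw [e2]; exact (Commute.refl x).mul_left (zx b2).symm
  have c4 := c2.mul_right c3.inv_right
  rw [mul_inv_cancel_right, show a = f * a * f⁻¹ by
    rw [ea, ← mul_assoc, ← c.eq, mul_inv_cancel_right], Commute.conj_iff] at c4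
  exact nc hD h c4.symm
theorem six [Finite G] (hD : IsRootInvolutionSet D) {a : G} (ha : a ∈ D)
    (h : ∃ a' ∈ elemComponentOf (OddAdj D) D a, a' ≠ a) : productPartners D a ⊆
      elemComponentOf (OddAdj D) D a ∪ {w | IsIsolatedElem (OddAdj D) D w} := by
  rintro e ⟨⟨he, c, -⟩, hf⟩
  obtain ⟨a', ⟨-, r⟩, n⟩ := h
  obtain ⟨x, hx⟩ : ∃ x, OddAdj D a x := by
    rcases r.cases_head with k | ⟨x, k, -⟩
    exacts [absurd k.symm n, ⟨x, k⟩]
  have c' : Commute e a := c
  have r1 := Relation.ReflTransGen.single hx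
  rcases l1 hD he hf ((Commute.refl e).mul_right c') (by rw [← mul_assoc, sq hD he, one_mul]) hx with k | k
  · exact .inl ⟨he, r1.tail (sy hD k)⟩
  by_cases i : ∃ y, OddAdj D e y
  · obtain ⟨y, hy⟩ := i
    refine .inl ⟨he, ?_⟩
    rcases l1 hD hf ha (c'.mul_left (Commute.refl a)) (by rw [mul_assoc, sq hD ha, mul_one]) hy with l | l
    · exact ((r1.tail (sy hD k)).tail l).tail (sy hD hy)
    · exact (Relation.ReflTransGen.single l).tail (sy hD hy)
  · exact .inr ⟨he, fun y => ⟨fun k => i ⟨y, k⟩, fun k => i ⟨y, sy hD k⟩⟩⟩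
theorem comp (hD : IsRootInvolutionSet D) {a z : G} (h : z ∈ elemComponentOf (OddAdj D) D a) :
    elemComponentOf (OddAdj D) D a = elemComponentOf (OddAdj D) D z := by
  have s : Relation.ReflTransGen (OddAdj D) z a := by
    have k := h.2
    clear h
    induction k with
    | refl => exact .refl
    | tail _ st ih => exact .head (sy hD st) ih
  exact Set.ext fun y => ⟨fun k => ⟨k.1, s.trans k.2⟩, fun k => ⟨k.1, h.2.trans k.2⟩⟩
theorem pz {x : G} {k : ℕ} (h : x ^ 2 ^ k = 1) : IsPGroup 2 (zpowers x) := by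
  rintro ⟨_, m, rfl⟩
  refine ⟨k, Subtype.ext ?_⟩
  change (x ^ m) ^ (2 ^ k) = 1
  rw [← zpow_natCast, ← zpow_mul, mul_comm, zpow_mul, zpow_natCast, h, one_zpow]
end

end

/-- Let G be a finite group generated by a set D of root involutions, and W the set of members of D whose product with every other member of D has even order or is trivial (the isolated vertices of the odd-order-product graph on D). Then W is conjugation-invariant and generates a normal 2-subgroup of G meeting D in exactly W; the commutator of two members of D lying in different connected components of that graph, each with more than one member, lies in the subgroup generated by W; and for a in such a component, every member of D commuting with a, different from a and with product with a in D, lies in that component or in W. -/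
theorem result {G : Type*} [Group G] [Finite G] {D : Set G} (hD : Cfsg.IsRootInvolutionSet D) :
    (∀ w ∈ {w | Cfsg.IsIsolatedElem (Cfsg.OddAdj D) D w}, ∀ g : G, g * w * g⁻¹ ∈ {w | Cfsg.IsIsolatedElem (Cfsg.OddAdj D) D w}) ∧
    (Subgroup.closure {w | Cfsg.IsIsolatedElem (Cfsg.OddAdj D) D w}).Normal ∧
    IsPGroup 2 ↥(Subgroup.closure {w | Cfsg.IsIsolatedElem (Cfsg.OddAdj D) D w}) ∧
    (Subgroup.closure {w | Cfsg.IsIsolatedElem (Cfsg.OddAdj D) D w} : Set G) ∩ D = {w | Cfsg.IsIsolatedElem (Cfsg.OddAdj D) D w} ∧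
    (∀ a ∈ D, ∀ b ∈ D, (∃ a' ∈ Cfsg.elemComponentOf (Cfsg.OddAdj D) D a, a' ≠ a) →
      (∃ b' ∈ Cfsg.elemComponentOf (Cfsg.OddAdj D) D b, b' ≠ b) →
      Cfsg.elemComponentOf (Cfsg.OddAdj D) D a ≠ Cfsg.elemComponentOf (Cfsg.OddAdj D) D b →
        a * b * a⁻¹ * b⁻¹ ∈ Subgroup.closure {w | Cfsg.IsIsolatedElem (Cfsg.OddAdj D) D w}) ∧
    (∀ a ∈ D, (∃ a' ∈ Cfsg.elemComponentOf (Cfsg.OddAdj D) D a, a' ≠ a) →
      Cfsg.productPartners D a ⊆ Cfsg.elemComponentOf (Cfsg.OddAdj D) D a ∪ {w | Cfsg.IsIsolatedElem (Cfsg.OddAdj D) D w}) := by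
  open Subgroup CfsgH9 in
  haveI : Fact (Nat.Prime 2) := ⟨Nat.prime_two⟩
  set W := {w | IsIsolatedElem (OddAdj D) D w}
  have cw : ∀ w ∈ W, ∀ g : G, g * w * g⁻¹ ∈ W := fun w hw g => by
    have k : ∀ b, ¬ OddAdj D (g * w * g⁻¹) b := fun b h => (hw.2 (g⁻¹ * b * g⁻¹⁻¹)).1
      ⟨hw.1, hD.conj_mem b h.2.1 _, fun e => h.2.2.1 (by rw [e]; group), by
        have := h.2.2.2
        rwa [show g * w * g⁻¹ * b = g * (w * (g⁻¹ * b * g⁻¹⁻¹)) * g⁻¹ by group, orderOf_conj] at this⟩
    exact ⟨hD.conj_mem w hw.1 g, fun b => ⟨k b, fun h => k b (sy hD h)⟩⟩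
  haveI : (pCore 2 G).Normal := CfsgH1.pCore_nl 2
  have pQ : IsPGroup 2 (pCore 2 G) := CfsgH1.isPGroup_pCore 2
  have l : closure W ≤ pCore 2 G := (closure_le _).2 fun w hw => CfsgH1.mem_pCore_of_baer fun g => by
    have m := hD.conj_mem w hw.1 g
    set v := g * w * g⁻¹ with hv
    refine ⟨zpowers (w * v) ⊔ zpowers v, CfsgH2.isPGroup_sup (pz (k := 2) (four hD hw.1 m (hw.2 v).1))
      (pz (k := 1) (by rw [pow_one, pow_two, sq hD m])) (.inr (zpowers_le.2 (CfsgH2.mem_norm_zpowers ?_))),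
      mem_sup_right (mem_zpowers _), le_normalizer ?_⟩
    · rw [mul_assoc, mul_inv_cancel_right, ← inv_mem_iff, mul_inv_rev, iv hD m, iv hD hw.1]
      exact mem_zpowers _
    · simpa using mul_mem_sup (mem_zpowers (w * v)) (inv_mem (mem_zpowers v))
  refine ⟨cw, ⟨fun x hx g => ?_⟩, pQ.to_le l, Set.ext fun d => ⟨fun h => ?_,
    fun h => ⟨subset_closure h, h.1⟩⟩, fun a ha b hb h1 h2 n => ?_, fun a ha h => six hD ha h⟩
  · induction hx using closure_induction with
    | mem x hx => exact subset_closure (cw x hx g)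
    | one => simpa using one_mem _
    | mul x y _ _ h1 h2 => simpa [mul_assoc] using mul_mem h1 h2
    | inv x _ h => simpa [mul_assoc] using inv_mem h
  · have k : ∀ b, ¬ OddAdj D d b := fun b e => by
      obtain ⟨n, hn⟩ := (pQ.to_sup_of_normal_left (pz (k := 1) (by rw [pow_one, pow_two, sq hD e.2.1])))
        ⟨_, mul_mem_sup (l h.1) (mem_zpowers b)⟩
      exact e.2.2.1 ((eq_inv_of_mul_eq_one_left (od e.2.2.2 (congrArg Subtype.val hn))).trans
        (iv hD e.2.1))
    exact ⟨h.2, fun b => ⟨k b, fun e => k b (sy hD e)⟩⟩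
  · rcases hD.pair a ha b hb with e | e | e
    · rw [e, mul_inv_cancel_right, mul_inv_cancel]; exact one_mem _
    · exact absurd (comp hD ⟨hb, by
        by_cases c : a = b
        exacts [c ▸ .refl, .single ⟨ha, hb, c, e⟩]⟩) n
    have b4 := br hD ha hb (by rw [← e.1, pow_orderOf_eq_one])
    have ez : (a * b) ^ 2 = a * b * a * b := by rw [pow_two, ← mul_assoc]
    have m := ez ▸ e.2
    have nc : ¬ a * b = b * a := fun c => by
      have := orderOf_dvd_of_pow_eq_one (sq2 hD ha hb c)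
      rw [e.1] at this
      omega
    have key : ∀ {a b}, a ∈ D → b ∈ D → a * b * a * b = b * a * b * a → ¬ a * b = b * a →
        a * b * a * b ∈ D → a * b * a * b ∈ productPartners D a := fun {a b} ha hb b4 nc m => by
      have e2 : a * b * a * b * a = b * a * b⁻¹ := by rw [b4, mul_assoc, sq hD ha, mul_one, iv hD hb]
      have e3 : a * b * a * b * a = a * (a * b * a * b) := by
        conv_rhs => rw [b4]
        simp only [mul_assoc]
      refine ⟨⟨m, e3, fun f => nc ?_⟩, e2 ▸ hD.conj_mem a ha b⟩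
      rw [f, sq hD ha] at e2
      have := hD.orderOf_eq a ha
      rw [← orderOf_conj b, ← e2, orderOf_one] at this
      omega
    rw [iv hD ha, iv hD hb]
    rcases six hD ha h1 (key ha hb b4 nc m) with k | k
    · rcases six hD hb h2 (key hb ha b4.symm (fun f => nc f.symm) (b4 ▸ m)) with k2 | k2
      · exact absurd ((comp hD k).trans (b4 ▸ comp hD k2).symm) n
      · exact subset_closure (b4 ▸ k2)
    · exact subset_closure k

end Cfsg.Agent.S5045
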