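import Cfsg.Statements.S5049
import Mathlib
import Cfsg.Agent.H1.TT2

set_option autoImplicit false
open Cfsg

namespace Cfsg.Agent.S5049

section
open Subgroup CfsgH9
open scoped commutatorElement

theorem even_comm {G : Type*} [Group G] [Finite G] {D : Set G} (hD : Cfsg.IsOddTranspositionSet D)
    {P : Subgroup G} (hP : IsPGroup 2 P) {a b : G} (ha : a ∈ D) (hb : b ∈ D) (h : a * b ∈ P) :
    a * b = b * a := by
  haveI : Fact (Nat.Prime 2) := ⟨Nat.prime_two⟩
  rcases hD.1.pair a ha b hb with e | e | e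
  · exact e
  · obtain ⟨k, hk⟩ := (IsPGroup.iff_orderOf.1 hP) ⟨_, h⟩
    rw [Subgroup.orderOf_mk] at hk
    rw [hk] at e
    rcases k with _ | k
    · rw [pow_zero, orderOf_eq_one_iff] at hk
      rw [hk, mul_eq_one_comm.1 hk]
    · exact absurd e (by simp [pow_succ])
  · exact absurd e.1 (hD.2 a ha b hb)

end

/-- Let G be a finite group generated by a set D of odd transpositions (root involutions with no product of order 4), Q = O₂(G), and for a ∈ D let Q_a be the commutator subgroup of Q with a. Then every member of D commuting with a centralizes Q_a; and for b ∈ D with ab of odd order greater than 1, the centralizer of ab in Q is the intersection of the centralizers of a and b in Q. -/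
theorem result {G : Type*} [Group G] [Finite G] {D : Set G} (hD : Cfsg.IsOddTranspositionSet D) {a : G} (ha : a ∈ D) :
    (∀ e ∈ Cfsg.commutingMembers D a, ∀ q ∈ ⁅Cfsg.pCore 2 G, Subgroup.zpowers a⁆, e * q = q * e) ∧
    (∀ b ∈ Cfsg.oddPartners D a,
      Cfsg.pCore 2 G ⊓ Subgroup.centralizer {a * b} = Cfsg.pCore 2 G ⊓ Subgroup.centralizer {a} ⊓ Subgroup.centralizer {b}) := by
  open Subgroup CfsgH9 in
  haveI : Fact (Nat.Prime 2) := ⟨Nat.prime_two⟩
  set Q := pCore 2 G
  haveI : Q.Normal := CfsgH1.pCore_nl 2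
  have pQ : IsPGroup 2 Q := CfsgH1.isPGroup_pCore 2
  have sq : ∀ d ∈ D, d * d = 1 := fun d hd => by
    rw [← pow_two, ← hD.1.orderOf_eq d hd, pow_orderOf_eq_one]
  have iv : ∀ d ∈ D, d⁻¹ = d := fun d hd => inv_eq_of_mul_eq_one_right (sq d hd)
  have key : ∀ a ∈ D, ∀ e ∈ D, e * a = a * e → ∀ q ∈ Q, Commute e (q * a * q⁻¹) := by
    intro a ha e he c q hq
    have p : IsPGroup 2 (zpowers (e * a)) := by
      rintro ⟨_, k, rfl⟩
      refine ⟨1, Subtype.ext ?_⟩
      change ((e * a) ^ k) ^ (2 ^ 1) = 1
      rw [← zpow_natCast, ← zpow_mul, mul_comm, zpow_mul, zpow_natCast, pow_one, pow_two, mul_assoc,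
        ← mul_assoc a, ← c, mul_assoc, sq a ha, mul_one, sq e he, one_zpow]
    refine even_comm hD (p.to_sup_of_normal_right pQ) he (hD.1.conj_mem a ha q) ?_
    have := mul_mem_sup (mem_zpowers (e * a)) (mul_mem
      ((inferInstance : Q.Normal).conj_mem q hq a⁻¹) (inv_mem hq))
    convert this using 1
    group
  refine ⟨fun e he q hq => (mem_centralizer_singleton_iff.1 ((commutator_le.2 ?_ :
    _ ≤ centralizer {e}) hq)).symm, fun b hb => le_antisymm (fun q hq => ?_) fun q hq => ⟨hq.1.1, ?_⟩⟩
  · rintro q hq _ ⟨k, rfl⟩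
    have c : Commute e a := he.2
    have := ((key a ha e he.1 he.2 q hq).zpow_right k).mul_right (c.zpow_right k).inv_right
    rw [conj_zpow] at this
    exact mem_centralizer_singleton_iff.2 this.symm
  · have e : q * (a * b) = a * b * q := mem_centralizer_singleton_iff.1 hq.2
    have c1 := key a ha a ha rfl q hq.1
    have c2 := key b hb.1 b hb.1 rfl q hq.1
    have m := hD.1.conj_mem a ha q
    set a' := q * a * q⁻¹ with ha'
    set b' := q * b * q⁻¹ with hb'
    have e2 : a' * b' = a * b := by rw [ha', hb', ← mul_inv_eq_iff_eq_mul.2 e]; group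
    clear_value a' b'
    have e3 : a * a' = b * b' := by
      rw [c1.eq]
      calc a' * a = a' * (a * b) * b⁻¹ := by group
        _ = b' * b := by rw [← e2, ← mul_assoc, sq _ m, one_mul, iv b hb.1]
        _ = _ := c2.eq.symm
    have ca : Commute (a * a') a := (Commute.refl a).mul_left c1.symm
    have cb : Commute (a * a') b := e3 ▸ (Commute.refl b).mul_left c2.symm
    have s : a * a' * (a * a') = 1 := by
      rw [mul_assoc, ← mul_assoc a', ← c1.eq, mul_assoc, sq _ m, mul_one, sq a ha]
    have e4 : a' * b = a * b * (a * a') := by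
      rw [← (ca.mul_right cb).eq, c1.eq, mul_assoc, ← mul_assoc a, sq a ha, one_mul]
    have od : ∀ x : G, Odd (orderOf x) → x ^ 2 = 1 → x = 1 := fun x h1 h2 =>
      orderOf_eq_one_iff.1 (Nat.eq_one_of_dvd_coprimes (Nat.coprime_two_right.2 h1) dvd_rfl
        (orderOf_dvd_of_pow_eq_one h2))
    have k : a * a' = 1 := by
      rcases hD.1.pair _ m b hb.1 with f | f | f
      · have : (a' * b) ^ 2 = 1 := by
          rw [pow_two, mul_assoc, ← mul_assoc b, ← f, mul_assoc, sq b hb.1, mul_one, sq _ m]
        rw [e4, (ca.mul_right cb).symm.mul_pow, pow_two (a * a'), s, mul_one] at this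
        have := od _ hb.2.2 this
        exact absurd (by rw [← iv a ha]; exact eq_inv_of_mul_eq_one_right this) hb.2.1
      · have h1 := pow_orderOf_eq_one (a' * b)
        obtain ⟨n, hn⟩ := f
        rw [hn, e4, (ca.mul_right cb).symm.mul_pow, pow_succ (a * a'), pow_mul (a * a'), pow_two (a * a'),
          s, one_pow, one_mul] at h1
        refine od _ ?_ (by rw [pow_two, s])
        rw [eq_inv_of_mul_eq_one_right h1, orderOf_inv]
        exact hb.2.2.of_dvd_nat (orderOf_pow_dvd _)
      · exact absurd f.1 (hD.2 _ m b hb.1)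
    have k2 := e3 ▸ k
    refine ⟨⟨hq.1, mem_centralizer_singleton_iff.2 (mul_inv_eq_iff_eq_mul.1 ?_)⟩,
      mem_centralizer_singleton_iff.2 (mul_inv_eq_iff_eq_mul.1 ?_)⟩
    · exact ha'.symm.trans ((eq_inv_of_mul_eq_one_right k).trans (iv a ha))
    · exact hb'.symm.trans ((eq_inv_of_mul_eq_one_right k2).trans (iv b hb.1))
  · exact mem_centralizer_singleton_iff.2 (Commute.mul_right (mem_centralizer_singleton_iff.1 hq.1.2)
      (mem_centralizer_singleton_iff.1 hq.2))

end Cfsg.Agent.S5049
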