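import Cfsg.Statements.S5057
import Mathlib
import Cfsg.Agent.H9.Sn
import Cfsg.Agent.H7.SpS

set_option autoImplicit false
open Cfsg

namespace Cfsg.Agent.S5057

/-- The involutions of the alternating group of degree 6 form a class of root involutions (a single conjugacy class of involutions generating the group, any two of which commute, have product of odd order, or have product of order 4 whose square is again an involution of the class), and the product of any two of them has order at most 5. -/
theorem result :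
    Cfsg.IsRootInvolutionClass {g : ↥(alternatingGroup (Fin 6)) | orderOf g = 2} ∧
    ∀ d ∈ {g : ↥(alternatingGroup (Fin 6)) | orderOf g = 2}, ∀ e ∈ {g : ↥(alternatingGroup (Fin 6)) | orderOf g = 2},
      orderOf (d * e) ≤ 5 := by
  open Subgroup CfsgH9 in
  open Equiv Equiv.Perm in
  have key : ∀ σ : alternatingGroup (Fin 6), (σ ^ 3 = 1 ∨ σ ^ 4 = 1 ∨ σ ^ 5 = 1) ∧
      (orderOf σ = 2 → σ.1.cycleType = {2, 2}) := fun σ => by
    obtain ⟨l, e, h⟩ := CfsgH7.cyc_all (fun l : List Nat => decide ((l.sum + l.length) % 2 = 0 →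
      ((∀ c ∈ l, c ∣ 3) ∨ (∀ c ∈ l, c ∣ 4) ∨ ∀ c ∈ l, c ∣ 5) ∧ ((∀ c ∈ l, c = 2) → l = [] ∨ l = [2, 2])))
      (by decide +kernel) σ.1
    obtain ⟨a, b⟩ := of_decide_eq_true h (CfsgH7.even_of_cyc e)
    refine ⟨a.imp (fun k => Subtype.ext (CfsgH7.pow_of_cyc e k)) (Or.imp (fun k => Subtype.ext
      (CfsgH7.pow_of_cyc e k)) fun k => Subtype.ext (CfsgH7.pow_of_cyc e k)), fun o => ?_⟩
    have o' : orderOf σ.1 = 2 := (Subgroup.orderOf_coe σ).trans o
    rcases b fun c hc => by
      have m : c ∈ σ.1.cycleType := e ▸ Multiset.mem_coe.2 hc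
      exact le_antisymm (Nat.le_of_dvd two_pos (o' ▸ dvd_of_mem_cycleType m)) (two_le_of_mem_cycleType m)
      with rfl | rfl
    · rw [cycleType_eq_zero.1 e, orderOf_one] at o'
      exact absurd o' (by decide)
    · exact e
  have le : ∀ σ : alternatingGroup (Fin 6), orderOf σ ≤ 5 := fun σ => by
    rcases (key σ).1 with h | h | h <;> exact (orderOf_le_of_pow_eq_one (by decide) h).trans (by decide)
  have cm : ∀ d ∈ {g : alternatingGroup (Fin 6) | orderOf g = 2}, ∀ g, g * d * g⁻¹ ∈
      {g : alternatingGroup (Fin 6) | orderOf g = 2} := fun d hd g =>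
    (MulEquiv.orderOf_eq (MulAut.conj g) d).trans hd
  let t : alternatingGroup (Fin 6) := ⟨swap 0 1 * swap 2 3, mem_alternatingGroup.2 (by decide)⟩
  have ht : orderOf t = 2 := orderOf_eq_prime (by decide) (by decide)
  refine ⟨⟨⟨fun _ h => h, ?_, cm, fun a ha b hb => ?_⟩, ⟨t, ht⟩, fun a ha b hb => ?_⟩, fun _ _ _ _ => le _⟩
  · haveI := alternatingGroup.isSimpleGroup (α := Fin 6) (by simp)
    have : (closure {g : alternatingGroup (Fin 6) | orderOf g = 2}).Normal :=
      ⟨fun n hn g => closure_induction (fun x hx => subset_closure (cm x hx g)) (by simp)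
        (fun x y _ _ a b => by simpa [mul_assoc] using mul_mem a b)
        (fun x _ a => by simpa [mul_assoc] using inv_mem a) hn⟩
    exact this.eq_bot_or_eq_top.resolve_left fun e => absurd (mem_bot.1 (e.le (subset_closure ht))) (by decide)
  · have l := le (a * b)
    have p := orderOf_pos (a * b)
    have a2 : a * a = 1 := by rw [← pow_two, ← show orderOf a = 2 from ha, pow_orderOf_eq_one]
    have b2 : b * b = 1 := by rw [← pow_two, ← show orderOf b = 2 from hb, pow_orderOf_eq_one]
    by_cases h2 : orderOf (a * b) = 2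
    · have := pow_orderOf_eq_one (a * b)
      rw [h2, pow_two, ← eq_inv_iff_mul_eq_one, mul_inv_rev, inv_eq_of_mul_eq_one_left a2,
        inv_eq_of_mul_eq_one_left b2] at this
      exact .inl this
    by_cases h4 : orderOf (a * b) = 4
    · exact .inr (.inr ⟨h4, by rw [Set.mem_setOf_eq, orderOf_pow, h4]; rfl⟩)
    exact .inr (.inl (by rw [Nat.odd_iff]; omega))
  · obtain ⟨g, hg⟩ := isConj_iff.1 (alternatingGroup.isConj_of (isConj_iff_cycleType_eq.2
      (((key a).2 ha).trans ((key b).2 hb).symm)) (by rw [← sum_cycleType, (key a).2 ha]; decide))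
    exact ⟨g, hg.symm⟩

end Cfsg.Agent.S5057
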