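import Mathlib
import Cfsg.Statements.S5058
import Cfsg.Agent.H8.RT3

set_option autoImplicit false
open Matrix
open Cfsg

namespace Cfsg.Agent.S5058

open CfsgH8.RT CfsgH5 in
theorem aux (F : Type*) [Field F] (n : ℕ) :
    {t : Matrix.SpecialLinearGroup (Fin (n + 3)) F | ∃ c : F, c ≠ 0 ∧
        ∃ g : Matrix.SpecialLinearGroup (Fin (n + 3)) F, ((g⁻¹ * t * g : Matrix.SpecialLinearGroup (Fin (n + 3)) F) :
          Matrix (Fin (n + 3)) (Fin (n + 3)) F) = Matrix.transvection 0 1 c} =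
      {t | ∃ N ∈ NL F (Fin (n + 3) → F), rSL F (n + 3) t = 1 + N} := by
  have h01 : (0 : Fin (n + 3)) ≠ 1 := by simp
  ext t
  constructor
  · rintro ⟨c, hc, g, h⟩
    rw [← rSL_eq_iff] at h
    have hm : c • Eij F 0 1 ∈ NL F (Fin (n + 3) → F) :=
      ⟨c • Pi.single 0 1, LinearMap.proj 1, by simp [hc], proj_ne _, by simp,
        LinearMap.ext fun v => by simp [Eij, smul_smul, mul_comm]⟩
    refine ⟨_, SL_fam.conj _ hm g, ?_⟩
    have : t = g * (g⁻¹ * t * g) * g⁻¹ := by group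
    conv_lhs => rw [this]
    rw [map_mul, map_mul, h, mul_add, add_mul, mul_one, ← map_mul, mul_inv_cancel, map_one]
  · rintro ⟨N, hN, h⟩
    obtain ⟨g, hg⟩ := (SL_class (F := F) (n := n)).2 _ ⟨_, Eij_mem h01, rfl⟩ _ ⟨_, hN, rfl⟩
    have h1 : t ∈ T F (rSL F (n + 3)) N := (mem_T (SL_fam.full _ hN).sq).2 ⟨1, by rw [h, one_smul]⟩
    rw [hg, CfsgH9.mem_cj, mem_T (SL_fam.full _ (Eij_mem h01)).sq] at h1
    obtain ⟨c, hc⟩ := h1
    refine ⟨c, ?_, g, rSL_eq_iff.1 hc⟩
    rintro rfl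
    have : g⁻¹ * t * g = 1 := SL_fam.inj (by simpa using hc)
    have : t = 1 := by
      calc t = g * (g⁻¹ * t * g) * g⁻¹ := by group
        _ = 1 := by rw [this]; group
    rw [this, map_one] at h
    exact (SL_fam.full _ hN).ne (by simpa using h)

theorem aux2 (F : Type*) [Field F] (n : ℕ) {a b : Matrix.SpecialLinearGroup (Fin (n + 3)) F} {c d : F}
    (hc : c ≠ 0) (hd : d ≠ 0) (ha : (a : Matrix (Fin (n + 3)) (Fin (n + 3)) F) = Matrix.transvection 0 1 c)
    (hb : (b : Matrix (Fin (n + 3)) (Fin (n + 3)) F) = Matrix.transvection 0 1 d) :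
    ∃ g, b * g = g * a := by
  have h12 : (1 : Fin (n + 3)) ≠ 2 := by
    simp [Fin.ext_iff, Nat.mod_eq_of_lt (show 2 < n + 3 by omega)]
  have h02 : (0 : Fin (n + 3)) ≠ 2 := by
    simp [Fin.ext_iff, Nat.mod_eq_of_lt (show 2 < n + 3 by omega)]
  refine ⟨Matrix.SpecialLinearGroup.diag2n h02 (d / c) (div_ne_zero hd hc), Subtype.ext ?_⟩
  rw [Matrix.SpecialLinearGroup.coe_mul, Matrix.SpecialLinearGroup.coe_mul, ha, hb, Matrix.SpecialLinearGroup.diag2n_coe]
  ext i j
  simp only [Matrix.transvection, Matrix.mul_diagonal, Matrix.diagonal_mul, Matrix.add_apply, Matrix.one_apply,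
    Matrix.single_apply]
  by_cases e : i = j
  · subst e
    have : ¬ (0 = i ∧ 1 = i) := by rintro ⟨rfl, h⟩; simp at h
    simp [this]
  · by_cases e2 : 0 = i ∧ 1 = j
    · obtain ⟨rfl, rfl⟩ := e2
      simp [h12, hc]
    · simp [e, e2]

/-- Let F be a finite field of characteristic 2 and n a natural number. Then the transvections of SL_{n+3}(F) (so in every dimension at least 3) (the conjugates of the elementary matrices 1 + c E₁₂, c ≠ 0) form a class of root involutions of SL_{n+3}(F); when F has two elements they form a class of {3,4}⁺-transpositions (every product of odd order has order 1 or 3). -/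
theorem result (F : Type*) [Field F] [Fintype F] [CharP F 2] (n : ℕ) :
    Cfsg.IsRootInvolutionClass {t : Matrix.SpecialLinearGroup (Fin (n + 3)) F | ∃ c : F, c ≠ 0 ∧
        ∃ g : Matrix.SpecialLinearGroup (Fin (n + 3)) F, ((g⁻¹ * t * g : Matrix.SpecialLinearGroup (Fin (n + 3)) F) :
          Matrix (Fin (n + 3)) (Fin (n + 3)) F) = Matrix.transvection 0 1 c} ∧
    (Fintype.card F = 2 → Cfsg.IsThreeFourPlusTranspositionSet {t : Matrix.SpecialLinearGroup (Fin (n + 3)) F | ∃ c : F, c ≠ 0 ∧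
        ∃ g : Matrix.SpecialLinearGroup (Fin (n + 3)) F, ((g⁻¹ * t * g : Matrix.SpecialLinearGroup (Fin (n + 3)) F) :
          Matrix (Fin (n + 3)) (Fin (n + 3)) F) = Matrix.transvection 0 1 c}) := by
  open CfsgH8.RT CfsgH5 CfsgH1 in
  have h01 : (0 : Fin (n + 3)) ≠ 1 := by simp
  have hR : Cfsg.IsRootInvolutionSet {t | ∃ N ∈ NL F (Fin (n + 3) → F), rSL F (n + 3) t = 1 + N} := by
    refine ⟨?_, ?_, ?_, ?_⟩
    · rintro d ⟨N, hN, h⟩
      exact SL_fam.order_two hN h
    · refine SL_eq_top_of_transvections _ fun i j h c => ?_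
      by_cases hc : c = 0
      · rw [show SpecialLinearGroup.transvection h c = 1 from Subtype.ext (by
          rw [hc]; exact Matrix.transvection_zero i j)]
        exact one_mem _
      · exact Subgroup.subset_closure ⟨c • Eij F i j, ⟨c • Pi.single i 1, LinearMap.proj j, by simp [hc],
          proj_ne _, by simp [h.symm], LinearMap.ext fun v => by simp [Eij, smul_smul, mul_comm]⟩,
          rSL_eq_iff.2 rfl⟩
    · rintro d ⟨N, hN, h⟩ g
      exact ⟨_, SL_fam.conj _ hN g, by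
        rw [map_mul, map_mul, h, mul_add, add_mul, mul_one, ← map_mul, mul_inv_cancel, map_one]⟩
    · rintro a ⟨N, hN, ha⟩ b ⟨M, hM, hb⟩
      exact (SL_fam.pair hN hM ha hb).imp_right (Or.imp_left And.left)
  refine ⟨⟨aux F n ▸ hR, ⟨SpecialLinearGroup.transvection h01 1, 1, one_ne_zero, 1, by
    rw [inv_one, one_mul, mul_one]; rfl⟩, ?_⟩, fun h2 => ?_⟩
  · rintro a ⟨c, hc, g, ha⟩ b ⟨d, hd, h, hb⟩
    obtain ⟨x, hx⟩ := aux2 F n hc hd ha hb
    refine ⟨h * x * g⁻¹, ?_⟩
    calc b = h * (h⁻¹ * b * h * x) * x⁻¹ * h⁻¹ := by group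
      _ = _ := by rw [hx]; group
  · rw [aux]
    refine ⟨hR, ?_⟩
    rintro a ha b hb ho
    have a2 := hR.orderOf_eq a ha
    have b2 := hR.orderOf_eq b hb
    obtain ⟨N, hN, ha⟩ := ha
    obtain ⟨M, hM, hb⟩ := hb
    rcases SL_fam.pair hN hM ha hb with e | ⟨-, e⟩ | ⟨e, -⟩
    · left
      have : (a * b) ^ 2 = 1 := by
        rw [Commute.mul_pow e, ← a2, pow_orderOf_eq_one, a2, ← b2, pow_orderOf_eq_one, one_mul]
      rcases (Nat.dvd_prime Nat.prime_two).1 (orderOf_dvd_of_pow_eq_one this) with e | e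
      · exact e
      · rw [e] at ho; exact absurd ho (by decide)
    · refine (Nat.dvd_prime Nat.prime_three).1 (orderOf_dvd_of_pow_eq_one (e fun c hc => ?_))
      have := FiniteField.pow_card_sub_one_eq_one c hc
      rwa [h2, pow_one] at this
    · rw [e] at ho; exact absurd ho (by decide)

end Cfsg.Agent.S5058
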