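import Cfsg.Statements.S5060
import Cfsg.Agent.H1.QP8

set_option autoImplicit false
open Cfsg

namespace Cfsg.Agent.S5060

/-- Let k ⊆ K be fields with the characteristic of k not 2 and k not of order 3, and let α ∈ K be a non-zero element algebraic over k. Then the subgroup of SL₂(K) generated by the upper unitriangular matrices with entry c and the lower unitriangular matrices with entry cα, c ranging over k, is exactly the group of matrices of SL₂(K) with all entries in k(α). -/
theorem result {k K : Type*} [Field k] [Field K] [Algebra k K] (hk2 : ringChar k ≠ 2) (hk3 : Nat.card k ≠ 3)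
    (α : K) (hα : IsAlgebraic k α) (hα0 : α ≠ 0) :
    (Subgroup.closure ({g : Matrix.SpecialLinearGroup (Fin 2) K | ∃ c : k, (g : Matrix (Fin 2) (Fin 2) K) = !![1, algebraMap k K c; 0, 1]} ∪
        {g : Matrix.SpecialLinearGroup (Fin 2) K | ∃ c : k, (g : Matrix (Fin 2) (Fin 2) K) = !![1, 0; algebraMap k K c * α, 1]}) :
      Set (Matrix.SpecialLinearGroup (Fin 2) K)) =
    {g : Matrix.SpecialLinearGroup (Fin 2) K | ∀ i j : Fin 2, (g : Matrix (Fin 2) (Fin 2) K) i j ∈ IntermediateField.adjoin k ({α} : Set K)} := by
  open CfsgH1 CfsgH9 in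
  open scoped commutatorElement in
  · let L := IntermediateField.adjoin k ({α} : Set K)
    let φ : Matrix.SpecialLinearGroup (Fin 2) L →* Matrix.SpecialLinearGroup (Fin 2) K :=
      rM (algebraMap L K)
    let lam : L := IntermediateField.AdjoinSimple.gen k α
    have hU : ∀ c : k, (φ (sU (algebraMap k L c))).1 = !![1, algebraMap k K c; 0, 1] := fun c => by
      rw [show φ (sU (algebraMap k L c)) = rU (algebraMap L K (algebraMap k L c)) from rM_U _ _]
      rfl
    have hL : ∀ c : k, (φ (sL (algebraMap k L c * lam))).1 = !![1, 0; algebraMap k K c * α, 1] :=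
      fun c => by
        rw [show φ (sL (algebraMap k L c * lam)) = rL (algebraMap L K (algebraMap k L c * lam))
          from rM_L _ _]
        rfl
    have hi : IsIntegral k lam :=
      (isIntegral_algHom_iff L.val Subtype.val_injective).1 hα.isIntegral
    have e : φ.range = Subgroup.closure ({g : Matrix.SpecialLinearGroup (Fin 2) K | ∃ c : k, (g : Matrix (Fin 2) (Fin 2) K) = !![1, algebraMap k K c; 0, 1]} ∪
          {g : Matrix.SpecialLinearGroup (Fin 2) K | ∃ c : k, (g : Matrix (Fin 2) (Fin 2) K) = !![1, 0; algebraMap k K c * α, 1]}) := by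
      refine le_antisymm ?_ ((Subgroup.closure_le _).2 ?_)
      · rw [MonoidHom.range_eq_map, Subgroup.map_le_iff_le_comap]
        refine (sl2_gen (two_ne_of hk2) hk3 (lam := lam) (fun c => ?_) (fun c => ?_)
          (fun e => hα0 (congrArg Subtype.val e)) hi fun t => ?_).ge
        · exact Subgroup.subset_closure (Or.inl ⟨c, hU c⟩)
        · exact Subgroup.subset_closure (Or.inr ⟨c, hL c⟩)
        · exact (IntermediateField.adjoin.powerBasis hα.isIntegral).adjoin_gen_eq_top.ge trivial
      · rintro g (⟨c, e⟩ | ⟨c, e⟩)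
        · exact ⟨_, Subtype.ext ((hU c).trans e.symm)⟩
        · exact ⟨_, Subtype.ext ((hL c).trans e.symm)⟩
    rw [← e]
    ext g
    constructor
    · rintro ⟨w, rfl⟩ i j
      exact (w.1 i j).2
    · intro h
      refine ⟨⟨Matrix.of fun i j => ⟨g.1 i j, h i j⟩, ?_⟩, Subtype.ext (by ext i j; rfl)⟩
      apply Subtype.val_injective
      have := r_det g
      rw [Matrix.det_fin_two]
      exact this

end Cfsg.Agent.S5060
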