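import Cfsg.Statements.S5061
import Cfsg.Agent.H1.QP8

set_option autoImplicit false
open Cfsg

namespace Cfsg.Agent.S5061

/-- Let M be a finite-dimensional vector space over a field k, G ≤ GL(M), and 𝒲 a set of subgroups of G, invariant under conjugation by G, such that any two members of 𝒲 generate a subgroup acting unipotently on M (for some n all products of n endomorphisms g − 1 from it vanish). Then the subgroup generated by all members of 𝒲 acts unipotently on M and is normal in G. -/
theorem result {k : Type*} [Field k] {M : Type*} [AddCommGroup M] [Module k M] [FiniteDimensional k M]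
    {G : Subgroup (LinearMap.GeneralLinearGroup k M)} {W : Set (Subgroup (LinearMap.GeneralLinearGroup k M))} (hWG : ∀ A ∈ W, A ≤ G)
    (hWW : ∀ A ∈ W, ∀ B ∈ W, Cfsg.IsUnipotentOn (A ⊔ B)) (hWconj : ∀ A ∈ W, ∀ g ∈ G, Cfsg.conjBy A g ∈ W) :
    Cfsg.IsUnipotentOn (⨆ A ∈ W, A) ∧ ∀ g ∈ G, Cfsg.conjBy (⨆ A ∈ W, A) g = ⨆ A ∈ W, A := by
  open CfsgH1 CfsgH9 in
  open scoped commutatorElement in
  · refine ⟨up_iff.2 (up_biSup (fun A hA B hB => up_iff.1 (hWW A hA B hB))
      fun A hA B hB b hb => hWconj A hA b (hWG B hB hb)), fun g hg => ?_⟩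
    exact cj_eq_of_mem_normalizer ((le_normalizer_iff_cj (K := G)).2
      (fun g hg => cj_biSup_le fun B hB => hWconj B hB g hg) hg)

end Cfsg.Agent.S5061
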