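import Cfsg.Statements.S5063
import Cfsg.Agent.H1.QP9

set_option autoImplicit false
universe u
open Cfsg

namespace Cfsg.Agent.S5063

/-- Let k be a field of characteristic not 2 with k not of order 3, M a finite-dimensional k-vector space and G ≤ GL(M) such that (G, M) is a quadratic pair (M irreducible for G, and G generated by its quadratically acting elements σ whose scalar family 1 + c(σ − 1), c ∈ k, lies in G). Write 𝒬_d for the quadratic elements of G of minimal commutator rank, E(σ) for the subgroup generated by the members of 𝒬_d with the same fixed space and commutator space as σ, and Σ for the set of these subgroups. Then G is a central product of finitely many quasisimple normal subgroups G₁, …, G_s (pairwise commuting and together generating G), each generated by the quadratic elements of G it contains, and every quadratic element of G lies in one of them. -/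
theorem result {k : Type u} [Field k] (hk2 : ringChar k ≠ 2) (hk3 : Nat.card k ≠ 3)
    {M : Type u} [AddCommGroup M] [Module k M] [FiniteDimensional k M]
    {G : Subgroup (LinearMap.GeneralLinearGroup k M)} (hG : Cfsg.IsQuadraticPair G) :
    ∃ (s : ℕ) (Gi : Fin s → Subgroup (LinearMap.GeneralLinearGroup k M)),
      (∀ i, Gi i ≤ G ∧ ∀ g ∈ G, Cfsg.conjBy (Gi i) g = Gi i) ∧ (∀ i j, i ≠ j → ⁅Gi i, Gi j⁆ = ⊥) ∧ (⨆ i, Gi i) = G ∧
      (∀ i, Cfsg.IsQuasisimple ↥(Gi i) ∧ Subgroup.closure (Cfsg.quadraticElements G ∩ (Gi i : Set (LinearMap.GeneralLinearGroup k M))) = Gi i) ∧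
      Cfsg.quadraticElements G ⊆ ⋃ i, (Gi i : Set (LinearMap.GeneralLinearGroup k M)) := by
  open CfsgH1 CfsgH9 in
  open scoped commutatorElement in
  · have k2 := two_ne_of hk2
    have nu := nu_of_irr hG.1
    obtain ⟨𝒢, fin, g1, g2, g3⟩ := central_product k2 hk3 (Module.finrank k M + 1) G nu
      fun β _ _ _ => by omega
    have e : ⨆ K ∈ 𝒢, K = G := by
      refine le_antisymm (iSup₂_le fun K hK => (g1 K hK).1) ?_
      conv_lhs => rw [← hG.2]
      rw [Subgroup.closure_le]
      intro σ hσ
      obtain ⟨q1, -, q3⟩ := mem_quad.1 hσ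
      refine Fm.mem (k := k) (Submodule.span_le (p := EE (⨆ K ∈ 𝒢, K) ((σ : Module.End k M) - 1)) |>.2 ?_ (g3 _ q1 q3)).1
      rintro γ ⟨m, K, hK, f⟩
      exact mem_EE_of m (f.mono (le_bs hK))
    haveI := fin.to_subtype
    let ε := (Finite.equivFin 𝒢).symm
    refine ⟨_, fun i => ε i, fun i => ⟨(g1 _ (ε i).2).1, fun g hg => cj_eq_of_mem_normalizer ?_⟩,
      fun i j h => g2 _ (ε i).2 _ (ε j).2 fun e => h (ε.injective (Subtype.ext e)), ?_,
      fun i => ⟨qs_iff.1 (g1 _ (ε i).2).2.1, le_antisymm ((Subgroup.closure_le _).2 Set.inter_subset_right) ?_⟩,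
      fun σ hσ => ?_⟩
    · refine (e.ge.trans (iSup₂_le fun L hL => ?_)) hg
      by_cases h : L = ε i
      · rw [h]; exact Subgroup.le_normalizer
      · exact le_normalizer_of_commutator_eq_bot (g2 _ hL _ (ε i).2 h)
    · rw [← e, ε.iSup_comp (g := fun K : 𝒢 => (K : Subgroup (LinearMap.GeneralLinearGroup k M))),
        iSup_subtype]
    · exact (g1 _ (ε i).2).2.2.ge.trans
        (Subgroup.closure_mono fun σ h => ⟨quad_mono (g1 _ (ε i).2).1 h, h.1⟩)
    · obtain ⟨q1, q2, q3⟩ := mem_quad.1 hσ
      have s := g3 _ q1 q3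
      obtain ⟨δ, ⟨md, L, hL, fd⟩, nd⟩ : ∃ δ ∈ {γ | γ ∈ EE G ((σ : Module.End k M) - 1) ∧
          ∃ K ∈ 𝒢, Fm k K γ}, δ ≠ 0 := by
        by_contra hc
        push Not at hc
        exact q2 ((Submodule.span_eq_bot.2 hc).le s)
      refine Set.mem_iUnion.2 ⟨ε.symm ⟨L, hL⟩, ?_⟩
      simp only [ε.apply_symm_apply]
      refine Fm.mem (k := k) (Submodule.span_le (p := EE L ((σ : Module.End k M) - 1)) |>.2 ?_ s).1
      rintro γ ⟨m, K, hK, f⟩
      by_cases h : K = L
      · exact mem_EE_of m (h ▸ f)
      · rw [eq_of_mul_zero hG.1 g2 e.ge hK hL f fd nd (EE_mul m md) h]; exact zero_mem _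

end Cfsg.Agent.S5063
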