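import Cfsg.Statements.S5067
import Cfsg.Agent.H1.QP9

set_option autoImplicit false
open Cfsg

namespace Cfsg.Agent.S5067

section
open CfsgH1 CfsgH9
open scoped commutatorElement

theorem aux {P : Type*} [Group P] [Group.IsNilpotent P]
    (hna : ¬ IsMulCommutative P) {E : Subgroup P} (hE : IsMulCommutative ↥E) :
    Group.nilpotencyClass ↥(Subgroup.normalClosure (E : Set P)) < Group.nilpotencyClass P := by
  have h2 : ¬ Group.nilpotencyClass P ≤ 1 := fun h =>
    hna (Group.IsNilpotent.nilpotencyClass_le_one_iff.1 h)
  obtain ⟨c, hc⟩ : ∃ c, Group.nilpotencyClass P = c + 2 := ⟨Group.nilpotencyClass P - 2, by omega⟩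
  haveI : (E ⊔ ⁅(⊤ : Subgroup P), (⊤ : Subgroup P)⁆).Normal :=
    Subgroup.Normal.of_commutator_le P le_sup_right
  have hN : Subgroup.normalClosure (E : Set P) ≤ E ⊔ ⁅(⊤ : Subgroup P), (⊤ : Subgroup P)⁆ :=
    Subgroup.normalClosure_le_normal (SetLike.coe_subset_coe.2 le_sup_left)
  have n : ∀ (j : ℕ) (A : Subgroup P),
      A ≤ Subgroup.normalizer ((⊤ : Subgroup P).lowerCentralSeries j : Set P) := fun j A =>
    le_top.trans (Subgroup.self_le_normalizer_lowerCentralSeries _ j)
  have : ∀ j, (Subgroup.normalClosure (E : Set P)).lowerCentralSeries (j + 1) ≤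
      (⊤ : Subgroup P).lowerCentralSeries (j + 2) := fun j => by
    induction j with
    | zero =>
      refine (Subgroup.commutator_mono hN hN).trans (commutator_sup_le (n _ _) (n _ _)
        (commutator_sup_le' (n _ _) (n _ _) (comm_le_of_bot (isComm_iff.1 hE)) ?_)
        (Subgroup.commutator_mono le_rfl le_top))
      rw [Subgroup.commutator_comm]
      exact Subgroup.commutator_mono le_rfl le_top
    | succ j ih => exact Subgroup.commutator_mono ih le_top
  have h := this c
  rw [← hc, Subgroup.lowerCentralSeries_nilpotencyClass, le_bot_iff,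
    ← Subgroup.top_subtype_lowerCentralSeries, Subgroup.map_eq_bot_iff_of_injective _
    (Subgroup.subtype_injective _), Subgroup.lowerCentralSeries_eq_bot_iff_nilpotencyClass_le] at h
  omega

end

/-- Let P be a non-abelian nilpotent p-group (every element of p-power order; P possibly infinite) generated by two abelian subgroups E and F. Then the normal closure of E in P, and likewise that of F, has nilpotency class strictly smaller than that of P. -/
theorem result {P : Type*} [Group P] {p : ℕ} [Fact p.Prime] (hP : IsPGroup p P) [Group.IsNilpotent P]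
    (hna : ¬ IsMulCommutative P) {E F : Subgroup P} (hE : IsMulCommutative ↥E) (hF : IsMulCommutative ↥F) (hgen : E ⊔ F = ⊤) :
    Group.nilpotencyClass ↥(Subgroup.normalClosure (E : Set P)) < Group.nilpotencyClass P ∧
    Group.nilpotencyClass ↥(Subgroup.normalClosure (F : Set P)) < Group.nilpotencyClass P := by
  open CfsgH1 CfsgH9 in
  open scoped commutatorElement in
  · exact ⟨aux hna hE, aux hna hF⟩

end Cfsg.Agent.S5067
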