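import Cfsg.Statements.S5069
import Cfsg.Agent.H1.QP9

set_option autoImplicit false
universe u
open Cfsg

namespace Cfsg.Agent.S5069

/-- Let k be a field of characteristic not 2 with k not of order 3, M a finite-dimensional k-vector space and G ≤ GL(M) such that (G, M) is a quadratic pair (M irreducible for G, and G generated by its quadratically acting elements σ whose scalar family 1 + c(σ − 1), c ∈ k, lies in G). Write 𝒬_d for the quadratic elements of G of minimal commutator rank, E(σ) for the subgroup generated by the members of 𝒬_d with the same fixed space and commutator space as σ, and Σ for the set of these subgroups. Then Σ is a disjoint union of finitely many parts Σ₁, …, Σ_r such that the subgroups G_i generated by the Σ_i commute pairwise, each G_i is quasisimple, and inside G_i the members of Σ_i form a class of abstract root subgroups in which every rank one pair A, B contains subgroups A₀ ≤ A, B₀ ≤ B generating an image of SL₂(k₁) with central kernel on unitriangular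 subgroups for some field k₁ with at least four elements. -/
theorem result {k : Type u} [Field k] (hk2 : ringChar k ≠ 2) (hk3 : Nat.card k ≠ 3)
    {M : Type u} [AddCommGroup M] [Module k M] [FiniteDimensional k M]
    {G : Subgroup (LinearMap.GeneralLinearGroup k M)} (hG : Cfsg.IsQuadraticPair G) :
    ∃ (r : ℕ) (part : Fin r → Set (Subgroup (LinearMap.GeneralLinearGroup k M))),
      (⋃ i, part i) = Cfsg.quadraticRootSubgroups G ∧ (∀ i j, i ≠ j → Disjoint (part i) (part j)) ∧ (∀ i, (part i).Nonempty) ∧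
      (∀ i j, i ≠ j → ⁅(⨆ A ∈ part i, A), (⨆ A ∈ part j, A)⁆ = ⊥) ∧
      (∀ i, Cfsg.IsQuasisimple ↥(⨆ A ∈ part i, A) ∧
        Cfsg.IsRootSubgroupClass ((fun A : Subgroup (LinearMap.GeneralLinearGroup k M) => A.subgroupOf (⨆ B ∈ part i, B)) '' (part i)) ∧
        ∀ A ∈ part i, ∀ B ∈ Cfsg.rankOnePartners (part i) A, ∃ A₀ B₀ : Subgroup (LinearMap.GeneralLinearGroup k M), A₀ ≤ A ∧ B₀ ≤ B ∧
          ∃ (k₁ : Type u) (_ : Field k₁), 3 < ENat.card k₁ ∧ Cfsg.IsPSL2PairOver k₁ A₀ B₀) := by
  open CfsgH1 CfsgH9 in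
  open scoped commutatorElement in
  · have k2 := two_ne_of hk2
    have nu := nu_of_irr hG.1
    obtain ⟨r, a, a1, a2, a3⟩ := exists_reps k2 hk3 nu
    rw [qrs_eq]
    refine ⟨r, fun i => Pt G (a i), ?_, fun i j h => ?_, fun i => ⟨_, _, Cn.refl, rfl⟩,
      fun i j h => (a1 i).Gc_comm k2 hk3 nu (a1 j) fun c => h (a2 i j c),
      fun i => ⟨qs_iff.1 ((a1 i).qs k2 hk3 nu), (a1 i).rs_Pt k2 hk3 nu, ?_⟩⟩
    · ext A
      rw [Set.mem_iUnion]
      constructor
      · rintro ⟨i, β, c, rfl⟩; exact (c.mn (a1 i)).mem_Sg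
      · rintro ⟨β, h, rfl⟩
        obtain ⟨i, c⟩ := a3 β h
        exact ⟨i, β, c, rfl⟩
    · rw [Set.disjoint_left]
      rintro _ ⟨β, c, rfl⟩ ⟨γ, c', e⟩
      exact h (a2 i j ((c.trans ((c.mn (a1 i)).cn_of_eq k2 hk3 nu (c'.mn (a1 j)) e)).trans
        (c'.symm k2 hk3)))
    · rintro _ ⟨β, c, rfl⟩ _ ⟨⟨γ, c', rfl⟩, r⟩
      exact (c.mn (a1 i)).psl2 k2 hk3 (c'.mn (a1 i)) ((c.mn (a1 i)).ts_of_rp k2 hk3 (c'.mn (a1 i)) r)

end Cfsg.Agent.S5069
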