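import Mathlib
import Cfsg.Statements.S5070
import Cfsg.Agent.H8.RT2

set_option autoImplicit false
open Matrix
open Cfsg

namespace Cfsg.Agent.S5070

open CfsgH8.RT CfsgH5 in
theorem aux (F : Type*) [Field F] (m : ℕ) :
    {A : Subgroup ↥(Matrix.symplecticGroup (Fin (m + 1)) F) | ∃ p : Fin (m + 1) ⊕ Fin (m + 1) → F, p ≠ 0 ∧
        A = Subgroup.closure {g : ↥(Matrix.symplecticGroup (Fin (m + 1)) F) | ∃ c : F, ∀ v : Fin (m + 1) ⊕ Fin (m + 1) → F,
          (g : Matrix (Fin (m + 1) ⊕ Fin (m + 1)) (Fin (m + 1) ⊕ Fin (m + 1)) F) *ᵥ v =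
            v + (c * (v ⬝ᵥ (Matrix.J (Fin (m + 1)) F *ᵥ p))) • p}} =
      T F (toEnd (Cfsg.spToMat (m + 1) F)) '' NF (spForm F (m + 1)) 1 := by
  have key : ∀ p : Fin (m + 1) ⊕ Fin (m + 1) → F,
      Subgroup.closure {g : ↥(Matrix.symplecticGroup (Fin (m + 1)) F) | ∃ c : F, ∀ v : Fin (m + 1) ⊕ Fin (m + 1) → F,
          (g : Matrix (Fin (m + 1) ⊕ Fin (m + 1)) (Fin (m + 1) ⊕ Fin (m + 1)) F) *ᵥ v =
            v + (c * (v ⬝ᵥ (Matrix.J (Fin (m + 1)) F *ᵥ p))) • p} =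
        T F (toEnd (Cfsg.spToMat (m + 1) F)) (r1 p ((1 : F) • (spForm F (m + 1)).left p)) := by
    intro p
    rw [← Subgroup.closure_eq (T F _ _)]
    congr 1
    ext g
    rw [SetLike.mem_coe, mem_T_NF (CForm.symp_Q _ _), Set.mem_ofPred_eq]
    simp only [Algebra.algebraMap_self, RingHom.id_apply, mul_one]
    rfl
  ext A
  constructor
  · rintro ⟨p, hp, rfl⟩
    exact ⟨_, ⟨p, hp, CForm.symp_Q _ _, rfl⟩, (key p).symm⟩
  · rintro ⟨_, ⟨p, hp, -, rfl⟩, rfl⟩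
    exact ⟨p, hp, (key p).symm⟩

/-- Let F be a field, m a natural number and V = F^{2(m+1)} with the standard non-degenerate alternating form f(u, v) = uᵀ J v. For a non-zero vector p let T(p) be the group of symplectic transvections v ↦ v + c f(v, p) p, c ∈ F. Then the subgroups T(p), p ≠ 0, generate the symplectic group Sp_{2(m+1)}(F) and form a degenerate class of abstract F-root subgroups of it (any two of them either commute elementwise or are the unipotent subgroups of a rank one group that is an image of SL₂(F) with central kernel, never the commutator case), and their graph of rank one pairs is connected. -/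
theorem result (F : Type*) [Field F] (m : ℕ) :
    Cfsg.IsRootSubgroupClass {A : Subgroup ↥(Matrix.symplecticGroup (Fin (m + 1)) F) | ∃ p : Fin (m + 1) ⊕ Fin (m + 1) → F, p ≠ 0 ∧
        A = Subgroup.closure {g : ↥(Matrix.symplecticGroup (Fin (m + 1)) F) | ∃ c : F, ∀ v : Fin (m + 1) ⊕ Fin (m + 1) → F,
          (g : Matrix (Fin (m + 1) ⊕ Fin (m + 1)) (Fin (m + 1) ⊕ Fin (m + 1)) F) *ᵥ v =
            v + (c * (v ⬝ᵥ (Matrix.J (Fin (m + 1)) F *ᵥ p))) • p}} ∧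
    Cfsg.IsDegenerateRootSet {A : Subgroup ↥(Matrix.symplecticGroup (Fin (m + 1)) F) | ∃ p : Fin (m + 1) ⊕ Fin (m + 1) → F, p ≠ 0 ∧
        A = Subgroup.closure {g : ↥(Matrix.symplecticGroup (Fin (m + 1)) F) | ∃ c : F, ∀ v : Fin (m + 1) ⊕ Fin (m + 1) → F,
          (g : Matrix (Fin (m + 1) ⊕ Fin (m + 1)) (Fin (m + 1) ⊕ Fin (m + 1)) F) *ᵥ v =
            v + (c * (v ⬝ᵥ (Matrix.J (Fin (m + 1)) F *ᵥ p))) • p}} ∧
    Cfsg.IsKRootSubgroupSet F {A : Subgroup ↥(Matrix.symplecticGroup (Fin (m + 1)) F) | ∃ p : Fin (m + 1) ⊕ Fin (m + 1) → F, p ≠ 0 ∧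
        A = Subgroup.closure {g : ↥(Matrix.symplecticGroup (Fin (m + 1)) F) | ∃ c : F, ∀ v : Fin (m + 1) ⊕ Fin (m + 1) → F,
          (g : Matrix (Fin (m + 1) ⊕ Fin (m + 1)) (Fin (m + 1) ⊕ Fin (m + 1)) F) *ᵥ v =
            v + (c * (v ⬝ᵥ (Matrix.J (Fin (m + 1)) F *ᵥ p))) • p}} ∧
    Cfsg.IsConnectedFamily (Cfsg.FAdj {A : Subgroup ↥(Matrix.symplecticGroup (Fin (m + 1)) F) | ∃ p : Fin (m + 1) ⊕ Fin (m + 1) → F, p ≠ 0 ∧
        A = Subgroup.closure {g : ↥(Matrix.symplecticGroup (Fin (m + 1)) F) | ∃ c : F, ∀ v : Fin (m + 1) ⊕ Fin (m + 1) → F,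
          (g : Matrix (Fin (m + 1) ⊕ Fin (m + 1)) (Fin (m + 1) ⊕ Fin (m + 1)) F) *ᵥ v =
            v + (c * (v ⬝ᵥ (Matrix.J (Fin (m + 1)) F *ᵥ p))) • p}})
      {A : Subgroup ↥(Matrix.symplecticGroup (Fin (m + 1)) F) | ∃ p : Fin (m + 1) ⊕ Fin (m + 1) → F, p ≠ 0 ∧
        A = Subgroup.closure {g : ↥(Matrix.symplecticGroup (Fin (m + 1)) F) | ∃ c : F, ∀ v : Fin (m + 1) ⊕ Fin (m + 1) → F,
          (g : Matrix (Fin (m + 1) ⊕ Fin (m + 1)) (Fin (m + 1) ⊕ Fin (m + 1)) F) *ᵥ v =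
            v + (c * (v ⬝ᵥ (Matrix.J (Fin (m + 1)) F *ᵥ p))) • p}} := by
  open CfsgH8.RT CfsgH5 in
  rw [aux]
  have hK : ∀ a, (FP.symp F).σ a = a → ∃ c : F, algebraMap F F c = a := fun a _ => ⟨a, rfl⟩
  have hex : ∀ p (c : F), ∃ g, ∀ v, toEnd (Cfsg.spToMat (m + 1) F) g v =
      v + (algebraMap F F c * 1 * (spForm F (m + 1)).B v p) • p := fun p c =>
    ⟨⟨_, sympTransvection_mem p c⟩, fun v => by
      rw [mul_one]; exact sympTransvection_mulVec p c v⟩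
  have hF : Fam F (toEnd (Cfsg.spToMat (m + 1) F)) (NF (spForm F (m + 1)) 1) :=
    NF_fam (spForm_nondeg _) one_ne_zero rfl hK (toEnd_inj Subtype.val_injective)
      (fun g u v => mem_symplectic_iff.1 g.2 u v) (fun g v => by rw [CForm.symp_Q, CForm.symp_Q])
      (fun p c _ => hex p c)
  have gen : (⨆ A ∈ T F (toEnd (Cfsg.spToMat (m + 1) F)) '' NF (spForm F (m + 1)) 1, A) = ⊤ := by
    rw [eq_top_iff, ← closure_sympTransvection, Subgroup.closure_le]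
    rintro g ⟨w, c, h⟩
    by_cases hw : w = 0
    · have : g = 1 := Subtype.ext (by rw [h, hw]; simp [Cfsg.sympTransvection])
      rw [this]; exact one_mem _
    · refine (le_iSup₂_of_le (f := fun A _ => A) _ ⟨_, ⟨w, hw, CForm.symp_Q _ _, rfl⟩, rfl⟩ le_rfl :
        T F (toEnd (Cfsg.spToMat (m + 1) F)) _ ≤ _) ?_
      rw [mem_T_NF (CForm.symp_Q _ _)]
      refine ⟨c, fun v => ?_⟩
      rw [mul_one, toEnd_apply]
      exact (congrArg (· *ᵥ v) h).trans (sympTransvection_mulVec w c v)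
  have hc := hF.conn (NF_conn (spForm_nondeg _) one_ne_zero rfl hK)
  refine ⟨⟨(hF.krs gen).1, class_of_conn ?_ hc⟩, hF.deg (NF_di one_ne_zero rfl hK), hF.krs gen, hc⟩
  exact ⟨_, _, ⟨1, one_ne_zero, CForm.symp_Q _ _, rfl⟩, rfl⟩

end Cfsg.Agent.S5070
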