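import Mathlib
import Cfsg.Statements.S5071
import Cfsg.Agent.H8.RT2

set_option autoImplicit false
open Matrix
open Cfsg

namespace Cfsg.Agent.S5071

open CfsgH8.RT CfsgH5 in
theorem aux {F : Type*} [Field F] {σ : F →+* F} {q : ℕ} (H : UF σ q) (n : ℕ) {K : Type} [Field K] [Algebra K F]
    {δ : F} (hδ : δ ≠ 0) (ht : δ + σ δ = 0) (hK : ∀ a, σ a = a → ∃ c : K, algebraMap K F c = a) :
    {A : Subgroup ↥(Cfsg.SU n F q) | ∃ p : Fin n → F, p ≠ 0 ∧ Cfsg.hermForm n F q p p = 0 ∧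
          A = Subgroup.closure {g : ↥(Cfsg.SU n F q) |
            (∀ v : Fin n → F, ∃ c : F, ((g : Matrix.SpecialLinearGroup (Fin n) F) : Matrix (Fin n) (Fin n) F) *ᵥ v = v + c • p) ∧
            ∀ v : Fin n → F, Cfsg.hermForm n F q v p = 0 →
              ((g : Matrix.SpecialLinearGroup (Fin n) F) : Matrix (Fin n) (Fin n) F) *ᵥ v = v}} =
      T K (toEnd ((Cfsg.slToMat n F).comp (Cfsg.SU n F q).subtype)) '' NF (hermC H n) δ := by
  have key : ∀ p : Fin n → F, p ≠ 0 → (hermC H n).Q p = 0 →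
      Subgroup.closure {g : ↥(Cfsg.SU n F q) |
            (∀ v : Fin n → F, ∃ c : F, ((g : Matrix.SpecialLinearGroup (Fin n) F) : Matrix (Fin n) (Fin n) F) *ᵥ v = v + c • p) ∧
            ∀ v : Fin n → F, Cfsg.hermForm n F q v p = 0 →
              ((g : Matrix.SpecialLinearGroup (Fin n) F) : Matrix (Fin n) (Fin n) F) *ᵥ v = v} =
        T K (toEnd ((Cfsg.slToMat n F).comp (Cfsg.SU n F q).subtype)) (r1 p (δ • (hermC H n).left p)) := by
    intro p hp hq
    rw [← Subgroup.closure_eq (T K _ _)]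
    congr 1
    ext g
    rw [SetLike.mem_coe, mem_T_NF hq, Set.mem_ofPred_eq]
    constructor
    · rintro ⟨h1, h2⟩
      obtain ⟨y, hy⟩ := (hermC_nondeg H n).exists_B_eq_one hp
      have hy' : (hermC H n).B y p = 1 := (hermC H n).B_one_symm hy
      obtain ⟨a, ha⟩ := h1 y
      have hB := (hermC H n).Isom_B (suEquiv H n g).2.1 y y
      rw [suEquiv_apply, ha] at hB
      simp only [CForm.B_add_left, CForm.B_add_right, CForm.B_smul_left, CForm.B_smul_right, hy, hy',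
        (hermC H n).B_self_of_Q_zero hq, FP.unit_σ] at hB
      have hσ : σ δ ≠ 0 := by simpa using hδ
      obtain ⟨c, hc⟩ := hK (a / δ) (by
        rw [map_div₀, show σ δ = -δ by linear_combination ht, show σ a = -a by linear_combination hB,
          neg_div_neg_eq])
      refine ⟨c, fun v => ?_⟩
      have := h2 (v - (hermC H n).B v p • y) (by
        rw [← hermC_B H]; simp [CForm.B_sub_left, CForm.B_smul_left, hy'])
      rw [Matrix.mulVec_sub, Matrix.mulVec_smul, ha] at this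
      rw [hc, div_mul_cancel₀ _ hδ]
      change ((g : Matrix.SpecialLinearGroup (Fin n) F) : Matrix (Fin n) (Fin n) F) *ᵥ v = _
      linear_combination (norm := module) this
    · rintro ⟨c, hc⟩
      refine ⟨fun v => ⟨_, hc v⟩, fun v hv => ?_⟩
      have := hc v
      rw [hermC_B, hv, mul_zero, zero_smul, add_zero] at this
      exact this
  ext A
  constructor
  · rintro ⟨p, hp, hq, rfl⟩
    exact ⟨_, ⟨p, hp, hq, rfl⟩, (key p hp hq).symm⟩
  · rintro ⟨_, ⟨p, hp, hq, rfl⟩, rfl⟩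
    exact ⟨p, hp, hq, (key p hp hq).symm⟩

theorem aux2 {F : Type*} [Field F] {σ : F →+* F} {q : ℕ} (H : CfsgH5.UF σ q) :
    ∃ (K : Type) (_ : Field K) (_ : Fintype K) (_ : Algebra K F), Fintype.card K = q ∧
      ∀ a, σ a = a ↔ ∃ c : K, algebraMap K F c = a := by
  haveI := H.fin
  let L : Subfield F := σ.eqLocusField (RingHom.id F)
  haveI : Small.{0} L := inferInstance
  let e : Shrink.{0} L ≃+* L := Shrink.ringEquiv L
  haveI : Finite (Shrink.{0} L) := Finite.of_equiv _ e.symm.toEquiv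
  letI : Fintype (Shrink.{0} L) := Fintype.ofFinite _
  refine ⟨Shrink.{0} L, inferInstance, inferInstance, (L.subtype.comp e.toRingHom).toAlgebra, ?_, ?_⟩
  · rw [← Nat.card_eq_fintype_card, Nat.card_congr e.toEquiv]
    exact H.card_fix
  · intro a
    constructor
    · intro h
      exact ⟨e.symm ⟨a, h⟩, by simp [RingHom.algebraMap_toAlgebra]⟩
    · rintro ⟨c, rfl⟩
      exact (e c).2

/-- Let F be a finite field with q² elements, n a natural number, and h the Hermitian form Σ uᵢ vᵢ^q on F^{n+2}. For a non-zero isotropic vector p let T(p) be the group of unitary transvections with centre ⟨p⟩: the elements of SU_{n+2}(q) moving every vector by a multiple of p and fixing every vector perpendicular to p. Let Σ be the set of these T(p) and G₀ the subgroup they generate. Then, viewed inside G₀, the members of Σ form a degenerate class of abstract k-root subgroups of G₀ for some field k with q elements (any two commute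 or are the unipotent subgroups of a rank one group that is an image of SL₂(k) with central kernel, never the commutator case), and their graph of rank one pairs is connected. -/
theorem result (F : Type*) [Field F] [Fintype F] (q n : ℕ) (hF : Fintype.card F = q ^ 2) :
    Cfsg.IsRootSubgroupClass ((fun A : Subgroup ↥(Cfsg.SU (n + 2) F q) => A.subgroupOf (⨆ B ∈ {A : Subgroup ↥(Cfsg.SU (n + 2) F q) | ∃ p : Fin (n + 2) → F, p ≠ 0 ∧ Cfsg.hermForm (n + 2) F q p p = 0 ∧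
          A = Subgroup.closure {g : ↥(Cfsg.SU (n + 2) F q) |
            (∀ v : Fin (n + 2) → F, ∃ c : F, ((g : Matrix.SpecialLinearGroup (Fin (n + 2)) F) : Matrix (Fin (n + 2)) (Fin (n + 2)) F) *ᵥ v = v + c • p) ∧
            ∀ v : Fin (n + 2) → F, Cfsg.hermForm (n + 2) F q v p = 0 →
              ((g : Matrix.SpecialLinearGroup (Fin (n + 2)) F) : Matrix (Fin (n + 2)) (Fin (n + 2)) F) *ᵥ v = v}}, B)) ''
      {A : Subgroup ↥(Cfsg.SU (n + 2) F q) | ∃ p : Fin (n + 2) → F, p ≠ 0 ∧ Cfsg.hermForm (n + 2) F q p p = 0 ∧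
          A = Subgroup.closure {g : ↥(Cfsg.SU (n + 2) F q) |
            (∀ v : Fin (n + 2) → F, ∃ c : F, ((g : Matrix.SpecialLinearGroup (Fin (n + 2)) F) : Matrix (Fin (n + 2)) (Fin (n + 2)) F) *ᵥ v = v + c • p) ∧
            ∀ v : Fin (n + 2) → F, Cfsg.hermForm (n + 2) F q v p = 0 →
              ((g : Matrix.SpecialLinearGroup (Fin (n + 2)) F) : Matrix (Fin (n + 2)) (Fin (n + 2)) F) *ᵥ v = v}}) ∧
    Cfsg.IsDegenerateRootSet ((fun A : Subgroup ↥(Cfsg.SU (n + 2) F q) => A.subgroupOf (⨆ B ∈ {A : Subgroup ↥(Cfsg.SU (n + 2) F q) | ∃ p : Fin (n + 2) → F, p ≠ 0 ∧ Cfsg.hermForm (n + 2) F q p p = 0 ∧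
          A = Subgroup.closure {g : ↥(Cfsg.SU (n + 2) F q) |
            (∀ v : Fin (n + 2) → F, ∃ c : F, ((g : Matrix.SpecialLinearGroup (Fin (n + 2)) F) : Matrix (Fin (n + 2)) (Fin (n + 2)) F) *ᵥ v = v + c • p) ∧
            ∀ v : Fin (n + 2) → F, Cfsg.hermForm (n + 2) F q v p = 0 →
              ((g : Matrix.SpecialLinearGroup (Fin (n + 2)) F) : Matrix (Fin (n + 2)) (Fin (n + 2)) F) *ᵥ v = v}}, B)) ''
      {A : Subgroup ↥(Cfsg.SU (n + 2) F q) | ∃ p : Fin (n + 2) → F, p ≠ 0 ∧ Cfsg.hermForm (n + 2) F q p p = 0 ∧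
          A = Subgroup.closure {g : ↥(Cfsg.SU (n + 2) F q) |
            (∀ v : Fin (n + 2) → F, ∃ c : F, ((g : Matrix.SpecialLinearGroup (Fin (n + 2)) F) : Matrix (Fin (n + 2)) (Fin (n + 2)) F) *ᵥ v = v + c • p) ∧
            ∀ v : Fin (n + 2) → F, Cfsg.hermForm (n + 2) F q v p = 0 →
              ((g : Matrix.SpecialLinearGroup (Fin (n + 2)) F) : Matrix (Fin (n + 2)) (Fin (n + 2)) F) *ᵥ v = v}}) ∧
    (∃ (L : Type) (_ : Field L) (_ : Fintype L), Fintype.card L = q ∧ Cfsg.IsKRootSubgroupSet L ((fun A : Subgroup ↥(Cfsg.SU (n + 2) F q) => A.subgroupOf (⨆ B ∈ {A : Subgroup ↥(Cfsg.SU (n + 2) F q) | ∃ p : Fin (n + 2) → F, p ≠ 0 ∧ Cfsg.hermForm (n + 2) F q p p = 0 ∧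
          A = Subgroup.closure {g : ↥(Cfsg.SU (n + 2) F q) |
            (∀ v : Fin (n + 2) → F, ∃ c : F, ((g : Matrix.SpecialLinearGroup (Fin (n + 2)) F) : Matrix (Fin (n + 2)) (Fin (n + 2)) F) *ᵥ v = v + c • p) ∧
            ∀ v : Fin (n + 2) → F, Cfsg.hermForm (n + 2) F q v p = 0 →
              ((g : Matrix.SpecialLinearGroup (Fin (n + 2)) F) : Matrix (Fin (n + 2)) (Fin (n + 2)) F) *ᵥ v = v}}, B)) ''
      {A : Subgroup ↥(Cfsg.SU (n + 2) F q) | ∃ p : Fin (n + 2) → F, p ≠ 0 ∧ Cfsg.hermForm (n + 2) F q p p = 0 ∧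
          A = Subgroup.closure {g : ↥(Cfsg.SU (n + 2) F q) |
            (∀ v : Fin (n + 2) → F, ∃ c : F, ((g : Matrix.SpecialLinearGroup (Fin (n + 2)) F) : Matrix (Fin (n + 2)) (Fin (n + 2)) F) *ᵥ v = v + c • p) ∧
            ∀ v : Fin (n + 2) → F, Cfsg.hermForm (n + 2) F q v p = 0 →
              ((g : Matrix.SpecialLinearGroup (Fin (n + 2)) F) : Matrix (Fin (n + 2)) (Fin (n + 2)) F) *ᵥ v = v}})) ∧
    Cfsg.IsConnectedFamily (Cfsg.FAdj ((fun A : Subgroup ↥(Cfsg.SU (n + 2) F q) => A.subgroupOf (⨆ B ∈ {A : Subgroup ↥(Cfsg.SU (n + 2) F q) | ∃ p : Fin (n + 2) → F, p ≠ 0 ∧ Cfsg.hermForm (n + 2) F q p p = 0 ∧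
          A = Subgroup.closure {g : ↥(Cfsg.SU (n + 2) F q) |
            (∀ v : Fin (n + 2) → F, ∃ c : F, ((g : Matrix.SpecialLinearGroup (Fin (n + 2)) F) : Matrix (Fin (n + 2)) (Fin (n + 2)) F) *ᵥ v = v + c • p) ∧
            ∀ v : Fin (n + 2) → F, Cfsg.hermForm (n + 2) F q v p = 0 →
              ((g : Matrix.SpecialLinearGroup (Fin (n + 2)) F) : Matrix (Fin (n + 2)) (Fin (n + 2)) F) *ᵥ v = v}}, B)) ''
      {A : Subgroup ↥(Cfsg.SU (n + 2) F q) | ∃ p : Fin (n + 2) → F, p ≠ 0 ∧ Cfsg.hermForm (n + 2) F q p p = 0 ∧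
          A = Subgroup.closure {g : ↥(Cfsg.SU (n + 2) F q) |
            (∀ v : Fin (n + 2) → F, ∃ c : F, ((g : Matrix.SpecialLinearGroup (Fin (n + 2)) F) : Matrix (Fin (n + 2)) (Fin (n + 2)) F) *ᵥ v = v + c • p) ∧
            ∀ v : Fin (n + 2) → F, Cfsg.hermForm (n + 2) F q v p = 0 →
              ((g : Matrix.SpecialLinearGroup (Fin (n + 2)) F) : Matrix (Fin (n + 2)) (Fin (n + 2)) F) *ᵥ v = v}})) ((fun A : Subgroup ↥(Cfsg.SU (n + 2) F q) => A.subgroupOf (⨆ B ∈ {A : Subgroup ↥(Cfsg.SU (n + 2) F q) | ∃ p : Fin (n + 2) → F, p ≠ 0 ∧ Cfsg.hermForm (n + 2) F q p p = 0 ∧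
          A = Subgroup.closure {g : ↥(Cfsg.SU (n + 2) F q) |
            (∀ v : Fin (n + 2) → F, ∃ c : F, ((g : Matrix.SpecialLinearGroup (Fin (n + 2)) F) : Matrix (Fin (n + 2)) (Fin (n + 2)) F) *ᵥ v = v + c • p) ∧
            ∀ v : Fin (n + 2) → F, Cfsg.hermForm (n + 2) F q v p = 0 →
              ((g : Matrix.SpecialLinearGroup (Fin (n + 2)) F) : Matrix (Fin (n + 2)) (Fin (n + 2)) F) *ᵥ v = v}}, B)) ''
      {A : Subgroup ↥(Cfsg.SU (n + 2) F q) | ∃ p : Fin (n + 2) → F, p ≠ 0 ∧ Cfsg.hermForm (n + 2) F q p p = 0 ∧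
          A = Subgroup.closure {g : ↥(Cfsg.SU (n + 2) F q) |
            (∀ v : Fin (n + 2) → F, ∃ c : F, ((g : Matrix.SpecialLinearGroup (Fin (n + 2)) F) : Matrix (Fin (n + 2)) (Fin (n + 2)) F) *ᵥ v = v + c • p) ∧
            ∀ v : Fin (n + 2) → F, Cfsg.hermForm (n + 2) F q v p = 0 →
              ((g : Matrix.SpecialLinearGroup (Fin (n + 2)) F) : Matrix (Fin (n + 2)) (Fin (n + 2)) F) *ᵥ v = v}}) := by
  open CfsgH8.RT CfsgH5 in
  obtain ⟨σ, H⟩ := exists_UF hF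
  obtain ⟨K, i1, i2, i3, hc, hK⟩ := aux2 H
  obtain ⟨δ, hδ, ht⟩ := exists_trace_zero H.ne_id H.invol
  have hK' := fun a => (hK a).1
  rw [aux H (n + 2) hδ ht hK']
  have hF : Fam K (toEnd ((Cfsg.slToMat (n + 2) F).comp (Cfsg.SU (n + 2) F q).subtype))
      (NF (hermC H (n + 2)) δ) := by
    refine NF_fam (hermC_nondeg H _) hδ ht hK'
      (toEnd_inj (Subtype.val_injective.comp Subtype.val_injective))
      (fun g u v => (hermC H _).Isom_B (suEquiv H _ g).2.1 u v)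
      (fun g v => (hermC H _).Isom_Q (suEquiv H _ g).2.1 v) (fun p c hp => ?_)
    have hσ := (hK _).2 ⟨c, rfl⟩
    obtain ⟨g, hg⟩ := CForm.exists_eich (f := hermC H (n + 2)) (a := 0) (c := -(algebraMap K F c * δ)) hp
      (by simp) (by
        rw [FP.unit_t, CForm.Q_zero, map_neg, map_mul, hσ]
        linear_combination (-algebraMap K F c) * ht)
    refine ⟨(suEquiv H _).symm ⟨g, CForm.mem_SIsom.2 ⟨hg.mem_Isom, hg.det⟩⟩, fun v => ?_⟩
    have := suEquiv_apply H _ ((suEquiv H _).symm ⟨g, CForm.mem_SIsom.2 ⟨hg.mem_Isom, hg.det⟩⟩) v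
    rw [MulEquiv.apply_symm_apply] at this
    refine this.symm.trans ?_
    change g v = _
    rw [hg.app]
    simp [FP.unit_ε]
  rw [hF.sub_image]
  have hc := hF.sub.conn (NF_conn (hermC_nondeg H _) hδ ht hK')
  refine ⟨⟨(hF.sub.krs hF.sub_gen).1, class_of_conn ?_ hc⟩, hF.sub.deg (NF_di hδ ht hK'),
    ⟨K, i1, i2, ‹_›, hF.sub.krs hF.sub_gen⟩, hc⟩
  obtain ⟨x, y, h⟩ := CForm.unit_exists_hyp H (hermC_nondeg H (n + 2)) (by simp)
  exact ⟨_, _, ⟨x, h.x_ne, h.hx, rfl⟩, rfl⟩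

end Cfsg.Agent.S5071
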