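import Mathlib
import Cfsg.Statements.S5072
import Cfsg.Agent.H8.RT4

set_option autoImplicit false
open Matrix
open Cfsg

namespace Cfsg.Agent.S5072

open CfsgH8.RT CfsgH5 in
theorem aux (F : Type*) [Field F] (m : ℕ) :
    {A : Subgroup ↥(Cfsg.isometryGroup F (Cfsg.quadFormPlus m F)) | ∃ p r : Fin m ⊕ Fin m → F, LinearIndependent F ![p, r] ∧
          Cfsg.quadFormPlus m F p = 0 ∧ Cfsg.quadFormPlus m F r = 0 ∧
          Cfsg.quadFormPlus m F (p + r) = 0 ∧
          A = Subgroup.closure {σ : ↥(Cfsg.isometryGroup F (Cfsg.quadFormPlus m F)) | ∀ v : Fin m ⊕ Fin m → F,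
            Cfsg.quadFormPlus m F (v + p) - Cfsg.quadFormPlus m F v - Cfsg.quadFormPlus m F p = 0 →
            Cfsg.quadFormPlus m F (v + r) - Cfsg.quadFormPlus m F v - Cfsg.quadFormPlus m F r = 0 →
              ((σ : Matrix.GeneralLinearGroup (Fin m ⊕ Fin m) F) : Matrix (Fin m ⊕ Fin m) (Fin m ⊕ Fin m) F) *ᵥ v = v}} =
      T F (toEnd ((Units.coeHom _).comp (Cfsg.isometryGroup F (Cfsg.quadFormPlus m F)).subtype)) ''
        NS (CForm.ofQuad (plusQ F m)) := by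
  have hf := plusQ_nondeg F m
  have key : ∀ p r : Fin m ⊕ Fin m → F, (CForm.ofQuad (plusQ F m)).Q p = 0 →
      (CForm.ofQuad (plusQ F m)).Q r = 0 → (CForm.ofQuad (plusQ F m)).B p r = 0 →
      Sg (CForm.ofQuad (plusQ F m)) p r ≠ 0 →
      Subgroup.closure {σ : ↥(Cfsg.isometryGroup F (Cfsg.quadFormPlus m F)) | ∀ v : Fin m ⊕ Fin m → F,
            Cfsg.quadFormPlus m F (v + p) - Cfsg.quadFormPlus m F v - Cfsg.quadFormPlus m F p = 0 →
            Cfsg.quadFormPlus m F (v + r) - Cfsg.quadFormPlus m F v - Cfsg.quadFormPlus m F r = 0 →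
              ((σ : Matrix.GeneralLinearGroup (Fin m ⊕ Fin m) F) : Matrix (Fin m ⊕ Fin m) (Fin m ⊕ Fin m) F) *ᵥ v = v} =
        T F (toEnd ((Units.coeHom _).comp (Cfsg.isometryGroup F (Cfsg.quadFormPlus m F)).subtype))
          (Sg (CForm.ofQuad (plusQ F m)) p r) := by
    intro p r hp hr hpr h0
    rw [← Subgroup.closure_eq (T F _ _)]
    congr 1
    ext g
    rw [SetLike.mem_coe]
    exact (mem_T_NS (ρ := toEnd ((Units.coeHom _).comp (Cfsg.isometryGroup F (Cfsg.quadFormPlus m F)).subtype))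
      hf (fun g v => (CForm.ofQuad (plusQ F m)).Isom_Q
      (orthEquiv (plusQ F m) g).2 v) hp hr hpr h0).symm
  ext A
  constructor
  · rintro ⟨p, r, hl, hp, hr, hpr, rfl⟩
    have h1 : (CForm.ofQuad (plusQ F m)).B p r = 0 := by
      rw [CForm.orth_B]
      change quadFormPlus m F (p + r) - quadFormPlus m F p - quadFormPlus m F r = 0
      rw [hp, hr, hpr]; simp
    have h0 : Sg (CForm.ofQuad (plusQ F m)) p r ≠ 0 := by
      have p0 : p ≠ 0 := hl.ne_zero 0
      refine (Sg_ne_iff hf).2 ⟨p0, fun e => ?_⟩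
      obtain ⟨c, hc⟩ := Submodule.mem_span_singleton.1 e
      exact (LinearIndependent.pair_iff' p0).1 hl c hc
    exact ⟨_, ⟨h0, p, r, hp, hr, h1, rfl⟩, (key p r hp hr h1 h0).symm⟩
  · rintro ⟨_, ⟨h0, p, r, hp, hr, h1, rfl⟩, rfl⟩
    obtain ⟨p0, r0⟩ := (Sg_ne_iff hf).1 h0
    refine ⟨p, r, (LinearIndependent.pair_iff' p0).2 fun c hc => r0 (Submodule.mem_span_singleton.2 ⟨c, hc⟩),
      hp, hr, ?_, (key p r hp hr h1 h0).symm⟩
    have := CForm.orth_Q_add (CForm.ofQuad (plusQ F m)) p r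
    rw [hp, hr, h1, add_zero, add_zero] at this
    exact this

/-- Let F be a field, m a natural number and V = F^{2(m+3)} with the hyperbolic quadratic form q(x, y) = Σ xᵢ yᵢ (non-degenerate, Witt index m + 3 ≥ 3). For a singular line ℓ (a 2-dimensional subspace on which q vanishes) let T(ℓ) be the group of isometries of q fixing every vector of ℓ^⊥ (the Siegel transvection group of ℓ), let Σ be the set of these groups and G₀ the subgroup they generate. Then, viewed inside G₀, the members of Σ form a set of abstract F-root subgroups of G₀ (any two commute, or are the unipotent subgroups of a rank one group that is an image of SL₂(F) with central kernel, or satisfy the commutator case), and their graph of rank one pairs is connected. -/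
theorem result (F : Type*) [Field F] (m : ℕ) :
    Cfsg.IsKRootSubgroupSet F ((fun A : Subgroup ↥(Cfsg.isometryGroup F (Cfsg.quadFormPlus (m + 3) F)) => A.subgroupOf (⨆ B ∈ {A : Subgroup ↥(Cfsg.isometryGroup F (Cfsg.quadFormPlus (m + 3) F)) | ∃ p r : Fin (m + 3) ⊕ Fin (m + 3) → F, LinearIndependent F ![p, r] ∧
          Cfsg.quadFormPlus (m + 3) F p = 0 ∧ Cfsg.quadFormPlus (m + 3) F r = 0 ∧
          Cfsg.quadFormPlus (m + 3) F (p + r) = 0 ∧
          A = Subgroup.closure {σ : ↥(Cfsg.isometryGroup F (Cfsg.quadFormPlus (m + 3) F)) | ∀ v : Fin (m + 3) ⊕ Fin (m + 3) → F,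
            Cfsg.quadFormPlus (m + 3) F (v + p) - Cfsg.quadFormPlus (m + 3) F v - Cfsg.quadFormPlus (m + 3) F p = 0 →
            Cfsg.quadFormPlus (m + 3) F (v + r) - Cfsg.quadFormPlus (m + 3) F v - Cfsg.quadFormPlus (m + 3) F r = 0 →
              ((σ : Matrix.GeneralLinearGroup (Fin (m + 3) ⊕ Fin (m + 3)) F) : Matrix (Fin (m + 3) ⊕ Fin (m + 3)) (Fin (m + 3) ⊕ Fin (m + 3)) F) *ᵥ v = v}}, B)) ''
      {A : Subgroup ↥(Cfsg.isometryGroup F (Cfsg.quadFormPlus (m + 3) F)) | ∃ p r : Fin (m + 3) ⊕ Fin (m + 3) → F, LinearIndependent F ![p, r] ∧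
          Cfsg.quadFormPlus (m + 3) F p = 0 ∧ Cfsg.quadFormPlus (m + 3) F r = 0 ∧
          Cfsg.quadFormPlus (m + 3) F (p + r) = 0 ∧
          A = Subgroup.closure {σ : ↥(Cfsg.isometryGroup F (Cfsg.quadFormPlus (m + 3) F)) | ∀ v : Fin (m + 3) ⊕ Fin (m + 3) → F,
            Cfsg.quadFormPlus (m + 3) F (v + p) - Cfsg.quadFormPlus (m + 3) F v - Cfsg.quadFormPlus (m + 3) F p = 0 →
            Cfsg.quadFormPlus (m + 3) F (v + r) - Cfsg.quadFormPlus (m + 3) F v - Cfsg.quadFormPlus (m + 3) F r = 0 →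
              ((σ : Matrix.GeneralLinearGroup (Fin (m + 3) ⊕ Fin (m + 3)) F) : Matrix (Fin (m + 3) ⊕ Fin (m + 3)) (Fin (m + 3) ⊕ Fin (m + 3)) F) *ᵥ v = v}}) ∧
    Cfsg.IsConnectedFamily (Cfsg.FAdj {A : Subgroup ↥(Cfsg.isometryGroup F (Cfsg.quadFormPlus (m + 3) F)) | ∃ p r : Fin (m + 3) ⊕ Fin (m + 3) → F, LinearIndependent F ![p, r] ∧
          Cfsg.quadFormPlus (m + 3) F p = 0 ∧ Cfsg.quadFormPlus (m + 3) F r = 0 ∧
          Cfsg.quadFormPlus (m + 3) F (p + r) = 0 ∧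
          A = Subgroup.closure {σ : ↥(Cfsg.isometryGroup F (Cfsg.quadFormPlus (m + 3) F)) | ∀ v : Fin (m + 3) ⊕ Fin (m + 3) → F,
            Cfsg.quadFormPlus (m + 3) F (v + p) - Cfsg.quadFormPlus (m + 3) F v - Cfsg.quadFormPlus (m + 3) F p = 0 →
            Cfsg.quadFormPlus (m + 3) F (v + r) - Cfsg.quadFormPlus (m + 3) F v - Cfsg.quadFormPlus (m + 3) F r = 0 →
              ((σ : Matrix.GeneralLinearGroup (Fin (m + 3) ⊕ Fin (m + 3)) F) : Matrix (Fin (m + 3) ⊕ Fin (m + 3)) (Fin (m + 3) ⊕ Fin (m + 3)) F) *ᵥ v = v}})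
      {A : Subgroup ↥(Cfsg.isometryGroup F (Cfsg.quadFormPlus (m + 3) F)) | ∃ p r : Fin (m + 3) ⊕ Fin (m + 3) → F, LinearIndependent F ![p, r] ∧
          Cfsg.quadFormPlus (m + 3) F p = 0 ∧ Cfsg.quadFormPlus (m + 3) F r = 0 ∧
          Cfsg.quadFormPlus (m + 3) F (p + r) = 0 ∧
          A = Subgroup.closure {σ : ↥(Cfsg.isometryGroup F (Cfsg.quadFormPlus (m + 3) F)) | ∀ v : Fin (m + 3) ⊕ Fin (m + 3) → F,
            Cfsg.quadFormPlus (m + 3) F (v + p) - Cfsg.quadFormPlus (m + 3) F v - Cfsg.quadFormPlus (m + 3) F p = 0 →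
            Cfsg.quadFormPlus (m + 3) F (v + r) - Cfsg.quadFormPlus (m + 3) F v - Cfsg.quadFormPlus (m + 3) F r = 0 →
              ((σ : Matrix.GeneralLinearGroup (Fin (m + 3) ⊕ Fin (m + 3)) F) : Matrix (Fin (m + 3) ⊕ Fin (m + 3)) (Fin (m + 3) ⊕ Fin (m + 3)) F) *ᵥ v = v}} := by
  open CfsgH8.RT CfsgH5 in
  rw [aux]
  have hF : Fam F (toEnd ((Units.coeHom _).comp (Cfsg.isometryGroup F (Cfsg.quadFormPlus (m + 3) F)).subtype))
      (NS (CForm.ofQuad (plusQ F (m + 3)))) := by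
    refine NS_fam (toEnd_inj (Units.val_injective.comp Subtype.val_injective))
      (fun g v => (CForm.ofQuad (plusQ F (m + 3))).Isom_Q (orthEquiv (plusQ F (m + 3)) g).2 v) (fun e he => ?_)
    refine ⟨(orthEquiv (plusQ F (m + 3))).symm ⟨e, he⟩, fun v => ?_⟩
    have := orthEquiv_apply (plusQ F (m + 3)) ((orthEquiv (plusQ F (m + 3))).symm ⟨e, he⟩) v
    rw [MulEquiv.apply_symm_apply] at this
    exact this.symm
  obtain ⟨U, hU, h3⟩ := plusQ_isPlus (F := F) (m + 3)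
  rw [finrank_sum_fun] at h3
  rw [hF.sub_image]
  exact ⟨hF.sub.krs hF.sub_gen, hF.conn (NS_conn (plusQ_nondeg F _) hU (by omega))⟩

end Cfsg.Agent.S5072
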