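import Cfsg.Statements.S5073
import Cfsg.Agent.H1.QP8

set_option autoImplicit false
universe u
open Cfsg

namespace Cfsg.Agent.S5073

/-- Let k be a field of characteristic not 2 with k not of order 3, M a finite-dimensional k-vector space and G ≤ GL(M) such that (G, M) is a quadratic pair (M irreducible for G, and G generated by its quadratically acting elements σ whose scalar family 1 + c(σ − 1), c ∈ k, lies in G). Write 𝒬_d for the quadratic elements of G of minimal commutator rank, E(σ) for the subgroup generated by the members of 𝒬_d with the same fixed space and commutator space as σ, and Σ for the set of these subgroups. Let E, F ∈ Σ. If some non-identity element of E commutes with some non-identity element of F, or some non-identity element of E normalizes F, then E and F commute elementwise. -/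
theorem result {k : Type u} [Field k] (hk2 : ringChar k ≠ 2) (hk3 : Nat.card k ≠ 3)
    {M : Type u} [AddCommGroup M] [Module k M] [FiniteDimensional k M]
    {G : Subgroup (LinearMap.GeneralLinearGroup k M)} (hG : Cfsg.IsQuadraticPair G)
    {E F : Subgroup (LinearMap.GeneralLinearGroup k M)} (hE : E ∈ Cfsg.quadraticRootSubgroups G) (hF : F ∈ Cfsg.quadraticRootSubgroups G)
    (h : (∃ e ∈ E, e ≠ 1 ∧ ∃ f ∈ F, f ≠ 1 ∧ e * f = f * e) ∨ E ⊓ Subgroup.normalizer (F : Set (LinearMap.GeneralLinearGroup k M)) ≠ ⊥) :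
    ⁅E, F⁆ = ⊥ := by
  open CfsgH1 CfsgH9 in
  open scoped commutatorElement in
  · have k2 := two_ne_of hk2
    rw [qrs_eq] at hE hF
    obtain ⟨α, a, rfl⟩ := hE
    obtain ⟨β, b, rfl⟩ := hF
    have key : ∀ e ∈ Eg G α, e ≠ 1 → ∀ f ∈ Eg G β, f ≠ 1 → e * f = f * e → ⁅Eg G α, Eg G β⁆ = ⊥ := by
      intro e he e1 f hf f1 c
      have me := mem_Eg.1 he
      have mf := mem_Eg.1 hf
      have ne := ne_one_iff.1 e1
      have nf := ne_one_iff.1 f1
      rw [← Eg_congr (a.EE_eq me ne), ← Eg_congr (b.EE_eq mf nf)]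
      refine (a.of_mem me ne).comm_bot k2 hk3 (b.of_mem mf nf) ?_
      have := congrArg Units.val c
      rw [Units.val_mul, Units.val_mul] at this
      simp only [mul_sub, sub_mul, this, mul_one, one_mul]
      abel
    rcases h with ⟨e, he, e1, f, hf, f1, c⟩ | h
    · exact key e he e1 f hf f1 c
    obtain ⟨e, he, e1⟩ := exists_ne_one h
    by_cases h0 : α * β * α = 0
    swap
    · exact absurd ((a.rp k2 hk3 b h0).normL he.1 (cj_eq_iff.2 he.2)) e1
    by_cases n : α * β - β * α = 0
    · exact a.comm_bot k2 hk3 b (sub_eq_zero.1 n)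
    have ub := un_mem_Eg b.self
    have b1 : un β (EE_mul b.self b.self) ≠ 1 := ne_one_iff.2 (by rw [un_sub]; exact b.ne)
    by_cases c : ⁅e, un β (EE_mul b.self b.self)⁆ = 1
    · exact key e he.1 e1 _ ub b1 (commutatorElement_eq_one_iff_mul_comm.1 c)
    refine key e he.1 e1 _ (mul_mem ((Subgroup.mem_normalizer_iff.1 he.2 _).1 ub) (inv_mem ub)) c ?_
    refine (a.central k2 hk3 b h0 n (c := ⁅e, un β (EE_mul b.self b.self)⁆) ?_
      (Subgroup.mem_sup_left he.1)).symm
    rw [mem_Eg, a.comm_val k2 hk3 b h0 he.1 ub]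
    exact a.comm_mem k2 hk3 b h0 n (mem_Eg.1 he.1) (mem_Eg.1 ub)

end Cfsg.Agent.S5073
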