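import Cfsg.Statements.S5074
import Cfsg.Agent.H1.QP9

set_option autoImplicit false
universe u
open Cfsg

namespace Cfsg.Agent.S5074

/-- Let k be a field of characteristic not 2 with k not of order 3, M a finite-dimensional k-vector space and G ≤ GL(M) such that (G, M) is a quadratic pair (M irreducible for G, and G generated by its quadratically acting elements σ whose scalar family 1 + c(σ − 1), c ∈ k, lies in G). Write 𝒬_d for the quadratic elements of G of minimal commutator rank, E(σ) for the subgroup generated by the members of 𝒬_d with the same fixed space and commutator space as σ, and Σ for the set of these subgroups. Then G is the product of the subgroup G₀ generated by Σ with the centralizer of G₀ in G. -/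
theorem result {k : Type u} [Field k] (hk2 : ringChar k ≠ 2) (hk3 : Nat.card k ≠ 3)
    {M : Type u} [AddCommGroup M] [Module k M] [FiniteDimensional k M]
    {G : Subgroup (LinearMap.GeneralLinearGroup k M)} (hG : Cfsg.IsQuadraticPair G) :
    (⨆ A ∈ Cfsg.quadraticRootSubgroups G, A) ⊔
      (G ⊓ Subgroup.centralizer ((⨆ A ∈ Cfsg.quadraticRootSubgroups G, A : Subgroup (LinearMap.GeneralLinearGroup k M)) : Set (LinearMap.GeneralLinearGroup k M))) = G := by
  open CfsgH1 CfsgH9 in
  open scoped commutatorElement in
  · have k2 := two_ne_of hk2
    have nu := nu_of_irr hG.1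
    rw [qrs_eq]
    refine le_antisymm (sup_le G0_le_self inf_le_left) ?_
    conv_lhs => rw [← hG.2]
    rw [Subgroup.closure_le]
    intro σ hσ
    obtain ⟨q1, -, q3⟩ := mem_quad.1 hσ
    refine Fm.mem (k := k) (fm_of_decomp k2 hk3 nu q1 q3 le_sup_left fun γ c2 f z => ?_)
    exact (fm_C1 c2 f z).mono (le_sup_of_le_right (C1_le.trans
      (inf_le_inf_left _ (comm_bot_iff.1 ZG_comm))))

end Cfsg.Agent.S5074
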