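import Cfsg.Statements.S5079
import Mathlib
import Cfsg.Agent.L0.Fus3

set_option autoImplicit false
open Cfsg

namespace Cfsg.Agent.S5079

/-- In any fusion system over a finite p-group S: if P is fully automized and receptive and Q is conjugate to P in the system, then there is a map of the system with source N_S(Q) and values in N_S(P) carrying Q onto P. -/
theorem result {Ω : Type*} [Group Ω] {S : Subgroup Ω} [Finite S] (p : ℕ) [Fact p.Prime] (hS : IsPGroup p S) (F : Cfsg.FusionSystem S) (P Q : Subgroup Ω) (h₁ : F.IsFullyAutomized p P) (h₂ : F.IsReceptive P) (hQ : F.IsConj Q P) : ∃ φ ∈ F.Hom (Cfsg.FusionSystem.normalizerIn S Q), (∀ x, φ x ∈ Cfsg.FusionSystem.normalizerIn S P) ∧ (Q.subgroupOf (Cfsg.FusionSystem.normalizerIn S Q)).map φ = P := by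
  obtain ⟨g, hg, e⟩ := CfsgL0.exists_nmap hS h₁ h₂ hQ
  have h1 := CfsgL0.le_nI (CfsgL0.fconj_le_left hQ)
  refine ⟨_, hg.hom_mem, fun x => ?_, (hg.homOn.map_hom h1).trans e⟩
  exact e ▸ hg.im_nI_le h1 le_rfl CfsgL0.nI_le_norm (CfsgL0.mem_im_of g x.2)

end Cfsg.Agent.S5079
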