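import Cfsg.Statements.S5087
import Mathlib
import Cfsg.Agent.L0.Fus4

set_option autoImplicit false
open Cfsg

namespace Cfsg.Agent.S5087

open CfsgL0

/-- In a saturated fusion system over a finite p-group S, a subgroup Q is normal in the system if and only if every subgroup P that equals S or is essential contains Q and every element of Aut_F(P) maps Q onto itself. -/
theorem result {Ω : Type*} [Group Ω] {S : Subgroup Ω} [Finite S] (p : ℕ) [Fact p.Prime] (hS : IsPGroup p S) (F : Cfsg.FusionSystem S) (hF : F.IsSaturated p) (Q : Subgroup Ω) : F.IsNormal Q ↔ ∀ P : Subgroup Ω, (P = S ∨ F.IsEssential p P) → (Q ≤ P ∧ ∀ α ∈ F.autGroup P, (Q.subgroupOf P).map α.toMonoidHom = Q.subgroupOf P) := by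
  constructor
  · intro h P hP
    have h1 : Q ≤ P := hP.elim (fun e => e ▸ h.1) fun hP =>
      normal_le_cr hS h hP.1 (ess_radical hS hF hP)
    have h2 : P ≤ S := hP.elim (fun e => e.le) fun hP => hP.1.1
    exact ⟨h1, fun α hα => (map_af_eq_iff α h1).2 (normal_im h ((mem_aut h2).1 hα) h1)⟩
  · intro h
    refine normal_of_ess hS hF (h S (.inl rfl)).1 (fun P hP => (h P (.inr hP)).1)
      fun P hP f hf e => ?_
    obtain ⟨α, hα, e1⟩ := hf.exists_aut e
    rw [← im_congr fun x hx => e1 x ((h P hP).1 hx)]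
    exact (map_af_eq_iff α (h P hP).1).1 ((h P hP).2 α hα)

end Cfsg.Agent.S5087
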