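import Cfsg.Statements.S5088
import Mathlib
import Cfsg.Agent.L0.Fus4
import Cfsg.Agent.L0.FinCh

set_option autoImplicit false
open Cfsg

namespace Cfsg.Agent.S5088

open CfsgL0

/-- In a saturated fusion system over a finite p-group, a subgroup Q is normal in the system if and only if there is a chain of subgroups 1 = Q₀ ≤ Q₁ ≤ ⋯ ≤ Qₙ = Q such that each Qᵢ with i ≥ 1 is strongly closed in the system and [Q, Qᵢ] ≤ Qᵢ₋₁. -/
theorem result {Ω : Type*} [Group Ω] {S : Subgroup Ω} [Finite S] (p : ℕ) [Fact p.Prime] (hS : IsPGroup p S) (F : Cfsg.FusionSystem S) (hF : F.IsSaturated p) (Q : Subgroup Ω) : F.IsNormal Q ↔ ∃ (n : ℕ) (Qs : Fin (n + 1) → Subgroup Ω), Qs 0 = ⊥ ∧ Qs (Fin.last n) = Q ∧ Monotone Qs ∧ ∀ i : Fin n, F.StronglyClosed (Qs i.succ) ∧ ⁅Q, Qs i.succ⁆ ≤ Qs (Fin.castSucc i) := by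
  constructor
  · intro h
    obtain ⟨n, hn⟩ := exists_ucs hS h.1
    exact ⟨n, fun i => ucs Q i, ucs_zero, hn, fun i j hij => ucs_mono hij, fun i =>
      ⟨normal_sc (normal_char h (ucs_le _) (ucs_char _)), by
        rw [Subgroup.commutator_comm]; exact ucs_comm i⟩⟩
  · rintro ⟨n, c, h0, h1, -, h2⟩
    refine normal_of_chain hS hF (fch c) (n := n) ((fch_zero c).trans h0) ((fch_last c).trans h1)
      (fun i hi => ?_) fun i hi y hy x hx => ?_
    · rcases i with _ | i
      · rw [fch_zero, h0]; exact normal_sc normal_bot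
      · rw [fch_succ c hi]; exact (h2 _).1
    · rw [fch_succ c hi] at hx
      rw [fch_cast c hi]
      have := inv_mem ((h2 ⟨i, hi⟩).2 (Subgroup.commutator_mem_commutator hy (inv_mem hx)))
      simpa [commutatorElement_def, mul_assoc] using this

end Cfsg.Agent.S5088
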