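import Cfsg.Statements.S5089
import Mathlib
import Cfsg.Agent.L0.Fus4

set_option autoImplicit false
open Cfsg

namespace Cfsg.Agent.S5089

open CfsgL0 CfsgH2

/-- A saturated fusion system over a finite p-group has a nontrivial subgroup that is normal in the system (O_p(F) ≠ 1) if and only if some nontrivial abelian subgroup is strongly closed in the system. -/
theorem result {Ω : Type*} [Group Ω] {S : Subgroup Ω} [Finite S] (p : ℕ) [Fact p.Prime] (hS : IsPGroup p S) (F : Cfsg.FusionSystem S) (hF : F.IsSaturated p) : F.core ≠ ⊥ ↔ ∃ Q : Subgroup Ω, Q ≠ ⊥ ∧ IsMulCommutative Q ∧ F.StronglyClosed Q := by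
  constructor
  · intro h
    refine ⟨ucs F.core 1, fun e => h ?_, by rw [ucs_one]; exact isMulComm_cent_inf _,
      normal_sc (normal_char normal_core (ucs_le _) (ucs_char _))⟩
    obtain ⟨n, hn⟩ := exists_ucs (Q := F.core) hS core_le
    have : ∀ i, ucs F.core i = ⊥ := by
      intro i
      induction i with
      | zero => exact ucs_zero
      | succ i ih =>
        rw [eq_bot_iff, ← e]
        intro x hx
        rw [mem_ucs_succ] at hx ⊢
        rwa [ih, ← ucs_zero (Q := F.core)] at hx
    rw [← hn, this]
  · rintro ⟨Q, h1, h2, h3⟩ e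
    exact h1 (eq_bot_iff.2 (e ▸ le_core (normal_of_comm hS hF h3 h2)))

end Cfsg.Agent.S5089
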