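import Cfsg.Statements.S5094
import Mathlib
import Cfsg.Agent.H4.ZS2
import Cfsg.Agent.L0.Fus4

set_option autoImplicit false
open Cfsg

open Cfsg CfsgH2 CfsgH4 Subgroup

namespace Cfsg.Agent.S5094

/-- Glauberman's Z*-Theorem in fusion language: for a finite group G with Sylow 2-subgroup S, the centre of the fusion system of G on S is the set of elements of S whose image in G/O(G) is central, O(G) being the largest normal subgroup of odd order. -/
theorem result {G : Type*} [Group G] [Finite G] (S : Sylow 2 G) : (Cfsg.groupFusionSystem (S : Subgroup G)).center = (S : Subgroup G) ⊓ (Subgroup.center (G ⧸ Cfsg.oddCore G)).comap (QuotientGroup.mk' (Cfsg.oddCore G)) := by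
  have hS := syl_top S
  refine le_antisymm (fun x hx => ?_) (CfsgL0.le_center (CfsgL0.central_of_fix S.2
    (CfsgL0.group_sat S) inf_le_left fun P f hf x hx h => ?_))
  · have h1 := CfsgL0.center_le hx
    refine ⟨h1, inZStar_iff_map.1 (zstar_two hS h1 fun g hg => ?_)⟩
    refine CfsgL0.central_fix CfsgL0.central_center (P := zpowers x) (f := fun y => g * y * g⁻¹)
      (CfsgL0.M_group.2 ⟨zpowers_le.2 h1, ?_, g, fun _ _ => rfl⟩) (mem_zpowers x) hx
    rintro _ ⟨k, rfl⟩
    simpa only [conj_zpow] using zpow_mem hg k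
  · obtain ⟨-, h1, g, h2⟩ := CfsgL0.M_group.1 hf
    rw [h2 x hx]
    exact (inZStar_iff_map.2 h.2).eq_of_mem S.2 h.1 (h2 x hx ▸ h1 x hx)

end Cfsg.Agent.S5094
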