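import Cfsg.Statements.S5102
import Mathlib
import Cfsg.Agent.L0.Fus3

set_option autoImplicit false
open Cfsg

namespace Cfsg.Agent.S5102

/-- A normal p-subgroup of a finite group G is normal in the fusion system of G on a Sylow p-subgroup. -/
theorem result {G : Type*} [Group G] [Finite G] (p : ℕ) [Fact p.Prime] (S : Sylow p G) (R : Subgroup G) [R.Normal] (hR : IsPGroup p R) : (Cfsg.groupFusionSystem (S : Subgroup G)).IsNormal R := by
  rw [CfsgL0.group_eq_sub]
  exact CfsgL0.sub_normal (CfsgH2.syl_top S) hR le_top (CfsgH2.top_le_norm_iff.2 ‹_›)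

end Cfsg.Agent.S5102
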