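import Cfsg.Statements.S5106
import Mathlib
import Cfsg.Agent.L0.Fus4

set_option autoImplicit false
open Cfsg

namespace Cfsg.Agent.S5106

open CfsgL0

/-- In a saturated fusion system over a finite p-group S, a subgroup R ≤ S is normal in the system if and only if every map of the system whose source is a subgroup of R is the restriction of an element of Aut_F(R). -/
theorem result {Ω : Type*} [Group Ω] {S : Subgroup Ω} [Finite S] (p : ℕ) [Fact p.Prime] (hS : IsPGroup p S) (F : Cfsg.FusionSystem S) (hF : F.IsSaturated p) (R : Subgroup Ω) (hRS : R ≤ S) : F.IsNormal R ↔ ∀ (P : Subgroup Ω) (hPR : P ≤ R) (φ : P →* Ω), φ ∈ F.Hom P → ∃ α ∈ F.autGroup R, ∀ x : P, ((α (Subgroup.inclusion hPR x) : R) : Ω) = φ x := by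
  constructor
  · intro h P hPR φ hφ
    obtain ⟨g, h1, h2, h3⟩ := normal_ext h (M_ex hφ)
    obtain ⟨α, hα, e⟩ := (h1.mono le_sup_right).exists_aut h3
    exact ⟨α, hα, fun x => by rw [← af_coe, ← ex_coe φ, ← h2 x x.2]; exact e x (hPR x.2)⟩
  · intro h
    refine normal_of_ucs hS hF hRS fun i => ⟨(ucs_le i).trans hRS, fun P hP φ hφ x => ?_⟩
    obtain ⟨α, hα, e⟩ := h P (hP.trans (ucs_le i)) φ hφ
    rw [← e, ← af_coe]
    exact (im_af_of_char α (ucs_le i) (ucs_char i)).le (mem_im_of _ (hP x.2))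

end Cfsg.Agent.S5106
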