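import Cfsg.Statements.S5107
import Mathlib
import Cfsg.Agent.L0.Fus4

set_option autoImplicit false
open Cfsg

namespace Cfsg.Agent.S5107

open CfsgL0 CfsgH2

/-- If a Sylow p-subgroup S of a finite group G has nilpotency class at most two and its centre is strongly closed in S with respect to G, then every map of the fusion system of G on S is conjugation by an element of N_G(S), and S is the largest subgroup normal in that fusion system. -/
theorem result {G : Type*} [Group G] [Finite G] (p : ℕ) [Fact p.Prime] (S : Sylow p G) (hcl : ⁅(S : Subgroup G), (S : Subgroup G)⁆ ≤ (S : Subgroup G) ⊓ Subgroup.centralizer ((S : Subgroup G) : Set G)) (hZ : Cfsg.IsStronglyClosed ((S : Subgroup G) ⊓ Subgroup.centralizer ((S : Subgroup G) : Set G)) (S : Subgroup G)) : (∀ (P : Subgroup G) (φ : P →* G), φ ∈ (Cfsg.groupFusionSystem (S : Subgroup G)).Hom P → ∃ g ∈ Subgroup.normalizer ((S : Subgroup G) : Set G), ∀ x : P, φ x = g * (x : G) * g⁻¹) ∧ (Cfsg.groupFusionSystem (S : Subgroup G)).core = S := by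
  have hn : (Cfsg.groupFusionSystem (S : Subgroup G)).IsNormal S := by
    refine normal_of_chain S.2 (group_sat S) (fun i => if i = 0 then ⊥ else if i = 1 then
      (S : Subgroup G) ⊓ C[(S : Subgroup G)] else S) (n := 2) rfl rfl (fun i _ => ?_)
      fun i hi y hy x hx => ?_
    · split_ifs
      · exact normal_sc normal_bot
      · refine sc_iff.2 ⟨inf_le_left, fun P f hf x hx h => ?_⟩
        obtain ⟨-, h1, g, e⟩ := M_group.1 hf
        rw [e x hx]; exact hZ.2 x h g (e x hx ▸ h1 x hx)
      · exact sc_iff.2 ⟨le_rfl, fun _ _ hf _ hx _ => hf.mem hx⟩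
    · obtain rfl | rfl : i = 0 ∨ i = 1 := by omega
      · have hx' : x ∈ (S : Subgroup G) ⊓ C[(S : Subgroup G)] := hx
        show _ ∈ (⊥ : Subgroup G)
        rw [Subgroup.mem_bot, mem_cent_iff.1 hx'.2 y hy]; group
      · have hx' : x ∈ (S : Subgroup G) := hx
        have := hcl (Subgroup.commutator_mem_commutator (inv_mem hx') hy)
        show _ ∈ (S : Subgroup G) ⊓ C[(S : Subgroup G)]
        simpa only [commutatorElement_def, mul_assoc, inv_inv] using this
  refine ⟨fun P φ hφ => ?_, le_antisymm core_le (le_core hn)⟩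
  obtain ⟨g, h1, h2, h3⟩ := normal_ext hn (M_ex hφ)
  obtain ⟨-, -, k, e⟩ := M_group.1 h1
  refine ⟨k, map_cj_eq_iff.1 ?_, fun x => ?_⟩
  · rw [← im_conj, ← im_congr fun x hx => e x (Subgroup.mem_sup_right hx), h3]
  · rw [← ex_coe, ← h2 x x.2, e x (Subgroup.mem_sup_left x.2)]

end Cfsg.Agent.S5107
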