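import Cfsg.Statements.S5110
import Cfsg.Agent.H2.Sa2

set_option autoImplicit false
open Cfsg

namespace Cfsg.Agent.S5110
open CfsgH2

/-- Saturation criterion: let F be a fusion system over a finite p-group S and H a family of subgroups of S closed under conjugacy in F, such that every conjugacy class inside H contains a fully automized receptive member, F is the smallest fusion system over S containing all its maps with source in H, and every centric subgroup outside H is conjugate in F to some P for which Aut_S(P) ∩ O_p(Aut_F(P)) is not contained in Inn(P). Then F is saturated. -/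
theorem result {Ω : Type*} [Group Ω] {S : Subgroup Ω} [Finite S] (p : ℕ) [Fact p.Prime] (hS : IsPGroup p S) (F : Cfsg.FusionSystem S) (ℋ : Set (Subgroup Ω)) (hℋS : ∀ P ∈ ℋ, P ≤ S) (hℋconj : ∀ P ∈ ℋ, ∀ Q, F.IsConj P Q → Q ∈ ℋ) (hsat : ∀ P ∈ ℋ, ∃ Q, F.IsConj P Q ∧ F.IsFullyAutomized p Q ∧ F.IsReceptive Q) (hgen : ∀ E : Cfsg.FusionSystem S, (∀ P ∈ ℋ, F.Hom P ⊆ E.Hom P) → F ≤ E) (hstar : ∀ P : Subgroup Ω, F.IsCentric P → P ∉ ℋ → ∃ Q, F.IsConj P Q ∧ ¬ (Cfsg.autInducedBy S Q ⊓ (Cfsg.pCore p ↥(F.autGroup Q)).map (F.autGroup Q).subtype ≤ Cfsg.Inn Q)) : F.IsSaturated p := by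
  open Subgroup Function in open scoped commutatorElement in
  · open CfsgL0 in
    refine sat_of_family hS hℋconj hsat hgen (fun P h1 h2 => ?_) ?_
    · obtain ⟨Q, a, b⟩ := hstar P h1 h2
      refine ⟨Q, a, fun h => b fun α hα => ?_⟩
      haveI := CfsgL0.finite_of_le (CfsgL0.fconj_le_right a)
      rw [map_pCore_subtype] at hα
      obtain ⟨x, c, d, e⟩ := CfsgL0.mem_autInd.1 hα.1
      exact CfsgL0.mem_inn.2 ⟨x, h ⟨c, α, hα.2, e⟩, e⟩
    · by_contra h
      obtain ⟨Q, a, b⟩ := hstar S CfsgL0.centric_top h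
      obtain rfl : Q = S := CfsgL0.eq_of_le_card le_rfl (CfsgL0.fconj_le_right a)
        (CfsgL0.fconj_card a).ge
      exact b (inf_le_left.trans (CfsgL0.inn_eq _).ge)

end Cfsg.Agent.S5110
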