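import Cfsg.Statements.S5119
import Mathlib
import Cfsg.Agent.L0.Fus6

set_option autoImplicit false
open Cfsg

namespace Cfsg.Agent.S5119

open CfsgL0 CfsgH2

/-- Let F be a saturated fusion system over a finite p-group S and E a subsystem of F over a subgroup T that is strongly closed in F. Then E is invariant in F (invariance under Aut_F(T) plus the Frattini condition) if and only if the strong invariance condition holds: for P ≤ Q ≤ T, every map φ of E from P into Q and every map ψ of F with source Q, the transported map ψ φ ψ⁻¹ on ψ(P) is a map of E. -/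
theorem result {Ω : Type*} [Group Ω] {S : Subgroup Ω} [Finite S] (p : ℕ) [Fact p.Prime] (hS : IsPGroup p S) (F : Cfsg.FusionSystem S) (hF : F.IsSaturated p) {T : Subgroup Ω} (E : Cfsg.FusionSystem T) (hE : E.IsSubsystemOf F) (hT : F.StronglyClosed T) : E.IsInvariantIn F ↔ ∀ (P Q : Subgroup Ω) (hPQ : P ≤ Q) (_ : Q ≤ T) (φ : P →* Ω) (_ : φ ∈ E.Hom P) (hφQ : ∀ x : P, φ x ∈ Q) (ψ : Q →* Ω) (_ : ψ ∈ F.Hom Q), ∃ χ ∈ E.Hom ((P.subgroupOf Q).map ψ), ∀ (x : P) (hx : ψ (Subgroup.inclusion hPQ x) ∈ (P.subgroupOf Q).map ψ), χ ⟨ψ (Subgroup.inclusion hPQ x), hx⟩ = ψ ⟨φ x, hφQ x⟩ := by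
  constructor
  · intro h P Q hPQ hQ φ hφ hφQ ψ hψ
    obtain ⟨l, a, b, -⟩ := ((M_ex hψ).mono hPQ).exists_inv
    have := si_of_inv h _ _ _ _ (fun y => ex ψ (ex φ (l y))) (M_ex hφ) (M_ex hψ) hPQ
      (fun x hx => by rw [ex_apply _ hx]; exact hφQ _) fun x hx => by rw [b x hx]
    rw [← map_eq_im ψ (fun x => (ex_coe ψ x).symm) hPQ] at this
    refine ⟨_, this.hom_mem, fun x hx => ?_⟩
    rw [HomOn.hom_apply, ← ex_apply ψ (hφQ x), ← ex_coe φ]
    simp only
    rw [← ex_coe ψ, Subgroup.coe_inclusion, b x x.2]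
  · intro h
    refine inv_of_si hS hF hT hE fun P Q f k g hf hk hP hm e => ?_
    have hk' := hk.mono (inf_le_left : Q ⊓ T ≤ Q)
    have h1 : P ≤ Q ⊓ T := le_inf hP hf.le
    obtain ⟨χ, a, b⟩ := h P (Q ⊓ T) h1 inf_le_right _ hf.hom_mem (fun x => ⟨hm x x.2, hf.mem x.2⟩) _ hk'.hom_mem
    have e1 := hk'.homOn.map_hom h1
    have a' : M E (im P k) (ex χ) := by rw [← e1]; exact M_ex a
    refine a'.congr_im (hk.mono hP).homOn fun x hx => ?_
    have h2 : k x ∈ (P.subgroupOf (Q ⊓ T)).map hk'.homOn.hom := e1 ▸ mem_im_of k hx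
    rw [e x hx, ex_apply χ h2]
    exact (b ⟨x, hx⟩ h2).symm

end Cfsg.Agent.S5119
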