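import Cfsg.Statements.S5160
import Mathlib
import Cfsg.Agent.L0.Fus6

set_option autoImplicit false
open Cfsg

namespace Cfsg.Agent.S5160

open CfsgL0 CfsgH2 Subgroup

/-- Let G be a finite group with nontrivial Sylow p-subgroup S and F its fusion system on S. Suppose (a) no nontrivial proper subgroup of S is strongly closed in F, and (b) the automorphisms of S induced by G are generated by those induced, for R running over the fully normalized radical centric subgroups of F, by the subgroup of N_G(R) generated by its elements of p-power order. Then F is simple. -/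
theorem result {G : Type*} [Group G] [Finite G] (p : ℕ) [Fact p.Prime] (S : Sylow p G) (hS1 : (S : Subgroup G) ≠ ⊥) (ha : ∀ T : Subgroup G, (Cfsg.groupFusionSystem (S : Subgroup G)).StronglyClosed T → T = ⊥ ∨ T = (S : Subgroup G)) (hb : Cfsg.autInducedBy ⊤ (S : Subgroup G) = ⨆ (R : Subgroup G) (_ : (Cfsg.groupFusionSystem (S : Subgroup G)).IsFullyNormalized R ∧ (Cfsg.groupFusionSystem (S : Subgroup G)).IsRadical p R ∧ (Cfsg.groupFusionSystem (S : Subgroup G)).IsCentric R), Cfsg.autInducedBy (Subgroup.closure {g : G | g ∈ Subgroup.normalizer (R : Set G) ∧ ∃ k : ℕ, orderOf g = p ^ k}) (S : Subgroup G)) : (Cfsg.groupFusionSystem (S : Subgroup G)).IsSimple p := by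
  have hF := group_sat S
  refine simple_of S.isPGroup' hF hS1 ha fun E hE => ?_
  rw [group_eq_sub, sub_aut le_rfl, hb]
  refine iSup₂_le fun R ⟨_, _, hR⟩ α hα => ?_
  obtain ⟨g, a, b⟩ := mem_autInd'.1 hα
  have key : ∃ hn : g ∈ N[R], cA hn ∈ E.autGroup R := by
    clear b
    induction a using closure_induction with
    | mem x hx =>
      refine ⟨hx.1, opp_le_iff.1 ((si_of_inv hE.1.2.2).ptp S.isPGroup' hF hR.1) _ ?_ ?_⟩
      · rw [group_eq_sub, sub_aut hR.1]; exact cA_mem _ (mem_top _)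
      · obtain ⟨k, hk⟩ := hx.2
        refine isPGroup_zpowers (k := k) ((map_pow R.normalizerMonoidHom ⟨x, hx.1⟩ _).symm.trans ?_)
        rw [show (⟨x, hx.1⟩ : N[R]) ^ p ^ k = 1 from Subtype.ext (hk ▸ pow_orderOf_eq_one x), map_one]
    | one => exact ⟨one_mem _, by rw [(cA_eq_one _).2 (one_mem _)]; exact one_mem _⟩
    | mul x y _ _ a b => exact ⟨mul_mem a.1 b.1, cA_mul a.1 b.1 ▸ mul_mem a.2 b.2⟩
    | inv x _ a => exact ⟨inv_mem a.1, cA_inv a.1 ▸ inv_mem a.2⟩
  obtain ⟨hn, h⟩ := key
  exact (M_of_centric S.isPGroup' hF hE.1.1 hE.1.2.2.1 (M_group.2 ⟨le_rfl, fun _ => af_mem α, g, b⟩) R hR.1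
    hR.1 hR (((mem_aut hR.1).1 h).congr fun x hx => by rw [b x (hR.1 hx), af_cA _ hx])).af_mem_aut

end Cfsg.Agent.S5160
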