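import Cfsg.Statements.S5344
import Cfsg.Agent.H1.TT3

set_option autoImplicit false
open Cfsg

namespace Cfsg.Agent.S5344

/-- In a set of 3-transpositions, let a, b, c be members with a and c different and commuting, while neither a nor c commutes with b (a 3-string). Then there is an injective homomorphism from the symmetric group of degree 4 into the ambient group sending the transpositions (0 1), (1 2), (2 3) to a, b, c; so a, b, c generate a copy of the symmetric group of degree 4 in which they are transpositions. -/
theorem result {G : Type*} [Group G] {D : Set G} (hD : Cfsg.IsThreeTranspositionSet D) {a b c : G} (ha : a ∈ D) (hb : b ∈ D) (hc : c ∈ D) (hac : a ≠ c) (hac' : Commute a c) (hab : ¬ Commute a b) (hbc : ¬ Commute b c) : ∃ φ : Equiv.Perm (Fin 4) →* G, Function.Injective φ ∧ φ (Equiv.swap 0 1) = a ∧ φ (Equiv.swap 1 2) = b ∧ φ (Equiv.swap 2 3) = c := by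
  open Subgroup CfsgH1 in
  open CfsgH9 hiding card_inf_mul_relIndex card_lt_of_lt card_lt_of_ne_top card_map_mul_card_inf_ker card_mul_relIndex card_quotient_lt card_subgroupOf card_subgroupOf_of_le card_sup_dvd card_sup_mul_card_inf commutator_sup_le commutator_sup_le' isNilpotent_map isNilpotent_of_le isSolvable_map isSolvable_of_le le_normalizer_commutator le_normalizer_inf le_normalizer_map_subtype le_normalizer_sup le_pCore le_pPrimeCore mem_sup_of_le_normalizer mem_sup_of_le_normalizer' normalizer_le_normalizer_centralizer pCore_quotient_pCore pPrimeCore_quotient_pPrimeCore relIndex_map_subtype relIndex_sup_of_le_normalizer in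
  open scoped CfsgH9 in
  open scoped commutatorElement in
  · obtain ⟨φ, hφ⟩ := (TS.coxA3 hD ha hb hc hac' hab hbc).exists_hom
    have h0 : φ (adjSwap 3 0) = a := hφ 0 (by norm_num)
    have h2 : φ (adjSwap 3 2) = c := hφ 2 (by norm_num)
    refine ⟨φ, (injective_iff_map_eq_one φ).2 fun x hx => ?_, h0, hφ 1 (by norm_num), h2⟩
    by_contra hn
    have : ∀ x : Equiv.Perm (Fin 4), x ≠ 1 → ∃ g k : Equiv.Perm (Fin 4),
        g * x * g⁻¹ * (k * x * k⁻¹) = (adjSwap 3 0 * adjSwap 3 2) := by decide +kernel
    obtain ⟨g, k, e⟩ := this x hn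
    have := congrArg φ e
    simp only [map_mul, hx, map_inv, h0, h2, mul_one, mul_inv_cancel] at this
    exact TS.mul_ne_one hD ha hac this.symm

end Cfsg.Agent.S5344
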