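import Cfsg.Statements.S5345
import Cfsg.Agent.H1.TT3

set_option autoImplicit false
open Cfsg

namespace Cfsg.Agent.S5345

/-- Let D be a conjugation-invariant generating set of 3-transpositions of a finite group G and T a Sylow 2-subgroup of G. Then the members of D lying in T generate an abelian subgroup, and their number is the width of D (the largest number of pairwise commuting members of D). -/
theorem result {G : Type*} [Group G] [Finite G] {D : Set G} (hD : Cfsg.IsThreeTranspositionGroup D) (T : Sylow 2 G) : IsMulCommutative (Subgroup.closure {d : G | d ∈ D ∧ d ∈ T}) ∧ {d : G | d ∈ D ∧ d ∈ T}.ncard = Cfsg.commutingWidth D := by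
  open Subgroup CfsgH1 in
  open CfsgH9 hiding card_inf_mul_relIndex card_lt_of_lt card_lt_of_ne_top card_map_mul_card_inf_ker card_mul_relIndex card_quotient_lt card_subgroupOf card_subgroupOf_of_le card_sup_dvd card_sup_mul_card_inf commutator_sup_le commutator_sup_le' isNilpotent_map isNilpotent_of_le isSolvable_map isSolvable_of_le le_normalizer_commutator le_normalizer_inf le_normalizer_map_subtype le_normalizer_sup le_pCore le_pPrimeCore mem_sup_of_le_normalizer mem_sup_of_le_normalizer' normalizer_le_normalizer_centralizer pCore_quotient_pCore pPrimeCore_quotient_pPrimeCore relIndex_map_subtype relIndex_sup_of_le_normalizer in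
  open scoped CfsgH9 in
  open scoped commutatorElement in
  · have h := TG.of hD
    have hc : ∀ a ∈ {d : G | d ∈ D ∧ d ∈ T}, ∀ b ∈ {d : G | d ∈ D ∧ d ∈ T}, Commute a b :=
      fun a ha b hb => h.ts.comm_of_mem_two T.isPGroup' ha.1 hb.1 (mul_mem ha.2 hb.2)
    refine ⟨⟨⟨fun x y => Subtype.ext (comm_of_mem_closure (fun a ha =>
      (comm_of_mem_closure (fun b hb => hc a ha b hb) x.2).symm) y.2).eq⟩⟩, ?_⟩
    symm
    refine IsGreatest.csSup_eq ⟨⟨{d : G | d ∈ D ∧ d ∈ T}, fun _ h => h.1, Set.toFinite _, hc, rfl⟩, ?_⟩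
    rintro _ ⟨E, h1, -, h2, rfl⟩
    obtain ⟨P, hP⟩ := (isPGroup_closure_comm (fun a ha => h.ts.sq (h1 ha)) h2).exists_le_sylow
    obtain ⟨g, rfl⟩ := MulAction.exists_smul_eq G P T
    exact Set.ncard_le_ncard_of_injOn (cn g) (fun x hx => ⟨h.conj g x (h1 hx),
      smul_mem_pointwise_smul _ _ _ (hP (subset_closure hx))⟩) (fun _ _ _ _ => cn_inj.1)

end Cfsg.Agent.S5345
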