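import Cfsg.Statements.S5346
import Cfsg.Agent.H1.TT3

set_option autoImplicit false
open Cfsg

namespace Cfsg.Agent.S5346

/-- Let D be a conjugation-invariant generating set of 3-transpositions of a finite group G and d a member of D. Then D has width 1 (no two different members of D commute) if and only if G is the product of the subgroup generated by d with the largest normal 3-subgroup of G. -/
theorem result {G : Type*} [Group G] [Finite G] {D : Set G} (hD : Cfsg.IsThreeTranspositionGroup D) {d : G} (hd : d ∈ D) : Cfsg.commutingWidth D = 1 ↔ Subgroup.zpowers d ⊔ Cfsg.pCore 3 G = ⊤ := by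
  open Subgroup CfsgH1 in
  open CfsgH9 hiding card_inf_mul_relIndex card_lt_of_lt card_lt_of_ne_top card_map_mul_card_inf_ker card_mul_relIndex card_quotient_lt card_subgroupOf card_subgroupOf_of_le card_sup_dvd card_sup_mul_card_inf commutator_sup_le commutator_sup_le' isNilpotent_map isNilpotent_of_le isSolvable_map isSolvable_of_le le_normalizer_commutator le_normalizer_inf le_normalizer_map_subtype le_normalizer_sup le_pCore le_pPrimeCore mem_sup_of_le_normalizer mem_sup_of_le_normalizer' normalizer_le_normalizer_centralizer pCore_quotient_pCore pPrimeCore_quotient_pPrimeCore relIndex_map_subtype relIndex_sup_of_le_normalizer in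
  open scoped CfsgH9 in
  open scoped commutatorElement in
  · haveI : Fact (Nat.Prime 3) := ⟨Nat.prime_three⟩
    haveI := pCore_nl (G := G) 3
    have h := TG.of hD
    have bdd : BddAbove {n : ℕ | ∃ E : Set G, E ⊆ D ∧ E.Finite ∧ (∀ a ∈ E, ∀ b ∈ E, Commute a b) ∧
        E.ncard = n} := ⟨Nat.card G, by rintro _ ⟨E, -, -, -, rfl⟩; exact Set.ncard_le_card E⟩
    refine ⟨fun hw => sup_eq_top_of_mul_mem h.gen fun e he => h.width_one (fun x hx y hy hc => ?_) hd he,
      fun ht => ?_⟩
    · by_contra hn
      have := le_csSup bdd ⟨{x, y}, by simp [Set.insert_subset_iff, hx, hy], Set.toFinite _,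
        by simp [hc, hc.symm], Set.ncard_pair hn⟩
      exact absurd (this.trans hw.le) (by norm_num)
    refine IsGreatest.csSup_eq ⟨⟨{d}, by simpa, Set.toFinite _, by simp, by simp⟩, ?_⟩
    rintro _ ⟨E, h1, h0, h2, rfl⟩
    have m : ∀ x ∈ D, d * x ∈ pCore 3 G := fun x hx => by
      obtain ⟨y, hy, z, hz, rfl⟩ := (mem_sup_of_normal_right ..).1 (ht.ge (mem_top x))
      rcases eq_or_of_mem_zpowers (h.ts.o2 hd) hy with rfl | rfl
      · rwa [← mul_assoc, h.ts.sq hd, one_mul]
      · obtain ⟨k, hk⟩ := pCore_isPGroup 3 ⟨z, hz⟩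
        have : orderOf z ∣ 3 ^ k := orderOf_dvd_of_pow_eq_one (congrArg Subtype.val hk)
        rw [one_mul] at hx
        rw [h.ts.o2 hx] at this
        exact absurd (Nat.prime_two.dvd_of_dvd_pow this) (by norm_num)
    refine (Set.ncard_le_one h0).2 fun a ha b hb =>
      h.ts.eq_of_mem_three (pCore_isPGroup 3) (h1 ha) (h1 hb) ?_ (h2 a ha b hb)
    have := mul_mem (inv_mem (m a (h1 ha))) (m b (h1 hb))
    rwa [mul_inv_rev, mul_assoc, inv_mul_cancel_left, h.ts.inv (h1 ha)] at this

end Cfsg.Agent.S5346
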