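import Cfsg.Statements.S5355
import Mathlib
import Cfsg.Agent.H1.TT3

set_option autoImplicit false
open Cfsg

namespace Cfsg.Agent.S5355

section
open Subgroup CfsgH9
open scoped commutatorElement

open CfsgH1 in
theorem k1 : ∀ x : Equiv.Perm (Fin 4), x ≠ 1 → ∃ a b : Equiv.Perm (Fin 4),
    a * x * a⁻¹ * (b * x * b⁻¹) = adjSwap 3 0 * adjSwap 3 2 := by decide +kernel
open CfsgH1 in
theorem k2 : adjSwap 3 0 * adjSwap 3 2 * (adjSwap 3 1 * cn (adjSwap 3 0) (cn (adjSwap 3 2) (adjSwap 3 1))) =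
    cn (adjSwap 3 1) (adjSwap 3 0) * cn (adjSwap 3 1) (adjSwap 3 2) := by decide +kernel

end

/-- Let D be a conjugacy class of 3-transpositions generating the finite group G, with at least two members, and d a member of D. Suppose that every member of D commuting with d commutes with exactly the same members of D as d does, and that exactly one member of D other than d commutes with d. Then G is isomorphic to the symmetric group of degree 4. -/
theorem result {G : Type*} [Group G] [Finite G] {D : Set G} (hD : Cfsg.IsThreeTranspositionClass D) (hD2 : ∃ a ∈ D, ∃ b ∈ D, a ≠ b) {d : G} (hd : d ∈ D) (hV : {y : G | y ∈ D ∧ Commute d y} = {v : G | v ∈ D ∧ ∀ e ∈ D, Commute v e ↔ Commute d e}) (hm : {y : G | y ∈ D ∧ Commute d y}.ncard = 2) : Nonempty (G ≃* Equiv.Perm (Fin 4)) := by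
  open Subgroup CfsgH9 in
  open CfsgH1 in
  have h := TC.of hD
  obtain ⟨d', n', m', p'⟩ : ∃ d', d' ≠ d ∧ (d' ∈ D ∧ Commute d d') ∧
      ∀ y ∈ D, Commute d y → y = d ∨ y = d' := by
    obtain ⟨a, b, ne, e⟩ := Set.ncard_eq_two.1 hm
    have m : ∀ y, (y ∈ D ∧ Commute d y) ↔ y = a ∨ y = b := Set.ext_iff.1 e
    rcases (m d).1 ⟨hd, Commute.refl d⟩ with rfl | rfl
    · exact ⟨b, ne.symm, (m b).2 (.inr rfl), fun y h1 h2 => (m y).1 ⟨h1, h2⟩⟩
    · exact ⟨a, ne, (m a).2 (.inl rfl), fun y h1 h2 => ((m y).1 ⟨h1, h2⟩).symm⟩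
  have un : ∀ x ∈ D, ∀ y ∈ D, ∀ z ∈ D, Commute x y → Commute x z → y ≠ x → z ≠ x → y = z := by
    intro x hx y hy z hz c1 c2 n1 n2
    obtain ⟨g, rfl⟩ := h.cls d hd x hx
    have := fun y hy (c : Commute (cn g d) y) (n : y ≠ cn g d) =>
      (p' _ (h.conj g⁻¹ y hy) (comm_cn_left.1 c)).resolve_left fun e => n (cn_eq_iff.2 e.symm).symm
    rw [cn_eq_iff.1 (this y hy c1 n1), cn_eq_iff.1 (this z hz c2 n2)]
  obtain ⟨e, he, ne⟩ := h.exists_nc hD2 hd
  have ne' : ¬ Commute d' e := mt ((hV.le m').2 e he).1 ne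
  obtain ⟨φ, hφ⟩ := (h.ts.coxA3 hd he m'.1 m'.2 ne fun c => ne' c.symm).exists_hom
  have f0 : φ (adjSwap 3 0) = d := hφ 0 (by omega)
  have f1 : φ (adjSwap 3 1) = e := hφ 1 (by omega)
  have f2 : φ (adjSwap 3 2) = d' := hφ 2 (by omega)
  refine ⟨(MulEquiv.ofBijective φ ⟨(injective_iff_map_eq_one φ).2 fun x hx => by_contra fun x1 => ?_,
    MonoidHom.range_eq_top.1 (top_le_iff.1 (h.gen.ge.trans ((closure_le _).2 fun f hf =>
      by_contra fun nf => ?_)))⟩).symm⟩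
  · obtain ⟨a, b, k⟩ := k1 x x1
    have := congrArg φ k
    simp only [map_mul, hx, map_inv, f0, f2, mul_one, mul_inv_cancel] at this
    exact h.ts.mul_ne_one hd n'.symm this.symm
  have sw : ∀ x ∈ D, ∀ y ∈ D, x ∈ φ.range → y ∈ φ.range → x ≠ y → Commute x y →
      cn (x * y) f ∈ D ∧ Commute f (cn (x * y) f) ∧ cn (x * y) f ≠ f := fun x hx y hy r1 r2 n c => by
    have n1 : ¬ Commute x f := fun k => nf (un x hx y hy f hf c k n.symm (fun e => nf (e ▸ r1)) ▸ r2)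
    have n2 : ¬ Commute y f := fun k => nf (un y hy x hx f hf c.symm k n (fun e => nf (e ▸ r2)) ▸ r1)
    rw [← cn_cn]
    exact ⟨h.conj _ _ (h.conj _ _ hf), h.ts.string_comm hx hy hf c n1 n2, h.ts.string_ne hx hy hf n n1⟩
  have r0 : d ∈ φ.range := ⟨_, f0⟩
  have r1 : e ∈ φ.range := ⟨_, f1⟩
  have r2 : d' ∈ φ.range := ⟨_, f2⟩
  have a1 := sw d hd d' m'.1 r0 r2 n'.symm m'.2
  have a2 := sw e he _ (h.conj d _ (h.conj d' _ he)) r1 (cn_mem r0 (cn_mem r2 r1))
    (h.ts.string_ne hd m'.1 he n'.symm ne).symm (h.ts.string_comm hd m'.1 he m'.2 ne ne')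
  have a3 := sw _ (h.conj e _ hd) _ (h.conj e _ m'.1) (cn_mem r1 r0) (cn_mem r1 r2)
    (fun k => n' (by simpa [cn] using k.symm)) (by
      rw [comm_cn_left, cn_cn, inv_mul_cancel]; simpa [cn] using m'.2)
  have k := congrArg φ k2
  simp only [map_mul, map_cn, f0, f1, f2] at k
  apply a3.2.2
  rw [← k, ← cn_cn, un f hf _ a2.1 _ a1.1 a2.2.1 a1.2.1 a2.2.2 a1.2.2, cn_cn, ← pow_two,
    h.ts.sq_of_comm hd m'.1 m'.2]
  simp [cn]

end Cfsg.Agent.S5355
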