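import Cfsg.Statements.S5356
import Mathlib
import Cfsg.Agent.H1.TT3
import Cfsg.Agent.H2.Misc

set_option autoImplicit false
open Cfsg

namespace Cfsg.Agent.S5356

/-- Let D be a conjugacy class of 3-transpositions generating the finite group G, with at least two members, and d a member of D such that every member of D commuting with d commutes with exactly the same members of D as d. Then there is a Sylow 3-subgroup P of G normalized by d such that G is generated by d, P and the largest normal 2-subgroup of G. -/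
theorem result {G : Type*} [Group G] [Finite G] {D : Set G} (hD : Cfsg.IsThreeTranspositionClass D) (hD2 : ∃ a ∈ D, ∃ b ∈ D, a ≠ b) {d : G} (hd : d ∈ D) (hV : {y : G | y ∈ D ∧ Commute d y} = {v : G | v ∈ D ∧ ∀ e ∈ D, Commute v e ↔ Commute d e}) : ∃ P : Sylow 3 G, d ∈ Subgroup.normalizer (P : Set G) ∧ Subgroup.zpowers d ⊔ (P : Subgroup G) ⊔ Cfsg.pCore 2 G = ⊤ := by
  open Subgroup CfsgH9 in
  open CfsgH1 in
  haveI : Fact (Nat.Prime 3) := ⟨Nat.prime_three⟩
  haveI : Fact (Nat.Prime 2) := ⟨Nat.prime_two⟩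
  have h := TC.of hD
  set Q := pCore 2 G
  haveI : Q.Normal := pCore_nl 2
  have pQ : IsPGroup 2 Q := CfsgH1.isPGroup_pCore 2
  have V : ∀ x ∈ D, ∀ y ∈ D, Commute x y → x * y ∈ Q := fun x hx y hy c => by
    obtain ⟨g, rfl⟩ := h.cls d hd x hx
    have := h.toTG.Vs_cn g (hV.le ⟨h.conj g⁻¹ y hy, comm_cn_left.1 c⟩ : _ ∈ Vs D d)
    rw [cn_cn, mul_inv_cancel, show cn 1 y = y by simp [cn]] at this
    exact h.toTG.V_mem hx this
  obtain ⟨e, he, ne⟩ := h.exists_nc hD2 hd
  have o3 := h.ts.o3 hd he ne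
  obtain ⟨X, ⟨x1, x2, x3⟩, mx⟩ := Set.Finite.exists_maximal (Set.toFinite
    {X : Subgroup G | IsPGroup 3 X ∧ d ∈ normalizer (X : Set G) ∧ d * e ∈ X}) ⟨zpowers (d * e),
      IsPGroup.of_card (n := 1) (by rw [Nat.card_zpowers, o3, pow_one]),
      CfsgH2.mem_norm_zpowers (by
        rw [h.ts.inv hd, show d * (d * e) * d = (d * e)⁻¹ by
          rw [mul_inv_rev, h.ts.inv hd, h.ts.inv he, ← mul_assoc, h.ts.sq hd, one_mul]]
        exact inv_mem (mem_zpowers _)), mem_zpowers _⟩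
  set H := normalizer (X : Set G) with hH
  have w0 : ∀ k ∈ H, Commute d (cn k d) → cn k d = d := fun k hk c => by
    have m := h.conj k d hd
    have q := V d hd _ m c
    have qH : d * cn k d ∈ H := mul_mem x2 (cn_mem hk x2)
    have c2 : Commute (d * cn k d) (d * e) := by
      rw [← commutatorElement_eq_one_iff_commute, ← mem_bot,
        ← (IsPGroup.disjoint_of_ne 2 3 (by norm_num) Q X pQ x1).eq_bot]
      refine mem_inf.2 ⟨?_, mul_mem ((mem_normalizer_iff.1 qH _).1 x3) (inv_mem x3)⟩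
      have := mul_mem q ((inferInstance : Q.Normal).conj_mem _ (inv_mem q) (d * e))
      rw [commutatorElement_def]
      convert this using 1
      group
    have c3 : Commute (d * cn k d) e := by
      have := ((Commute.refl d).mul_left c.symm).mul_right c2
      rwa [← mul_assoc, h.ts.sq hd, one_mul] at this
    by_contra n
    exact ne (h.ts.comm_of_comm_mul hd m he (Ne.symm n) c3.symm).symm
  let E : Set G := {y | ∃ k ∈ H, cn k d = y}
  have ED : E ⊆ D := by rintro _ ⟨k, -, rfl⟩; exact h.conj k d hd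
  have EH : E ⊆ H := by rintro _ ⟨k, hk, rfl⟩; exact cn_mem hk x2
  have Ec : ∀ g ∈ H, ∀ y ∈ E, cn g y ∈ E := by
    rintro g hg _ ⟨k, hk, rfl⟩; exact ⟨_, mul_mem hg hk, (cn_cn _ _ _).symm⟩
  have op : ∀ k ∈ H, d * cn k d ∈ X := fun k hk => by
    have m := (h.ts.mono ED).mul_mem_Op3 (fun g hg => Ec g (EH hg)) (by
      rintro _ ⟨a, ha, rfl⟩ _ ⟨b, hb, rfl⟩ c
      rw [comm_cn_left, cn_cn] at c
      rw [cn_eq_iff, cn_cn, w0 _ (mul_mem (inv_mem ha) hb) c]) (a := d) (b := cn k d)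
      ⟨1, one_mem _, by simp [cn]⟩ ⟨k, hk, rfl⟩
    have l : Op 3 (closure E) ≤ H := (Op_le _ _).trans ((closure_le _).2 EH)
    have nd : d ∈ normalizer (Op 3 (closure E) : Set G) :=
      le_normalizer_Op le_normalizer (subset_closure ⟨1, one_mem _, by simp [cn]⟩)
    exact mx ⟨CfsgH2.isPGroup_sup x1 (Op_isPGroup _ _) (.inr l), CfsgH2.mem_norm_sup x2 nd, mem_sup_left x3⟩ le_sup_left
      (mem_sup_right m)
  obtain ⟨P, hP⟩ := x1.exists_le_sylow
  have eP : (P : Subgroup G) = X := by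
    by_contra n
    have l := CfsgH2.lt_inf_norm P.isPGroup'.isNilpotent (lt_of_le_of_ne hP (Ne.symm n))
    refine l.not_ge (mx ⟨P.isPGroup'.to_inf_left, CfsgH2.mem_norm_of_conj fun y hy => ?_, l.le x3⟩ l.le)
    have := mul_mem (l.le (op y hy.2)) hy
    rw [h.ts.inv hd]
    simpa [cn, mul_assoc] using this
  refine ⟨P, (by rw [eP]; exact x2 : d ∈ normalizer ((P : Subgroup G) : Set G)), ?_⟩
  have nq : ∀ x ∈ D, QuotientGroup.mk' Q x ≠ 1 := fun x hx k => by
    obtain ⟨a, ha, na⟩ := h.exists_nc hD2 hx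
    obtain ⟨g, rfl⟩ := h.cls x hx a ha
    have m : x ∈ Q := (QuotientGroup.eq_one_iff x).1 k
    exact na (h.ts.comm_of_mem_two pQ hx ha (mul_mem m (cn_mem_normal g m)))
  have t := h.toTG.image (QuotientGroup.mk' Q) (QuotientGroup.mk'_surjective Q) nq
  rw [sup_assoc]
  refine sup_eq_top_of_mul_mem h.gen fun a ha => ?_
  have m := t.width_one (by
    rintro _ ⟨x, hx, rfl⟩ _ ⟨y, hy, rfl⟩ c
    have k : x * y ∈ Q := by
      by_cases c2 : Commute x y
      · exact V x hx y hy c2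
      have e1 := t.ts.sq_of_comm ⟨x, hx, rfl⟩ ⟨y, hy, rfl⟩ c
      have e2 := congrArg (QuotientGroup.mk' Q) (h.ts.cube hx hy c2)
      rw [map_pow, map_mul, pow_succ, e1, one_mul, map_one, ← map_mul] at e2
      exact (QuotientGroup.eq_one_iff _).1 e2
    rw [← h.ts.inv hx] at k
    exact QuotientGroup.eq.2 k) ⟨d, hd, rfl⟩ ⟨a, ha, rfl⟩
  have := pCore_le_sylow (P.mapSurjective (QuotientGroup.mk'_surjective Q)) m
  rw [← map_mul, Sylow.coe_mapSurjective, ← mem_comap, comap_map_eq, QuotientGroup.ker_mk'] at this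
  exact this

end Cfsg.Agent.S5356
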