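import Mathlib
import Cfsg.Statements.S5357
import Cfsg.Agent.H8.TV3

set_option autoImplicit false
open scoped MatrixGroups
open Cfsg

namespace Cfsg.Agent.S5357

open CfsgH8.TV CfsgH5 CfsgH5.CForm

/-- Let Q be a non-degenerate quadratic form on the n-dimensional coordinate space over the field with three elements, n ≥ 5, and c a non-zero scalar. In the subgroup of the isometry group of Q generated by the reflections in vectors v with Q(v) = c, these reflections form a single conjugacy class of 3-transpositions generating that subgroup. -/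
theorem result (n : ℕ) (hn : 5 ≤ n) (Q : QuadraticForm (ZMod 3) (Fin n → ZMod 3)) (hQ : (QuadraticMap.polarBilin Q).Nondegenerate) (c : ZMod 3) (hc : c ≠ 0) : Cfsg.IsThreeTranspositionClass {g : ↥(Cfsg.reflectionSubgroup (⇑Q) c) | (g : ↥(Cfsg.isometryGroup (ZMod 3) (⇑Q))) ∈ Cfsg.reflectionsOfNorm (⇑Q) c} := by
  have hf := ofQuad_nondeg hQ
  have hr : Module.finrank (ZMod 3) (Fin n → ZMod 3) = n := by simp
  obtain ⟨x, y, h⟩ := orth_exists_hyp hf (by omega)
  refine tv_class hf (((ofQuad Q).Isom.subtype.comp (orthEquiv Q).toMonoidHom).comp (reflectionSubgroup ⇑Q c).subtype)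
    ((Subtype.val_injective.comp (orthEquiv Q).injective).comp Subtype.val_injective) (fun s => (orthEquiv Q s).2)
    (k := c) (by simp) (fun β => ?_) (fun g => ⟨?_, ?_⟩) ?_ (fun d e hd he h1 h2 => ?_) fun g => ?_
  · simp only [FP.orth_ε, FP.orth_σ]
    clear hf h
    revert β c
    decide
  · rintro ⟨v, hv, hg⟩
    refine ⟨v, fun e => hc (by rw [← hv, e, map_zero]), ?_⟩
    have := isRefl_rf (f := ofQuad Q) (d := v) (by rw [ofQuad_Q, hv]; exact hc)
    rwa [← (orthEquiv_eq_rf Q _ v).2 hg, ofQuad_Q, hv] at this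
  · rintro ⟨v, -, hv⟩
    exact ⟨v, hv.hd.symm, (orthEquiv_eq_rf Q _ v).1 hv.eq_rf.2⟩
  · obtain ⟨v, hv⟩ := orth_universal hf (by omega) hc
    exact ⟨⟨_, Subgroup.subset_closure ⟨v, hv, orthEquiv_symm_rf Q v⟩⟩, v, hv, orthEquiv_symm_rf Q v⟩
  · obtain ⟨s, hs, a⟩ := h.exists_E_std hf (by omega) (d := d) (h1 ▸ hc)
    obtain ⟨t, ht, b⟩ := h.exists_E_std hf (by omega) (d := e) (h2 ▸ hc)
    have m := mul_mem (inv_mem ht) hs
    refine ⟨⟨(orthEquiv Q).symm ⟨_, E_le_Isom m⟩, E_le_R Q hf (by decide) (by simpa using hn) hc (by simpa using m)⟩,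
      1, by simp, ?_⟩
    have : t.symm (s d) = e := by rw [a, ← h1, h2, ← b, t.symm_apply_apply]
    simpa using this
  · exact ⟨g, (Subgroup.closure_closure_coe_preimage (k := reflectionsOfNorm ⇑Q c)).ge trivial, rfl⟩

end Cfsg.Agent.S5357
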