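import Cfsg.Statements.S5358
import Mathlib
import Cfsg.Agent.H9.Card

set_option autoImplicit false
open scoped MatrixGroups
open Cfsg

namespace Cfsg.Agent.S5358

/-- Let Q be a non-degenerate quadratic form on the n-dimensional coordinate space over the field with three elements and u, v vectors of the same non-zero norm Q(u) = Q(v) spanning different lines (v ≠ u and v ≠ −u). Then the reflection matrices of u and v commute if and only if u and v are orthogonal for the polar form of Q. -/
theorem result (n : ℕ) (Q : QuadraticForm (ZMod 3) (Fin n → ZMod 3)) (hQ : (QuadraticMap.polarBilin Q).Nondegenerate) (u v : Fin n → ZMod 3) (hu : Q u ≠ 0) (huv : Q u = Q v) (h1 : v ≠ u) (h2 : v ≠ -u) : Commute (Cfsg.reflectionMatrix (⇑Q) u) (Cfsg.reflectionMatrix (⇑Q) v) ↔ QuadraticMap.polar (⇑Q) u v = 0 := by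
  open Subgroup CfsgH9 in
  classical
  have dt : ∀ v x : Fin n → ZMod 3, Cfsg.polarVec Q v ⬝ᵥ x = QuadraticMap.polar Q v x := fun v x => by
    conv_rhs => rw [← QuadraticMap.polarBilin_apply_apply, pi_eq_sum_univ' x, map_sum]
    simp only [dotProduct, Cfsg.polarVec, map_smul, QuadraticMap.polarBilin_apply_apply, smul_eq_mul,
      mul_comm]
  have k : Commute (Cfsg.reflectionMatrix (⇑Q) u) (Cfsg.reflectionMatrix (⇑Q) v) ↔
      QuadraticMap.polar Q u v • Matrix.vecMulVec u (Cfsg.polarVec Q v) =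
        QuadraticMap.polar Q u v • Matrix.vecMulVec v (Cfsg.polarVec Q u) := by
    have c : (Q u)⁻¹ * (Q u)⁻¹ ≠ 0 := mul_ne_zero (inv_ne_zero hu) (inv_ne_zero hu)
    unfold Cfsg.reflectionMatrix
    rw [commute_iff_eq, ← huv]
    simp only [sub_mul, mul_sub, one_mul, mul_one, smul_mul_smul_comm, Matrix.vecMulVec_mul_vecMulVec,
      dt, QuadraticMap.polar_comm Q v u, Matrix.vecMulVec_smul]
    refine Iff.trans ?_ (smul_right_inj c)
    rw [← sub_eq_zero, ← sub_eq_zero (a := ((Q u)⁻¹ * (Q u)⁻¹) • _)]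
    apply iff_of_eq
    congr 1
    module
  rw [k]
  refine ⟨fun h => by_contra fun b => ?_, fun h => by rw [h, zero_smul, zero_smul]⟩
  have h3 := congrArg (fun M => M.mulVec u) ((smul_right_inj b).1 h)
  simp only [Matrix.vecMulVec_mulVec, dt, QuadraticMap.polar_self, QuadraticMap.polar_comm Q v u,
    op_smul_eq_smul] at h3
  have t : ∀ a b : ZMod 3, a ≠ 0 → b ≠ 0 → a = 2 • b ∨ a = - (2 • b) := by decide
  have t2 : ∀ b : ZMod 3, b ≠ 0 → 2 • b ≠ 0 := by decide
  rcases t _ _ b hu with e | e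
  · rw [e, smul_right_inj (t2 _ hu)] at h3
    exact h1 h3.symm
  · rw [e, neg_smul, ← smul_neg, smul_right_inj (t2 _ hu)] at h3
    exact h2 h3.symm

end Cfsg.Agent.S5358
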