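import Mathlib
import Cfsg.Statements.S5359
import Cfsg.Agent.H8.TV3

set_option autoImplicit false
open scoped MatrixGroups
open Cfsg

namespace Cfsg.Agent.S5359

open CfsgH8.TV CfsgH5 CfsgH5.CForm

/-- Let Q be a non-degenerate quadratic form on the n-dimensional coordinate space over the field with three elements, n odd and at least 5, and c a non-zero scalar. Then the subgroup of the isometry group of Q generated by the reflections in vectors of norm c has index 2 in the isometry group. -/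
theorem result (n : ℕ) (hn : 5 ≤ n) (hodd : Odd n) (Q : QuadraticForm (ZMod 3) (Fin n → ZMod 3)) (hQ : (QuadraticMap.polarBilin Q).Nondegenerate) (c : ZMod 3) (hc : c ≠ 0) : (Cfsg.reflectionSubgroup (⇑Q) c).index = 2 := by
  have hf := ofQuad_nondeg hQ
  have hr : Module.finrank (ZMod 3) (Fin n → ZMod 3) = n := by simp
  have h2 : (2 : ZMod 3) ≠ 0 := by decide
  have hs : (ofQuad Q).Split := split_of_two_ne h2
  have a : Omega (ZMod 3) ⇑Q ≤ reflectionSubgroup ⇑Q c := fun g hg => by
    refine E_le_R Q hf h2 (by simpa using hn) hc ?_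
    rw [← comm_eq_E hf hs (by omega), ← Subgroup.map_subtype_commutator]
    refine ⟨orthEquiv Q g, ?_, rfl⟩
    exact (QuotientGroup.eq_one_iff _).1 (Abelianization.commutator_subset_ker
      (Abelianization.of.comp (orthEquiv Q).toMonoidHom) hg)
  have b := Subgroup.index_dvd_of_le a
  have i4 : (Omega (ZMod 3) ⇑Q).index = 2 ^ 2 := (index_Omega Q).trans (index_commutator_four hf h2 (by omega))
  obtain ⟨θ, hθ, -⟩ := exists_spinor hf h2 (by omega)
  have key : ∀ s : (ofQuad Q).Isom →* ℤˣ, (∀ v, Q v = c → s ⟨_, rf_mem v⟩ = 1) →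
      (∀ v, Q v = -c → s ⟨_, rf_mem v⟩ ≠ 1) → (reflectionSubgroup ⇑Q c).index ≠ 1 := fun s h1 h3 e => by
    obtain ⟨v, hv⟩ := orth_universal hf (by omega) (neg_ne_zero.2 hc)
    have : reflectionSubgroup ⇑Q c ≤ (s.comp (orthEquiv Q).toMonoidHom).ker := (Subgroup.closure_le _).2 (by
      rintro g ⟨v, hv, hg⟩
      exact (congrArg s (Subtype.ext ((orthEquiv_eq_rf Q _ v).2 hg))).trans (h1 v hv))
    rw [Subgroup.index_eq_one.1 e] at this
    simpa using h3 v hv (by simpa using this (x := (orthEquiv Q).symm ⟨_, rf_mem v⟩) trivial)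
  have q1 : quadraticChar (ZMod 3) 1 = 1 := map_one _
  have q2 : quadraticChar (ZMod 3) 2 = -1 := by decide
  have n1 : (reflectionSubgroup ⇑Q c).index ≠ 1 := by
    have t1 : ∀ v, Q v = 1 → θ ⟨_, rf_mem v⟩ = 1 := fun v hv =>
      Units.ext ((hθ v (by rw [ofQuad_Q, hv]; decide)).trans (by rw [ofQuad_Q, hv, q1]; rfl))
    have t2 : ∀ v, Q v = 2 → θ ⟨_, rf_mem v⟩ = -1 := fun v hv =>
      Units.ext ((hθ v (by rw [ofQuad_Q, hv]; decide)).trans (by rw [ofQuad_Q, hv, q2]; rfl))
    obtain rfl | rfl : c = 1 ∨ c = 2 := by clear a b key; revert c; decide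
    · exact key θ t1 fun v hv => by rw [t2 v hv]; decide
    · refine key (θ * dick hf hs) (fun v hv => ?_) fun v hv => ?_
      · rw [MonoidHom.mul_apply, t2 v hv, dick_rf hf hs (by rw [ofQuad_Q, hv]; decide)]; decide
      · rw [MonoidHom.mul_apply, t1 v hv, dick_rf hf hs (by rw [ofQuad_Q, hv]; decide)]; decide
  have n4 : (reflectionSubgroup ⇑Q c).index ≠ 2 ^ 2 := fun e => by
    have a' : reflectionSubgroup ⇑Q c ≤ Omega (ZMod 3) ⇑Q := by
      have := Subgroup.relIndex_mul_index a
      rw [e, i4] at this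
      exact Subgroup.relIndex_eq_one.1 (by omega)
    obtain ⟨v, hv⟩ := orth_universal hf (by omega) hc
    have := Abelianization.commutator_subset_ker ((dick hf hs).comp (orthEquiv Q).toMonoidHom)
      (a' (Subgroup.subset_closure ⟨v, hv, orthEquiv_symm_rf Q v⟩))
    simp [dick_rf hf hs (hv ▸ hc)] at this
  rw [i4] at b
  obtain ⟨i, hi, e⟩ := (Nat.dvd_prime_pow Nat.prime_two).1 b
  interval_cases i
  exacts [absurd e n1, e, absurd e n4]

end Cfsg.Agent.S5359
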