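import Cfsg.Statements.S5361
import Cfsg.Agent.H1.TT3

set_option autoImplicit false
open Cfsg

namespace Cfsg.Agent.S5361

/-- Let D be a conjugacy class of 3-transpositions generating the finite group G, and suppose the centre of G is trivial and some two different members of D commute. Then the following are equivalent: (1) the commutator subgroup of G is simple (possibly of prime order); (2) G acts primitively on D by conjugation; (3) the largest normal 2-subgroup and the largest normal 3-subgroup of G are trivial and the commuting graph of D is connected. -/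
theorem result {G : Type*} [Group G] [Finite G] {D : Set G} (hD : Cfsg.IsThreeTranspositionClass D) (hZ : Subgroup.center G = ⊥) (hw : ∃ a ∈ D, ∃ b ∈ D, a ≠ b ∧ Commute a b) : (IsSimpleGroup (commutator G) ↔ Cfsg.IsPrimitiveUnderConj D) ∧ (Cfsg.IsPrimitiveUnderConj D ↔ (Cfsg.pCore 2 G = ⊥ ∧ Cfsg.pCore 3 G = ⊥ ∧ (Cfsg.commutingGraph D).Connected)) := by
  open Subgroup CfsgH1 in
  open CfsgH9 hiding card_inf_mul_relIndex card_lt_of_lt card_lt_of_ne_top card_map_mul_card_inf_ker card_mul_relIndex card_quotient_lt card_subgroupOf card_subgroupOf_of_le card_sup_dvd card_sup_mul_card_inf commutator_sup_le commutator_sup_le' isNilpotent_map isNilpotent_of_le isSolvable_map isSolvable_of_le le_normalizer_commutator le_normalizer_inf le_normalizer_map_subtype le_normalizer_sup le_pCore le_pPrimeCore mem_sup_of_le_normalizer mem_sup_of_le_normalizer' normalizer_le_normalizer_centralizer pCore_quotient_pCore pPrimeCore_quotient_pPrimeCore relIndex_map_subtype relIndex_sup_of_le_normalizer in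
  open scoped CfsgH9 in
  open scoped commutatorElement in
  · have h := TC.of hD
    have hn := TC.nontriv_of_wide hw
    haveI := layer_normal (G := G)
    refine ⟨⟨fun hs => (h.tp_of_qs hn.nonempty (qs_iff.2 (qs_top.1 (qs_of_simple fun hc => ?_)))).prim,
      fun hp => ?_⟩, fun hp => ?_, fun ⟨h2, h3, hc⟩ =>
        (h.tp_of_conn hw (h2 ▸ bot_le) (h3 ▸ bot_le) hc).prim⟩
    · obtain ⟨a, ha, b, hb, h1, h2⟩ := hw
      have m := h.mul_mem_commutator ha hb
      have hz : a * b ∈ center G := by
        refine mem_center_iff.2 fun g => ?_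
        have ht := sup_eq_top_of_mul_mem h.gen fun e he => h.mul_mem_commutator ha he
        obtain ⟨y, hy, z, hz, rfl⟩ := (mem_sup_of_normal_right ..).1 (ht.ge (mem_top g))
        refine Commute.mul_left ?_ (congrArg Subtype.val (hc.is_comm.comm ⟨z, hz⟩ ⟨_, m⟩))
        obtain ⟨k, rfl⟩ := hy
        exact ((Commute.refl a).mul_right h2).zpow_left k
      exact h1 (h.eq_of_mul_mem_center hn ha hb hz)
    · have hP : TP D := ⟨h, hp, hw⟩
      have e : commutator G = layer G := le_antisymm
        (commutator_le_of_zpowers_sup (h.sup_eq_top_of_index hn.nonempty.some_mem hP.index_le))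
        (hP.qs.perf.ge.trans (commutator_mono le_top le_top))
      rw [e]
      refine hP.qs.isSimpleGroup (eq_bot_iff.2 ?_)
      rw [← hZ]
      refine le_trans ?_ (h.Fit_le_center hP.two hP.three)
      exact center_le_Fit (Sn.of_normal_top _)
    · have hP : TP D := ⟨h, hp, hw⟩
      exact ⟨eq_bot_iff.2 (hZ ▸ hP.two), eq_bot_iff.2 (hZ ▸ hP.three), hP.connected⟩

end Cfsg.Agent.S5361
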