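import Cfsg.Statements.S5363
import Cfsg.Agent.H1.TT3

set_option autoImplicit false
open Cfsg

namespace Cfsg.Agent.S5363

/-- Let D be a conjugation-invariant set of involutions of a finite group G. Then every product of two members of D has odd order or order 2 if and only if, for every a in D and every b in D different from a and commuting with a, the members of D commuting with a b are exactly those commuting with both a and b. -/
theorem result {G : Type*} [Group G] [Finite G] {D : Set G} (hinv : ∀ d ∈ D, orderOf d = 2) (hconj : ∀ g : G, ∀ d ∈ D, g * d * g⁻¹ ∈ D) : (∀ a ∈ D, ∀ b ∈ D, Odd (orderOf (a * b)) ∨ orderOf (a * b) = 2) ↔ ∀ a ∈ D, ∀ b ∈ D, b ≠ a → Commute a b → {y : G | y ∈ D ∧ Commute (a * b) y} = {y : G | y ∈ D ∧ Commute a y} ∩ {y : G | y ∈ D ∧ Commute b y} := by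
  open Subgroup CfsgH1 in
  open CfsgH9 hiding card_inf_mul_relIndex card_lt_of_lt card_lt_of_ne_top card_map_mul_card_inf_ker card_mul_relIndex card_quotient_lt card_subgroupOf card_subgroupOf_of_le card_sup_dvd card_sup_mul_card_inf commutator_sup_le commutator_sup_le' isNilpotent_map isNilpotent_of_le isSolvable_map isSolvable_of_le le_normalizer_commutator le_normalizer_inf le_normalizer_map_subtype le_normalizer_sup le_pCore le_pPrimeCore mem_sup_of_le_normalizer mem_sup_of_le_normalizer' normalizer_le_normalizer_centralizer pCore_quotient_pCore pPrimeCore_quotient_pPrimeCore relIndex_map_subtype relIndex_sup_of_le_normalizer in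
  open scoped CfsgH9 in
  open scoped commutatorElement in
  · have hs := fun d hd => CfsgL0.inv_mul_self (hinv d hd)
    refine ⟨fun h a ha b hb hba hc => Set.ext fun y => ⟨fun hy => ?_, fun hy =>
      ⟨hy.1.1, hy.1.2.mul_left hy.2.2⟩⟩, fun h a ha b hb => ?_⟩
    · have key : ∀ a ∈ D, ∀ b ∈ D, a ≠ b → Commute (a * b) y → Commute a y := by
        intro a ha b hb hab hc
        by_contra hn
        have od : ∀ a ∈ D, ¬ Commute a y → Odd (orderOf (y * a)) := fun a ha hn =>
          (h y hy.1 a ha).resolve_right fun e => hn (TS.comm_of_sq (hs y hy.1) (hs a ha)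
            (by rw [← e, pow_orderOf_eq_one])).symm
        have e1 : cn a y = cn b y := by
          rw [cn_eq_iff, CfsgL0.inv_inv_eq (hinv a ha), cn_cn, cn_of_comm hc]
        have hn' : ¬ Commute b y := fun e => hn (by rwa [cn_of_comm e, cn_eq_self] at e1)
        refine hab (mul_left_cancel (CfsgL0.eq_of_sq_eq_of_odd (od a ha hn) (od b hb hn') ?_))
        simp only [cn, CfsgL0.inv_inv_eq (hinv a ha), CfsgL0.inv_inv_eq (hinv b hb), mul_assoc] at e1
        simp only [mul_assoc, e1]
      exact ⟨⟨hy.1, key a ha b hb hba.symm hy.2⟩, hy.1, key b hb a ha hba (hc.eq ▸ hy.2)⟩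
    rcases Nat.even_or_odd' (orderOf (a * b)) with ⟨m, hm | hm⟩
    swap
    · exact Or.inl ⟨m, hm⟩
    have hm0 : 0 < m := by have := orderOf_pos (a * b); omega
    obtain ⟨h1, h2, h3⟩ := CfsgL0.half_power (hs a ha) (hs b hb) hm0 hm
    have hD : a * (a * b) ^ m ∈ D := by
      rcases Nat.even_or_odd' m with ⟨j, rfl | rfl⟩
      · rw [← CfsgL0.conj_left_of_even (hs a ha) (hs b hb)]
        simpa using hconj ((a * b) ^ j)⁻¹ a ha
      · rw [← CfsgL0.conj_right_of_odd (hs a ha) (hs b hb)]
        simpa using hconj ((a * b) ^ j)⁻¹ b hb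
    have := h a ha _ hD (by simpa using CfsgL0.inv_ne_one h1) ((Commute.refl a).mul_right h2.symm)
    have hc : Commute a b := (this.le ⟨hb, by rwa [← mul_assoc, hs a ha, one_mul]⟩).1.2
    have h4 : orderOf (a * b) ∣ 2 := orderOf_dvd_of_pow_eq_one (by
      rw [hc.mul_pow, sq, sq, hs a ha, hs b hb, one_mul])
    have := Nat.le_of_dvd (by norm_num) h4
    right; omega

end Cfsg.Agent.S5363
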