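import Cfsg.Statements.S5364
import Cfsg.Agent.H1.TT3

set_option autoImplicit false
open Cfsg

namespace Cfsg.Agent.S5364

/-- Let D be a conjugation-invariant set of involutions of a finite group G and t an involution in the centre of G such that d t does not lie in D for any d in D. If the images of the members of D in G modulo the subgroup generated by t satisfy the 3-transposition order conditions (each has order 2 and any two have product of order at most 3), then so do the members of D. -/
theorem result {G : Type*} [Group G] [Finite G] {D : Set G} (hinv : ∀ d ∈ D, orderOf d = 2) (hconj : ∀ g : G, ∀ d ∈ D, g * d * g⁻¹ ∈ D) (t : G) (ht : orderOf t = 2) (htZ : t ∈ Subgroup.center G) (hDt : ∀ d ∈ D, d * t ∉ D) [(Subgroup.zpowers t).Normal] (himg : Cfsg.IsThreeTranspositionSet ((QuotientGroup.mk : G → G ⧸ Subgroup.zpowers t) '' D)) : Cfsg.IsThreeTranspositionSet D := by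
  open Subgroup CfsgH1 in
  open CfsgH9 hiding card_inf_mul_relIndex card_lt_of_lt card_lt_of_ne_top card_map_mul_card_inf_ker card_mul_relIndex card_quotient_lt card_subgroupOf card_subgroupOf_of_le card_sup_dvd card_sup_mul_card_inf commutator_sup_le commutator_sup_le' isNilpotent_map isNilpotent_of_le isSolvable_map isSolvable_of_le le_normalizer_commutator le_normalizer_inf le_normalizer_map_subtype le_normalizer_sup le_pCore le_pPrimeCore mem_sup_of_le_normalizer mem_sup_of_le_normalizer' normalizer_le_normalizer_centralizer pCore_quotient_pCore pPrimeCore_quotient_pPrimeCore relIndex_map_subtype relIndex_sup_of_le_normalizer in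
  open scoped CfsgH9 in
  open scoped commutatorElement in
  · have hs := fun d hd => CfsgL0.inv_mul_self (hinv d hd)
    have hi := fun d hd => CfsgL0.inv_inv_eq (hinv d hd)
    refine ⟨hinv, fun d hd e he => ?_⟩
    have := himg.2 _ ⟨d, hd, rfl⟩ _ ⟨e, he, rfl⟩
    rw [← QuotientGroup.mk_mul, ← QuotientGroup.mk_pow, ← QuotientGroup.mk_pow,
      QuotientGroup.eq_one_iff, QuotientGroup.eq_one_iff] at this
    refine this.imp (fun h => (eq_or_of_mem_zpowers ht h).resolve_left fun h => hDt d hd ?_)
      fun h => (eq_or_of_mem_zpowers ht h).resolve_left fun h => hDt _ (hconj d e he) ?_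
    · rw [← h, sq, ← mul_assoc, ← mul_assoc d d, hs d hd, one_mul, ← mul_assoc]
      simpa [hi e he] using hconj e d hd
    · have e1 : d * e * d⁻¹ * (d * e) ^ 3 = d * e * d⁻¹ * (d * e * d⁻¹) * (e * d * e⁻¹) := by
        simp [pow_succ, hi d hd, hi e he, mul_assoc]
      rw [← h, e1, hs _ (hconj d e he), one_mul]
      exact hconj e d hd

end Cfsg.Agent.S5364
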