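import Mathlib
import Cfsg.Statements.S5365
import Cfsg.Agent.H1.TT1
import Cfsg.Agent.H5.Sy2

set_option autoImplicit false
open Cfsg

namespace Cfsg.Agent.S5365

open Subgroup CfsgH1 Equiv

section
variable {G : Type*} [Group G] {D : Set G}

/-- The neighbours. -/
def Nb (D : Set G) (d : G) : Set G := {y : G | y ∈ D ∧ y ≠ d ∧ Commute d y}

/-- The hypotheses. -/
structure Hy (D : Set G) : Prop where
  ts : TS D
  cj : ∀ g : G, ∀ d ∈ D, cn g d ∈ D
  iso : ∀ d ∈ D, Nonempty (closure (Nb D d) ≃* Perm (Fin 3))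

variable {d a b x y u v w t : G}

theorem Nb.symm (hd : d ∈ D) (h : a ∈ Nb D d) : d ∈ Nb D a := ⟨hd, h.2.1.symm, h.2.2.symm⟩

theorem Hy.cnb (h : Hy D) (g : G) (ha : a ∈ Nb D d) : cn g a ∈ Nb D (cn g d) :=
  ⟨h.cj g a ha.1, fun e => ha.2.1 (cn_inj.1 e), commute_cn.2 ha.2.2⟩

theorem Hy.p12 (h : Hy D) (hd : d ∈ D) (ha : a ∈ Nb D d) (hb : b ∈ Nb D d) (n : a ≠ b) :
    ¬ Commute a b ∧ ∀ y ∈ Nb D d, y = a ∨ y = b ∨ y = cn a b := by
  obtain ⟨e⟩ := h.iso d hd
  have k : ∀ a b : Perm (Fin 3), a * a = 1 → b * b = 1 → a ≠ 1 → b ≠ 1 → a ≠ b →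
      a * b ≠ b * a ∧ ∀ y, y * y = 1 → y ≠ 1 → y = a ∨ y = b ∨ y = a * b * a⁻¹ := by decide +kernel
  have s : ∀ {y} (hy : y ∈ Nb D d), e ⟨y, subset_closure hy⟩ * e ⟨y, subset_closure hy⟩ = 1 ∧ e ⟨y, subset_closure hy⟩ ≠ 1 :=
    fun hy => ⟨by rw [← map_mul, map_eq_one_iff _ e.injective]; exact Subtype.ext (h.ts.sq hy.1), fun c =>
      h.ts.ne_one hy.1 (congrArg Subtype.val ((map_eq_one_iff _ e.injective).1 c))⟩
  obtain ⟨k1, k2⟩ := k _ _ (s ha).1 (s hb).1 (s ha).2 (s hb).2 fun c => n (congrArg Subtype.val (e.injective c))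
  refine ⟨fun c => k1 (by rw [← map_mul, ← map_mul]; exact congrArg e (Subtype.ext c)), fun y hy => ?_⟩
  have := k2 _ (s hy).1 (s hy).2
  rw [← map_inv, ← map_mul, ← map_mul] at this
  exact this.imp (fun c => congrArg Subtype.val (e.injective c)) (Or.imp (fun c => congrArg Subtype.val (e.injective c))
    fun c => congrArg Subtype.val (e.injective c))

theorem Hy.cen (h : Hy D) (hd : d ∈ D) (hx : x ∈ closure (Nb D d)) (c : ∀ y ∈ Nb D d, Commute x y) : x = 1 := by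
  obtain ⟨e⟩ := h.iso d hd
  have k : ∀ a : Perm (Fin 3), (∀ b, a * b = b * a) → a = 1 := by decide +kernel
  refine congrArg Subtype.val ((map_eq_one_iff _ e.injective).1 (k (e ⟨x, hx⟩) fun b => ?_))
  obtain ⟨b, rfl⟩ := e.surjective b
  rw [← map_mul, ← map_mul]
  exact congrArg e (Subtype.ext (comm_of_mem_closure c b.2))

theorem Hy.p3 (h : Hy D) (hd : d ∈ D) (a : G) : ∃ b ∈ Nb D d, b ≠ a := by
  by_contra! c
  obtain ⟨e⟩ := h.iso d hd
  have : ∀ x : closure (Nb D d), x = 1 := fun x => Subtype.ext (h.cen hd x.2 fun y hy =>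
    (comm_of_mem_closure (fun z hz => by rw [c y hy, c z hz]) x.2).symm)
  exact absurd (e.symm.injective ((this (e.symm (swap 0 1))).trans (this (e.symm 1)).symm)) (by decide)

theorem Hy.third (h : Hy D) (ha : a ∈ Nb D d) (hb : b ∈ Nb D d) : cn a b ∈ Nb D d := by
  simpa only [cn_of_comm' ha.2.2] using h.cnb a hb

theorem Hy.KL (h : Hy D) (hx : x ∈ D) (hu : u ∈ D) (n1 : ¬ Commute x u) (n2 : ∀ w ∈ Nb D u, ¬ Commute x w)
    (hv : v ∈ Nb D u) (hw : w ∈ Nb D u) : ∀ z ∈ Nb D x, cn (v * w) z ∈ Nb D x := by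
  have a1 : ∀ s ∈ Nb D u, cn s (cn u x) ∈ Nb D x := fun s hs =>
    ⟨h.cj _ _ (h.cj _ _ hx), h.ts.string_ne hs.1 hu hx hs.2.1 fun c => n2 s hs c.symm,
      h.ts.string_comm hs.1 hu hx hs.2.2.symm (fun c => n2 s hs c.symm) fun c => n1 c.symm⟩
  have a2 : ∀ s ∈ Nb D u, ∀ r ∈ Nb D u, cn s (cn u x) = cn r (cn u x) → s = r := fun s hs r hr e => by
    by_contra c
    rw [← h.ts.cn_eq hs.1 |>.symm.trans Iff.rfl, cn_cn, eq_comm, cn_eq_self] at e
    have := h.ts.comm_of_comm_mul hs.1 hr.1 (h.cj _ _ hx) c e.symm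
    rw [h.ts.comm_cn hu, cn_of_comm hs.2.2] at this
    exact n2 s hs this
  by_cases e : v = w
  · intro z hz
    rwa [e, h.ts.sq hw.1, cn_one]
  obtain ⟨p1, p2⟩ := h.p12 hu hv hw e
  have a3 : ∀ z ∈ Nb D x, ∃ s ∈ Nb D u, z = cn s (cn u x) := by
    obtain ⟨q1, q2⟩ := h.p12 hx (a1 v hv) (a1 w hw) fun c => e (a2 v hv w hw c)
    have r := h.third hv hw
    intro z hz
    rcases q2 z hz with rfl | rfl | rfl
    · exact ⟨v, hv, rfl⟩
    · exact ⟨w, hw, rfl⟩
    · rcases q2 _ (a1 _ r) with c | c | c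
      · exact absurd (by rw [a2 _ r v hv c]) (h.ts.nc_cn hv.1 p1)
      · exact absurd (by rw [a2 _ r w hw c]) (h.ts.nc_cn' hv.1 hw.1 p1)
      · exact ⟨_, r, c.symm⟩
  intro z hz
  obtain ⟨s, hs, rfl⟩ := a3 z hz
  rw [cn_cn]
  refine a1 _ ?_
  rcases p2 s hs with rfl | rfl | rfl
  · simpa only [cn_def, h.ts.inv hs.1] using h.third hs hw
  · rwa [mul_assoc, h.ts.sq hs.1, mul_one]
  · rw [h.ts.braid hv.1 hw.1 p1, cn_def, h.ts.inv hw.1, ← mul_assoc, ← mul_assoc, mul_assoc v, h.ts.sq hw.1, mul_one,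
      h.ts.sq hv.1, one_mul]
    exact hw

theorem Hy.fix (h : Hy D) (hx : x ∈ D) (h3 : t ^ 3 = 1) (hn : ∀ z ∈ Nb D x, cn t z ∈ Nb D x) (hv : v ∈ Nb D x)
    (hw : w ∈ Nb D x) : Commute t (v * w) := by
  by_cases e : v = w
  · rw [e, h.ts.sq hw.1]
    exact Commute.one_right t
  obtain ⟨p1, p2⟩ := h.p12 hx hv hw e
  have c3 : ∀ z, cn t (cn t (cn t z)) = z := fun z => by rw [cn_cn, cn_cn, ← pow_three', h3, cn_one]
  have n1 : cn v w ≠ v := fun c => h.ts.nc_cn hv.1 p1 (c.symm ▸ Commute.refl _)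
  have n2 : cn v w ≠ w := fun c => p1 (cn_eq_self.1 c)
  have e1 : w * cn v w = v * w := by
    rw [h.ts.braid hv.1 hw.1 p1, cn_def, h.ts.inv hw.1, ← mul_assoc, ← mul_assoc, h.ts.sq hw.1, one_mul]
  have e2 : cn v w * v = v * w := by rw [cn_def, inv_mul_cancel_right]
  have inj : ∀ {a b}, cn t a = cn t b → a = b := cn_inj.1
  rw [← cn_eq_self, cn_mul]
  have q1 := p2 _ (hn v hv)
  have q2 := p2 _ (hn w hw)
  have q3 := p2 _ (hn _ (h.third hv hw))
  have r1 := c3 v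
  have r2 := c3 w
  generalize cn v w = s at *
  rcases q1 with q1 | q1 | q1 <;> rcases q2 with q2 | q2 | q2 <;> rcases q3 with q3 | q3 | q3 <;> grind

theorem Hy.five (h : Hy D) (hd : d ∈ D) (ha : a ∈ Nb D d) (hb : b ∈ Nb D d) {e : G} (he : e ∈ Nb D a) (n : ¬ Commute e b) :
    Nonempty (closure D ≃* Perm (Fin 5)) := by
  have ab : a ≠ b := fun c => n (c ▸ he.2.2.symm)
  have de : d ≠ e := fun c => n (c ▸ hb.2.2)
  have n1 := (h.p12 ha.1 (Nb.symm hd ha) he de).1
  have n2 := (h.p12 hd hb ha ab.symm).1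
  have c : CoxA (fun i => [d, e, b, a].getD i 1) 4 :=
    { sq := fun i hi => by interval_cases i <;> simp [h.ts.sq, hd, he.1, hb.1, ha.1]
      br := fun i hi => by
        have : i < 3 := by omega
        interval_cases i
        · exact h.ts.braid' hd he.1 n1
        · exact h.ts.braid' he.1 hb.1 n
        · exact h.ts.braid' hb.1 ha.1 n2
      cm := fun i j h1 h2 => by
        have : i < 2 := by omega
        interval_cases i <;> interval_cases j
        exacts [hb.2.2, ha.2.2, he.2.2.symm] }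
  obtain ⟨φ, hφ⟩ := c.exists_hom
  have r := CoxA.range_hom hφ
  have f0 : φ (swap 0 1) = d := hφ 0 (by omega)
  have f1 : φ (swap 1 2) = e := hφ 1 (by omega)
  have inj : Function.Injective φ := by
    rw [← MonoidHom.ker_eq_bot_iff, ← φ.ker.normalCore_eq_self]
    refine CfsgH5.Sy.core_bot (by simp) _ fun c => h.ts.mul_ne_one hd de ?_
    rw [← f0, ← f1, ← map_mul]
    exact c (Perm.mem_alternatingGroup.2 (by simp))
  have m : ∀ i j, i ≠ j → φ (swap i j) ∈ D := fun i j c => by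
    obtain ⟨g, hg⟩ := isConj_iff.1 (Perm.isConj_swap (by decide : (0 : Fin 5) ≠ 1) c)
    rw [← hg, map_mul, map_mul, map_inv, f0]
    exact h.cj _ _ hd
  have m2 : ∀ i j k l : Fin 5, [i, j, k, l].Nodup → φ (swap k l) ∈ Nb D (φ (swap i j)) := fun i j k l c => by
    have : k ≠ l ∧ swap k l ≠ swap i j ∧ swap i j * swap k l = swap k l * swap i j := by
      revert i j k l
      decide +kernel
    exact ⟨m k l this.1, inj.ne this.2.1, Commute.map this.2.2 φ⟩
  have m3 : ∀ i j, i ≠ j → ∀ y ∈ Nb D (φ (swap i j)), ∃ k l, k ≠ l ∧ y = φ (swap k l) := fun i j c y hy => by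
    obtain ⟨k, l, o, c1, c2, c3, c4, c5, c6, c7⟩ : ∃ k l o : Fin 5, [i, j, k, l].Nodup ∧ [i, j, k, o].Nodup ∧
        swap k l ≠ swap k o ∧ k ≠ l ∧ k ≠ o ∧ l ≠ o ∧ swap k l * swap k o * (swap k l)⁻¹ = swap l o := by
      clear hy
      revert i j
      decide +kernel
    rcases (h.p12 (m i j c) (m2 _ _ _ _ c1) (m2 _ _ _ _ c2) (inj.ne c3)).2 y hy with rfl | rfl | rfl
    · exact ⟨k, l, c4, rfl⟩
    · exact ⟨k, o, c5, rfl⟩
    · exact ⟨l, o, c6, by rw [← map_cn, cn_def, c7]⟩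
  have top : closure D = φ.range := le_antisymm ((closure_le _).2 fun x hx => by_contra fun c => by
    have nc : ∀ i j, i ≠ j → ¬ Commute x (φ (swap i j)) := fun i j s t => by
      obtain ⟨k, l, -, rfl⟩ := m3 i j s x ⟨hx, fun q => c ⟨_, q.symm⟩, t.symm⟩
      exact c ⟨_, rfl⟩
    have kl : ∀ i j, i ≠ j → ∀ v ∈ Nb D (φ (swap i j)), ∀ w ∈ Nb D (φ (swap i j)), ∀ z ∈ Nb D x, cn (v * w) z ∈ Nb D x :=
      fun i j s v hv w hw => h.KL hx (m i j s) (nc i j s) (fun w hw => by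
        obtain ⟨k, l, q, rfl⟩ := m3 i j s w hw
        exact nc k l q) hv hw
    have s1 := m 0 1 (by decide)
    have s2 := m 2 3 (by decide)
    have s3 := m2 0 1 2 3 (by decide)
    have z : cn (φ (swap 2 3)) (cn (φ (swap 0 1)) x) ∈ Nb D x := ⟨h.cj _ _ (h.cj _ _ hx), h.ts.string_ne s2 s1 hx s3.2.1
      fun q => nc 2 3 (by decide) q.symm, h.ts.string_comm s2 s1 hx s3.2.2.symm (fun q => nc 2 3 (by decide) q.symm)
      fun q => nc 0 1 (by decide) q.symm⟩
    have := kl 3 4 (by decide) _ (m2 3 4 0 1 (by decide)) _ (m2 3 4 0 2 (by decide)) _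
      (kl 1 4 (by decide) _ (m2 1 4 0 2 (by decide)) _ (m2 1 4 2 3 (by decide)) _ z)
    rw [← cn_cn, ← cn_cn, h.ts.cn2 s2, h.ts.cn2 (m 0 2 (by decide)), h.ts.cn2 s1] at this
    exact this.2.1 rfl) (r ▸ closure_mono (by
      rintro _ ⟨i, (hi : i < 4), rfl⟩
      interval_cases i
      exacts [hd, he.1, hb.1, ha.1]))
  exact ⟨(MulEquiv.subgroupCongr top).trans (MonoidHom.ofInjective inj).symm⟩

end

/-- Let D be a non-empty conjugation-invariant set of involutions of a finite group G satisfying the 3-transposition order conditions, and suppose that for every d in D the members of D other than d commuting with d generate a subgroup isomorphic to the symmetric group of degree 3, and the largest normal 3-subgroup of the centralizer of d has order 3. Then the subgroup generated by D is isomorphic to the symmetric group of degree 5 or to the direct product of two symmetric groups of degree 3. -/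
theorem result {G : Type*} [Group G] [Finite G] {D : Set G} (hD : Cfsg.IsThreeTranspositionSet D) (hconj : ∀ g : G, ∀ d ∈ D, g * d * g⁻¹ ∈ D) (hne : D.Nonempty) (hloc : ∀ d ∈ D, Nonempty (↥(Subgroup.closure {y : G | y ∈ D ∧ y ≠ d ∧ Commute d y}) ≃* Equiv.Perm (Fin 3)) ∧ Nat.card (Cfsg.pCore 3 ↥(Subgroup.centralizer ({d} : Set G))) = 3) : Nonempty (↥(Subgroup.closure D) ≃* Equiv.Perm (Fin 5)) ∨ Nonempty (↥(Subgroup.closure D) ≃* Equiv.Perm (Fin 3) × Equiv.Perm (Fin 3)) := by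
  have h : Hy D := ⟨hD, hconj, fun d hd => (hloc d hd).1⟩
  refine or_iff_not_imp_left.2 fun n5 => ?_
  have H1 : ∀ {d a b e}, d ∈ D → a ∈ Nb D d → b ∈ Nb D d → e ∈ Nb D a → Commute e b := fun hd ha hb he =>
    by_contra fun c => n5 (h.five hd ha hb he c)
  let S := {t : G | ∃ u ∈ D, ∃ v ∈ Nb D u, ∃ w ∈ Nb D u, v * w = t}
  have s3 : ∀ t ∈ S, t ^ 3 = 1 := by
    rintro _ ⟨u, hu, v, hv, w, hw, rfl⟩
    by_cases e : v = w
    · rw [e, h.ts.sq hw.1, one_pow]
    · exact h.ts.cube hv.1 hw.1 (h.p12 hu hv hw e).1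
  have sn : ∀ t ∈ S, ∀ x ∈ D, ∀ z ∈ Nb D x, cn t z ∈ Nb D x := by
    rintro _ ⟨u, hu, v, hv, w, hw, rfl⟩ x hx z hz
    have k : Commute x v → Commute x w → cn (v * w) z ∈ Nb D x := fun a b => by
      simpa only [cn_of_comm' (a.mul_right b)] using h.cnb (v * w) hz
    have k2 : x ∈ Nb D u → cn (v * w) z ∈ Nb D x := fun a => by
      rwa [cn_of_comm' ((H1 hu a hv hz).mul_right (H1 hu a hw hz))]
    by_cases e : Commute x u
    · by_cases f : x = u
      · exact k (f ▸ hv.2.2) (f ▸ hw.2.2)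
      · exact k2 ⟨hx, f, e.symm⟩
    refine by_contra fun c => c (h.KL hx hu e (fun s hs f => c ?_) hv hw z hz)
    by_cases g : x = s
    · exact k2 (g ▸ hs)
    · exact k (H1 hu hs hv ⟨hx, g, f.symm⟩) (H1 hu hs hw ⟨hx, g, f.symm⟩)
  have sc : ∀ t ∈ S, ∀ r ∈ S, Commute t r := by
    rintro t ht _ ⟨u, hu, v, hv, w, hw, rfl⟩
    exact h.fix hu (s3 t ht) (sn t ht u hu) hv hw
  have vc : ∀ t ∈ closure S, ∀ r ∈ closure S, Commute t r := fun t ht r hr =>
    comm_of_mem_closure (fun a ha => (comm_of_mem_closure (sc a ha) ht).symm) hr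
  have v3 : ∀ t ∈ closure S, t ^ 3 = 1 := fun t ht => by
    induction ht using closure_induction with
    | mem t a => exact s3 t a
    | one => simp
    | mul a b c d e f => rw [(vc a c b d).mul_pow, e, f, one_mul]
    | inv a _ b => rw [inv_pow, b, inv_one]
  have vn : ∀ t ∈ closure S, ∀ x ∈ D, ∀ z ∈ Nb D x, cn t z ∈ Nb D x := fun t ht => by
    induction ht using closure_induction with
    | mem t a => exact sn t a
    | one => simp [cn_one]
    | mul a b _ _ e f => exact fun x hx z hz => cn_cn a b z ▸ e x hx _ (f x hx z hz)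
    | inv a b c =>
      rw [inv_eq_of_mul_eq_one_right (b := a * a) (by rw [← pow_three, v3 a b])]
      exact fun x hx z hz => cn_cn a a z ▸ c x hx _ (c x hx z hz)
  have vN : (closure S).Normal := normalizer_eq_top_iff.1 (top_unique fun g _ => mem_normalizer_closure (by
    rintro _ ⟨u, hu, v, hv, w, hw, rfl⟩
    exact ⟨_, h.cj g u hu, _, h.cnb g hv, _, h.cnb g hw, (cn_mul g v w).symm⟩))
  have inv1 : ∀ u ∈ D, ∀ w ∈ Nb D u, ∀ t ∈ closure S, Commute u t → cn w t = t⁻¹ := fun u hu w hw t ht c => by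
    obtain ⟨v, hv, ne⟩ := h.p3 hu w
    have a : (closure S).subgroupOf (centralizer {u}) ≤ pCore 3 _ :=
      le_sSup ⟨inferInstance, fun g => ⟨1, Subtype.ext (Subtype.ext (by simpa using v3 _ g.2))⟩⟩
    let r : centralizer ({u} : Set G) := ⟨v * w, mem_centralizer_singleton_iff.2 (hv.2.2.mul_right hw.2.2).symm⟩
    have b : zpowers r = pCore 3 _ := eq_of_le_of_card_ge (zpowers_le.2 (a (subset_closure ⟨u, hu, v, hv, w, hw, rfl⟩))) (by
      rw [(hloc u hu).2, Nat.card_zpowers, ← Subgroup.orderOf_coe, h.ts.o3 hv.1 hw.1 (h.p12 hu hv hw ne).1])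
    obtain ⟨k, hk⟩ := b.ge (a (show (⟨t, mem_centralizer_singleton_iff.2 c.symm⟩ : centralizer ({u} : Set G)) ∈ _ from ht))
    obtain rfl : (v * w) ^ k = t := congrArg Subtype.val hk
    rw [cn_def, ← conj_zpow, ← inv_zpow, ← mul_assoc, mul_inv_cancel_right, mul_inv_rev, h.ts.inv hv.1, h.ts.inv hw.1]
  have inv2 : ∀ u ∈ D, ∀ w ∈ Nb D u, ∀ t ∈ closure S, cn w (cn u t) = t⁻¹ := fun u hu w hw t ht => by
    have a := cn_mem_normal u ht
    have b := inv1 u hu w hw _ (mul_mem ht a) (cn_eq_self.1 (by rw [cn_mul, h.ts.cn2 hu, vc _ a _ ht]))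
    have c : cn w (t * (cn u t)⁻¹) = t * (cn u t)⁻¹ := by
      have d : t * (cn u t)⁻¹ = cn t u * u := by simp [cn_def, h.ts.inv hu, mul_assoc]
      rw [d]
      exact cn_of_comm ((vn t ht w hw.1 u (Nb.symm hu hw)).2.2.mul_right hw.2.2.symm)
    have a' := cn_mem_normal w a
    rw [cn_mul] at b
    rw [cn_mul, cn_inv] at c
    have e1 := v3 _ a'
    have e2 := v3 _ ht
    have f1 := vc _ a _ ht
    have f3 := vc _ a' _ ht
    generalize cn w (cn u t) = p at *
    generalize cn w t = q, cn u t = s at *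
    have g : (p * t) ^ 2 = 1 := by
      have g2 : p * p = t⁻¹ * t⁻¹ := calc
        p * p = (q * p⁻¹)⁻¹ * (q * p) := by group
        _ = s * t⁻¹ * s⁻¹ * t⁻¹ := by rw [b, c]; group
        _ = _ := by rw [f1.inv_right.eq]; group
      rw [f3.mul_pow, pow_two p, g2]
      group
    have g' : (p * t) ^ 3 = 1 := by rw [f3.mul_pow, e1, e2, one_mul]
    rw [pow_succ, g, one_mul] at g'
    exact eq_inv_of_mul_eq_one_left g'
  obtain ⟨d, hd⟩ := hne
  obtain ⟨a, ha, -⟩ := h.p3 hd 1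
  have da := Nb.symm hd ha
  have sub : D ⊆ Nb D d ∪ Nb D a := fun x hx => by_contra fun c => by
    have n1 : ¬ Commute a x := fun e => c (by_contra fun f => f (.inr ⟨hx, fun g => f (.inl (g ▸ ha)), e⟩))
    have n2 : ¬ Commute d x := fun e => c (by_contra fun f => f (.inl ⟨hx, fun g => f (.inr (g ▸ da)), e⟩))
    obtain ⟨b, hb, ne⟩ := h.p3 hd a
    have t : b * a ∈ closure S := subset_closure ⟨d, hd, b, hb, a, ha, rfl⟩
    have o := h.ts.o3 hb.1 ha.1 (h.p12 hd hb ha ne).1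
    generalize b * a = v at t o
    have i1 := inv2 x hx _ ⟨h.cj _ _ (h.cj _ _ hx), h.ts.string_ne ha.1 hd hx ha.2.1 n1,
      h.ts.string_comm ha.1 hd hx da.2.2 n1 n2⟩ v t
    have i2 := inv2 d hd a ha
    simp only [cn_cn a d] at i1 i2
    have i3 : cn (a * d)⁻¹ (cn x v) = (cn x v)⁻¹ := by
      rw [eq_comm, ← cn_eq_iff, cn_inv, i2 _ (cn_mem_normal x t), inv_inv]
    rw [cn_def (a * d), ← cn_cn, ← cn_cn, i3, ← cn_inv, h.ts.cn2 hx, i2 _ (inv_mem t), inv_inv] at i1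
    have := orderOf_dvd_of_pow_eq_one (show v ^ 2 = 1 by rw [pow_two, mul_eq_one_iff_eq_inv]; exact i1)
    rw [o] at this
    omega
  have cm : ∀ (u : closure (Nb D d)) (v : closure (Nb D a)), Commute ((closure (Nb D d)).subtype u)
      ((closure (Nb D a)).subtype v) := fun u v =>
    comm_of_mem_closure (fun e he => (comm_of_mem_closure (fun b hb => H1 hd ha hb he) u.2).symm) v.2
  have inj := (MonoidHom.noncommCoprod_injective _ _ cm).2 ⟨subtype_injective _, subtype_injective _, by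
    rw [range_subtype, range_subtype]
    exact disjoint_def.2 fun {x} b c => h.cen hd b fun y hy => (cm ⟨y, subset_closure hy⟩ ⟨x, c⟩).symm⟩
  have top : closure D = (MonoidHom.noncommCoprod _ _ cm).range := by
    rw [MonoidHom.noncommCoprod_range, range_subtype, range_subtype, ← Subgroup.closure_union]
    exact congrArg _ (sub.antisymm (Set.union_subset (fun _ b => b.1) fun _ b => b.1))
  obtain ⟨e1⟩ := h.iso d hd
  obtain ⟨e2⟩ := h.iso a ha.1
  exact ⟨((MulEquiv.subgroupCongr top).trans (MonoidHom.ofInjective inj).symm).trans (e1.prodCongr e2)⟩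

end Cfsg.Agent.S5365
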