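import Cfsg.Statements.S5366
import Mathlib
import Cfsg.Agent.H9.Fisch

set_option autoImplicit false
open Cfsg

namespace Cfsg.Agent.S5366

section
open Subgroup CfsgH9
open scoped commutatorElement

section
open CfsgH9.Fi Cfsg.LineSystem
variable {X : Type*} {L : Set (Set X)}
theorem thr (hL : IsFischerSpace L) {l : Set X} (hl : l ∈ L) {x y : X} (hx : x ∈ l) (hy : y ∈ l)
    (n : x ≠ y) : ∃ z, z ≠ x ∧ z ≠ y ∧ l = {x, y, z} := by
  obtain ⟨a, b, c, h1, h2, h3, rfl⟩ := Set.ncard_eq_three.1 (hL.2.1 l hl)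
  rcases hx with rfl | rfl | rfl <;> rcases hy with rfl | rfl | rfl <;> try exact absurd rfl n
  · exact ⟨c, h2.symm, h3.symm, rfl⟩
  · exact ⟨b, h1.symm, h3, by rw [Set.pair_comm]⟩
  · exact ⟨c, h3.symm, h2.symm, by rw [Set.insert_comm]⟩
  · exact ⟨a, h1, h2, by ext; simp only [Set.mem_insert_iff, Set.mem_singleton_iff]; tauto⟩
  · exact ⟨b, h3, h1.symm, by ext; simp only [Set.mem_insert_iff, Set.mem_singleton_iff]; tauto⟩
  · exact ⟨a, h2, h1, by ext; simp only [Set.mem_insert_iff, Set.mem_singleton_iff]; tauto⟩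
theorem lm (hL : IsFischerSpace L) {x y z : X} (h : ({x, y, z} : Set X) ∈ L) (h1 : z ≠ x) (h2 : z ≠ y)
    (n : x ≠ y) : lineMap L x y = z := by
  have k : ∃ z : X, z ≠ x ∧ z ≠ y ∧ x ≠ y ∧ ({x, y, z} : Set X) ∈ L := ⟨z, h1, h2, n, h⟩
  unfold lineMap
  rw [dif_pos k]
  have := hL.1 _ h _ k.choose_spec.2.2.2 x y n (by simp) (by simp) (by simp) (by simp)
  have m : z ∈ ({x, y, k.choose} : Set X) := this ▸ by simp
  rcases m with m | m | m
  exacts [absurd m h1, absurd m h2, m.symm]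
theorem cs (L : Set (Set X)) (x y : X) : (lineMap L x y = y ∧ ∀ z, z ≠ x → z ≠ y → x ≠ y →
    ({x, y, z} : Set X) ∉ L) ∨ ∃ z : X, z ≠ x ∧ z ≠ y ∧ x ≠ y ∧ ({x, y, z} : Set X) ∈ L := by
  by_cases k : ∃ z : X, z ≠ x ∧ z ≠ y ∧ x ≠ y ∧ ({x, y, z} : Set X) ∈ L
  · exact .inr k
  · exact .inl ⟨dif_neg k, fun z a b c d => k ⟨z, a, b, c, d⟩⟩
theorem l0 (L : Set (Set X)) (x : X) : lineMap L x x = x := by
  rcases cs L x x with h | ⟨z, -, -, h, -⟩
  exacts [h.1, absurd rfl h]
theorem inv (hL : IsFischerSpace L) (x : X) : Function.Involutive (lineMap L x) := fun y => by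
  rcases cs L x y with h | ⟨z, h1, h2, h3, h⟩
  · rw [h.1, h.1]
  · rw [lm hL h h1 h2 h3]
    exact lm hL (Set.pair_comm y z ▸ h) h3.symm h2.symm h1.symm
theorem mdl (hL : IsFischerSpace L) {S : Set X} (hS : IsSubspace L S) {P : Type} {M : Set (Set P)}
    {T : P → P → P} (h : Md M T) (hi : Isomorphic (restrict L S) M) {x : X} (hx : x ∈ S) {m : Set X}
    (hm : m ∈ L) (hs : m ⊆ S) : lineMap L x '' m ∈ L := by
  obtain ⟨e, he⟩ := hi
  have k : ∀ y : S, lineMap L x y = e.symm (T (e ⟨x, hx⟩) (e y)) := fun y => by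
    rcases cs L x y with c | ⟨z, h1, h2, h3, c⟩
    · by_cases n : T (e ⟨x, hx⟩) (e y) = e y
      · rw [n, c.1, e.symm_apply_apply]
      obtain ⟨l, hl, ls, el⟩ := (he (e.symm '' _)).2 (by
        rw [e.image_symm_image]; exact (h.hM _).2 ⟨_, _, n, rfl⟩)
      simp only [Set.image_insert_eq, Set.image_singleton, e.symm_apply_apply] at el
      refine absurd (?_ : _ ∈ L) (c.2 (e.symm (T (e ⟨x, hx⟩) (e y))) (fun k => (h.ne n).2 ?_)
        (fun k => n ?_) fun k => (h.ne n).1 (congrArg e (Subtype.ext k.symm)))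
      · convert hl
        ext z
        refine ⟨?_, fun hz => ?_⟩
        · rintro (rfl | rfl | rfl)
          exacts [(el.le (.inr (.inl rfl)) :), (el.le (.inl rfl) :), (el.le (.inr (.inr rfl)) :)]
        · rcases el.ge (show (⟨z, ls hz⟩ : S) ∈ _ from hz) with k | k | k
          exacts [.inr (.inl (congrArg Subtype.val k)), .inl (congrArg Subtype.val k),
            .inr (.inr (congrArg Subtype.val k))]
      · exact e.symm_apply_eq.1 (Subtype.ext k)
      · exact e.symm_apply_eq.1 (Subtype.ext k)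
    · have ls := hS _ c x hx y y.2 h3 (by simp) (by simp)
      obtain ⟨p, q, n, el⟩ := (h.hM _).1 ((he _).1 ⟨_, c, ls, rfl⟩)
      have mz : z ∈ S := ls (by simp)
      rw [lm hL c h1 h2 h3, h.lin p q _ _ n (el.le ⟨⟨x, hx⟩, by simp, rfl⟩) (el.le ⟨y, by simp, rfl⟩)
        (fun k => h3 (congrArg Subtype.val (e.injective k))) _ (el.le ⟨⟨z, mz⟩, by simp, rfl⟩)
        (fun k => h1 (congrArg Subtype.val (e.injective k)))
        (fun k => h2 (congrArg Subtype.val (e.injective k))), e.symm_apply_apply]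
  obtain ⟨l, hl, ls, el⟩ := (he (e.symm '' _)).2 (by
    rw [e.image_symm_image]; exact h.img (e ⟨x, hx⟩) ((he _).1 ⟨_, hm, hs, rfl⟩))
  convert hl
  ext z
  constructor
  · rintro ⟨y, hy, rfl⟩
    rw [k ⟨y, hs hy⟩]
    exact el.le ⟨_, ⟨_, ⟨⟨y, hs hy⟩, hy, rfl⟩, rfl⟩, rfl⟩
  · intro hz
    obtain ⟨_, ⟨_, ⟨y, hy, rfl⟩, rfl⟩, f⟩ := el.ge (show (⟨z, ls hz⟩ : S) ∈ _ from hz)
    exact ⟨y, hy, (k y).trans (congrArg Subtype.val f)⟩
theorem img (hL : IsFischerSpace L) (x : X) {m : Set X} (hm : m ∈ L) : lineMap L x '' m ∈ L := by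
  by_cases c : ∀ y ∈ m, lineMap L x y = y
  · rwa [Set.image_congr c, Set.image_id']
  push Not at c
  obtain ⟨y, hy, c⟩ := c
  obtain k | ⟨z, h1, h2, h3, k⟩ := cs L x y
  · exact absurd k.1 c
  by_cases e : {x, y, z} = m
  · subst e
    rw [Set.image_insert_eq, Set.image_insert_eq, Set.image_singleton, l0, ← lm hL k h1 h2 h3, inv hL,
      lm hL k h1 h2 h3, Set.pair_comm]
    exact k
  rcases hL.2.2 _ k _ hm e ⟨y, by simp, hy⟩ with i | i
  · exact mdl hL (span_sub _) md2 i (sub_span _ (.inl (by simp))) hm fun _ h => sub_span _ (.inr h)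
  · exact mdl hL (span_sub _) md3 i (sub_span _ (.inl (by simp))) hm fun _ h => sub_span _ (.inr h)
theorem cnj (hL : IsFischerSpace L) (w x y : X) :
    lineMap L w (lineMap L x y) = lineMap L (lineMap L w x) (lineMap L w y) := by
  have j := (inv hL w).injective
  obtain k | ⟨z, h1, h2, h3, k⟩ := cs L x y
  · obtain k' | ⟨z, h1, h2, h3, k'⟩ := cs L (lineMap L w x) (lineMap L w y)
    · rw [k.1, k'.1]
    · have := img hL w k'
      rw [Set.image_insert_eq, Set.image_insert_eq, Set.image_singleton, inv hL, inv hL] at this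
      exact absurd this (k.2 _ (fun e => h1 (by rw [← e, inv hL])) (fun e => h2 (by rw [← e, inv hL]))
        fun e => h3 (by rw [e]))
  · have := img hL w k
    rw [Set.image_insert_eq, Set.image_insert_eq, Set.image_singleton] at this
    rw [lm hL k h1 h2 h3, lm hL this (j.ne h1) (j.ne h2) (j.ne h3)]
end

end

/-- Let L be a nondegenerate Fischer space on the point type X (every point on a line). Then for every point x the map t(x) — sending a point collinear with x to the third point of their common line and fixing every other point — is a permutation of X of order 2 and an automorphism of the line system; and the set of all t(x) satisfies the 3-transposition order conditions in the permutation group of X (any two have product of order at most 3). -/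
theorem result {X : Type*} (L : Set (Set X)) (hL : Cfsg.IsFischerSpace L) (hnd : Cfsg.LineSystem.IsNondegenerate L) : (∀ x : X, ∃ σ : Equiv.Perm X, ⇑σ = Cfsg.LineSystem.lineMap L x ∧ orderOf σ = 2 ∧ Cfsg.LineSystem.IsIso L L σ) ∧ Cfsg.IsThreeTranspositionSet {σ : Equiv.Perm X | ∃ x : X, ⇑σ = Cfsg.LineSystem.lineMap L x} := by
  open Subgroup CfsgH9 in
  have o : ∀ x (σ : Equiv.Perm X), ⇑σ = Cfsg.LineSystem.lineMap L x → orderOf σ = 2 := fun x σ h => by
    haveI : Fact (Nat.Prime 2) := ⟨Nat.prime_two⟩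
    refine orderOf_eq_prime (Equiv.ext fun y => ?_) fun e => ?_
    · rw [pow_two, Equiv.Perm.mul_apply, h]; exact inv hL x y
    · obtain ⟨l, hl, hx⟩ := hnd x
      obtain ⟨y, hy, n⟩ := Set.exists_ne_of_one_lt_ncard (by rw [hL.2.1 l hl]; norm_num) x
      obtain ⟨z, h1, h2, rfl⟩ := thr hL hl hx hy n.symm
      exact h2 (by rw [← lm hL hl h1 h2 n.symm, ← h, e]; rfl)
  refine ⟨fun x => ⟨(inv hL x).toPerm, rfl, o x _ rfl, fun l => ⟨img hL x, fun h => ?_⟩⟩, ?_, ?_⟩
  · have := img hL x h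
    rwa [Function.Involutive.coe_toPerm, Set.image_image, Set.image_congr fun y _ => inv hL x y,
      Set.image_id'] at this
  · rintro d ⟨x, h⟩
    exact o x d h
  · rintro d ⟨x, hd⟩ e ⟨y, he⟩
    obtain k | ⟨z, h1, h2, h3, k⟩ := cs L x y
    · refine .inl (Equiv.ext fun w => ?_)
      simp only [pow_two, Equiv.Perm.mul_apply, hd, he, Equiv.Perm.one_apply]
      rw [cnj hL x y, k.1, inv hL, inv hL]
    · refine .inr (Equiv.ext fun w => ?_)
      simp only [pow_succ, pow_zero, one_mul, Equiv.Perm.mul_apply, hd, he, Equiv.Perm.one_apply]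
      rw [cnj hL x y, inv hL, cnj hL y x, inv hL, lm hL k h1 h2 h3,
        lm hL (Set.insert_comm x y _ ▸ k) h2 h1 h3.symm, inv hL]

end Cfsg.Agent.S5366
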