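import Cfsg.Statements.S5367
import Mathlib
import Cfsg.Agent.H9.Fisch

set_option autoImplicit false
open Cfsg

namespace Cfsg.Agent.S5367

section
open Subgroup CfsgH9
open scoped commutatorElement

section
open CfsgH9.Fi Cfsg.LineSystem
variable {G : Type*} [Group G] {D : Set G}
def cj (hD : IsThreeTranspositionGroup D) (x y : D) : D := ⟨x * y * x.1⁻¹, hD.2.1 _ _ y.2⟩
variable (hD : IsThreeTranspositionGroup D)
include hD
theorem c0 (x : D) : cj hD x x = x := Subtype.ext (mul_inv_cancel_right _ _)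
theorem c1 (x y : D) : cj hD x (cj hD x y) = y := Subtype.ext (by
  simp only [cj, iv hD.1 x.2, mul_assoc, cc hD.1 x.2, Fi.sq hD.1 x.2, mul_one])
theorem c2 (x y z : D) : cj hD x (cj hD y z) = cj hD (cj hD x y) (cj hD x z) :=
  Subtype.ext (by simp only [cj]; group)
theorem c3 {x y : D} (n : ¬ Commute x.1 y.1) : cj hD x y = cj hD y x :=
  Subtype.ext (br hD.1 x.2 y.2 n)
theorem c4 {x y : D} : Commute x.1 y.1 ↔ cj hD x y = y :=
  ⟨fun h => Subtype.ext (by simp only [cj]; rw [h.eq, mul_inv_cancel_right]),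
    fun h => mul_inv_eq_iff_eq_mul.1 (congrArg Subtype.val h)⟩
theorem c5 {x y z : D} (h : cj hD x y = z) : cj hD x z = y := by rw [← h, c1]
theorem c6 {x y : D} (z : D) (n : ¬ Commute x.1 y.1) : ¬ Commute (cj hD z x).1 (cj hD z y).1 :=
  fun h => n ((Commute.conj_iff _).1 h)
def p2 : DualAffinePoint := ⟨{1, 2}, rfl⟩
def q2 : DualAffinePoint := ⟨{0, 1}, rfl⟩
def r2 : DualAffinePoint := ⟨{2, 3}, rfl⟩
def i2 (z : DualAffinePoint) : Fin 6 :=
  if z = p2 then 0 else if z = q2 then 1 else if z = r2 then 2 else if z = T2 q2 p2 then 3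
  else if z = T2 r2 p2 then 4 else 5
theorem dual {a b c : D} (h1 : ¬ Commute a.1 b.1) (h2 : ¬ Commute a.1 c.1) (h3 : Commute b.1 c.1)
    (n : b ≠ c) : Isomorphic (restrict (threeTranspositionLines D) (span (threeTranspositionLines D)
      (ln D a b ∪ ln D a c))) dualAffinePlaneTwo := by
  let v : Fin 6 → D := ![a, b, c, cj hD b a, cj hD c a, cj hD b (cj hD c a)]
  have e1 := c3 hD h1
  have e2 := c3 hD h2
  have e3 := (c4 hD).1 h3
  have e4 := (c4 hD).1 h3.symm
  have e5 : cj hD c (cj hD b a) = cj hD b (cj hD c a) := by rw [c2 hD c b, e4]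
  have k : ∀ (w : DualAffinePoint) (t : Fin 6 → Fin 6), (∀ z, i2 (T2 w z) = t (i2 z)) →
      (∀ i, cj hD (v (i2 w)) (v i) = v (t i)) → ∀ z, ((v ∘ i2) (T2 w z) : G) =
        (v ∘ i2) w * (v ∘ i2) z * ((v ∘ i2) w : G)⁻¹ := fun w t h h' z => by
    simp only [Function.comp, h, ← h']; rfl
  refine gen hD md2 (v ∘ i2) p2 q2 r2 (fun z hz => ?_) (k _ ![0, 3, 4, 1, 2, 5] (by decide +kernel) ?_)
    (k _ ![3, 1, 2, 0, 5, 4] (by decide +kernel) ?_) (k _ ![4, 1, 2, 5, 0, 3] (by decide +kernel) ?_)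
    fun A hp hq hr h z => ?_
  · refine (by decide +kernel : ∀ z, i2 z = 0 → z = p2) z ?_
    change v (i2 z) = a at hz
    generalize i2 z = i at hz
    fin_cases i
    · rfl
    · exact absurd (hz ▸ Commute.refl _) h1
    · exact absurd (hz ▸ Commute.refl _) h2
    · exact absurd ((c4 hD).2 hz).symm h1
    · exact absurd ((c4 hD).2 hz).symm h2
    · have := c5 hD hz
      rw [← e1, ← e2] at this
      exact absurd (by rw [← c1 hD a b, this, c1]) n
  · have : cj hD a (cj hD b (cj hD c a)) = cj hD b (cj hD c a) := by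
      rw [c2, e1, c5 hD e2, ← e3, ← c2, e2, e3]
    intro i
    fin_cases i
    exacts [c0 hD _, e1, e2, c5 hD e1, c5 hD e2, this]
  · intro i
    fin_cases i
    exacts [rfl, c0 hD _, e3, c1 hD _ _, rfl, c1 hD _ _]
  · intro i
    fin_cases i
    exacts [rfl, e4, c0 hD _, e5, c1 hD _ _, c5 hD e5]
  · rcases (by decide +kernel : ∀ z, z = p2 ∨ z = q2 ∨ z = r2 ∨ z = T2 q2 p2 ∨ z = T2 r2 p2 ∨
      z = T2 q2 (T2 r2 p2)) z with rfl | rfl | rfl | rfl | rfl | rfl
    exacts [hp, hq, hr, h _ hp _ hq, h _ hp _ hr, h _ (h _ hp _ hr) _ hq]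
def i3 (z : Fin 2 → ZMod 3) : Fin 9 :=
  if z = 0 then 0 else if z = ![1, 0] then 1 else if z = ![0, 1] then 2 else if z = ![2, 0] then 3
  else if z = ![0, 2] then 4 else if z = ![2, 2] then 5 else if z = ![2, 1] then 6
  else if z = ![1, 2] then 7 else 8
theorem nd {a b c : D} (h3 : ¬ Commute b.1 c.1) (h4 : ¬ Commute (cj hD b a).1 c.1) :
    ¬ Commute a.1 (cj hD c b).1 := fun h => h4 (by
  have := (c4 hD).1 h.symm
  rw [← c3 hD h3, ← c1 hD b a, ← c2] at this
  have e := c5 hD this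
  rw [c1] at e
  exact ((c4 hD).2 e.symm).symm)
theorem aff {a b c : D} (h1 : ¬ Commute a.1 b.1) (h2 : ¬ Commute a.1 c.1) (h3 : ¬ Commute b.1 c.1)
    (h4 : ¬ Commute (cj hD b a).1 c.1) : Isomorphic (restrict (threeTranspositionLines D)
      (span (threeTranspositionLines D) (ln D a b ∪ ln D a c))) affinePlaneThree := by
  let v : Fin 9 → D := ![a, b, c, cj hD b a, cj hD c a, cj hD c b, cj hD (cj hD c a) b,
    cj hD c (cj hD b a), cj hD (cj hD c a) (cj hD b a)]
  have e1 := c3 hD h1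
  have e2 := c3 hD h2
  have e3 := c3 hD h3
  have h5 := c6 hD a h4
  rw [c5 hD e1, e2] at h5
  have e4 := c3 hD h5
  have h6 := nd hD h3 h4
  have e5 := c3 hD h6
  have h7 : ¬ Commute a.1 (cj hD c (cj hD b a)).1 := nd hD h4 (by
    rwa [← c3 hD (x := a) fun h => h1 ?_, c5 hD e1]
    have := (c4 hD).1 h
    rw [c5 hD e1] at this
    exact ((c4 hD).2 (by rw [← this, ← c1 hD b a, ← this, c0])).symm)
  have e6 : cj hD a (cj hD c b) = cj hD (cj hD c a) (cj hD b a) := by rw [c2, e1, e2]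
  have e7 : cj hD a (cj hD (cj hD c a) b) = cj hD c (cj hD b a) := by rw [c2, c5 hD e2, e1]
  have e8 : cj hD b (cj hD c (cj hD b a)) = cj hD (cj hD c a) (cj hD b a) := by
    rw [c2, c1, e3, ← e5, e6]
  have e9 : cj hD c (cj hD (cj hD c a) b) = cj hD (cj hD c a) (cj hD b a) := by rw [c2, c1, e6]
  have k : ∀ (w : Fin 2 → ZMod 3) (t : Fin 9 → Fin 9), (∀ z, i3 (T3 w z) = t (i3 z)) →
      (∀ i, cj hD (v (i3 w)) (v i) = v (t i)) → ∀ z, ((v ∘ i3) (T3 w z) : G) =
        (v ∘ i3) w * (v ∘ i3) z * ((v ∘ i3) w : G)⁻¹ := fun w t h h' z => by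
    simp only [Function.comp, h, ← h']; rfl
  refine gen hD md3 (v ∘ i3) 0 ![1, 0] ![0, 1] (fun z hz => ?_)
    (k _ ![0, 3, 4, 1, 2, 8, 7, 6, 5] (by decide +kernel) ?_)
    (k _ ![3, 1, 5, 0, 6, 2, 4, 8, 7] (by decide +kernel) ?_)
    (k _ ![4, 5, 2, 7, 0, 1, 8, 3, 6] (by decide +kernel) ?_) fun A hp hq hr h z => ?_
  · refine (by decide +kernel : ∀ z, i3 z = 0 → z = 0) z ?_
    change v (i3 z) = a at hz
    generalize i3 z = i at hz
    fin_cases i
    · rfl
    · exact absurd (hz ▸ Commute.refl _) h1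
    · exact absurd (hz ▸ Commute.refl _) h2
    · exact absurd ((c4 hD).2 hz).symm h1
    · exact absurd ((c4 hD).2 hz).symm h2
    · exact absurd (hz ▸ Commute.refl _) h6
    · exact absurd (by rw [← e7, show cj hD (cj hD c a) b = a from hz, c0]) h7
    · exact absurd (by rw [show cj hD c (cj hD b a) = a from hz]) h7
    · exact absurd (by rw [← c5 hD e6, show cj hD (cj hD c a) (cj hD b a) = a from hz, c0]) h6
  · intro i
    fin_cases i
    exacts [c0 hD _, e1, e2, c5 hD e1, c5 hD e2, e6, e7, c5 hD e7, c5 hD e6]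
  · intro i
    fin_cases i
    exacts [rfl, c0 hD _, e3, c1 hD _ _, e4, c5 hD e3, c5 hD e4, e8, c5 hD e8]
  · intro i
    fin_cases i
    exacts [rfl, rfl, c0 hD _, rfl, c1 hD _ _, c1 hD _ _, e9, c1 hD _ _, c5 hD e9]
  · have h3 := h _ hp _ hq
    have h4 := h _ hp _ hr
    have h5 := h _ hq _ hr
    have h6 := h _ hq _ h4
    rcases (by decide +kernel : ∀ z : Fin 2 → ZMod 3, z = 0 ∨ z = ![1, 0] ∨ z = ![0, 1] ∨
      z = T3 ![1, 0] 0 ∨ z = T3 ![0, 1] 0 ∨ z = T3 ![0, 1] ![1, 0] ∨ z = T3 (T3 ![0, 1] 0) ![1, 0] ∨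
      z = T3 0 (T3 ![0, 1] ![1, 0]) ∨ z = T3 0 (T3 (T3 ![0, 1] 0) ![1, 0])) z with
      rfl | rfl | rfl | rfl | rfl | rfl | rfl | rfl | rfl
    exacts [hp, hq, hr, h3, h4, h5, h6, h _ h5 _ hp, h _ h6 _ hp]
theorem oth {l : Set D} (hl : l ∈ threeTranspositionLines D) {a : D} (ha : a ∈ l) :
    ∃ b : D, ¬ Commute a.1 b.1 ∧ l = ln D a b := by
  obtain ⟨x, y, n, rfl⟩ := hl
  by_cases e : a = x
  · exact ⟨y, e ▸ n, e ▸ rfl⟩
  · exact ⟨x, ln_eq hD n ha (.inl rfl) e⟩
end

end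

/-- Let D be a conjugation-invariant generating set of 3-transpositions of a finite group G. Then the line system on D whose lines are the triples {x, y, y x y⁻¹} for non-commuting members x, y of D is a Fischer space: two points lie on at most one line, lines have three points, and two different meeting lines generate a subspace isomorphic to the dual affine plane of order two or to the affine plane of order three. -/
theorem result {G : Type*} [Group G] [Finite G] {D : Set G} (hD : Cfsg.IsThreeTranspositionGroup D) : Cfsg.IsFischerSpace (Cfsg.threeTranspositionLines D) := by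
  open Subgroup CfsgH9 in
  open CfsgH9.Fi in
  refine ⟨?_, ?_, fun l hl m hm n ⟨a, h1, h2⟩ => ?_⟩
  · rintro _ ⟨x, y, n, rfl⟩ _ ⟨z, w, k, rfl⟩ a b ne h1 h2 h3 h4
    exact (ln_eq hD n h1 h2 ne).2.trans (ln_eq hD k h3 h4 ne).2.symm
  · rintro _ ⟨x, y, n, rfl⟩
    refine Set.ncard_eq_three.2 ⟨x, y, cj hD y x, fun e => n (e ▸ Commute.refl _),
      fun e => n ((c4 hD).2 e.symm).symm, fun e => n ?_, Set.ext fun z => ?_⟩
    · rw [← c3 hD n] at e
      exact (c4 hD).2 e.symm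
    · simp only [Set.mem_setOf_eq, Set.mem_insert_iff, Set.mem_singleton_iff, ← Subtype.val_inj, cj]
  obtain ⟨b, nb, rfl⟩ := oth hD hl h1
  obtain ⟨c, nc, rfl⟩ := oth hD hm h2
  by_cases k : Commute b.1 c.1
  · exact .inl (dual hD nb nc k fun e => n (e ▸ rfl))
  by_cases k2 : Commute (cj hD b a).1 c.1
  · obtain ⟨u, v⟩ := ln_eq hD nb (a := a) (b := cj hD b a) (.inl rfl) (.inr (.inr rfl))
      fun e => nb ((c4 hD).2 e.symm).symm
    rw [v] at n ⊢
    exact .inl (dual hD u nc k2 fun e => n (e ▸ rfl))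
  · exact .inr (aff hD nb nc k k2)

end Cfsg.Agent.S5367
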