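import Cfsg.Statements.S5392
import Mathlib
import Cfsg.Agent.H7.Lee.Cfg

set_option autoImplicit false
open Cfsg

namespace Cfsg.Agent.S5392

open CfsgH7 CfsgH7.Lee

/-- The Leech lattice modulo twice itself is a faithful irreducible module for the first Conway group: an automorphism of the rank-24 lattice built from the length-24 code that moves every lattice vector only by twice a lattice vector lies in the centre of the automorphism group (the centre consists of ±1, which act trivially there, so the kernel is exactly the centre), and an additive subgroup lying between twice the lattice and the lattice that is invariant under all lattice automorphisms is one of the two. -/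
theorem result : (∀ g : ↥Cfsg.Co0, (∀ v : ↥Cfsg.leechLattice, ∃ w : ↥Cfsg.leechLattice, ((g • v : ↥Cfsg.leechLattice) : Cfsg.GolayPt → ℤ) - (v : Cfsg.GolayPt → ℤ) = 2 • (w : Cfsg.GolayPt → ℤ)) → g ∈ Subgroup.center ↥Cfsg.Co0) ∧ ∀ M : AddSubgroup (Cfsg.GolayPt → ℤ), (∀ v ∈ Cfsg.leechLattice, (2 : ℤ) • v ∈ M) → M ≤ Cfsg.leechLattice → (∀ g : ↥Cfsg.Co0, ∀ v : ↥Cfsg.leechLattice, (v : Cfsg.GolayPt → ℤ) ∈ M → ((g • v : ↥Cfsg.leechLattice) : Cfsg.GolayPt → ℤ) ∈ M) → (∀ x ∈ M, ∃ w ∈ Cfsg.leechLattice, x = (2 : ℤ) • w) ∨ M = Cfsg.leechLattice := by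
  refine ⟨fun g h => pm_all fun v hv => ?_, fun M h1 h2 h3 => ?_⟩
  · by_contra hc
    rw [not_or] at hc
    obtain ⟨w, e⟩ := h v
    have := pairL (x := v) (y := g • v) (by rw [show sqNorm (v : V) = 32 from hv]; norm_num)
      (by rw [g_norm, show sqNorm (v : V) = 32 from hv]; norm_num)
      (cong_iff.2 ⟨-w, (-w).2, by rw [smul_neg, ← e, neg_sub]⟩) hc.1 hc.2
    rw [show sqNorm (v : V) = 32 from hv] at this
    omega
  by_contra hc
  rw [not_or] at hc
  obtain ⟨hc, hM⟩ := hc
  push Not at hc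
  obtain ⟨x, hx, hn⟩ := hc
  obtain ⟨y, hy, e⟩ := shortL.1 ⟨x, h2 hx⟩
  obtain ⟨z, hz, e⟩ := cong_iff.1 e
  rw [two_nsmul, ← two_zsmul] at e
  have yM : (y : V) ∈ M := by
    have := M.sub_mem hx (h1 z hz)
    rwa [← e, sub_sub_cancel] at this
  have y0 : (y : V) ≠ 0 := fun e' => hn z hz (by rw [← e, e', sub_zero])
  have k32 : ∀ a : Λ, a ∈ Mn → (a : V) ∉ M := fun a ha h => hM (le_antisymm h2 (le_of_min fun b hb n => by
    obtain ⟨c, e⟩ := tr32 ha (y := ⟨b, hb⟩) n
    have := h3 c a h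
    rwa [e] at this))
  have a1 := min32 y.2 y0
  have a2 := dvd16 y.2
  have : sqNorm (y : V) = 32 ∨ sqNorm (y : V) = 48 ∨ sqNorm (y : V) = 64 := by omega
  rcases this with h | h | h
  · exact k32 y h yM
  · obtain ⟨c, rfl⟩ := tr48 h
    obtain ⟨k, b1, -⟩ := swapH
    have b2 := h3 c⁻¹ _ yM
    rw [inv_smul_smul] at b2
    have b3 := h3 k _ b2
    rw [b1] at b3
    exact k32 (-uW) (neg_Mn.2 nW) (by simpa using M.add_mem b3 b2)
  · obtain ⟨c, rfl⟩ := tr64 h
    obtain ⟨k, b1⟩ := tr64 (x := f8 (Gol.px 23) - qo) (by decide +kernel)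
    have b2 := h3 c⁻¹ _ yM
    rw [inv_smul_smul] at b2
    have b3 := h3 k _ b2
    rw [b1] at b3
    exact k32 qo (show _ = _ by decide +kernel) (by simpa using M.sub_mem b2 b3)

end Cfsg.Agent.S5392
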