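import Cfsg.Statements.S5396
import Cfsg.Agent.H1.XB

set_option autoImplicit false
open Cfsg

namespace Cfsg.Agent.S5396

/-- For every n ≥ 1 there exist finite extraspecial 2-groups of order 2^(2n+1) whose 2-rank (the largest rank of an elementary abelian subgroup) is n, and ones whose 2-rank is n + 1 (so for each such order there are two non-isomorphic extraspecial 2-groups, told apart by their 2-rank). -/
theorem result (n : ℕ) (hn : 1 ≤ n) : ∀ r ∈ ({n, n + 1} : Set ℕ), ∃ (E : Type) (_ : Group E) (_ : Finite E), Cfsg.IsExtraspecial 2 E ∧ Nat.card E = 2 ^ (2 * n + 1) ∧ sSup {k : ℕ | ∃ A : Subgroup E, Cfsg.IsElementaryAbelian 2 A ∧ Nat.card A = 2 ^ k} = r := by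
  open Subgroup CfsgH2 in
  open CfsgH1 hiding SS card_inf_mul_relIndex card_lt_of_lt card_lt_of_ne_top card_map_mul_card_inf_ker card_mul_relIndex card_subgroupOf card_sup_dvd card_sup_mul_card_inf coprime_le_sup_cent exists_card_prime_le isNilpotent_map isNilpotent_of_le isPGroup_pCore isSolvable_map isSolvable_of_le le_pCore le_pPrimeCore relIndex_map_dvd in
  open scoped CfsgH1 in
  open scoped commutatorElement in
  · obtain ⟨m, rfl⟩ : ∃ m, n = m + 1 := ⟨n - 1, by omega⟩
    have key : ∀ {E : Type} [Group E], sSup {k : ℕ | ∃ A : Subgroup E, IsElementaryAbelian 2 A ∧ Nat.card A = 2 ^ k} = prk 2 (⊤ : Subgroup E) :=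
      congrArg sSup (Set.ext fun k => ⟨fun ⟨A, h, c⟩ => ⟨A, le_top, h, c⟩, fun ⟨A, _, h⟩ => ⟨A, h.1, h.2⟩⟩)
    rintro r (rfl | rfl)
    · have x := XB.xz (XB.bm_nd m)
      refine ⟨XB (XB.bm m), _, inferInstance, extraspecial_top_iff.2 ⟨x.wx, x.nab⟩, XB.bm_card m, key.trans ((x.wx.prk_cases (card_top.trans (XB.bm_card m))).resolve_left fun h => ?_).2⟩
      exact (XB.bm_DD m).not_ge (h.1 ▸ by positivity)
    · have x := XB.xz (XB.bp_nd (m + 1))
      refine ⟨XB (XB.bp (m + 1)), _, inferInstance, extraspecial_top_iff.2 ⟨x.wx, x.nab⟩, XB.bp_card _, key.trans ((x.wx.prk_cases (card_top.trans (XB.bp_card _))).resolve_right fun h => ?_).2⟩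
      exact (XB.bp_DD m).not_ge (h.1 ▸ neg_nonpos.2 (by positivity))

end Cfsg.Agent.S5396
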