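import Cfsg.Statements.S5420
import Cfsg.Agent.H1.LX

set_option autoImplicit false
open Cfsg

namespace Cfsg.Agent.S5420

/-- Let Q be an extraspecial 2-subgroup of the finite group G whose centralizer in G is its centre Z and which is normal in the centralizer of Z. If Z lies in the largest normal 2-subgroup of G, then Q is a large extraspecial 2-subgroup of G: it normalizes no non-trivial subgroup of G of odd order. -/
theorem result {G : Type*} [Group G] [Finite G] (Q : Subgroup G) (hL1 : Cfsg.IsExtraspecial 2 ↥Q) (hL2 : Subgroup.centralizer (Q : Set G) = ((Subgroup.center ↥Q).map Q.subtype)) (hL3 : Subgroup.centralizer (((Subgroup.center ↥Q).map Q.subtype) : Set G) ≤ Subgroup.normalizer (Q : Set G)) (hZ : ((Subgroup.center ↥Q).map Q.subtype) ≤ Cfsg.pCore 2 G) : Cfsg.IsLargeExtraspecial Q := by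
  open Subgroup CfsgH2 in
  open CfsgH1 hiding card_inf_mul_relIndex card_lt_of_lt card_lt_of_ne_top card_map_mul_card_inf_ker card_mul_relIndex card_subgroupOf card_sup_dvd card_sup_mul_card_inf coprime_le_sup_cent exists_card_prime_le isNilpotent_map isNilpotent_of_le isPGroup_pCore isSolvable_map isSolvable_of_le le_pCore le_pPrimeCore relIndex_map_dvd in
  open scoped CfsgH1 in
  open CfsgL0 hiding cj cj_injective comm_zpowers_le conj_mem_of_mem_normalizer conj_mem_of_mem_normalizer' isPGroup_of_forall isPGroup_zpowers isPGroup_zpowers_of_orderOf mem_normalizer_of_conj_mem sec_sub in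
  open scoped CfsgL0 in
  open scoped commutatorElement in
  · obtain ⟨z, h⟩ := exists_lx hL1 hL2 hL3
    rw [h.center_eq] at hZ
    refine h.large fun K ho hn => h.odd_bot ho hn (cent_zpowers z ▸ commutator_eq_bot_iff_le_centralizer.1 (eq_bot_iff.2 (le_trans (le_inf
      (comm_le_left (h.zp_le.trans hn)) ((commutator_mono le_rfl hZ).trans (commutator_le_right _ _)))
      (inf_eq_bot_of_coprime' (coprime_of_pgroup (CfsgH1.isPGroup_pCore 2) ho.not_two_dvd_nat).symm).le)))

end Cfsg.Agent.S5420
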