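import Cfsg.Statements.S5421
import Cfsg.Agent.H1.LX

set_option autoImplicit false
open Cfsg

namespace Cfsg.Agent.S5421

/-- Let Q be an extraspecial 2-subgroup of the finite group G whose centralizer in G is its centre Z and which is normal in the centralizer of Z. If some involution b of Q outside Z has Z inside the largest normal 2-subgroup of the centralizer of b, then Q is a large extraspecial 2-subgroup of G. -/
theorem result {G : Type*} [Group G] [Finite G] (Q : Subgroup G) (hL1 : Cfsg.IsExtraspecial 2 ↥Q) (hL2 : Subgroup.centralizer (Q : Set G) = ((Subgroup.center ↥Q).map Q.subtype)) (hL3 : Subgroup.centralizer (((Subgroup.center ↥Q).map Q.subtype) : Set G) ≤ Subgroup.normalizer (Q : Set G)) (b : G) (hbQ : b ∈ Q) (hbZ : b ∉ ((Subgroup.center ↥Q).map Q.subtype)) (hb : orderOf b = 2) (hZ : ((Subgroup.center ↥Q).map Q.subtype) ≤ (Cfsg.pCore 2 ↥(Subgroup.centralizer ({b} : Set G))).map (Subgroup.centralizer ({b} : Set G)).subtype) : Cfsg.IsLargeExtraspecial Q := by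
  open Subgroup CfsgH2 in
  open CfsgH1 hiding card_inf_mul_relIndex card_lt_of_lt card_lt_of_ne_top card_map_mul_card_inf_ker card_mul_relIndex card_subgroupOf card_sup_dvd card_sup_mul_card_inf coprime_le_sup_cent exists_card_prime_le isNilpotent_map isNilpotent_of_le isPGroup_pCore isSolvable_map isSolvable_of_le le_pCore le_pPrimeCore relIndex_map_dvd in
  open scoped CfsgH1 in
  open CfsgL0 hiding cj cj_injective comm_zpowers_le conj_mem_of_mem_normalizer conj_mem_of_mem_normalizer' isPGroup_of_forall isPGroup_zpowers isPGroup_zpowers_of_orderOf mem_normalizer_of_conj_mem sec_sub in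
  open scoped CfsgL0 in
  open scoped commutatorElement in
  · obtain ⟨z, h⟩ := exists_lx hL1 hL2 hL3
    rw [h.center_eq] at hZ hbZ
    exact h.large_of_core hbQ hbZ (mul_self_of_two hb) (map_pCore_subtype (p := 2) (M := C1[b]) ▸ hZ (mem_zpowers z))

end Cfsg.Agent.S5421
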