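import Cfsg.Statements.S5422
import Cfsg.Agent.H1.LX

set_option autoImplicit false
open Cfsg

namespace Cfsg.Agent.S5422

/-- Let Q be an extraspecial 2-subgroup of the finite group G whose centralizer in G is its centre Z and which is normal in the centralizer of Z; suppose Q has width at least 2 (order 2^(2w+1) with w ≥ 2) and g is an element of G not normalizing Z with g Z g⁻¹ inside Q. Then Z lies inside g Q g⁻¹; writing V for the subgroup generated by Z and g Z g⁻¹ (a four-group), the normalizer of V induces on V its full automorphism group, that is, the centralizer of V has index 6 in the normalizer of V; and Q is a large extraspecial 2-subgroup of G. -/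
theorem result {G : Type*} [Group G] [Finite G] (Q : Subgroup G) (hL1 : Cfsg.IsExtraspecial 2 ↥Q) (hL2 : Subgroup.centralizer (Q : Set G) = ((Subgroup.center ↥Q).map Q.subtype)) (hL3 : Subgroup.centralizer (((Subgroup.center ↥Q).map Q.subtype) : Set G) ≤ Subgroup.normalizer (Q : Set G)) (w : ℕ) (hw : 2 ≤ w) (hcard : Nat.card ↥Q = 2 ^ (2 * w + 1)) (g : G) (hg : g ∉ Subgroup.normalizer (((Subgroup.center ↥Q).map Q.subtype) : Set G)) (hZg : (((Subgroup.center ↥Q).map Q.subtype)).map (MulAut.conj g).toMonoidHom ≤ Q) : ((Subgroup.center ↥Q).map Q.subtype) ≤ (Q).map (MulAut.conj g).toMonoidHom ∧ (Subgroup.centralizer ((((Subgroup.center ↥Q).map Q.subtype) ⊔ (((Subgroup.center ↥Q).map Q.subtype)).map (MulAut.conj g).toMonoidHom : Subgroup G) : Set G)).relIndex (Subgroup.normalizer ((((Subgroup.center ↥Q).map Q.subtype) ⊔ (((Subgroup.center ↥Q).map Q.subtype)).map (MulAut.conj g).toMonoidHom : Subgroup G) : Set G)) = 6 ∧ Cfsg.IsLargeExtraspecial Q := by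
  open Subgroup CfsgH2 in
  open CfsgH1 hiding card_inf_mul_relIndex card_lt_of_lt card_lt_of_ne_top card_map_mul_card_inf_ker card_mul_relIndex card_subgroupOf card_sup_dvd card_sup_mul_card_inf coprime_le_sup_cent exists_card_prime_le isNilpotent_map isNilpotent_of_le isPGroup_pCore isSolvable_map isSolvable_of_le le_pCore le_pPrimeCore relIndex_map_dvd in
  open scoped CfsgH1 in
  open CfsgL0 hiding cj cj_injective comm_zpowers_le conj_mem_of_mem_normalizer conj_mem_of_mem_normalizer' isPGroup_of_forall isPGroup_zpowers isPGroup_zpowers_of_orderOf mem_normalizer_of_conj_mem sec_sub in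
  open scoped CfsgL0 in
  open scoped commutatorElement in
  · obtain ⟨z, h⟩ := exists_lx hL1 hL2 hL3
    rw [h.center_eq, cj_def, MonoidHom.map_zpowers, cj_apply] at *
    have hx := zpowers_le.1 hZg
    have h' := h.map_cj g
    have hz := h.symm hx
    have x1 : g * z * g⁻¹ ∉ zpowers z := fun e => hg (mem_norm_zpowers e)
    generalize Q.map (cj g) = R at h' hz
    generalize g * z * g⁻¹ = x at *
    have z1 : z ∉ zpowers x := fun e => ((mem_zp2 h'.ord).1 e).elim (ne_one_of_two h.ord) fun e => x1 (e ▸ mem_zpowers _)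
    refine ⟨zpowers_le.2 hz, idx_six ?_ le_rfl fun c => ?_, h.large_of_core hx x1 (mul_self_of_two h'.ord)
      (le_piCoreOf h'.le_c1 h'.norm (isPGroup_iff_piN.1 h'.pg) hz)⟩
    · rw [card_sup_zpowers_prime Nat.prime_two ((norm_zp2 h.ord).ge (h.le_c1 hx)) (by rw [← h'.ord, pow_orderOf_eq_one]; exact one_mem _) x1,
        Nat.card_zpowers, h.ord]
    · obtain ⟨a, ha, e1⟩ := h.exists_conj hx x1
      obtain ⟨k, hk, e2⟩ := h'.exists_conj hz z1
      have := mem_cent_iff.1 (c (commutator_mem_commutator (inv_mem (h.le_norm (mem_sup_left (mem_zpowers z)) (sup_le h.zp_le hZg) ha))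
        (inv_mem (h'.le_norm (mem_sup_right (mem_zpowers x)) (sup_le (zpowers_le.2 hz) h'.zp_le) hk)))) _ (mem_sup_left (mem_zpowers z))
      have e3 := mem_c1.1 (h.le_c1 ha)
      have : z * x * z = x * z := by
        calc z * x * z = a * x * a⁻¹ * (z * a) * a⁻¹ := by rw [e1]; group
          _ = a * (k * z * k⁻¹) * a⁻¹ := by rw [← e3, e2]; group
          _ = k * a * (⁅a⁻¹, k⁻¹⁆ * z) * k⁻¹ * a⁻¹ := by group
          _ = k * (a * z) * a⁻¹ * k⁻¹ := by rw [← this]; group
          _ = _ := by rw [e3, ← e2]; group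
      exact ne_one_of_two h.ord (by simpa using this)

end Cfsg.Agent.S5422
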