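import Cfsg.Statements.S5426
import Cfsg.Agent.H1.LX3

set_option autoImplicit false
open Cfsg

namespace Cfsg.Agent.S5426

section
open Subgroup CfsgH2
open CfsgH1 hiding SS card_inf_mul_relIndex card_lt_of_lt card_lt_of_ne_top card_map_mul_card_inf_ker card_mul_relIndex card_subgroupOf card_sup_dvd card_sup_mul_card_inf coprime_le_sup_cent exists_card_prime_le isNilpotent_map isNilpotent_of_le isPGroup_pCore isSolvable_map isSolvable_of_le le_pCore le_pPrimeCore relIndex_map_dvd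
open scoped CfsgH1
open scoped commutatorElement

theorem uq {G : Type*} [Group G] {L : Subgroup G} (hL : L ⊓ C[L] = ⊥) {a b c d : G} (ha : a ∈ L) (hb : b ∈ C[L]) (hc : c ∈ L) (hd : d ∈ C[L]) (e : a * b = c * d) : a = c :=
  (inv_mul_eq_one.1 (mem_bot.1 (hL.le (mem_inf.2 ⟨mul_mem (inv_mem hc) ha, by
    rw [show c⁻¹ * a = d * b⁻¹ by rw [inv_mul_eq_iff_eq_mul, ← mul_assoc, ← e, mul_inv_cancel_right]]; exact mul_mem hd (inv_mem hb)⟩)))).symm

end

/-- Let Q be a large extraspecial 2-subgroup of the finite group G (extraspecial; centralizer equal to its centre; normal in the centralizer of its centre; normalizing no non-trivial subgroup of odd order) with centre generated by z, and let M be the normal closure of z in G. Then one of the following holds: Q is normal in G; or M is abelian and the generalized Fitting subgroup of G is its largest normal 2-subgroup; or M is the generalized Fitting subgroup of G and is a non-abelian simple group; or M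 is the generalized Fitting subgroup of G and is the direct product of a non-abelian simple subgroup L and its conjugate u L u⁻¹ by some u in Q (the two meet trivially and commute elementwise), with z = z₁ (u z₁ u⁻¹) for some z₁ in L whose centralizer in L is a Sylow 2-subgroup of L with Frattini subgroup inside the subgroup generated by z₁, and Q is not the largest normal 2-subgroup of the centralizer of z. -/
theorem result {G : Type*} [Group G] [Finite G] (Q : Subgroup G) (hQ : Cfsg.IsLargeExtraspecial Q) (z : G) (hz : ((Subgroup.center ↥Q).map Q.subtype) = Subgroup.zpowers z) (M : Subgroup G) (hM : M = Subgroup.normalClosure ({z} : Set G)) : Q.Normal ∨ (IsMulCommutative ↥M ∧ Cfsg.generalizedFittingSubgroup G = Cfsg.pCore 2 G) ∨ (M = Cfsg.generalizedFittingSubgroup G ∧ IsSimpleGroup ↥M ∧ ¬ IsMulCommutative ↥M) ∨ (M = Cfsg.generalizedFittingSubgroup G ∧ ∃ (L : Subgroup G) (u : G), u ∈ Q ∧ IsSimpleGroup ↥L ∧ ¬ IsMulCommutative ↥L ∧ L ⊓ (L).map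 (MulAut.conj u).toMonoidHom = ⊥ ∧ (∀ x ∈ L, ∀ y ∈ (L).map (MulAut.conj u).toMonoidHom, x * y = y * x) ∧ L ⊔ (L).map (MulAut.conj u).toMonoidHom = M ∧ ∃ z₁ ∈ L, z = z₁ * (u * z₁ * u⁻¹) ∧ (∃ R : Sylow 2 ↥L, (R : Subgroup ↥L) = (Subgroup.centralizer ({z₁} : Set G)).subgroupOf L ∧ (frattini ↥(R : Subgroup ↥L)).map ((L.subtype).comp (R : Subgroup ↥L).subtype) ≤ Subgroup.zpowers z₁) ∧ Q ≠ (Cfsg.pCore 2 ↥(Subgroup.centralizer ({z} : Set G))).map (Subgroup.centralizer ({z} : Set G)).subtype) := by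
  open Subgroup CfsgH2 in
  open CfsgH1 hiding SS card_inf_mul_relIndex card_lt_of_lt card_lt_of_ne_top card_map_mul_card_inf_ker card_mul_relIndex card_subgroupOf card_sup_dvd card_sup_mul_card_inf coprime_le_sup_cent exists_card_prime_le isNilpotent_map isNilpotent_of_le isPGroup_pCore isSolvable_map isSolvable_of_le le_pCore le_pPrimeCore relIndex_map_dvd in
  open scoped CfsgH1 in
  open scoped commutatorElement in
  · haveI : Fact (Nat.Prime 2) := ⟨Nat.prime_two⟩
    have h := lx_of_large hQ hz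
    haveI : M.Normal := hM ▸ inferInstance
    have mn : ∀ X : Subgroup G, ⊤ ≤ N[X] → X ≠ ⊥ → M ≤ X := fun X n k => by
      haveI := normalizer_eq_top_iff.1 (eq_top_iff.2 n)
      exact hM ▸ normalClosure_le_normal (Set.singleton_subset_iff.2 (h.mem_of_norm hQ k (le_top.trans n)))
    have zM : z ∈ M := hM ▸ subset_normalClosure (Set.mem_singleton z)
    have nc : ∀ {K : Subgroup G}, CfsgH9.Comp K ⊤ → z ∉ C[K] := fun {K} hK k => by
      have l := (commutator_eq_bot_iff_le_centralizer.1 (hK.comm_of_solvable le_top ((le_cent1_iff.2 k).trans h.norm) (by haveI := h.pg.isNilpotent; infer_instance))).trans h.cent_eq.le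
      exact hK.ne_bot (hK.perf.symm.trans (commutator_eq_bot_iff_le_centralizer.2 (le_cent_self (isMulComm_of_le inferInstance l))))
    refine Or.inr ?_
    by_cases ab : IsMulCommutative M
    · refine Or.inl ⟨ab, CfsgH9.chP_top_iff.1 (CfsgH9.chP_iff.2 ⟨CfsgH9.Lay_eq_bot_iff.2 fun K hK => nc hK (le_centralizer_iff.1 (commutator_eq_bot_iff_le_centralizer.1
        (hK.comm_of_solvable le_top le_normalizer_of_normal (CfsgH9.isSolvable_of_comm_bot (commutator_eq_bot_iff_le_centralizer.2 (le_cent_self ab))))) zM),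
        hQ.2.2.2 _ (Nat.coprime_two_right.1 (CfsgH9.Opp_coprime 2 ⊤)) (CfsgH9.le_normalizer_Opp le_normalizer_of_normal)⟩)⟩
    have zb : ∀ X : Subgroup G, ⊤ ≤ N[X] → X ⊓ C[X] = ⊥ := fun X n => not_not.1 fun k => by
      have l := mn _ ((le_inf n (n.trans (norm_le_norm_cent X))).trans inf_normalizer_le_normalizer_inf) k
      exact ab (isMulComm_of_le_cent ((l.trans inf_le_right).trans (centralizer_le (l.trans inf_le_left))))
    have f0 : CfsgH9.Fit (⊤ : Subgroup G) = ⊥ := not_not.1 fun k => nil_inf_cent_ne_bot (CfsgH9.Fit_nilpotent ⊤) le_rfl le_normalizer k (zb _ (CfsgH9.le_normalizer_Fit le_normalizer))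
    have fE : generalizedFittingSubgroup G = CfsgH9.Lay ⊤ := by rw [← CfsgH9.Fs_top, CfsgH9.Fs_eq, f0, sup_bot_eq]
    have e0 : CfsgH9.Lay (⊤ : Subgroup G) ≠ ⊥ := fun e => ne_one_of_two h.ord (mem_bot.1 ((CfsgH9.Fs_eq_bot_iff.1 (CfsgH9.Fs_top.trans (fE.trans e))).le (mem_top z)))
    have mE : M = CfsgH9.Lay ⊤ := le_antisymm (mn _ (CfsgH9.le_normalizer_Lay le_normalizer) e0) (CfsgH9.Lay_le_iff.2 fun K hK =>
      (hK.le_or_comm (CfsgH9.Sn.of_normal_top M)).resolve_right fun e => nc hK (le_centralizer_iff.1 (commutator_eq_bot_iff_le_centralizer.1 e) zM))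
    have zK : ∀ {K : Subgroup G}, CfsgH9.Comp K ⊤ → K ⊓ C[K] = ⊥ := fun hK => eq_bot_iff.2 ((CfsgH9.center_le_Fit hK.sn).trans f0.le)
    have cc : ∀ {K L : Subgroup G}, CfsgH9.Comp K ⊤ → CfsgH9.Comp L ⊤ → K ≠ L → K ≤ C[L] := fun hK hL e => commutator_eq_bot_iff_le_centralizer.1 (hK.comm_of_ne hL e)
    have cj' : ∀ {K : Subgroup G}, CfsgH9.Comp K ⊤ → ∀ g, CfsgH9.Comp (K.map (cj g)) ⊤ := fun hK g => hK.cj_of_mem (le_normalizer_of_normal (mem_top g))
    have nL : ∀ {K : Subgroup G}, CfsgH9.Comp K ⊤ → z ∈ N[K] := fun hK => hK.Lay_le_normalizer (mE.le zM)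
    obtain ⟨L, hL⟩ := CfsgH9.exists_comp_of_Lay_ne_bot e0
    have sL := hL.qs.isSimpleGroup (zK hL)
    have aL : ¬ IsMulCommutative L := fun k => hL.ne_bot (hL.perf.symm.trans (commutator_eq_bot_iff_le_centralizer.2 (le_cent_self k)))
    refine Or.inr ?_
    by_cases qn : Q ≤ N[L]
    · obtain rfl : M = L := le_antisymm (mE.le.trans (CfsgH9.Lay_le_iff.2 fun K hK => (not_not.1 fun e => nc hK (cc hL hK (Ne.symm e) (h.mem_of_norm hQ hL.ne_bot qn)) : K = L).le)) (hL.le_Lay.trans mE.ge)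
      exact Or.inl ⟨mE.trans fE.symm, sL, aL⟩
    obtain ⟨u, hu, nu⟩ := SetLike.not_le_iff_exists.1 qn
    have hK := cj' hL u
    have ne : L.map (cj u) ≠ L := fun e => nu (map_cj_eq_iff.1 e)
    have kc := cc hK hL ne
    have mk : ∀ {g c : G}, c ∈ L → g * c * g⁻¹ ∈ L.map (cj g) := fun hc => mem_map_of_mem (cj _) hc
    obtain ⟨z₁, h1, w, hw, e1⟩ : ∃ z₁ ∈ L, ∃ w ∈ C[L], z₁ * w = z := by
      have c := commutator_eq_bot_iff_le_centralizer.1 (CfsgH9.LayC_comm hL.sn)
      have := (CfsgH9.Lay_sup_LayC hL.sn).ge (mE.le zM)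
      rw [hL.qs.Lay_eq] at this
      obtain ⟨a, ha, b, hb, e⟩ := (mem_sup_of_norm' (c.trans (cent_le_norm _))).1 this
      exact ⟨a, ha, b, c hb, e⟩
    have zz := mul_self_of_two h.ord
    have o1 : orderOf z₁ = 2 := orderOf_eq_prime (uq (zK hL) (pow_mem h1 2) (pow_mem hw 2) (one_mem _) (one_mem _) (by
      rw [← (show Commute z₁ w from mem_cent_iff.1 hw _ h1).mul_pow, e1, pow_two, zz, one_mul])) fun e => nc hL (by rw [← e1, e, one_mul]; exact hw)
    have dz : ∀ c ∈ L, c ∈ C1[z] ↔ c ∈ C1[z₁] := fun c hc => by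
      rw [mem_centralizer_singleton_iff, mem_centralizer_singleton_iff, ← e1, mul_assoc z₁, ← mem_cent_iff.1 hw c hc, ← mul_assoc, ← mul_assoc, mul_left_inj]
    have aQ : ∀ c ∈ L ⊓ C1[z₁], ∀ v ∈ Q, c * (v * c⁻¹ * v⁻¹) ∈ Q := fun c hc v hv => by
      simpa only [mul_assoc] using mul_mem (conj_mem_of_norm (h.norm ((dz c hc.1).2 hc.2)) hv) (inv_mem hv)
    have pr : ∀ a ∈ L, ∀ b ∈ C[L], a * b ∈ zpowers z → a ∈ zpowers z₁ := fun a ha b hb k => (mem_zp2 o1).2 (((mem_zp2 h.ord).1 k).imp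
      (fun e => uq (zK hL) ha hb (one_mem _) (one_mem _) (e.trans (one_mul 1).symm)) fun e => uq (zK hL) ha hb h1 hw (e.trans e1.symm))
    have sq : ∀ c ∈ L ⊓ C1[z₁], c ^ 2 ∈ zpowers z₁ := fun c hc => pr _ (pow_mem hc.1 2) _ (pow_mem (kc (mk (inv_mem hc.1))) 2) (by
      rw [← (show Commute c _ from mem_cent_iff.1 (kc (mk (inv_mem hc.1))) _ hc.1).mul_pow]; exact h.sq_mem (aQ c hc u hu))
    have s4 : ∀ c ∈ L ⊓ C1[z₁], c ^ 2 ^ 2 = 1 := fun c hc => by
      rw [show 2 ^ 2 = 2 * 2 from rfl, pow_mul]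
      rcases (mem_zp2 o1).1 (sq c hc) with e | e <;> rw [e]
      exacts [one_pow _, (pow_two _).trans (mul_self_of_two o1)]
    have sy : Syl 2 (L ⊓ C1[z₁]) L := by
      obtain ⟨T, hT, l⟩ := exists_syl_ge (M := ⊤) h.pg le_top
      exact (CfsgH1.Syl.inf_sn hT hL.sn).of_card_ge (fun c => ⟨2, Subtype.ext (s4 c c.2)⟩) inf_le_left
        (card_le_of_le fun c hc => ⟨hc.2, (dz c hc.2).1 (h.le_c1_of_pg hT.pg l hc.1)⟩)
    have d1 : z₁ ∈ L ⊓ C1[z₁] := ⟨h1, mem_centralizer_singleton_iff.2 rfl⟩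
    have nD : ¬ L ⊓ C1[z₁] ≤ zpowers z₁ := fun l => (CfsgH4.npc_of_cyclic sy (isCyclic_of_le l)).not_le_comm sy (fun e => ne_one_of_two o1 (mem_bot.1 (e.le d1))) (inf_le_left.trans hL.perf.ge)
    have tw : ∀ v ∈ Q, L.map (cj v) = L ∨ L.map (cj v) = L.map (cj u) := fun v hv => by
      by_contra k
      push Not at k
      have hJ := cj' hL v
      have key : ∀ d ∈ L, ∀ b ∈ L.map (cj u), d * b ∈ C1[v] → d = 1 := fun d hd b hb e => by
        have j1 : d * b ∈ C[L.map (cj v)] := mul_mem (cc hL hJ k.1.symm hd) (cc hK hJ k.2.symm hb)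
        have j2 : v * b * v⁻¹ ∈ C[L.map (cj v)] := cc (cj' hK v) hJ (fun e => ne (map_cj_inj.1 e)) (mem_map_of_mem (cj v) hb)
        exact conj_eq_one_iff.1 (uq (zK hJ) (mk hd) j2 (one_mem _) j1 (by rw [conj_mul, ← mem_centralizer_singleton_iff.1 e, mul_inv_cancel_right, one_mul]))
      refine nD fun c hc => (mem_zp2 o1).2 ((em _).imp_right fun c1 => ?_)
      have := h.inv_mul_mem hv (aQ z₁ d1 u hu) (fun e => ne_one_of_two o1 (key _ h1 _ (mk (inv_mem h1)) e)) (aQ c hc u hu) fun e => c1 (key _ hc.1 _ (mk (inv_mem hc.1)) e)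
      rw [mul_inv_rev, mul_assoc, ← mul_assoc z₁⁻¹, ← mul_assoc, ← mem_cent_iff.1 (inv_mem (kc (mk (inv_mem h1)))) _ (mul_mem (inv_mem h1) hc.1), mul_assoc] at this
      exact (inv_mul_eq_one.1 (key _ (mul_mem (inv_mem h1) hc.1) _ (mul_mem (inv_mem (mk (inv_mem h1))) (mk (inv_mem hc.1))) this)).symm
    have zLK : z ∈ L ⊔ L.map (cj u) := h.mem_of_norm hQ (fun e => hL.ne_bot (eq_bot_iff.2 (le_sup_left.trans e.le))) (le_norm_of_forall_cj fun v hv => by
      rw [Subgroup.map_sup, map_cj_cj]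
      exact sup_le ((tw v hv).elim (fun e => e.le.trans le_sup_left) fun e => e.le.trans le_sup_right) ((tw _ (mul_mem hv hu)).elim (fun e => e.le.trans le_sup_left) fun e => e.le.trans le_sup_right))
    have eM : L ⊔ L.map (cj u) = M := le_antisymm ((sup_le hL.le_Lay hK.le_Lay).trans mE.ge) (mE.le.trans (CfsgH9.Lay_le_iff.2 fun J hJ => by
      by_contra k
      exact nc hJ (sup_le (cc hL hJ fun e => k (e.ge.trans le_sup_left)) (cc hK hJ fun e => k (e.ge.trans le_sup_right)) zLK)))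
    have dec : ∀ x ∈ M, ∃ a ∈ L, ∃ b ∈ L.map (cj u), a * b = x := fun x hx => (mem_sup_of_norm' (kc.trans (cent_le_norm _))).1 (eM.ge hx)
    have wK : w ∈ L.map (cj u) := by
      obtain ⟨a, ha, b, hb, e⟩ := dec z zM
      obtain rfl := uq (zK hL) ha (kc hb) h1 hw (e.trans e1.symm)
      exact mul_left_cancel (e.trans e1.symm) ▸ hb
    have ew : w = u * z₁ * u⁻¹ := by
      have uu : (L.map (cj u)).map (cj u) = L := by
        rw [map_cj_cj, ← pow_two]
        exact map_cj_eq (zpowers_le.2 (nL hL) (h.sq_mem hu))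
      refine uq (zK hK) wK (le_centralizer_iff.1 kc h1) (mk h1) (le_centralizer_iff.1 kc (uu.le (mem_map_of_mem (cj u) wK))) ?_
      rw [← mem_cent_iff.1 hw _ h1, cj_apply, conj_mul, e1, mem_centralizer_singleton_iff.1 (h.le_c1 hu), mul_inv_cancel_right]
    refine Or.inr ⟨mE.trans fE.symm, L, u, hu, sL, aL, eq_bot_iff.2 ((inf_le_inf_left _ kc).trans (zK hL).le), fun x hx y hy => mem_cent_iff.1 (kc hy) x hx, eM, z₁, h1, ew ▸ e1.symm, ?_, fun e => nD fun c hc => ?_⟩
    · obtain ⟨R, hR⟩ := sy.subgroupOf.exists_top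
      rw [inf_subgroupOf_left] at hR
      have m : ∀ x : (R : Subgroup L), (x.1 : G) ∈ L ⊓ C1[z₁] := fun x => ⟨x.1.2, mem_subgroupOf.1 (hR.le x.2)⟩
      refine ⟨R, hR, map_le_iff_le_comap.2 (frattini_le_of_elementary_quotient Nat.prime_two (commutator_le.2 fun x _ y _ => mem_comap.2 ?_) fun x => sq _ (m x))⟩
      convert mul_mem (mul_mem (sq _ (m x)) (sq _ (m (x⁻¹ * y)))) (inv_mem (sq _ (m y))) using 1
      simp only [commutatorElement_def, pow_two, map_mul, map_inv, MonoidHom.comp_apply, subtype_apply, coe_mul, coe_inv]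
      group
    · have l : M ⊓ C1[z] ≤ Q := by
        rw [e, map_pCore_subtype]
        refine le_pCoreOf inf_le_right ((le_inf le_normalizer_of_normal le_normalizer).trans inf_normalizer_le_normalizer_inf) fun x => ⟨2, Subtype.ext ?_⟩
        obtain ⟨x, hx, xz⟩ := x
        obtain ⟨a, ha, _, ⟨b, hb, rfl⟩, rfl⟩ := dec x hx
        have a1 : a ∈ C1[z₁] := mem_centralizer_singleton_iff.2 (uq (zK hL) (mul_mem ha h1) (mul_mem (kc (mk hb)) hw) (mul_mem h1 ha) (mul_mem hw (kc (mk hb))) (by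
          have := mem_centralizer_singleton_iff.1 xz
          rw [← e1, cj_apply] at this
          rw [mul_assoc, ← mul_assoc z₁, mem_cent_iff.1 (kc (mk hb)) _ h1, mul_assoc, ← mul_assoc, this, mul_assoc, mul_assoc, ← mul_assoc w, ← mem_cent_iff.1 hw _ ha, mul_assoc, mul_assoc]))
        have b1 : b ∈ C1[z] := by
          have := (mul_mem_cancel_left ((dz a ha).2 a1)).1 xz
          rwa [cj_apply, mul_mem_cancel_right (inv_mem (h.le_c1 hu)), mul_mem_cancel_left (h.le_c1 hu)] at this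
        change (a * (u * b * u⁻¹)) ^ 2 ^ 2 = 1
        rw [(show Commute a _ from mem_cent_iff.1 (kc (mk hb)) _ ha).mul_pow, conj_pow, s4 a ⟨ha, a1⟩, s4 b ⟨hb, (dz b hb).1 b1⟩]; simp
      exact pr c hc.1 _ (kc (mk (inv_mem hc.1))) (by
        simpa only [commutatorElement_def, mul_assoc] using h.comm_mem (l ⟨eM.le (mem_sup_left hc.1), (dz c hc.1).2 hc.2⟩) hu)

end Cfsg.Agent.S5426
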