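import Cfsg.Statements.S5427
import Cfsg.Agent.H1.LX3

set_option autoImplicit false
open Cfsg

namespace Cfsg.Agent.S5427

/-- Let z be an involution of the finite group G whose centralizer C has generalized Fitting subgroup Q, an extraspecial 2-group of width at least 2 (order 2^(2w+1), w ≥ 2). Let K be a subgroup of G such that the subgroup U generated by the K-conjugates of z is abelian and C is generated by the C-conjugates of U. Suppose that either some K-conjugate of z other than z lies in Q, or some element u of U ∩ Q outside the subgroup generated by z has z in the largest normal 2-subgroup of its centralizer. Then G is simple and Q is a large extraspecial 2-subgroup of G. -/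
theorem result {G : Type*} [Group G] [Finite G] (z : G) (hz : orderOf z = 2) (Q : Subgroup G) (hQC : Q ≤ Subgroup.centralizer ({z} : Set G)) (hF : (Cfsg.generalizedFittingSubgroup ↥(Subgroup.centralizer ({z} : Set G))).map (Subgroup.centralizer ({z} : Set G)).subtype = Q) (hQ : Cfsg.IsExtraspecial 2 ↥Q) (w : ℕ) (hw : 2 ≤ w) (hcard : Nat.card ↥Q = 2 ^ (2 * w + 1)) (K U : Subgroup G) (hU : U = Subgroup.closure {x : G | ∃ k ∈ K, x = k * z * k⁻¹}) (hUab : IsMulCommutative ↥U) (hgen : Subgroup.closure {x : G | ∃ c ∈ Subgroup.centralizer ({z} : Set G), ∃ u ∈ U, x = c * u * c⁻¹} = Subgroup.centralizer ({z} : Set G)) (h3 : (∃ k ∈ K, k * z * k⁻¹ ∈ Q ∧ k * z * k⁻¹ ≠ z) ∨ ∃ u ∈ U ⊓ Q, u ∉ Subgroup.zpowers z ∧ (∃ hz' : z ∈ Subgroup.centralizer ({u} : Set G), (⟨z, hz'⟩ : ↥(Subgroup.centralizer ({u} : Set G))) ∈ Cfsg.pCore 2 ↥(Subgroup.centralizer ({u} : Set G)))) : IsSimpleGroup G ∧ Cfsg.IsLargeExtraspecial Q := by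
  open Subgroup CfsgH2 in
  open CfsgH1 hiding SS card_inf_mul_relIndex card_lt_of_lt card_lt_of_ne_top card_map_mul_card_inf_ker card_mul_relIndex card_subgroupOf card_sup_dvd card_sup_mul_card_inf coprime_le_sup_cent exists_card_prime_le isNilpotent_map isNilpotent_of_le isPGroup_pCore isSolvable_map isSolvable_of_le le_pCore le_pPrimeCore relIndex_map_dvd in
  open scoped CfsgH1 in
  open scoped commutatorElement in
  · haveI : Fact (Nat.Prime 2) := ⟨Nat.prime_two⟩
    have h := lx_of_Fs hz hF hQ
    have hl : IsLargeExtraspecial Q := by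
      rcases h3 with ⟨k, -, h1, h2⟩ | ⟨u, hu, h1, h2, h3⟩
      · exact h.large_of_conj h1 h2
      refine h.large_of_core hu.2 h1 ?_ (map_pCore_subtype.le (mem_map_of_mem _ h3))
      subst hU
      refine closure_induction (p := fun x _ => x * x = 1) ?_ (one_mul 1) (fun x y hx hy h1 h2 => ?_) (fun x _ h => by rw [← mul_inv_rev, h, inv_one]) hu.1
      · rintro _ ⟨k, -, rfl⟩
        rw [conj_mul, mul_self_of_two hz]; simp
      · rw [mul_assoc, ← mul_assoc y, mem_cent_iff.1 (le_cent_self hUab hx) y hy, mul_assoc, h2, mul_one, h1]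
    refine ⟨h.simple hl (hgen.ge.trans ((closure_le _).2 ?_)), hl⟩
    rintro _ ⟨c, -, u, hu, rfl⟩
    refine normalClosure_normal.conj_mem u ((hU.le.trans ((closure_le _).2 ?_)) hu) c
    rintro _ ⟨k, -, rfl⟩
    exact normalClosure_normal.conj_mem z (subset_normalClosure (Set.mem_singleton z)) k

end Cfsg.Agent.S5427
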