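import Cfsg.Statements.S5428
import Cfsg.Agent.H1.LX4

set_option autoImplicit false
open Cfsg

namespace Cfsg.Agent.S5428

/-- Let z be an involution of the finite group G whose centralizer C has generalized Fitting subgroup Q extraspecial (as a 2-group), let A be a subgroup of C of odd order, and let R be the centralizer of A in Q; suppose R has order at least 32, the largest normal subgroup of odd order of the centralizer of the subgroup generated by A and R lies in A, the order of that centralizer is not divisible by 4, and g is an element of G with g z g⁻¹ in R but outside the centre Z of Q. Let M be the subgroup generated by A and the centralizer of A (A is normal in it). Then: the centralizer in M of the subgroup generated by R and A, joined with A, equals the subgroup generated by A and Z; the image of R in M/A is a large extraspecial 2-subgroup of M/A; and g z g⁻¹ is conjugate to z inside the subgroup generated by R and the centralizer of A in g Q g⁻¹. -/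
theorem result {G : Type*} [Group G] [Finite G] (z : G) (hz : orderOf z = 2) (Q : Subgroup G) (hQC : Q ≤ Subgroup.centralizer ({z} : Set G)) (hF : (Cfsg.generalizedFittingSubgroup ↥(Subgroup.centralizer ({z} : Set G))).map (Subgroup.centralizer ({z} : Set G)).subtype = Q) (hQ : Cfsg.IsExtraspecial 2 ↥Q) (A : Subgroup G) (hA : A ≤ Subgroup.centralizer ({z} : Set G)) (hAodd : Odd (Nat.card ↥A)) (R : Subgroup G) (hR : R = Q ⊓ Subgroup.centralizer (A : Set G)) (hR32 : 32 ≤ Nat.card ↥R) (hO : (Cfsg.oddCore ↥(Subgroup.centralizer ((A ⊔ R : Subgroup G) : Set G))).map (Subgroup.centralizer ((A ⊔ R : Subgroup G) : Set G)).subtype ≤ A) (h4 : ¬ 4 ∣ Nat.card ↥(Subgroup.centralizer ((A ⊔ R : Subgroup G) : Set G))) (g : G) (hgR : g * z * g⁻¹ ∈ R) (hgZ : g * z * g⁻¹ ∉ ((Subgroup.center ↥Q).map Q.subtype)) (M : Subgroup G) (hM : M = Subgroup.centralizer (A : Set G) ⊔ A) [hn : (A.subgroupOf M).Normal] : (M ⊓ Subgroup.centralizer ((R ⊔ A : Subgroup G) : Set G)) ⊔ A = A ⊔ ((Subgroup.center ↥Q).map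 Q.subtype) ∧ Cfsg.IsLargeExtraspecial ((R.subgroupOf M).map (QuotientGroup.mk' (A.subgroupOf M))) ∧ ∃ x ∈ R ⊔ ((Q).map (MulAut.conj g).toMonoidHom ⊓ Subgroup.centralizer (A : Set G)), x * (g * z * g⁻¹) * x⁻¹ = z := by
  open Subgroup CfsgH2 in
  open CfsgH1 hiding SS card_inf_mul_relIndex card_lt_of_lt card_lt_of_ne_top card_map_mul_card_inf_ker card_mul_relIndex card_subgroupOf card_sup_dvd card_sup_mul_card_inf coprime_le_sup_cent exists_card_prime_le isNilpotent_map isNilpotent_of_le isPGroup_pCore isSolvable_map isSolvable_of_le le_pCore le_pPrimeCore relIndex_map_dvd in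
  open scoped CfsgH1 in
  open scoped commutatorElement in
  · haveI : Fact (Nat.Prime 2) := ⟨Nat.prime_two⟩
    have h := lx_of_Fs hz hF hQ
    have k := h.map_cj g
    rw [h.center_eq] at hgZ ⊢
    rw [map_pPrimeCore_subtype] at hO
    subst hR hM
    have zA : z ∈ C[A] := le_cent1_iff.1 hA
    have nA : A ≤ N[Q] := hA.trans h.norm
    have d : A ⊓ Q = ⊥ := by
      obtain ⟨j, hj⟩ := exists_card_eq_pow h.pg
      exact CfsgH1.inf_eq_bot_of_coprime (hj ▸ (Nat.coprime_two_right.2 hAodd).pow_right j)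
    have ne : g * z * g⁻¹ ≠ z := fun e => hgZ (e.symm ▸ mem_zpowers z)
    have zR : z ∈ Q ⊓ C[A] := ⟨h.mem, zA⟩
    have D : C[A ⊔ Q ⊓ C[A]] ≤ A ⊔ zpowers z := (le_sup_of_not_four hz (le_cent1_iff.1 (sup_le hA (inf_le_left.trans hQC)))
      (centralizer_le (Set.singleton_subset_iff.2 (mem_sup_right zR))) h4).trans (sup_le_sup_right hO _)
    obtain ⟨r, hr, r1⟩ := h.toXZ.exists_nc_cent hAodd nA hgR hgZ
    obtain ⟨s, hs, s1⟩ := k.toXZ.exists_nc_cent hAodd ((le_cent1_iff.2 hgR.2).trans k.norm) ⟨h.symm hgR.1, zA⟩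
      fun e => ((mem_zp2 k.ord).1 e).elim (ne_one_of_two hz) ne.symm
    have e := h.conj_pair hgR.1 hr.1 r1 hs.1 s1
    have e' : (s * r)⁻¹ * z * (s * r)⁻¹⁻¹ = g * z * g⁻¹ := by rw [inv_inv, mul_assoc, inv_mul_eq_iff_eq_mul, ← mul_inv_eq_iff_eq_mul.1 e]
    have nM : C[A] ⊔ A ≤ N[A] := sup_le (centralizer_le_normalizer _) le_normalizer
    have zz := mul_self_of_two hz
    have h1 : ∀ m ∈ C[A] ⊔ A, ⁅m, z⁆ ∈ A → m ∈ N[Q ⊓ C[A]] := fun m hm h1 => by
      have c := mem_centralizer_singleton_iff.1 (hA h1)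
      have o : ⁅m, z⁆ ^ 2 = 1 := by
        have := Commute.mul_pow c 2
        rw [pow_two z, zz, mul_one] at this
        rw [← this, commutatorElement_def, inv_mul_cancel_right, pow_two, conj_mul, zz]; simp
      have o1 : ⁅m, z⁆ = 1 := orderOf_eq_one_iff.1 (Nat.eq_one_of_dvd_coprimes (Nat.coprime_two_left.2 hAodd) (orderOf_dvd_of_pow_eq_one o) (A.orderOf_dvd_natCard h1))
      exact mem_norm_inf (h.norm (mem_centralizer_singleton_iff.2 (commutatorElement_eq_one_iff_mul_comm.1 o1))) (norm_le_norm_cent _ (nM hm))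
    refine ⟨le_antisymm (sup_le (inf_le_right.trans (by rwa [sup_comm])) le_sup_left) (sup_le le_sup_right (le_sup_of_le_left (zpowers_le.2 ⟨mem_sup_left zA, le_cent1_iff.1 (sup_le (inf_le_left.trans hQC) hA)⟩))),
      large_quot (inf_le_right.trans le_sup_left) (h.pg.to_le inf_le_left) zR hz (fun a => ne_one_of_two hz (d.le ⟨a, h.mem⟩)) ((commutator_mono inf_le_left inf_le_left).trans h.der)
        (inf_le_left.trans hQC) h1 (fun m hm h2 => ?_) le_sup_right (m := (s * r)⁻¹) (mem_sup_left (inv_mem (mul_mem hs.2 hr.2))) (e' ▸ hgR) fun a => ne ?_,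
      s * r, mul_mem (mem_sup_right hs) (mem_sup_left hr), e⟩
    · have n := h1 m hm (h2 z zR)
      obtain ⟨c, hc, a, ha, rfl⟩ := (mem_sup_of_norm (centralizer_le_normalizer _)).1 hm
      rw [sup_comm]
      refine mul_mem (D ((cent_sup _ _).ge ⟨hc, mem_cent_iff.2 fun p hp => ?_⟩)) (mem_sup_left ha)
      have := commutatorElement_eq_one_iff_mul_comm.1 (d.le ⟨h2 p hp, Q.mul_mem (conj_mem_of_norm n hp).1 (Q.inv_mem hp.1)⟩)
      rwa [mul_assoc, mem_cent_iff.1 hp.2 a ha, ← mul_assoc, ← mul_assoc, mul_left_inj, eq_comm] at this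
    · rw [commutatorElement_def, e'] at a
      exact mul_inv_eq_one.1 (d.le ⟨a, Q.mul_mem hgR.1 (Q.inv_mem h.mem)⟩)

end Cfsg.Agent.S5428
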