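import Cfsg.Statements.S5429
import Cfsg.Agent.H1.LX4

set_option autoImplicit false
open Cfsg

namespace Cfsg.Agent.S5429

/-- Let z be an involution of the finite group G with centralizer C whose generalized Fitting subgroup Q is extraspecial of width at least 3 (order 2^(2w+1), w ≥ 3); let g be an element of G with g z g⁻¹ in Q but outside the centre Z of Q, and t an involution lying in both Q and g Q g⁻¹ that is not conjugate to z; write P for the centralizer of t in Q and suppose that the elements of C acting trivially by conjugation on P modulo the subgroup generated by t and z are exactly the elements of Q. Then the image of P in the centralizer of t modulo the subgroup generated by t is a large extraspecial 2-subgroup there, and g z g⁻¹ is conjugate to z inside the subgroup generated by P and the centralizer of t in g Q g⁻¹. -/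
theorem result {G : Type*} [Group G] [Finite G] (z : G) (hz : orderOf z = 2) (Q : Subgroup G) (hQC : Q ≤ Subgroup.centralizer ({z} : Set G)) (hF : (Cfsg.generalizedFittingSubgroup ↥(Subgroup.centralizer ({z} : Set G))).map (Subgroup.centralizer ({z} : Set G)).subtype = Q) (hQ : Cfsg.IsExtraspecial 2 ↥Q) (w : ℕ) (hw : 3 ≤ w) (hcard : Nat.card ↥Q = 2 ^ (2 * w + 1)) (g : G) (hgQ : g * z * g⁻¹ ∈ Q) (hgZ : g * z * g⁻¹ ∉ ((Subgroup.center ↥Q).map Q.subtype)) (t : G) (ht : orderOf t = 2) (htQ : t ∈ Q ⊓ (Q).map (MulAut.conj g).toMonoidHom) (htz : ¬ IsConj z t) (P : Subgroup G) (hP : P = Q ⊓ Subgroup.centralizer ({t} : Set G)) (hCP : ∀ c ∈ Subgroup.centralizer ({z} : Set G), (∀ x ∈ P, ∃ y ∈ Subgroup.closure ({t, z} : Set G), c * x * c⁻¹ = x * y) ↔ c ∈ Q) [hn : ((Subgroup.zpowers t).subgroupOf (Subgroup.centralizer ({t} : Set G))).Normal] : Cfsg.IsLargeExtraspecial ((P.subgroupOf (Subgroup.centralizer ({t} : Set G))).map (QuotientGroup.mk' ((Subgroup.zpowers t).subgroupOf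 (Subgroup.centralizer ({t} : Set G))))) ∧ ∃ x ∈ P ⊔ ((Q).map (MulAut.conj g).toMonoidHom ⊓ Subgroup.centralizer ({t} : Set G)), x * (g * z * g⁻¹) * x⁻¹ = z := by
  open Subgroup CfsgH2 in
  open CfsgH1 hiding SS card_inf_mul_relIndex card_lt_of_lt card_lt_of_ne_top card_map_mul_card_inf_ker card_mul_relIndex card_subgroupOf card_sup_dvd card_sup_mul_card_inf coprime_le_sup_cent exists_card_prime_le isNilpotent_map isNilpotent_of_le isPGroup_pCore isSolvable_map isSolvable_of_le le_pCore le_pPrimeCore relIndex_map_dvd in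
  open scoped CfsgH1 in
  open scoped commutatorElement in
  · haveI : Fact (Nat.Prime 2) := ⟨Nat.prime_two⟩
    have h := lx_of_Fs hz hF hQ
    have k := h.map_cj g
    rw [h.center_eq] at hgZ
    subst hP
    have cx : IsConj z (g * z * g⁻¹) := isConj_iff.2 ⟨g, rfl⟩
    have key : ∀ {R : Subgroup G} {x : G}, XZ R x → IsConj z x → t ∈ R → t ∉ zpowers x ∧ (∀ y, IsConj z y → y ∈ zpowers x ⊔ zpowers t → y = x) ∧
        ∀ y ∈ R, IsConj z y → y ≠ x → ∃ r ∈ R ⊓ C1[t], r ∉ C1[y] := fun {R x} h c tR => by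
      have t1 : t ∉ zpowers x := fun e => ((mem_zp2 h.ord).1 e).elim (ne_one_of_two ht) fun e => htz (e ▸ c)
      have t2 : ∀ y, IsConj z y → y ∈ zpowers x ⊔ zpowers t → y = x := fun y cy hy => by
        obtain ⟨a, ha, b, hb, rfl⟩ := (mem_sup_of_norm ((zpowers_le.2 (le_cent1_iff.1 ((zpowers_le.2 tR).trans h.le_c1))).trans (centralizer_le_normalizer _))).1 hy
        obtain ⟨q, -, hq⟩ := h.exists_conj tR t1
        rcases (mem_zp2 h.ord).1 ha with rfl | rfl <;> rcases (mem_zp2 ht).1 hb with rfl | rfl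
        · exact (ne_one_of_two hz (isConj_one_left.1 (by rwa [mul_one] at cy))).elim
        · exact (htz (by rwa [one_mul] at cy)).elim
        · exact mul_one _
        · exact (htz (cy.trans (isConj_iff.2 ⟨q, hq⟩).symm)).elim
      refine ⟨t1, t2, fun y hy cy ne => ?_⟩
      by_contra! k
      exact ne (t2 y cy (h.cent_c1 tR t1 hy (le_cent1_iff.1 k)))
    obtain ⟨t1, t2, t3⟩ := key h.toXZ (IsConj.refl z) htQ.1
    have ne : g * z * g⁻¹ ≠ z := fun e => hgZ (e.symm ▸ mem_zpowers z)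
    obtain ⟨r, hr, r1⟩ := t3 _ hgQ cx ne
    obtain ⟨s, hs, s1⟩ := (key k.toXZ cx htQ.2).2.2 z (h.symm hgQ) (IsConj.refl z) ne.symm
    have e := h.conj_pair hgQ hr.1 r1 hs.1 s1
    have e' : (s * r)⁻¹ * z * (s * r)⁻¹⁻¹ = g * z * g⁻¹ := by rw [inv_inv, mul_assoc, inv_mul_eq_iff_eq_mul, ← mul_inv_eq_iff_eq_mul.1 e]
    have h0 : ∀ m, ⁅m, z⁆ ∈ zpowers t → m * z * m⁻¹ = z := fun m h1 => t2 _ (isConj_iff.2 ⟨m, rfl⟩) (by
      rw [← inv_mul_cancel_right (m * z * m⁻¹) z]; exact mul_mem (mem_sup_right h1) (mem_sup_left (mem_zpowers z)))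
    have zt : z ∈ Q ⊓ C1[t] := ⟨h.mem, mem_centralizer_singleton_iff.2 (mem_centralizer_singleton_iff.1 (hQC htQ.1)).symm⟩
    refine ⟨large_quot inf_le_right (h.pg.to_le inf_le_left) zt hz (fun a => ((mem_zp2 ht).1 a).elim (ne_one_of_two hz) fun e => htz (e ▸ IsConj.refl z))
        ((commutator_mono inf_le_left inf_le_left).trans h.der) (inf_le_left.trans hQC)
        (fun m hm h1 => mem_norm_inf (h.norm (mem_centralizer_singleton_iff.2 (mul_inv_eq_iff_eq_mul.1 (h0 m h1)))) (le_normalizer hm)) (fun m hm h2 => ?_)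
        (zpowers_le.2 (mem_centralizer_singleton_iff.2 rfl)) (m := (s * r)⁻¹) (inv_mem (mul_mem hs.2 hr.2))
        (e' ▸ ⟨hgQ, mem_centralizer_singleton_iff.2 (mem_centralizer_singleton_iff.1 (k.le_c1 htQ.2)).symm⟩) fun a => ne (e' ▸ h0 _ a),
      s * r, mul_mem (mem_sup_right hs) (mem_sup_left hr), e⟩
    have mq : m ∈ Q := (hCP m (mem_centralizer_singleton_iff.2 (mul_inv_eq_iff_eq_mul.1 (h0 m (h2 z zt))))).1 fun x hx => by
      refine ⟨⁅m, x⁆, (zpowers_le.2 (subset_closure (by simp))) (h2 x hx), ?_⟩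
      rw [mem_cent_iff.1 (zpowers_le.2 (le_cent1_iff.1 inf_le_right) (h2 x hx)) x hx, commutatorElement_def, inv_mul_cancel_right]
    refine h.cent_c1 htQ.1 t1 mq (mem_cent_iff.2 fun p hp => (commutatorElement_eq_one_iff_mul_comm.1 ?_).symm)
    exact ((mem_zp2 ht).1 (h2 p hp)).resolve_right fun e => t1 (e ▸ h.comm_mem mq hp.1)

end Cfsg.Agent.S5429
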