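import Cfsg.Statements.S5430
import Cfsg.Agent.H1.LX2

set_option autoImplicit false
open Cfsg

namespace Cfsg.Agent.S5430

/-- Let Q be a large extraspecial 2-subgroup of the finite group G (extraspecial; centralizer equal to its centre; normal in the centralizer of its centre; normalizing no non-trivial subgroup of odd order) with centre generated by z, an involution, of width w ≥ 2 (order 2^(2w+1)); let g be an element outside the centralizer H of z with g z g⁻¹ in Q; write V for the subgroup generated by z and g z g⁻¹, X for the subgroup generated by Q and g Q g⁻¹, R for the subgroup generated by the centralizer of z in g Q g⁻¹ and the centralizer of g z g⁻¹ in Q, and E for the intersection of Q and g Q g⁻¹. Then R is the centralizer of V in X and is the largest normal 2-subgroup of X, and X/R is isomorphic to the symmetric group of degree 3; moreover the normalizer of V is the product of X and the centralizer of V in H, X is normal in it, and modulo R it is the direct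 product of X/R and of the centralizer of V in H modulo R. -/
theorem result {G : Type*} [Group G] [Finite G] (Q : Subgroup G) (hQ : Cfsg.IsLargeExtraspecial Q) (z : G) (hz : ((Subgroup.center ↥Q).map Q.subtype) = Subgroup.zpowers z) (hz2 : orderOf z = 2) (w : ℕ) (hw : 2 ≤ w) (hcard : Nat.card ↥Q = 2 ^ (2 * w + 1)) (g : G) (hgH : g ∉ Subgroup.centralizer ({z} : Set G)) (hgQ : g * z * g⁻¹ ∈ Q) (V X R E : Subgroup G) (hV : V = Subgroup.closure ({z, g * z * g⁻¹} : Set G)) (hX : X = Q ⊔ (Q).map (MulAut.conj g).toMonoidHom) (hR : R = ((Q).map (MulAut.conj g).toMonoidHom ⊓ Subgroup.centralizer ({z} : Set G)) ⊔ (Q ⊓ Subgroup.centralizer ({g * z * g⁻¹} : Set G))) (hE : E = Q ⊓ (Q).map (MulAut.conj g).toMonoidHom) : R = X ⊓ Subgroup.centralizer (V : Set G) ∧ R = (Cfsg.pCore 2 ↥X).map X.subtype ∧ (∃ h : (R.subgroupOf X).Normal, Nonempty (↥X ⧸ R.subgroupOf X ≃* Equiv.Perm (Fin 3))) ∧ Subgroup.normalizer (V : Set G) = X ⊔ (Subgroup.centralizer ({z} : Set G) ⊓ Subgroup.centralizer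 (V : Set G)) ∧ (∀ y ∈ Subgroup.normalizer (V : Set G), ∀ x ∈ X, y * x * y⁻¹ ∈ X) ∧ R ≤ Subgroup.centralizer ({z} : Set G) ⊓ Subgroup.centralizer (V : Set G) ∧ (∀ x ∈ X, ∀ c ∈ Subgroup.centralizer ({z} : Set G) ⊓ Subgroup.centralizer (V : Set G), x * c * x⁻¹ * c⁻¹ ∈ R) ∧ X ⊓ (Subgroup.centralizer ({z} : Set G) ⊓ Subgroup.centralizer (V : Set G)) = R := by
  open Subgroup CfsgH2 in
  open CfsgH1 hiding SS card_inf_mul_relIndex card_lt_of_lt card_lt_of_ne_top card_map_mul_card_inf_ker card_mul_relIndex card_subgroupOf card_sup_dvd card_sup_mul_card_inf coprime_le_sup_cent exists_card_prime_le isNilpotent_map isNilpotent_of_le isPGroup_pCore isSolvable_map isSolvable_of_le le_pCore le_pPrimeCore relIndex_map_dvd in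
  open scoped CfsgH1 in
  open CfsgL0 hiding cj cj_injective comm_zpowers_le conj_mem_of_mem_normalizer conj_mem_of_mem_normalizer' isPGroup_of_forall isPGroup_zpowers isPGroup_zpowers_of_orderOf mem_normalizer_of_conj_mem sec_sub in
  open scoped CfsgL0 in
  open scoped commutatorElement in
  · have h := (lx_of_large hQ hz).lp hgQ hgH
    rw [cj_def] at hX hR hE
    generalize Q.map (cj g) = Q' at *
    generalize g * z * g⁻¹ = x at *
    replace hV : V = zpowers z ⊔ zpowers x := by rw [hV, zpowers_eq_closure, zpowers_eq_closure, ← Subgroup.closure_union]; rfl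
    subst hV hX hR hE
    have e : C1[z] ⊓ (C1[z] ⊓ C1[x]) = C1[z] ⊓ C1[x] := inf_eq_right.2 inf_le_left
    have l1 := h.R_eq.le.trans inf_le_left
    rw [LP.cV, e]
    haveI hN := normal_subgroupOf_of_le_normalizer h.X_norm
    refine ⟨h.R_eq, ?_, ⟨hN, s3_of_not_comm ?_ fun c => h.not_comm ?_⟩, ?_, fun y hy => ?_, h.R_le,
      fun u hu c hc => ?_, h.R_eq.symm⟩
    · rw [map_pCore_subtype]
      refine le_antisymm (le_piCoreOf l1 h.X_norm (isPGroup_iff_piN.1 h.pg)) (h.R_eq ▸ le_inf piCoreOf_le ?_)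
      have pT : PG[2, O[{2}, Q ⊔ Q']] := isPGroup_iff_piN.2 piN_piCoreOf
      have n : Q ⊔ Q' ≤ N[(zpowers z ⊔ zpowers x) ⊓ C[O[{2}, Q ⊔ Q']]] := le_norm_inf h.nV' (le_norm_cent le_norm_piCoreOf)
      have pV := h.q.pg.to_le (h.V_le.trans inf_le_left)
      have ne := nil_inf_cent_ne_bot (nil_of_pg (isPGroup_sup pV pT (Or.inr (piCoreOf_le.trans h.nV')))) le_sup_left
        (sup_le le_normalizer (piCoreOf_le.trans h.nV')) fun c => ne_one_of_two h.q.ord (mem_bot.1 (c ▸ mem_sup_left (mem_zpowers z)))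
      obtain ⟨⟨w, w1, w2⟩, w3⟩ := ne_bot_iff_exists_ne_one.1 ne
      have w4 : w ∈ (zpowers z ⊔ zpowers x) ⊓ C[O[{2}, Q ⊔ Q']] := ⟨w1, cent_anti le_sup_right w2⟩
      have l : (zpowers z ⊔ zpowers x) ⊓ C[O[{2}, Q ⊔ Q']] ≤ C[O[{2}, Q ⊔ Q']] := inf_le_right
      generalize (zpowers z ⊔ zpowers x) ⊓ C[O[{2}, Q ⊔ Q']] = W at n w4 l
      obtain ⟨a, ha, e1⟩ := h.q.exists_conj h.xq h.x1
      obtain ⟨k, hk, e2⟩ := h.r.exists_conj h.zr h.symm.x1
      have k1 : z ∈ W → x ∈ W := fun c => (mul_mem_cancel_right c).1 (e2 ▸ conj_mem_of_norm (n (mem_sup_right hk)) c)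
      have k2 : x ∈ W → z ∈ W := fun c => (mul_mem_cancel_right c).1 (e1 ▸ conj_mem_of_norm (n (mem_sup_left ha)) c)
      have k3 : z ∈ W := by
        obtain ⟨u, hu, v, hv, rfl⟩ := (mem_sup_of_norm' (zpowers_le.2 ((norm_zp2 h.q.ord).ge (h.q.le_c1 h.xq)))).1 w1
        rcases (mem_zp2 h.q.ord).1 hu with rfl | rfl <;> rcases (mem_zp2 h.r.ord).1 hv with rfl | rfl
        · exact (w3 (Subtype.ext (one_mul 1))).elim
        · exact k2 (one_mul v ▸ w4)
        · exact mul_one u ▸ w4
        · have := conj_mem_of_norm' (n (mem_sup_left ha)) (e1 ▸ w4)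
          exact k2 (by convert this using 1; group)
      exact LP.cV (z := z) (x := x) ▸ le_centralizer_iff.1 ((sup_le (zpowers_le.2 k3) (zpowers_le.2 (k1 k3))).trans l)
    · change relIndex _ _ = 6
      rw [h.R_eq, inf_relIndex_left, h.six]
    · have := map_mono (f := (Q ⊔ Q').subtype) (Normal.quotient_commutative_iff_commutator_le.1 c)
      rw [map_subtype_commutator, map_subgroupOf_eq_of_le l1] at this
      exact this.trans (h.R_le.trans LP.cV.ge)
    · have l2 : C1[z] ⊓ C1[x] ≤ N[zpowers z ⊔ zpowers x] := LP.cV.ge.trans (cent_le_norm _)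
      refine le_antisymm (relIndex_eq_one.1 ?_) (sup_le h.nV' l2)
      have k1 := relIndex_mul_relIndex (C1[z] ⊓ C1[x]) _ _ le_sup_right (sup_le h.nV' l2)
      have k2 := idx_dvd_six h.card_V le_rfl
      rw [relIndex_sup_of_norm (LP.cV (z := z) (x := x) ▸ le_norm_cent h.nV'), h.six] at k1
      rw [LP.cV, ← k1] at k2
      exact Nat.dvd_one.1 (Nat.dvd_of_mul_dvd_mul_left (by norm_num) (k2 : 6 * _ ∣ 6 * 1))
    · have l2 : C1[z] ⊓ C1[x] ≤ N[zpowers z ⊔ zpowers x] := LP.cV.ge.trans (cent_le_norm _)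
      have k1 := relIndex_mul_relIndex (C1[z] ⊓ C1[x]) _ _ le_sup_right (sup_le h.nV' l2)
      have k2 := idx_dvd_six h.card_V le_rfl
      rw [relIndex_sup_of_norm (LP.cV (z := z) (x := x) ▸ le_norm_cent h.nV'), h.six] at k1
      rw [LP.cV, ← k1] at k2
      have k3 := relIndex_eq_one.1 (Nat.dvd_one.1 (Nat.dvd_of_mul_dvd_mul_left (by norm_num) (k2 : 6 * _ ∣ 6 * 1)))
      exact fun u => conj_mem_of_norm ((sup_le le_normalizer (le_norm_sup (inf_le_left.trans h.q.norm) (inf_le_right.trans h.r.norm))) (k3 hy))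
    · exact ((commutator_comm _ _).le.trans h.comm_XY) (commutator_mem_commutator hu hc)

end Cfsg.Agent.S5430
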