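import Cfsg.Statements.S5431
import Cfsg.Agent.H1.LX2

set_option autoImplicit false
open Cfsg

namespace Cfsg.Agent.S5431

/-- Let Q be a large extraspecial 2-subgroup of the finite group G (extraspecial; centralizer equal to its centre; normal in the centralizer of its centre; normalizing no non-trivial subgroup of odd order) with centre generated by z, an involution, of width w ≥ 2 (order 2^(2w+1)); let g be an element outside the centralizer H of z with g z g⁻¹ in Q; write V for the subgroup generated by z and g z g⁻¹, X for the subgroup generated by Q and g Q g⁻¹, R for the subgroup generated by the centralizer of z in g Q g⁻¹ and the centralizer of g z g⁻¹ in Q, and E for the intersection of Q and g Q g⁻¹. Then V is the centre of R, E lies in the second centre of R, R is nilpotent of class at most 3, E and R/E are elementary abelian, R/E is the direct product of the images of the centralizer of g z g⁻¹ in Q and of the centralizer of z in g Q g⁻¹ (R is their product and they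 meet in E), and the commutator subgroup of X and E lies in V. -/
theorem result {G : Type*} [Group G] [Finite G] (Q : Subgroup G) (hQ : Cfsg.IsLargeExtraspecial Q) (z : G) (hz : ((Subgroup.center ↥Q).map Q.subtype) = Subgroup.zpowers z) (hz2 : orderOf z = 2) (w : ℕ) (hw : 2 ≤ w) (hcard : Nat.card ↥Q = 2 ^ (2 * w + 1)) (g : G) (hgH : g ∉ Subgroup.centralizer ({z} : Set G)) (hgQ : g * z * g⁻¹ ∈ Q) (V X R E : Subgroup G) (hV : V = Subgroup.closure ({z, g * z * g⁻¹} : Set G)) (hX : X = Q ⊔ (Q).map (MulAut.conj g).toMonoidHom) (hR : R = ((Q).map (MulAut.conj g).toMonoidHom ⊓ Subgroup.centralizer ({z} : Set G)) ⊔ (Q ⊓ Subgroup.centralizer ({g * z * g⁻¹} : Set G))) (hE : E = Q ⊓ (Q).map (MulAut.conj g).toMonoidHom) : (Subgroup.center ↥R).map R.subtype = V ∧ E ≤ (Subgroup.upperCentralSeries ↥R 2).map R.subtype ∧ Subgroup.upperCentralSeries ↥R 3 = ⊤ ∧ Cfsg.IsElementaryAbelian 2 E ∧ (∀ x ∈ R, ∀ y ∈ R, x * y * x⁻¹ * y⁻¹ ∈ E ∧ x ^ 2 ∈ E) ∧ ((Q).map (MulAut.conj g).toMonoidHom ⊓ Subgroup.centralizer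 ({z} : Set G)) ⊓ (Q ⊓ Subgroup.centralizer ({g * z * g⁻¹} : Set G)) = E ∧ ⁅X, E⁆ ≤ V := by
  open Subgroup CfsgH2 in
  open CfsgH1 hiding SS card_inf_mul_relIndex card_lt_of_lt card_lt_of_ne_top card_map_mul_card_inf_ker card_mul_relIndex card_subgroupOf card_sup_dvd card_sup_mul_card_inf coprime_le_sup_cent exists_card_prime_le isNilpotent_map isNilpotent_of_le isPGroup_pCore isSolvable_map isSolvable_of_le le_pCore le_pPrimeCore relIndex_map_dvd in
  open scoped CfsgH1 in
  open CfsgL0 hiding cj cj_injective comm_zpowers_le conj_mem_of_mem_normalizer conj_mem_of_mem_normalizer' isPGroup_of_forall isPGroup_zpowers isPGroup_zpowers_of_orderOf mem_normalizer_of_conj_mem sec_sub in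
  open scoped CfsgL0 in
  open scoped commutatorElement in
  · have h := (lx_of_large hQ hz).lp hgQ hgH
    rw [cj_def] at hX hR hE ⊢
    generalize Q.map (cj g) = Q' at *
    generalize g * z * g⁻¹ = x at *
    replace hV : V = zpowers z ⊔ zpowers x := by rw [hV, zpowers_eq_closure, zpowers_eq_closure, ← Subgroup.closure_union]; rfl
    have l0 : E ≤ R := hE ▸ hR ▸ h.E_le.trans le_sup_right
    have l1 : R ≤ X := hX ▸ hR ▸ h.R_eq.le.trans inf_le_left
    have l2 : R ≤ C[V] := hV ▸ hR ▸ h.R_le.trans LP.cV.ge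
    have l3 : V ≤ E := hV ▸ hE ▸ h.V_le
    have c1 : ⁅E, X⁆ ≤ V := hV ▸ hE ▸ hX ▸ h.comm_E
    have n1 : X ≤ N[E] := le_norm_of_comm_le c1 l3
    have c2 : ⁅R, R⁆ ≤ E := by
      have k : ∀ {Q R : Subgroup G} {z x : G}, LP Q R z x → ⁅(R ⊓ C1[z]) ⊔ (Q ⊓ C1[x]), Q ⊓ C1[x]⁆ ≤ Q ⊓ R := fun {Q R z x} h => by
        have n : Q ⊔ R ≤ N[Q ⊓ R] := le_norm_of_comm_le h.comm_E h.V_le
        refine (commutator_comm _ _).le.trans (comm_le_of_le_stab (sup_le (le_stab (inf_le_left.trans (le_sup_right.trans n)) (le_inf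
          ((commutator_mono inf_le_left le_rfl).trans (comm_le_left (inf_le_right.trans h.q.norm))) ((commutator_mono le_rfl inf_le_left).trans
          (comm_le_right (inf_le_right.trans h.r.norm))))) (le_stab (inf_le_left.trans (le_sup_left.trans n)) ((commutator_mono inf_le_left inf_le_left).trans
          (h.q.der.trans (le_sup_left.trans h.V_le))))))
      have k1 := k h
      have k2 := k h.symm
      rw [sup_comm, inf_comm Q' Q] at k2
      rw [← hR, ← hE] at k1 k2
      refine comm_le_of_le_stab (hR.le.trans (sup_le (le_stab ((hR ▸ le_sup_left : _ ≤ R).trans (l1.trans n1)) k2)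
        (le_stab ((hR ▸ le_sup_right : _ ≤ R).trans (l1.trans n1)) k1)))
    have z1 : Z[R] = V := le_antisymm (fun y hy => by
      have := cent_anti (hR ▸ le_sup_right : Q ⊓ C1[x] ≤ R) hy.2
      exact hV ▸ h.q.cent_c1 h.xq h.x1 (h.q.mem_of_cent h.xq h.x1 (mul_self_of_two h.r.ord) this) this) (le_inf (l3.trans l0) (le_centralizer_iff.1 l2))
    have u2 : ∀ y : R, y.1 ∈ E → y ∈ Subgroup.upperCentralSeries R 2 := fun y hy => Subgroup.mem_upperCentralSeries_succ_iff.2 fun r => by
      rw [Subgroup.upperCentralSeries_one]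
      exact mem_center_iff.2 fun s => Subtype.ext (mem_cent_iff.1 (z1.ge (c1 (commutator_mem_commutator hy (l1 r.2)))).2 s s.2)
    refine ⟨map_center_subtype.trans z1, fun y hy => ⟨⟨y, l0 hy⟩, u2 _ hy, rfl⟩, eq_top_iff.2 fun y _ => Subgroup.mem_upperCentralSeries_succ_iff.2 fun r =>
      u2 _ (c2 (commutator_mem_commutator y.2 r.2)), ⟨comm_self_eq_bot_iff.1 (eq_bot_iff.2 ((le_inf ((commutator_mono (hE ▸ inf_le_left) (hE ▸ inf_le_left)).trans h.q.der)
        ((commutator_mono (hE ▸ inf_le_right) (hE ▸ inf_le_right)).trans h.r.der)).trans h.disj.le)), fun y hy => mem_bot.1 (h.disj.le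
        ⟨h.q.sq_mem (hE ▸ hy).1, h.r.sq_mem (hE ▸ hy).2⟩)⟩, fun y hy r hr => ⟨c2 (commutator_mem_commutator hy hr), ?_⟩, hE ▸ h.inf_eq, (commutator_comm _ _).le.trans c1⟩
    obtain ⟨a, ha, b, hb, rfl⟩ := (mem_sup_of_norm (le_sup_left.trans (h.R_le.trans h.Y_norm))).1 (hR ▸ hy)
    have := c2 (commutator_mem_commutator (inv_mem (hR ▸ mem_sup_left ha)) (hR ▸ mem_sup_right hb))
    convert mul_mem (mul_mem (l3 (hV ▸ mem_sup_right (h.r.sq_mem ha.1))) this) (l3 (hV ▸ mem_sup_left (h.q.sq_mem hb.1))) using 1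
    simp only [sq]; group

end Cfsg.Agent.S5431
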