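import Cfsg.Statements.S5432
import Cfsg.Agent.H1.XB

set_option autoImplicit false
open Cfsg

namespace Cfsg.Agent.S5432

/-- Let E be an extraspecial 2-group of order 2^(2n+1), n ≥ 1. If E contains an elementary abelian subgroup of order 2^(n+1) (plus type), then its outer automorphism group is isomorphic to the full isometry group of the hyperbolic quadratic form in dimension 2n over the field with two elements; otherwise (minus type) it is isomorphic to the full isometry group of the elliptic quadratic form in dimension 2n over that field. -/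
theorem result {E : Type*} [Group E] [Finite E] (hE : Cfsg.IsExtraspecial 2 E) (n : ℕ) (hn : 1 ≤ n) (hcard : Nat.card E = 2 ^ (2 * n + 1)) : ((∃ A : Subgroup E, Cfsg.IsElementaryAbelian 2 A ∧ Nat.card ↥A = 2 ^ (n + 1)) → Nonempty (Cfsg.Out E ≃* Cfsg.isometryGroup (ZMod 2) (Cfsg.quadFormPlus n (ZMod 2)))) ∧ ((¬ ∃ A : Subgroup E, Cfsg.IsElementaryAbelian 2 A ∧ Nat.card ↥A = 2 ^ (n + 1)) → Nonempty (Cfsg.Out E ≃* Cfsg.isometryGroup (ZMod 2) (Cfsg.quadFormMinus (n - 1) (ZMod 2) 1 1))) := by
  open Subgroup CfsgH2 in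
  open CfsgH1 hiding SS card_inf_mul_relIndex card_lt_of_lt card_lt_of_ne_top card_map_mul_card_inf_ker card_mul_relIndex card_subgroupOf card_sup_dvd card_sup_mul_card_inf coprime_le_sup_cent exists_card_prime_le isNilpotent_map isNilpotent_of_le isPGroup_pCore isSolvable_map isSolvable_of_le le_pCore le_pPrimeCore relIndex_map_dvd in
  open scoped CfsgH1 in
  open scoped commutatorElement in
  · obtain ⟨m, rfl⟩ : ∃ m, n = m + 1 := ⟨n - 1, by omega⟩
    have w := (extraspecial_top_iff.1 hE).1
    have c := card_top.trans hcard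
    refine ⟨fun ⟨A, h, hc⟩ => ?_, fun h => ?_⟩
    · have x := (XB.xz (XB.bp_nd (m + 1))).wx
      have p := w.pos_of_el c ⟨h, hc⟩ le_top
      obtain ⟨e⟩ := equiv_of_DD w x (hcard.trans (XB.bp_card _).symm) (by
        rw [(w.DD_cases c).resolve_right fun e => p.not_ge (e ▸ neg_nonpos.2 (by positivity)),
          (x.DD_cases (card_top.trans (XB.bp_card _))).resolve_right fun e => (XB.bp_DD m).not_ge (e ▸ neg_nonpos.2 (by positivity))])
      exact ⟨(out_congr e).some.trans (XB.out (XB.bp_nd _)).some⟩
    · have x := (XB.xz (XB.bm_nd m)).wx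
      obtain ⟨e⟩ := equiv_of_DD w x (hcard.trans (XB.bm_card _).symm) (by
        rw [(w.DD_cases c).resolve_left fun e => h (((w.exists_el _ _ c).2 (e ▸ by positivity)).imp fun A h => ⟨h.2.1, h.2.2⟩),
          (x.DD_cases (card_top.trans (XB.bm_card _))).resolve_left fun e => (XB.bm_DD m).not_ge (e ▸ by positivity)])
      exact ⟨(out_congr e).some.trans (XB.bm_q m ▸ XB.out (XB.bm_nd _)).some⟩

end Cfsg.Agent.S5432
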