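import Cfsg.Statements.S5434
import Cfsg.Agent.H1.LX

set_option autoImplicit false
open Cfsg

namespace Cfsg.Agent.S5434

/-- Let Q be a large extraspecial 2-subgroup of the finite group G (extraspecial; centralizer equal to its centre; normal in the centralizer of its centre; normalizing no non-trivial subgroup of odd order), and A a non-trivial subgroup of odd order of the normalizer of Q. Then Q is the central product of the centralizer of A in Q and the commutator subgroup [Q, A] (they generate Q and commute elementwise), [Q, A] is extraspecial, and the centralizer of A in Q is either the centre of Q or extraspecial. -/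
theorem result {G : Type*} [Group G] [Finite G] (Q : Subgroup G) (hQ : Cfsg.IsLargeExtraspecial Q) (A : Subgroup G) (hA : A ≤ Subgroup.normalizer (Q : Set G)) (hAodd : Odd (Nat.card ↥A)) (hA1 : A ≠ ⊥) : (Q ⊓ Subgroup.centralizer (A : Set G)) ⊔ ⁅Q, A⁆ = Q ∧ (∀ x ∈ Q ⊓ Subgroup.centralizer (A : Set G), ∀ y ∈ ⁅Q, A⁆, x * y = y * x) ∧ Cfsg.IsExtraspecial 2 ↥⁅Q, A⁆ ∧ (Q ⊓ Subgroup.centralizer (A : Set G) = ((Subgroup.center ↥Q).map Q.subtype) ∨ Cfsg.IsExtraspecial 2 ↥(Q ⊓ Subgroup.centralizer (A : Set G))) := by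
  open Subgroup CfsgH2 in
  open CfsgH1 hiding card_inf_mul_relIndex card_lt_of_lt card_lt_of_ne_top card_map_mul_card_inf_ker card_mul_relIndex card_subgroupOf card_sup_dvd card_sup_mul_card_inf coprime_le_sup_cent exists_card_prime_le isNilpotent_map isNilpotent_of_le isPGroup_pCore isSolvable_map isSolvable_of_le le_pCore le_pPrimeCore relIndex_map_dvd in
  open scoped CfsgH1 in
  open CfsgL0 hiding cj cj_injective comm_zpowers_le conj_mem_of_mem_normalizer conj_mem_of_mem_normalizer' isPGroup_of_forall isPGroup_zpowers isPGroup_zpowers_of_orderOf mem_normalizer_of_conj_mem sec_sub in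
  open scoped CfsgL0 in
  open scoped commutatorElement in
  · obtain ⟨z, h⟩ := exists_lx hQ.1 hQ.2.1 hQ.2.2.1
    rw [h.center_eq]
    have c := (coprime_of_pgroup h.pg hAodd.not_two_dvd_nat).symm
    have s : Sol[A] ∨ Sol[Q] := Or.inr (by haveI := h.pg.isNilpotent; infer_instance)
    have h1 := coprime_comm_sup_cent hA c s
    have z1 : z ∈ C[A] := le_cent1_iff.1 (hA.trans h.norm_le)
    have l : ⁅Q, A⁆ ≤ Q := comm_le_left hA
    have h2 : ⁅Q, A⁆ ≤ C[Q ⊓ C[A]] := commutator_eq_bot_iff_le_centralizer.1 (three_subgroup (by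
      rw [commutator_comm A, commutator_eq_bot_iff_le_centralizer.2 inf_le_right, commutator_bot_left]) (commutator_eq_bot_iff_le_centralizer.2
        ((commutator_mono inf_le_left le_rfl).trans (h.der.trans (zpowers_le.2 z1)))))
    refine ⟨(sup_comm _ _).trans h1, fun x hx y hy => mem_cent_iff.1 (h2 hy) x hx, (h.of_le l (fun ab => hA1 ?_) ?_).ext, ?_⟩
    · have : ⁅Q, A⁆ ≤ C[Q] := by
        conv_rhs => rw [← h1, cent_sup]
        exact le_inf (le_cent_of_comm ab le_rfl) h2
      exact eq_bot_iff.2 ((le_inf (((coprime_le_cent hA c s (this.trans (h.cent_eq.le.trans (zpowers_le.2 z1))))).trans h.cent) le_rfl).trans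
        (inf_eq_bot_of_coprime' c.symm).le)
    · rw [← h.cent_eq]; conv_rhs => rw [← h1, cent_sup]
      exact le_inf inf_le_right (inf_le_left.trans h2)
    have k : Z[Q ⊓ C[A]] ≤ zpowers z := by
      rw [← h.cent_eq]; conv_rhs => rw [← h1, cent_sup]
      exact le_inf (inf_le_left.trans (le_centralizer_iff.1 h2)) inf_le_right
    by_cases ab : Ab[Q ⊓ C[A]]
    · exact Or.inl (le_antisymm ((le_inf le_rfl (le_cent_of_comm ab le_rfl)).trans k) (zpowers_le.2 ⟨h.mem, z1⟩))
    · exact Or.inr (h.of_le inf_le_left ab k).ext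

end Cfsg.Agent.S5434
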