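import Cfsg.Statements.S5435
import Cfsg.Agent.H1.Misc1
import Cfsg.Agent.S0215
import Cfsg.Agent.H9.Tech2
import Cfsg.Agent.L0.Invol
import Cfsg.Agent.H1.LX

set_option autoImplicit false
open Cfsg

namespace Cfsg.Agent.S5435

/-- Let L be a finite non-abelian simple group with an involution z whose centralizer R is a Sylow 2-subgroup of L whose Frattini subgroup is the subgroup generated by z. Then R is dihedral of order 8. -/
theorem result {L : Type*} [Group L] [Finite L] [IsSimpleGroup L] (hL : ¬ IsMulCommutative L) (z : L) (hz : orderOf z = 2) (R : Sylow 2 L) (hR : (R : Subgroup L) = Subgroup.centralizer ({z} : Set L)) (hΦ : (frattini ↥(R : Subgroup L)).map (R : Subgroup L).subtype = Subgroup.zpowers z) : Nonempty (↥(R : Subgroup L) ≃* DihedralGroup 4) := by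
  open Subgroup CfsgH2 in
  open CfsgH1 hiding card_inf_mul_relIndex card_lt_of_lt card_lt_of_ne_top card_map_mul_card_inf_ker card_mul_relIndex card_subgroupOf card_sup_dvd card_sup_mul_card_inf coprime_le_sup_cent exists_card_prime_le isNilpotent_map isNilpotent_of_le isPGroup_pCore isSolvable_map isSolvable_of_le le_pCore le_pPrimeCore relIndex_map_dvd in
  open scoped CfsgH1 in
  open scoped commutatorElement in
  · haveI : Fact (Nat.Prime 2) := ⟨Nat.prime_two⟩
    have hS : Syl 2 (R : Subgroup L) ⊤ := syl_top R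
    have od : Odd (R : Subgroup L).index := Nat.odd_iff.2 (Nat.two_dvd_ne_zero.1 R.not_dvd_index)
    have zs : ¬ ∀ g : L, g * z * g⁻¹ ∈ (R : Subgroup L) → g * z * g⁻¹ = z := fun h => by
      obtain ⟨N, n1, n2, n3⟩ := S0215.result R z hz (hR.ge (mem_centralizer_singleton_iff.2 rfl)) h
      rcases n1.eq_bot_or_eq_top with rfl | rfl
      · have : center L = ⊤ := ((inferInstance : (center L).Normal).eq_bot_or_eq_top).resolve_left fun e => ne_one_of_two hz (e.le (mem_center_iff.2 fun g =>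
          (commutatorElement_eq_one_iff_mul_comm.1 (n3 g)).symm))
        exact hL ⟨⟨fun a b => mem_center_iff.1 (this.ge (mem_top b)) a⟩⟩
      · exact Nat.not_even_iff_odd.2 n2 (even_iff_two_dvd.2 (by rw [card_top, ← hz]; exact orderOf_dvd_natCard z))
    replace hΦ : Φ[(R : Subgroup L)] = zpowers z := hΦ
    generalize (R : Subgroup L) = S at *
    subst hR
    have pf : commutator L = ⊤ := ((inferInstance : (commutator L).Normal).eq_bot_or_eq_top).resolve_left fun e => hL ⟨⟨fun a b =>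
      commutatorElement_eq_one_iff_mul_comm.1 (e.le (commutator_mem_commutator (mem_top a) (mem_top b)))⟩⟩
    have nR : N[C1[z]] ≤ C1[z] := norm_le_norm_phi.trans (by rw [hΦ, norm_zp2 hz])
    have key : ∀ u ∈ C1[z], u ∈ C[C1[z]] → u ^ 2 = 1 → u ∈ zpowers z := fun u hu hc h2 => by_contra fun n => by
      obtain ⟨M, m1, m2⟩ : ∃ M : Subgroup C1[z], IsCoatom M ∧ ⟨u, hu⟩ ∉ M := by
        by_contra! c
        exact n (hΦ.le ⟨⟨u, hu⟩, by simpa [frattini, Order.radical, mem_iInf] using c, rfl⟩)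
      obtain ⟨T, t1, t2, t3, t4⟩ := exists_maximal_sub hS.pg (K := M.map C1[z].subtype) ((map_subtype_le _).lt_of_ne fun e => m2 ((mem_map_iff_mem C1[z].subtype_injective).1 (e.ge hu)))
      have uT : u ∉ T := fun h => m2 ((m1.le_iff.1 (map_le_iff_le_comap.1 t1)).elim (fun e => absurd (index_eq_one.2 e ▸ t4 : 1 = 2) (by decide)) fun e => e.le h)
      haveI := normal_subgroupOf_of_le_normalizer t3
      obtain ⟨g, g1, g2⟩ := CfsgH9.extremal_transfer od (isCyclic_of_prime_card (p := 2) t4) h2 hu uT t2 (pf.ge (mem_top u)) hS.pg (le_cent1_iff.2 hc)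
      rw [mem_cent_iff.1 hc g (nR (mem_norm_of_map_le g2)), mul_inv_cancel_right] at g1
      exact uT g1
    have sq : ∀ a ∈ C1[z], a ^ 2 ∈ zpowers z := fun a ha => hΦ.le (pow_mem_phi hS.pg ha)
    have cm : ∀ a ∈ C1[z], ∀ b ∈ C1[z], a * b * a⁻¹ * b⁻¹ ∈ zpowers z := fun a ha b hb => hΦ.le (comm_le_phi hS.pg.isNilpotent (commutator_mem_commutator ha hb))
    push Not at zs
    obtain ⟨g, hx, xz⟩ := zs
    have ox : orderOf (g * z * g⁻¹) = 2 := ((MulAut.conj g).orderOf_eq z).trans hz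
    have sx : ∀ a ∈ C1[z] ⊓ C1[g * z * g⁻¹], a ^ 2 = 1 := fun a ha => by
      have h1 := (mem_zp2 hz).1 (sq (g⁻¹ * a * g) (mem_centralizer_singleton_iff.2 (by
        have := mem_centralizer_singleton_iff.1 ha.2
        calc _ = g⁻¹ * (a * (g * z * g⁻¹)) * g := by group
          _ = _ := by rw [this]; group)))
      rw [show g⁻¹ * a * g = g⁻¹ * a * g⁻¹⁻¹ by rw [inv_inv], conj_pow] at h1
      refine ((mem_zp2 hz).1 (sq a ha.1)).resolve_right fun e => ?_
      rw [e] at h1
      rcases h1 with h1 | h1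
      · exact ne_one_of_two hz (conj_eq_one_iff.1 h1)
      · exact xz ((congrArg (fun w => g * w * g⁻¹) h1.symm).trans (by group))
    generalize g * z * g⁻¹ = x at *
    have nx : x ∉ zpowers z := fun h => ((mem_zp2 hz).1 h).elim (ne_one_of_two ox) xz
    obtain ⟨s, hs, ns⟩ := SetLike.not_le_iff_exists.1 fun h : C1[z] ≤ C1[x] => nx (key x hx (le_cent1_iff.1 h) (ox ▸ pow_orderOf_eq_one x))
    have i1 : C1[x].relIndex C1[z] ≤ 2 := (relIndex_cent1_le (K := zpowers z) fun a ha => cm a ha x hx).trans (by rw [Nat.card_zpowers, hz])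
    have i2 : C1[s].relIndex (C1[z] ⊓ C1[x]) ≤ 2 := (relIndex_cent1_le (H := C1[z] ⊓ C1[x]) (K := zpowers z) fun a ha => cm a ha.1 s hs).trans (by rw [Nat.card_zpowers, hz])
    have i3 : C1[x].relIndex C1[z] = 2 := by
      have h1 : C1[x].relIndex C1[z] ≠ 1 := fun e => ns (relIndex_eq_one.1 e hs)
      have h2 : C1[x].relIndex C1[z] ≠ 0 := index_ne_zero_of_finite
      omega
    have ea := CfsgH9.ea_of_sq sx
    have l : C1[z] ⊓ C1[x] ⊓ C1[s] ≤ zpowers z := fun a ha => key a ha.1.1 (mem_cent_iff.2 fun b hb => by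
      by_cases h : b ∈ C1[x]
      · exact mem_cent_iff.1 (le_cent_self ea.1 ha.1) b ⟨hb, h⟩
      have := mem_cent_iff.1 (le_cent_self ea.1 ha.1) (b * s) ⟨mul_mem hb hs, (mul_mem_iff_of_index_two (H := C1[x].subgroupOf C1[z]) i3 (a := ⟨b, hb⟩) (b := ⟨s, hs⟩)).2 (iff_of_false h ns)⟩
      rwa [mul_assoc, ← mem_centralizer_singleton_iff.1 ha.2, ← mul_assoc, ← mul_assoc, mul_left_inj] at this) (sx a ha.1)
    have c : o[C1[z]] ≤ 8 := by
      have h1 := card_le_of_le l
      have h2 := card_inf_mul_relIndex C1[s] (C1[z] ⊓ C1[x])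
      have h3 := card_inf_mul_relIndex C1[x] C1[z]
      rw [Nat.card_zpowers, hz] at h1
      rw [inf_comm] at h2 h3
      rw [← h3, ← h2, i3]
      exact Nat.mul_le_mul_right 2 (Nat.mul_le_mul h1 i2)
    have x2 := mul_self_of_two ox
    have e : s * x * s⁻¹ * x⁻¹ = z := ((mem_zp2 hz).1 (cm s hs x hx)).resolve_left fun e => ns (mem_centralizer_singleton_iff.2 (by rw [← mul_inv_eq_one, ← e]; group))
    obtain ⟨a, ha, na, a2⟩ : ∃ a ∈ C1[z], a ∉ C1[x] ∧ a ^ 2 = z := by
      rcases (mem_zp2 hz).1 (sq s hs) with h | h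
      · refine ⟨s * x, mul_mem hs hx, fun k => ns ((mul_mem_cancel_right (mem_centralizer_singleton_iff.2 rfl)).1 k), ?_⟩
        rw [← e, inv_of_two ox, inv_eq_of_mul_eq_one_left (pow_two s ▸ h), pow_two, mul_assoc (s * x)]
      · exact ⟨s, hs, ns, h⟩
    have o : orderOf a = 2 ^ 2 := orderOf_eq_prime_pow (by simpa [a2] using ne_one_of_two hz) (by rw [show 2 ^ (1 + 1) = 2 * 2 by norm_num, pow_mul, a2, pow_two, mul_self_of_two hz])
    have nm : x ∉ zpowers a := fun ⟨k, hk⟩ => na (mem_centralizer_singleton_iff.2 (hk ▸ (Commute.zpow_right rfl k).eq))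
    have iv : x * a * x⁻¹ = a⁻¹ := by
      have := ((mem_zp2 hz).1 (cm x hx a ha)).resolve_left fun e => na (mem_centralizer_singleton_iff.2 (by rw [eq_comm, ← mul_inv_eq_one, ← e]; group))
      rw [mul_inv_eq_iff_eq_mul.1 this, ← a2, eq_inv_iff_mul_eq_one, ← pow_succ, ← pow_succ, ← pow_orderOf_eq_one a, o]; rfl
    obtain ⟨φ⟩ := CfsgL0.dihedral_iso x a x2 iv nm
    rw [o] at φ
    have : closure {x, a} = C1[z] := eq_of_le_of_card_ge ((closure_le _).2 (Set.pair_subset hx ha)) (c.trans (by rw [Nat.card_congr φ.toEquiv, DihedralGroup.nat_card]; rfl))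
    exact ⟨(MulEquiv.subgroupCongr this.symm).trans φ⟩

end Cfsg.Agent.S5435
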