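import Cfsg.Statements.S5436
import Cfsg.Agent.H1.LX3

set_option autoImplicit false
open Cfsg

namespace Cfsg.Agent.S5436

/-- Let z be an involution of the finite group G with centralizer H whose generalized Fitting subgroup Q is extraspecial of width at least 2 (order 2^(2w+1), w ≥ 2); suppose some conjugate of z other than z lies in Q, H/Q is a non-abelian simple group, H acts irreducibly by conjugation on Q modulo the subgroup generated by z (the only H-invariant subgroups of Q containing z are that subgroup and Q), and Q is not the subgroup generated by the conjugates of z lying in H. Then G is simple. -/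
theorem result {G : Type*} [Group G] [Finite G] (z : G) (hz : orderOf z = 2) (Q : Subgroup (Subgroup.centralizer ({z} : Set G))) [Q.Normal] (hF : Cfsg.generalizedFittingSubgroup ↥(Subgroup.centralizer ({z} : Set G)) = Q) (hQ : Cfsg.IsExtraspecial 2 ↥Q) (w : ℕ) (hw : 2 ≤ w) (hcard : Nat.card ↥Q = 2 ^ (2 * w + 1)) (hnwc : ∃ g : G, (∃ hq : g * z * g⁻¹ ∈ Subgroup.centralizer ({z} : Set G), (⟨g * z * g⁻¹, hq⟩ : Subgroup.centralizer ({z} : Set G)) ∈ Q) ∧ g * z * g⁻¹ ≠ z) (hsimp : IsSimpleGroup (↥(Subgroup.centralizer ({z} : Set G)) ⧸ Q)) (hna : ¬ IsMulCommutative (↥(Subgroup.centralizer ({z} : Set G)) ⧸ Q)) (hirr : ∀ W : Subgroup (Subgroup.centralizer ({z} : Set G)), W.Normal → W ≤ Q → (W = Q ∨ ∀ x ∈ W, (x : G) ∈ Subgroup.zpowers z)) (hwcl : Subgroup.closure {x : Subgroup.centralizer ({z} : Set G) | IsConj z (x : G)} ≠ Q) : IsSimpleGroup G := by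
  open Subgroup CfsgH2 in
  open CfsgH1 hiding SS card_inf_mul_relIndex card_lt_of_lt card_lt_of_ne_top card_map_mul_card_inf_ker card_mul_relIndex card_subgroupOf card_sup_dvd card_sup_mul_card_inf coprime_le_sup_cent exists_card_prime_le isNilpotent_map isNilpotent_of_le isPGroup_pCore isSolvable_map isSolvable_of_le le_pCore le_pPrimeCore relIndex_map_dvd in
  open scoped CfsgH1 in
  open scoped commutatorElement in
  · obtain ⟨g, ⟨hg, h1⟩, h2⟩ := hnwc
    have h := lx_of_Fs (Q := Q.map (Subgroup.subtype _)) hz (by rw [← hF]; rfl) (by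
      haveI : Fact (Nat.Prime 2) := ⟨Nat.prime_two⟩
      rwa [extraspecial_iff, inj_wx (subtype_injective _), inj_isMulComm (subtype_injective _), ← extraspecial_iff])
    refine h.simple (h.large_of_conj (mem_map_of_mem _ h1) h2) ?_
    set W := closure {x : C1[z] | IsConj z (x : G)}
    haveI : W.Normal := ⟨fun n hn c => closure_induction (p := fun n _ => c * n * c⁻¹ ∈ W) (fun x hx => subset_closure (IsConj.trans hx (isConj_iff.2 ⟨c, rfl⟩)))
      (by simp) (fun x y _ _ h1 h2 => by rw [← conj_mul]; exact mul_mem h1 h2) (fun x _ h => by simpa [mul_assoc] using inv_mem h) hn⟩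
    have l : Q ≤ W := inf_eq_right.1 ((hirr (W ⊓ Q) inferInstance inf_le_right).resolve_right fun k =>
      ((mem_zp2 hz).1 (k _ ⟨subset_closure (isConj_iff.2 ⟨g, rfl⟩), h1⟩)).elim (fun e => ne_one_of_two hz (conj_eq_one_iff.1 e)) h2)
    have t : W = ⊤ := by
      rcases hsimp.eq_bot_or_eq_top_of_normal (W.map (QuotientGroup.mk' Q)) (Normal.map inferInstance _ (QuotientGroup.mk'_surjective Q)) with e | e
      · exact absurd (le_antisymm (by rwa [Subgroup.map_eq_bot_iff, QuotientGroup.ker_mk'] at e) l) hwcl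
      · rw [← comap_map_eq_self (f := QuotientGroup.mk' Q) (H := W) (by rwa [QuotientGroup.ker_mk']), e, comap_top]
    intro x hx
    refine ((closure_le ((normalClosure {z}).subgroupOf _)).2 fun y hy => ?_) (t.ge (mem_top ⟨x, hx⟩))
    obtain ⟨c, hc⟩ := isConj_iff.1 hy
    exact mem_subgroupOf.2 (hc ▸ normalClosure_normal.conj_mem z (subset_normalClosure (Set.mem_singleton z)) c)

end Cfsg.Agent.S5436
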