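import Cfsg.Statements.S5437
import Cfsg.Agent.H1.LX

set_option autoImplicit false
open Cfsg

namespace Cfsg.Agent.S5437

/-- Let I be a set of involutions of the finite group G closed under conjugation, and H a subgroup of G. The following are equivalent: (1) for every member x of I lying in H, the conjugates of x lying in H form a single H-class and the centralizer of x lies in H; (2) for every g outside H, no member of I lies in both H and g H g⁻¹; (3) every member of I lying in H fixes exactly one coset in the action of G on the cosets of H. -/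
theorem result {G : Type*} [Group G] [Finite G] (I : Set G) (hI : ∀ x ∈ I, orderOf x = 2) (hIc : ∀ g : G, ∀ x ∈ I, g * x * g⁻¹ ∈ I) (H : Subgroup G) : ((∀ x ∈ I, x ∈ H → (∀ g : G, g * x * g⁻¹ ∈ H → ∃ h ∈ H, h * x * h⁻¹ = g * x * g⁻¹) ∧ Subgroup.centralizer ({x} : Set G) ≤ H) ↔ (∀ g : G, g ∉ H → ∀ x ∈ I, ¬ (x ∈ H ∧ x ∈ (H : Subgroup G).map (MulAut.conj g).toMonoidHom))) ∧ ((∀ g : G, g ∉ H → ∀ x ∈ I, ¬ (x ∈ H ∧ x ∈ (H : Subgroup G).map (MulAut.conj g).toMonoidHom)) ↔ ∀ x ∈ I, x ∈ H → ∃! c : G ⧸ H, x • c = c) := by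
  open Subgroup CfsgH2 in
  open CfsgH1 hiding card_inf_mul_relIndex card_lt_of_lt card_lt_of_ne_top card_map_mul_card_inf_ker card_mul_relIndex card_subgroupOf card_sup_dvd card_sup_mul_card_inf coprime_le_sup_cent exists_card_prime_le isNilpotent_map isNilpotent_of_le isPGroup_pCore isSolvable_map isSolvable_of_le le_pCore le_pPrimeCore relIndex_map_dvd in
  open scoped CfsgH1 in
  open CfsgL0 hiding cj cj_injective comm_zpowers_le conj_mem_of_mem_normalizer conj_mem_of_mem_normalizer' isPGroup_of_forall isPGroup_zpowers isPGroup_zpowers_of_orderOf mem_normalizer_of_conj_mem sec_sub in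
  open scoped CfsgL0 in
  open scoped commutatorElement in
  · have f : ∀ x g : G, x • (g : G ⧸ H) = g ↔ x ∈ H.map (cj g) := fun x g => by
      rw [MulAction.Quotient.smul_coe, eq_comm, QuotientGroup.eq, mem_map_cj, smul_eq_mul, mul_assoc]
    refine ⟨⟨fun h g hg x hx ⟨h1, h2⟩ => hg ?_, fun h x hx h1 => ?_⟩, fun h x hx h1 => ⟨(1 : G), (f x 1).2 (by simpa using h1), fun c hc => ?_⟩,
      fun h g hg x hx ⟨h1, h2⟩ => hg ?_⟩
    · obtain ⟨k, hk, e⟩ := (h x hx h1).1 g⁻¹ (by simpa using mem_map_cj.1 h2)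
      refine (mul_mem_cancel_right hk).1 ((h x hx h1).2 (mem_c1.2 ?_))
      calc g * k * x = g * (k * x * k⁻¹) * k := by group
        _ = _ := by rw [e]; group
    · have : ∀ g : G, g * x * g⁻¹ ∈ H → g ∈ H := fun g hg => by_contra fun c =>
        h g⁻¹ (mt inv_mem_iff.1 c) x hx ⟨h1, mem_map_cj.2 (by simpa using hg)⟩
      exact ⟨fun g hg => ⟨g, this g hg, rfl⟩, fun g hg => this g (by rwa [mem_c1.1 hg, mul_inv_cancel_right])⟩
    · obtain ⟨g, rfl⟩ := QuotientGroup.mk_surjective c
      refine QuotientGroup.eq.2 (by_contra fun c => h g (fun d => c (by simpa using d)) x hx ⟨h1, (f x g).1 hc⟩)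
    · simpa using QuotientGroup.eq.1 ((h x hx h1).unique ((f x 1).2 (by simpa using h1)) ((f x g).2 h2))

end Cfsg.Agent.S5437
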