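import Cfsg.Statements.S5438
import Cfsg.Agent.H1.LX

set_option autoImplicit false
open Cfsg

namespace Cfsg.Agent.S5438

/-- Let z be a 2-central involution of the finite group G (an involution central in some Sylow 2-subgroup) and H a subgroup containing z such that the coset H is the only coset of H fixed by z (in the action of G on the cosets of H). Then H has odd index in G, and for every 2-element x of H the conjugates of x lying in H form a single H-class. -/
theorem result {G : Type*} [Group G] [Finite G] (z : G) (hz : Cfsg.IsTwoCentralInvolution z) (H : Subgroup G) (hzH : z ∈ H) (hfix : ∀ g : G, g⁻¹ * z * g ∈ H → g ∈ H) : Odd H.index ∧ ∀ x ∈ H, (∃ k : ℕ, orderOf x = 2 ^ k) → ∀ g : G, g * x * g⁻¹ ∈ H → ∃ h ∈ H, h * x * h⁻¹ = g * x * g⁻¹ := by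
  open Subgroup CfsgH2 in
  open CfsgH1 hiding card_inf_mul_relIndex card_lt_of_lt card_lt_of_ne_top card_map_mul_card_inf_ker card_mul_relIndex card_subgroupOf card_sup_dvd card_sup_mul_card_inf coprime_le_sup_cent exists_card_prime_le isNilpotent_map isNilpotent_of_le isPGroup_pCore isSolvable_map isSolvable_of_le le_pCore le_pPrimeCore relIndex_map_dvd in
  open scoped CfsgH1 in
  open CfsgL0 hiding cj cj_injective comm_zpowers_le conj_mem_of_mem_normalizer conj_mem_of_mem_normalizer' isPGroup_of_forall isPGroup_zpowers isPGroup_zpowers_of_orderOf mem_normalizer_of_conj_mem sec_sub in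
  open scoped CfsgL0 in
  open scoped commutatorElement in
  · obtain ⟨h2, P, hP, hc⟩ := hz
    have A : ∀ S : Subgroup G, PG[2, S] → ∀ h ∈ H, h * z * h⁻¹ ∈ S → S ≤ H := fun S hS h hh hz => by_contra fun c => by
      obtain ⟨s, hs, s1⟩ := SetLike.exists_of_lt (lt_inf_norm hS.isNilpotent (inf_lt_left.2 c))
      have := (conj_mem_of_norm' hs.2 (mem_inf.2 ⟨hz, mul_mem (mul_mem hh hzH) (inv_mem hh)⟩)).2
      exact s1 ⟨hs.1, (mul_mem_cancel_left (inv_mem hh)).1 (hfix _ (by simpa [mul_assoc] using this))⟩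
    have l : P.1 ≤ H := A P P.2 1 (one_mem _) (by rw [one_mul, inv_one, mul_one]; exact hP)
    have hP' := (syl_top P).mono l le_top
    refine ⟨Nat.not_even_iff_odd.1 fun e => (syl_top P).not_dvd_of_le l (relIndex_top_right H ▸ e.two_dvd), fun x hx ⟨k, hk⟩ g hg => ?_⟩
    have B : ∀ y ∈ H, orderOf y = 2 ^ k → ∃ h ∈ H, h * z * h⁻¹ ∈ C1[y] := fun y hy e => by
      obtain ⟨h, hh, t⟩ := hP'.exists_conj_le (IsPGroup.of_card ((Nat.card_zpowers y).trans e)) (zpowers_le.2 hy)
      refine ⟨h⁻¹, inv_mem hh, mem_c1.2 ?_⟩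
      calc _ = h⁻¹ * (z * (h * y * h⁻¹)) * h := by group
        _ = _ := by rw [← hc _ (t (conj_mem_map_cj (mem_zpowers y)))]; group
    obtain ⟨h1, k1, e1⟩ := B x hx hk
    obtain ⟨h3, k3, e3⟩ := B _ hg (by rw [← hk]; exact orderOf_injective (cj g) (CfsgH2.cj_injective g) x)
    have pg : ∀ g : G, PG[2, zpowers (g * z * g⁻¹)] := fun g => IsPGroup.of_card (n := 1) (by
      rw [Nat.card_zpowers, pow_one, ← h2]; exact orderOf_injective (cj g) (CfsgH2.cj_injective g) z)
    obtain ⟨S, hS, l⟩ := exists_syl_ge (pg h1) (zpowers_le.2 e1)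
    rw [centralizer_conj, mem_map_cj] at e3
    obtain ⟨c, c1, c2⟩ := hS.exists_conj_le (pg (g⁻¹ * h3)) (zpowers_le.2 (by simpa [mul_assoc] using e3))
    have := hfix (h3⁻¹ * g * c⁻¹) (by simpa [mul_assoc] using A S hS.pg h1 k1 (zpowers_le.1 l) (c2 (conj_mem_map_cj (mem_zpowers _))))
    refine ⟨g * c⁻¹, (mul_mem_cancel_left (inv_mem k3)).1 (by rwa [← mul_assoc]), ?_⟩
    calc _ = g * c⁻¹ * (x * c) * g⁻¹ := by group
      _ = _ := by rw [← mem_c1.1 c1]; group

end Cfsg.Agent.S5438
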