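import Cfsg.Statements.S5439
import Cfsg.Agent.H1.LX
import Cfsg.Agent.L0.Invol

set_option autoImplicit false
open Cfsg

namespace Cfsg.Agent.S5439

/-- Let I and J be two different conjugacy classes of involutions of the finite group G and H a subgroup such that every member of I ∪ J fixes exactly one coset in the action on the cosets of H, and such that for every a in I ∩ H and every b in (I ∪ J) ∩ H different from a and commuting with it, the centralizer of a b lies in H. Then H = G. -/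
theorem result {G : Type*} [Group G] [Finite G] (I J : Set G) (a₀ b₀ : G) (ha₀ : orderOf a₀ = 2) (hb₀ : orderOf b₀ = 2) (hI : I = {x | IsConj a₀ x}) (hJ : J = {x | IsConj b₀ x}) (hIJ : I ≠ J) (H : Subgroup G) (hfix : ∀ x ∈ I ∪ J, ∃! c : G ⧸ H, x • c = c) (hcent : ∀ a ∈ I, a ∈ H → ∀ b ∈ I ∪ J, b ∈ H → a ≠ b → a * b = b * a → Subgroup.centralizer ({a * b} : Set G) ≤ H) : H = ⊤ := by
  open Subgroup CfsgH2 in
  open CfsgH1 hiding card_inf_mul_relIndex card_lt_of_lt card_lt_of_ne_top card_map_mul_card_inf_ker card_mul_relIndex card_subgroupOf card_sup_dvd card_sup_mul_card_inf coprime_le_sup_cent exists_card_prime_le isNilpotent_map isNilpotent_of_le isPGroup_pCore isSolvable_map isSolvable_of_le le_pCore le_pPrimeCore relIndex_map_dvd in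
  open scoped CfsgH1 in
  open CfsgL0 hiding cj cj_injective comm_zpowers_le conj_mem_of_mem_normalizer conj_mem_of_mem_normalizer' isPGroup_of_forall isPGroup_zpowers isPGroup_zpowers_of_orderOf mem_normalizer_of_conj_mem sec_sub in
  open scoped CfsgL0 in
  open scoped commutatorElement in
  · by_contra c
    have f : ∀ x g : G, x • (g : G ⧸ H) = g ↔ g⁻¹ * x * g ∈ H := fun x g => by
      rw [MulAction.Quotient.smul_coe, eq_comm, QuotientGroup.eq, smul_eq_mul, mul_assoc]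
    have f1 : ∀ x ∈ I ∪ J, x ∈ H → ∀ g : G, g⁻¹ * x * g ∈ H → g ∈ H := fun x hx h g hg => by
      simpa using QuotientGroup.eq.1 ((hfix x hx).unique ((f x 1).2 (by simpa using h)) ((f x g).2 hg))
    have f2 : ∀ x ∈ I ∪ J, ∃ y ∈ H, IsConj x y := fun x hx => by
      obtain ⟨q, hq⟩ := (hfix x hx).exists
      obtain ⟨g, rfl⟩ := QuotientGroup.mk_surjective q
      exact ⟨_, (f x g).1 hq, isConj_iff.2 ⟨g⁻¹, by simp⟩⟩
    subst hI hJ
    obtain ⟨a, ha, a1⟩ := f2 a₀ (Or.inl (IsConj.refl _))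
    obtain ⟨b', hb', b1⟩ := f2 b₀ (Or.inr (IsConj.refl _))
    obtain ⟨g, -, hg⟩ := SetLike.not_le_iff_exists.1 (mt top_le_iff.1 c)
    have b2 : g⁻¹ * b' * g ∉ H := fun e => hg (f1 b' (Or.inr b1) hb' g e)
    have b3 : IsConj b₀ (g⁻¹ * b' * g) := b1.trans (isConj_iff.2 ⟨g⁻¹, by simp⟩)
    generalize g⁻¹ * b' * g = b at b2 b3
    have o : ∀ {x y : G}, orderOf x = 2 → IsConj x y → y * y = 1 := fun {x y} h e => by
      obtain ⟨g, rfl⟩ := isConj_iff.1 e
      rw [conj_mul, mul_self_of_two h]; simp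
    have a2 := o ha₀ a1
    have b4 := o hb₀ b3
    rcases conj_or_common a2 b4 with ⟨k, hk⟩ | ⟨m, -, h1, h2, h3⟩
    · have : IsConj a₀ b₀ := (a1.trans (isConj_iff.2 ⟨_, hk⟩)).trans b3.symm
      exact hIJ (Set.ext fun x => ⟨this.symm.trans, this.trans⟩)
    have t1 : (a * b) ^ m ∈ H := f1 a (Or.inl a1) ha _ (by rwa [mul_assoc, ← h2.eq, inv_mul_cancel_left])
    have e : ∀ k : ℕ, a * (a * b) ^ k = ((a * b) ^ k)⁻¹ * a := fun k => by
      have : a * (a * b) * a⁻¹ = (a * b)⁻¹ := by rw [← mul_assoc, a2, one_mul, mul_inv_rev, inv_eq_of_mul_eq_one_left b4]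
      rw [← inv_pow, ← this, conj_pow, inv_mul_cancel_right]
    have t2 : a * (a * b) ^ m ∈ {x | IsConj a₀ x} ∪ {x | IsConj b₀ x} := by
      obtain ⟨k, rfl | rfl⟩ := Nat.even_or_odd' m
      · exact Or.inl (a1.trans (isConj_iff.2 ⟨((a * b) ^ k)⁻¹, by rw [two_mul, pow_add, ← mul_assoc, e, inv_inv]⟩))
      · refine Or.inr (b3.trans (isConj_iff.2 ⟨((a * b) ^ k)⁻¹, ?_⟩))
        rw [two_mul, add_assoc, pow_add, ← mul_assoc, e, inv_inv, pow_succ', ← mul_assoc, ← mul_assoc, mul_assoc _ a a, a2, mul_one]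
    refine b2 (hcent a a1 ha _ t2 (mul_mem ha t1) (fun d => ne_one_of_two h1 (by simpa using d)) (by rw [mul_assoc, h2.eq]) ?_)
    rw [← mul_assoc, a2, one_mul]
    exact mem_c1.2 h3.eq.symm

end Cfsg.Agent.S5439
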