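import Cfsg.Statements.S5459
import Mathlib
import Cfsg.Agent.H9.Card

set_option autoImplicit false
open Cfsg

namespace Cfsg.Agent.S5459

/-- Let G be a finite group with a quasisimple normal subgroup L and an involution d such that G is generated by L and d, the centre of L has odd order, and d inverts every element of the centre of L. If the commuting graph on the conjugacy class of the image of d in G modulo the centre of L is connected, then the commuting graph on the conjugacy class of d is connected. -/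
theorem result {G : Type*} [Group G] [Finite G] (L : Subgroup G) [L.Normal] (hL : Cfsg.IsQuasisimple ↥L) (d : G) (hd : orderOf d = 2) (hgen : L ⊔ Subgroup.zpowers d = ⊤) (hodd : Odd (Nat.card ↥(Subgroup.center ↥L))) (hinv : ∀ c ∈ (Subgroup.center ↥L).map L.subtype, d * c * d⁻¹ = c⁻¹) [hn : ((Subgroup.center ↥L).map L.subtype).Normal] (hconn : (Cfsg.commutingGraph (conjugatesOf (QuotientGroup.mk d : G ⧸ (Subgroup.center ↥L).map L.subtype))).Connected) : (Cfsg.commutingGraph (conjugatesOf d)).Connected := by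
  open Subgroup CfsgH9 in
  open scoped commutatorElement in
  classical
  set Z := (center L).map L.subtype with hZ
  have d2 : d * d = 1 := by rw [← pow_two, ← hd, pow_orderOf_eq_one]
  have cz : ∀ c ∈ Z, ∀ l ∈ L, l * c = c * l := by
    rintro _ ⟨c, hc, rfl⟩ l hl
    exact congrArg Subtype.val (mem_center_iff.1 hc ⟨l, hl⟩)
  have zl : Z ≤ L := map_subtype_le _
  have rt : ∀ c ∈ Z, ∃ w ∈ Z, w * w = c := fun c hc => by
    obtain ⟨k, hk⟩ := hodd
    have : c ^ Nat.card (center L) = 1 := by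
      rw [← card_map_of_injective (K := center L) L.subtype_injective]
      exact congrArg Subtype.val (pow_card_eq_one' (x := (⟨c, hc⟩ : Z)))
    exact ⟨c ^ (k + 1), pow_mem hc _, by
      rw [← pow_add, show k + 1 + (k + 1) = Nat.card (center L) + 1 by omega, pow_succ, this, one_mul]⟩
  have D : ∀ x ∈ conjugatesOf d, x * x = 1 ∧ ∀ c ∈ Z, x * c = c⁻¹ * x := fun x hx => by
    obtain ⟨g, rfl⟩ := isConj_iff.1 hx
    refine ⟨by rw [conj_mul, d2, mul_one, mul_inv_cancel], fun c hc => ?_⟩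
    have := hinv _ (hn.conj_mem c hc g⁻¹)
    calc _ = g * (d * (g⁻¹ * c * g⁻¹⁻¹) * d⁻¹) * g⁻¹ * (g * d * g⁻¹) := by group
      _ = _ := by rw [this]; group
  have cs : ∀ x ∈ conjugatesOf d, ∀ c ∈ Z, ∃ w ∈ Z, w * x * w⁻¹ = x * c := fun x hx c hc => by
    obtain ⟨w, hw, rfl⟩ := rt c hc
    exact ⟨w⁻¹, inv_mem hw, by rw [← (D x hx).2 w hw, inv_inv, mul_assoc]⟩
  have cm : ∀ x ∈ conjugatesOf d, ∀ c ∈ Z, x * c ∈ conjugatesOf d := fun x hx c hc => by
    obtain ⟨w, -, e⟩ := cs x hx c hc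
    exact e ▸ IsConj.trans hx (isConj_iff.2 ⟨w, rfl⟩)
  let Γ := Cfsg.commutingGraph (conjugatesOf d)
  have rc : ∀ x y : conjugatesOf d, Commute x.1 y.1 → Γ.Reachable x y := fun x y h => by
    by_cases e : x = y
    · rw [e]
    · exact SimpleGraph.Adj.reachable ((SimpleGraph.fromRel_adj _ _ _).2 ⟨e, .inl h⟩)
  have lf : ∀ (x : conjugatesOf d) (b : conjugatesOf (d : G ⧸ Z)), Commute (x.1 : G ⧸ Z) b.1 →
      ∃ y : conjugatesOf d, (y.1 : G ⧸ Z) = b.1 ∧ Γ.Reachable x y := fun x b h => by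
    obtain ⟨g, hg⟩ := isConj_iff.1 b.2
    obtain ⟨g, rfl⟩ := QuotientGroup.mk_surjective g
    have hy : g * d * g⁻¹ ∈ conjugatesOf d := isConj_iff.2 ⟨g, rfl⟩
    have ey : ((g * d * g⁻¹ : G) : G ⧸ Z) = b.1 := hg
    generalize g * d * g⁻¹ = y at hy ey
    have ix := inv_eq_of_mul_eq_one_right (D _ x.2).1
    rw [← ey] at h
    have m : (y * x.1)⁻¹ * (x.1 * y) ∈ Z := QuotientGroup.eq.1 h.symm.eq
    obtain ⟨w, hw, e⟩ := rt _ (inv_mem m)
    refine ⟨⟨y * w, cm y hy w hw⟩, ?_, rc _ _ ?_⟩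
    · rw [← ey]; exact QuotientGroup.mk_mul_of_mem y hw
    · change x.1 * (y * w) = y * w * x.1
      have := (D _ x.2).2 w⁻¹ (inv_mem hw)
      rw [inv_inv] at this
      rw [mul_assoc, ← this]
      calc _ = y * x.1 * ((y * x.1)⁻¹ * (x.1 * y))⁻¹⁻¹ * w := by group
        _ = _ := by rw [← e]; group
  let d0 : conjugatesOf d := ⟨d, IsConj.refl d⟩
  have al : ∀ b : conjugatesOf (d : G ⧸ Z), ∃ y : conjugatesOf d, (y.1 : G ⧸ Z) = b.1 ∧
      Γ.Reachable d0 y := fun b => by
    have := (SimpleGraph.reachable_iff_reflTransGen _ _).1 (hconn.preconnected ⟨d, IsConj.refl _⟩ b)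
    induction this with
    | refl => exact ⟨d0, rfl, .rfl⟩
    | tail _ st ih =>
      obtain ⟨y, e, r⟩ := ih
      rename_i b1 b2 _
      obtain ⟨y', e', r'⟩ := lf y b2 (by
        rw [e]
        rcases ((SimpleGraph.fromRel_adj _ _ _).1 st).2 with h | h
        exacts [h, h.symm])
      exact ⟨y', e', r.trans r'⟩
  let τ : G → conjugatesOf d → conjugatesOf d := fun g x =>
    ⟨g * x.1 * g⁻¹, IsConj.trans x.2 (isConj_iff.2 ⟨g, rfl⟩)⟩
  have tr : ∀ g x y, Γ.Reachable x y → Γ.Reachable (τ g x) (τ g y) := fun g x y h => by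
    have := (SimpleGraph.reachable_iff_reflTransGen _ _).1 h
    clear h
    induction this with
    | refl => rfl
    | tail _ st ih =>
      refine ih.trans (rc _ _ ?_)
      rcases ((SimpleGraph.fromRel_adj _ _ _).1 st).2 with h | h
      exacts [h.conj g, (h.conj g).symm]
  have tm : ∀ g h x, τ g (τ h x) = τ (g * h) x := fun g h x => Subtype.ext (by simp only [τ]; group)
  have t1 : ∀ x, τ 1 x = x := fun x => Subtype.ext (by simp only [τ]; group)
  let H : Subgroup G :=
    { carrier := {g | Γ.Reachable d0 (τ g d0)}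
      one_mem' := by change Γ.Reachable _ _; rw [t1]
      mul_mem' := fun {a b} ha hb => ha.trans (tm a b d0 ▸ tr a _ _ hb)
      inv_mem' := fun {a} ha => by
        have := tr a⁻¹ _ _ ha
        rw [tm, inv_mul_cancel, t1] at this
        exact this.symm }
  have hz : ∀ g : G, ∃ w ∈ Z, w * g ∈ H := fun g => by
    obtain ⟨y, e, r⟩ := al ⟨(g : G ⧸ Z) * d * (g : G ⧸ Z)⁻¹, isConj_iff.2 ⟨g, rfl⟩⟩
    have m : (g * d * g⁻¹)⁻¹ * y.1 ∈ Z := QuotientGroup.eq.1 e.symm
    obtain ⟨w, hw, e2⟩ := cs _ (τ g d0).2 _ m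
    refine ⟨w, hw, ?_⟩
    change Γ.Reachable _ _
    rwa [← tm, show τ w (τ g d0) = y from Subtype.ext (e2.trans (mul_inv_cancel_left _ _))]
  have LH : L ≤ H := by
    have p : ⁅L, L⁆ = L := by
      have := congrArg (map L.subtype) hL.1.commutator_eq_top
      rwa [commutator_def, map_commutator, ← MonoidHom.range_eq_map, range_subtype] at this
    rw [← p, commutator_le]
    intro a ha b hb
    obtain ⟨u, hu, ku⟩ := hz a
    obtain ⟨v, hv, kv⟩ := hz b
    have : ⁅a, b⁆ = ⁅u * a, v * b⁆ := by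
      have h1 := cz u hu
      have h2 := cz v hv
      calc ⁅a, b⁆ = u * v * ⁅a, b⁆ * (u * v)⁻¹ := by
            rw [← cz _ (mul_mem hu hv) _ (p ▸ commutator_mem_commutator ha hb), mul_inv_cancel_right]
        _ = u * (v * a) * b * a⁻¹ * (b⁻¹ * v⁻¹) * u⁻¹ := by rw [commutatorElement_def]; group
        _ = u * a * (v * b) * a⁻¹ * ((b⁻¹ * v⁻¹) * u⁻¹) := by rw [← h2 a ha]; group
        _ = _ := by
          rw [cz _ (inv_mem hu) _ (mul_mem (inv_mem hb) (inv_mem (zl hv))), commutatorElement_def]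
          group
    rw [this, commutatorElement_def]
    exact mul_mem (mul_mem (mul_mem ku kv) (inv_mem ku)) (inv_mem kv)
  have HT : (⊤ : Subgroup G) ≤ H := hgen ▸ sup_le LH (zpowers_le.2 (rc _ _ (by
    change Commute d (d * d * d⁻¹); rw [mul_inv_cancel_right])))
  have fin : ∀ x, Γ.Reachable d0 x := fun x => by
    obtain ⟨g, hg⟩ := isConj_iff.1 x.2
    exact (show τ g d0 = x from Subtype.ext hg) ▸ HT (mem_top g)
  haveI : Nonempty (conjugatesOf d) := ⟨d0⟩
  exact ⟨fun x y => (fin x).symm.trans (fin y)⟩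

end Cfsg.Agent.S5459
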