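import Cfsg.Statements.S5514
import Mathlib
import Cfsg.Agent.H7.Xs.O73

set_option autoImplicit false
open Cfsg

namespace Cfsg.Agent.S5514

open CfsgH7 CfsgH7.O73 CfsgH7.O73.Cl

/-- The commutator subgroup of the isometry group of a non-degenerate 7-dimensional quadratic form over the field with three elements, modulo its (trivial) centre — the simple group Ω(7, 3) — has exactly seven conjugacy classes of subgroups of order 3. -/
theorem result : ∃ Y : Fin 7 → Subgroup (Cfsg.POmega (ZMod 3) (Cfsg.quadFormOdd 3 (ZMod 3))), (∀ i, Nat.card (Y i) = 3) ∧ (∀ i j, (∃ g : Cfsg.POmega (ZMod 3) (Cfsg.quadFormOdd 3 (ZMod 3)), (Y i).map (MulAut.conj g).toMonoidHom = Y j) → i = j) ∧ (∀ X : Subgroup (Cfsg.POmega (ZMod 3) (Cfsg.quadFormOdd 3 (ZMod 3))), Nat.card X = 3 → ∃ i, ∃ g : Cfsg.POmega (ZMod 3) (Cfsg.quadFormOdd 3 (ZMod 3)), X.map (MulAut.conj g).toMonoidHom = Y i) := by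
  obtain ⟨e⟩ := iso (mdlF (F := ZMod 3) (by simp))
  have := M0.fin
  have := Finite.of_equiv _ e.toEquiv
  refine cls3 (fun i => e (wprod g0 (wordAt sR i))) (fun i => (e.orderOf_eq _).trans (o3 i))
    (fun i => map_pow e _ 2 ▸ e.toMonoidHom.map_isConj (re i)) (fun i j h c => nc i j h (by simpa using e.symm.toMonoidHom.map_isConj c))
    fun y h1 h2 => ?_
  obtain ⟨i, c⟩ := al (e.symm y) (by rw [← map_pow, h1, map_one]) (by simpa using h2)
  exact ⟨i, by simpa using e.toMonoidHom.map_isConj c⟩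

end Cfsg.Agent.S5514
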