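import Cfsg.Statements.S5541
import Mathlib
import Cfsg.Agent.H9.Maj

set_option autoImplicit false
open Cfsg

namespace Cfsg.Agent.S5541

/-- Let ρ be a representation of a group H on a finite-dimensional real vector space U whose only ρ-invariant subspaces are the zero subspace and U, and suppose U carries a non-zero ρ-invariant symmetric bilinear form. Then the following are equivalent: (1) there is a non-zero ρ-equivariant commutative bilinear product on U of which every ρ-equivariant bilinear product is a scalar multiple; (2) there is a non-zero ρ-invariant trilinear form on U that is symmetric under all permutations of its arguments and of which every ρ-invariant trilinear form is a scalar multiple. -/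
theorem result {H : Type*} [Group H] {U : Type*} [AddCommGroup U] [Module ℝ U] [FiniteDimensional ℝ U] (ρ : Representation ℝ H U) (hirr : ∀ W : Submodule ℝ U, (∀ g : H, W.map (ρ g) ≤ W) → W = ⊥ ∨ W = ⊤) (B : LinearMap.BilinForm ℝ U) (hB0 : B ≠ 0) (hBs : ∀ u v, B u v = B v u) (hBi : ∀ (g : H) (u v : U), B (ρ g u) (ρ g v) = B u v) : (∃ m : U →ₗ[ℝ] U →ₗ[ℝ] U, m ≠ 0 ∧ (∀ u v, m u v = m v u) ∧ (∀ (g : H) (u v : U), m (ρ g u) (ρ g v) = ρ g (m u v)) ∧ ∀ m' : U →ₗ[ℝ] U →ₗ[ℝ] U, (∀ (g : H) (u v : U), m' (ρ g u) (ρ g v) = ρ g (m' u v)) → ∃ c : ℝ, m' = c • m) ↔ (∃ t : U →ₗ[ℝ] U →ₗ[ℝ] U →ₗ[ℝ] ℝ, t ≠ 0 ∧ (∀ u v w, t u v w = t v u w ∧ t u v w = t u w v) ∧ (∀ (g : H) (u v w : U), t (ρ g u) (ρ g v) (ρ g w) = t u v w) ∧ ∀ t' : U →ₗ[ℝ] U →ₗ[ℝ] U →ₗ[ℝ] ℝ, (∀ (g : H) (u v w : U), t' (ρ g u) (ρ g v) (ρ g w) = t' u v w) → ∃ c : ℝ, t' = c • t) := by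
  open Subgroup CfsgH9 in
  have nd : B.Nondegenerate := by
    have l : ∀ u, (∀ v, B u v = 0) → u = 0 := fun u hu => by
      rcases hirr (LinearMap.ker B) (fun g => by
        rintro _ ⟨w, hw, rfl⟩
        refine LinearMap.mem_ker.2 (LinearMap.ext fun v => ?_)
        have := hBi g w (ρ g⁻¹ v)
        rw [ρ.self_inv_apply, LinearMap.mem_ker.1 hw] at this
        exact this) with e | e
      · exact (Submodule.mem_bot ℝ).1 (e ▸ LinearMap.mem_ker.2 (LinearMap.ext hu))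
      · exact absurd (LinearMap.ker_eq_top.1 e) hB0
    exact ⟨l, fun u hu => l u fun v => by rw [hBs]; exact hu v⟩
  let D := B.toDual nd
  have hD : ∀ u v, D u v = B u v := fun _ _ => rfl
  have inj : ∀ u v, (∀ w, B u w = B v w) → u = v := fun u v h => D.injective (LinearMap.ext h)
  have ex : ∀ t : U →ₗ[ℝ] U →ₗ[ℝ] U →ₗ[ℝ] ℝ, ∃ m : U →ₗ[ℝ] U →ₗ[ℝ] U, ∀ u v w, B (m u v) w = t u v w :=
    fun t => ⟨t.compr₂ D.symm.toLinearMap, fun u v w => by
      rw [← hD]; simp⟩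
  have ex' : ∀ m : U →ₗ[ℝ] U →ₗ[ℝ] U, ∃ t : U →ₗ[ℝ] U →ₗ[ℝ] U →ₗ[ℝ] ℝ, ∀ u v w, B (m u v) w = t u v w :=
    fun m => ⟨m.compr₂ B, fun u v w => rfl⟩
  have eqv : ∀ (m : U →ₗ[ℝ] U →ₗ[ℝ] U) (t : U →ₗ[ℝ] U →ₗ[ℝ] U →ₗ[ℝ] ℝ), (∀ u v w, B (m u v) w = t u v w) →
      ((∀ (g : H) (u v : U), m (ρ g u) (ρ g v) = ρ g (m u v)) ↔
        ∀ (g : H) (u v w : U), t (ρ g u) (ρ g v) (ρ g w) = t u v w) := fun m t h =>
    ⟨fun k g u v w => by rw [← h, ← h, k, hBi], fun k g u v => inj _ _ fun w => by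
      rw [← ρ.self_inv_apply g w, h, k, hBi, h]⟩
  constructor
  · rintro ⟨m, m0, ms, mi, mu⟩
    obtain ⟨t, ht⟩ := ex' m
    have ti := (eqv m t ht).1 mi
    have tu : ∀ t' : U →ₗ[ℝ] U →ₗ[ℝ] U →ₗ[ℝ] ℝ, (∀ (g : H) (u v w : U),
        t' (ρ g u) (ρ g v) (ρ g w) = t' u v w) → ∃ c : ℝ, t' = c • t := fun t' h => by
      obtain ⟨m', hm⟩ := ex t'
      obtain ⟨c, rfl⟩ := mu m' ((eqv m' t' hm).2 h)
      exact ⟨c, by ext u v w; simp [← hm, ← ht]⟩
    have t0 : t ≠ 0 := fun e => m0 (by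
      ext u v
      exact inj _ _ fun w => by simp [ht, e])
    have s1 : ∀ u v w, t u v w = t v u w := fun u v w => by rw [← ht, ← ht, ms]
    obtain ⟨c, hc⟩ := tu (LinearMap.lflip.toLinearMap.comp t) fun g u v w => ti g u w v
    have s2 : ∀ u v w, t u w v = c * t u v w := fun u v w =>
      LinearMap.congr_fun (LinearMap.congr_fun (LinearMap.congr_fun hc u) v) w
    have c1 : c = 1 := by
      by_contra c1
      refine t0 (LinearMap.ext fun u => LinearMap.ext fun v => LinearMap.ext fun w => ?_)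
      have a1 := s2 u v w
      have a2 := s2 u w v
      have a3 := s2 w v u
      have a4 := s2 v u w
      rw [s1 w u, s1 w v] at a3
      rw [s1 v u] at a4
      have : (c - 1) * ((c + 1) * t u v w) = 0 := by rw [a1] at a2; linear_combination -a2
      have h2 := (mul_eq_zero.1 this).resolve_left (sub_ne_zero.2 c1)
      have a5 := s2 w u v
      rw [s1 w u, s1 w v] at a5
      change t u v w = 0
      rcases mul_eq_zero.1 h2 with h3 | h3
      · have : c = -1 := by linarith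
        subst this
        linarith
      · exact h3
    exact ⟨t, t0, fun u v w => ⟨s1 u v w, by rw [s2, c1, one_mul]⟩, ti, tu⟩
  · rintro ⟨t, t0, ts, ti, tu⟩
    obtain ⟨m, hm⟩ := ex t
    refine ⟨m, fun e => t0 (by ext u v w; simp [← hm, e]), fun u v => inj _ _ fun w => by
      rw [hm, hm, (ts u v w).1], (eqv m t hm).2 ti, fun m' h => ?_⟩
    obtain ⟨t', ht⟩ := ex' m'
    obtain ⟨c, rfl⟩ := tu t' ((eqv m' t' ht).1 h)
    exact ⟨c, by
      ext u v
      exact inj _ _ fun w => by simp [ht, hm]⟩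

end Cfsg.Agent.S5541
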