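import Cfsg.Statements.S5543
import Mathlib
import Cfsg.Agent.H9.Maj

set_option autoImplicit false
open Cfsg

namespace Cfsg.Agent.S5543

/-- Let V be a finite-dimensional real vector space with a commutative bilinear product and a positive-definite symmetric bilinear form that associates with the product and satisfies the Norton inequality (the Majorana setting of the definitions). Let X be a group of linear automorphisms of V in which every element squares to the identity, and suppose every non-identity element x of X is a Majorana involution with an axial vector a(x) of squared length 1, such that for any two distinct non-identity x, y the product a(x) ∘ a(y) equals (1/8)(a(x) + a(y) − a(xy)) (the dihedral subalgebra of type 2A whose third axis belongs to the involution xy). Then X has order at most 4. -/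
theorem result {V : Type*} [AddCommGroup V] [Module ℝ V] [FiniteDimensional ℝ V] (mul : V →ₗ[ℝ] V →ₗ[ℝ] V) (B : LinearMap.BilinForm ℝ V) (hV : Cfsg.Axial.IsMajoranaAmbient mul B) (X : Subgroup (V ≃ₗ[ℝ] V)) (hX : ∀ x ∈ X, x * x = 1) (ax : (V ≃ₗ[ℝ] V) → V) (hax : ∀ x ∈ X, x ≠ 1 → Cfsg.Axial.IsMajoranaPair mul B x (ax x)) (h1 : ∀ x ∈ X, x ≠ 1 → B (ax x) (ax x) = 1) (h2A : ∀ x ∈ X, ∀ y ∈ X, x ≠ 1 → y ≠ 1 → x ≠ y → mul (ax x) (ax y) = (1 / 8 : ℝ) • (ax x + ax y - ax (x * y))) : Nat.card ↥X ≤ 4 := by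
  open Subgroup CfsgH9 in
  classical
  by_contra hc
  haveI : Finite X := Nat.finite_of_card_ne_zero (by omega)
  have ex : ∀ s : Finset (V ≃ₗ[ℝ] V), s.card ≤ 4 → ∃ x ∈ X, x ∉ s := fun s hs => by
    by_contra! k
    have : Nat.card X ≤ Nat.card s := Nat.card_le_card_of_injective (fun x => ⟨x.1, k x.1 x.2⟩)
      fun x y e => Subtype.ext (Subtype.mk.inj e)
    rw [Nat.card_eq_finsetCard] at this
    omega
  have cm : ∀ x ∈ X, ∀ y ∈ X, x * y = y * x := fun x hx y hy => by
    have e := hX _ (mul_mem hx hy)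
    calc x * y = (x * y)⁻¹ := (inv_eq_of_mul_eq_one_right e).symm
      _ = _ := by rw [mul_inv_rev, inv_eq_of_mul_eq_one_right (hX x hx), inv_eq_of_mul_eq_one_right (hX y hy)]
  have cl : ∀ x ∈ X, ∀ y, x * (x * y) = y := fun x hx y => by rw [← mul_assoc, hX x hx, one_mul]
  obtain ⟨x, hx, x0⟩ := ex {1} (by simp)
  obtain ⟨y, hy, y0⟩ := ex {1, x} (Finset.card_le_two.trans (by norm_num))
  obtain ⟨z, hz, z0⟩ := ex {1, x, y, x * y} Finset.card_le_four
  simp only [Finset.mem_insert, Finset.mem_singleton, not_or] at x0 y0 z0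
  have ne : ∀ {a b c : V ≃ₗ[ℝ] V}, a ∈ X → c ≠ a * b → a * c ≠ b := fun {a b c} ha h e =>
    h (by rw [← e, cl a ha])
  have xy1 : x * y ≠ 1 := ne hx (by simpa using y0.2)
  have xz1 : x * z ≠ 1 := ne hx (by simpa using z0.2.1)
  have yz1 : y * z ≠ 1 := ne hy (by simpa using z0.2.2.1)
  have xyz1 : x * y * z ≠ 1 := ne (mul_mem hx hy) (by simpa using z0.2.2.2)
  have g : ∀ w ∈ X, w ≠ 1 → w ≠ x → x * w ≠ 1 → mul (ax x) (ax w - ax (x * w)) =
      (1 / 4 : ℝ) • (ax w - ax (x * w)) := fun w hw w1 w2 w3 => by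
    rw [map_sub, h2A x hx w hw x0 w1 w2.symm, h2A x hx _ (mul_mem hx hw) x0 w3
      (fun e => w1 (by simpa using e)), cl x hx]
    module
  have e1 : y * (x * z) = x * (y * z) := by rw [← mul_assoc, cm y hy x hx, mul_assoc]
  have e2 : x * y * (x * z) = y * z := by rw [mul_assoc, e1, cl x hx]
  obtain ⟨c, k⟩ := Maj.f44 (hax x hx x0) (g y hy y0.1 y0.2 xy1) (g z hz z0.1 z0.2.1 xz1)
  have yzx : y * z ≠ x := ne hy (by rw [cm y hy x hx]; exact z0.2.2.2)
  have g3 := g _ (mul_mem hy hz) yz1 yzx (by rwa [← mul_assoc])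
  have k2 : mul (ax y - ax (x * y)) (ax z - ax (x * z)) =
      (-1 / 4 : ℝ) • (ax (y * z) - ax (x * (y * z))) := by
    simp only [map_sub, LinearMap.sub_apply]
    rw [h2A y hy z hz y0.1 z0.1 (Ne.symm z0.2.2.1), h2A y hy _ (mul_mem hx hz) y0.1 xz1
      (Ne.symm (ne hx z0.2.2.2)), h2A _ (mul_mem hx hy) z hz xy1 z0.1 (Ne.symm z0.2.2.2),
      h2A _ (mul_mem hx hy) _ (mul_mem hx hz) xy1 xz1 (fun e => z0.2.2.1 (mul_left_cancel e).symm),
      e1, e2, mul_assoc]
    module
  rw [k2, map_smul, g3] at k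
  have k3 := congrArg (mul (ax x)) k
  rw [map_smul, map_smul, map_smul, g3, (hax x hx x0).2.2.1.1.2.1] at k3
  have k4 : ax (y * z) = ax (x * (y * z)) := by
    linear_combination (norm := module) (64 / 3 : ℝ) • (k3 - k)
  have := Maj.inv_uniq (hax _ (mul_mem hy hz) yz1)
    (k4 ▸ hax _ (mul_mem hx (mul_mem hy hz)) (by rwa [← mul_assoc]))
  exact x0 (by simpa using this)

end Cfsg.Agent.S5543
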