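import Cfsg.Statements.S5545
import Mathlib
import Cfsg.Agent.H9.Maj

set_option autoImplicit false
open Cfsg

namespace Cfsg.Agent.S5545

/-- Let V be a finite-dimensional real vector space with a commutative bilinear product and a positive-definite symmetric bilinear form that associates with the product and satisfies the Norton inequality (the Majorana setting of the definitions). Let μ₀, μ₁ be commuting Majorana involutions with distinct axial vectors a₀ ≠ a₁ of squared length 1, each involution having no other axial vector. Then either a₀ and a₁ are orthogonal with a₀ ∘ a₁ = 0 (type 2B), or their inner product is 1/8 and, with a₂ = a₀ + a₁ − 8 a₀ ∘ a₁, the vector a₂ is an idempotent and a₀ ∘ a₂ = (1/8)(a₀ + a₂ − a₁), a₁ ∘ a₂ = (1/8)(a₁ + a₂ − a₀) (type 2A: the three idempotents span a subalgebra with aᵢ ∘ aⱼ = (1/8)(aᵢ + aⱼ − aₖ)). -/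
theorem result {V : Type*} [AddCommGroup V] [Module ℝ V] [FiniteDimensional ℝ V] (mul : V →ₗ[ℝ] V →ₗ[ℝ] V) (B : LinearMap.BilinForm ℝ V) (hV : Cfsg.Axial.IsMajoranaAmbient mul B) (μ₀ μ₁ : V ≃ₗ[ℝ] V) (a₀ a₁ : V) (h₀ : Cfsg.Axial.IsMajoranaPair mul B μ₀ a₀) (h₁ : Cfsg.Axial.IsMajoranaPair mul B μ₁ a₁) (hu₀ : ∀ a : V, Cfsg.Axial.IsMajoranaPair mul B μ₀ a → a = a₀) (hu₁ : ∀ a : V, Cfsg.Axial.IsMajoranaPair mul B μ₁ a → a = a₁) (hn₀ : B a₀ a₀ = 1) (hn₁ : B a₁ a₁ = 1) (hc : μ₀ * μ₁ = μ₁ * μ₀) (hne : a₀ ≠ a₁) : (B a₀ a₁ = 0 ∧ mul a₀ a₁ = 0) ∨ (B a₀ a₁ = 1 / 8 ∧ mul (a₀ + a₁ - (8 : ℝ) • mul a₀ a₁) (a₀ + a₁ - (8 : ℝ) • mul a₀ a₁) = a₀ + a₁ - (8 : ℝ) • mul a₀ a₁ ∧ mul a₀ (a₀ + a₁ - (8 : ℝ) • mul a₀ a₁) = (1 / 8 : ℝ) • (a₀ + (a₀ + a₁ - (8 : ℝ) • mul a₀ a₁) - a₁) ∧ mul a₁ (a₀ + a₁ - (8 : ℝ) • mul a₀ a₁) = (1 / 8 : ℝ) • (a₁ + (a₀ + a₁ - (8 : ℝ) • mul a₀ a₁) - a₀)) := by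
  open Subgroup CfsgH9 in
  have f : μ₀ a₁ = a₁ := hu₁ _ (by
    have := Maj.pair_map h₀.1 h₀.2.1 h₁
    rwa [hc, mul_inv_cancel_right] at this)
  have f' : μ₁ a₀ = a₀ := hu₀ _ (by
    have := Maj.pair_map h₁.1 h₁.2.1 h₀
    rwa [← hc, mul_inv_cancel_right] at this)
  have cm := hV.1
  obtain ⟨r1, r2⟩ := Maj.two_rel hV h₀ hn₀ h₁ hn₁ f f'
  obtain ⟨r3, -⟩ := Maj.two_rel hV h₁ hn₁ h₀ hn₀ f' f
  have p := Maj.fix_mul hV h₀ hn₀ f
  have q := Maj.fix_mul hV h₁ hn₁ f'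
  rw [cm a₁ a₀, hV.2.1 a₁ a₀] at q r3
  have aa := h₀.2.2.1.1.2.1
  have bb := h₁.2.2.1.1.2.1
  by_cases e : B a₀ a₁ = 1 / 8
  · right
    rw [e] at r2 p q
    obtain ⟨m, hm⟩ : ∃ m, mul a₀ a₁ = m := ⟨_, rfl⟩
    rw [hm] at p q r2 ⊢
    simp only [map_add, map_sub, map_smul, LinearMap.add_apply, LinearMap.sub_apply,
      LinearMap.smul_apply, cm m a₀, cm m a₁, cm a₁ a₀, aa, bb, hm, p, q]
    refine ⟨e, ?_, by module, by module⟩
    linear_combination (norm := module) (16 : ℝ) • r2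
  · left
    have n : (1 / 2 - 4 * B a₀ a₁) ≠ 0 := fun k => e (by linarith)
    have k1 := (smul_eq_zero.1 r1).resolve_left n
    have k2 := (smul_eq_zero.1 r3).resolve_left n
    have k3 : B a₀ a₁ • (a₀ - a₁) = 0 := by linear_combination (norm := module) k2 - k1
    have k4 := (smul_eq_zero.1 k3).resolve_right (sub_ne_zero.2 hne)
    exact ⟨k4, by simpa [k4] using k1⟩

end Cfsg.Agent.S5545
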