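import Mathlib
import Cfsg.Statements.S5546
import Cfsg.Agent.H7.Lee.Rho

set_option autoImplicit false
open Cfsg

namespace Cfsg.Agent.S5546

open CfsgH7.Lee Matrix

abbrev F : Type := ZMod 13

instance instFact13 : Fact (Nat.Prime 13) := ⟨by norm_num⟩

theorem h8 : (8 : F) * 5 = 1 := by decide

theorem red_inj' {x y : Λ} (hx : sqNorm (x : V) ≤ 64) (hy : sqNorm (y : V) ≤ 64) (h : red F x = red F y) :
    x = y := by
  have e : (x : V) - y = (13 : ℤ) • fun i => ((x : V) i - (y : V) i) / 13 := by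
    funext i
    have := (ZMod.intCast_eq_intCast_iff' _ _ _).1 (congrFun h i)
    simp only [Pi.sub_apply, Pi.smul_apply, smul_eq_mul]
    push_cast at this
    omega
  have h1 := dvd16 (x - y).2
  have h2 := sq_nonneg' ((x : V) + y)
  have h3 := sq_sub (x : V) y
  rw [sq_add] at h2
  rw [AddSubgroup.coe_sub, e, sq_smul] at h1
  rw [e, sq_smul] at h3
  have h4 := sq_nonneg' fun i => ((x : V) i - (y : V) i) / 13
  rw [sq_zero (x := fun i => ((x : V) i - (y : V) i) / 13) (by omega), smul_zero] at e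
  exact Subtype.ext (sub_eq_zero.1 e)

theorem red_dot' (x y : Λ) : red F x ⬝ᵥ red F y = ((dotInt (x : V) (y : V) : ℤ) : F) := by
  simp [dotProduct, red, dotInt]

theorem surj (v : GolayPt → F) : ∃ x : Λ, red F x = v := by
  choose k hk using fun j => ZMod.intCast_surjective (n := 13) (v j * 5)
  refine ⟨∑ j, k j • f8 j, funext fun i => ?_⟩
  have : ((∑ j, k j • f8 j : Λ) : V) i = k i * 8 := by
    rw [AddSubgroup.val_finsetSum, Finset.sum_apply, Finset.sum_eq_single i]
    · simp [f8]
    · intro j _ h; simp [f8, Pi.single_eq_of_ne h.symm]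
    · simp
  rw [red, this, Int.cast_mul, hk, Int.cast_ofNat, mul_assoc, mul_comm 5, h8, mul_one]

theorem emb {G K M : Type*} [Group G] [Field K] [AddCommGroup M] [Module K M] {n : ℕ} (b : Module.Basis (Fin n) K M)
    (ψ : G →* Module.End K M) (h : ∀ g, ψ g = 1 → g = 1) : ∃ f : G →* GL (Fin n) K, Function.Injective f := by
  refine ⟨((LinearMap.toMatrixAlgEquiv b).toMonoidHom.comp ψ).toHomUnits, (injective_iff_map_eq_one _).2 fun g hg => ?_⟩
  exact h g ((LinearMap.toMatrixAlgEquiv b).injective ((congrArg Units.val hg).trans (map_one _).symm))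

theorem emb2 {G K ι : Type*} [Group G] [Field K] [Fintype ι] [DecidableEq ι] {n : ℕ} (hn : Fintype.card ι = n + 1)
    (ρ : G →* Matrix ι ι K) (u : ι → K) (huu : u ⬝ᵥ u ≠ 0) (hu : ∀ g, ρ g *ᵥ u = u)
    (hd : ∀ g v, u ⬝ᵥ (ρ g *ᵥ v) = u ⬝ᵥ v) (h : ∀ g, (∀ v, ρ g *ᵥ v = v) → g = 1) :
    ∃ f : G →* GL (Fin n) K, Function.Injective f := by
  let φ : (ι → K) →ₗ[K] K := dotProductBilin K K u
  have hφ : LinearMap.range φ = ⊤ := by
    rw [eq_top_iff]
    intro a _
    exact ⟨(a / (u ⬝ᵥ u)) • u, by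
      change u ⬝ᵥ _ = a
      rw [dotProduct_smul, smul_eq_mul, div_mul_cancel₀ _ huu]⟩
  have hr : Module.finrank K (LinearMap.ker φ) = n := by
    have := φ.finrank_range_add_finrank_ker
    rw [hφ, finrank_top, Module.finrank_self, Module.finrank_fintype_fun_eq_card, hn] at this
    omega
  let ψ : G →* Module.End K (LinearMap.ker φ) :=
    { toFun := fun g => (toLin' (ρ g)).restrict fun v hv => (hd g v).trans hv
      map_one' := by ext v; simp
      map_mul' := fun g h => LinearMap.ext fun v => Subtype.ext (by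
        change ρ (g * h) *ᵥ v.1 = ρ g *ᵥ (ρ h *ᵥ v.1)
        rw [map_mul, mulVec_mulVec]) }
  refine emb (Module.finBasisOfFinrankEq K _ hr) ψ fun g h1 => h g fun v => ?_
  have h3 : v - (u ⬝ᵥ v / (u ⬝ᵥ u)) • u ∈ LinearMap.ker φ := by
    change u ⬝ᵥ _ = 0
    rw [dotProduct_sub, dotProduct_smul, smul_eq_mul, div_mul_cancel₀ _ huu, sub_self]
  have h4 : ρ g *ᵥ (v - (u ⬝ᵥ v / (u ⬝ᵥ u)) • u) = v - (u ⬝ᵥ v / (u ⬝ᵥ u)) • u :=
    congrArg Subtype.val (LinearMap.congr_fun h1 ⟨_, h3⟩)
  rwa [mulVec_sub, mulVec_smul, hu, sub_left_inj] at h4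

/-- The second Conway group (the stabilizer in the Leech lattice automorphism group of the short vector fixed in the definitions) is isomorphic to a subgroup of the general linear group of degree 23 over the field with 13 elements: there is an injective homomorphism into it. -/
theorem result : ∃ f : ↥Cfsg.Spor.Co2 →* GL (Fin 23) (ZMod 13), Function.Injective f := by
  let ι : Spor.Co2 →* Co0 := Subgroup.inclusion inf_le_left
  have hu : ∀ g, rho F 5 h8 (ι g) *ᵥ red F Spor.leechU = red F Spor.leechU := fun g =>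
    (rho_act h8 _ _).trans (congrArg (red F) g.2.2)
  refine emb2 CfsgH7.Gol.cardP ((rho F 5 h8).comp ι) (red F Spor.leechU) (by rw [red_dot']; decide +kernel) hu
    (fun g v => ?_) fun g h2 => ?_
  · obtain ⟨x, rfl⟩ := surj v
    conv_lhs => rw [← hu g]
    rw [MonoidHom.comp_apply, rho_act, rho_act, red_dot', red_dot', g_dot]
  · have h5 : ι g = 1 := g_ext_min fun x hx =>
      red_inj' (by rw [g_norm, hx]; norm_num) (by rw [one_smul, hx]; norm_num)
        (by rw [← rho_act h8, one_smul]; exact h2 _)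
    exact Subgroup.inclusion_injective _ (h5.trans (map_one ι).symm)

end Cfsg.Agent.S5546
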