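import Mathlib
import Cfsg.Statements.S5548
import Cfsg.Agent.H8.GolW

set_option autoImplicit false
open Cfsg

namespace Cfsg.Agent.S5548

open CfsgH8.GolW CfsgH7.Gol

theorem sum_eq (w : GolayPt → ZMod 2) : ∑ p, w p = 0 ↔ Even (support₂ w).card := by
  have := CfsgH1.Un.dot_eq w w
  have h2 : ∀ x : ZMod 2, x * x = x := by decide
  simp only [h2, Finset.inter_self] at this
  rw [this, ZMod.natCast_eq_zero_iff_even]

/-- For the automorphism group of the length-24 binary Golay code of the definitions (the Mathieu group of degree 24) acting on binary words of length 24 by permuting coordinates, the only invariant subspaces of the space of all words are: zero, the span of the all-ones word, the code itself, the even-weight words, and the whole space. (So the permutation module has a unique composition series.) -/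
theorem result (W : Submodule (ZMod 2) (Cfsg.GolayPt → ZMod 2)) (hW : ∀ σ ∈ Cfsg.M24, ∀ w ∈ W, (fun p => w (σ.symm p)) ∈ W) : W = ⊥ ∨ W = Submodule.span (ZMod 2) {fun _ => (1 : ZMod 2)} ∨ W = Cfsg.golayCode ∨ (W : Set (Cfsg.GolayPt → ZMod 2)) = {w | ∑ p, w p = 0} ∨ W = ⊤ := by
  by_cases h : W ≤ golayCode
  · rcases sub_code hW h with h | h | h
    exacts [Or.inl h, Or.inr (Or.inl h), Or.inr (Or.inr (Or.inl h))]
  obtain ⟨w, hw, h1⟩ := SetLike.not_le_iff_exists.1 h
  have h2 : ∀ x : GolayPt → ZMod 2, ∑ p, x p = 0 → x ∈ W := fun x hx =>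
    supp_mem.1 ((Cl.of_sub hW).even (supp_mem.2 hw) (fun e => h1 (supp_mem.1 e)) _ ((sum_eq x).1 hx))
  refine Or.inr (Or.inr (Or.inr ?_))
  by_cases h3 : ∀ x ∈ W, ∑ p, x p = 0
  · exact Or.inl (Set.ext fun x => ⟨h3 x, h2 x⟩)
  · push Not at h3
    obtain ⟨v, hv, h4⟩ := h3
    refine Or.inr (eq_top_iff.2 fun x _ => ?_)
    by_cases h5 : ∑ p, x p = 0
    · exact h2 x h5
    · have := W.add_mem (h2 (x - v) (by
        simp only [Pi.sub_apply, Finset.sum_sub_distrib]
        rw [(z2 _).1 h4, (z2 _).1 h5, sub_self])) hv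
      simpa using this

end Cfsg.Agent.S5548
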