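import Mathlib
import Cfsg.Statements.S5549
import Cfsg.Agent.H7.Gol.Tr2
import Cfsg.Agent.S0359
import Cfsg.Agent.S5393

set_option autoImplicit false
open Cfsg

namespace Cfsg.Agent.S5549

open CfsgH7.Gol

theorem hs (c : GolayPt → ZMod 2) (l : List GolayPt) : (l.map c).sum = ∑ x, (l.count x : ZMod 2) * c x := by
  induction l with
  | nil => simp
  | cons a l ih => simp [List.count_cons, add_mul, Finset.sum_add_distrib, ih, add_comm]

theorem z0 : ∀ s t : ZMod 2, (if s ≠ 0 ∧ t ≠ 0 then ((1 : ℕ) : ZMod 2) else 0) = t * s := by decide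

theorem K (l : List GolayPt) (hl : l.length < 8) (h : ∀ c ∈ golayCode, (l.map c).sum = 0) (p : GolayPt) :
    Even (l.count p) := by
  have h1 : support₂ (fun p => (l.count p : ZMod 2)) ∈ U := dual fun o ho => by
    obtain ⟨c, hc, rfl⟩ := ho.1
    have := h c hc
    rw [hs] at this
    rw [← ZMod.natCast_eq_zero_iff_even, ← this, Finset.card_eq_sum_ones, Nat.cast_sum, ← Finset.univ_inter (_ ∩ _),
      ← Finset.sum_ite_mem]
    refine Finset.sum_congr rfl fun x _ => ?_
    simp only [Finset.mem_inter, mem_supp]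
    exact z0 _ _
  have h2 : (support₂ (fun p => (l.count p : ZMod 2))).card ≤ l.length :=
    (Finset.card_le_card fun x hx => List.mem_toFinset.2 (by
      by_contra e
      exact mem_supp.1 hx (by rw [List.count_eq_zero_of_not_mem e]; rfl))).trans (List.toFinset_card_le l)
  have h3 := Cfsg.Agent.S0359.result _ (supp_mem.1 h1)
  rw [norm_eq] at h3
  have h4 : p ∉ support₂ (fun p => (l.count p : ZMod 2)) := by
    rw [Finset.card_eq_zero.1 (show (support₂ (fun p => (l.count p : ZMod 2))).card = 0 by omega)]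
    simp
  exact ZMod.natCast_eq_zero_iff_even.1 (not_not.1 fun e => h4 (mem_supp.2 e))

theorem K2 {a b : GolayPt} (h : ∀ c ∈ golayCode, c a + c b = 0) : a = b := by
  by_contra e
  have := K [a, b] (by simp) (by simpa using h) a
  simp [List.count_cons, Ne.symm e] at this

theorem K4 {a b d e : GolayPt} (h : ∀ c ∈ golayCode, c a + (c b + (c d + c e)) = 0) (h1 : b ≠ a) (h2 : d ≠ a) (h3 : e ≠ a) : False := by
  have := K [a, b, d, e] (by simp) (by simpa using h) a
  simp [List.count_cons, h1, h2, h3] at this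

theorem K6 {u v w z a b : GolayPt} (h : ∀ c ∈ golayCode, c u + (c v + (c w + (c z + (c a + c b)))) = 0)
    (h1 : u ≠ v) (h2 : w ≠ z) (h3 : u ≠ w) (h4 : u ≠ z) (h5 : v ≠ w) (h6 : v ≠ z) : False := by
  have k := K [u, v, w, z, a, b] (by simp) (by simpa using h)
  have k1 : a = u ∨ b = u := by
    by_contra e; push Not at e
    have := k u
    simp [List.count_cons, h1.symm, h3.symm, h4.symm, e.1, e.2] at this
  have k2 : a = v ∨ b = v := by
    by_contra e; push Not at e
    have := k v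
    simp [List.count_cons, h1, h5.symm, h6.symm, e.1, e.2] at this
  have k3 : a = w ∨ b = w := by
    by_contra e; push Not at e
    have := k w
    simp [List.count_cons, h3, h5, h2.symm, e.1, e.2] at this
  rcases k1 with rfl | rfl <;> rcases k2 with e | e <;> rcases k3 with e' | e' <;> simp_all

/-- The sign character. -/
def χ (t : ZMod 2) : ℤ := if t = 0 then 1 else -1

theorem χ_add : ∀ s t : ZMod 2, χ (s + t) = χ s * χ t := by decide
theorem χ_one : ∀ s : ZMod 2, χ (s + 1) = -χ s := by decide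
theorem z3 : ∀ s : ZMod 2, s ≠ 0 → s = 1 := by decide
theorem z4 : ∀ s t : ZMod 2, s + t = 0 ↔ s = t := by decide
theorem z5 : ∀ s t : ZMod 2, s + s = 0 ∧ (s + t = 0 ∨ s + t = 1) := by decide

theorem sumχ {A : Type*} [AddCommGroup A] [Fintype A] (f : A → ZMod 2) (hf : ∀ a b, f (a + b) = f a + f b) :
    ((∃ a, f a ≠ 0) → ∑ a, χ (f a) = 0) ∧ 0 ≤ ∑ a, χ (f a) := by
  have h : (∃ a, f a ≠ 0) → ∑ a, χ (f a) = 0 := fun ⟨a, ha⟩ => by
    have := Equiv.sum_comp (Equiv.addRight a) fun b => χ (f b)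
    simp only [Equiv.coe_addRight, hf, z3 _ ha, χ_one, Finset.sum_neg_distrib] at this
    omega
  refine ⟨h, ?_⟩
  by_cases e : ∃ a, f a ≠ 0
  · exact (h e).ge
  · push Not at e
    exact Finset.sum_nonneg fun a _ => by simp [e, χ]

theorem four [Fintype golayCode] (f : golayCode → ZMod 2) :
    ∑ c : golayCode, (∑ a, χ (c.1 a)) ^ 2 * χ (f c) = ∑ a, ∑ b, ∑ c : golayCode, χ (c.1 a + c.1 b + f c) := by
  rw [Finset.sum_congr rfl fun c _ => show (∑ a, χ (c.1 a)) ^ 2 * χ (f c) = ∑ a, ∑ b, χ (c.1 a + c.1 b + f c) by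
    rw [sq, Finset.sum_mul_sum, Finset.sum_mul]
    exact Finset.sum_congr rfl fun a _ => by simp only [Finset.sum_mul, χ_add], Finset.sum_comm]
  exact Finset.sum_congr rfl fun a _ => Finset.sum_comm

theorem duad (x : golayCode ≃ₗ[ZMod 2] golayCode)
    (h : ∀ c : golayCode, (∑ a, χ ((x c).1 a)) ^ 2 = (∑ a, χ (c.1 a)) ^ 2) (p r : GolayPt) :
    ∃ a b, ∀ c : golayCode, (x c).1 p + (x c).1 r = c.1 a + c.1 b := by
  haveI := Fintype.ofFinite golayCode
  by_contra hc
  push Not at hc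
  have h1 := four fun c => (x c).1 p + (x c).1 r
  rw [Finset.sum_eq_zero fun a _ => Finset.sum_eq_zero fun b _ => (sumχ _ fun c d => by
    simp only [map_add, Submodule.coe_add, Pi.add_apply]; ring).1 (by
      obtain ⟨c, e⟩ := hc a b
      exact ⟨c, fun e' => e ((z4 _ _).1 e').symm⟩)] at h1
  rw [Finset.sum_congr rfl fun c _ => by rw [← h c], show ∑ c : golayCode, (∑ a, χ ((x c).1 a)) ^ 2 * χ ((x c).1 p + (x c).1 r) = _ from
    Equiv.sum_comp x.toEquiv fun c => (∑ a, χ (c.1 a)) ^ 2 * χ (c.1 p + c.1 r), four] at h1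
  have k : ∀ a b, 0 ≤ ∑ c : golayCode, χ (c.1 a + c.1 b + (c.1 p + c.1 r)) := fun a b => (sumχ _ fun c d => by
    simp only [Submodule.coe_add, Pi.add_apply]; ring).2
  have h2 := (Finset.sum_eq_zero_iff_of_nonneg fun b _ => k p b).1
    ((Finset.sum_eq_zero_iff_of_nonneg fun a _ => Finset.sum_nonneg fun b _ => k a b).1 h1 p (Finset.mem_univ _)) r (Finset.mem_univ _)
  rw [Finset.sum_congr rfl (g := fun _ => 1) fun c _ => by rw [(z5 _ 0).1]; rfl, Finset.sum_const, Finset.card_univ,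
    nsmul_eq_mul, mul_one] at h2
  exact Fintype.card_ne_zero (Int.natCast_eq_zero.1 h2)

/-- Let X be a group of linear automorphisms of the length-24 binary Golay code of the definitions that fix the all-ones word, containing the coordinate-permutation action of every element of the code's automorphism group (the Mathieu group of degree 24), and such that every element of X sends each codeword into its orbit under that Mathieu group up to adding the all-ones word (X has the same orbits as the Mathieu group on the code modulo the all-ones word). Then every element of X agrees, modulo the all-ones word, with the action of a single element of the Mathieu group: X induces exactly the Mathieu group on the code modulo the all-ones word. -/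
theorem result (X : Subgroup (↥Cfsg.golayCode ≃ₗ[ZMod 2] ↥Cfsg.golayCode)) (h1 : ∀ x ∈ X, ∀ e : ↥Cfsg.golayCode, (e : (Cfsg.GolayPt → ZMod 2)) = (fun _ => (1 : ZMod 2)) → x e = e) (hM : ∀ σ ∈ Cfsg.M24, ∃ x ∈ X, ∀ c : ↥Cfsg.golayCode, ((x c : ↥Cfsg.golayCode) : (Cfsg.GolayPt → ZMod 2)) = fun p => (c : (Cfsg.GolayPt → ZMod 2)) (σ.symm p)) (horb : ∀ x ∈ X, ∀ c : ↥Cfsg.golayCode, ∃ σ ∈ Cfsg.M24, ((x c : ↥Cfsg.golayCode) : (Cfsg.GolayPt → ZMod 2)) = (fun p => (c : (Cfsg.GolayPt → ZMod 2)) (σ.symm p)) ∨ ((x c : ↥Cfsg.golayCode) : (Cfsg.GolayPt → ZMod 2)) = (fun p => (c : (Cfsg.GolayPt → ZMod 2)) (σ.symm p)) + fun _ => (1 : ZMod 2)) (x : ↥Cfsg.golayCode ≃ₗ[ZMod 2] ↥Cfsg.golayCode) (hx : x ∈ X) : ∃ σ ∈ Cfsg.M24, ∀ c : ↥Cfsg.golayCode, ((x c : ↥Cfsg.golayCode) : (Cfsg.GolayPt → ZMod 2)) = (fun p => (c : (Cfsg.GolayPt → ZMod 2)) (σ.symm p)) ∨ ((x c : ↥Cfsg.golayCode) : (Cfsg.GolayPt → ZMod 2)) = (fun p => (c : (Cfsg.GolayPt → ZMod 2)) (σ.symm p)) + fun _ => (1 :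 ZMod 2) := by
  have hd := duad x fun c => by
    obtain ⟨σ, -, e | e⟩ := horb x hx c <;> rw [e]
    · rw [Equiv.sum_comp σ.symm fun a => χ (c.1 a)]
    · simp only [Pi.add_apply, χ_one, Finset.sum_neg_distrib, neg_sq]
      rw [Equiv.sum_comp σ.symm fun a => χ (c.1 a)]
  let R : GolayPt → GolayPt → GolayPt → Prop := fun r u v => ∀ c : golayCode, (x c).1 none + (x c).1 r = c.1 u + c.1 v
  have sj : ∀ {P : (GolayPt → ZMod 2) → Prop}, (∀ c : golayCode, P (x c).1) → ∀ c ∈ golayCode, P c := fun h c hc => by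
    have := h (x.symm ⟨c, hc⟩)
    rwa [x.apply_symm_apply] at this
  have two : (2 : ZMod 2) = 0 := rfl
  have Rs : ∀ {r u v}, R r u v → R r v u := fun h c => (h c).trans (add_comm _ _)
  have Ri : ∀ {r s u v}, R r u v → R s u v → r = s := fun h1 h2 => K2 (sj (P := fun c => c _ + c _ = 0) fun c =>
    (z4 _ _).2 (add_left_cancel ((h1 c).trans (h2 c).symm)))
  have Rn : ∀ {r u v}, r ≠ none → R r u v → u ≠ v := fun {r u v} h0 h e => h0 (Ri (e ▸ h) fun c => by
    rw [(z5 _ 0).1, (z5 _ 0).1])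
  have sh : ∀ {r s u v w z}, r ≠ none → s ≠ none → R r u v → R s w z → u = w ∨ u = z ∨ v = w ∨ v = z :=
    fun {r s u v w z} r0 s0 h1 h2 => by
      by_contra e
      push Not at e
      obtain ⟨a, b, h3⟩ := hd r s
      refine K6 (a := a) (b := b) (fun c hc => ?_) (Rn r0 h1) (Rn s0 h2) e.1 e.2.1 e.2.2.1 e.2.2.2
      have e1 := h1 ⟨c, hc⟩
      have e2 := h2 ⟨c, hc⟩
      have e3 := h3 ⟨c, hc⟩
      dsimp only at e1 e2 e3
      linear_combination -e1 - e2 - e3 + ((x ⟨c, hc⟩).1 none + (x ⟨c, hc⟩).1 r + (x ⟨c, hc⟩).1 s) * two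
  obtain ⟨z, u, v, h1', h2'⟩ : ∃ z u v, R (some 0) z u ∧ R (some 1) z v := by
    obtain ⟨a, b, h1⟩ := hd none (some 0)
    obtain ⟨d, e, h2⟩ := hd none (some 1)
    rcases sh (by simp) (by simp) h1 h2 with rfl | rfl | rfl | rfl
    exacts [⟨_, _, _, h1, h2⟩, ⟨_, _, _, h1, Rs h2⟩, ⟨_, _, _, Rs h1, h2⟩, ⟨_, _, _, Rs h1, Rs h2⟩]
  have uv : u ≠ v := fun e => absurd (Ri h1' (e ▸ h2')) (by decide)
  have tri : ∀ t, t ≠ none → ¬ R t u v := fun t t0 h => K4 (a := none) (b := some 0) (d := some 1) (e := t)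
    (sj (P := fun c => c _ + (c _ + (c _ + c _)) = 0) fun c => by
      linear_combination h1' c + h2' c + h c + (c.1 z + c.1 u + c.1 v - (x c).1 none) * two) (by simp) (by simp) t0
  have key : ∀ t, ∃ w, R t z w := fun t => by
    by_cases t0 : t = none
    · exact ⟨z, fun c => by rw [t0, (z5 _ 0).1, (z5 _ 0).1]⟩
    obtain ⟨a, b, h⟩ := hd none t
    by_cases e1 : a = z
    · exact ⟨b, e1 ▸ h⟩
    by_cases e2 : b = z
    · exact ⟨a, e2 ▸ Rs h⟩
    exfalso
    have k1 := sh t0 (by simp) h h1'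
    have k2 := sh t0 (by simp) h h2'
    simp only [e1, e2, false_or] at k1 k2
    rcases k1 with rfl | rfl <;> rcases k2 with e | e
    · exact uv e
    · exact tri t t0 (e ▸ h)
    · exact tri t t0 (e ▸ Rs h)
    · exact uv e
  choose τ hτ using key
  have hi : Function.Injective τ := fun r s e => Ri (hτ r) (e ▸ hτ s)
  let σ : Equiv.Perm GolayPt := (Equiv.ofBijective τ hi.bijective_of_finite).symm
  have fin : ∀ c : golayCode, (x c).1 = (fun p => c.1 (σ.symm p)) ∨ (x c).1 = (fun p => c.1 (σ.symm p)) + fun _ => 1 := fun c => by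
    refine (z5 ((x c).1 none) (c.1 z)).2.imp (fun e => funext fun p => ?_) fun e => funext fun p => ?_
    · show _ = c.1 (τ p)
      linear_combination hτ p c - e + (c.1 z) * two
    · show _ = c.1 (τ p) + 1
      linear_combination hτ p c - e + (c.1 z - 1) * two
  refine ⟨σ, mem_M24.2 ?_, fin⟩
  rintro _ ⟨c, hc, rfl⟩
  have e : (open Pointwise in σ • support₂ c) = support₂ fun p => c (σ.symm p) := by
    ext p
    rw [← Finset.inv_smul_mem_iff, mem_supp, mem_supp]
    rfl
  rw [e, supp_mem]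
  rcases fin ⟨c, hc⟩ with e | e
  · exact e ▸ (x ⟨c, hc⟩).2
  · have := golayCode.sub_mem (x ⟨c, hc⟩).2 Cfsg.Agent.S5393.result.1
    rwa [e, add_sub_cancel_right] at this

end Cfsg.Agent.S5549
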