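import Mathlib
import Cfsg.Statements.S5550
import Cfsg.Agent.H8.GolW

set_option autoImplicit false
open Cfsg

namespace Cfsg.Agent.S5550

open CfsgH8.GolW CfsgH7.Gol
open scoped Pointwise

/-- Let u be a word of the length-24 binary Golay code of the definitions (possibly zero or all-ones) and w any binary word of length 24 outside the code. Then some automorphism of the code (a coordinate permutation preserving it) fixes u but moves w to a word not congruent to w modulo the code: the stabilizer of a codeword fixes no non-zero element of the quotient of the space of all words by the code. -/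
theorem result (u : (Cfsg.GolayPt → ZMod 2)) (hu : u ∈ Cfsg.golayCode) (w : (Cfsg.GolayPt → ZMod 2)) (hw : w ∉ Cfsg.golayCode) : ∃ σ ∈ Cfsg.M24, (fun p => u (σ.symm p)) = u ∧ (fun p => w (σ.symm p)) - w ∉ Cfsg.golayCode := by
  obtain ⟨t, t4, ht⟩ := reduce (support₂ w)
  obtain ⟨σ, a1, a2, a3⟩ := mv (supp_mem.2 hu) (t := t)
    (by rintro rfl; exact hw (supp_mem.1 (by rwa [← Finset.bot_eq_empty, symmDiff_bot] at ht))) t4
  refine ⟨σ.1, σ.2, supp_inj ((supp_comp _ _).trans a1), fun h => ?_⟩
  have h1 : symmDiff (σ • support₂ w) (support₂ w) ∈ U := by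
    have := supp_mem.2 h
    rwa [CharTwo.sub_eq_add, supp_add, supp_comp] at this
  have h2 := U_xor (U_xor h1 ht) ((mU σ).2 ht)
  have e : ∀ a b c d : Finset GolayPt, symmDiff (symmDiff (symmDiff a b) (symmDiff b c)) (symmDiff a d) = symmDiff c d := by
    intro a b c d
    ext p
    simp only [Finset.mem_symmDiff]
    tauto
  rw [smul_sd, e] at h2
  have := Finset.card_pos.2 (Finset.nonempty_iff_ne_empty.2 a2)
  rcases wt h2 with e | e | e | e | e <;> omega

end Cfsg.Agent.S5550
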