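import Cfsg.Statements.S5552
import Mathlib
import Cfsg.Agent.H7.Lee.Cfg

set_option autoImplicit false
open Cfsg

namespace Cfsg.Agent.S5552

open CfsgH7 CfsgH7.Lee

/-- On the Leech lattice of the definitions, let Q be a function to the field with two elements that is constant on cosets of twice the lattice, is a quadratic form there (Q(u+v+w) + Q(u) + Q(v) + Q(w) = Q(u+v) + Q(u+w) + Q(v+w) for all u, v, w), is invariant under every lattice automorphism, and is not identically zero. Then Q(v) is the squared length of v divided by 16, reduced modulo 2, for every lattice vector v (squared lengths of lattice vectors are multiples of 16). -/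
theorem result (Q : ↥Cfsg.leechLattice → ZMod 2) (hcoset : ∀ v w : ↥Cfsg.leechLattice, Q (v + (w + w)) = Q v) (hquad : ∀ u v w : ↥Cfsg.leechLattice, Q (u + v + w) + Q u + Q v + Q w = Q (u + v) + Q (u + w) + Q (v + w)) (hinv : ∀ (g : ↥Cfsg.Co0) (v : ↥Cfsg.leechLattice), Q (g • v) = Q v) (hne : ∃ v : ↥Cfsg.leechLattice, Q v ≠ 0) (v : ↥Cfsg.leechLattice) : Q v = ((Cfsg.sqNorm (v : Cfsg.GolayPt → ℤ) / 16 : ℤ) : ZMod 2) := by
  have q0 : Q 0 = 0 := by
    have := hquad 0 0 0
    simp only [add_zero] at this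
    generalize Q 0 = a at this
    revert a; decide
  have q2 : ∀ x : Λ, sqNorm (x : V) = 32 → Q x = Q uU := fun x h => by
    obtain ⟨c, rfl⟩ := tr32 nU h; exact hinv _ _
  have q3 : ∀ x : Λ, sqNorm (x : V) = 48 → Q x = Q uV := fun x h => by
    obtain ⟨c, rfl⟩ := tr48 h; exact hinv _ _
  have q4 : ∀ x : Λ, sqNorm (x : V) = 64 → Q x = Q (f8 (Gol.px 23)) := fun x h => by
    obtain ⟨c, rfl⟩ := tr64 h; exact hinv _ _
  have a := hquad uU qa1 qa2
  rw [q2 (uU + qa1 + qa2) (by decide +kernel), q2 qa1 (by decide +kernel), q2 qa2 (by decide +kernel),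
    q2 (uU + qa1) (by decide +kernel), q2 (uU + qa2) (by decide +kernel), q4 (qa1 + qa2) (by decide +kernel)] at a
  have b := hquad uU qb1 qb2
  rw [q3 (uU + qb1 + qb2) (by decide +kernel), q2 qb1 (by decide +kernel), q2 qb2 (by decide +kernel),
    q3 (uU + qb1) (by decide +kernel), q3 (uU + qb2) (by decide +kernel), q3 (qb1 + qb2) (by decide +kernel)] at b
  have a' : Q (f8 (Gol.px 23)) = 0 := by
    generalize Q (f8 (Gol.px 23)) = s at a; generalize Q uU = t at a; revert s t; decide
  have b' : Q uU = 0 := by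
    generalize Q uV = s at b; generalize Q uU = t at b; revert s t; decide
  have key : ∀ v : Λ, Q v = ((sqNorm (v : V) / 16 : ℤ) : ZMod 2) * Q uV := fun v => by
    obtain ⟨y, hy, e⟩ := shortL.1 v
    obtain ⟨z, e⟩ := mem_two.1 e
    obtain rfl : v = y + (z + z) := by rw [← two_zsmul, ← e]; abel
    have c1 := dvd16 y.2
    have c2 := dvd16 z.2
    have c3 := dvd8 y.2 z.2
    have c4 : ((sqNorm ((y + (z + z) : Λ) : V) / 16 : ℤ) : ZMod 2) = ((sqNorm (y : V) / 16 : ℤ) : ZMod 2) := by
      rw [ZMod.intCast_eq_intCast_iff', AddSubgroup.coe_add, AddSubgroup.coe_add, sq_add, sq_add, dot_add, ← sq_eq]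
      push_cast
      omega
    rw [hcoset, c4]
    by_cases y0 : (y : V) = 0
    · rw [show y = 0 from Subtype.ext y0, q0]; simp [sqNorm]
    have a1 := min32 y.2 y0
    have : sqNorm (y : V) = 32 ∨ sqNorm (y : V) = 48 ∨ sqNorm (y : V) = 64 := by omega
    rcases this with h | h | h
    · rw [q2 y h, h, b']; exact (zero_mul _).symm
    · rw [q3 y h, h]; exact (one_mul _).symm
    · rw [q4 y h, h, a']; exact (zero_mul _).symm
  obtain ⟨w, hw⟩ := hne
  have : Q uV = 1 := by
    rw [key] at hw
    have := right_ne_zero_of_mul hw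
    generalize Q uV = s at this; revert s; decide
  rw [key, this, mul_one]

end Cfsg.Agent.S5552
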