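import Cfsg.Statements.S5553
import Mathlib
import Cfsg.Agent.H7.Lee.Mono

set_option autoImplicit false
open Cfsg

namespace Cfsg.Agent.S5553

open Cfsg CfsgH7 CfsgH7.Gol CfsgH7.Lee MulAction
open scoped Pointwise

attribute [-simp] Fintype.sum_option

/-- The vectors with all coordinates in one even class modulo four. -/
def A : AddSubgroup V where
  carrier := {x | (∀ i, x i % 4 = x none % 4) ∧ x none % 2 = 0 ∧ (∑ i, x i) % 8 = 0}
  zero_mem' := by simp
  add_mem' := by
    rintro x y ⟨h1, h2⟩ ⟨h3, h4⟩
    refine ⟨fun i => ?_, ?_, ?_⟩ <;> simp only [Pi.add_apply, Finset.sum_add_distrib]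
    · have := h1 i; have := h3 i; omega
    · omega
    · omega
  neg_mem' := by
    rintro x ⟨h1, h2⟩
    refine ⟨fun i => ?_, ?_, ?_⟩ <;> simp only [Pi.neg_apply, Finset.sum_neg_distrib]
    · have := h1 i; omega
    · omega
    · omega

/-- The Leech lattice of the definitions has an additive subgroup A containing twice the lattice, of index 2^12 in the lattice, all of whose vectors have squared length divisible by 32: the invariant quadratic form 'squared length over 16 modulo 2' on the lattice modulo twice the lattice (a 24-dimensional space over the field with two elements) vanishes on a 12-dimensional subspace, so it is of plus type. -/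
theorem result : ∃ A : AddSubgroup (Cfsg.GolayPt → ℤ), A ≤ Cfsg.leechLattice ∧ (∀ v ∈ Cfsg.leechLattice, (2 : ℤ) • v ∈ A) ∧ (A.addSubgroupOf Cfsg.leechLattice).index = 2 ^ 12 ∧ ∀ v ∈ A, (32 : ℤ) ∣ Cfsg.sqNorm v := by
  have h1 : A ≤ Λ := fun x hx => mem_Λ.2 ⟨x none % 4, ∅, U_empty, fun i => by
    have := hx.1 i; simp only [χ, Finset.notMem_empty, if_false]; omega, by have := hx.2; omega⟩
  have h2 : L0 ≤ A := fun x hx => ⟨fun i => by rw [hx.1, hx.1], by have := hx.1 none; omega, hx.2⟩
  refine ⟨A, h1, fun v hv => ?_, ?_, fun v hv => ?_⟩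
  · obtain ⟨a1, a2, _⟩ := mem_iff.1 hv
    refine ⟨fun i => ?_, ?_, ?_⟩ <;> simp only [Pi.smul_apply, smul_eq_mul, ← Finset.mul_sum]
    · have := a1 i; omega
    · omega
    · omega
  · have h3 := AddSubgroup.relIndex_mul_relIndex L0 A Λ h2 h1
    have h4 : L0.relIndex A = 2 := by
      rw [AddSubgroup.relIndex, index_of_inv (X := ZMod 2) (fun x : A => (((x : V) none / 2 : ℤ) : ZMod 2))]
      · simp
      · intro t
        refine ⟨⟨fun _ => 2 * t.val, fun _ => rfl, by simp, by simp [cardP]; omega⟩, by simp⟩
      · intro x y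
        rw [AddSubgroup.mem_addSubgroupOf, AddSubgroup.coe_add, AddSubgroup.coe_neg, mem_L0,
          ZMod.intCast_eq_intCast_iff']
        obtain ⟨a1, a2, a3⟩ := x.2
        obtain ⟨b1, b2, b3⟩ := y.2
        push_cast
        exact ⟨fun h => by have := h.1 none; omega, fun h => ⟨fun i => by rw [a1, b1]; omega, by omega⟩⟩
    rw [h4, L0_rel] at h3
    show A.relIndex Λ = _
    omega
  · obtain ⟨a1, a2, a3⟩ := hv
    have e := norm_decomp (x := v) (m := v none % 4) (c := ∅) (u := fun i => v i / 4) fun i => by
      have := a1 i; simp only [χ, Finset.notMem_empty, if_false]; omega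
    have := sum_sq_par fun i => v i / 4
    have e2 : ∑ i, v i = 24 * (v none % 4) + 4 * ∑ i, v i / 4 := by
      rw [Finset.sum_congr rfl fun i _ => show v i = v none % 4 + 4 * (v i / 4) by have := a1 i; omega]
      simp only [Finset.sum_add_distrib, ← Finset.mul_sum, Finset.sum_const, Finset.card_univ, cardP]
      simp
    have : v none % 4 = 0 ∨ v none % 4 = 2 := by omega
    rcases this with h | h <;> rw [h] at e e2 <;> simp at e e2 <;> omega

end Cfsg.Agent.S5553
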