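import Cfsg.Statements.S5594
import Mathlib
import Cfsg.Agent.H7.Lee.Cfg

set_option autoImplicit false
open Cfsg

namespace Cfsg.Agent.S5594

open CfsgH7 CfsgH7.Lee

/-- The automorphism group of the Leech lattice contains the negation map, and the subgroup of order 2 it generates has no complement: the automorphism group is a non-split extension of its quotient by that subgroup (it is not the direct product of a group of order 2 with the first Conway group). -/
theorem result :
    ∃ n : ↥Cfsg.Co0, (∀ v : ↥Cfsg.leechLattice, ((n • v : ↥Cfsg.leechLattice) : Cfsg.GolayPt → ℤ) = -(v : Cfsg.GolayPt → ℤ)) ∧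
    ∀ K : Subgroup ↥Cfsg.Co0, ¬ (Subgroup.zpowers n).IsComplement' K := by
  refine ⟨neg1, fun v => by rw [neg1_smul]; rfl, fun K h => ?_⟩
  have h1 : K.index = 2 := by rw [h.index_eq_card, Co1.card_neg]
  have := Subgroup.normal_of_index_eq_two h1
  have h2 : commutator Co0 ≤ K := by
    have : IsCyclic (Co0 ⧸ K) := isCyclic_of_prime_card (p := 2) h1
    letI := IsCyclic.commGroup (α := Co0 ⧸ K)
    have := Abelianization.commutator_subset_ker (QuotientGroup.mk' K)
    rwa [QuotientGroup.ker_mk'] at this
  rw [perf0, top_le_iff] at h2
  rw [h2, Subgroup.index_top] at h1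
  omega

end Cfsg.Agent.S5594
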