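import Cfsg.Statements.S5599
import Cfsg.Agent.H1.Mh

set_option autoImplicit false
open scoped Pointwise
open Cfsg

namespace Cfsg.Agent.S5599

/-- In the automorphism group of the length-24 code, the two-point Mathieu group (permutations of the code's group fixing the extra point and the residue 0) has index 2 in the setwise stabiliser of that pair of points, and an element of the code's group interchanging the two points normalises the two-point group and induces on it, by conjugation, an automorphism that is not inner. -/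
theorem result (g : Equiv.Perm Cfsg.GolayPt) (hg : g ∈ Cfsg.M24) (h₁ : g none = some 0) (h₂ : g (some 0) = none) : Cfsg.Spor.M22.relIndex (Cfsg.M24 ⊓ MulAction.stabilizer (Equiv.Perm Cfsg.GolayPt) ({none, some 0} : Finset Cfsg.GolayPt)) = 2 ∧ (∀ x ∈ Cfsg.Spor.M22, g * x * g⁻¹ ∈ Cfsg.Spor.M22) ∧ ¬ ∃ h ∈ Cfsg.Spor.M22, ∀ x ∈ Cfsg.Spor.M22, g * x * g⁻¹ = h * x * h⁻¹ := by
  open CfsgH1.Mg CfsgH1.Mc CfsgH1.Mh CfsgH7 CfsgH7.Gol MulAction in
  open scoped commutatorElement in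
  · have m : ∀ x ∈ Spor.M22, g * x * g⁻¹ ∈ Spor.M22 := fun x hx => by
      refine ⟨⟨M24.mul_mem (M24.mul_mem hg hx.1.1) (M24.inv_mem hg), ?_⟩, ?_⟩
      · show g (x (g⁻¹ none)) = none
        rw [Equiv.Perm.inv_eq_iff_eq.2 h₂.symm, show x (some 0) = some 0 from hx.2, h₂]
      · show g (x (g⁻¹ (some 0))) = some 0
        rw [Equiv.Perm.inv_eq_iff_eq.2 h₁.symm, show x none = none from hx.1.2, h₁]
    refine ⟨?_, m, fun ⟨h, hh, e⟩ => ?_⟩
    · rw [show ({none, some 0} : Finset GolayPt) = S 0x800001 by decide +kernel]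
      have le : Spor.M22 ≤ M24 ⊓ stabilizer (Equiv.Perm GolayPt) (S 0x800001) := fun x hx => ⟨hx.1.1,
        (gen22 ▸ genW_le.2 (I.mem_stab RP (by decide +kernel)) : K22 ≤ K2) (x := ⟨x, hx.1.1⟩) ⟨hx.1.2, hx.2⟩⟩
      have := (Spor.M22.subgroupOf (M24 ⊓ stabilizer (Equiv.Perm GolayPt) (S 0x800001))).index_mul_card
      rw [Nat.card_congr (Subgroup.subgroupOfEquivOfLe le).toEquiv,
        card_down (M := M24) (H := K22) (L := Spor.M22) fun x => ⟨fun h => ⟨h.1.1, h.1.2, h.2⟩, fun ⟨a, b, d⟩ => ⟨⟨a, b⟩, d⟩⟩,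
        card_down (M := M24) (H := K2) (L := M24 ⊓ stabilizer (Equiv.Perm GolayPt) (S 0x800001))
          fun x => ⟨fun h => ⟨h.1, h.2⟩, fun ⟨a, b⟩ => ⟨a, b⟩⟩, card22, card2] at this
      exact Nat.eq_of_mul_eq_mul_right (by norm_num) (this.trans (by norm_num))
    have := cent_one (t := (⟨h, hh.1.1⟩ : M24)⁻¹ * ⟨g, hg⟩) (K := K22) (V := [[0,4,0,4,0],[0,0,5,0,5,1],[0,4,0,4,0,5],[1,5,1,5,1,4],[0,0,0,0,0,4,0],[0,0,5,0,5,1,5],[0,4,0,0,4,4,1]])
      (mem_inf' (RP.mem_stab (by decide +kernel)) (RP.mem_stab (by decide +kernel))) (fun x hx => Subtype.ext (by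
        show h⁻¹ * g * x * (h⁻¹ * g)⁻¹ = x
        rw [mul_inv_rev, mul_assoc h⁻¹, ← mul_assoc, mul_assoc h⁻¹, e x ⟨⟨x.2, hx.1⟩, hx.2⟩]
        group)) [0x804001, 0xa00001, 0x800101, 0x801001, 0x810001, 0x800021, 0x800005] [[], [0x62d024, 0x2d5030, 0x2114e4, 0x243324, 0x851a6, 0x415720, 0x817824, 0x31135], [0xd4b004]] (by decide +kernel)
    rw [inv_mul_eq_one, Subtype.mk.injEq] at this
    rw [← this, show h none = none from hh.1.2] at h₁
    exact absurd h₁ (by simp)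

end Cfsg.Agent.S5599
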