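import Cfsg.Statements.S5601
import Cfsg.Agent.H1.Mc

set_option autoImplicit false
open scoped Pointwise
open Cfsg

namespace Cfsg.Agent.S5601

section
open CfsgH1.Mg CfsgH1.Mc CfsgH7 CfsgH7.Gol MulAction
open scoped commutatorElement

theorem gen3 {X : Subgroup M24} (h : Nat.card X = 3) : ∃ x, orderOf x = 3 ∧ X = Subgroup.zpowers x := by
  have : Fact (Nat.Prime 3) := ⟨by norm_num⟩
  obtain ⟨x, hx⟩ := exists_prime_orderOf_dvd_card' (G := X) 3 (by rw [h])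
  rw [← Subgroup.orderOf_coe] at hx
  exact ⟨x, hx, (eq_of_card_le (by simp) (by rw [h, Nat.card_zpowers, hx])).symm⟩

theorem fz (x : M24) : {p : GolayPt | ∀ y ∈ Subgroup.zpowers x, ((y : M24) : Equiv.Perm GolayPt) p = p}.ncard =
    (fx x).card := by
  rw [← Set.ncard_coe_finset]
  congr 1
  ext p
  simp only [Set.mem_setOf_eq, Finset.coe_filter, Finset.mem_univ, true_and]
  exact ⟨fun h => h x (Subgroup.mem_zpowers x), fun h y hy => (Subgroup.zpowers_le (H := stabilizer M24 p)).2 h hy⟩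

end

/-- The group of the length-24 code has exactly two conjugacy classes of subgroups of order 3: a subgroup of order 3 fixes either exactly 6 of the 24 points or none of them, both cases occur, and two subgroups of order 3 with the same number of fixed points are conjugate. -/
theorem result : (∀ X : Subgroup ↥Cfsg.M24, Nat.card X = 3 → {p : Cfsg.GolayPt | ∀ x ∈ X, ((x : ↥Cfsg.M24) : Equiv.Perm Cfsg.GolayPt) p = p}.ncard = 6 ∨ {p : Cfsg.GolayPt | ∀ x ∈ X, ((x : ↥Cfsg.M24) : Equiv.Perm Cfsg.GolayPt) p = p}.ncard = 0) ∧ (∃ X : Subgroup ↥Cfsg.M24, Nat.card X = 3 ∧ {p : Cfsg.GolayPt | ∀ x ∈ X, ((x : ↥Cfsg.M24) : Equiv.Perm Cfsg.GolayPt) p = p}.ncard = 6) ∧ (∃ X : Subgroup ↥Cfsg.M24, Nat.card X = 3 ∧ {p : Cfsg.GolayPt | ∀ x ∈ X, ((x : ↥Cfsg.M24) : Equiv.Perm Cfsg.GolayPt) p = p}.ncard = 0) ∧ ∀ X Y : Subgroup ↥Cfsg.M24, Nat.card X = 3 → Nat.card Y = 3 → {p : Cfsg.GolayPt | ∀ x ∈ X, ((x : ↥Cfsg.M24)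 : Equiv.Perm Cfsg.GolayPt) p = p}.ncard = {p : Cfsg.GolayPt | ∀ x ∈ Y, ((x : ↥Cfsg.M24) : Equiv.Perm Cfsg.GolayPt) p = p}.ncard → ∃ k : ↥Cfsg.M24, MulAut.conj k • X = Y := by
  open CfsgH1.Mg CfsgH1.Mc CfsgH7 CfsgH7.Gol MulAction in
  open scoped commutatorElement in
  · refine ⟨fun X hX => ?_, ⟨_, by rw [Nat.card_zpowers, oy1], (fz _).trans cy1⟩,
      ⟨_, by rw [Nat.card_zpowers, oy2], (fz _).trans cy2⟩, fun X Y hX hY h => ?_⟩
    · obtain ⟨x, hx, rfl⟩ := gen3 hX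
      rw [fz]
      exact (cls3' hx).imp And.left And.left
    obtain ⟨x, hx, rfl⟩ := gen3 hX
    obtain ⟨y, hy, rfl⟩ := gen3 hY
    rw [fz, fz] at h
    have key : ∀ z c d : M24, x = c * z * c⁻¹ → y = d * z * d⁻¹ →
        ∃ k : M24, (MulAut.conj k • Subgroup.zpowers x) = Subgroup.zpowers y := fun z c d e1 e2 =>
      ⟨d * c⁻¹, (MonoidHom.map_zpowers _ x).trans (congrArg _
        (show d * c⁻¹ * x * (d * c⁻¹)⁻¹ = y by rw [e1, e2]; group))⟩
    rcases cls3' hx with ⟨a, c, e1⟩ | ⟨a, c, e1⟩ <;> rcases cls3' hy with ⟨b, d, e2⟩ | ⟨b, d, e2⟩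
    · exact key _ c d e1 e2
    · omega
    · omega
    · exact key _ c d e1 e2

end Cfsg.Agent.S5601
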