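import Cfsg.Statements.S5604
import Cfsg.Agent.H1.Mi

set_option autoImplicit false
open scoped Pointwise
open Cfsg

namespace Cfsg.Agent.S5604

section
open CfsgH1.Mg CfsgH1.Mc CfsgH1.Mh CfsgH1.Mi CfsgH7 CfsgH7.Gol MulAction
open scoped commutatorElement

def zw : List Nat := [1,5,0,5,1,4,4,0,0,2]

noncomputable abbrev KN : Subgroup M24 := KT ⊓ stabilizer M24 (S 0x80808)

def WN : List (List Nat) := [[2,5,5,0,0,0,2,0,5,0,0,0,0,2],[0,5,0,0,5,1,4,4,1,4,0,0,0,2]]

theorem memN : ∀ w ∈ WN, wprod gm w ∈ KN := mem_inf' (RT.mem_stab (by decide +kernel)) (I.mem_stab RP (by decide +kernel))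

theorem cardN : Nat.card KN = 126 :=
  R3.card_stab F3.inj genT cardT ⟨1210, [0,1,2,0,1,2,0,1,2,0,1,0,1], 512⟩ 11 (I.fpt_eq' (P := P3) (i := 1210) (a := 0x80808) (by decide +kernel)) (by decide +kernel)

theorem genN : genW gm WN = KN :=
  RP.gen_of I.inj memN cardN [⟨0, [[0],[2]], [0,1,0,1,0,1,1], 21⟩,
  ⟨4, [[0,2,0,2],[0,2,2,1,3]], [0,1,0], 6⟩] 5 (by decide +kernel)

theorem eqN : Subgroup.normalizer (Subgroup.zpowers (wprod gm zw) : Set M24) = KN := by
  refine le_antisymm (fun x hx => ⟨?_, ?_⟩)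
    ((Subgroup.normal_subgroupOf_iff_le_normalizer (Subgroup.zpowers_le.2
      ((mem_inf' (RT.mem_stab (by decide +kernel)) (I.mem_stab RP (by decide +kernel))) zw (List.mem_singleton_self _)))).1 (normal_cert P24 hf24 genN (V := [zw])
      (by simp [genW, Subgroup.zpowers_eq_closure]) [[0],[0,0],[0,0,0,0]] (by decide +kernel)))
  · refine FT.imp (RT.rb_fix FT.inj (d := 12) (by norm_num) zw) (FT.sing (b := 291) (by norm_num)) (by decide +kernel) _
      ((mtrio x).2 trio0) (norm_fix hx (fun h hh => ?_) _ (Subgroup.mem_zpowers _))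
    exact (Subgroup.zpowers_le (H := KT)).2 (RT.maps (by norm_num) (by decide +kernel)) hh
  · show (open Pointwise in x • S 0x80808) = _
    rw [← fx_word zw 0x80808 (by decide +kernel)]
    exact (stab_of fun p hp => Finset.mem_filter.2 ⟨Finset.mem_univ _, norm_fix hx (fun h hh =>
      (Subgroup.zpowers_le (H := stabilizer M24 p)).2 (Finset.mem_filter.1 hp).2 hh) _ (Subgroup.mem_zpowers _)⟩)

theorem cardC : Nat.card (Subgroup.centralizer {wprod gm zw}) = 42 := by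
  have := (rep_cw P24 hf24 WN [[1,5,0,5,1,4,4,0,0,2],[1,5,0,5,1,4,4,0,0,2,1,5,0,5,1,4,4,0,0,2],[1,5,0,5,1,4,4,0,0,2,1,5,0,5,1,4,4,0,0,2,1,5,0,5,1,4,4,0,0,2,1,5,0,5,1,4,4,0,0,2]] [(Net.cons (nat_lit 2) (nat_lit 0x3) (Net.cons (nat_lit 1) (nat_lit 0x4) (Net.cons (nat_lit 2) (nat_lit 0x2) Net.nil))),
  Net.nil] (by decide +kernel)).card_stab (inj_cw P24 I.inj _ (by decide +kernel))
    (gen_sub gm genN) cardN ⟨0, [0,0], 3⟩ 2 rfl (t := 42) (by decide +kernel)
  rwa [stab_cw, inf_eq_right.2 (show Subgroup.centralizer {wprod gm (wordAt _ 0)} ≤ KN from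
    eqN ▸ cent_zpowers (wprod gm zw) ▸ Subgroup.centralizer_le_normalizer _)] at this

end

/-- For a subgroup S of order 7 of the group of the length-24 code (a Sylow 7-subgroup): the normaliser of S has order 126, the centraliser of S has order 42 and is non-abelian, and the whole normaliser leaves some trio invariant. (These are the orders of a Frobenius group of order 21 times a symmetric group of degree 3; the isomorphism type itself is not asserted here.) -/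
theorem result (S : Subgroup ↥Cfsg.M24) (hS : Nat.card S = 7) : Nat.card ↥(Subgroup.normalizer (S : Set ↥Cfsg.M24)) = 126 ∧ Nat.card ↥(Subgroup.centralizer (S : Set ↥Cfsg.M24)) = 42 ∧ (∃ x ∈ Subgroup.centralizer (S : Set ↥Cfsg.M24), ∃ y ∈ Subgroup.centralizer (S : Set ↥Cfsg.M24), x * y ≠ y * x) ∧ ∃ T ∈ Cfsg.trios, ∀ n ∈ Subgroup.normalizer (S : Set ↥Cfsg.M24), ((n : ↥Cfsg.M24) : Equiv.Perm Cfsg.GolayPt) • T = T := by
  open CfsgH1.Mg CfsgH1.Mc CfsgH1.Mh CfsgH1.Mi CfsgH7 CfsgH7.Gol MulAction in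
  open scoped commutatorElement in
  · have : Fact (Nat.Prime 7) := ⟨by norm_num⟩
    have h7 : Nat.card (Subgroup.zpowers (wprod gm zw)) = 7 ^ 1 := by
      rw [Nat.card_zpowers, order_of P24 I.inj hf24 (p := 7) (by decide +kernel), pow_one]
    obtain ⟨c, hc⟩ := conj_into h7 (by rw [card24]; norm_num) (IsPGroup.of_card (n := 1) hS)
    have c0 := Cj.of_map c S
    rw [eq_of_card_le (K := S.map _) (S := Subgroup.zpowers (wprod gm zw)) (by rintro _ ⟨y, hy, rfl⟩; exact hc y hy)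
      (by rw [c0.card, hS, h7, pow_one])] at c0
    have c1 := cj_norm c0
    have c2 := Cj.cent c⁻¹ (wprod gm zw)
    rw [← cent_zpowers (_ * _), ← (cj_zpowers c⁻¹ _).map_eq, c0.symm.map_eq] at c2
    rw [eqN] at c1
    have m := mem_cent P24 hf24 (z := zw) (W := [[0,5,0,0,5,1,4,4,1,4,0,0,0,2], [5,1,1,1,2,0,4,0,5,5,1,2,4,4]]) (by decide +kernel)
    refine ⟨c1.card.symm.trans cardN, c2.card.trans cardC, ⟨_, (c2 _).1 (m [0,5,0,0,5,1,4,4,1,4,0,0,0,2] (by simp)), _,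
      (c2 _).1 (m [5,1,1,1,2,0,4,0,5,5,1,2,4,4] (by simp)), fun h => ?_⟩, _, (mtrio c⁻¹).2 trio0, fun n hn => ?_⟩
    · have h1 : wprod gm (app [0,5,0,0,5,1,4,4,1,4,0,0,0,2] [5,1,1,1,2,0,4,0,5,5,1,2,4,4]) = wprod gm (app [5,1,1,1,2,0,4,0,5,5,1,2,4,4] [0,5,0,0,5,1,4,4,1,4,0,0,0,2]) := by
        rw [wprod_app, wprod_app]
        exact (MulAut.conj c⁻¹).injective (by rw [map_mul, map_mul]; exact h)
      exact absurd ((P24.word (by decide +kernel)).inj I.inj (h1 ▸ P24.word (by decide +kernel))) (by decide +kernel)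
    · have := (Cj.stab c⁻¹ (tpt 291) _).1 ((c1 n).1 hn).1
      rwa [show c⁻¹ * (c * n * c⁻¹) * c⁻¹⁻¹ = n by group] at this

end Cfsg.Agent.S5604
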