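import Cfsg.Statements.S5607
import Cfsg.Agent.H1.Mc

set_option autoImplicit false
open scoped Pointwise
open Cfsg

namespace Cfsg.Agent.S5607

section
open CfsgH1.Mg CfsgH1.Mc CfsgH7 CfsgH7.Gol MulAction
open scoped commutatorElement

def E : List (List Nat) := [[1,5,0,0,0,2,1,1,1,4,0],[0,2,1,1,5,0,0,0,2,1,1,1,4,0,0,2,1],[0,0,2,5,0,5,5,1,1,4,0,0,0,0,0,4],[0,2,4,1,1,4,0,5,1,4,0,5,5,0,4],[2,5,5,0,5,0,5,0,0,0,0,5,1,1,5],[2,1,1,1,2,5,0,5,5,0,0,2,1,5],[0,5,1,5,1,2,5,1,4,1,5,0,0,5,1,5],[1,2,4,4,1,2,0,4,4,0,5,0,0,2,0,5],[0,0,2,1,1,4,1,1,2,1,4,0,5,1,2,0],[0,4,1,5,0,2,4,4,1,2,5,5,1,5,5],[2,1,5,5,1,1,1,5,5,0,4,1,1,4],[1,1,4,1,1,4,0,5,1,4,1,1,1,4,1,2],[0,4,1,2,0,4,4,1,5,1,1,1,2,0,0,5],[0,0,0,0,4,0,0,5,0,0,4,0,5,1,2],[0,2,0,4,0,0,0,4,0,0,0,5,0,4,4,1,5],[0,0,2,0,0,4,0,5,1,1,4,4,1,1,5,0],[0,2,0,5,1,5,5,1,1,4,1,4,1,1,1,4],[1,2,5,0,2,5,1,4,0,2,4,0,5,0,5,0]]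

def lE : List Net := [(Net.cons (nat_lit 4) (nat_lit 0xc04) (Net.cons (nat_lit 2) (nat_lit 0x100) (Net.cons (nat_lit 1) (nat_lit 0x15001) (Net.cons (nat_lit 4) (nat_lit 0xc00) Net.nil)))),
  (Net.cons (nat_lit 16) (nat_lit 0xdebd) (Net.cons (nat_lit 8) (nat_lit 0xaa0040) (Net.cons (nat_lit 4) (nat_lit 0xc0d0600) (Net.cons (nat_lit 2) (nat_lit 0x2320100) (Net.cons (nat_lit 1) (nat_lit 0x54110101) (Net.cons (nat_lit 2) (nat_lit 0x2200000) (Net.cons (nat_lit 4) (nat_lit 0xc040600) (Net.cons (nat_lit 8) (nat_lit 0x300040) (Net.cons (nat_lit 16) (nat_lit 0xdebe) Net.nil))))))))),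
  (Net.cons (nat_lit 16) (nat_lit 0x8200) (Net.cons (nat_lit 8) (nat_lit 0x20076) (Net.cons (nat_lit 4) (nat_lit 0x8000a04) (Net.cons (nat_lit 2) (nat_lit 0x2002102) (Net.cons (nat_lit 1) (nat_lit 0x11051) (Net.cons (nat_lit 2) (nat_lit 0x2002) (Net.cons (nat_lit 4) (nat_lit 0x8000804) (Net.cons (nat_lit 8) (nat_lit 0x20036) (Net.cons (nat_lit 16) (nat_lit 0x8200) Net.nil)))))))))]

def WC : List (List Nat) := [[0,2,1,1,2,5,5,0,0,5],[0,4,1,5,5,1,1,5,0,2]]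

noncomputable abbrev CZ : Subgroup M24 := Subgroup.centralizer {wprod gm z2}

theorem le_KX : CZ ≤ KX := by
  have e := P24.word (w := z2) (by decide +kernel)
  have r : Rb xpt 1771 (andN 1771 (fun p => relB CX 3 p (pget (pword 24 T24 z2) p)) 24)
      (fun X => ∀ p, ∃ s ∈ X, p ∈ s ∧ wprod gm z2 • p ∈ s) := by
    intro i hi
    rw [andN_testBit]
    constructor
    · rintro ⟨_, h⟩ p
      have := (I.rb_rel CX 3 1771 (I.lt p) (e.2.2 _ (I.lt p)).1 i hi).1 (h _ (I.lt p))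
      rwa [← (e.2.2 _ (I.lt p)).2, I.px_ix] at this
    · exact fun h => ⟨hi, fun k hk => (I.rb_rel CX 3 1771 hk (e.2.2 _ hk).1 i hi).2 ((e.2.2 _ hk).2 ▸ h _)⟩
  intro c hc
  refine FX.imp r (FX.sing (b := 1194) (by norm_num)) (by decide +kernel) _ ((msext c).2 sext0) fun p => ?_
  obtain ⟨p, rfl⟩ := ex_smul c p
  obtain ⟨s, hs, h1, h2⟩ := r.at (i := 1194) (by decide +kernel) p
  refine ⟨c • s, Finset.smul_mem_smul_finset hs, (mem_smul c).2 h1, ?_⟩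
  rw [← mul_smul, ← Subgroup.mem_centralizer_singleton_iff.1 hc, mul_smul]
  exact (mem_smul c).2 h2

theorem cardC : Nat.card CZ = 7680 := by
  have := (rep_cw P24 hf24 WX E lE (by decide +kernel)).card_stab (inj_cw P24 I.inj E (by decide +kernel))
    (gen_sub gm genX) cardX ⟨0, [0,2,1,2,1,2,1], 18⟩ 5 rfl (t := 7680) (by decide +kernel)
  rwa [stab_cw, inf_eq_right.2 (show Subgroup.centralizer {wprod gm (wordAt E 0)} ≤ KX from le_KX)] at this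

theorem memC : ∀ w ∈ WC, wprod gm w ∈ CZ := mem_cent P24 hf24 (by decide +kernel)

end

/-- For a fixed-point-free involution t of the group of the length-24 code: its centraliser in that group has order 7680, is transitive on the 24 points, and is contained, together with t, in the stabiliser of some sextet. -/
theorem result (t : Equiv.Perm Cfsg.GolayPt) (ht : t ∈ Cfsg.M24) (h₂ : orderOf t = 2) (h₀ : ∀ p, t p ≠ p) : Nat.card {c : Equiv.Perm Cfsg.GolayPt // c ∈ Cfsg.M24 ∧ c * t = t * c} = 7680 ∧ (∀ p q : Cfsg.GolayPt, ∃ c ∈ Cfsg.M24, c * t = t * c ∧ c p = q) ∧ ∃ S ∈ Cfsg.sextets, t • S = S ∧ ∀ c ∈ Cfsg.M24, c * t = t * c → c • S = S := by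
  open CfsgH1.Mg CfsgH1.Mc CfsgH7 CfsgH7.Gol MulAction in
  open scoped commutatorElement in
  · obtain ⟨c, e⟩ := c2B ht h₂ h₀
    have h := Cj.cent c (wprod gm z2)
    rw [← e] at h
    have m : ∀ x : M24, x ∈ Subgroup.centralizer {(⟨t, ht⟩ : M24)} ↔ (x : Equiv.Perm GolayPt) * t = t * x :=
      fun x => by rw [Subgroup.mem_centralizer_singleton_iff, Subtype.ext_iff]; rfl
    have s : ∀ x ∈ Cfsg.M24, x * t = t * x → (open Pointwise in x • ((c • xpt 1194 : Finset (Finset GolayPt)))) = (open Pointwise in c • xpt 1194) :=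
      fun x hx h1 => by
        have := (Cj.stab c (xpt 1194) _).1 (le_KX ((h.symm ⟨x, hx⟩).1 ((m _).2 h1)))
        simpa [mul_assoc] using this
    refine ⟨(card_sub m).trans (h.card.trans cardC), fun p q => ?_, _, (msext c).2 sext0, s t ht rfl, s⟩
    obtain ⟨p, rfl⟩ := ex_smul c p
    obtain ⟨q, rfl⟩ := ex_smul c q
    obtain ⟨k, hk, e⟩ := I.fam.tr2 RP memC (Rb.all _ _) [0,1,0,1,0,1,1,0] 0 (by decide +kernel) p trivial q trivial
      trivial trivial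
    exact ⟨_, (c * k * c⁻¹).2, (m _).1 ((h k).1 hk), cj_smul c e⟩

end Cfsg.Agent.S5607
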