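import Cfsg.Statements.S5608
import Cfsg.Agent.H1.Mc
import Cfsg.Agent.S5607

set_option autoImplicit false
open scoped Pointwise
open Cfsg

namespace Cfsg.Agent.S5608

/-- If an element of order 3 and an involution of the group of the length-24 code commute, then either the element of order 3 has exactly 6 fixed points and the involution exactly 8, or both are fixed-point-free. -/
theorem result (x s : Equiv.Perm Cfsg.GolayPt) (hx : x ∈ Cfsg.M24) (hs : s ∈ Cfsg.M24) (h₃ : orderOf x = 3) (h₂ : orderOf s = 2) (hc : Commute x s) : ((Finset.univ.filter fun p => x p = p).card = 6 ∧ (Finset.univ.filter fun p => s p = p).card = 8) ∨ ((Finset.univ.filter fun p => x p = p).card = 0 ∧ (Finset.univ.filter fun p => s p = p).card = 0) := by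
  open CfsgH1.Mg CfsgH1.Mc CfsgH7 CfsgH7.Gol MulAction in
  open scoped commutatorElement in
  · have : Fact (Nat.Prime 3) := ⟨by norm_num⟩
    have a3 := (order_mk hx).trans h₃
    rcases cls2' ((order_mk hs).trans h₂) with ⟨a, -⟩ | ⟨a, c, e⟩
    · refine Or.inl ⟨((cls3' a3).resolve_right fun ⟨b, _⟩ => ?_).1, a⟩
      have h1 : ∀ p ∈ fx ⟨s, hs⟩, x p ∈ fx ⟨s, hs⟩ := fun p hp => by
        simp only [Finset.mem_filter, Finset.mem_univ, true_and] at hp ⊢
        show s (x p) = x p
        rw [← Equiv.Perm.mul_apply, ← hc, Equiv.Perm.mul_apply]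
        exact congrArg x hp
      have h3 : ∀ p, x p ∈ fx ⟨s, hs⟩ ↔ p ∈ fx ⟨s, hs⟩ := fun p =>
        ⟨fun h => by simpa using Equiv.Perm.perm_symm_on_of_perm_on_finset h1 h, h1 p⟩
      obtain ⟨p, hp⟩ := Equiv.Perm.exists_fixed_point_of_prime (p := 3) (n := 1) (σ := x.subtypePerm h3)
        (by rw [Fintype.card_coe, a]; norm_num) (by
          rw [Equiv.Perm.subtypePerm_pow, pow_one]
          ext p
          simp [← h₃, pow_orderOf_eq_one])
      exact fx_empty.1 b p (congrArg Subtype.val hp)
    · refine Or.inr ⟨?_, a⟩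
      have h := Cj.cent c (wprod gm z2)
      rw [← e] at h
      have oy : orderOf (wprod gm [1,1,2,0,0,5,5,1,5,0]) = 3 := order_of P24 I.inj hf24 (by decide +kernel)
      obtain ⟨k, -, hk⟩ := conj_over' (p := 3) (H := Subgroup.zpowers (wprod gm [1,1,2,0,0,5,5,1,5,0]))
        (Subgroup.zpowers_le.2 (mem_cent P24 hf24 (z := z2) (W := [[1,1,2,0,0,5,5,1,5,0]]) (by decide +kernel) _ (by simp)))
        (by rw [Nat.card_zpowers, oy]) (b := 2560) S5607.cardC (by norm_num)
        ((h.symm ⟨x, hx⟩).1 (Subgroup.mem_centralizer_singleton_iff.2 (Subtype.ext hc))) (by rw [order_conj, a3])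
      have h1 := eq_of_card_le (Subgroup.zpowers_le.2 hk) (by
        rw [Nat.card_zpowers, Nat.card_zpowers, order_conj, order_conj, a3, oy])
      show (fx ⟨x, hx⟩).card = 0
      rw [← card_fx_conj c⁻¹, ← card_fx_conj k, fx_empty]
      intro p hp
      have h2 := (Subgroup.zpowers_le (H := stabilizer M24 p)).2 hp (h1.ge (Subgroup.mem_zpowers _))
      exact fx_empty.1 (by rw [fx_word [1,1,2,0,0,5,5,1,5,0] 0 (by decide +kernel), S_zero]; rfl) p h2

end Cfsg.Agent.S5608
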