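import Cfsg.Statements.S5609
import Cfsg.Agent.H1.Mh

set_option autoImplicit false
open scoped Pointwise
open Cfsg

namespace Cfsg.Agent.S5609

section
open CfsgH1.Mg CfsgH1.Mc CfsgH1.Mh CfsgH7 CfsgH7.Gol MulAction
open scoped commutatorElement

abbrev Γ := blockGraph octads

theorem adj {a b : octads} : Γ.Adj a b ↔ Disjoint a.1 b.1 := by
  refine ⟨fun h => h.2.elim id fun h => h.symm, fun h => ⟨?_, Or.inl h⟩⟩
  rintro rfl
  have := a.2.2
  rw [disjoint_self.1 h] at this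
  simp at this

theorem a0 {a b : octads} (h : (a.1 ∩ b.1).card = 0) : Γ.Adj a b :=
  adj.2 (Finset.disjoint_iff_inter_eq_empty.2 (Finset.card_eq_zero.1 h))

theorem a0' {a b : octads} (h : Γ.Adj a b) : (a.1 ∩ b.1).card = 0 :=
  Finset.card_eq_zero.2 (Finset.disjoint_iff_inter_eq_empty.1 (adj.1 h))

theorem a4 {a b : octads} (h : (a.1 ∩ b.1).card = 4) : ∃ u, Γ.Adj a u ∧ Γ.Adj u b := by
  obtain ⟨c, e1, e2⟩ := oct_pair a.2 b.2 (m := 0xc75001) (by decide +kernel) (h.trans (by decide +kernel))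
  refine ⟨⟨_, (moct c).2 (oct_of (a := 0x3886c0) (by decide +kernel))⟩, adj.2 ?_, adj.2 ?_⟩ <;>
    simp only [← e1, ← e2, disj_smul] <;> decide +kernel

theorem a2 {a b : octads} (h : (a.1 ∩ b.1).card = 2) :
    (∃ u v, Γ.Adj a u ∧ Γ.Adj u v ∧ Γ.Adj v b) ∧ ∀ u, Γ.Adj a u → ¬ Γ.Adj u b := by
  obtain ⟨c, e1, e2⟩ := oct_pair a.2 b.2 (m := 0x49f002) (by decide +kernel) (h.trans (by decide +kernel))
  refine ⟨⟨⟨_, (moct c).2 (oct_of (a := 0x6920d0) (by decide +kernel))⟩,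
    ⟨_, (moct c).2 (oct_of (a := 0x860721) (by decide +kernel))⟩, adj.2 ?_, adj.2 ?_, adj.2 ?_⟩, fun ⟨u, hu⟩ h1 h2 => ?_⟩
  · simp only [← e1, disj_smul]; decide +kernel
  · simp only [disj_smul]; decide +kernel
  · simp only [← e2, disj_smul]; decide +kernel
  obtain ⟨u, rfl⟩ := ex_smul c u
  rw [adj, ← e1, disj_smul] at h1
  rw [adj, ← e2, disj_smul] at h2
  exact FC.empty ((rbW 8).and ((rb_disj rfl 4096 0x82402f).and (rb_disj rfl 4096 0x49f002))) (by decide +kernel) u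
    ((moct c).1 hu).1 ⟨((moct c).1 hu).2, h1, h2.symm⟩

theorem conn : Γ.Connected := by
  have : Nonempty octads := ⟨⟨_, oct0⟩⟩
  refine ⟨fun a b => ?_⟩
  rcases oct_oct a.2 b.2 with h | h | h | h
  · exact (a0 h).reachable
  · obtain ⟨u, v, h1, h2, h3⟩ := (a2 h).1
    exact (h1.reachable.trans h2.reachable).trans h3.reachable
  · obtain ⟨u, h1, h2⟩ := a4 h
    exact h1.reachable.trans h2.reachable
  · rw [show a = b from Subtype.ext (oct_eq a.2 b.2 (by omega))]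

end

/-- In the graph on the 759 octads of the length-24 code in which two octads are adjacent when they are disjoint, the graph is connected (of diameter 3) and two distinct octads are at distance 1, 2 or 3 exactly when they meet in 0, 4 or 2 points respectively. -/
theorem result (o o' : Finset Cfsg.GolayPt) (ho : o ∈ Cfsg.octads) (ho' : o' ∈ Cfsg.octads) (hne : o ≠ o') : (Cfsg.blockGraph Cfsg.octads).Connected ∧ ((Cfsg.blockGraph Cfsg.octads).dist ⟨o, ho⟩ ⟨o', ho'⟩ = 1 ↔ (o ∩ o').card = 0) ∧ ((Cfsg.blockGraph Cfsg.octads).dist ⟨o, ho⟩ ⟨o', ho'⟩ = 2 ↔ (o ∩ o').card = 4) ∧ ((Cfsg.blockGraph Cfsg.octads).dist ⟨o, ho⟩ ⟨o', ho'⟩ = 3 ↔ (o ∩ o').card = 2) := by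
  open CfsgH1.Mg CfsgH1.Mc CfsgH1.Mh CfsgH7 CfsgH7.Gol MulAction in
  open scoped commutatorElement in
  · have h0 : Γ.dist ⟨o, ho⟩ ⟨o', ho'⟩ ≠ 0 := fun h => hne (congrArg Subtype.val (conn.dist_eq_zero_iff.1 h))
    have h1 : Γ.dist ⟨o, ho⟩ ⟨o', ho'⟩ = 1 ↔ (o ∩ o').card = 0 := SimpleGraph.dist_eq_one_iff_adj.trans
      ⟨a0', a0 (a := ⟨o, ho⟩) (b := ⟨o', ho'⟩)⟩
    have h8 : (o ∩ o').card ≠ 8 := fun h => hne (oct_eq ho ho' (by omega))
    have h4 : (o ∩ o').card = 4 → Γ.dist ⟨o, ho⟩ ⟨o', ho'⟩ ≤ 2 := fun h => by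
      obtain ⟨u, a, b⟩ := a4 (a := ⟨o, ho⟩) (b := ⟨o', ho'⟩) h
      exact SimpleGraph.dist_le (.cons a (.cons b .nil))
    have h2 : (o ∩ o').card = 2 → Γ.dist ⟨o, ho⟩ ⟨o', ho'⟩ ≤ 3 ∧ Γ.dist ⟨o, ho⟩ ⟨o', ho'⟩ ≠ 2 := fun h => by
      obtain ⟨⟨u, v, a, b, c⟩, d⟩ := a2 (a := ⟨o, ho⟩) (b := ⟨o', ho'⟩) h
      refine ⟨SimpleGraph.dist_le (.cons a (.cons b (.cons c .nil))), fun e => ?_⟩
      obtain ⟨p, hp⟩ := conn.exists_walk_length_eq_dist ⟨o, ho⟩ ⟨o', ho'⟩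
      rw [e] at hp
      have x := p.adj_getVert_succ (i := 0) (by omega)
      have y := p.adj_getVert_succ (i := 1) (by omega)
      rw [p.getVert_zero] at x
      rw [show 1 + 1 = p.length by omega, p.getVert_length] at y
      exact d _ x y
    have := oct_oct ho ho'
    exact ⟨conn, h1, show Γ.dist _ _ = 2 ↔ _ by omega, show Γ.dist _ _ = 3 ↔ _ by omega⟩

end Cfsg.Agent.S5609
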