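import Cfsg.Statements.S5611
import Mathlib
import Cfsg.Agent.H7.Gol.Tr2

set_option autoImplicit false
open scoped Pointwise
open Cfsg

namespace Cfsg.Agent.S5611

open CfsgH7 CfsgH7.Gol MulAction
open scoped Pointwise

/-- The stabiliser of a sextet in the group of the length-24 code has exactly three orbits on the 759 octads, of sizes 15, 360 and 384, and exactly four orbits on the 3795 trios, of sizes 15, 180, 720 and 2880. -/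
theorem result (S : Finset (Finset Cfsg.GolayPt)) (hS : S ∈ Cfsg.sextets) : (∃ X₁ ∈ Cfsg.octads, ∃ X₂ ∈ Cfsg.octads, ∃ X₃ ∈ Cfsg.octads, (MulAction.orbit ↥(MulAction.stabilizer Cfsg.M24 S) X₁).ncard = 15 ∧ (MulAction.orbit ↥(MulAction.stabilizer Cfsg.M24 S) X₂).ncard = 360 ∧ (MulAction.orbit ↥(MulAction.stabilizer Cfsg.M24 S) X₃).ncard = 384 ∧ Cfsg.octads = MulAction.orbit ↥(MulAction.stabilizer Cfsg.M24 S) X₁ ∪ MulAction.orbit ↥(MulAction.stabilizer Cfsg.M24 S) X₂ ∪ MulAction.orbit ↥(MulAction.stabilizer Cfsg.M24 S) X₃) ∧ (∃ Y₁ ∈ Cfsg.trios, ∃ Y₂ ∈ Cfsg.trios, ∃ Y₃ ∈ Cfsg.trios, ∃ Y₄ ∈ Cfsg.trios, (MulAction.orbit ↥(MulAction.stabilizer Cfsg.M24 S) Y₁).ncard = 15 ∧ (MulAction.orbit ↥(MulAction.stabilizer Cfsg.M24 S) Y₂).ncard = 180 ∧ (MulAction.orbit ↥(MulAction.stabilizer Cfsg.M24 S) Y₃).ncard = 720 ∧ (MulAction.orbit ↥(MulAction.stabilizer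 Cfsg.M24 S) Y₄).ncard = 2880 ∧ Cfsg.trios = MulAction.orbit ↥(MulAction.stabilizer Cfsg.M24 S) Y₁ ∪ MulAction.orbit ↥(MulAction.stabilizer Cfsg.M24 S) Y₂ ∪ MulAction.orbit ↥(MulAction.stabilizer Cfsg.M24 S) Y₃ ∪ MulAction.orbit ↥(MulAction.stabilizer Cfsg.M24 S) Y₄) := by
  obtain ⟨c, rfl⟩ := sext_tr hS
  exact ⟨((FC.dec RC genX (rbW 8) [⟨23, [1,0,1,0,1,0,1,0], 15⟩,
    ⟨1, [0,1,0,2,1,0,1,0,1,0,2,0,1,0,2], 360⟩,
    ⟨2, [0,1,0,2,0,1,0,1,0,2,0,1,0,1,0,1,0], 384⟩] 12 (by decide +kernel) (A := Cfsg.octads) (fun y => mem_oct)).conj (Cj.stab c _) fun y => moct c).three,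
    ((FT.dec RT genX (Rb.all _ _) [⟨21, [1,0,1,2,0,1,0], 15⟩,
    ⟨16, [0,1,0,2,0,1,0,2,0,1,0,1,0,1,0], 180⟩,
    ⟨0, [0,1,0,2,0,1,0,1,0,2,0,1,0,2,0,1,0,1], 720⟩,
    ⟨1, [0,1,0,2,0,1,0,1,0,2,0,1,0,1,0,2,0,1,0,1,0], 2880⟩] 12 (by decide +kernel) (A := Cfsg.trios) (fun y => by simp)).conj (Cj.stab c _) fun y => mtrio c).four⟩

end Cfsg.Agent.S5611
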