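import Cfsg.Statements.S5612
import Mathlib
import Cfsg.Agent.H7.Gol.Tr2

set_option autoImplicit false
open scoped Pointwise
open Cfsg

namespace Cfsg.Agent.S5612

open CfsgH7 CfsgH7.Gol MulAction
open scoped Pointwise

/-- The stabiliser of a trio in the group of the length-24 code has exactly three orbits on the 759 octads, of sizes 3, 84 and 672, and exactly four orbits on the 1771 sextets, of sizes 7, 84, 336 and 1344. -/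
theorem result (T : Finset (Finset Cfsg.GolayPt)) (hT : T ∈ Cfsg.trios) : (∃ X₁ ∈ Cfsg.octads, ∃ X₂ ∈ Cfsg.octads, ∃ X₃ ∈ Cfsg.octads, (MulAction.orbit ↥(MulAction.stabilizer Cfsg.M24 T) X₁).ncard = 3 ∧ (MulAction.orbit ↥(MulAction.stabilizer Cfsg.M24 T) X₂).ncard = 84 ∧ (MulAction.orbit ↥(MulAction.stabilizer Cfsg.M24 T) X₃).ncard = 672 ∧ Cfsg.octads = MulAction.orbit ↥(MulAction.stabilizer Cfsg.M24 T) X₁ ∪ MulAction.orbit ↥(MulAction.stabilizer Cfsg.M24 T) X₂ ∪ MulAction.orbit ↥(MulAction.stabilizer Cfsg.M24 T) X₃) ∧ (∃ Y₁ ∈ Cfsg.sextets, ∃ Y₂ ∈ Cfsg.sextets, ∃ Y₃ ∈ Cfsg.sextets, ∃ Y₄ ∈ Cfsg.sextets, (MulAction.orbit ↥(MulAction.stabilizer Cfsg.M24 T) Y₁).ncard = 7 ∧ (MulAction.orbit ↥(MulAction.stabilizer Cfsg.M24 T) Y₂).ncard = 84 ∧ (MulAction.orbit ↥(MulAction.stabilizer Cfsg.M24 T) Y₃).ncard = 336 ∧ (MulAction.orbit ↥(MulAction.stabilizer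 Cfsg.M24 T) Y₄).ncard = 1344 ∧ Cfsg.sextets = MulAction.orbit ↥(MulAction.stabilizer Cfsg.M24 T) Y₁ ∪ MulAction.orbit ↥(MulAction.stabilizer Cfsg.M24 T) Y₂ ∪ MulAction.orbit ↥(MulAction.stabilizer Cfsg.M24 T) Y₃ ∪ MulAction.orbit ↥(MulAction.stabilizer Cfsg.M24 T) Y₄) := by
  obtain ⟨c, rfl⟩ := trio_tr hT
  exact ⟨((FC.dec RC genT (rbW 8) [⟨47, [2,0], 3⟩,
    ⟨9, [0,1,2,0,1,2,0,1,0], 84⟩,
    ⟨1, [0,1,2,0,1,2,0,1,0,2,0,1,0,0,0], 672⟩] 12 (by decide +kernel) (A := Cfsg.octads) (fun y => mem_oct)).conj (Cj.stab c _) fun y => moct c).three,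
    ((FX.dec RX genT (Rb.all _ _) [⟨252, [0,1,0,0], 7⟩,
    ⟨52, [0,1,2,0,1,2,0,2,0], 84⟩,
    ⟨1, [0,1,2,0,1,0,2,0,1,0,2,0,1], 336⟩,
    ⟨0, [0,1,2,0,1,0,2,0,1,2,0,1,0,2,0], 1344⟩] 11 (by decide +kernel) (A := Cfsg.sextets) (fun y => by simp)).conj (Cj.stab c _) fun y => msext c).four⟩

end Cfsg.Agent.S5612
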