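import Cfsg.Statements.S5614
import Cfsg.Agent.H1.Mc

set_option autoImplicit false
open scoped Pointwise
open Cfsg

namespace Cfsg.Agent.S5614

/-- In the group of the length-24 code, the joint stabiliser of two octads meeting in exactly two points is isomorphic to the symmetric group of degree 6. -/
theorem result (o o' : Finset Cfsg.GolayPt) (ho : o ∈ Cfsg.octads) (ho' : o' ∈ Cfsg.octads) (h₂ : (o ∩ o').card = 2) : Nonempty (↥(MulAction.stabilizer Cfsg.M24 o ⊓ MulAction.stabilizer Cfsg.M24 o') ≃* Equiv.Perm (Fin 6)) := by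
  open CfsgH1.Mg CfsgH1.Mc CfsgH7 CfsgH7.Gol MulAction in
  open scoped commutatorElement in
  · obtain ⟨c, rfl, rfl⟩ := oct_pair ho ho' (m := 0x49f002) (by decide +kernel) (h₂.trans (by decide +kernel))
    obtain ⟨e⟩ := iso_perm (K := KO2) (s := S 0x82002d) (genO2 ▸ fun _ h => genW_le.2 (I.mem_stab RP (by decide +kernel)) h)
      (faith_base (RP.base_of I.inj memO2 cardO2 [⟨0, [[0],[2]], [0,0,0,1,1], 6⟩,
    ⟨2, [[0,0,2]], [0,0,0,0], 5⟩,
    ⟨3, [[0,2,0,2],[1,3,3,1,3]], [0,0,1], 4⟩,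
    ⟨5, [[1,3,1,3,0,0,3]], [0,0], 3⟩,
    ⟨17, [[0,2,0,3,3,1,3,3]], [0], 2⟩] 5 (by decide +kernel))
        (by decide +kernel)) (n := 6) (by decide +kernel) cardO2
    exact ⟨((Cj.stab c _).inf (Cj.stab c _)).equiv.symm.trans e⟩

end Cfsg.Agent.S5614
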