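import Cfsg.Statements.S5615
import Cfsg.Agent.H1.Mh

set_option autoImplicit false
open scoped Pointwise
open Cfsg

namespace Cfsg.Agent.S5615

section
open CfsgH1.Mg CfsgH1.Mc CfsgH1.Mh CfsgH7 CfsgH7.Gol MulAction
open scoped commutatorElement

theorem rb : Rb tpt 3795 (hasB CT 2 24 3795 0x82402f 0) (fun T => S 0x82402f ∈ T) :=
  I.rb_has CT 2 3795 (by norm_num) (by decide +kernel)

theorem t2 : TT KO {T | T ∈ trios ∧ S 0x82402f ∈ T} ([318, 291].map tpt) :=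
  tt_fam FT RT rb (fun _ h => h) (tt_fam FT RT rb (fun _ h => h) (pre := []) trivial _
    (mem_map_subst memO [[0],[2]]) [0,1,1,0,1,1,0,1] (by decide +kernel)) _
    (mem_map_subst memO [[0,2,0,2,2],[0,3,3,0,2]]) [0,1,0,0,1,0] (by decide +kernel)

theorem ker {x : M24} (hx : x ∈ KO) : (∀ T ∈ trios, S 0x82402f ∈ T → x • T = T) ↔ x ∈ K18 := by
  have h1 := fixall FT RT rb gen18 12 (by decide +kernel)
  have h2 : ∀ b ∈ [1392,357,318,291], tpt b ∈ trios ∧ S 0x82402f ∈ tpt b := fun b hb =>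
    FT.exists rb b (by revert b; decide +kernel)
  refine ⟨fun h => ?_, h1 x⟩
  have h3 : Nat.card (fixS tpt KO [1392,357,318,291]) ≤ 16 :=
    fix_le RT FT.inj memO cardO [⟨291, [[0],[2]], [0,1,1,0,1,1,0,1], 15⟩,
  ⟨318, [[0,2,0,2,2],[0,3,3,0,2]], [0,1,0,0,1,0], 14⟩,
  ⟨357, [[0,3,0,2,0],[3,3,3,0,2,2,2],[2,0,2,2,0,3,3,0,3],[3,0,3,3,0,2,2,0,2]], [0,1,3,2], 12⟩,
  ⟨1392, [[0,2,2,0,2,0,3,0,3,3,0],[0,2,0,2,0,2,0,3,0,3,0,3,0],[2,0,2,2,0,2,0,3,0,3,3,0,3]], [0,1,2], 8⟩] 12 16 (by decide +kernel)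
  rw [eq_of_card_le (K := K18) (S := fixS tpt KO [1392,357,318,291]) (fun y hy => ⟨(gen18 ▸ genW_le.2 (I.mem_stab RP (by decide +kernel)) : K18 ≤ KO) hy,
    fun b hb => h1 y hy _ (h2 b hb).1 (h2 b hb).2⟩) (card18 ▸ h3)]
  exact ⟨hx, fun b hb => h _ (h2 b hb).1 (h2 b hb).2⟩

end

/-- An octad of the length-24 code lies in exactly 15 trios; the stabiliser of the octad in the code's group acts doubly transitively on these 15 trios, and the kernel of this action is the pointwise stabiliser of the octad. -/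
theorem result (o : Finset Cfsg.GolayPt) (ho : o ∈ Cfsg.octads) : {T : Finset (Finset Cfsg.GolayPt) | T ∈ Cfsg.trios ∧ o ∈ T}.ncard = 15 ∧ (∀ T₁ T₂ T₁' T₂' : Finset (Finset Cfsg.GolayPt), T₁ ∈ Cfsg.trios → T₂ ∈ Cfsg.trios → T₁' ∈ Cfsg.trios → T₂' ∈ Cfsg.trios → o ∈ T₁ → o ∈ T₂ → o ∈ T₁' → o ∈ T₂' → T₁ ≠ T₂ → T₁' ≠ T₂' → ∃ g ∈ Cfsg.M24, g • o = o ∧ g • T₁ = T₁' ∧ g • T₂ = T₂') ∧ ∀ g ∈ Cfsg.M24, g • o = o → ((∀ T ∈ Cfsg.trios, o ∈ T → g • T = T) ↔ ∀ p ∈ o, g p = p) := by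
  open CfsgH1.Mg CfsgH1.Mc CfsgH1.Mh CfsgH7 CfsgH7.Gol MulAction in
  open scoped commutatorElement in
  · obtain ⟨c, rfl⟩ := oct_tr ho
    have hA : ∀ y : Finset (Finset GolayPt), (open Pointwise in c • y ∈ {T | T ∈ trios ∧ c • S 0x82402f ∈ T}) ↔
        y ∈ trios ∧ S 0x82402f ∈ y := fun y => by
      rw [Set.mem_setOf_eq, mtrio, Finset.smul_mem_smul_finset_iff]
    refine ⟨FT.ncard_tr rb c hA 12 (by decide +kernel), fun a b a' b' h1 h2 h3 h4 h5 h6 h7 h8 n n' => ?_, fun g hg h => ?_⟩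
    · have t := tt_conj (Cj.stab c _) hA t2
      have i : ∀ x ∈ stabilizer M24 (open Pointwise in c • S 0x82402f), ∀ T ∈ (open Pointwise in
          {T | T ∈ trios ∧ c • S 0x82402f ∈ T}), (open Pointwise in x • T ∈ {T | T ∈ trios ∧ c • S 0x82402f ∈ T}) :=
        fun x hx T hT => ⟨(mtrio x).2 hT.1, mem_stabilizer_iff.1 hx ▸ Finset.smul_mem_smul_finset hT.2⟩
      obtain ⟨y, hy, e⟩ := t.exists i [a, b] rfl (by simp [n]) (by simp [*])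
      obtain ⟨z, hz, e'⟩ := t.exists i [a', b'] rfl (by simp [n']) (by simp [*])
      simp only [List.map_cons, List.map_nil, List.cons.injEq, and_true] at e e'
      exact ⟨_, (z * y⁻¹).2, Subgroup.mul_mem _ hz (Subgroup.inv_mem _ hy), div_smul' e.1 e'.1, div_smul' e.2 e'.2⟩
    obtain ⟨x, e⟩ : ∃ x : M24, ⟨g, hg⟩ = c * x * c⁻¹ := ⟨c⁻¹ * ⟨g, hg⟩ * c, by group⟩
    have hx : x ∈ KO := (Cj.stab c _ x).2 (e ▸ h)
    refine Iff.trans ?_ ((ker hx).trans (mem_K18.trans ?_))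
    · show (∀ T ∈ trios, _ → (open Pointwise in (⟨g, hg⟩ : M24) • T = T)) ↔ _
      rw [e]
      exact ⟨fun a T h1 h2 => (fix_smul c x T).1 (a _ ((hA T).2 ⟨h1, h2⟩).1 ((hA T).2 ⟨h1, h2⟩).2), fun a T h1 h2 => by
        obtain ⟨T, rfl⟩ := ex_smul c T
        exact (fix_smul c x T).2 (a T ((hA T).1 ⟨h1, h2⟩).1 ((hA T).1 ⟨h1, h2⟩).2)⟩
    · show _ ↔ ∀ p ∈ _, (⟨g, hg⟩ : M24) • p = p
      rw [e]
      exact ⟨fun a p hp => by
        obtain ⟨p, rfl⟩ := ex_smul c p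
        exact (fix_smul c x p).2 (a p ((mem_smul c).1 hp)), fun a p hp => (fix_smul c x p).1 (a _ ((mem_smul c).2 hp))⟩

end Cfsg.Agent.S5615
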