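import Cfsg.Statements.S5617
import Mathlib
import Cfsg.Agent.H7.Gol.Tr2

set_option autoImplicit false
open scoped Pointwise
open Cfsg

namespace Cfsg.Agent.S5617

open CfsgH7 CfsgH7.Gol MulAction
open scoped Pointwise

/-- The setwise stabiliser, in the group of the length-24 code, of a complementary pair of dodecads has exactly three orbits on the 1771 sextets, of sizes 396, 495 and 880. -/
theorem result (d : Finset Cfsg.GolayPt) (hd : d ∈ Cfsg.dodecads) : ∃ X₁ ∈ Cfsg.sextets, ∃ X₂ ∈ Cfsg.sextets, ∃ X₃ ∈ Cfsg.sextets, (MulAction.orbit ↥(MulAction.stabilizer Cfsg.M24 ({d, Finset.univ \ d} : Finset (Finset Cfsg.GolayPt))) X₁).ncard = 396 ∧ (MulAction.orbit ↥(MulAction.stabilizer Cfsg.M24 ({d, Finset.univ \ d} : Finset (Finset Cfsg.GolayPt))) X₂).ncard = 495 ∧ (MulAction.orbit ↥(MulAction.stabilizer Cfsg.M24 ({d, Finset.univ \ d} : Finset (Finset Cfsg.GolayPt))) X₃).ncard = 880 ∧ Cfsg.sextets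 = MulAction.orbit ↥(MulAction.stabilizer Cfsg.M24 ({d, Finset.univ \ d} : Finset (Finset Cfsg.GolayPt))) X₁ ∪ MulAction.orbit ↥(MulAction.stabilizer Cfsg.M24 ({d, Finset.univ \ d} : Finset (Finset Cfsg.GolayPt))) X₂ ∪ MulAction.orbit ↥(MulAction.stabilizer Cfsg.M24 ({d, Finset.univ \ d} : Finset (Finset Cfsg.GolayPt))) X₃ := by
  obtain ⟨c, rfl⟩ := dod_tr hd
  rw [← Finset.compl_eq_univ_sdiff, ← smul_D0]
  exact ((FX.dec RX genD (Rb.all _ _) [⟨16, [0,1,1,1,1,2,1,0,1,1,1,2,0,1,1,1,2,0,1,2], 396⟩,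
    ⟨0, [0,1,1,1,1,2,0,1,1,1,1,2,0,1,1,1,1,2,1], 495⟩,
    ⟨3, [0,1,1,1,1,2,0,1,1,1,1,2,1,0,1,1,1,2,1,0,1,1], 880⟩] 11 (by decide +kernel) (A := Cfsg.sextets) (fun y => by simp)).conj (Cj.stab c _) fun y => msext c).three

end Cfsg.Agent.S5617
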