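import Cfsg.Statements.S5618
import Cfsg.Agent.H1.Mc

set_option autoImplicit false
open scoped Pointwise
open Cfsg

namespace Cfsg.Agent.S5618

section
open CfsgH1.Mg CfsgH1.Mc CfsgH7 CfsgH7.Gol MulAction
open scoped commutatorElement

noncomputable abbrev KB : Subgroup M24 := K12 ⊓ stabilizer M24 (S 0x34200f)

def WB : List (List Nat) := [[1,1,4,0,5,0,4,0,0,4,0,5],[4,1,5,1,1,2,0,5,5,1,2,5]]

theorem memB : ∀ w ∈ WB, wprod gm w ∈ KB := mem_inf' (I.mem_stab RP (by decide +kernel)) (I.mem_stab RP (by decide +kernel))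

theorem cardB : Nat.card KB = 720 :=
  RC.card_stab FC.inj gen12 card12 ⟨15, [0,1,0,1,0,1,0,1,0,1,0,1,0,0], 132⟩ 12 (cpt_at 15 0x34200f (by decide +kernel)) (by decide +kernel)

theorem eqB : K12 ⊓ stabilizer M24 (S 0x4200f) = KB := by
  have h0 : S 0x34200f ∈ octads := oct_of (by decide +kernel)
  have e : S 0x4200f = S 0x34200f ∩ S 0x5335f := by decide +kernel
  ext x
  refine and_congr_right fun h => ⟨fun h1 => oct_eq ((moct x).2 h0) h0 (le_trans (by decide +kernel)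
    (Finset.card_le_card (s := S 0x4200f) (Finset.subset_inter ?_ (by decide +kernel)))), fun h1 => ?_⟩
  · rw [← show (open Pointwise in x • S 0x4200f) = S 0x4200f from h1, sub_smul]
    decide +kernel
  · show (open Pointwise in x • S 0x4200f) = _
    rw [e, Finset.smul_finset_inter, show (open Pointwise in x • S 0x34200f) = _ from h1,
      show (open Pointwise in x • S 0x5335f) = _ from h]

end

/-- For a dodecad d of the length-24 code and a hexad C on it (a 6-point intersection of d with an octad): the joint stabiliser of d and C in the code's group is isomorphic to the symmetric group of degree 6, and it acts faithfully both on the six points of C and on the six points of d outside C. -/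
theorem result (d : Finset Cfsg.GolayPt) (hd : d ∈ Cfsg.dodecads) (C : Finset Cfsg.GolayPt) (hC : C ∈ Cfsg.hexadsOn d) : Nonempty (↥(MulAction.stabilizer Cfsg.M24 d ⊓ MulAction.stabilizer Cfsg.M24 C) ≃* Equiv.Perm (Fin 6)) ∧ (∀ g ∈ MulAction.stabilizer Cfsg.M24 d ⊓ MulAction.stabilizer Cfsg.M24 C, (∀ p ∈ C, ((g : ↥Cfsg.M24) : Equiv.Perm Cfsg.GolayPt) p = p) → g = 1) ∧ ∀ g ∈ MulAction.stabilizer Cfsg.M24 d ⊓ MulAction.stabilizer Cfsg.M24 C, (∀ p ∈ d \ C, ((g : ↥Cfsg.M24) : Equiv.Perm Cfsg.GolayPt) p = p) → g = 1 := by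
  open CfsgH1.Mg CfsgH1.Mc CfsgH7 CfsgH7.Gol MulAction in
  open scoped commutatorElement in
  · obtain ⟨c, rfl⟩ := dod_tr hd
    obtain ⟨h6, o, ho, rfl⟩ := hC
    obtain ⟨o, rfl⟩ := ex_smul c o
    rw [moct] at ho
    rw [card_inter_smul, Finset.inter_comm] at h6
    obtain ⟨k, hk, rfl⟩ := FC.tr RC mem12 ((rbW 8).and (rbI 0x5335f 6)) [0,1,0,1,0,1,0,1,0,1,0,1,0,0] 15
      (cpt_at 15 0x34200f (by decide +kernel)) (by decide +kernel) o ho.1 ⟨ho.2, h6⟩
    have e1 : (open Pointwise in c • S 0x5335f = (c * k) • S 0x5335f) := by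
      rw [mul_smul, show (open Pointwise in k • S 0x5335f) = _ from hk]
    have e2 : S 0x34200f ∩ S 0x5335f = S 0x4200f := by decide +kernel
    rw [← mul_smul, e1, ← Finset.smul_finset_inter, e2, ← Finset.smul_finset_sdiff]
    have cj := (Cj.stab (c * k) (S 0x5335f)).inf (Cj.stab (c * k) (S 0x4200f))
    have f1 := faith_base (s := S 0x4200f) (RP.base_of I.inj memB cardB [⟨0, [[2]], [0,0,0,0,0], 6⟩,
    ⟨1, [[1,2]], [0,0,0,0], 5⟩,
    ⟨2, [[1,3,3,0,3]], [0,0,0], 4⟩,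
    ⟨3, [[1,2,0,3,3],[2,1,3,0,2]], [0,1], 3⟩,
    ⟨13, [[0,0,0]], [0], 2⟩] 5 (by decide +kernel))
      (by decide +kernel)
    have f2 := faith_base (s := S 0x5335f \ S 0x4200f) (RP.base_of I.inj memB cardB [⟨4, [[0]], [0,0,0,0,0], 6⟩,
    ⟨6, [[1,2]], [0,0,0,0], 5⟩,
    ⟨8, [[2,2],[0,2,2,1]], [0,0,1], 4⟩,
    ⟨9, [[0,2,2,1]], [0,0], 3⟩,
    ⟨12, [[0,0,2,1,3,0,3]], [0], 2⟩] 5 (by decide +kernel))
      (by decide +kernel)
    rw [← eqB] at f1 f2
    obtain ⟨e⟩ := iso_perm (K := K12 ⊓ stabilizer M24 (S 0x4200f)) (fun _ h => h.2) f1 (n := 6) (by decide +kernel) (by rw [eqB, cardB]; rfl)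
    exact ⟨⟨cj.equiv.symm.trans e⟩, faith_conj cj f1, faith_conj cj f2⟩

end Cfsg.Agent.S5618
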