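import Cfsg.Statements.S5619
import Cfsg.Agent.H1.Mi

set_option autoImplicit false
open scoped Pointwise
open Cfsg

namespace Cfsg.Agent.S5619

section
open CfsgH1.Mg CfsgH1.Mc CfsgH1.Mh CfsgH1.Mi CfsgH7 CfsgH7.Gol MulAction
open scoped commutatorElement

def V : List (List Nat) := [[1,2,4,1,5,1,5,1,5,5,0,4,0,0,5],[2,0,0,5,0,4,1,5,0,4,1,4,1,2,4]]

theorem cl : ∀ x ∈ genW gm V, ∃ d ∈ [0xbdab49ca307b9ac5a928398a418820, 0xb2dd57c2262d124ba90d3ca6360820, 0x5de8e29a329d503b29a93c1ec20820, 0x5deb478d4c2ba49b1e068926868820, 0xb2eb42b4e99b870bc584521e690820, 0xbd9d52b1449d20859cd288ded48820, 0x5ddd59a4e87d186b4483534b280820, 0xb2e8e991437d4cdb9e508b0a940820, 0xbda8e7a0ed2d4925c46c5267030820], Enc px 24 d x :=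
  closed_list P24 V _ (by decide +kernel)

theorem cN : Nat.card (genW gm V) = 9 :=
  le_antisymm (card_le_list hf24 cl) (RP.card_geS I.inj V [⟨3, [[0],[2]], [0,1,0,1], 9⟩] 5 (by decide +kernel))

theorem le9 : genW gm V ≤ K9 := genW_le.2 (mem_inf' (mem_inf' (mem_inf' (I.mem_stab RP (by decide +kernel)) (RP.mem_stab (by decide +kernel))) (RP.mem_stab (by decide +kernel))) (RP.mem_stab (by decide +kernel)))

noncomputable abbrev KA : Subgroup M24 := K9 ⊓ stabilizer M24 (px 3)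

def WA : List (List Nat) := [[4,1,2,5,5,0,0,0,2,5,5,0,0,4],[0,5,0,4,1,1,5,1,4,4,1,2,0,0,4]]

theorem memA : ∀ w ∈ WA, wprod gm w ∈ KA := mem_inf' (mem_inf' (mem_inf' (mem_inf' (I.mem_stab RP (by decide +kernel)) (RP.mem_stab (by decide +kernel))) (RP.mem_stab (by decide +kernel))) (RP.mem_stab (by decide +kernel))) (RP.mem_stab (by decide +kernel))

theorem cardA : Nat.card KA = 8 :=
  RP.card_stab I.inj gen9 card9 ⟨3, [0,0,1,0,1], 9⟩ 5 rfl (by decide +kernel)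

theorem genA : genW gm WA = KA :=
  RP.gen_of I.inj memA cardA [⟨4, [[0],[2]], [0,1,0,0], 8⟩] 5 (by decide +kernel)

theorem isoQ : Nonempty (KA ≃* (⊤ : Subgroup (QuaternionGroup 2))) :=
  (RP.onList WA [4,9,12,6,13,16,18,8] 8 [(Net.cons (nat_lit 2) (nat_lit 0x21) (Net.cons (nat_lit 1) (nat_lit 0x55) Net.nil)),
  (Net.cons (nat_lit 4) (nat_lit 0xf) (Net.cons (nat_lit 2) (nat_lit 0x30) Net.nil))] (by decide +kernel)).iso_card
    (rep_list [.a 1, .xa 0] [.a 0, .a 1, .a 2, .a 3, .xa 0, .xa 1, .xa 2, .xa 3] (1 : QuaternionGroup 2) _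
      (by decide +kernel) (by decide +kernel)) (inj_nth I.inj _ _ (by decide +kernel)) (by decide +kernel)
    (fun y h => mul_eq_right.1 (h 0 (by decide))) (gen_sub gm genA)
    (fun x hx h => RP.base_of I.inj memA cardA [⟨4, [[0],[2]], [0,1,0,0], 8⟩] 5 (by decide +kernel) x hx fun b hb => by
      obtain rfl := List.mem_singleton.1 hb
      exact h 0 (by norm_num)) (mem_top' _) (by rw [cardA, Subgroup.card_top, Nat.card_eq_fintype_card, QuaternionGroup.card])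

end

/-- In the group of the length-24 code, the subgroup fixing a dodecad setwise and three of its points individually (a group of order 72) has a normal Sylow 3-subgroup that is elementary abelian of order 9, and its Sylow 2-subgroups are quaternion of order 8. -/
theorem result (d : Finset Cfsg.GolayPt) (hd : d ∈ Cfsg.dodecads) (p q r : Cfsg.GolayPt) (hp : p ∈ d) (hq : q ∈ d) (hr : r ∈ d) (hpq : p ≠ q) (hpr : p ≠ r) (hqr : q ≠ r) : (∀ Q : Sylow 3 ↥(MulAction.stabilizer Cfsg.M24 d ⊓ MulAction.stabilizer Cfsg.M24 p ⊓ MulAction.stabilizer Cfsg.M24 q ⊓ MulAction.stabilizer Cfsg.M24 r), (Q : Subgroup ↥(MulAction.stabilizer Cfsg.M24 d ⊓ MulAction.stabilizer Cfsg.M24 p ⊓ MulAction.stabilizer Cfsg.M24 q ⊓ MulAction.stabilizer Cfsg.M24 r)).Normal ∧ Nat.card ↥Q = 9 ∧ ∀ x ∈ (Q : Subgroup ↥(MulAction.stabilizer Cfsg.M24 d ⊓ MulAction.stabilizer Cfsg.M24 p ⊓ MulAction.stabilizer Cfsg.M24 q ⊓ MulAction.stabilizer Cfsg.M24 r)),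 x ^ 3 = 1) ∧ ∀ P : Sylow 2 ↥(MulAction.stabilizer Cfsg.M24 d ⊓ MulAction.stabilizer Cfsg.M24 p ⊓ MulAction.stabilizer Cfsg.M24 q ⊓ MulAction.stabilizer Cfsg.M24 r), Nonempty (↥P ≃* QuaternionGroup 2) := by
  open CfsgH1.Mg CfsgH1.Mc CfsgH1.Mh CfsgH1.Mi CfsgH7 CfsgH7.Gol MulAction in
  open scoped commutatorElement in
  · obtain ⟨c, rfl, rfl, rfl, rfl⟩ := dpts3 hd hp hq hr hpq hpr hqr
    have cj := (((Cj.stab c (S 0x5335f)).inf (Cj.stab c (px 0))).inf (Cj.stab c (px 1))).inf (Cj.stab c (px 2))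
    have hc := cj.card.trans card9
    have : Fact (Nat.Prime 3) := ⟨by norm_num⟩
    refine ⟨fun Q => ?_, fun P => ?_⟩
    · have := normal_cert P24 hf24 gen9 (V := V) rfl [[],[0],[1],[2],[3],[0,2],[0,3],[1,2],[1,3]] (by decide +kernel)
      obtain ⟨M, hM, ⟨e⟩, -⟩ := normal_congr cj.equiv ((genW gm V).subgroupOf K9)
      have h1 : Nat.card M = 9 := by rw [← Nat.card_congr e.toEquiv, card_subOf le9, cN]
      have h2 := sylow_normal (k := 2) h1 (by rw [hc]; decide +kernel) Q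
      exact ⟨h2 ▸ hM, (congrArg (fun H : Subgroup _ => Nat.card H) h2).trans h1,
        h2 ▸ sq_congr e fun x hx => Subtype.ext (pow_of_list hf24 cl 3 (by decide +kernel) _ hx)⟩
    · obtain ⟨e⟩ := isoQ
      have e1 := (cj.equiv.subgroupMap (KA.subgroupOf K9)).symm.trans (Subgroup.subgroupOfEquivOfLe inf_le_left)
      obtain ⟨e2⟩ := sylow_iso (k := 3) ((Nat.card_congr e1.toEquiv).trans cardA) (by rw [hc]; decide +kernel) P
      exact ⟨(e2.trans (e1.trans e)).trans Subgroup.topEquiv⟩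

end Cfsg.Agent.S5619
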