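import Cfsg.Statements.S5620
import Cfsg.Agent.H1.Mh

set_option autoImplicit false
open scoped Pointwise
open Cfsg

namespace Cfsg.Agent.S5620

/-- Inside the stabiliser of the dodecad of squares (a Mathieu group of degree 12), the stabiliser of the residue 0 (a point of the dodecad) and the stabiliser of the extra point (a point outside the dodecad) are isomorphic but not conjugate; conjugation by a suitable element of the code's group that maps the dodecad of squares onto its complement carries the first onto the second. -/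
theorem result : Nonempty (↥(Cfsg.Spor.M12 ⊓ MulAction.stabilizer (Equiv.Perm Cfsg.GolayPt) (none : Cfsg.GolayPt)) ≃* ↥Cfsg.Spor.M11) ∧ (¬ ∃ k ∈ Cfsg.Spor.M12, MulAut.conj k • Cfsg.Spor.M11 = Cfsg.Spor.M12 ⊓ MulAction.stabilizer (Equiv.Perm Cfsg.GolayPt) (none : Cfsg.GolayPt)) ∧ ∃ g ∈ Cfsg.M24, g • Cfsg.Spor.squareDodecad = Finset.univ \ Cfsg.Spor.squareDodecad ∧ MulAut.conj g • Cfsg.Spor.M11 = Cfsg.Spor.M12 ⊓ MulAction.stabilizer (Equiv.Perm Cfsg.GolayPt) (none : Cfsg.GolayPt) := by
  open CfsgH1.Mg CfsgH1.Mc CfsgH1.Mh CfsgH7 CfsgH7.Gol MulAction in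
  open scoped commutatorElement in
  · have e1 : (open Pointwise in ((wprod gm [2] : M24) : Equiv.Perm GolayPt) • Spor.squareDodecad) =
        Spor.squareDodecadᶜ := by
      rw [sqD, cD0]
      exact I.smul_msk RP (by decide +kernel)
    have e2 : ((wprod gm [2] : M24) : Equiv.Perm GolayPt) • (some 0 : GolayPt) = none :=
      RP.maps (a := 0) (b := 23) (by norm_num) (by decide +kernel)
    have c0 : Cj ((wprod gm [2] : M24) : Equiv.Perm GolayPt) M24 M24 := fun x =>
      ((M24.mul_mem_cancel_right (M24.inv_mem (wprod gm [2]).2)).trans (M24.mul_mem_cancel_left (wprod gm [2]).2)).symm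
    have cj := (c0.inf (Cj.stab _ Spor.squareDodecad)).inf (Cj.stab _ (some 0 : GolayPt))
    rw [e1, e2, stab_compl_eq] at cj
    refine ⟨⟨cj.equiv.symm⟩, fun ⟨k, hk, e⟩ => ?_, _, (wprod gm [2]).2, e1, cj.map_eq⟩
    have hy : ((wprod gm [0,0,4,4,1,4,0,0,0] : M24) : Equiv.Perm GolayPt) ∈
        Spor.M12 ⊓ stabilizer (Equiv.Perm GolayPt) (none : GolayPt) :=
      ⟨⟨Subtype.prop _, sqD ▸ I.smul_msk RP (by decide +kernel)⟩, RP.maps (a := 23) (b := 23) (by norm_num) (by decide +kernel)⟩
    rw [← e] at hy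
    obtain ⟨x, hx, e⟩ := hy
    have h1 : k • (some 0 : GolayPt) ∈ fx (wprod gm [0,0,4,4,1,4,0,0,0]) :=
      Finset.mem_filter.2 ⟨Finset.mem_univ _, (congrArg (· • k • (some 0 : GolayPt)) e).symm.trans (cj_smul k hx.2)⟩
    have h2 : k • (some 0 : GolayPt) ∈ Spor.squareDodecad := by
      rw [← mem_stabilizer_iff.1 hk.2]
      exact Finset.smul_mem_smul_finset (by rw [sqD]; decide +kernel)
    rw [fx_word _ 0xe00800 (by decide +kernel)] at h1
    rw [sqD] at h2
    exact Finset.disjoint_left.1 (by decide +kernel) h1 h2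

end Cfsg.Agent.S5620
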