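import Cfsg.Statements.S5624
import Cfsg.Agent.H1.St4

set_option autoImplicit false
open Cfsg

namespace Cfsg.Agent.S5624

/-- Let C be a self-dual binary code of length 24 with minimum weight at least 8 (a 12-dimensional subspace of the 24-dimensional space over the field with two elements, any two of whose words have dot product zero, with no non-zero word of weight below 8 — an abstract extended binary Golay code). Then C is spanned, as a vector space over the field with two elements, by its words of weight 8. -/
theorem result (C : Submodule (ZMod 2) (Fin 24 → ZMod 2)) (hdim : Module.finrank (ZMod 2) C = 12) (horth : ∀ v ∈ C, ∀ w ∈ C, ∑ i, v i * w i = 0) (hmin : ∀ w ∈ C, w ≠ 0 → 8 ≤ hammingNorm w) : Submodule.span (ZMod 2) {w : Fin 24 → ZMod 2 | w ∈ C ∧ hammingNorm w = 8} = C := by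
  open CfsgH1.St CfsgH1.Un CfsgH7 CfsgH7.Gol Finset in
  open scoped commutatorElement in
  · obtain ⟨e, h⟩ := code_nf (by simp) hdim horth hmin
    refine le_antisymm (Submodule.span_le.2 fun w hw => hw.1) fun w hw => ?_
    have := span_of (C := fun s => ind (s.map e.toEmbedding) ∈ Submodule.span (ZMod 2)
        {w : Fin 24 → ZMod 2 | w ∈ C ∧ hammingNorm w = 8}) (by norm_num) sp12 (by simp [ind_empty])
      (fun a b ha hb => by
        have : (symmDiff a b).map e.toEmbedding = symmDiff (a.map e.toEmbedding) (b.map e.toEmbedding) := by
          ext x; simp only [mem_map_equiv, mem_symmDiff]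
        rw [this, ind_symmDiff]; exact add_mem ha hb)
      (fun l hl => Submodule.subset_span ⟨mem_supports.1 ((h _).2 (L12_oct l hl).1.1), by
        rw [norm_eq, supp_ind, card_map, (L12_oct l hl).1.2]⟩)
      ((h ((Cfsg.support₂ w).map e.symm.toEmbedding)).1 (by simpa [map_map, supp_mem] using hw))
      (by rw [S_zero]; exact empty_subset _)
    simpa [map_map, ind_supp] using this

end Cfsg.Agent.S5624
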