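import Cfsg.Statements.S5625
import Cfsg.Agent.H1.St2

set_option autoImplicit false
open Cfsg

namespace Cfsg.Agent.S5625

/-- In any Steiner system S(5, 8, 24) and for any set Y of three points, the blocks meeting Y in exactly 3, 2, 1 and 0 points number 21, 168, 360 and 210 respectively (so there are 759 blocks in all). -/
theorem result (α : Type*) [Fintype α] [DecidableEq α] (hα : Fintype.card α = 24) (B : Set (Finset α)) (hB : Cfsg.IsSteinerSystem 5 8 B) (Y : Finset α) (hY : Y.card = 3) : {b : Finset α | b ∈ B ∧ (b ∩ Y).card = 3}.ncard = 21 ∧ {b : Finset α | b ∈ B ∧ (b ∩ Y).card = 2}.ncard = 168 ∧ {b : Finset α | b ∈ B ∧ (b ∩ Y).card = 1}.ncard = 360 ∧ {b : Finset α | b ∈ B ∧ (b ∩ Y).card = 0}.ncard = 210 := by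
  open CfsgH1.St Finset in
  open scoped commutatorElement in
  · have key : ∀ j n : ℕ, (Nat.choose 3 j : ℤ) * T (A 24 5 8) j (3 - j) = n →
        {b : Finset α | b ∈ B ∧ (b ∩ Y).card = j}.ncard = n := by
      intro j n h
      have := meetc_tri (lam_le hB (by norm_num) hα (Y := Y) (by omega)) j
      rw [hY, h] at this
      rw [ncard_eq]
      simp only [inter_comm Y] at this
      exact_mod_cast this
    exact ⟨key _ _ (by decide +kernel), key _ _ (by decide +kernel), key _ _ (by decide +kernel),
      key _ _ (by decide +kernel)⟩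

end Cfsg.Agent.S5625
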