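import Cfsg.Statements.S5627
import Cfsg.Agent.H1.St5

set_option autoImplicit false
open Cfsg

namespace Cfsg.Agent.S5627

section
open CfsgH1.St CfsgH1.Un CfsgH7 CfsgH7.Gol Finset
open scoped commutatorElement

def LN : List Nat := [0x8ea003, 0xe0900b, 0xc12017, 0x82402f, 0xd40063, 0x907083, 0xa800c7, 0xb30103, 0x8081b3, 0x821253, 0x85028b, 0xc84303, 0xa44413, 0x891423, 0x80254b, 0x908607, 0x98081b, 0x81c843, 0x841907, 0xa02a23, 0xc20c83]

noncomputable def indp (a : Nat) : Bool := lall (fun m => Nat.ble (cnt 5 24 (Nat.land m a)) 5) LN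

theorem indp_iff (a : Nat) : indp a = true ↔ ∀ o ∈ Cfsg.octads, S 0x800003 ⊆ o → (o ∩ S a).card ≤ 5 := by
  have h := oct_list 0x800003 LN (by decide +kernel)
  rw [indp, lall_iff]
  constructor
  · intro h1 o a1 a2
    obtain ⟨m, hm, rfl⟩ := (h o).1 ⟨a1, a2⟩
    rw [msk_inter, card_S]; exact Nat.le_of_ble_eq_true (h1 m hm)
  · intro h1 m hm
    have := (h _).2 ⟨m, hm, rfl⟩
    have := h1 _ this.1 this.2
    rw [msk_inter, card_S] at this
    exact Nat.ble_eq_true_of_le this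

theorem c4 : cntK indp 24 4 0x800003 = 2520 := by decide +kernel

theorem c6 : cntK indp 24 6 0x800003 = 168 := by decide +kernel

theorem cnt_eq' {α : Type*} [Fintype α] [DecidableEq α] (hα : Fintype.card α = 21) (L : Set (Finset α))
    (hL : Cfsg.IsSteinerSystem 2 5 L) (r : Nat) :
    {S : Finset α | (S.card = r ∧ ∀ l ∈ L, (l ∩ S).card ≤ 2)}.ncard = cntK indp 24 r 0x800003 := by
  obtain ⟨ι, h⟩ := n21 hα hL
  rw [← ncard_K I (P := fun x => ∀ o ∈ Cfsg.octads, S 0x800003 ⊆ o → (o ∩ x).card ≤ 5) indp_iff, ← Set.ncard_image_of_injective _ (map_injective ι)]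
  have dj : ∀ b : Finset α, Disjoint (S 0x800003) (b.map ι) := fun b =>
    disjoint_compl_right.mono_right (sub_of h.rng b)
  have c2 : ∀ b c : Finset α, ((S 0x800003 ∪ b.map ι) ∩ (S 0x800003 ∪ c.map ι)).card = 3 + (b ∩ c).card :=
    fun b c => by rw [← union_inter_distrib_left, ← map_inter, card_union_of_disjoint (dj _), card_map, cZ3]
  have key : ∀ b : Finset α, (∀ l ∈ L, (l ∩ b).card ≤ 2) ↔
      ∀ o ∈ Cfsg.octads, S 0x800003 ⊆ o → (o ∩ (S 0x800003 ∪ b.map ι)).card ≤ 5 := by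
    intro b
    constructor
    · intro h1 o a1 a2
      obtain ⟨l, e⟩ := pre_of h.rng (s := o \ S 0x800003) (fun x hx => mem_compl.2 (mem_sdiff.1 hx).2)
      rw [← union_sdiff_of_subset a2, ← e] at a1 ⊢
      have := h1 l ((h.mem l).2 a1)
      rw [c2]; omega
    · intro h1 l hl
      have := h1 _ ((h.mem l).1 hl) subset_union_left
      rw [c2] at this; omega
  congr 1
  ext t
  constructor
  · rintro ⟨b, hb, rfl⟩
    exact ⟨(dj b).symm, by rw [card_map, hb.1], (key b).1 hb.2⟩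
  · rintro ⟨a1, a2, a3⟩
    obtain ⟨b, rfl⟩ := pre_of h.rng (subset_compl_iff_disjoint_right.2 a1)
    exact ⟨b, ⟨by rwa [card_map] at a2, (key b).2 a3⟩, rfl⟩

end

/-- In a projective plane of order 4 (a Steiner system S(2, 5, 21)), call a set of points independent when no line meets it in more than two points. There are exactly 2520 independent 4-sets and exactly 168 independent 6-sets (hyperovals), and every independent 4-set lies in exactly one hyperoval. -/
theorem result {α : Type*} [Fintype α] [DecidableEq α] (hα : Fintype.card α = 21) (L : Set (Finset α)) (hL : Cfsg.IsSteinerSystem 2 5 L) : {S : Finset α | (S.card = 4 ∧ ∀ l ∈ L, (l ∩ S).card ≤ 2)}.ncard = 2520 ∧ {H : Finset α | (H.card = 6 ∧ ∀ l ∈ L, (l ∩ H).card ≤ 2)}.ncard = 168 ∧ ∀ S : Finset α, (S.card = 4 ∧ ∀ l ∈ L, (l ∩ S).card ≤ 2) → ∃! H : Finset α, (H.card = 6 ∧ ∀ l ∈ L, (l ∩ H).card ≤ 2) ∧ S ⊆ H := by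
  open CfsgH1.St CfsgH1.Un CfsgH7 CfsgH7.Gol Finset in
  open scoped commutatorElement in
  · have h4 := (cnt_eq' hα L hL 4).trans c4
    have h6 := (cnt_eq' hα L hL 6).trans c6
    have uq : ∀ S H H' : Finset α, S.card = 4 → (H.card = 6 ∧ ∀ l ∈ L, (l ∩ H).card ≤ 2) → S ⊆ H →
        (H'.card = 6 ∧ ∀ l ∈ L, (l ∩ H').card ≤ 2) → S ⊆ H' → H = H' := by
      intro S H H' a0 a1 a2 a3 a4
      refine eq_of_subset_of_card_le (fun p hp => by_contra fun hn => ?_) (by rw [a1.1, a3.1])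
      have key : ∀ s, ∃ q, s ∈ S → q ∈ H' \ S ∧ ∃ l ∈ L, p ∈ l ∧ s ∈ l ∧ q ∈ l := fun s => by
        by_cases hs : s ∈ S
        · have hps : p ≠ s := fun e => hn (e ▸ a4 hs)
          obtain ⟨l, hl, -⟩ := hL.2 {p, s} (card_pair hps)
          have b1 : p ∈ l := hl.2 (by simp)
          have b2 : s ∈ l := hl.2 (by simp)
          obtain ⟨q, q1, q2, q3⟩ := oval_line hα hL a3.1 a3.2 hl.1 (a4 hs) b2
          refine ⟨q, fun _ => ⟨mem_sdiff.2 ⟨q1, fun hq => ?_⟩, l, hl.1, b1, b2, q3⟩⟩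
          have := (card_le_card (show ({p, s, q} : Finset α) ⊆ l ∩ H by
            simp [insert_subset_iff, b1, b2, q3, hp, a2 hs, a2 hq])).trans (a1.2 _ hl.1)
          have hpq : p ≠ q := fun e => hn (e ▸ q1)
          rw [card_eq_three.2 ⟨_, _, _, hps, hpq, q2.symm, rfl⟩] at this
          omega
        · exact ⟨p, fun h => absurd h hs⟩
      choose f hf using key
      have := card_le_card_of_injOn f (fun s hs => (hf s hs).1) fun s hs t ht e => by
        by_contra hst
        obtain ⟨q1, l, hl, l1, l2, l3⟩ := hf s hs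
        obtain ⟨-, m, hm, m1, m2, m3⟩ := hf t ht
        have hpq : p ≠ f s := fun e => hn (e ▸ (mem_sdiff.1 q1).1)
        have m4 : f s ∈ m := e ▸ m3
        have e2 := eq_of hL hl hm (s := {p, f s}) (by simp [insert_subset_iff, l1, l3])
          (by simp [insert_subset_iff, m1, m4]) (card_pair hpq).ge
        have m5 : t ∈ l := e2 ▸ m2
        have hs' : s ∈ S := mem_coe.1 hs
        have ht' : t ∈ S := mem_coe.1 ht
        have hps : p ≠ s := fun e => hn (e ▸ a4 hs')
        have hpt : p ≠ t := fun e => hn (e ▸ a4 ht')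
        have := (card_le_card (show ({p, s, t} : Finset α) ⊆ l ∩ H by
          simp [insert_subset_iff, l1, l2, m5, hp, a2 hs', a2 ht'])).trans (a1.2 _ hl)
        rw [card_eq_three.2 ⟨_, _, _, hps, hpt, hst, rfl⟩] at this
        omega
      rw [card_sdiff_of_subset a4, a3.1, a0] at this
      omega
    refine ⟨h4, h6, fun S hS => ?_⟩
    rw [Set.ncard_eq_toFinset_card] at h4 h6
    have e : ((bl {H : Finset α | (H.card = 6 ∧ ∀ l ∈ L, (l ∩ H).card ≤ 2)}).biUnion fun H => powersetCard 4 H) =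
        bl {S : Finset α | (S.card = 4 ∧ ∀ l ∈ L, (l ∩ S).card ≤ 2)} := by
      refine eq_of_subset_of_card_le (biUnion_subset.2 fun H hH T hT => ?_) ?_
      · rw [mem_powersetCard] at hT
        exact mem_bl.2 ⟨hT.2, fun l hl => (card_le_card (inter_subset_inter_left hT.1)).trans ((mem_bl.1 hH).2 l hl)⟩
      · rw [card_biUnion, sum_const_nat (m := 15) fun H hH => by rw [card_powersetCard, (mem_bl.1 hH).1]; rfl, bl, bl,
          h4, h6]
        intro H hH H' hH' hn
        refine disjoint_left.2 fun T h1 h2 => hn ?_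
        rw [mem_powersetCard] at h1 h2
        exact uq T H H' h1.2 (mem_bl.1 hH) h1.1 (mem_bl.1 hH') h2.1
    obtain ⟨H, hH, h1⟩ := mem_biUnion.1 (e ▸ mem_bl.2 hS)
    have h2 := (mem_powersetCard.1 h1).1
    exact ⟨H, ⟨mem_bl.1 hH, h2⟩, fun H' h' => uq S H' H hS.1 h'.1 h'.2 (mem_bl.1 hH) h2⟩

end Cfsg.Agent.S5627
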