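import Mathlib
import Cfsg.Statements.S5628
import Cfsg.Agent.H8.GolW

set_option autoImplicit false
open Cfsg

namespace Cfsg.Agent.S5628

open CfsgH8.GolW CfsgH7 CfsgH7.Gol CfsgH1.Un CfsgH1.St Finset
open scoped Pointwise
set_option maxRecDepth 100000

theorem cover {Y T : Finset GolayPt} (h4 : Y.card ≤ 4) (hd : ∀ p ∈ T, p ∉ Y)
    (h : ∀ o ∈ octads, Y ⊆ o → ∃ p ∈ T, p ∈ o) : A 24 5 8 Y.card ≤ T.card * A 24 5 8 (Y.card + 1) := by
  rw [← lam_small steiner (by norm_num) cardP (s := Y) (by omega), lam]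
  refine (card_le_card (t := T.biUnion fun p => (bl octads).filter fun b => insert p Y ⊆ b ∧ Disjoint ∅ b)
    fun o ho => ?_).trans (card_biUnion_le_card_mul _ _ _ fun p hp => ?_)
  · rw [mem_filter, mem_bl] at ho
    obtain ⟨p, hp, hp'⟩ := h o ho.1 ho.2.1
    exact mem_biUnion.2 ⟨p, hp, by simp [mem_bl, ho.1, ho.2.1, insert_subset_iff, hp']⟩
  · have := lam_small steiner (by norm_num) cardP (s := insert p Y) (by rw [card_insert_of_notMem (hd p hp)]; omega)
    rw [card_insert_of_notMem (hd p hp)] at this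
    exact this.le

theorem sub3 {Z t : Finset GolayPt} (hZ : Z.card = 3) (ht : t.card ≤ 4)
    (h : ∀ o ∈ octads, Z ⊆ o → Even (o ∩ t).card) : t ⊆ Z := by
  have e : ∀ o, Z ⊆ o → (o ∩ t).card = (t ∩ Z).card + (o ∩ (t \ Z)).card := fun o ho => by
    rw [← card_inter_add_card_sdiff (o ∩ t) Z, inter_sdiff_assoc, inter_right_comm, inter_eq_right.2 ho, inter_comm Z]
  have e2 := card_le_card (sdiff_subset (s := t) (t := Z))
  intro p hp
  by_contra hpZ
  rcases Nat.even_or_odd (t ∩ Z).card with h1 | h1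
  · have := cover (Y := insert p Z) (T := (t \ Z).erase p) (by rw [card_insert_of_notMem hpZ]; omega)
      (fun q hq => by simp only [mem_erase, mem_sdiff] at hq; simp [hq]) fun o ho ho' => by
        have a := h o ho ((subset_insert _ _).trans ho')
        rw [e o ((subset_insert _ _).trans ho'), Nat.even_add] at a
        have b : p ∈ o ∩ (t \ Z) := by simp [hp, hpZ, ho' (mem_insert_self _ _)]
        obtain ⟨q, hq, hqp⟩ := exists_mem_ne (s := o ∩ (t \ Z))
          (by have := card_pos.2 ⟨p, b⟩; obtain ⟨k, hk⟩ := a.1 h1; omega) p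
        exact ⟨q, mem_erase.2 ⟨hqp, (mem_inter.1 hq).2⟩, (mem_inter.1 hq).1⟩
    rw [card_insert_of_notMem hpZ, hZ, card_erase_of_mem (by simp [hp, hpZ]),
      show A 24 5 8 (3 + 1) = 5 by decide +kernel, show A 24 5 8 (3 + 1 + 1) = 1 by decide +kernel] at this
    omega
  · have := cover (Y := Z) (T := t \ Z) (by omega) (fun q hq => (mem_sdiff.1 hq).2) fun o ho ho' => by
        have a := h o ho ho'
        rw [e o ho', Nat.even_add'] at a
        obtain ⟨q, hq⟩ := card_pos.1 (a.1 h1).pos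
        exact ⟨q, (mem_inter.1 hq).2, (mem_inter.1 hq).1⟩
    rw [hZ, show A 24 5 8 3 = 21 by decide +kernel, show A 24 5 8 (3 + 1) = 5 by decide +kernel] at this
    omega

/-- In a projective plane of order 4 (a Steiner system S(2, 5, 21)), every permutation of the six points of a hyperoval (a 6-set met by no line in more than two points) is the restriction of exactly one automorphism of the plane. In particular the stabiliser of a hyperoval in the automorphism group is isomorphic to the symmetric group of degree 6 acting faithfully on the hyperoval. -/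
theorem result {α : Type*} [Fintype α] [DecidableEq α] (hα : Fintype.card α = 21) (L : Set (Finset α)) (hL : Cfsg.IsSteinerSystem 2 5 L) (H : Finset α) (hH : (H.card = 6 ∧ ∀ l ∈ L, (l ∩ H).card ≤ 2)) (σ : Equiv.Perm ↥H) : ∃! g : Equiv.Perm α, g ∈ Cfsg.setSystemAut L ∧ ∀ p : ↥H, g p = σ p := by
  suffices h : ∃ g : Equiv.Perm α, g ∈ setSystemAut L ∧ ∀ p : ↥H, g p = σ p by
    obtain ⟨g, a, b⟩ := h
    refine ⟨g, ⟨a, b⟩, fun k ⟨c, d⟩ => ?_⟩
    have := oval_rigid hα hL hH.1 hH.2 (mul_mem (inv_mem a) c) fun p hp => by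
      rw [Equiv.Perm.mul_apply, d ⟨p, hp⟩, ← b ⟨p, hp⟩]; simp
    exact (inv_mul_eq_one.1 this).symm
  obtain ⟨ι, h⟩ := n21 hα hL
  have hZ := cZ3
  generalize S 0x800003 = Z at h hZ
  have hι : ∀ a, ι a ∉ Z := fun a => mem_compl.1 (mem_of h.rng a)
  have c6 : (H.map ι).card = 6 := by rw [card_map, hH.1]
  obtain ⟨t, t4, ht⟩ := reduce (H.map ι)
  have ev : ∀ o ∈ octads, Z ⊆ o → Even (o ∩ H.map ι).card := by
    intro o ho hZo
    obtain ⟨l, hl⟩ := pre_of h.rng (s := o \ Z) fun p hp => mem_compl.2 (mem_sdiff.1 hp).2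
    have hl' : l ∈ L := (h.mem l).2 (by rwa [hl, union_sdiff_of_subset hZo])
    have e : o ∩ H.map ι = (l ∩ H).map ι := by
      rw [map_inter, hl]
      ext p
      simp only [mem_inter, mem_sdiff, mem_map]
      exact ⟨fun ⟨a, b, c, d⟩ => ⟨⟨a, d ▸ hι b⟩, b, c, d⟩, fun ⟨a, b⟩ => ⟨a.1, b⟩⟩
    rw [e, card_map]
    rcases (l ∩ H).eq_empty_or_nonempty with e | ⟨p, hp⟩
    · simp [e]
    · obtain ⟨q, a, b, c⟩ := oval_line hα hL hH.1 hH.2 hl' (mem_inter.1 hp).2 (mem_inter.1 hp).1
      have := one_lt_card.2 ⟨p, hp, q, mem_inter.2 ⟨c, a⟩, b.symm⟩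
      have := hH.2 l hl'
      exact ⟨1, by omega⟩
  have tZ : t ⊆ Z := sub3 hZ t4 fun o ho hZo => by
    obtain ⟨a, ha⟩ := ev o ho hZo
    obtain ⟨b, hb⟩ := even_U ht (mem_oct.1 ho).1
    have := sd_inter (H.map ι) t o
    rw [inter_comm] at ha ⊢
    exact (Nat.even_iff.2 (by omega))
  have dj : H.map ι ∩ t = ∅ := eq_empty_of_forall_notMem fun p hp => by
    obtain ⟨a, -, rfl⟩ := mem_map.1 (mem_inter.1 hp).1
    exact hι a (tZ (mem_inter.1 hp).2)
  have c8 := CfsgH7.Gol.card_symmDiff (H.map ι) t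
  rw [dj, card_empty, c6] at c8
  have t2 : t.card = 2 := by rcases wt ht with e | e | e | e | e <;> omega
  have ho : symmDiff (H.map ι) t ∈ octads := mem_oct.2 ⟨ht, by omega⟩
  obtain ⟨z, hz, hz'⟩ := exists_mem_notMem_of_card_lt_card (s := t) (t := Z) (by omega)
  have zo : z ∉ symmDiff (H.map ι) t := by
    simp only [mem_symmDiff, hz', false_and, or_false, not_false_eq_true, and_true, mem_map, not_exists, not_and]
    rintro a - rfl
    exact hι a hz
  have key : ∀ τ : Equiv.Perm H, ∃ c : M24, c • S 0x82402f = symmDiff (H.map ι) t ∧ c • px 4 = z ∧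
      ([5, 3, 2, 1, 0, 23].map px).map (c • ·) = (univ : Finset H).toList.map fun p => ι (τ p) := fun τ =>
    qpts tq6 ho zo _ (by simp [hH.1])
      ((nodup_toList _).map (ι.injective.comp (Subtype.val_injective.comp τ.injective))) fun x hx => by
        obtain ⟨p, -, rfl⟩ := List.mem_map.1 hx
        exact mem_symmDiff.2 (Or.inl ⟨mem_map_of_mem _ (τ p).2, fun e => hι _ (tZ e)⟩)
  obtain ⟨c, a1, a2, a3⟩ := key 1
  obtain ⟨d, b1, b2, b3⟩ := key σ
  have g1 : (d * c⁻¹) • symmDiff (H.map ι) t = symmDiff (H.map ι) t := by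
    rw [mul_smul, inv_smul_eq_iff.2 a1.symm, b1]
  have g2 : (d * c⁻¹) • z = z := by rw [mul_smul, inv_smul_eq_iff.2 a2.symm, b2]
  have g3 : ∀ p : H, (d * c⁻¹) • ι p = ι (σ p) := fun p => by
    have : ((univ : Finset H).toList.map fun p => ι ((1 : Equiv.Perm H) p)).map ((d * c⁻¹) • ·) =
        (univ : Finset H).toList.map fun p => ι (σ p) := by
      rw [← a3, ← b3, List.map_map]
      simp [Function.comp_def, mul_smul]
    rw [List.map_map] at this
    exact List.map_inj_left.1 this p (by simp)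
  generalize d * c⁻¹ = g at g1 g2 g3
  have g4 : g • H.map ι = H.map ι := eq_of_subset_of_card_le (fun p hp => by
    obtain ⟨_, hq, rfl⟩ := mem_smul_finset.1 hp
    obtain ⟨a, ha, rfl⟩ := mem_map.1 hq
    exact g3 ⟨a, ha⟩ ▸ mem_map_of_mem _ (σ ⟨a, ha⟩).2) (card_smul_finset _ _).ge
  rw [smul_sd, g4, symmDiff_right_inj] at g1
  have g5 : g • Z = Z := by
    have : insert z t = Z := eq_of_subset_of_card_le (insert_subset hz tZ) (by rw [card_insert_of_notMem hz']; omega)
    rw [← this, smul_finset_insert, g1, g2]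
  choose f hf using fun a => pt_of h.rng (stab_compl g5 ▸ smul_mem_smul_finset (a := g) (mem_of h.rng a))
  have fi : Function.Injective f := fun a b e => ι.injective (MulAction.injective g (by
    change g • ι a = g • ι b
    rw [← hf, ← hf, e]))
  refine ⟨Equiv.ofBijective f (Finite.injective_iff_bijective.1 fi), mem_aut.2 fun b hb => ?_,
    fun p => ι.injective ((hf p).trans (g3 p))⟩
  rw [h.mem, map_smul (g := g.1) fun a => (hf a).symm]
  have := (moct g).2 ((h.mem b).1 hb)
  rwa [smul_finset_union, g5] at this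

end Cfsg.Agent.S5628
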