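import Cfsg.Statements.S5631
import Cfsg.Agent.H5.Mx8

set_option autoImplicit false
open Cfsg

namespace Cfsg.Agent.S5631

open CfsgH5 CfsgH5.CForm CfsgH5.Mx CfsgH5.Au Module

/-- For a finite field F and n ≥ 13, the stabiliser in SL_n(F) of any proper non-zero subspace W of F^n is a maximal subgroup of SL_n(F). Here SL_n(F) is the kernel of the determinant inside GL_n(F) and the stabiliser is the set of elements of determinant one mapping W onto itself. -/
theorem result {F : Type*} [Field F] [Fintype F] (n : ℕ) (hn : 13 ≤ n) (W : Submodule F (Fin n → F)) (hW0 : W ≠ ⊥) (hW1 : W ≠ ⊤) : Cfsg.Geo.IsMaximalIn (Cfsg.Geo.specialLinear (Fin n) F) (Cfsg.Geo.subspaceStabilizer W ⊓ Cfsg.Geo.specialLinear (Fin n) F) := by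
  exact (mi_sub hW0 hW1).gl (fun g => mem_SL) fun g _ => mem_subStab

end Cfsg.Agent.S5631
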