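import Cfsg.Statements.S5632
import Cfsg.Agent.H5.Nm1

set_option autoImplicit false
open Cfsg

namespace Cfsg.Agent.S5632

open CfsgH5 CfsgH5.CForm CfsgH5.Mx CfsgH5.Au CfsgH5.Nm Module

/-- For a finite field F and subspaces 0 < W < U of F^n with dim W + dim U = n, the elements of SL_n(F) stabilising both W and U form a subgroup that is not maximal in SL_n(F): some subgroup lies strictly between it and SL_n(F). -/
theorem result {F : Type*} [Field F] [Fintype F] (n : ℕ) (W U : Submodule F (Fin n → F)) (hW0 : W ≠ ⊥) (hWU : W < U) (hdim : Module.finrank F W + Module.finrank F U = n) : ∃ K : Subgroup (Matrix.GeneralLinearGroup (Fin n) F), Cfsg.Geo.subspaceStabilizer W ⊓ Cfsg.Geo.subspaceStabilizer U ⊓ Cfsg.Geo.specialLinear (Fin n) F < K ∧ K < Cfsg.Geo.specialLinear (Fin n) F := by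
  have a := Submodule.finrank_lt_finrank_of_lt (bot_lt_iff_ne_bot.2 hW0)
  refine (nm_sub hW0 hWU.ne_top (fun e => ?_) hWU.not_ge).gl (fun g => mem_SL) fun g _ =>
    and_congr mem_subStab mem_subStab
  rw [e, finrank_top, finrank_fin_fun] at hdim
  omega

end Cfsg.Agent.S5632
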