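import Cfsg.Statements.S5638
import Cfsg.Agent.H5.Nm3

set_option autoImplicit false
open Cfsg

namespace Cfsg.Agent.S5638

open CfsgH5 CfsgH5.CForm CfsgH5.Mx CfsgH5.Au CfsgH5.Nm Module Matrix

/-- Over the field with 2 elements, for n = 2 n₂ ≥ 13, the stabiliser in SL_n of a tensor decomposition with factors of dimensions 2 and n₂ (the conjugate by any P of the Kronecker-product subgroup transported along any bijection Fin n ≃ Fin 2 × Fin n₂, intersected with SL_n) is not a maximal subgroup: some subgroup lies strictly between it and SL_n. -/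
theorem result {F : Type*} [Field F] [Fintype F] (n : ℕ) (hn : 13 ≤ n) (hq : Fintype.card F = 2) (n₂ : ℕ) (e : Fin n ≃ Fin 2 × Fin n₂) (P : Matrix.GeneralLinearGroup (Fin n) F) : ∃ K : Subgroup (Matrix.GeneralLinearGroup (Fin n) F), Cfsg.Geo.tensorProductSubgroup 2 n₂ e P ⊓ Cfsg.Geo.specialLinear (Fin n) F < K ∧ K < Cfsg.Geo.specialLinear (Fin n) F := by
  have d := Fintype.card_congr e
  simp at d
  have T := tn_tn e P
  have hj := fun u w => (tn_app e P (J3 F) 1 u w).trans (by rw [Units.val_one, one_mulVec])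
  set j := gl (As.tpG e P (As.kronG _ _ F (J3 F, 1)))
  let w₁ : Fin n₂ → F := Pi.single ⟨0, by omega⟩ 1
  let w₃ : Fin n₂ → F := Pi.single ⟨1, by omega⟩ 1
  have w0 : w₁ ≠ 0 := by simp [w₁]
  refine (nm_field hq T hj (G := LinearEquiv.det.ker) (fun g k => let ⟨a, _, k⟩ := tn_mem k; ⟨a, _, k⟩) ?_ ?_).gl'
    fun g => mem_SL
  · let v := tn e P ![1, 0] w₁
    obtain ⟨x, -, hx⟩ := exists_not_mem (W := ⊤) (U := (F ∙ v) ⊔ F ∙ j v) (by
      have := fr_line (F ∙ v) (j v)
      have := finrank_span_le_card (R := F) ({v} : Set (Fin n → F))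
      simp at *; omega)
    obtain ⟨φ, a, b⟩ := exists_fun (X := (F ∙ v) ⊔ F ∙ x) (x := j v) fun k => hx (exchange (fun k => by
      obtain ⟨l, k⟩ := Submodule.mem_span_singleton.1 k
      simpa using J3_ne hq (l := l) (T.r.inj w0 ((hj _ _).symm.trans (k.symm.trans (by simp [v, -smul_cons]))))) k)
    obtain ⟨g, hg⟩ := exists_T (b x (Submodule.mem_sup_right (Submodule.mem_span_singleton_self x)))
    refine ⟨g, hg.det, v, hg.fix (b v (Submodule.mem_sup_left (Submodule.mem_span_singleton_self v))), fun k => hx ?_⟩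
    rwa [hg.app, a, one_smul, Submodule.span_insert, Submodule.add_mem_iff_right _
      (Submodule.mem_sup_right (Submodule.mem_span_singleton_self _))] at k
  let N : Matrix (Fin n₂) (Fin n₂) F := single ⟨0, by omega⟩ ⟨1, by omega⟩ 1
  have N2 : N * N = 0 := by simp [N]
  let g := gl (As.tpG e P ⟨1 + (J3 F).1.kronecker N, 1 - (J3 F).1.kronecker N,
    by simp [mul_sub, add_mul, ← mul_kronecker_mul, N2], by simp [sub_mul, mul_add, ← mul_kronecker_mul, N2]⟩)
  have hg : ∀ u w, g (tn e P u w) = tn e P u w + tn e P ((J3 F).1 *ᵥ u) (N *ᵥ w) := fun u w => by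
    simp only [g, gl_apply, tn, LinearMap.mk₂_apply, As.tpG_coe, As.tp_mulVec, add_mulVec, one_mulVec, kronecker,
      As.kron_mulVec, ← mulVec_add]
    rfl
  refine ⟨g, Units.ext ((As.eq_zero_or_one hq _).resolve_left (Units.ne_zero _)), LinearEquiv.toLinearMap_injective
    (T.ext fun u w => by simp only [LinearEquiv.coe_coe, LinearEquiv.mul_apply, hg, hj, map_add]),
    ![1, 0], w₁, w₁, w₃, w₃, by simp, w0, w0, fun u => by
      rw [hg, show N *ᵥ w₁ = 0 by ext i; simp [N, w₁, single], map_zero, add_zero],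
    by rw [hg, show N *ᵥ w₃ = w₁ by ext i; simp [N, w₁, w₃, single, Pi.single_apply, eq_comm]]⟩

end Cfsg.Agent.S5638
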