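import Cfsg.Statements.S5642
import Cfsg.Agent.H5.Mx8

set_option autoImplicit false
open Cfsg

namespace Cfsg.Agent.S5642

open CfsgH5 CfsgH5.CForm CfsgH5.Mx CfsgH5.Au Module

/-- For a finite field F and n ≥ 13, let f be a non-degenerate symplectic form on F^n (so n is even). Then the elements of SL_n(F) that are similarities of f (f(gu, gv) = c f(u, v) for a non-zero scalar c depending on g) form a maximal subgroup of SL_n(F). -/
theorem result {F : Type*} [Field F] [Fintype F] (n : ℕ) (hn : 13 ≤ n) (f : (Fin n → F) → (Fin n → F) → F) (hf : Cfsg.Geo.IsSymplecticForm f) : Cfsg.Geo.IsMaximalIn (Cfsg.Geo.specialLinear (Fin n) F) (Cfsg.Geo.similarityGroup f ⊓ Cfsg.Geo.specialLinear (Fin n) F) := by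
  let f' : CForm (FP.symp F) (Fin n → F) := ⟨f, 0, hf.bilinear.add_left, hf.bilinear.smul_left,
    fun u v => by simp [hf.skew v u], by simp, by simp, fun v => ⟨0, by simp, by simp [hf.alternating]⟩⟩
  have h : f'.Nondeg := fun v hv => by
    by_contra k
    obtain ⟨x, hx⟩ := (hf.nondegenerate v k).1
    exact hx (hv x)
  exact (mi_sim (i3_symp f') h (by simpa)).gl (fun g => mem_SL) fun g _ => Iff.rfl

end Cfsg.Agent.S5642
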