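import Cfsg.Statements.S5643
import Cfsg.Agent.H5.Mx8

set_option autoImplicit false
open Cfsg

namespace Cfsg.Agent.S5643

open CfsgH5 CfsgH5.CForm CfsgH5.Mx CfsgH5.Au Module

/-- For a finite field F and n ≥ 13, let σ be a field automorphism of F of order two and f a non-degenerate unitary form on F^n with respect to σ. Then the elements of SL_n(F) that are similarities of f form a maximal subgroup of SL_n(F). -/
theorem result {F : Type*} [Field F] [Fintype F] (n : ℕ) (hn : 13 ≤ n) (σ : F ≃+* F) (f : (Fin n → F) → (Fin n → F) → F) (hf : Cfsg.Geo.IsUnitaryForm σ f) : Cfsg.Geo.IsMaximalIn (Cfsg.Geo.specialLinear (Fin n) F) (Cfsg.Geo.similarityGroup f ⊓ Cfsg.Geo.specialLinear (Fin n) F) := by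
  have h1 : (σ : F →+* F) ≠ RingHom.id F := fun e => hf.ne_refl (RingEquiv.ext fun a => RingHom.congr_fun e a)
  obtain ⟨q, H⟩ := exists_UF_of_invol h1 hf.involutive
  let f' := ofHerm h1 hf.involutive f hf.add_left hf.smul_left fun u v => hf.herm v u
  have h : f'.Nondeg := fun v hv => by
    by_contra k
    obtain ⟨x, hx⟩ := (hf.nondegenerate v k).1
    exact hx (hv x)
  exact (mi_sim (i3_unit H f') h (by simpa)).gl (fun g => mem_SL) fun g _ => Iff.rfl

end Cfsg.Agent.S5643
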