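import Cfsg.Statements.S5644
import Cfsg.Agent.H5.Mx8

set_option autoImplicit false
open Cfsg

namespace Cfsg.Agent.S5644

open CfsgH5 CfsgH5.CForm CfsgH5.Mx CfsgH5.Au Module

/-- For a finite field F of odd order and n ≥ 13, let Q be a non-degenerate quadratic form on F^n (its polar form is non-degenerate). Then the elements of SL_n(F) that are similarities of Q (Q(gv) = c Q(v) for a non-zero scalar c depending on g) form a maximal subgroup of SL_n(F). -/
theorem result {F : Type*} [Field F] [Fintype F] (n : ℕ) (hn : 13 ≤ n) (hodd : Odd (Fintype.card F)) (Q : (Fin n → F) → F) (hQ : Cfsg.Geo.IsNondegenerateQuadraticForm Q) : Cfsg.Geo.IsMaximalIn (Cfsg.Geo.specialLinear (Fin n) F) (Cfsg.Geo.quadSimilarityGroup Q ⊓ Cfsg.Geo.specialLinear (Fin n) F) := by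
  obtain ⟨Q, rfl, hf⟩ := exists_quad hQ
  have h2 := two_ne_of_odd hodd
  refine (mi_sim (i3_orth _) hf (by simpa)).gl (fun g => mem_SL) fun g _ => exists_congr fun c =>
    ⟨fun h u v => ?_, fun h v => mul_left_cancel₀ h2 ?_⟩
  · rw [orth_B, orth_B, ← map_add]
    simp only [ofQuad_Q, gl_apply, h]; ring
  · have := h v v
    rw [orth_B_self, orth_B_self] at this
    simp only [ofQuad_Q, gl_apply] at this
    linear_combination this

end Cfsg.Agent.S5644
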