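import Cfsg.Statements.S5645
import Cfsg.Agent.H5.Mx4

set_option autoImplicit false
open Cfsg

namespace Cfsg.Agent.S5645

open CfsgH5 CfsgH5.CForm CfsgH5.Mx CfsgH5.Au Module

/-- For a finite field F and m ≥ 7, in the symplectic group Sp_2m(F) of the standard alternating form on F^(2m) (as a subgroup of GL_2m(F)), the stabiliser of any non-zero subspace on which the form vanishes identically is a maximal subgroup. -/
theorem result {F : Type*} [Field F] [Fintype F] (m : ℕ) (hm : 7 ≤ m) (W : Submodule F (Fin m ⊕ Fin m → F)) (hW0 : W ≠ ⊥) (hW : Cfsg.Geo.IsTotallySingularFor (Cfsg.sympForm m F) W) : Cfsg.Geo.IsMaximalIn (Cfsg.spGL m F) (Cfsg.Geo.subspaceStabilizer W ⊓ Cfsg.spGL m F) := by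
  exact (mi_TS (i3_symp _) (spForm_nondeg m) (by rw [finrank_sum_fun]; omega) (TS_symp.2 hW) hW0
    (.inl symp_ker)).gl mem_spGL fun g _ => mem_subStab

end Cfsg.Agent.S5645
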