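import Cfsg.Statements.S5646
import Cfsg.Agent.H5.Mx4

set_option autoImplicit false
open Cfsg

namespace Cfsg.Agent.S5646

open CfsgH5 CfsgH5.CForm CfsgH5.Mx CfsgH5.Au Module

/-- For a finite field F and m ≥ 7, in the symplectic group Sp_2m(F) of the standard alternating form on F^(2m), the stabiliser of any non-zero subspace W on which the form is non-degenerate and with dim W < m is a maximal subgroup. -/
theorem result {F : Type*} [Field F] [Fintype F] (m : ℕ) (hm : 7 ≤ m) (W : Submodule F (Fin m ⊕ Fin m → F)) (hW0 : W ≠ ⊥) (hW : Cfsg.Geo.IsNondegenerateOn (Cfsg.sympForm m F) W) (hdim : Module.finrank F W < m) : Cfsg.Geo.IsMaximalIn (Cfsg.spGL m F) (Cfsg.Geo.subspaceStabilizer W ⊓ Cfsg.spGL m F) := by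
  have hf := spForm_nondeg (F := F) m
  have h := nd_of_on (spForm F m) hW
  have h' := (CForm.res_nondeg_iff _ _).2 h
  exact (mi_nd (i3_symp _) (adj_ker hf symp_ker) hf (by rw [finrank_sum_fun]; omega) h hW0
    (by rintro rfl; rw [finrank_top, finrank_sum_fun] at hdim; omega) (irr_ker h' symp_ker)
    (irr_ker (hf.res_perp h') symp_ker) fun g _ => ne_perp_of_dim hf (by rw [finrank_sum_fun]; omega) g).gl
    mem_spGL fun g _ => mem_subStab

end Cfsg.Agent.S5646
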