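import Cfsg.Statements.S5648
import Cfsg.Agent.H5.Nm4

set_option autoImplicit false
open Cfsg

namespace Cfsg.Agent.S5648

open CfsgH5 CfsgH5.CForm CfsgH5.Mx CfsgH5.Au CfsgH5.Nm Module Matrix

/-- Over the field with 2 elements and for m ≥ 7, let D be a decomposition of F^(2m) into t pairwise orthogonal non-degenerate 2-dimensional subspaces for the standard alternating form (t = m ≥ 2). Then the elements of Sp_2m(2) permuting the members of D form a subgroup that is not maximal: some subgroup lies strictly between it and Sp_2m(2). -/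
theorem result {F : Type*} [Field F] [Fintype F] (m : ℕ) (hm : 7 ≤ m) (hq : Fintype.card F = 2) {t : ℕ} (D : Fin t → Submodule F (Fin m ⊕ Fin m → F)) (hD : Cfsg.Geo.IsNondegenerateMDecomposition (Cfsg.sympForm m F) 2 D) : ∃ K : Subgroup (Matrix.GeneralLinearGroup (Fin m ⊕ Fin m) F), Cfsg.Geo.decompositionStabilizer D ⊓ Cfsg.spGL m F < K ∧ K < Cfsg.spGL m F := by
  obtain ⟨Φ, a⟩ := exists_ad hD.decomp
  have h := od_of (f := spForm F m) hD (by omega) (by simp; omega)
  refine NM.gl (a.nm_two hq h.three fun k => ?_) mem_spGL fun g _ => mem_decStab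
  obtain ⟨g, hg⟩ := symp_exists_transvection (f := spForm F m) (Φ (sg F 0 k)) 1
  refine ⟨g, hg.mem_E, fun x => ?_⟩
  have h2 : (2 : F) = 0 := not_not.1 (As.two_ne_zero_iff.not.2 (by simp [hq]))
  have s : ∀ x, Φ x = ∑ p, x p • Φ (Pi.single p 1) := fun x => by
    simp only [← map_smul, ← map_sum]; congr 1; ext; simp [Pi.single_apply]
  have me : ∀ p, Φ (Pi.single p 1) ∈ D p.2 := fun p => (a.mem _ _).2 fun a i e => Pi.single_eq_of_ne
    (by rintro rfl; exact e rfl) _
  have k0 : ∀ b c i j, (i = j → b = c) → (spForm F m).B (Φ (Pi.single (b, i) 1)) (Φ (Pi.single (c, j) 1)) = 0 :=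
    fun b c i j e => by
      by_cases d : i = j
      · rw [d, e d, symp_B_self]
      · exact h.ort i j d _ (me (b, i)) _ (me (c, j))
  have k1 : ∀ i, (spForm F m).B (Φ (Pi.single (1, i) 1)) (Φ (Pi.single (0, i) 1)) = 1 := fun i => by
    refine (As.eq_zero_or_one hq _).resolve_left fun e => ?_
    obtain ⟨w, w1, w2⟩ := exists_B_in (h.nd i) (me (0, i)) (by simp)
    obtain ⟨y, rfl⟩ := Φ.surjective w
    refine w2 ?_
    rw [s y, B_sum_left]
    refine Finset.sum_eq_zero fun ⟨b, j⟩ _ => ?_
    by_cases d : j = i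
    · subst d
      fin_cases b
      · simp [symp_B_self]
      · simp [e]
    · simp [k0 b 0 j i (absurd · d)]
  have key : (spForm F m).B (Φ x) (Φ (sg F 0 k)) = sg F 1 k ⬝ᵥ x := by
    rw [s x, B_sum_left, dotProduct]
    refine Finset.sum_congr rfl fun ⟨b, j⟩ _ => ?_
    rw [B_smul_left, mul_comm, s (sg F 0 k), B_sum_right, Finset.sum_eq_single (0, j)]
    · rw [B_smul_right]
      fin_cases b
      · simp [symp_B_self, sg]
      · simp [k1, sg]
    · rintro ⟨c, i⟩ - d
      by_cases e : c = 0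
      · subst e
        rw [B_smul_right, h.ort j i (fun e => d (by rw [e])) _ (me (b, j)) _ (me (0, i)), mul_zero]
      · simp [sg, e]
    · simp
  rw [hg.app, key]
  simp

end Cfsg.Agent.S5648
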