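import Cfsg.Statements.S5649
import Cfsg.Agent.H5.Mx4

set_option autoImplicit false
open Cfsg

namespace Cfsg.Agent.S5649

open CfsgH5 CfsgH5.CForm CfsgH5.Mx CfsgH5.Au Module

/-- For a finite field F of odd order and m ≥ 7, let D be a decomposition of F^(2m) into two complementary subspaces of dimension m on each of which the standard alternating form vanishes identically. Then the elements of Sp_2m(F) preserving or interchanging the two subspaces form a maximal subgroup of Sp_2m(F). -/
theorem result {F : Type*} [Field F] [Fintype F] (m : ℕ) (hm : 7 ≤ m) (hodd : Odd (Fintype.card F)) (D : Fin 2 → Submodule F (Fin m ⊕ Fin m → F)) (hD : Cfsg.Geo.IsMDecomposition m D) (hts : ∀ i, Cfsg.Geo.IsTotallySingularFor (Cfsg.sympForm m F) (D i)) : Cfsg.Geo.IsMaximalIn (Cfsg.spGL m F) (Cfsg.Geo.decompositionStabilizer D ⊓ Cfsg.spGL m F) := by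
  have h2 := two_ne_of_odd hodd
  exact (mi_pair_ker (f := spForm F m) ⟨TS_symp.2 (hts 0), TS_symp.2 (hts 1), isCompl_of_dec hD,
    by rw [hD.finrank_eq]; omega, by rw [hD.finrank_eq]; omega⟩ (spForm_nondeg m)
    (fun c _ => ⟨c / 2, by simp; field_simp; ring⟩) symp_ker).gl mem_spGL fun g _ => mem_decStab

end Cfsg.Agent.S5649
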