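import Cfsg.Statements.S5652
import Cfsg.Agent.H5.Mx4

set_option autoImplicit false
open Cfsg

namespace Cfsg.Agent.S5652

open CfsgH5 CfsgH5.CForm CfsgH5.Mx CfsgH5.Au Module

/-- For a finite field F of characteristic two and m ≥ 7, let Q be a non-degenerate quadratic form on F^(2m) whose polar form is the standard alternating form. Then the elements of Sp_2m(F) that are similarities of Q (they are exactly the isometries of Q) form a maximal subgroup of Sp_2m(F). -/
theorem result {F : Type*} [Field F] [Fintype F] (m : ℕ) (hm : 7 ≤ m) (heven : ¬ Odd (Fintype.card F)) (Q : (Fin m ⊕ Fin m → F) → F) (hQ : Cfsg.Geo.IsNondegenerateQuadraticForm Q) (hpol : ∀ u v, QuadraticMap.polar Q u v = Cfsg.sympForm m F u v) : Cfsg.Geo.IsMaximalIn (Cfsg.spGL m F) (Cfsg.Geo.quadSimilarityGroup Q ⊓ Cfsg.spGL m F) := by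
  obtain ⟨Q, rfl, hf⟩ := exists_quad hQ
  have h2 : (2 : F) = 0 := by
    by_contra c
    exact heven (Nat.odd_iff.2 (Nat.card_eq_fintype_card (α := F) ▸ card_odd_of_two_ne c))
  have e : finrank F (Fin m ⊕ Fin m → F) = 2 * m := finrank_sum_fun m
  have hB : ∀ u v, (spForm F m).B u v = (ofQuad Q).B u v := fun u v => (hpol u v).symm
  obtain ⟨x, hx0, hx⟩ := orth_exists_sing (ofQuad Q) (by omega)
  obtain ⟨y, hy⟩ := hf.exists_B_eq_one hx0
  refine MI.gl (G' := (spForm F m).E) (H' := (ofQuad Q).Isom) ⟨fun k => ?_, fun K k1 k2 g hg hn =>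
    max_orth_symp h2 hf (by omega) hB (fun s hs => k1 ⟨hs, ?_⟩) hg (E_le_Isom (k2 hg)) hn⟩ mem_spGL fun g hg => ?_
  · obtain ⟨t, ht⟩ := symp_exists_transvection (f := spForm F m) x 1
    have := (ofQuad Q).Isom_Q (k ht.mem_E) y
    rw [ht.app] at this
    simp only [hB, B_zero_right, zero_smul, add_zero, smul_zero, sub_zero, (ofQuad Q).B_one_symm hy] at this
    simp [orth_Q_add, (ofQuad Q).B_one_symm hy, -ofQuad_Q, hx] at this
  · rw [← symp_Isom_eq_E (spForm_nondeg m)]
    exact mem_Isom_symp.2 fun u v => by rw [hB, hB, (ofQuad Q).Isom_B hs]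
  · refine ⟨fun ⟨c, hc⟩ => mem_Isom_orth.2 fun v => ?_, fun h => ⟨1, fun v => by simpa using (ofQuad Q).Isom_Q h v⟩⟩
    have k := (spForm F m).Isom_B (mem_spGL'.1 hg) x y
    rw [hB, hB, orth_B, orth_B, ← map_add] at k
    simp only [ofQuad_Q, gl_apply, hc] at k
    have k' := (ofQuad Q).orth_B x y
    simp only [hy, ofQuad_Q] at k'
    have : (c : F) = 1 := by linear_combination k + ((c : F) - 1) * k'
    simpa [this] using hc v

end Cfsg.Agent.S5652
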