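import Cfsg.Statements.S5654
import Cfsg.Agent.H5.Mx4

set_option autoImplicit false
open Cfsg

namespace Cfsg.Agent.S5654

open CfsgH5 CfsgH5.CForm CfsgH5.Mx CfsgH5.Au Module

/-- Let F be the field with q² elements and n ≥ 13. In SU_n(q) (determinant-one isometries of the standard unitary form on F^n) the stabiliser of a non-zero subspace W on which the form is non-degenerate and with 2 dim W < n is a maximal subgroup. -/
theorem result {F : Type*} [Field F] [Fintype F] (n q : ℕ) (hF : Fintype.card F = q ^ 2) (hn : 13 ≤ n) (W : Submodule F (Fin n → F)) (hW0 : W ≠ ⊥) (hW : Cfsg.Geo.IsNondegenerateOn (Cfsg.hermForm n F q) W) (hdim : 2 * Module.finrank F W < n) : Cfsg.Geo.IsMaximalIn (Cfsg.GU n F q ⊓ Cfsg.Geo.specialLinear (Fin n) F) (Cfsg.Geo.subspaceStabilizer W ⊓ (Cfsg.GU n F q ⊓ Cfsg.Geo.specialLinear (Fin n) F)) := by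
  obtain ⟨σ, H⟩ := exists_UF hF
  have hf := hermC_nondeg H n
  have h := nd_of_on (hermC H n) hW
  have h' := (CForm.res_nondeg_iff _ _).2 h
  have k := unit_ker (h := H.invol) H.ne_id
  exact (mi_nd (i3_unit H _) (adj_ker hf k) hf (by simpa) h hW0
    (by rintro rfl; simp at hdim; omega) (irr_ker h' k)
    (irr_ker (hf.res_perp h') k) fun g _ => ne_perp_of_dim hf (by simp; omega) g).gl
    (mem_SU H (by omega)) fun g _ => mem_subStab

end Cfsg.Agent.S5654
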