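import Cfsg.Statements.S5662
import Cfsg.Agent.H5.As21

set_option autoImplicit false
open Cfsg

namespace Cfsg.Agent.S5662

/-- Subgroup structure of the finite symplectic groups. Let F be a finite field and m ≥ 2 with (m, |F|) ≠ (2, 2), and let Sp_2m(F) be the group of invertible matrices preserving the standard alternating form on F^(2m). Let H be a subgroup of Sp_2m(F) whose product with the scalar matrices ±1 is not all of Sp_2m(F) (H does not cover PSp_2m(F)). Then either H is contained in a member of one of the eight geometric classes of subgroups of Sp_2m(F) (with the conditions built into InSymplecticClass), or H is in the residual class: modulo scalars it is almost simple, and the perfect preimage of its socle acts absolutely irreducibly, is realisable over no proper subfield, and fixes no non-degenerate quadratic form and no non-degenerate unitary form on F^(2m). -/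
theorem result {F : Type*} [Field F] [Fintype F] (m : ℕ) (hm : 2 ≤ m) (hex : ¬ (m = 2 ∧ Fintype.card F = 2)) (H : Subgroup (Matrix.GeneralLinearGroup (Fin m ⊕ Fin m) F)) (hH : H ≤ Cfsg.spGL m F) (hproper : H ⊔ (Cfsg.Geo.scalars (Fin m ⊕ Fin m) F ⊓ Cfsg.spGL m F) ≠ Cfsg.spGL m F) : (∃ M : Subgroup (Matrix.GeneralLinearGroup (Fin m ⊕ Fin m) F), Cfsg.Geo.InSymplecticClass m F M ∧ H ≤ M) ∨ Cfsg.Geo.InSymplecticResidualClass H := by
  obtain ⟨Γ, h, ha, e1, e2⟩ := CfsgH5.As.sp_bridge m F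
  have hc : Fintype.card (Fin m ⊕ Fin m) = 2 * m := by simp [two_mul]
  have := CfsgH5.As.sp_main h ha (by omega) (e2 ▸ hH)
  rw [← e1] at this
  have k : ∀ {M}, H ≤ M → H ≤ M ⊓ Cfsg.spGL m F := fun h => le_inf h hH
  rcases this with ⟨W, a, b, c⟩ | ⟨W, a, b, c, d⟩ | ⟨t, l, D, a, -, -, d⟩ |
    ⟨o, l, D, a, b, c, d⟩ | ⟨r, K, a, -, c, d, e, g⟩ | ⟨o, K, a, b, c, d⟩ |
    ⟨o, l, l', e, P, f₁, f₂, a1, a2, a3, a4, a5, a6, a7, a⟩ | ⟨F₀, r, P, ζ, a, b, c, d, e⟩ |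
    ⟨o, o', T, l, a1, a2, a3, a4, a5, a6, a7, a⟩ | ⟨o, l, t, e, P, f₁, a1, a2, a3, a4, a5, a6, a⟩ |
    ⟨o, Q, a, b, c⟩ | a
  · exact .inl ⟨_, .inl (.inl ⟨W, a, b, rfl⟩), k c⟩
  · exact .inl ⟨_, .inl (.inr (.inl ⟨W, a, b, by omega, rfl⟩)), k d⟩
  · exact .inl ⟨_, .inl (.inr (.inr (.inl ⟨t, l, D, a, rfl⟩))), k d⟩
  · obtain rfl : l = m := by omega
    exact .inl ⟨_, .inl (.inr (.inr (.inr (.inl ⟨D, o, b, c, rfl⟩)))), k d⟩
  · exact .inl ⟨_, .inr (.inl ⟨r, K, a, c, d, e, rfl⟩), k g⟩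
  · exact .inl ⟨_, .inr (.inr (.inl ⟨K, o, a, b, c, rfl⟩)), k d⟩
  · exact .inl ⟨_, .inr (.inr (.inr (.inl ⟨l, l', e, P, f₁, f₂, o, a3, a5, a6, a7, rfl⟩))), k a⟩
  · exact .inl ⟨_, .inl (.inr (.inr (.inr (.inr (.inl ⟨F₀, r, P, ζ, a, b, c, d, rfl⟩))))), k e⟩
  · exact .inl ⟨_, .inl (.inr (.inr (.inr (.inr (.inr (.inl ⟨T, _, l, a1, a2, a3.trans (CfsgH5.As.isoG_le_sim _),
      o', o, rfl, a5, a6, a7, rfl⟩)))))), k a⟩
  · exact .inl ⟨_, .inr (.inr (.inr (.inr ⟨l, t, e, P, f₁, o, a2, a3, a4, a5, a6, rfl⟩))), k a⟩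
  · exact .inl ⟨_, .inl (.inr (.inr (.inr (.inr (.inr (.inr ⟨Q, o, a, b, rfl⟩)))))), k c⟩
  · exact .inr a

end Cfsg.Agent.S5662
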