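import Cfsg.Statements.S5663
import Cfsg.Agent.H5.As22

set_option autoImplicit false
open Cfsg

namespace Cfsg.Agent.S5663

/-- Subgroup structure of the finite unitary groups. Let F be the field with q² elements and n ≥ 3 with (n, q) ≠ (3, 2), and let SU_n(q) be the group of matrices of determinant one preserving the standard unitary form Σ u_i v_i^q on F^n. Let H be a subgroup of SU_n(q) whose product with the scalar matrices in SU_n(q) is not all of SU_n(q) (H does not cover PSU_n(q)). Then either H is contained in a member of one of the geometric classes of subgroups of the unitary group GU_n(q) (with the conditions built into InUnitaryClass), or H is in the residual class: modulo scalars it is almost simple, and the perfect preimage of its socle acts absolutely irreducibly, is realisable over no proper subfield of F, and fixes no non-degenerate quadratic form and no non-degenerate symplectic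 form on F^n. -/
theorem result {F : Type*} [Field F] [Fintype F] (n q : ℕ) (hF : Fintype.card F = q ^ 2) (hn : 3 ≤ n) (hex : ¬ (n = 3 ∧ q = 2)) (H : Subgroup (Matrix.GeneralLinearGroup (Fin n) F)) (hH : H ≤ (Cfsg.GU n F q ⊓ Cfsg.Geo.specialLinear (Fin n) F)) (hproper : H ⊔ (Cfsg.Geo.scalars (Fin n) F ⊓ (Cfsg.GU n F q ⊓ Cfsg.Geo.specialLinear (Fin n) F)) ≠ (Cfsg.GU n F q ⊓ Cfsg.Geo.specialLinear (Fin n) F)) : (∃ M : Subgroup (Matrix.GeneralLinearGroup (Fin n) F), Cfsg.Geo.InUnitaryClass n F q M ∧ H ≤ M) ∨ Cfsg.Geo.InUnitaryResidualClass H := by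
  obtain ⟨σ, hσ⟩ := CfsgH5.exists_UF hF
  obtain ⟨e1, e2⟩ := CfsgH5.As.su_bridge hσ n
  have hI := hH.trans inf_le_left
  have := CfsgH5.As.su_main hσ (CfsgH5.As.hf_one hσ.invol) (by simpa) H (e2 ▸ hI)
  rw [← e1] at this
  have k : ∀ {M}, H ≤ M → H ≤ M ⊓ Cfsg.GU n F q := fun h => le_inf h hI
  rcases this with ⟨W, a, b, c⟩ | ⟨W, a, b, c, d⟩ | ⟨t, _, D, a, b, c⟩ |
    ⟨_, D, a, b, c, d⟩ | ⟨r, K, a, b, c, d, e, g⟩ | ⟨_, _, e, P, f₁, f₂, a1, a2, a3, a4, a5, a6, a⟩ |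
    ⟨F₀, r, P, a, b, c, d, e⟩ | ⟨o, F₀, P, ζ, a, b, c, d, e, g⟩ | ⟨o, F₀, P, a, b, c⟩ |
    ⟨r, T, p, d, l, a1, a2, a3, a4, a5, a6, a7, a8, a9, a10, a⟩ | ⟨_, t, e, P, f₁, a1, a2, a3, a4, a5, a⟩ | a
  · exact .inl ⟨_, .inl (.inl ⟨W, a, b, rfl⟩), k c⟩
  · exact .inl ⟨_, .inl (.inr (.inl ⟨W, a, b, by simpa using c, rfl⟩)), k d⟩
  · exact .inl ⟨_, .inl (.inr (.inr (.inl ⟨t, _, D, a, rfl⟩))), k c⟩
  · exact .inl ⟨_, .inl (.inr (.inr (.inr (.inl ⟨_, D, by simpa using a, b, c, rfl⟩)))), k d⟩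
  · exact .inl ⟨_, .inr (.inl ⟨r, K, a, b, d, e, rfl⟩), k g⟩
  · exact .inl ⟨_, .inr (.inr (.inl ⟨_, _, e, P, f₁, f₂, a1, a2, a4, a5, a6, rfl⟩)), k a⟩
  · exact .inl ⟨_, .inl (.inr (.inr (.inr (.inr (.inl ⟨F₀, r, P, a, b, c, d, rfl⟩))))), k e⟩
  · exact .inl ⟨_, .inl (.inr (.inr (.inr (.inr (.inr (.inr (.inl
      ⟨F₀, P, ζ, by simpa using o, a, b, c, d, e, rfl⟩))))))), k g⟩
  · exact .inl ⟨_, .inl (.inr (.inr (.inr (.inr (.inr (.inl ⟨F₀, P, o, a, b, rfl⟩)))))), k c⟩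
  · exact .inl ⟨_, .inl (.inr (.inr (.inr (.inr (.inr (.inr (.inr ⟨r, T, p, _, l, a1, a2, a3, a4, a7,
      a10.imp (fun x => ⟨x.1, x.2.1, a9, x.2.2.1⟩) fun x => ⟨x.1, by omega, x.2.2.1, x.2.2.2.1⟩, rfl⟩))))))), k a⟩
  · exact .inl ⟨_, .inr (.inr (.inr ⟨_, t, e, P, f₁, a1, a2, a3, a4, a5, rfl⟩)), k a⟩
  · exact .inr a

end Cfsg.Agent.S5663
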