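import Cfsg.Statements.S5700
import Cfsg.Agent.H5.Dc2

set_option autoImplicit false
open Cfsg

namespace Cfsg.Agent.S5700

open CfsgH5 CfsgH5.CForm CfsgH5.Mx CfsgH5.Au CfsgH5.Dc Module Matrix

section
variable {ι : Type} [Fintype ι] [DecidableEq ι] {F : Type*} [Field F] {K : Subalgebra F (Matrix ι ι F)} {k : Matrix ι ι F}

theorem mem_norm [Finite F] (k1 : k ∈ K) (sp : ∀ x ∈ K, ∃ a b : F, a • 1 + b • k = x) (g : (ι → F) ≃ₗ[F] (ι → F)) :
    g ∈ (Geo.subalgebraNormalizer K).map gl ↔ ∃ a b : F, ∀ v, g (k.toLin' v) = a • g v + b • k.toLin' (g v) := by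
  obtain ⟨g, rfl⟩ := gl_surjective g
  rw [Subgroup.mem_map_iff_mem gl_injective]
  simp only [gl_apply, toLin'_apply]
  constructor
  · intro e
    obtain ⟨a, b, e⟩ := sp _ ((e k).1 k1)
    refine ⟨a, b, fun v => ?_⟩
    have := congrArg (· *ᵥ g.1 *ᵥ v) e.symm
    simp only [add_mulVec, smul_mulVec, add_mul, Matrix.smul_mul, one_mul, mulVec_mulVec,
      Units.inv_mul_cancel_right] at this ⊢
    exact this
  · rintro ⟨a, b, e⟩
    have e : g.1 * k * g⁻¹.1 = a • 1 + b • k := ext_of_mulVec_single fun i => by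
      have := e (g⁻¹.1 *ᵥ Pi.single i 1)
      simp only [add_mulVec, smul_mulVec, mulVec_mulVec, Units.mul_inv, mul_assoc, mul_one] at this ⊢
      exact this
    have m : Set.MapsTo (fun x => g.1 * x * g⁻¹.1) K K := fun x h => by
      obtain ⟨p, q, rfl⟩ := sp x h
      simp only [mul_add, add_mul, Matrix.mul_smul, Matrix.smul_mul, e, mul_one, Units.mul_inv]
      exact add_mem (K.smul_mem K.one_mem _) (K.smul_mem (add_mem (K.smul_mem K.one_mem a) (K.smul_mem k1 b)) _)
    have i : Function.Injective fun x => g.1 * x * g⁻¹.1 := fun x y h =>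
      (Units.mul_right_inj g).1 ((Units.mul_left_inj g⁻¹).1 h)
    refine fun x => ⟨@m x, fun h => ?_⟩
    obtain ⟨w, p, q⟩ := ((Set.toFinite _).injOn_iff_bijOn_of_mapsTo m |>.1 i.injOn).surjOn h
    exact i q ▸ p

theorem hm_of {f : CForm (FP.orth F) (ι → F)} (hf : f.Nondeg) (hn : 14 ≤ Fintype.card ι) (hK : Geo.IsFieldSubalgebra 2 K)
    (k1 : k ∈ K) {u₀ v₀ : ι → F} (k2 : ¬ f.B (k *ᵥ u₀) v₀ = f.B u₀ (k *ᵥ v₀))
    (hsc : ∀ k ∈ K, ∃ c, ∀ v, f.Q (k *ᵥ v) = c * f.Q v) :
    (∀ x ∈ K, ∃ a b : F, a • 1 + b • k = x) ∧ ∃ τ ν, Hm f k.toLin' τ ν := by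
  have : Nonempty ι := Fintype.card_pos_iff.1 (by omega)
  have li : ∀ a b : F, a • (1 : Matrix ι ι F) + b • k = 0 → a = 0 ∧ b = 0 := fun a b e => by
    have : b = 0 := by_contra fun c => k2 (by
      rw [show k = (-a / b) • 1 from smul_right_injective _ c (by
        simp only [smul_smul, mul_div_cancel₀ _ c]; linear_combination (norm := module) e)]
      simp [smul_mulVec])
    simpa [this] using e
  refine ⟨fun x h => ?_, ?_⟩
  · have : Submodule.span F (Set.range ![1, k]) = K.toSubmodule := Submodule.eq_of_le_of_finrank_eq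
      (Submodule.span_le.2 (by simp [Set.insert_subset_iff, k1, K.one_mem])) (by
        rw [finrank_span_eq_card (LinearIndependent.pair_iff.2 li)]; simpa using hK.finrank_eq.symm)
    obtain ⟨a, b, e⟩ : ∃ a b : F, a • k + b • 1 = x := by simpa [Submodule.mem_span_pair] using this.ge h
    exact ⟨b, a, (add_comm _ _).trans e⟩
  obtain ⟨ν, h1⟩ := hsc k k1
  obtain ⟨c, h2⟩ := hsc (1 + k) (add_mem K.one_mem k1)
  have h3 : ∀ v, f.B v (k *ᵥ v) = (c - 1 - ν) * f.Q v := fun v => by
    have := h2 v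
    simp only [add_mulVec, one_mulVec, orth_Q_add, h1] at this
    linear_combination this
  have h4 : ∀ u v, f.B (k *ᵥ u) v = (c - 1 - ν) * f.B u v - f.B u (k *ᵥ v) := fun u v => by
    have := h3 (u + v)
    simp only [mulVec_add, B_add_left, B_add_right, orth_Q_add, h3] at this
    linear_combination this + orth_B_symm f v (k *ᵥ u)
  have h5 : ∀ v, k *ᵥ k *ᵥ v = (c - 1 - ν) • k *ᵥ v - ν • v := fun v => hf.ext_left fun u => by
    have := h1 (v + u)
    simp only [mulVec_add, orth_Q_add, h1] at this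
    rw [h4, B_sub_left, B_smul_left, B_smul_left]
    linear_combination -this
  refine ⟨c - 1 - ν, ν, hf, by simpa, h4, h5, h1, h3, fun a b e => ?_⟩
  by_cases d : a • (1 : Matrix ι ι F) + b • k = 0
  · exact li a b d
  obtain ⟨y, y1, y2⟩ := hK.inv _ (add_mem (K.smul_mem K.one_mem a) (K.smul_mem k1 b)) d
  have : (a • 1 + b • k) * ((a + b * (c - 1 - ν)) • 1 + -b • k) = 0 := ext_of_mulVec_single fun i => by
    simp only [← mulVec_mulVec, add_mulVec, smul_mulVec, one_mulVec, mulVec_add, mulVec_smul, h5, zero_mulVec]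
    linear_combination (norm := module) e • Pi.single (M := fun _ => F) i 1
  have := congrArg (y * ·) this
  simp only [← mul_assoc, mul_eq_one_comm.1 y2, one_mul, mul_zero] at this
  obtain ⟨p, q⟩ := li _ _ this
  obtain rfl := neg_eq_zero.1 q
  simpa using p

end

/-- Let F be a finite field with q elements, n ≥ 13 even, Q a non-degenerate quadratic form on F^n (of either type), and Ω the commutator subgroup of the isometry group of Q, viewed inside GL_n(F). Let K be a subfield of the algebra of n × n matrices over F containing the scalars, of degree 2 over F, closed under adjoints for the polar form of Q but not consisting of self-adjoint elements, and such that every k in K rescales Q (Q(k v) = c Q(v) for a constant c depending on k). Then the elements of Ω normalising K form a maximal subgroup of Ω. -/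
theorem result {F : Type*} [Field F] [Fintype F] {n : ℕ} (hn : 13 ≤ n) (heven : Even n) (Q : (Fin n → F) → F) (hQ : Cfsg.Geo.IsNondegenerateQuadraticForm Q) (K : Subalgebra F (Matrix (Fin n) (Fin n) F)) (hK : Cfsg.Geo.IsFieldSubalgebra 2 K) (hac : Cfsg.Geo.IsAdjointClosedFor (QuadraticMap.polar Q) K) (hnsa : ¬ Cfsg.Geo.IsSelfAdjointFor (QuadraticMap.polar Q) K) (hsc : ∀ k ∈ K, ∃ c : F, ∀ v : (Fin n → F), Q (Matrix.mulVec k v) = c * Q v) : Cfsg.Geo.IsMaximalIn (Cfsg.Geo.omegaGL Q) (Cfsg.Geo.subalgebraNormalizer K ⊓ Cfsg.Geo.omegaGL Q) := by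
  obtain ⟨Q, rfl, hf⟩ := exists_quad hQ
  simp only [Geo.IsSelfAdjointFor, not_forall] at hnsa
  obtain ⟨k, k1, u₀, v₀, k2⟩ := hnsa
  obtain ⟨sp, τ, ν, h⟩ := hm_of hf (by simp; obtain ⟨r, rfl⟩ := heven; omega) hK k1 k2 hsc
  exact (h.mi (mem_norm k1 sp)).gl (mem_omegaGL hf (by simp; omega))
    fun _ _ => (Subgroup.mem_map_iff_mem gl_injective).symm

end Cfsg.Agent.S5700
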