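import Cfsg.Statements.S5665
import Cfsg.Agent.H5.Dc6
import Cfsg.Agent.S5700

set_option autoImplicit false
open Cfsg

namespace Cfsg.Agent.S5665

open CfsgH5 CfsgH5.CForm CfsgH5.Mx CfsgH5.Au CfsgH5.Dc Module Matrix

theorem hs_of {ι : Type} [Fintype ι] [DecidableEq ι] {F : Type*} [Field F] {K : Subalgebra F (Matrix ι ι F)}
    {f : CForm (FP.symp F) (ι → F)} (hf : f.Nondeg) (hn : 14 ≤ Fintype.card ι) (h2 : (2 : F) ≠ 0)
    (hK : Geo.IsFieldSubalgebra 2 K) (hac : Geo.IsAdjointClosedFor f.B K) (hnsa : ¬ Geo.IsSelfAdjointFor f.B K) :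
    ∃ k ∈ K, (∀ x ∈ K, ∃ a b : F, a • 1 + b • k = x) ∧ ∃ δ, Hs k.toLin' f δ := by
  have : Nonempty ι := Fintype.card_pos_iff.1 (by omega)
  simp only [Geo.IsSelfAdjointFor, not_forall] at hnsa
  obtain ⟨k₀, k1, u₀, v₀, k2⟩ := hnsa
  obtain ⟨k', k3, k4⟩ := hac k₀ k1
  have h4 : ∀ u v, f.B ((k₀ - k') *ᵥ u) v = -f.B u ((k₀ - k') *ᵥ v) := fun u v => by
    simp [sub_mulVec, k4 u v, symp_B_symm f v (k' *ᵥ u), ← k4 v u, symp_B_symm f (k₀ *ᵥ v) u]
  have h0 : k₀ - k' ≠ 0 := fun e => k2 (by rw [k4, sub_eq_zero.1 e])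
  have k1 := K.sub_mem k1 k3
  generalize k₀ - k' = k at h4 h0 k1
  have li : ∀ a b : F, a • (1 : Matrix ι ι F) + b • k = 0 → a = 0 ∧ b = 0 := fun a b e => by
    have : b = 0 := by_contra fun c => h0 (ext_of_mulVec_single fun i => (hf _ fun u => by
      have e : k = (-a / b) • 1 := smul_right_injective _ c (by
        simp only [smul_smul, mul_div_cancel₀ _ c]; linear_combination (norm := module) e)
      have := h4 u (Pi.single i 1)
      simp only [e, smul_mulVec, one_mulVec, B_smul_left, B_smul_right, FP.symp_σ, zero_mulVec] at this ⊢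
      exact mul_left_cancel₀ h2 (by linear_combination this)).trans (zero_mulVec _).symm)
    simpa [this] using e
  have sp : ∀ x ∈ K, ∃ a b : F, a • 1 + b • k = x := fun x h => by
    have : Submodule.span F (Set.range ![1, k]) = K.toSubmodule := Submodule.eq_of_le_of_finrank_eq
      (Submodule.span_le.2 (by simp [Set.insert_subset_iff, k1, K.one_mem])) (by
        rw [finrank_span_eq_card (LinearIndependent.pair_iff.2 li)]; simpa using hK.finrank_eq.symm)
    obtain ⟨a, b, e⟩ : ∃ a b : F, a • k + b • 1 = x := by simpa [Submodule.mem_span_pair] using this.ge h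
    exact ⟨b, a, (add_comm _ _).trans e⟩
  obtain ⟨δ, β, e⟩ := sp _ (K.mul_mem k1 k1)
  have h5 : ∀ v, k *ᵥ k *ᵥ v = δ • v + β • k *ᵥ v := fun v => by simp [← e, add_mulVec, smul_mulVec]
  obtain rfl : β = 0 := (li 0 β (ext_of_mulVec_single fun i => (hf _ fun u => by
    have := h4 (k *ᵥ u) (Pi.single i 1)
    rw [h5, h4 u (k *ᵥ _), h5] at this
    simp only [B_add_left, B_add_right, B_smul_left, B_smul_right, h4, FP.symp_σ, zero_smul, zero_add, smul_mulVec,
      zero_mulVec] at this ⊢
    exact mul_left_cancel₀ h2 (by linear_combination -this)).trans (zero_mulVec _).symm)).2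
  simp only [zero_smul, add_zero] at h5
  refine ⟨k, k1, sp, δ, hf, by simpa, h2, h4, h5, fun a b e => ?_⟩
  by_cases d : a • (1 : Matrix ι ι F) + b • k = 0
  · exact li a b d
  obtain ⟨y, y1, y2⟩ := hK.inv _ (add_mem (K.smul_mem K.one_mem a) (K.smul_mem k1 b)) d
  have : (a • 1 + b • k) * (a • 1 + -b • k) = 0 := ext_of_mulVec_single fun i => by
    simp only [← mulVec_mulVec, add_mulVec, smul_mulVec, one_mulVec, mulVec_add, mulVec_smul, h5, zero_mulVec]
    linear_combination (norm := module) e • Pi.single (M := fun _ => F) i 1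
  have := congrArg (y * ·) this
  simp only [← mul_assoc, mul_eq_one_comm.1 y2, one_mul, mul_zero] at this
  simpa using li _ _ this

/-- For a finite field F of odd order and m ≥ 7, let K be a subfield of the algebra of 2m × 2m matrices over F containing the scalars, of degree 2 over F, that is closed under adjoints for the standard alternating form on F^(2m) but whose elements are not all self-adjoint (so the adjoint map induces the automorphism of order two of K). Then the elements of Sp_2m(F) normalising K form a maximal subgroup of Sp_2m(F). -/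
theorem result {F : Type*} [Field F] [Fintype F] (m : ℕ) (hm : 7 ≤ m) (hodd : Odd (Fintype.card F)) (K : Subalgebra F (Matrix (Fin m ⊕ Fin m) (Fin m ⊕ Fin m) F)) (hK : Cfsg.Geo.IsFieldSubalgebra 2 K) (hac : Cfsg.Geo.IsAdjointClosedFor (Cfsg.sympForm m F) K) (hnsa : ¬ Cfsg.Geo.IsSelfAdjointFor (Cfsg.sympForm m F) K) : Cfsg.Geo.IsMaximalIn (Cfsg.spGL m F) (Cfsg.Geo.subalgebraNormalizer K ⊓ Cfsg.spGL m F) := by
  obtain ⟨k, k1, sp, δ, h⟩ := hs_of (spForm_nondeg m) (by simp; omega) (As.two_ne_zero_iff.2 hodd) hK hac hnsa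
  exact (h.mi (S5700.mem_norm k1 sp)).gl mem_spGL fun _ _ => (Subgroup.mem_map_iff_mem gl_injective).symm

end Cfsg.Agent.S5665
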