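import Cfsg.Statements.S5667
import Cfsg.Agent.H5.Nm3

set_option autoImplicit false
open Cfsg

namespace Cfsg.Agent.S5667

open CfsgH5 CfsgH5.CForm CfsgH5.Mx CfsgH5.Au CfsgH5.Nm Module Matrix

/-- Over the field with 3 elements and for m ≥ 7, suppose the standard alternating form on F^(2m) is similar, through P and e, to the tensor product of a non-degenerate symplectic form f₁ on F^(n₁) and a non-degenerate symmetric bilinear form f₂ on F^3. Then the elements of Sp_2m(3) in the stabiliser of this tensor decomposition form a subgroup that is not maximal: some subgroup lies strictly between it and Sp_2m(3). -/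
theorem result {F : Type*} [Field F] [Fintype F] (m : ℕ) (hm : 7 ≤ m) (hq : Fintype.card F = 3) (n₁ : ℕ) (e : (Fin m ⊕ Fin m) ≃ Fin n₁ × Fin 3) (P : Matrix.GeneralLinearGroup (Fin m ⊕ Fin m) F) (f₁ : (Fin n₁ → F) → (Fin n₁ → F) → F) (f₂ : (Fin 3 → F) → (Fin 3 → F) → F) (hf₁ : Cfsg.Geo.IsSymplecticForm f₁) (hf₂ : Cfsg.Geo.IsSymmetricForm f₂) (hT : Cfsg.Geo.IsTensorFormStructure id (Cfsg.sympForm m F) f₁ f₂ e P) : ∃ K : Subgroup (Matrix.GeneralLinearGroup (Fin m ⊕ Fin m) F), Cfsg.Geo.tensorProductSubgroup n₁ 3 e P ⊓ Cfsg.spGL m F < K ∧ K < Cfsg.spGL m F := by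
  obtain ⟨Γ₁, -, rfl⟩ := As.exists_of_symp hf₁
  obtain ⟨Γ₂, h, rfl⟩ := hf_of_symm hf₂
  obtain ⟨c, c0, hB⟩ := tn_B (σ := RingHom.id F) hT
  have d := Fintype.card_congr e
  simp at d
  exact (nm_tens3 hq (tn_tn e P).flip (i3_symp _) (spForm_nondeg m) c0 h (fun u w u' w' => (hB w u w' u').trans
    (by rw [mul_comm (As.fm _ _ _ _)])) (fun w k => (hf₁.nondegenerate w k).1) (by simp; omega) (by simp; omega)
    fun g k => let ⟨_, b, k⟩ := tn_mem k; ⟨b, _, fun u w => k w u⟩).gl' mem_spGL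

end Cfsg.Agent.S5667
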