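import Cfsg.Statements.S5673
import Cfsg.Agent.H5.As23

set_option autoImplicit false
open Cfsg

namespace Cfsg.Agent.S5673

/-- Subgroup structure of the odd-dimensional orthogonal groups. Let F be a finite field of odd order and m ≥ 3, let Q be the standard quadratic form x₀² + Σ x_i y_i on F^(2m+1), and let Ω be the commutator subgroup of its isometry group, viewed inside GL_(2m+1)(F). Let H be a subgroup of Ω whose product with the scalar matrices in Ω is not all of Ω. Then either H is contained in a member of one of the geometric classes of subgroups of the isometry group (with the conditions built into InOrthogonalOddClass), or H is in the residual class: modulo scalars it is almost simple, and the perfect preimage of its socle acts absolutely irreducibly, is realisable over no proper subfield, and fixes no non-degenerate unitary form. -/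
theorem result {F : Type*} [Field F] [Fintype F] (hodd : Odd (Fintype.card F)) (m : ℕ) (hm : 3 ≤ m) (H : Subgroup (Matrix.GeneralLinearGroup (Unit ⊕ (Fin m ⊕ Fin m)) F)) (hH : H ≤ Cfsg.Geo.omegaGL (Cfsg.quadFormOdd m F)) (hproper : H ⊔ (Cfsg.Geo.scalars (Unit ⊕ (Fin m ⊕ Fin m)) F ⊓ Cfsg.Geo.omegaGL (Cfsg.quadFormOdd m F)) ≠ Cfsg.Geo.omegaGL (Cfsg.quadFormOdd m F)) : (∃ M : Subgroup (Matrix.GeneralLinearGroup (Unit ⊕ (Fin m ⊕ Fin m)) F), Cfsg.Geo.InOrthogonalOddClass m F M ∧ H ≤ M) ∨ Cfsg.Geo.InOrthogonalResidualClass H := by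
  obtain ⟨Γ, hQ, hΓ⟩ := CfsgH5.As.oo_bridge hodd m
  have hc : Fintype.card (Unit ⊕ (Fin m ⊕ Fin m)) = 2 * m + 1 := by simp [two_mul, add_comm]
  have hI := hH.trans (CfsgH5.As.omega_le _)
  have k : ∀ {M}, H ≤ M → H ≤ M ⊓ Cfsg.isometryGroup F (Cfsg.quadFormOdd m F) := fun h => le_inf h hI
  rcases CfsgH5.As.oo_main hQ (by omega) ⟨m, hc⟩ hΓ hI with ⟨W, a, b, c⟩ | ⟨W, a, b, c, d, e⟩ |
    ⟨o, t, D, a, b⟩ | ⟨t, l, D, a, b, c, d⟩ | ⟨r, K, a, b, c, d, e, g⟩ |
    ⟨_, _, e, P, f₁, f₂, a1, a2, a3, a4, a5, a⟩ | ⟨F₀, r, P, a, b, c, d⟩ | ⟨_, t, e, P, f₁, a1, a2, a3, a4, a5, a⟩ | a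
  · exact .inl ⟨_, .inl ⟨W, a, b, rfl⟩, k c⟩
  · refine .inl ⟨_, .inr (.inl ⟨W, a, ?_, c, rfl⟩), k e⟩
    rintro rfl
    rw [finrank_top, Module.finrank_fintype_fun_eq_card, hc] at b
    exact Nat.not_even_two_mul_add_one m b
  · exact .inl ⟨_, .inr (.inr (.inr (.inl ⟨t, D, o, a, rfl⟩))), k b⟩
  · exact .inl ⟨_, .inr (.inr (.inl ⟨t, l, D, a, c, rfl⟩)), k d⟩
  · exact .inl ⟨_, .inr (.inr (.inr (.inr (.inl ⟨r, K, a, hc ▸ c, d, e, rfl⟩)))), k g⟩
  · exact .inl ⟨_, .inr (.inr (.inr (.inr (.inr (.inl ⟨_, _, e, P, f₁, f₂, a1, a2, a3, a4, a5, rfl⟩))))), k a⟩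
  · exact .inl ⟨_, .inr (.inr (.inr (.inr (.inr (.inr (.inl ⟨F₀, r, P, a, b, c, rfl⟩)))))), k d⟩
  · exact .inl ⟨_, .inr (.inr (.inr (.inr (.inr (.inr (.inr ⟨_, t, e, P, f₁, a1, a2,
      fun x => by have := a3 x.2; omega, a4, a5, rfl⟩)))))), k a⟩
  · exact .inr a

end Cfsg.Agent.S5673
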