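import Cfsg.Statements.S5675
import Cfsg.Agent.H5.Mx4

set_option autoImplicit false
open Cfsg

namespace Cfsg.Agent.S5675

open CfsgH5 CfsgH5.CForm CfsgH5.Mx CfsgH5.Au Module

/-- Let F be a finite field of odd order q, m ≥ 6, Q the standard quadratic form on F^(2m+1) and Ω the commutator subgroup of its isometry group. Let W be a non-zero subspace of even dimension on which the polar form of Q is non-degenerate; exclude the case q = 3, dim W = 2 with Q vanishing on some line of W (a plus-type plane). Then the elements of Ω stabilising W (equivalently, stabilising its orthogonal complement, of odd dimension) form a maximal subgroup of Ω. -/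
theorem result {F : Type*} [Field F] [Fintype F] (hodd : Odd (Fintype.card F)) (m : ℕ) (hm : 6 ≤ m) (W : Submodule F (Unit ⊕ (Fin m ⊕ Fin m) → F)) (hW0 : W ≠ ⊥) (hev : Even (Module.finrank F W)) (hW : Cfsg.Geo.IsNondegenerateOn (QuadraticMap.polar (Cfsg.quadFormOdd m F)) W) (hex : ¬ (Fintype.card F = 3 ∧ Module.finrank F W = 2 ∧ Cfsg.Geo.IsPlusTypeOn (Cfsg.quadFormOdd m F) W)) : Cfsg.Geo.IsMaximalIn (Cfsg.Geo.omegaGL (Cfsg.quadFormOdd m F)) (Cfsg.Geo.subspaceStabilizer W ⊓ Cfsg.Geo.omegaGL (Cfsg.quadFormOdd m F)) := by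
  rw [← oddQ_coe] at *
  have hf := oddQ_nondeg (two_ne_of_odd hodd) m
  have h := nd_of_on (ofQuad (oddQ F m)) hW
  have h' := (CForm.res_nondeg_iff _ _).2 h
  have e := hf.finrank_perp W
  have e' : finrank F (Unit ⊕ (Fin m ⊕ Fin m) → F) = 2 * m + 1 := by simp; omega
  obtain ⟨k, hk⟩ := hev
  obtain ⟨l, hl⟩ := hodd
  have := Fintype.one_lt_card (α := F)
  exact (mi_nd (i3_orth _) (adj_orth hf (by omega)) hf (by omega) h hW0
    (by rintro rfl; rw [finrank_top] at hk; omega)
    (irr_orth h' fun c => hex ⟨by omega, c.2.1, isPlus_res_iff.1 c.2.2⟩)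
    (irr_orth (hf.res_perp h') fun c => by omega) fun g _ => ne_perp_of_dim hf (by omega) g).gl
    (mem_omegaGL (Q := oddQ F m) hf (by simp; omega)) fun g _ => mem_subStab

end Cfsg.Agent.S5675
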