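import Cfsg.Statements.S5676
import Cfsg.Agent.H5.Nm1

set_option autoImplicit false
open Cfsg

namespace Cfsg.Agent.S5676

open CfsgH5 CfsgH5.CForm CfsgH5.Mx CfsgH5.Au CfsgH5.Nm Module

/-- Let F be the field with 3 elements, m ≥ 6, Q the standard quadratic form on F^(2m+1) and Ω the commutator subgroup of its isometry group. Let W be a 2-dimensional subspace on which the polar form is non-degenerate and which contains a line on which Q vanishes. Then the elements of Ω stabilising W form a subgroup that is not maximal: some subgroup lies strictly between it and Ω. -/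
theorem result {F : Type*} [Field F] [Fintype F] (hq : Fintype.card F = 3) (m : ℕ) (hm : 6 ≤ m) (W : Submodule F (Unit ⊕ (Fin m ⊕ Fin m) → F)) (hdim : Module.finrank F W = 2) (hW : Cfsg.Geo.IsNondegenerateOn (QuadraticMap.polar (Cfsg.quadFormOdd m F)) W) (hplus : Cfsg.Geo.IsPlusTypeOn (Cfsg.quadFormOdd m F) W) : ∃ K : Subgroup (Matrix.GeneralLinearGroup (Unit ⊕ (Fin m ⊕ Fin m)) F), Cfsg.Geo.subspaceStabilizer W ⊓ Cfsg.Geo.omegaGL (Cfsg.quadFormOdd m F) < K ∧ K < Cfsg.Geo.omegaGL (Cfsg.quadFormOdd m F) := by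
  rw [← oddQ_coe] at *
  have hf := oddQ_nondeg (two_ne_of_odd (F := F) (by simp [hq, Nat.odd_iff])) m
  exact (nm_plane hq.le hf (by simp; omega) (nd_of_on (ofQuad (oddQ F m)) hW) hdim ((isPlus_res_iff (Q := oddQ F m)).2 hplus)).gl
    (mem_omegaGL (Q := oddQ F m) hf (by simp; omega)) fun g _ => mem_subStab

end Cfsg.Agent.S5676
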