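import Cfsg.Statements.S5682
import Cfsg.Agent.H5.Nm3

set_option autoImplicit false
open Cfsg

namespace Cfsg.Agent.S5682

open CfsgH5 CfsgH5.CForm CfsgH5.Mx CfsgH5.Au CfsgH5.Nm Module Matrix

/-- Let F be the field with 3 elements, m ≥ 6, Q the standard quadratic form on F^(2m+1) and Ω the commutator subgroup of its isometry group. Suppose the polar form of Q is similar, through P and e, to the tensor product of non-degenerate symmetric bilinear forms f₁ on F^3 and f₂ on F^(n₂) with 3 < n₂. Then the elements of Ω in the stabiliser of this tensor decomposition form a subgroup that is not maximal: some subgroup lies strictly between it and Ω. -/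
theorem result {F : Type*} [Field F] [Fintype F] (hq : Fintype.card F = 3) (m : ℕ) (hm : 6 ≤ m) (n₂ : ℕ) (h2 : 3 < n₂) (e : (Unit ⊕ (Fin m ⊕ Fin m)) ≃ Fin 3 × Fin n₂) (P : Matrix.GeneralLinearGroup (Unit ⊕ (Fin m ⊕ Fin m)) F) (f₁ : (Fin 3 → F) → (Fin 3 → F) → F) (f₂ : (Fin n₂ → F) → (Fin n₂ → F) → F) (hf₁ : Cfsg.Geo.IsSymmetricForm f₁) (hf₂ : Cfsg.Geo.IsSymmetricForm f₂) (hT : Cfsg.Geo.IsTensorFormStructure id (QuadraticMap.polar (Cfsg.quadFormOdd m F)) f₁ f₂ e P) : ∃ K : Subgroup (Matrix.GeneralLinearGroup (Unit ⊕ (Fin m ⊕ Fin m)) F), Cfsg.Geo.tensorProductSubgroup 3 n₂ e P ⊓ Cfsg.Geo.omegaGL (Cfsg.quadFormOdd m F) < K ∧ K < Cfsg.Geo.omegaGL (Cfsg.quadFormOdd m F) := by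
  rw [← oddQ_coe] at *
  have hf := oddQ_nondeg (two_ne_of_odd (F := F) (by simp [hq, Nat.odd_iff])) m
  obtain ⟨Γ₁, h, rfl⟩ := hf_of_symm hf₁
  obtain ⟨Γ₂, -, rfl⟩ := hf_of_symm hf₂
  obtain ⟨c, c0, hB⟩ := tn_B (σ := RingHom.id F) hT
  have d := Fintype.card_congr e
  simp at d
  exact (nm_tens3 hq (tn_tn e P) (i3_orth _) hf c0 h hB (fun w k => (hf₂.nondegenerate w k).1) (by simp; omega)
    (by simp; omega) fun g k => let ⟨a, _, k⟩ := tn_mem k; ⟨a, _, k⟩).gl' (mem_omegaGL (Q := oddQ F m) hf (by simp; omega))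

end Cfsg.Agent.S5682
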