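import Cfsg.Statements.S5689
import Cfsg.Agent.H5.Mx4

set_option autoImplicit false
open Cfsg

namespace Cfsg.Agent.S5689

open CfsgH5 CfsgH5.CForm CfsgH5.Mx CfsgH5.Au Module

/-- Let F be a finite field with q elements, n ≥ 13 even, Q a non-degenerate quadratic form on F^n of minus type (no subspace of dimension n/2 is totally singular), and Ω the commutator subgroup of the isometry group of Q, viewed inside GL_n(F). Let W be a non-zero proper subspace on which the polar form of Q is non-degenerate, not of odd dimension n/2. Exclude the case q ≤ 3 in which W, or its orthogonal complement, is a plane containing a line on which Q vanishes. Then the elements of Ω stabilising W form a maximal subgroup of Ω. -/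
theorem result {F : Type*} [Field F] [Fintype F] {n : ℕ} (hn : 13 ≤ n) (heven : Even n) (Q : (Fin n → F) → F) (hQ : Cfsg.Geo.IsNondegenerateQuadraticForm Q) (hminus : ¬ Cfsg.Geo.IsPlusTypeOn Q ⊤) (W : Submodule F (Fin n → F)) (hW0 : W ≠ ⊥) (hW1 : W ≠ ⊤) (hdim : ¬ (2 * Module.finrank F W = n ∧ Odd (Module.finrank F W))) (hW : Cfsg.Geo.IsNondegenerateOn (QuadraticMap.polar Q) W) (hex : ¬ (Fintype.card F ≤ 3 ∧ (∃ U : Submodule F (Fin n → F), Module.finrank F U = 2 ∧ Cfsg.Geo.IsNondegenerateOn (QuadraticMap.polar Q) U ∧ Cfsg.Geo.IsPlusTypeOn Q U ∧ (U = W ∨ (Cfsg.Geo.AreOrthogonalFor (QuadraticMap.polar Q) U W ∧ Module.finrank F U + Module.finrank F W = n))))) : Cfsg.Geo.IsMaximalIn (Cfsg.Geo.omegaGL Q) (Cfsg.Geo.subspaceStabilizer W ⊓ Cfsg.Geo.omegaGL Q) := by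
  obtain ⟨Q, rfl, hf⟩ := exists_quad hQ
  have h := nd_of_on (ofQuad Q) hW
  have h' := (CForm.res_nondeg_iff _ _).2 h
  have e := hf.finrank_perp W
  have e' : finrank F (Fin n → F) = n := by simp
  exact (mi_nd (i3_orth _) (adj_orth hf (by omega)) hf (by omega) h hW0 hW1
    (irr_orth h' fun c => hex ⟨c.1, W, c.2.1, hW, isPlus_res_iff.1 c.2.2, .inl rfl⟩)
    (irr_orth (hf.res_perp h') fun c => hex ⟨c.1, _, c.2.1, on_of_nd (ofQuad Q)
      ((CForm.res_nondeg_iff _ _).1 (hf.res_perp h')), isPlus_res_iff.1 c.2.2, .inr ⟨fun u hu => hu, by omega⟩⟩)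
    (fun g hg k => by
      have := LinearEquiv.finrank_map_eq g W
      rw [k] at this
      exact hminus (isPlus_iff.1 (isPlus_of_map hf h (Nat.not_odd_iff_even.1 fun c => hdim ⟨by omega, c⟩) hg k)))).gl (mem_omegaGL hf (by simp; omega)) fun g _ => mem_subStab

end Cfsg.Agent.S5689
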