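import Cfsg.Statements.S5699
import Cfsg.Agent.H5.Mx4

set_option autoImplicit false
open Cfsg

namespace Cfsg.Agent.S5699

open CfsgH5 CfsgH5.CForm CfsgH5.Mx CfsgH5.Au Module

/-- Let F be a finite field with q elements, n ≥ 13 even, Q a non-degenerate quadratic form on F^n (of either type), and Ω the commutator subgroup of the isometry group of Q, viewed inside GL_n(F). Let D be a decomposition of F^n into two orthogonal subspaces of odd dimension n/2 on which the polar form is non-degenerate and which are not Q-isometric to each other. Then the elements of Ω permuting (necessarily fixing) the two subspaces form a maximal subgroup of Ω. -/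
theorem result {F : Type*} [Field F] [Fintype F] {n : ℕ} (hn : 13 ≤ n) (heven : Even n) (Q : (Fin n → F) → F) (hQ : Cfsg.Geo.IsNondegenerateQuadraticForm Q) (k : ℕ) (hk : 2 * k = n) (hko : Odd k) (D : Fin 2 → Submodule F (Fin n → F)) (hD : Cfsg.Geo.IsNondegenerateMDecomposition (QuadraticMap.polar Q) k D) (hni : ¬ Cfsg.Geo.AreIsometricFor Q (D 0) (D 1)) : Cfsg.Geo.IsMaximalIn (Cfsg.Geo.omegaGL Q) (Cfsg.Geo.decompositionStabilizer D ⊓ Cfsg.Geo.omegaGL Q) := by
  obtain ⟨Q, rfl, hf⟩ := exists_quad hQ
  have h := nd_of_on (ofQuad Q) (hD.nondegenerate 0)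
  have h' := (CForm.res_nondeg_iff _ _).2 h
  have e := hf.finrank_perp (D 0)
  have e' : finrank F (Fin n → F) = n := by simp
  have e0 := hD.decomp.finrank_eq 0
  have e1 := hD.decomp.finrank_eq 1
  obtain ⟨l, hl⟩ := hko
  have hp : (ofQuad Q).perp (D 0) = D 1 :=
    (Submodule.eq_of_le_of_finrank_eq (show D 1 ≤ (ofQuad Q).perp (D 0) from
      fun u hu => hD.orthogonal 1 0 (by decide) u hu) (by omega)).symm
  have hm : ∀ g ∈ (ofQuad Q).Isom, (D 0).map g.toLinearMap ≠ D 1 := fun g hg e =>
    hni ⟨(g.submoduleMap (D 0)).trans (LinearEquiv.ofEq _ _ e), fun w => (ofQuad Q).Isom_Q hg w⟩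
  refine ((mi_nd (i3_orth _) (adj_orth hf (by omega)) hf (by omega) h
    (fun c => by rw [c, finrank_bot] at e0; omega) (fun c => by rw [c, finrank_top] at e0; omega)
    (irr_orth h' fun c => by omega) (irr_orth (hf.res_perp h') fun c => by omega) (hp ▸ hm)).congr
    (H' := dS D) fun g hg => ?_).gl (mem_omegaGL hf (by simp; omega)) fun g _ => mem_decStab
  rw [mem_dS_two, mem_stabS_iff_map]
  refine ⟨fun c => .inl ⟨c, by rw [← hp, map_perp (E_le_Isom hg), c]⟩, ?_⟩
  rintro (c | c)
  · exact c.1
  · exact (hm g (E_le_Isom hg) c.1).elim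

end Cfsg.Agent.S5699
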