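import Cfsg.Statements.S5705
import Cfsg.Agent.H5.Nm3

set_option autoImplicit false
open Cfsg

namespace Cfsg.Agent.S5705

open CfsgH5 CfsgH5.CForm CfsgH5.Mx CfsgH5.Au CfsgH5.Nm Module Matrix

/-- Let F be the field with 2 elements, n = 2 n₂ ≥ 13 even, Q a non-degenerate quadratic form on F^n of plus type and Ω the commutator subgroup of its isometry group. Suppose that, through P and e, the polar form of Q is similar to the tensor product of non-degenerate symplectic forms f₁ on F^2 and f₂ on F^(n₂), and Q vanishes on the images of all pure tensors. Then the elements of Ω in the stabiliser of this tensor decomposition form a subgroup that is not maximal: some subgroup lies strictly between it and Ω. -/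
theorem result {F : Type*} [Field F] [Fintype F] {n : ℕ} (hn : 13 ≤ n) (heven : Even n) (Q : (Fin n → F) → F) (hQ : Cfsg.Geo.IsNondegenerateQuadraticForm Q) (hplus : Cfsg.Geo.IsPlusTypeOn Q ⊤) (hq : Fintype.card F = 2) (n₂ : ℕ) (h2 : 2 < n₂) (e : (Fin n) ≃ Fin 2 × Fin n₂) (P : Matrix.GeneralLinearGroup (Fin n) F) (f₁ : (Fin 2 → F) → (Fin 2 → F) → F) (f₂ : (Fin n₂ → F) → (Fin n₂ → F) → F) (hf₁ : Cfsg.Geo.IsSymplecticForm f₁) (hf₂ : Cfsg.Geo.IsSymplecticForm f₂) (hT : Cfsg.Geo.IsTensorFormStructure id (QuadraticMap.polar Q) f₁ f₂ e P) (hpure : (∀ (x₁ : Fin 2 → F) (x₂ : Fin n₂ → F), Q (Matrix.mulVec (P : Matrix (Fin n) (Fin n) F) ((fun a : Fin 2 × Fin n₂ => x₁ a.1 * x₂ a.2) ∘ e)) = 0)) : ∃ K : Subgroup (Matrix.GeneralLinearGroup (Fin n) F), Cfsg.Geo.tensorProductSubgroup 2 n₂ e P ⊓ Cfsg.Geo.omegaGL Q < K ∧ K < Cfsg.Geo.omegaGL Q := by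
  obtain ⟨Q, rfl, hf⟩ := exists_quad hQ
  obtain ⟨Γ₁, -, rfl⟩ := As.exists_of_symp hf₁
  obtain ⟨Γ₂, -, rfl⟩ := As.exists_of_symp hf₂
  obtain ⟨c, c0, hB⟩ := tn_B (σ := RingHom.id F) hT
  have d := Fintype.card_congr e
  simp at d
  have T := tn_tn e P
  have hj := fun u w => (tn_app e P (J3 F) 1 u w).trans (by rw [Units.val_one, one_mulVec])
  set j := gl (As.tpG e P (As.kronG _ _ F (J3 F, 1)))
  have c2 : (2 : F) = 0 := not_not.1 (As.two_ne_zero_iff.not.2 (by simp [hq]))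
  replace hB : ∀ u w u' w', (ofQuad Q).B (tn e P u w) (tn e P u' w') = (u 0 * u' 1 + u 1 * u' 0) *
      (As.altC _ hf₂.alternating).B w w' := fun u w u' w' => (hB u w u' w').trans (by
    have a := hf₁.alternating ![1, 0]
    have b := hf₁.alternating ![0, 1]
    have d := hf₁.alternating ![1, 1]
    have := Γ₁.det_ne_zero
    have := As.eq_zero_or_one hq c
    have := As.eq_zero_or_one hq (Γ₁.1 0 1)
    rw [As.altC_B]
    simp [As.fm_eq_sum, det_fin_two] at *
    grind)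
  set f₂ := As.altC _ hf₂.alternating
  have n₂ : f₂.Nondeg := As.altC_nondeg _ _
  obtain ⟨w₁, -, w0⟩ := exists_not_mem (W := (⊤ : Submodule F (Fin _ → F))) (U := ⊥) (by simpa using h2.trans' two_pos)
  refine (nm_field hq T hj (G := (ofQuad Q).E) (fun g k => let ⟨a, _, k⟩ := tn_mem k; ⟨a, _, k⟩) ?_ ?_).gl'
    (mem_omegaGL hf (by simp; omega))
  · let v := tn e P ![1, 0] w₁
    have := fr_line (F ∙ v) (j v)
    have := finrank_span_le_card (R := F) ({v} : Set (Fin n → F))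
    obtain ⟨x, -, hx, x1, x2⟩ := (i3_orth (ofQuad Q)).sing hf ⊤ ((F ∙ v) ⊔ F ∙ j v) ((F ∙ v) ⊔ F ∙ j v) (by simp at *; omega)
    obtain ⟨a, b, k⟩ := hf.exists_dual (W := (F ∙ v) ⊔ F ∙ x) (x := j v) fun k => hx (exchange (fun k => by
      obtain ⟨l, k⟩ := Submodule.mem_span_singleton.1 k
      simpa using J3_ne hq (l := l) (T.r.inj w0 ((hj _ _).symm.trans (k.symm.trans (by simp [v, -smul_cons]))))) k)
    rw [perp_sup_line, perp_line] at k x2
    obtain ⟨g, c, hg⟩ := exists_eich' x1 (B_zero_symm _ k.2)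
    refine ⟨g, hg.mem_E, v, hg.fix x2.1 k.1, fun k => hx ?_⟩
    rwa [hg.app_perp x2.2, b, one_smul, Submodule.span_insert, Submodule.add_mem_iff_right _
      (Submodule.mem_sup_right (Submodule.mem_span_singleton_self _))] at k
  have := fr_perp n₂ ⊤ (F ∙ w₁)
  have r := finrank_span_singleton (K := F) w0
  obtain ⟨w₂, a, b⟩ := exists_not_mem (W := ⊤ ⊓ f₂.perp (F ∙ w₁)) (U := F ∙ w₁) (by simp at *; omega)
  have w2 : w₂ ≠ 0 := by rintro rfl; simp at b
  obtain ⟨w₃, x, y⟩ := n₂.exists_dual (W := F ∙ w₂) (x := w₁) fun k => b (line_symm w0 k)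
  replace a := mem_perp_single.1 a.2
  replace y := f₂.B_zero_symm (perp_line.1 y)
  replace x := f₂.B_one_symm x
  have a' := f₂.B_zero_symm a
  have q : ∀ u w, Q (tn e P u w) = 0 := hpure
  obtain ⟨g, hg⟩ := exists_eich (f := ofQuad Q) (x := tn e P ![1, 0] w₁ + tn e P ![0, 1] w₂)
    (a := tn e P ![0, 1] w₁ + tn e P ![1, 1] w₂) (c := 0) (by rw [Q_add, hB]; simp [ofQuad, q, a'])
    (by simp [hB, a, a', symp_B_self]) (by rw [Q_add, hB]; simp [ofQuad, q, a'])
  have n : (-1 : F) = 1 := by linear_combination -c2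
  have J : ∀ u, (J3 F).1 *ᵥ u = ![u 1, u 0 + u 1] := fun u => by
    ext i; fin_cases i <;> simp [J3, vecHead, vecTail, n]
  refine ⟨g, hg.mem_E, LinearEquiv.toLinearMap_injective (T.ext fun u w => ?_), ![1, 0], w₁, w₂, w₃, w₃ + w₁, by simp, w0, w2,
    fun u => hg.fix (by simp [hB, a', symp_B_self]) (by simp [hB, a', symp_B_self]), ?_⟩
  · have t : ∀ w, tn e P ![1, 1] w = tn e P ![1, 0] w + tn e P ![0, 1] w := fun w => by
      rw [← LinearMap.add_apply, ← map_add]; simp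
    simp only [LinearEquiv.coe_coe, LinearEquiv.mul_apply, hg.app, map_add, map_sub, map_smul, hj, J, B_add_right, hB]
    simp [t, one_add_one_eq_two, c2]
    generalize tn e P ![u 1, u 0 + u 1] w = X, tn e P ![1, 0] w₁ = A, tn e P ![0, 1] w₁ = B, tn e P ![1, 0] w₂ = C,
      tn e P ![0, 1] w₂ = D
    ext i
    simp
    grind
  · simp [hg.app, hB, x, y, J, n, add_assoc]

end Cfsg.Agent.S5705
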