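import Cfsg.Statements.S5775
import Cfsg.Agent.H5.As12

set_option autoImplicit false
open Cfsg

namespace Cfsg.Agent.S5775

/-- Every maximal subgroup of SL_3(q) is of one of the listed geometric types or lies in the residual class. Let F be a finite field with q elements and H a maximal subgroup of SL_3(F) (viewed inside GL_3(F)). Then H is the intersection with SL_3(F) of one of: the stabiliser of a proper non-zero subspace; for q ≥ 5, the stabiliser of a decomposition of F^3 into three independent lines; for q ≠ 4, the normaliser of a degree-3 subfield of the matrix algebra; a subfield group for a subfield F₀ with |F| = |F₀|^r, r prime; for q = p ≡ 1 mod 3 prime, the normaliser of an absolutely irreducible 3-subgroup R of exponent 3 with centre of order 3, all of whose characteristic abelian subgroups are cyclic, of order 3^(1+2m) for some m ≥ 1, with F the smallest field of characteristic p containing the cube roots of unity (so R is extraspecial of order 27); for q odd, the similarity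 group of a non-degenerate quadratic form; the similarity group of a non-degenerate unitary form — or else H lies in the residual class of the linear case (modulo scalars H is almost simple, with absolutely irreducible perfect socle preimage realisable over no proper subfield and fixing no non-degenerate quadratic, symplectic or unitary form). -/
theorem result {F : Type*} [Field F] [Fintype F] (H : Subgroup (Matrix.GeneralLinearGroup (Fin 3) F)) (hH : Cfsg.Geo.IsMaximalIn (Cfsg.Geo.specialLinear (Fin 3) F) H) :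
    (∃ W : Submodule F (Fin 3 → F), W ≠ ⊥ ∧ W ≠ ⊤ ∧ H = Cfsg.Geo.subspaceStabilizer W ⊓ Cfsg.Geo.specialLinear (Fin 3) F) ∨
    (5 ≤ Fintype.card F ∧ ∃ D : Fin 3 → Submodule F (Fin 3 → F), Cfsg.Geo.IsMDecomposition 1 D ∧ H = Cfsg.Geo.decompositionStabilizer D ⊓ Cfsg.Geo.specialLinear (Fin 3) F) ∨
    (Fintype.card F ≠ 4 ∧ ∃ K : Subalgebra F (Matrix (Fin 3) (Fin 3) F), Cfsg.Geo.IsFieldSubalgebra 3 K ∧ H = Cfsg.Geo.subalgebraNormalizer K ⊓ Cfsg.Geo.specialLinear (Fin 3) F) ∨
    (∃ (F₀ : Subfield F) (r : ℕ) (P : Matrix.GeneralLinearGroup (Fin 3) F), r.Prime ∧ Fintype.card F = Nat.card F₀ ^ r ∧ H = Cfsg.Geo.subfieldSubgroup F₀ P ⊓ Cfsg.Geo.specialLinear (Fin 3) F) ∨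
    (∃ (p : ℕ) (R : Subgroup (Matrix.GeneralLinearGroup (Fin 3) F)), p.Prime ∧ Fintype.card F = p ∧ p % 3 = 1 ∧ Cfsg.Geo.IsLinearSymplecticTypeData 3 R ∧ H = Cfsg.Geo.subgroupNormalizer R ⊓ Cfsg.Geo.specialLinear (Fin 3) F) ∨
    (Odd (Fintype.card F) ∧ ∃ Q : (Fin 3 → F) → F, Cfsg.Geo.IsNondegenerateQuadraticForm Q ∧ H = Cfsg.Geo.quadSimilarityGroup Q ⊓ Cfsg.Geo.specialLinear (Fin 3) F) ∨
    (∃ (σ : F ≃+* F) (f : (Fin 3 → F) → (Fin 3 → F) → F), Cfsg.Geo.IsUnitaryForm σ f ∧ H = Cfsg.Geo.similarityGroup f ⊓ Cfsg.Geo.specialLinear (Fin 3) F) ∨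
    Cfsg.Geo.InLinearResidualClass H := by
  rcases CfsgH5.As.sl_max (by decide) hH with h | ⟨t, m, D, h1, h2, h3, h4, h5⟩ | ⟨r, K, h1, h2, h3, h4, h5⟩ |
    ⟨k, l, e, P, h1, h2, h3, h4, h5⟩ | h | ⟨r, R, h1, h2⟩ | ⟨k, t, e, P, h1, h2, h3, h4⟩ | h | h | h | h
  · exact .inl (h)
  · obtain ⟨rfl, rfl⟩ : (m = 1 ∧ t = 3) := by
      have := h1.two_le
      have : m ≤ 3 := Nat.le_of_dvd (by decide) ⟨t, h2.symm⟩
      interval_cases m <;> omega
    · exact .inr (.inl ⟨(h3 rfl).1, D, h1, h5⟩)
  · obtain rfl : r = 3 := by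
      have : r ≤ 3 := Nat.le_of_dvd (by decide) h2
      interval_cases r <;> first | omega | exact absurd h1 (by decide)
    · exact .inr (.inr (.inl ⟨h3 rfl, K, h4, h5⟩))
  · have : k ≤ 3 := Nat.le_of_dvd (by decide) ⟨l, h3.symm⟩
    interval_cases k <;> omega
  · exact .inr (.inr (.inr (.inl (h))))
  · obtain ⟨⟨m, hm⟩, p, e, a, b, c, d⟩ := CfsgH5.As.data_cases (by simp) h1
    rw [Fintype.card_fin] at hm
    have hr := h1.symplecticType.prime
    obtain rfl : r = 3 := by
      have h := hm ▸ dvd_pow_self r (n := m) (by rintro rfl; simp at hm)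
      have : r ≤ 3 := Nat.le_of_dvd (by decide) h
      interval_cases r <;> first | omega | exact absurd hr (by decide)
    obtain ⟨-, d1, d2, d3, d4⟩ := d.resolve_right fun d => absurd d.1 (by decide)
    have d : e = 1 ∧ p % 3 = 1 := by
      have := Nat.mod_lt p (by decide : 0 < 3)
      generalize p % 3 = s at *
      replace d4 : ∀ d < e, 0 < d → s ^ d % 3 ≠ 1 := fun d a b => d4 d b a
      revert d1 d3 d4
      interval_cases e <;> interval_cases s <;> decide
    exact .inr (.inr (.inr (.inr (.inl ⟨p, R, a, by rw [c, d.1, pow_one], d.2, h1, h2⟩))))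
  · have h5 : k ^ 2 ≤ 3 := h3 ▸ Nat.pow_le_pow_right (by omega) h2
    have h6 : 3 ^ t ≤ 3 := h3 ▸ Nat.pow_le_pow_left h1 t
    obtain rfl : t = 2 := by
      by_contra h
      have := Nat.pow_le_pow_right (by decide : 0 < 3) (show 3 ≤ t by omega)
      omega
    obtain rfl : k = 3 := by nlinarith
    omega
  · exact .inr (.inr (.inr (.inr (.inr (.inl (h))))))
  · exact absurd h.1 (by decide)
  · exact .inr (.inr (.inr (.inr (.inr (.inr (.inl (h)))))))
  · exact .inr (.inr (.inr (.inr (.inr (.inr (.inr (h)))))))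

end Cfsg.Agent.S5775
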