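import Cfsg.Statements.S5787
import Cfsg.Agent.H5.As21
import Cfsg.Agent.H1.Sp43b
-- import your own Cfsg.Agent.* helpers here

set_option autoImplicit false
open Cfsg

namespace Cfsg.Agent.S5787

/-- Every maximal subgroup of Sp_4(q), q odd, is of one of the listed geometric types or lies in the residual class. Let F be a finite field of odd order q, f the standard alternating form on F^4 (coordinates Fin 2 ⊕ Fin 2), and H a maximal subgroup of the isometry group Sp_4(F) (inside GL_4(F)). Then H is the intersection with Sp_4(F) of one of: the stabiliser of a non-zero totally isotropic subspace; the stabiliser of a decomposition into two orthogonal non-degenerate 2-spaces; for q ≥ 5, of a decomposition into two totally isotropic 2-spaces; the normaliser of a degree-2 subfield K of the matrix algebra, self-adjoint with f(k v, v) = 0; for q ≥ 5, the normaliser of a degree-2 subfield closed under adjoints but not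 self-adjoint; a subfield group whose F₀-structure carries a non-zero multiple of f, |F| = |F₀|^r with r prime; for q = p prime, the normaliser of an absolutely irreducible symplectic-type 2-group of exponent 4, order 32, centre of order 2 and minus type inside the similarity group of f — or else H lies in the residual class of the symplectic case. -/
theorem result {F : Type*} [Field F] [Fintype F] (hodd : Odd (Fintype.card F)) (H : Subgroup (Matrix.GeneralLinearGroup (Fin 2 ⊕ Fin 2) F)) (hH : Cfsg.Geo.IsMaximalIn (Cfsg.spGL 2 F) H) :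
    (∃ W : Submodule F (Fin 2 ⊕ Fin 2 → F), W ≠ ⊥ ∧ Cfsg.Geo.IsTotallySingularFor (Cfsg.sympForm 2 F) W ∧ H = Cfsg.Geo.subspaceStabilizer W ⊓ Cfsg.spGL 2 F) ∨
    (∃ D : Fin 2 → Submodule F (Fin 2 ⊕ Fin 2 → F), Cfsg.Geo.IsNondegenerateMDecomposition (Cfsg.sympForm 2 F) 2 D ∧ H = Cfsg.Geo.decompositionStabilizer D ⊓ Cfsg.spGL 2 F) ∨
    (5 ≤ Fintype.card F ∧ ∃ D : Fin 2 → Submodule F (Fin 2 ⊕ Fin 2 → F), Cfsg.Geo.IsMDecomposition 2 D ∧ (∀ i, Cfsg.Geo.IsTotallySingularFor (Cfsg.sympForm 2 F) (D i)) ∧ H = Cfsg.Geo.decompositionStabilizer D ⊓ Cfsg.spGL 2 F) ∨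
    (∃ K : Subalgebra F (Matrix (Fin 2 ⊕ Fin 2) (Fin 2 ⊕ Fin 2) F), Cfsg.Geo.IsFieldSubalgebra 2 K ∧ Cfsg.Geo.IsSelfAdjointFor (Cfsg.sympForm 2 F) K ∧ (∀ k ∈ K, ∀ v : (Fin 2 ⊕ Fin 2 → F), (Cfsg.sympForm 2 F) (Matrix.mulVec k v) v = 0) ∧ H = Cfsg.Geo.subalgebraNormalizer K ⊓ Cfsg.spGL 2 F) ∨
    (5 ≤ Fintype.card F ∧ ∃ K : Subalgebra F (Matrix (Fin 2 ⊕ Fin 2) (Fin 2 ⊕ Fin 2) F), Cfsg.Geo.IsFieldSubalgebra 2 K ∧ Cfsg.Geo.IsAdjointClosedFor (Cfsg.sympForm 2 F) K ∧ ¬ Cfsg.Geo.IsSelfAdjointFor (Cfsg.sympForm 2 F) K ∧ H = Cfsg.Geo.subalgebraNormalizer K ⊓ Cfsg.spGL 2 F) ∨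
    (∃ (F₀ : Subfield F) (r : ℕ) (P : Matrix.GeneralLinearGroup (Fin 2 ⊕ Fin 2) F) (ζ : F), r.Prime ∧ Fintype.card F = Nat.card F₀ ^ r ∧ ζ ≠ 0 ∧ Cfsg.Geo.IsFormRationalStructure (Cfsg.sympForm 2 F) F₀ ζ P ∧ H = Cfsg.Geo.subfieldSubgroup F₀ P ⊓ Cfsg.spGL 2 F) ∨
    (∃ (p : ℕ) (R : Subgroup (Matrix.GeneralLinearGroup (Fin 2 ⊕ Fin 2) F)), p.Prime ∧ Fintype.card F = p ∧ Cfsg.Geo.IsSymplecticTypeGroup 2 R ∧ Cfsg.Geo.ActsAbsolutelyIrreducibly (Cfsg.Geo.matrixSet R) ∧ R ≤ Cfsg.Geo.similarityGroup (Cfsg.sympForm 2 F) ∧ Nat.card R = 32 ∧ Nat.card (Subgroup.center R) = 2 ∧ Cfsg.Geo.IsOfMinusType 2 R ∧ H = Cfsg.Geo.subgroupNormalizer R ⊓ Cfsg.spGL 2 F) ∨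
    Cfsg.Geo.InSymplecticResidualClass H := by
  obtain ⟨Γ, h, ha, e1, e2⟩ := CfsgH5.As.sp_bridge 2 F
  have hc : Fintype.card (Fin 2 ⊕ Fin 2) = 4 := by simp
  have h2 : Fintype.card F ≠ 2 := fun h => by rw [h] at hodd; exact absurd hodd (by decide)
  have h5 : 5 ≤ Fintype.card F ∨ Nonempty (ZMod 3 ≃+* F) := by
    by_cases h3 : Fintype.card F = 3
    · exact .inr ⟨ZMod.ringEquivOfPrime F Nat.prime_three h3⟩
    · left
      have := Fintype.one_lt_card (α := F)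
      obtain ⟨s, hs⟩ := hodd
      omega
  have := CfsgH5.As.sp_max h ha (by omega) (fun _ => h2) (e2 ▸ hH)
  rw [← e2, ← e1] at this
  rcases this with h | ⟨W, a, b, c, d⟩ | ⟨t, l, D, a, b, c, d⟩ |
    ⟨o, l, D, a, b, c, d⟩ | ⟨r, K, a, b, c⟩ | ⟨o, K, a, b, c, d⟩ |
    ⟨o, l, l', e, P, f₁, f₂, a1, a2, a3, a4, a⟩ | h |
    ⟨o, o', T, l, a1, a2, a3, a4, a5, a6, a7, a⟩ | ⟨o, l, t, e, P, f₁, a1, a2, a3, a4, a5, a6, a⟩ | h | h
  · exact .inl (h)
  · have := CfsgH5.As.even_of_nondeg ha (e1 ▸ b)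
    have := Submodule.finrank_eq_zero.not.2 a
    obtain ⟨s, hs⟩ := ‹Even _›
    omega
  · have h2 := (CfsgH5.As.IsMDecomposition.card a.decomp).trans hc
    obtain ⟨rfl, rfl⟩ : (l = 2 ∧ t = 2) := by
      have := a.decomp.two_le
      have : l ≤ 4 := Nat.le_of_dvd (by decide) ⟨t, h2.symm⟩
      obtain ⟨s, hs⟩ := b
      interval_cases l <;> omega
    · exact .inr (.inl ⟨D, a, d⟩)
  · obtain rfl : l = 2 := by omega
    rcases h5 with h5 | ⟨⟨e⟩⟩
    · exact .inr (.inr (.inl ⟨h5, D, b, c, d⟩))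
    · exact (CfsgH1.Sp43.caseA e D b c H hH (d ▸ inf_le_left)).elim
  · obtain rfl : r = 2 := by
      rw [hc] at b
      have : 2 * r ≤ 4 := Nat.le_of_dvd (by decide) b
      have : r ≤ 2 := by omega
      interval_cases r <;> first | omega | exact absurd a (by decide)
    · exact .inr (.inr (.inr (.inl ⟨K, c⟩)))
  · rcases h5 with h5 | ⟨⟨e⟩⟩
    · exact .inr (.inr (.inr (.inr (.inl ⟨h5, K, a, b, c, d⟩))))
    · exact (CfsgH1.Sp43.caseB e K a b c H hH (d ▸ inf_le_left)).elim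
  · have h2 : l * l' = 4 := by simpa using (Fintype.card_congr e).symm
    nlinarith
  · exact .inr (.inr (.inr (.inr (.inr (.inl h)))))
  · obtain rfl : l = 2 := by
      rw [hc] at a4
      exact (Nat.pow_right_injective le_rfl (show 2 ^ 2 = 2 ^ l from a4)).symm
    refine .inr (.inr (.inr (.inr (.inr (.inr (.inl ⟨_, T, o', rfl, a1, a2, ?_, a5, a6, a7, a⟩))))))
    intro g hg
    exact ⟨1, fun u v => by rw [Units.val_one, one_mul]; exact a3 hg u v⟩
  · have h2 : l ^ t = 4 := by simpa using (Fintype.card_congr e).symm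
    have : 2 ^ 3 ≤ l ^ t := (Nat.pow_le_pow_left a1 3).trans (Nat.pow_le_pow_right (by omega) a3)
    omega
  · exact absurd hodd h.1
  · exact .inr (.inr (.inr (.inr (.inr (.inr (.inr h))))))

end Cfsg.Agent.S5787
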