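import Cfsg.Statements.S5811
import Cfsg.Agent.H5.As22

set_option autoImplicit false
open Cfsg

namespace Cfsg.Agent.S5811

/-- Every maximal subgroup of SU_7(q) is of one of the listed geometric types or lies in the residual class. Let F be the field with q² elements (characteristic p), f the standard unitary form Σ u_i v_i^q on F^7, and H a maximal subgroup of SU_7(q) (inside GL_7(F)). Then H is the intersection with SU_7(q) of one of: the stabiliser of a non-zero totally isotropic subspace; the stabiliser of a non-degenerate 1-, 2- or 3-space; the stabiliser of a decomposition into seven mutually orthogonal non-degenerate 1-spaces; the normaliser of an adjoint-closed degree-7 subfield of the matrix algebra; a subfield group of odd prime index whose F₀-structure carries f; for q odd, a subfield group of index 2 whose F₀-structure carries f; for q = p prime with p ≡ 6 mod 7, or q = p³ with p ≡ 3 or 5 mod 7, the normaliser of an absolutely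 irreducible 7-group R of exponent 7, order 343 and centre of order 7, all of whose characteristic abelian subgroups are cyclic, contained in the similarity group of f — or else H lies in the residual class of the unitary case (modulo scalars H is almost simple, with absolutely irreducible perfect socle preimage realisable over no proper subfield and fixing no non-degenerate quadratic or symplectic form). -/
theorem result {F : Type*} [Field F] [Fintype F] (q : ℕ) (hF : Fintype.card F = q ^ 2) (H : Subgroup (Matrix.GeneralLinearGroup (Fin 7) F)) (hH : Cfsg.Geo.IsMaximalIn (Cfsg.GU 7 F q ⊓ Cfsg.Geo.specialLinear (Fin 7) F) H) :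
    (∃ W : Submodule F (Fin 7 → F), W ≠ ⊥ ∧ Cfsg.Geo.IsTotallySingularFor (Cfsg.hermForm 7 F q) W ∧ H = Cfsg.Geo.subspaceStabilizer W ⊓ (Cfsg.GU 7 F q ⊓ Cfsg.Geo.specialLinear (Fin 7) F)) ∨
    (∃ W : Submodule F (Fin 7 → F), W ≠ ⊥ ∧ Cfsg.Geo.IsNondegenerateOn (Cfsg.hermForm 7 F q) W ∧ 2 * Module.finrank F W < 7 ∧ H = Cfsg.Geo.subspaceStabilizer W ⊓ (Cfsg.GU 7 F q ⊓ Cfsg.Geo.specialLinear (Fin 7) F)) ∨
    (∃ D : Fin 7 → Submodule F (Fin 7 → F), Cfsg.Geo.IsNondegenerateMDecomposition (Cfsg.hermForm 7 F q) 1 D ∧ H = Cfsg.Geo.decompositionStabilizer D ⊓ (Cfsg.GU 7 F q ⊓ Cfsg.Geo.specialLinear (Fin 7) F)) ∨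
    (∃ K : Subalgebra F (Matrix (Fin 7) (Fin 7) F), Cfsg.Geo.IsFieldSubalgebra 7 K ∧ Cfsg.Geo.IsAdjointClosedFor (Cfsg.hermForm 7 F q) K ∧ H = Cfsg.Geo.subalgebraNormalizer K ⊓ (Cfsg.GU 7 F q ⊓ Cfsg.Geo.specialLinear (Fin 7) F)) ∨
    (∃ (F₀ : Subfield F) (r : ℕ) (P : Matrix.GeneralLinearGroup (Fin 7) F), r.Prime ∧ Odd r ∧ Fintype.card F = Nat.card F₀ ^ r ∧ Cfsg.Geo.IsFormRationalStructure (Cfsg.hermForm 7 F q) F₀ 1 P ∧ H = Cfsg.Geo.subfieldSubgroup F₀ P ⊓ (Cfsg.GU 7 F q ⊓ Cfsg.Geo.specialLinear (Fin 7) F)) ∨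
    (Odd q ∧ ∃ (F₀ : Subfield F) (P : Matrix.GeneralLinearGroup (Fin 7) F), Fintype.card F = Nat.card F₀ ^ 2 ∧ Cfsg.Geo.IsFormRationalStructure (Cfsg.hermForm 7 F q) F₀ 1 P ∧ H = Cfsg.Geo.subfieldSubgroup F₀ P ⊓ (Cfsg.GU 7 F q ⊓ Cfsg.Geo.specialLinear (Fin 7) F)) ∨
    (∃ (p : ℕ) (R : Subgroup (Matrix.GeneralLinearGroup (Fin 7) F)), p.Prime ∧ CharP F p ∧ ((q = p ∧ p % 7 = 6) ∨ (q = p ^ 3 ∧ (p % 7 = 3 ∨ p % 7 = 5))) ∧ Cfsg.Geo.IsSymplecticTypeGroup 7 R ∧ Cfsg.Geo.ActsAbsolutelyIrreducibly (Cfsg.Geo.matrixSet R) ∧ R ≤ Cfsg.Geo.similarityGroup (Cfsg.hermForm 7 F q) ∧ Nat.card R = 343 ∧ Nat.card (Subgroup.center R) = 7 ∧ H = Cfsg.Geo.subgroupNormalizer R ⊓ (Cfsg.GU 7 F q ⊓ Cfsg.Geo.specialLinear (Fin 7) F)) ∨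
    Cfsg.Geo.InUnitaryResidualClass H := by
  obtain ⟨σ, hσ⟩ := CfsgH5.exists_UF hF
  obtain ⟨e1, e2⟩ := CfsgH5.As.su_bridge hσ 7
  have hq := hσ.two_le
  have := CfsgH5.As.su_max hσ (CfsgH5.As.hf_one hσ.invol) (by simp) (by simp) (e2 ▸ hH)
  rw [CfsgH5.As.SuC, ← e2, ← e1, Fintype.card_fin] at this
  rcases this with h | h | ⟨t, l, D, a, c, d⟩ | ⟨l, D, a, b⟩ | ⟨r, K, a, o, b, c⟩ |
    ⟨l, l', e, P, f₁, f₂, a1, a2, a3, a⟩ | h | h | h |
    ⟨r, T, p, d, l, a1, a2, a3, a4, a5, a6, a7, a8, a9, a10, a⟩ | ⟨l, t, e, P, f₁, a1, a2, a3, a⟩ | h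
  · exact .inl (h)
  · exact .inr (.inl (h))
  · have h2 := (CfsgH5.As.IsMDecomposition.card a.decomp).trans (Fintype.card_fin _)
    obtain ⟨rfl, rfl⟩ : (l = 1 ∧ t = 7) := by
      have := a.decomp.two_le
      have : l ≤ 7 := Nat.le_of_dvd (by decide) ⟨t, h2.symm⟩
      interval_cases l <;> omega
    · exact .inr (.inr (.inl ⟨D, a, d⟩))
  · omega
  · obtain rfl : r = 7 := by
      have : r ≤ 7 := Nat.le_of_dvd (by decide) b
      obtain ⟨s, hs⟩ := o
      interval_cases r <;> first | omega | exact absurd a (by decide)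
    · exact .inr (.inr (.inr (.inl ⟨K, c⟩)))
  · have h2 : l * l' = 7 := by simpa using (Fintype.card_congr e).symm
    have : l ≤ 7 := Nat.le_of_dvd (by decide) ⟨l', h2.symm⟩
    interval_cases l <;> omega
  · exact .inr (.inr (.inr (.inr (.inl (h)))))
  · exact absurd h.1 (by decide)
  · exact .inr (.inr (.inr (.inr (.inr (.inl (h))))))
  · have hr := a1.prime
    obtain rfl : r = 7 := by
      have h := a8 ▸ dvd_pow_self r (n := l) (by omega)
      have : r ≤ 7 := Nat.le_of_dvd (by decide) h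
      interval_cases r <;> first | omega | exact absurd hr (by decide)
    obtain rfl : l = 1 := Nat.pow_right_injective (by decide : 2 ≤ 7) (a8.symm.trans (by decide))
    obtain ⟨-, b1, b2, b3, b4⟩ := a10.resolve_right fun d => absurd d.1 (by decide)
    obtain ⟨d2, d3, d4⟩ := CfsgH5.As.minimal_mod (b1 ▸ a7) hr a4
    have d5 : (d = 1 ∧ p % 7 = 6) ∨ (d = 3 ∧ (p % 7 = 3 ∨ p % 7 = 5)) := by
      have := Nat.mod_lt p (by decide : 0 < 7)
      have : d < 7 := by omega
      generalize p % 7 = s at *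
      replace d4 : ∀ e < 2 * d, 0 < e → s ^ e % 7 ≠ 1 := fun d a b => d4 d b a
      revert d2 d3 d4
      clear a6 a7
      interval_cases d <;> interval_cases s <;> decide
    exact .inr (.inr (.inr (.inr (.inr (.inr (.inl ⟨p, T, a7.1, a7.2.1, d5.elim (fun d => .inl ⟨by rw [a6, d.1, pow_one], d.2⟩) fun d => .inr ⟨by rw [a6, d.1], d.2⟩, a1, a2, a3, b2, b1, a⟩))))))
  · have h3 : l ^ t = 7 := by simpa using (Fintype.card_congr e).symm
    have h5 : l ^ 2 ≤ 7 := h3 ▸ Nat.pow_le_pow_right (by omega) a2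
    have h6 : 3 ^ t ≤ 7 := h3 ▸ Nat.pow_le_pow_left a1 t
    obtain rfl : t = 2 := by
      by_contra h
      have := Nat.pow_le_pow_right (by decide : 0 < 3) (show 3 ≤ t by omega)
      omega
    obtain rfl : l = 3 := by nlinarith
    omega
  · exact .inr (.inr (.inr (.inr (.inr (.inr (.inr (h)))))))

end Cfsg.Agent.S5811
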