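import Cfsg.Statements.S5844
import Cfsg.Agent.H5.As21

set_option autoImplicit false
open Cfsg

namespace Cfsg.Agent.S5844

/-- Every maximal subgroup of Sp_10(q) is of one of the listed geometric types or lies in the residual class. Let F be a finite field with q elements (characteristic p), f the standard alternating form on F^10 (coordinates Fin 5 ⊕ Fin 5), and H a maximal subgroup of Sp_10(F) (inside GL_10(F)). Then H is the intersection with Sp_10(F) of one of: the stabiliser of a non-zero totally isotropic subspace; the stabiliser of a non-zero non-degenerate subspace of dimension less than 5; for q ≥ 3, the stabiliser of a decomposition into 5 mutually orthogonal non-degenerate 2-spaces; for q odd, of a decomposition into two totally isotropic 5-spaces; the normaliser of a degree-5 subfield K of the matrix algebra, self-adjoint with f(k v, v) = 0; for q odd, the normaliser of a degree-2 subfield closed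 under adjoints but not self-adjoint; for q odd, the stabiliser of a tensor decomposition of f into an alternating form on F^2 and a symmetric form on F^5; a subfield group (|F| = |F₀|^r, r prime) whose F₀-structure carries a non-zero multiple of f; for q even, the similarity group of a non-degenerate quadratic form polarising to f — or else H lies in the residual class of the symplectic case (modulo scalars H is almost simple, with absolutely irreducible perfect socle preimage realisable over no proper subfield and fixing no non-degenerate quadratic or unitary form). -/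
theorem result {F : Type*} [Field F] [Fintype F] (H : Subgroup (Matrix.GeneralLinearGroup (Fin 5 ⊕ Fin 5) F)) (hH : Cfsg.Geo.IsMaximalIn (Cfsg.spGL 5 F) H) :
    (∃ W : Submodule F (Fin 5 ⊕ Fin 5 → F), W ≠ ⊥ ∧ Cfsg.Geo.IsTotallySingularFor (Cfsg.sympForm 5 F) W ∧ H = Cfsg.Geo.subspaceStabilizer W ⊓ Cfsg.spGL 5 F) ∨
    (∃ W : Submodule F (Fin 5 ⊕ Fin 5 → F), W ≠ ⊥ ∧ Cfsg.Geo.IsNondegenerateOn (Cfsg.sympForm 5 F) W ∧ Module.finrank F W < 5 ∧ H = Cfsg.Geo.subspaceStabilizer W ⊓ Cfsg.spGL 5 F) ∨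
    (3 ≤ Fintype.card F ∧ ∃ D : Fin 5 → Submodule F (Fin 5 ⊕ Fin 5 → F), Cfsg.Geo.IsNondegenerateMDecomposition (Cfsg.sympForm 5 F) 2 D ∧ H = Cfsg.Geo.decompositionStabilizer D ⊓ Cfsg.spGL 5 F) ∨
    (Odd (Fintype.card F) ∧ ∃ D : Fin 2 → Submodule F (Fin 5 ⊕ Fin 5 → F), Cfsg.Geo.IsMDecomposition 5 D ∧ (∀ i, Cfsg.Geo.IsTotallySingularFor (Cfsg.sympForm 5 F) (D i)) ∧ H = Cfsg.Geo.decompositionStabilizer D ⊓ Cfsg.spGL 5 F) ∨
    (∃ K : Subalgebra F (Matrix (Fin 5 ⊕ Fin 5) (Fin 5 ⊕ Fin 5) F), Cfsg.Geo.IsFieldSubalgebra 5 K ∧ Cfsg.Geo.IsSelfAdjointFor (Cfsg.sympForm 5 F) K ∧ (∀ k ∈ K, ∀ v : (Fin 5 ⊕ Fin 5 → F), (Cfsg.sympForm 5 F) (Matrix.mulVec k v) v = 0) ∧ H = Cfsg.Geo.subalgebraNormalizer K ⊓ Cfsg.spGL 5 F) ∨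
    (Odd (Fintype.card F) ∧ ∃ K : Subalgebra F (Matrix (Fin 5 ⊕ Fin 5) (Fin 5 ⊕ Fin 5) F), Cfsg.Geo.IsFieldSubalgebra 2 K ∧ Cfsg.Geo.IsAdjointClosedFor (Cfsg.sympForm 5 F) K ∧ ¬ Cfsg.Geo.IsSelfAdjointFor (Cfsg.sympForm 5 F) K ∧ H = Cfsg.Geo.subalgebraNormalizer K ⊓ Cfsg.spGL 5 F) ∨
    (Odd (Fintype.card F) ∧ ∃ (e : (Fin 5 ⊕ Fin 5) ≃ Fin 2 × Fin 5) (P : Matrix.GeneralLinearGroup (Fin 5 ⊕ Fin 5) F) (f₁ : (Fin 2 → F) → (Fin 2 → F) → F) (f₂ : (Fin 5 → F) → (Fin 5 → F) → F), Cfsg.Geo.IsSymplecticForm f₁ ∧ Cfsg.Geo.IsSymmetricForm f₂ ∧ Cfsg.Geo.IsTensorFormStructure id (Cfsg.sympForm 5 F) f₁ f₂ e P ∧ H = Cfsg.Geo.tensorProductSubgroup 2 5 e P ⊓ Cfsg.spGL 5 F) ∨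
    (∃ (F₀ : Subfield F) (r : ℕ) (P : Matrix.GeneralLinearGroup (Fin 5 ⊕ Fin 5) F) (ζ : F), r.Prime ∧ Fintype.card F = Nat.card F₀ ^ r ∧ ζ ≠ 0 ∧ Cfsg.Geo.IsFormRationalStructure (Cfsg.sympForm 5 F) F₀ ζ P ∧ H = Cfsg.Geo.subfieldSubgroup F₀ P ⊓ Cfsg.spGL 5 F) ∨
    (¬ Odd (Fintype.card F) ∧ ∃ Q : (Fin 5 ⊕ Fin 5 → F) → F, Cfsg.Geo.IsNondegenerateQuadraticForm Q ∧ (∀ u v : (Fin 5 ⊕ Fin 5 → F), QuadraticMap.polar Q u v = (Cfsg.sympForm 5 F) u v) ∧ H = Cfsg.Geo.quadSimilarityGroup Q ⊓ Cfsg.spGL 5 F) ∨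
    Cfsg.Geo.InSymplecticResidualClass H := by
  obtain ⟨Γ, h, ha, e1, e2⟩ := CfsgH5.As.sp_bridge 5 F
  have hc : Fintype.card (Fin 5 ⊕ Fin 5) = 10 := by simp
  have := CfsgH5.As.sp_max h ha (by omega) (by omega) (e2 ▸ hH)
  rw [← e2, ← e1] at this
  rcases this with h | ⟨W, a, b, c, d⟩ | ⟨t, l, D, a, b, c, d⟩ |
    ⟨o, l, D, a, b, c, d⟩ | ⟨r, K, a, b, c⟩ | h |
    ⟨o, l, l', e, P, f₁, f₂, a1, a2, a3, a4, a⟩ | h |
    ⟨o, o', T, l, a1, a2, a3, a4, a5, a6, a7, a⟩ | ⟨o, l, t, e, P, f₁, a1, a2, a3, a4, a5, a6, a⟩ | h | h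
  · exact .inl (h)
  · exact .inr (.inl ⟨W, a, b, by omega, d⟩)
  · have h2 := (CfsgH5.As.IsMDecomposition.card a.decomp).trans hc
    obtain ⟨rfl, rfl⟩ : (l = 2 ∧ t = 5) := by
      have := a.decomp.two_le
      have : l ≤ 10 := Nat.le_of_dvd (by decide) ⟨t, h2.symm⟩
      obtain ⟨s, hs⟩ := b
      interval_cases l <;> omega
    · exact .inr (.inr (.inl ⟨c rfl, D, a, d⟩))
  · obtain rfl : l = 5 := by omega
    exact .inr (.inr (.inr (.inl ⟨o, D, b, c, d⟩)))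
  · obtain rfl : r = 5 := by
      rw [hc] at b
      have : 2 * r ≤ 10 := Nat.le_of_dvd (by decide) b
      have : r ≤ 5 := by omega
      interval_cases r <;> first | omega | exact absurd a (by decide)
    · exact .inr (.inr (.inr (.inr (.inl ⟨K, c⟩))))
  · exact .inr (.inr (.inr (.inr (.inr (.inl (h))))))
  · have h2 : l * l' = 10 := by simpa using (Fintype.card_congr e).symm
    obtain ⟨rfl, rfl⟩ : (l = 2 ∧ l' = 5) := by
      have : l ≤ 10 := Nat.le_of_dvd (by decide) ⟨l', h2.symm⟩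
      obtain ⟨s, hs⟩ := a2
      interval_cases l <;> omega
    · exact .inr (.inr (.inr (.inr (.inr (.inr (.inl ⟨o, e, P, f₁, f₂, a⟩))))))
  · exact .inr (.inr (.inr (.inr (.inr (.inr (.inr (.inl (h))))))))
  · rw [hc] at a4
    exact absurd (a4 ▸ Nat.prime_two.isPrimePow.pow (by rintro rfl; simp at a4)) (by decide)
  · have h2 : l ^ t = 10 := by simpa using (Fintype.card_congr e).symm
    have h3 : l ^ 3 ∣ 10 := h2 ▸ pow_dvd_pow l a3
    have : l ≤ 10 := Nat.le_of_dvd (by decide) ((dvd_pow_self l (by decide)).trans h3)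
    interval_cases l <;> simp at h3
  · exact .inr (.inr (.inr (.inr (.inr (.inr (.inr (.inr (.inl (h)))))))))
  · exact .inr (.inr (.inr (.inr (.inr (.inr (.inr (.inr (.inr (h)))))))))

end Cfsg.Agent.S5844
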