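import Cfsg.Statements.S5859
import Cfsg.Agent.H5.As23

set_option autoImplicit false
open Cfsg

namespace Cfsg.Agent.S5859

/-- Every maximal subgroup of Ω_11(q), q odd, is of one of the listed geometric types or lies in the residual class. Let F be a finite field of odd order q, Q the standard quadratic form x₀² + Σ x_i y_i on F^11 (coordinates Unit ⊕ (Fin 5 ⊕ Fin 5)), Ω the commutator subgroup of its isometry group, and H a maximal subgroup of Ω (inside GL_11(F)). Then H is the intersection with Ω of one of: the stabiliser of a non-zero totally singular subspace; the stabiliser of a non-zero non-degenerate subspace of even dimension (not a plus-type plane when q = 3); for q prime, the stabiliser of a decomposition into eleven pairwise orthogonal, pairwise isometric non-degenerate 1-spaces; a subfield group (|F| = |F₀|^r, r prime) whose F₀-structure carries Q — or else H lies in the residual class of the orthogonal case (modulo scalars H is almost simple,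 with absolutely irreducible perfect socle preimage realisable over no proper subfield and fixing no non-degenerate unitary form). -/
theorem result {F : Type*} [Field F] [Fintype F] (hodd : Odd (Fintype.card F)) (H : Subgroup (Matrix.GeneralLinearGroup (Unit ⊕ (Fin 5 ⊕ Fin 5)) F)) (hH : Cfsg.Geo.IsMaximalIn (Cfsg.Geo.omegaGL (Cfsg.quadFormOdd 5 F)) H) :
    (∃ W : Submodule F (Unit ⊕ (Fin 5 ⊕ Fin 5) → F), W ≠ ⊥ ∧ Cfsg.Geo.IsTotallySingularQuad (Cfsg.quadFormOdd 5 F) W ∧ H = Cfsg.Geo.subspaceStabilizer W ⊓ Cfsg.Geo.omegaGL (Cfsg.quadFormOdd 5 F)) ∨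
    (∃ W : Submodule F (Unit ⊕ (Fin 5 ⊕ Fin 5) → F), W ≠ ⊥ ∧ Even (Module.finrank F W) ∧ Cfsg.Geo.IsNondegenerateOn (QuadraticMap.polar (Cfsg.quadFormOdd 5 F)) W ∧ ¬ (Fintype.card F = 3 ∧ Module.finrank F W = 2 ∧ Cfsg.Geo.IsPlusTypeOn (Cfsg.quadFormOdd 5 F) W) ∧ H = Cfsg.Geo.subspaceStabilizer W ⊓ Cfsg.Geo.omegaGL (Cfsg.quadFormOdd 5 F)) ∨
    ((Fintype.card F).Prime ∧ ∃ D : Fin 11 → Submodule F (Unit ⊕ (Fin 5 ⊕ Fin 5) → F), Cfsg.Geo.IsOrthogonalMDecomposition (Cfsg.quadFormOdd 5 F) 1 D ∧ H = Cfsg.Geo.decompositionStabilizer D ⊓ Cfsg.Geo.omegaGL (Cfsg.quadFormOdd 5 F)) ∨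
    (∃ (F₀ : Subfield F) (r : ℕ) (P : Matrix.GeneralLinearGroup (Unit ⊕ (Fin 5 ⊕ Fin 5)) F), r.Prime ∧ Fintype.card F = Nat.card F₀ ^ r ∧ Cfsg.Geo.IsQuadFormRationalStructure (Cfsg.quadFormOdd 5 F) F₀ P ∧ H = Cfsg.Geo.subfieldSubgroup F₀ P ⊓ Cfsg.Geo.omegaGL (Cfsg.quadFormOdd 5 F)) ∨
    Cfsg.Geo.InOrthogonalResidualClass H := by
  obtain ⟨Γ, hQ, hΓ⟩ := CfsgH5.As.oo_bridge hodd 5
  have := CfsgH5.As.oo_max hQ (by simp) (by simp; decide) hΓ hH
  rw [CfsgH5.As.OoC, show Fintype.card (Unit ⊕ (Fin 5 ⊕ Fin 5)) = 11 by simp] at this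
  rcases this with h | h | ⟨o, t, D, a, b⟩ | ⟨t, l, D, a, b, c, d⟩ | ⟨r, K, a, b, c, d⟩ |
    ⟨l, l', e, P, f₁, f₂, a1, a2, -⟩ | h | ⟨l, t, e, P, f₁, a1, a2, a3, a⟩ | h
  · exact .inl (h)
  · exact .inr (.inl (h))
  · obtain rfl : t = 11 := by simpa using CfsgH5.As.IsMDecomposition.card a.decomp.decomp
    exact .inr (.inr (.inl ⟨o, D, a, b⟩))
  · have h2 : l * t = 11 := by simpa using CfsgH5.As.IsMDecomposition.card c.decomp.decomp
    have := c.decomp.decomp.two_le
    have : l ≤ 11 := Nat.le_of_dvd (by decide) ⟨t, h2.symm⟩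
    interval_cases l <;> omega
  · have : r ≤ 11 := Nat.le_of_dvd (by decide) b
    interval_cases r <;> first | omega | exact absurd a (by decide)
  · have h2 : l * l' = 11 := by simpa using (Fintype.card_congr e).symm
    nlinarith
  · exact .inr (.inr (.inr (.inl (h))))
  · have h3 : l ^ t = 11 := by simpa using (Fintype.card_congr e).symm
    have h5 : l ^ 2 ≤ 11 := h3 ▸ Nat.pow_le_pow_right (by omega) a2
    have h6 : 3 ^ t ≤ 11 := h3 ▸ Nat.pow_le_pow_left a1 t
    obtain rfl : t = 2 := by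
      by_contra h
      have := Nat.pow_le_pow_right (by decide : 0 < 3) (show 3 ≤ t by omega)
      omega
    obtain rfl : l = 3 := by nlinarith
    omega
  · exact .inr (.inr (.inr (.inr (h))))

end Cfsg.Agent.S5859
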