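import Mathlib
import Cfsg.Statements.S5938
import Cfsg.Agent.H8.Dick3

set_option autoImplicit false
open Cfsg

namespace Cfsg.Agent.S5938


open CfsgH8

/-- Let p be a prime with p ≡ ±1 (mod 8) and F a field with p elements. Then PSL_2(F) has a maximal subgroup isomorphic to the symmetric group S_4. -/
theorem result {F : Type*} [Field F] [Fintype F] (p : ℕ) [Fact p.Prime] (hF : Fintype.card F = p) (hp : p % 8 = 1 ∨ p % 8 = 7) : ∃ H : Subgroup (Matrix.ProjectiveSpecialLinearGroup (Fin 2) F), IsCoatom H ∧ Nonempty (H ≃* Equiv.Perm (Fin 4)) := by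
  have : CharP F p := charP_of_card_eq_prime hF
  have h2 := (Fact.out : p.Prime).two_le
  obtain ⟨M, h⟩ := has_top_iff.1 (has_S4 (F := F) (hF ▸ hp))
  have hc := (card_of_equiv h).trans card_S4
  refine ⟨M, isCoatom_of_card (ne_top_of_card (by omega) (a := 7) (by omega) (by rw [hc]; norm_num))
    fun H h1 h2 => ?_, h⟩
  have h3 := Subgroup.card_dvd_of_le h1
  rcases dickson_A4 p (by omega) h2 ((has_of_equiv h).A4_of_S4.mono h1) with e | e | e | ⟨x, L, e, -⟩
  · rw [card_of_equiv e.2, card_A4]; omega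
  · rw [card_of_equiv e.2, card_S4]; omega
  · rw [card_of_equiv e.2, card_A5, hc] at h3; omega
  · exact absurd (sub_eq_top_of_prime (hF ▸ Fact.out) L) e

end Cfsg.Agent.S5938
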