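import Mathlib
import Cfsg.Statements.S5941
import Cfsg.Agent.H8.Dick3

set_option autoImplicit false
open Cfsg

namespace Cfsg.Agent.S5941


open CfsgH8

/-- Let K and F be finite fields of odd characteristic with #F = (#K)². Then PSL_2(F) has a maximal subgroup isomorphic to PGL_2(K). -/
theorem result {F K : Type*} [Field F] [Fintype F] [Field K] [Fintype K] (q : ℕ) (hK : Fintype.card K = q) (hF : Fintype.card F = q ^ 2) (hq : Odd q) : ∃ H : Subgroup (Matrix.ProjectiveSpecialLinearGroup (Fin 2) F), IsCoatom H ∧ Nonempty (H ≃* Matrix.ProjGenLinGroup (Fin 2) K) := by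
  obtain ⟨p, _, n, hp, hn⟩ := FiniteField.card' F
  have : Fact p.Prime := ⟨hp⟩
  rw [← Nat.card_eq_fintype_card] at hK
  obtain ⟨f⟩ := nonempty_ringHom (hK ▸ hF)
  have h1 := (card_fieldRange f).trans hK
  have h2 : Fintype.card F % 2 = 1 := hF ▸ Nat.odd_iff.1 hq.pow
  have h3 := nonempty_map_GLs f fun a =>
    (forall_isSquare_iff h2 (L := f.fieldRange) (h1 ▸ hF)).2 even_two _ ⟨a, rfl⟩
  refine ⟨_, isCoatom_GLs p Nat.prime_two (h1 ▸ hF) (by rintro e; rw [← h1, e] at hq; exact absurd hq (by decide))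
    fun _ h => ?_, h3⟩
  have := Fintype.ofFinite K
  rw [card_map_πS (neg_one_mem_GLs _), gcd_two_odd h2, card_of_equiv h3,
    CfsgH5.card_PGL_eq_card_SL, CfsgH5.card_SL2, ← Nat.card_eq_fintype_card, hK] at h
  obtain ⟨k, rfl⟩ := hq
  obtain ⟨s, hs⟩ := Nat.even_mul_succ_self k
  rw [show (2 * k + 1) ^ 2 - 1 = 8 * s from Nat.sub_eq_of_eq_add (by linarith),
    show 2 * ((2 * k + 1) * (8 * s)) = 16 * ((2 * k + 1) * s) by ring] at h
  exact absurd ((dvd_mul_right _ _).trans h) (by norm_num)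

end Cfsg.Agent.S5941
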