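import Mathlib
import Cfsg.Statements.S5942
import Cfsg.Agent.H8.Dick3

set_option autoImplicit false
open Cfsg

namespace Cfsg.Agent.S5942


open CfsgH8

/-- Let K and F be finite fields of odd characteristic with #F = (#K)^r for an odd prime r. Then PSL_2(F) has a maximal subgroup isomorphic to PSL_2(K). -/
theorem result {F K : Type*} [Field F] [Fintype F] [Field K] [Fintype K] (q r : ℕ) (hK : Fintype.card K = q) (hF : Fintype.card F = q ^ r) (hq : Odd q) (hr : r.Prime) (hr2 : r ≠ 2) : ∃ H : Subgroup (Matrix.ProjectiveSpecialLinearGroup (Fin 2) F), IsCoatom H ∧ Nonempty (H ≃* Matrix.ProjectiveSpecialLinearGroup (Fin 2) K) := by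
  obtain ⟨p, _, n, hp, hn⟩ := FiniteField.card' F
  have : Fact p.Prime := ⟨hp⟩
  rw [← Nat.card_eq_fintype_card] at hK
  obtain ⟨f⟩ := nonempty_ringHom (hK ▸ hF)
  have h1 := (card_fieldRange f).trans hK
  have h2 := GLs_eq_SLs_of_odd (h1 ▸ hF) (hr.odd_of_ne_two hr2)
  refine ⟨_, isCoatom_GLs p hr (h1 ▸ hF) (by rintro e; rw [← h1, e] at hq; exact absurd hq (by decide))
    fun h3 h => ?_, h2 ▸ nonempty_map_SLs f⟩
  have h4 := char_dvd_card_sub p f.fieldRange
  have h5 := one_lt_card_sub f.fieldRange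
  rw [h2, card_SLs, h1] at h
  rw [h1, h3] at h4
  rw [h1] at h5
  obtain rfl : q = 3 := by
    by_contra e
    have h6 : 6 ≤ q := by omega
    have := Nat.le_of_dvd (by norm_num) h
    have := Nat.mul_le_mul h6 (Nat.sub_le_sub_right (Nat.pow_le_pow_left h6 2) 1)
    omega
  obtain ⟨k, rfl⟩ := hr.odd_of_ne_two hr2
  rw [five_dvd_iff, hF, pow_succ, pow_mul]
  have : (3 ^ 2) ^ k % 5 = 1 ∨ (3 ^ 2) ^ k % 5 = 4 := by
    clear * -
    induction k with
    | zero => simp
    | succ k ih => rw [pow_succ]; omega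
  omega

end Cfsg.Agent.S5942
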