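import Mathlib
import Cfsg.Statements.S5943
import Cfsg.Agent.H8.Dick3

set_option autoImplicit false
open Cfsg

namespace Cfsg.Agent.S5943


open CfsgH8

/-- Let K and F be finite fields of characteristic 2 with #K = q > 2 and #F = q^r for a prime r. Then PSL_2(F) has a maximal subgroup isomorphic to PSL_2(K) (which equals PGL_2(K) in characteristic 2). -/
theorem result {F K : Type*} [Field F] [Fintype F] [Field K] [Fintype K] (q r : ℕ) (hK : Fintype.card K = q) (hF : Fintype.card F = q ^ r) (hq : Even q) (hq2 : q ≠ 2) (hr : r.Prime) : ∃ H : Subgroup (Matrix.ProjectiveSpecialLinearGroup (Fin 2) F), IsCoatom H ∧ Nonempty (H ≃* Matrix.ProjectiveSpecialLinearGroup (Fin 2) K) := by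
  rw [← Nat.card_eq_fintype_card] at hK
  obtain ⟨f⟩ := nonempty_ringHom (hK ▸ hF)
  have h1 := (card_fieldRange f).trans hK
  have h2 : Fintype.card F % 2 = 0 := hF ▸ Nat.even_iff.1 (hq.pow_of_ne_zero hr.ne_zero)
  have : CharP F 2 := ringChar.of_eq (FiniteField.even_card_iff_char_two.2 h2)
  exact ⟨_, isCoatom_GLs 2 hr (h1 ▸ hF) (h1 ▸ hq2) (by norm_num),
    GLs_eq_SLs_of_even h2 f.fieldRange ▸ nonempty_map_SLs f⟩

end Cfsg.Agent.S5943
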