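import Cfsg.Statements.S5944
import Cfsg.Agent.H5.Sy2

set_option autoImplicit false
open Cfsg

namespace Cfsg.Agent.S5944

/-- For n ≠ 4, every proper subgroup of the symmetric group S_n other than the alternating group A_n has index at least n. -/
theorem result (n : ℕ) (hn : n ≠ 4) (H : Subgroup (Equiv.Perm (Fin n))) (hH : H ≠ ⊤) (hA : H ≠ alternatingGroup (Fin n)) : n ≤ H.index := by
  have h1 : H.index ≠ 1 := fun h => hH (Subgroup.index_eq_one.mp h)
  have h2 : H.index ≠ 2 := fun h => hA (Equiv.Perm.eq_alternatingGroup_of_index_eq_two h)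
  have h0 : H.index ≠ 0 := Subgroup.index_ne_zero_of_finite
  by_cases h5 : n < 5
  · omega
  haveI : Nontrivial (Fin n) := Fin.nontrivial_iff_two_le.mpr (by omega)
  have hc := CfsgH5.Sy.core_bot (by simp; omega) H (fun h => by
    have := Nat.le_of_dvd (by rw [alternatingGroup.index_eq_two]; norm_num) (Subgroup.index_dvd_of_le h)
    rw [alternatingGroup.index_eq_two] at this; omega)
  rw [Subgroup.normalCore_eq_ker, MonoidHom.ker_eq_bot_iff] at hc
  have := Nat.card_le_card_of_injective _ hc
  rw [Nat.card_perm, Nat.card_perm, Nat.card_fin] at this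
  by_contra hlt
  exact absurd this (not_le.mpr ((Nat.factorial_lt (Nat.pos_of_ne_zero h0)).mpr (not_le.mp hlt)))

end Cfsg.Agent.S5944
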