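import Cfsg.Statements.S5945
import Cfsg.Agent.H5.Sy3

set_option autoImplicit false
open Cfsg

namespace Cfsg.Agent.S5945

/-- The symmetric group S_6 has exactly 12 subgroups of index 6; each of them is isomorphic to S_5, and at least one of them is not the stabilizer of any point. -/
theorem result : Nat.card {H : Subgroup (Equiv.Perm (Fin 6)) // H.index = 6} = 12 ∧ (∀ H : Subgroup (Equiv.Perm (Fin 6)), H.index = 6 → Nonempty (H ≃* Equiv.Perm (Fin 5))) ∧ ∃ H : Subgroup (Equiv.Perm (Fin 6)), H.index = 6 ∧ ∀ a : Fin 6, H ≠ MulAction.stabilizer (Equiv.Perm (Fin 6)) a := by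
  open Equiv Equiv.Perm MulAction CfsgH5.Sy in
  obtain ⟨ω, h1, h2⟩ := exists_omega (α := Fin 6) (by simp)
  have hi : ∀ x : Fin 6, (stabilizer (Perm (Fin 6)) x).index = 6 := fun x => by rw [index_stab]; rfl
  have hi' : ∀ x : Fin 6, ((stabilizer (Perm (Fin 6)) x).comap ω.toMonoidHom).index = 6 := fun x => by
    rw [Subgroup.index_comap_of_surjective _ ω.surjective, hi]
  have hne : ∀ x y : Fin 6, (stabilizer (Perm (Fin 6)) x).comap ω.toMonoidHom ≠ stabilizer _ y := fun x y h => by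
    obtain ⟨z, hz⟩ := exists_ne y
    obtain ⟨c, hc, h3, -⟩ := exists_three (by simp) hz
    exact h1 c hc x (h.ge (show c ∈ stabilizer (Perm (Fin 6)) y from h3))
  have hinj : ∀ x y : Fin 6, stabilizer (Perm (Fin 6)) x = stabilizer _ y → x = y := fun x y h =>
    (stab_inj (by simp) (fun g hg => h.le hg)).symm
  have hiso : ∀ x : Fin 6, Nonempty (stabilizer (Perm (Fin 6)) x ≃* Perm (Fin 5)) := fun x => by
    obtain ⟨e⟩ := stab_iso x
    exact ⟨e.trans (Fintype.equivFinOfCardEq (by simp)).permCongrHom⟩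
  refine ⟨?_, fun H hH => ?_, _, hi' 0, hne 0⟩
  · let f : Fin 6 ⊕ Fin 6 → {H : Subgroup (Perm (Fin 6)) // H.index = 6} := Sum.elim (fun x => ⟨_, hi x⟩) (fun x => ⟨_, hi' x⟩)
    rw [← Nat.card_eq_of_bijective f ⟨?_, ?_⟩]
    · simp
    · rintro (x | x) (y | y) h <;> have h := congrArg Subtype.val h
      · rw [hinj x y h]
      · exact absurd h.symm (hne y x)
      · exact absurd h (hne x y)
      · rw [hinj x y (Subgroup.comap_injective ω.surjective h)]
    · rintro ⟨H, hH⟩
      obtain ⟨y, rfl | rfl⟩ := h2 H hH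
      exacts [⟨Sum.inl y, rfl⟩, ⟨Sum.inr y, rfl⟩]
  · obtain ⟨y, rfl | rfl⟩ := h2 H hH
    · exact hiso y
    · obtain ⟨e⟩ := hiso y
      exact ⟨((ω.subgroupMap _).trans (MulEquiv.subgroupCongr (Subgroup.map_comap_eq_self_of_surjective ω.surjective _))).trans e⟩

end Cfsg.Agent.S5945
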