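import Cfsg.Statements.S5952
import Cfsg.Agent.H5.El5

set_option autoImplicit false
open Cfsg

namespace Cfsg.Agent.S5952

open CfsgH5 CfsgH5.El CfsgH5.Gl Polynomial

/-- Which dimensions of invariant subspaces a semisimple linear map has. Let `V` be a finite-dimensional vector space over a field `F` and `f` an invertible semisimple linear map of `V`. Suppose `V` is the internal direct sum of the fixed space `C_V(f)` (the eigenspace for 1) and subspaces `U_1, …, U_s`, each `f`-invariant of dimension `a ≥ 1` on which `f` acts irreducibly (no `f`-invariant subspaces other than 0 and `U_j`). Let `0 < m < dim V` and `ℓ = m mod a`. Then `f` leaves some `m`-dimensional subspace invariant if and only if `dim C_V(f) ≥ m`, or `a ≤ m` and `dim C_V(f) ≥ ℓ`. -/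
theorem result {F V : Type*} [Field F] [AddCommGroup V] [Module F V]
    [FiniteDimensional F V] (f : V →ₗ[F] V) (hf : Function.Bijective f) (hss : Module.End.IsSemisimple f)
    {s a : ℕ} (ha : 1 ≤ a) (U : Fin s → Submodule F V)
    (hUinv : ∀ j, (U j).map f ≤ U j) (hUdim : ∀ j, Module.finrank F ↥(U j) = a)
    (hUirr : ∀ j, ∀ W : Submodule F V, W ≤ U j → W.map f ≤ W → W = ⊥ ∨ W = U j)
    (hdec : DirectSum.IsInternal (fun o : Option (Fin s) => o.elim (Module.End.eigenspace f 1) U))
    (m : ℕ) (hm : 0 < m) (hmV : m < Module.finrank F V) :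
    (∃ W : Submodule F V, Module.finrank F ↥W = m ∧ W.map f ≤ W) ↔
    (m ≤ Module.finrank F ↥(Module.End.eigenspace f 1) ∨
      (a ≤ m ∧ m % a ≤ Module.finrank F ↥(Module.End.eigenspace f 1))) := by
  classical
  have inv : ∀ o : Option (Fin s), ∀ v ∈ o.elim (Module.End.eigenspace f 1) U, f v ∈ o.elim (Module.End.eigenspace f 1) U := by
    rintro (_ | j) v hv
    · have : f v = v := by simpa using hv
      rwa [this]
    · exact map_le.mp (hUinv j) v hv
  choose t h1 h2 using fun o => exists_HT (f.restrict (inv o))
  have h3 := HT_internal hdec.submodule_iSupIndep hdec.submodule_iSup_eq_top inv h2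
  have h4 : ∀ b ∈ ∑ o, t o, PP b := fun b hb => by obtain ⟨i, -, hi⟩ := Multiset.mem_sum.mp hb; exact h1 i b hi
  have d := fun o => (h2 o).dim fun b hb => PP.ne (h1 o b hb)
  have k1 : (t none).map natDegree = Multiset.replicate (Module.finrank F (Module.End.eigenspace f 1)) 1 := by
    have : ∀ b ∈ (t none).map natDegree, b = 1 := fun b hb => by
      obtain ⟨c, hc, rfl⟩ := Multiset.mem_map.mp hb
      have := natDegree_le_of_dvd ((HT_eq_one (h2 none)).mp (LinearMap.ext fun v => Subtype.ext (show f v = v by simpa using v.2)) c hc) (X_sub_C_ne_zero 1)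
      have := PP.pos (h1 _ c hc)
      rw [natDegree_X_sub_C] at *; omega
    rw [Multiset.eq_replicate_card.mpr this]
    exact congrArg (Multiset.replicate · 1) (((d none).trans (by rw [Multiset.eq_replicate_card.mpr this]; simp)).symm)
  have k2 : ∀ j, (t (some j)).map natDegree = {a} := fun j => by
    have e : ((t (some j)).map natDegree).sum = a := (d (some j)).symm.trans (hUdim j)
    obtain ⟨c, hc⟩ := Multiset.exists_mem_of_ne_zero (s := t (some j)) (fun k => by simp [k] at e; omega)
    obtain ⟨A, B, -, a1, a2, -⟩ := (split_iff (h2 (some j)) (h1 _) c.natDegree).mpr ⟨{c.natDegree},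
      Multiset.singleton_le.mpr (Multiset.mem_map_of_mem _ hc), rfl⟩
    have a3 : Module.finrank F (A.map (U j).subtype) = c.natDegree := (Submodule.finrank_map_subtype_eq _ _).trans a1
    obtain ⟨t', ht'⟩ := Multiset.exists_cons_of_mem hc
    rcases hUirr j (A.map (U j).subtype) (Submodule.map_subtype_le _ _) (map_le.mpr (by
      rintro _ ⟨u, hu, rfl⟩; exact ⟨_, a2 u hu, rfl⟩)) with k | k
    · have := PP.pos (h1 _ c hc); rw [k, finrank_bot] at a3; omega
    · rw [k, hUdim] at a3
      rw [ht', Multiset.map_cons, Multiset.sum_cons, ← a3] at e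
      rw [ht', Multiset.eq_zero_of_forall_notMem (s := t') fun b hb => ?_, a3]; · rfl
      have := Multiset.single_le_sum (fun _ _ => Nat.zero_le _) _ (Multiset.mem_map_of_mem natDegree hb)
      have := PP.pos (h1 _ b (ht' ▸ Multiset.mem_cons_of_mem hb))
      omega
  have k3 : (∑ o, t o).map natDegree = Multiset.replicate (Module.finrank F (Module.End.eigenspace f 1)) 1 + Multiset.replicate s a := by
    rw [Fintype.sum_option, Multiset.map_add, k1]
    congr 1
    exact (map_sum (Multiset.mapAddMonoidHom natDegree) _ _).trans (by simp [k2, Multiset.nsmul_singleton])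
  have k4 := h3.dim fun b hb => PP.ne (h4 b hb)
  simp only [map_le]
  rw [inv_iff h3 h4 hss.minpoly_squarefree (minpoly.aeval F f), k3, sub_rep]
  rw [k3] at k4
  simp only [Multiset.sum_add, Multiset.sum_replicate, smul_eq_mul, mul_one] at k4
  constructor
  · rintro ⟨c, c1, b, -, e⟩
    rcases b with _ | b
    · left; omega
    · exact Or.inr ⟨by rw [add_mul] at e; omega, (mod_le e).trans c1⟩
  · rintro (k | k)
    · exact ⟨m, k, 0, by simp, by simp⟩
    by_cases k' : m / a ≤ s
    · exact ⟨_, k.2, _, k', Nat.mod_add_div' m a⟩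
    · have := (Nat.le_div_iff_mul_le ha).mp (not_le.mp k').le
      exact ⟨m - s * a, by omega, s, le_rfl, by omega⟩

end Cfsg.Agent.S5952
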