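import Cfsg.Statements.S5953
import Cfsg.Agent.H5.El20

set_option autoImplicit false
open scoped MatrixGroups
open Cfsg

namespace Cfsg.Agent.S5953

open CfsgH5 CfsgH5.El CfsgH5.Gl CfsgH5.Gc CfsgH5.CForm Polynomial Module

/-- Elements of prime order of PSU_n(q) with no fixed totally isotropic `m`-space. Here `T = PSU_n(q)` (`n ≥ 3`, `(n, q) ≠ (3, 2)`), realised through the matrices of determinant 1 over the field `F` with `q²` elements preserving the Hermitian form `h(u, v) = Σ u_i v_i^q`; an element of `T` of prime order `r` is such a matrix `x` with `x^r` scalar and `x` not scalar. For `r ≠ p` let `i` be the multiplicative order of `q` modulo `r`, `b = i/2` for `i` even and `b = i` for `i` odd, `c = i, i/2, 2i` according as `i ≡ 0, 2 (mod 4)` or `i` odd, and write `k = n mod c`, `ℓ = m mod b`, `ℓ' = m mod c`, `n' = ⌊n/b⌋`, `m' = ⌊m/b⌋`, `s = (r−1)/b`; `(a)_r` is the `r`-part of `a`. Let `1 ≤ m ≤ n/2` and let `r` be a prime dividing the number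 of totally isotropic `m`-spaces. Then every element of `T` of order `r` fixes a totally isotropic `m`-space if and only if either (i) `r = 2`, `p ≠ 2`, and (`m < n/2` or `(q+1)_2 ≤ (n)_2`); or (ii) `r ≠ p`, `r > 2`, `b ≤ m`, `k ≥ 2ℓ`, and either `i ≢ 2 (mod 4)`, or `i ≡ 2 (mod 4)`, `n' − 2m' ≥ s` and (`i > 2`, or `i = 2` and (`r ∣ m` or `(q+1)_r ≥ (n)_r`)). -/
theorem result {F : Type*} [Field F] [Fintype F] {p : ℕ} [Fact p.Prime] [CharP F p] {q : ℕ} (hq : Fintype.card F = q ^ 2)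
    (n m : ℕ) (hn : 3 ≤ n) (hT : (n, q) ≠ (3, 2)) (hm : 1 ≤ m) (hmn : 2 * m ≤ n)
    (r : ℕ) [Fact r.Prime]
    (hrΩ : r ∣ Nat.card {W : Submodule F (Fin n → F) // Module.finrank F ↥W = m ∧ (∀ u ∈ W, ∀ v ∈ W, Cfsg.hermForm n F q u v = 0)})
    (i b c : ℕ) (hi : i = orderOf (q : ZMod r)) (hb : b = if Even i then i / 2 else i)
    (hc : c = if i % 4 = 0 then i else if i % 4 = 2 then i / 2 else 2 * i) :
    (∀ x : Matrix.SpecialLinearGroup (Fin n) F, x ∈ Cfsg.SU n F q →
      (∃ z : F, ((x ^ r : Matrix.SpecialLinearGroup (Fin n) F) : Matrix (Fin n) (Fin n) F) = z • (1 : Matrix (Fin n) (Fin n) F)) →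
      (∀ z : F, (x : Matrix (Fin n) (Fin n) F) ≠ z • (1 : Matrix (Fin n) (Fin n) F)) →
      ∃ W : Submodule F (Fin n → F), Module.finrank F ↥W = m ∧ (∀ u ∈ W, ∀ v ∈ W, Cfsg.hermForm n F q u v = 0) ∧
        W.map (Matrix.toLin' (x : Matrix (Fin n) (Fin n) F)) ≤ W) ↔
    ((r = 2 ∧ p ≠ 2 ∧ (2 * m < n ∨ padicValNat 2 (q + 1) ≤ padicValNat 2 n)) ∨
     (r ≠ p ∧ 2 < r ∧ b ≤ m ∧ 2 * (m % b) ≤ n % c ∧
       (i % 4 ≠ 2 ∨ (i % 4 = 2 ∧ (r - 1) / b + 2 * (m / b) ≤ n / b ∧
         (2 < i ∨ (i = 2 ∧ (r ∣ m ∨ padicValNat r n ≤ padicValNat r (q + 1)))))))) := by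
  have hr : r.Prime := Fact.out
  obtain ⟨σ, H⟩ := exists_UF hq
  have hf := hermC_nondeg H n
  have hV : finrank F (Fin n → F) = n := by simp
  have hΩ : r ∣ Nat.card {W : Submodule F _ // finrank F W = m ∧ (hermC H n).TS W} := by simp only [TS_unit]; exact hrΩ
  have hex := unit_exists_TS H hf (k := m) (by omega)
  have hrp : r ≠ p := by
    rintro rfl
    obtain ⟨K, k1, rfl⟩ := hex
    obtain ⟨c, c0, c1⟩ := unit_ker (h := H.invol) H.ne_id
    exact not_dvd_TS hf k1 ⟨0, zero_mem _, c, by rw [c1, Q_zero], Or.inr ⟨rfl, c0⟩⟩ hΩ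
  refine Iff.trans (b := AllS (hermC H n).SIsom r (Fx fun W => finrank F W = m ∧ (hermC H n).TS W))
    (by rw [← su_iff H]; simp only [← Fx_iff, TS_unit, and_assoc]; rfl) ?_
  have := hr.two_le
  have r0 := natCast_ne (F := F) hr hrp
  by_cases h2 : r = 2
  · subst h2
    have o : Odd q := (Nat.odd_pow_iff two_ne_zero).mp (hq ▸ odd_card (F := F) (Ne.symm hrp))
    rw [uni_red hf (by omega) (Fx.smul _), or_iff_left (by omega), and_iff_right rfl, and_iff_right (Ne.symm hrp), and_iff_left fun x a z b c => by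
      obtain ⟨l, rfl, l1⟩ := b.two H o
      refine ts_diag hf r0 (mem_SIsom.mp a).1 (by rintro rfl; simp at l1) (sq_app c) (fun v c' e => by_cases (fun k : v = 0 => by simp [k]) fun k => ?_)
        m (by omega)
      have := sq_app c v
      rw [LinearEquiv.coe_coe, e, map_smul, e, smul_smul] at this
      rcases mul_self_eq_mul_self_iff.mp (smul_left_injective F k this) with rfl | rfl
      exacts [(eig_sing r0 (mem_SIsom.mp a).1 l1 e e).1, (eig_sing r0 (mem_SIsom.mp a).1 (by simpa using l1) e e).1]]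
    have e : ∀ (U : Submodule F _) (hU : ((hermC H n).res U).Nondeg), Fx (fun W => finrank F W = m ∧ (hermC H n).TS W) (rho (nd_compl hf hU)).toLinearMap ↔
        ∃ a b, a + b = m ∧ 2 * a ≤ finrank F U ∧ 2 * b ≤ finrank F ((hermC H n).perp U) := fun U hU => by
      simp only [rho_TS _ r0, TS_un H hU, TS_un H (hf.res_perp hU)]
    constructor
    · intro h
      by_contra k
      rw [not_or, ← N_neg H r0 (by omega)] at k
      obtain ⟨U, u1, u2⟩ := nd_un H hf (m := 1) (by omega)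
      have := hf.finrank_perp U
      obtain ⟨l, l1, l2⟩ := k.2
      obtain ⟨a, b, c1, c2, c3⟩ := (e U u1).mp (h _ (rho_mem _) (rho_sq _) ((rho_not_scal _ r0).mpr ⟨fun e => by rw [e, finrank_bot] at u2; omega,
        fun e => by rw [e, finrank_bot] at this; omega⟩) ⟨l, l1, by rw [det_rho, hV, l2, u2]; simp⟩)
      omega
    · rintro h y a b - ⟨l, l1, l2⟩
      obtain ⟨U, u1, rfl⟩ := exists_rho hf r0 a fun v => LinearEquiv.congr_fun (sq y ▸ b) v
      have := hf.finrank_perp U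
      have : 2 * m < n ∨ finrank F U % 2 = 0 := h.imp_right fun k => by_contra fun k' => (N_neg H r0 (by omega)).mp ⟨l, l1, by
        rw [det_rho, hV, Odd.neg_one_pow (Nat.odd_iff.mpr (by omega))] at l2; linear_combination -l2⟩ k
      exact (e U u1).mpr ⟨min (finrank F U / 2) m, m - min (finrank F U / 2) m, by omega, by omega, by omega⟩
  obtain ⟨i0, i2, T, UU⟩ := exists_UP_u H hr h2 hrp hi hb
  have M := (UP.ts_master (P := FP.unit σ H.invol) UU (c_u hb hc) hf hr hrp hex (rz_unit H UU r0 hf) (fun _ _ _ h => h)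
    (fun K U _ _ _ _ h => rz_unit H UU r0 (hf.res_perp h)) (fun x y _ => (unit_isConj H.ne_id hf).mpr) hΩ).trans
      (UU.ts_true' (c_u hb hc) (hmn.trans_eq hV.symm))
  rw [hV] at M
  by_cases k : i = 2
  · subst k
    obtain rfl : b = 1 := hb
    obtain rfl : c = 1 := hc
    have d := i2.mp rfl
    simp only [h2, hrp, show 2 < r by omega, hm, Nat.mod_one, Nat.div_one, false_and, false_or, ne_eq, not_false_eq_true, true_and, not_true, lt_irrefl,
      le_refl] at M UU ⊢
    rw [uni_red hf (by omega) (Fx.smul _), or_comm, or_iff_not_imp_left, ← np_odd H hf hr h2 d hV (by omega)]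
    refine and_congr ⟨fun h => ?_, fun h y a b c _ => M.mpr h y a b fun e => c 1 (by rw [e, one_smul]; rfl)⟩
      ⟨fun h ⟨x, c, z, s, e⟩ => (kum_TS H hf hr s.1 (NQ.odd H hr h2 d s) (mem_SIsom.mp c).1 e (by omega)).mp (h x c z s e),
        fun h x c z s e => (kum_TS H hf hr s.1 (NQ.odd H hr h2 d s) (mem_SIsom.mp c).1 e (by omega)).mpr (h ⟨x, c, z, s, e⟩)⟩
    have := Nat.odd_iff.mp (hr.odd_of_ne_two h2)
    obtain ⟨x, x1, x2, x3, x4, x5⟩ := two_s H hf r0 d UU (s := min (r / 2) (n / 2)) (by omega) (by omega) (by omega)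
    obtain ⟨W, w1, w2⟩ := h x x1 x2 x4 ⟨1, by simp, by simp [x3]⟩
    have := x5 W w1.2 w2
    omega
  rw [uni_cop H hf (by omega) hr (mt i2.mpr k) (Fx.smul _)]
  refine M.trans ?_
  simp only [h2, hrp, k, show 2 < r by omega, false_and, false_or, ne_eq, not_false_eq_true, true_and, or_false]
  refine and_congr_right fun _ => and_congr_right fun _ => ⟨fun h => ?_, fun h => h.imp_right fun h => h.2.1⟩
  by_cases e : i % 4 = 2
  exacts [Or.inr ⟨e, h.resolve_left (not_not.mpr e), by omega⟩, Or.inl e]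

end Cfsg.Agent.S5953
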