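import Cfsg.Statements.S5954
import Cfsg.Agent.H5.El20

set_option autoImplicit false
open scoped MatrixGroups
open Cfsg

namespace Cfsg.Agent.S5954

open CfsgH5 CfsgH5.El CfsgH5.Gl CfsgH5.Gc CfsgH5.CForm Polynomial Module

/-- Elements of prime order of PSU_n(q) with no fixed nondegenerate `m`-space. Here `T = PSU_n(q)` (`n ≥ 3`, `(n, q) ≠ (3, 2)`), realised through the matrices of determinant 1 over the field `F` with `q²` elements preserving the Hermitian form `h(u, v) = Σ u_i v_i^q`; an element of `T` of prime order `r` is such a matrix `x` with `x^r` scalar and `x` not scalar. For `r ≠ p` let `i` be the multiplicative order of `q` modulo `r`, `b = i/2` for `i` even and `b = i` for `i` odd, `c = i, i/2, 2i` according as `i ≡ 0, 2 (mod 4)` or `i` odd, and write `k = n mod c`, `ℓ = m mod b`, `ℓ' = m mod c`, `n' = ⌊n/b⌋`, `m' = ⌊m/b⌋`, `s = (r−1)/b`; `(a)_r` is the `r`-part of `a`. Let `1 ≤ m < n/2` and let `r` be a prime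 dividing the number of nondegenerate `m`-spaces. Then every element of `T` of order `r` fixes a nondegenerate `m`-space if and only if one of: (i) `r = p > 2` and every partition of `n` into parts of size at most `p` contains (as a sub-multiset) a partition of `m`; (ii) `r = p = 2` and (`n` is odd or `m` is even); (iii) `r = 2 ≠ p` and (`n` is odd, or `m` is even, or `(q+1)_2 ≥ (n)_2` and `q ≡ 3 (mod 4)`); (iv) `r ≠ p`, `r > 2`, and either `i ≠ 2`, `c ≤ m` and `k ≥ ℓ'`, or `i = 2` and (`r ∣ m` or `(q+1)_r ≥ (n)_r`). -/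
theorem result {F : Type*} [Field F] [Fintype F] {p : ℕ} [Fact p.Prime] [CharP F p] {q : ℕ} (hq : Fintype.card F = q ^ 2)
    (n m : ℕ) (hn : 3 ≤ n) (hT : (n, q) ≠ (3, 2)) (hm : 1 ≤ m) (hmn : 2 * m < n)
    (r : ℕ) [Fact r.Prime]
    (hrΩ : r ∣ Nat.card {W : Submodule F (Fin n → F) // Module.finrank F ↥W = m ∧ (∀ u ∈ W, u ≠ 0 → ∃ v ∈ W, Cfsg.hermForm n F q u v ≠ 0)})
    (i b c : ℕ) (hi : i = orderOf (q : ZMod r)) (hb : b = if Even i then i / 2 else i)
    (hc : c = if i % 4 = 0 then i else if i % 4 = 2 then i / 2 else 2 * i) :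
    (∀ x : Matrix.SpecialLinearGroup (Fin n) F, x ∈ Cfsg.SU n F q →
      (∃ z : F, ((x ^ r : Matrix.SpecialLinearGroup (Fin n) F) : Matrix (Fin n) (Fin n) F) = z • (1 : Matrix (Fin n) (Fin n) F)) →
      (∀ z : F, (x : Matrix (Fin n) (Fin n) F) ≠ z • (1 : Matrix (Fin n) (Fin n) F)) →
      ∃ W : Submodule F (Fin n → F), Module.finrank F ↥W = m ∧ (∀ u ∈ W, u ≠ 0 → ∃ v ∈ W, Cfsg.hermForm n F q u v ≠ 0) ∧
        W.map (Matrix.toLin' (x : Matrix (Fin n) (Fin n) F)) ≤ W) ↔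
    ((r = p ∧ 2 < p ∧ (∀ μ : Multiset ℕ, (∀ a ∈ μ, 0 < a ∧ a ≤ p) → μ.sum = n → ∃ ν : Multiset ℕ, ν ≤ μ ∧ ν.sum = m)) ∨
     (r = p ∧ p = 2 ∧ (Odd n ∨ Even m)) ∨
     (r = 2 ∧ p ≠ 2 ∧ (Odd n ∨ Even m ∨ (padicValNat 2 n ≤ padicValNat 2 (q + 1) ∧ q % 4 = 3))) ∨
     (r ≠ p ∧ 2 < r ∧ ((i ≠ 2 ∧ c ≤ m ∧ m % c ≤ n % c) ∨ (i = 2 ∧ (r ∣ m ∨ padicValNat r n ≤ padicValNat r (q + 1)))))) := by
  have hr : r.Prime := Fact.out
  obtain ⟨σ, H⟩ := exists_UF hq
  have hf := hermC_nondeg H n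
  have hV : finrank F (Fin n → F) = n := by simp
  obtain ⟨U, u1, u2⟩ := nd_un H hf (m := m) (by omega)
  have u3 := hf.finrank_perp U
  have hΩ := orb_of hf (U := U) (Ω := fun W => finrank F W = m ∧ ((hermC H n).res W).Nondeg)
    (fun W h => unit_exists_isIso H _ u1 h.2 u2 h.1) fun W e h => ⟨by rw [← e.finrank_eq]; omega, h.nondeg u1⟩
  replace hrΩ : r ∣ Nat.card {W : Submodule F _ // finrank F W = m ∧ ((hermC H n).res W).Nondeg} := by simp only [← nd_iff]; exact hrΩ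
  refine Iff.trans (b := AllS (hermC H n).SIsom r (Fx fun W => finrank F W = m ∧ ((hermC H n).res W).Nondeg))
    (by rw [← su_iff H]; simp only [← Fx_iff, ← nd_iff, and_assoc]; rfl) ?_
  have := hr.two_le
  by_cases hrp : r = p
  · subst hrp
    have hp : ¬ r ∣ q + 1 := fun k => ne_char (F := F) hr one_pos (zmod_of_dvd Fintype.card_pos (by
      rw [pow_one, ← Nat.card_eq_fintype_card, H.card_units]; exact k.mul_left _)) rfl
    rw [uni_cop H hf (by omega) hr hp (Fx.smul _)]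
    refine Iff.trans (b := ∀ μ : Multiset ℕ, (∀ a ∈ μ, 0 < a ∧ a ≤ r) → μ.sum = n → ∃ ν ≤ μ, ν.sum = m) ⟨fun h μ h0 hs => ?_, fun h g a b _ => ?_⟩ ?_
    · by_cases e : μ = Multiset.replicate μ.sum 1
      · exact ⟨Multiset.replicate m 1, by rw [e, Multiset.replicate_le_replicate, hs]; omega, by simp⟩
      obtain ⟨x, x1, x2⟩ := ru_unit H hf (fun a ha => (h0 a ha).1) (by omega)
      obtain ⟨W, w1, w2⟩ := all_unip h x1 h0 e x2
      obtain ⟨ν, ν', rfl, c1, -⟩ := unip_nd hf x1 (fun a ha => (h0 a ha).1) x2 w1.2 w2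
      exact ⟨ν, Multiset.le_add_right _ _, (ut_dim (fun a ha => (h0 a (by simp [ha])).1) c1).symm.trans w1.1⟩
    · obtain ⟨μ, m1, s2⟩ := ut_of_pow (pow_coe_iff.mp b)
      have m2 := fun a ha => (m1 a ha).1
      have d := ut_dim m2 s2
      obtain ⟨ν, n1, n2⟩ := h μ m1 (by omega)
      obtain ⟨ν', rfl⟩ := Multiset.le_iff_exists_add.mp n1
      rw [Multiset.sum_add] at d
      have p1 : ∀ a ∈ ν, 0 < a := fun a ha => m2 a (by simp [ha])
      have p2 : ∀ a ∈ ν', 0 < a := fun a ha => m2 a (by simp [ha])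
      obtain ⟨y1, a1, b1⟩ := ru_unit H u1 p1 (by omega)
      obtain ⟨y2, a2, b2⟩ := ru_unit H (hf.res_perp u1) p2 (by omega)
      exact (Fx_conj hΩ (x := ⟨g, a⟩)).mpr ⟨⟨_, (sumHom_mem_Isom (nd_compl hf u1) (p := (y1, y2))).mpr ⟨a1, a2⟩⟩, (unit_isConj H.ne_id hf).mpr
        ((HT_sum _ b1 b2 (pp_unip p1) (pp_unip p2)).sim (by rwa [← Multiset.map_add])), fun v hv => (sumHom_left _ _ ⟨v, hv⟩).symm ▸ Subtype.prop _⟩
    by_cases h2 : r = 2
    · subst h2; rw [two_iff (by omega)]; simp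
    · simp [h2, show 2 < r by omega]
  have r0 := natCast_ne (F := F) hr hrp
  have red : r ∣ q + 1 → ∀ {R S : Prop}, (∀ x ∈ (hermC H n).Isom, ∀ z, NQ σ r z → (x.toLinearMap : End F _) ^ r = z • 1 →
      (Fx (fun W => finrank F W = m ∧ ((hermC H n).res W).Nondeg) x.toLinearMap ↔ R)) →
      ((∃ x ∈ (hermC H n).SIsom, ∃ z, NQ σ r z ∧ (x.toLinearMap : End F _) ^ r = z • 1) ↔ S) →
      (AllS (hermC H n).SIsom r (Fx fun W => finrank F W = m ∧ ((hermC H n).res W).Nondeg) ↔ (S → R)) := fun k R S a b => by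
    rw [uni_red hf (by omega) (Fx.smul _), and_iff_right fun y a b _ _ => diag_nd H hf hr k a b (by omega), ← b]
    exact ⟨fun h ⟨x, c, z, d, e⟩ => (a x (mem_SIsom.mp c).1 z d e).mp (h x c z d e), fun h x c z d e => (a x (mem_SIsom.mp c).1 z d e).mpr (h ⟨x, c, z, d, e⟩)⟩
  by_cases h2 : r = 2
  · subst h2
    have o : Odd q := (Nat.odd_pow_iff two_ne_zero).mp (hq ▸ odd_card (F := F) (Ne.symm hrp))
    rw [red o.add_one.two_dvd (fun x a z b c => by obtain ⟨l, rfl, l1⟩ := b.two H o; exact c2_nd hf r0 a l1 (sq_app c) (by omega))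
      (np_two H hf o r0 hV (by omega))]
    simp only [hrp, Ne.symm hrp, ← Nat.not_even_iff_odd, false_and, false_or, ne_eq, not_false_eq_true, true_and, lt_irrefl, or_false]
    clear * -
    tauto
  obtain ⟨i0, i2, T, UU⟩ := exists_UP_u H hr h2 hrp hi hb
  by_cases k : i = 2
  · rw [red (i2.mp k) (fun x a z b c => kum_nd H hf hr b.1 (b.odd H hr h2 (i2.mp k)) a c (by omega)) (np_odd H hf hr h2 (i2.mp k) hV (by omega))]
    simp only [hrp, h2, k, show 2 < r by omega, false_and, false_or, ne_eq, not_false_eq_true, true_and, not_true]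
    clear * -
    tauto
  rw [uni_cop H hf (by omega) hr (mt i2.mpr k) (Fx.smul _)]
  refine UP.nd_fin (P := FP.unit σ H.invol) UU (c_u hb hc) hf hr hrp u1 (rz_unit H UU r0 hf) (rz_unit H UU r0 u1) (rz_unit H UU r0 (hf.res_perp u1))
    (fun x y _ => (unit_isConj H.ne_id hf).mpr) hΩ hrΩ u2 hV (by omega) (by omega) fun M0 M1 M2 a0 a1 a2 => ?_
  have := div_sub (UU.cpos (c_u hb hc)) (show m ≤ n by omega)
  simp only [El.IsM, h2, hrp, k, show 2 < r by omega, false_or, true_and, false_and, ne_eq, not_false_eq_true, not_true, or_true, and_false, or_false] at *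
  omega

end Cfsg.Agent.S5954
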