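import Cfsg.Statements.S5955
import Cfsg.Agent.H5.El11

set_option autoImplicit false
open scoped MatrixGroups
open Cfsg

namespace Cfsg.Agent.S5955

open CfsgH5 CfsgH5.El CfsgH5.Gl CfsgH5.Gc CfsgH5.CForm Polynomial Module

/-- Elements of prime order of PSp_n(q) with no fixed totally isotropic `m`-space. Here `T = PSp_n(q)` with `n = 2d ≥ 4`, `(n, q) ≠ (4, 2)`, realised through the symplectic matrices over the field `F` with `q` elements (preserving the standard alternating form); an element of `T` of prime order `r` is such a matrix `x` with `x^r` scalar and `x` not scalar. For `r ≠ p` let `i` be the multiplicative order of `q` modulo `r`, `c = i` for `i` even and `c = 2i` for `i` odd, and write `k = n mod c`, `ℓ = m mod i`, `ℓ' = m mod c`, `n' = ⌊n/i⌋`, `m' = ⌊m/i⌋`, `t = (r−1)/i`. Let `1 ≤ m ≤ n/2` and let `r` be a prime dividing the number of totally isotropic `m`-spaces. Then every element of `T` of order `r` fixes a totally isotropic `m`-space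 if and only if either (i) `r = 2 ≠ p` and (`m` is even or `q ≡ 1 (mod 4)`); or (ii) `r ≠ p`, `r > 2`, `i ≤ m`, `k ≥ 2ℓ`, and (`i` is odd or `n' − 2m' ≥ t`). -/
theorem result {F : Type*} [Field F] [Fintype F] {p : ℕ} [Fact p.Prime] [CharP F p] {q : ℕ} (hq : Fintype.card F = q)
    (d m : ℕ) (hd : 2 ≤ d) (hT : (d, q) ≠ (2, 2)) (hm : 1 ≤ m) (hmd : m ≤ d)
    (r : ℕ) [Fact r.Prime]
    (hrΩ : r ∣ Nat.card {W : Submodule F (Fin d ⊕ Fin d → F) // Module.finrank F ↥W = m ∧ (∀ u ∈ W, ∀ v ∈ W, Cfsg.sympForm d F u v = 0)})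
    (i c : ℕ) (hi : i = orderOf (q : ZMod r)) (hc : c = if Even i then i else 2 * i) :
    (∀ x : ↥(Matrix.symplecticGroup (Fin d) F),
      (∃ z : F, ((x ^ r : ↥(Matrix.symplecticGroup (Fin d) F)) : Matrix (Fin d ⊕ Fin d) (Fin d ⊕ Fin d) F) = z • (1 : Matrix (Fin d ⊕ Fin d) (Fin d ⊕ Fin d) F)) →
      (∀ z : F, (x : Matrix (Fin d ⊕ Fin d) (Fin d ⊕ Fin d) F) ≠ z • (1 : Matrix (Fin d ⊕ Fin d) (Fin d ⊕ Fin d) F)) →
      ∃ W : Submodule F (Fin d ⊕ Fin d → F), Module.finrank F ↥W = m ∧ (∀ u ∈ W, ∀ v ∈ W, Cfsg.sympForm d F u v = 0) ∧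
        W.map (Matrix.toLin' (x : Matrix (Fin d ⊕ Fin d) (Fin d ⊕ Fin d) F)) ≤ W) ↔
    ((r = 2 ∧ p ≠ 2 ∧ (Even m ∨ q % 4 = 1)) ∨
     (r ≠ p ∧ 2 < r ∧ i ≤ m ∧ 2 * (m % i) ≤ (2 * d) % c ∧ (Odd i ∨ (r - 1) / i + 2 * (m / i) ≤ (2 * d) / i))) := by
  subst hq
  have hr : r.Prime := Fact.out
  have hf := spForm_nondeg (F := F) d
  have hn : finrank F (Fin d ⊕ Fin d → F) = 2 * d := by simp [two_mul]
  have hΩ : r ∣ Nat.card {W : Submodule F (Fin d ⊕ Fin d → F) // finrank F W = m ∧ (spForm F d).TS W} := by simpa only [TS_symp, spForm_B] using hrΩ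
  have hex := symp_exists_TS hf (k := m) (by omega)
  have hrp : r ≠ p := by
    rintro rfl
    obtain ⟨K, k1, rfl⟩ := hex
    exact not_dvd_TS hf k1 ⟨0, zero_mem _, 1, by simp, Or.inr ⟨rfl, one_ne_zero⟩⟩ hΩ
  refine Iff.trans (b := AllS (spForm F d).Isom r fun g => ∃ W : Submodule F _, (finrank F W = m ∧ (spForm F d).TS W) ∧ ∀ v ∈ W, g v ∈ W)
    (by rw [← sp_iff]; simp only [TS_symp, spForm_B, map_le, and_assoc]) ?_
  by_cases h2 : r = 2
  · subst h2
    have o := odd_card (F := F) hrp.symm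
    have t := natCast_ne (F := F) hr hrp
    rw [← neg_sq_iff o, or_iff_left (by omega), and_iff_right rfl, and_iff_right hrp.symm]
    constructor
    · intro h
      by_contra k
      push Not at k
      let x := (spEquiv d ⟨_, SymplecticGroup.J_mem (Fin d) F⟩).1
      have e : ∀ v, x (x v) = -v := fun v => by simp [x, Matrix.J_squared, Matrix.neg_mulVec]
      haveI : Nontrivial (Fin d ⊕ Fin d → F) := finrank_pos_iff.mp (show 0 < finrank F _ by omega)
      obtain ⟨W, ⟨rfl, -⟩, w⟩ := h x (Subtype.prop _) (-1) (LinearMap.ext fun v => by simp [sq, e]) (not_scal_neg e k.2)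
      exact k.1 (even_of_neg e k.2 w)
    · intro h g hg z h1 _
      rcases sq_cases (fun _ => rfl) hf (by omega) hg h1 with e | e
      · exact ts_diag hf t hg one_ne_zero (by simpa using e) (fun v _ _ => symp_Q _ v) m (by omega)
      by_cases s : IsSquare (-1 : F)
      · obtain ⟨b, hb⟩ := s
        exact ts_diag hf t hg (b := b) (by rintro rfl; simp at hb) (by simpa [← hb] using e) (fun v _ _ => symp_Q _ v) m (by omega)
      obtain ⟨k, rfl⟩ := h.resolve_right s
      rw [← two_mul]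
      exact ts_two hf (fun _ => rfl) hg e s (ofQuad (LinearMap.BilinMap.toQuadraticMap (LinearMap.mk₂ F (fun u v => (spForm F d).B u (g v))
        (by simp) (by simp) (by simp) (by simp)))) (fun v hv => ⟨symp_Q _ v, hv⟩) k (by omega)
  obtain ⟨T, H⟩ := exists_UP_id (F := F) hr h2 hrp
  rw [← hi] at H
  rw [odd_red (fun _ => rfl) hf (by omega) le_rfl (hr.odd_of_ne_two h2) (fun g => by simp) fun _ _ _ h _ => h,
    UP.ts_master (P := FP.symp F) H hc hf hr hrp hex (rz_symp hr h2 hrp H hf) (fun _ _ _ h => h)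
      (fun K U _ _ _ _ h => rz_symp hr h2 hrp H (hf.res_perp h)) (fun x y a => (symp_isConj hf a (natCast_ne hr hrp)).mpr) hΩ, hn]
  refine (H.ts_true hc (by omega)).trans ?_
  have := hr.two_le
  simp [h2, hrp, show 2 < r by omega]

end Cfsg.Agent.S5955
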