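import Cfsg.Statements.S5956
import Cfsg.Agent.H5.El18

set_option autoImplicit false
open scoped MatrixGroups
open Cfsg

namespace Cfsg.Agent.S5956

open CfsgH5 CfsgH5.El CfsgH5.Gl CfsgH5.Gc CfsgH5.CForm Polynomial Module

/-- Elements of prime order of PSp_n(q) with no fixed nondegenerate `m`-space. Here `T = PSp_n(q)` with `n = 2d ≥ 4`, `(n, q) ≠ (4, 2)`, realised through the symplectic matrices over the field `F` with `q` elements (preserving the standard alternating form); an element of `T` of prime order `r` is such a matrix `x` with `x^r` scalar and `x` not scalar. For `r ≠ p` let `i` be the multiplicative order of `q` modulo `r`, `c = i` for `i` even and `c = 2i` for `i` odd, and write `k = n mod c`, `ℓ = m mod i`, `ℓ' = m mod c`, `n' = ⌊n/i⌋`, `m' = ⌊m/i⌋`, `t = (r−1)/i`. Let `m` be even with `2 ≤ m < n/2` and let `r` be a prime dividing the number of nondegenerate `m`-spaces. Then every element of `T` of order `r` fixes a nondegenerate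 `m`-space if and only if one of: (i) `r = p > 2` and every partition of `n` into parts of size at most `p` in which every odd part has even multiplicity contains (as a sub-multiset) a partition of `m` in which every odd part has even multiplicity; (ii) `r = p = 2` and (`n ≡ 2 (mod 4)` or `m ≡ 0 (mod 4)`); (iii) `r = 2 ≠ p`; (iv) `r ≠ p`, `r > 2`, `c ≤ m` and `k ≥ ℓ'`. -/
theorem result {F : Type*} [Field F] [Fintype F] {p : ℕ} [Fact p.Prime] [CharP F p] {q : ℕ} (hq : Fintype.card F = q)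
    (d m : ℕ) (hd : 2 ≤ d) (hT : (d, q) ≠ (2, 2)) (hm : 2 ≤ m) (hme : Even m) (hmd : m < d)
    (r : ℕ) [Fact r.Prime]
    (hrΩ : r ∣ Nat.card {W : Submodule F (Fin d ⊕ Fin d → F) // Module.finrank F ↥W = m ∧ (∀ u ∈ W, u ≠ 0 → ∃ v ∈ W, Cfsg.sympForm d F u v ≠ 0)})
    (i c : ℕ) (hi : i = orderOf (q : ZMod r)) (hc : c = if Even i then i else 2 * i) :
    (∀ x : ↥(Matrix.symplecticGroup (Fin d) F),
      (∃ z : F, ((x ^ r : ↥(Matrix.symplecticGroup (Fin d) F)) : Matrix (Fin d ⊕ Fin d) (Fin d ⊕ Fin d) F) = z • (1 : Matrix (Fin d ⊕ Fin d) (Fin d ⊕ Fin d) F)) →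
      (∀ z : F, (x : Matrix (Fin d ⊕ Fin d) (Fin d ⊕ Fin d) F) ≠ z • (1 : Matrix (Fin d ⊕ Fin d) (Fin d ⊕ Fin d) F)) →
      ∃ W : Submodule F (Fin d ⊕ Fin d → F), Module.finrank F ↥W = m ∧ (∀ u ∈ W, u ≠ 0 → ∃ v ∈ W, Cfsg.sympForm d F u v ≠ 0) ∧
        W.map (Matrix.toLin' (x : Matrix (Fin d ⊕ Fin d) (Fin d ⊕ Fin d) F)) ≤ W) ↔
    ((r = p ∧ 2 < p ∧ (∀ μ : Multiset ℕ, (∀ a ∈ μ, 0 < a ∧ a ≤ p) → (∀ a : ℕ, Odd a → Even (μ.count a)) → μ.sum = 2 * d →
        ∃ ν : Multiset ℕ, ν ≤ μ ∧ ν.sum = m ∧ ∀ a : ℕ, Odd a → Even (ν.count a))) ∨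
     (r = p ∧ p = 2 ∧ ((2 * d) % 4 = 2 ∨ m % 4 = 0)) ∨
     (r = 2 ∧ p ≠ 2) ∨
     (r ≠ p ∧ 2 < r ∧ c ≤ m ∧ m % c ≤ (2 * d) % c)) := by
  subst hq
  have hr : r.Prime := Fact.out
  have hf := spForm_nondeg (F := F) d
  have hn : finrank F (Fin d ⊕ Fin d → F) = 2 * d := by simp [two_mul]
  obtain ⟨k, rfl⟩ := hme
  obtain ⟨K, k1, k2⟩ := symp_exists_TS hf (k := k) (by omega)
  obtain ⟨U, -, u1, u2⟩ := exists_hypU hf k1
  have u3 := hf.finrank_perp U
  have hΩ := orb_of hf (U := U) (Ω := fun W => finrank F W = k + k ∧ ((spForm F d).res W).Nondeg)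
    (fun W h => symp_exists_isIso _ u1 h.2 (by omega) h.1) fun W e h => ⟨by rw [← e.finrank_eq]; omega, h.nondeg u1⟩
  replace hrΩ : r ∣ Nat.card {W : Submodule F _ // finrank F W = k + k ∧ ((spForm F d).res W).Nondeg} := by simp only [← nd_iff]; exact hrΩ
  refine Iff.trans (b := AllS (spForm F d).Isom r (Fx fun W => finrank F W = k + k ∧ ((spForm F d).res W).Nondeg))
    (by rw [← sp_iff]; simp only [← Fx_iff, ← nd_iff, and_assoc]; rfl) ?_
  by_cases h2 : r = 2
  · subst h2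
    by_cases hp : p = 2
    · subst hp
      have t : (2 : F) = 0 := CharP.cast_eq_zero F 2
      rw [nd_char2 hf (fun _ => rfl) t u1 (TS_sp hf hn) (TS_sp u1 (k2 ▸ u2)) (TS_sp (hf.res_perp u1) (m := d - k) (by omega)) (m := k) (m' := d - k)
        (by omega) (by omega) (non_sp u1 t (k2 ▸ u2)) (non_sp (hf.res_perp u1) t (by omega)) le_rfl (fun x h _ => h.mem) hΩ]
      simp; omega
    refine iff_of_true (fun g a z b _ => ?_) (by simp [hp])
    simpa [mul_two] using nd_chain hf a (sp_plane (natCast_ne (F := F) hr (Ne.symm hp)) a (sq_cases (fun _ => rfl) hf (by omega) a b)) k (by omega)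
  have o := hr.odd_of_ne_two h2
  have := hr.two_le
  rw [odd_red (fun _ => rfl) hf (by omega) le_rfl o (Fx.neg _) fun _ _ _ h _ => h]
  by_cases hrp : r = p
  · subst hrp
    simp only [h2, show 2 < r by omega, true_and, false_and, or_false, ne_eq, not_true]
    constructor
    · intro h μ h0 ho hs
      by_cases e : μ = Multiset.replicate μ.sum 1
      · exact ⟨Multiset.replicate (k + k) 1, by rw [e, Multiset.replicate_le_replicate, hs]; omega, by simp, fun e a => by
          rw [Multiset.count_replicate]; split_ifs <;> simp⟩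
      obtain ⟨x, x1, x2⟩ := ru_sp hf (fun a ha => (h0 a ha).1) ho (by omega)
      obtain ⟨W, w1, w2⟩ := all_unip h x1 h0 e x2
      obtain ⟨ν, ν', rfl, c1, -⟩ := unip_nd hf x1 (fun a ha => (h0 a ha).1) x2 w1.2 w2
      have b : ∀ a ∈ ν, 0 < a := fun a ha => (h0 a (by simp [ha])).1
      exact ⟨ν, Multiset.le_add_right _ _, (ut_dim b c1).symm.trans w1.1, od_of w1.2 (rs_mem x1 w2) b c1⟩
    · intro h g a b _
      obtain ⟨μ, m1, s2⟩ := ut_of_pow (pow_coe_iff.mp b)
      have m2 := fun a ha => (m1 a ha).1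
      obtain ⟨ν, n1, n2, n3⟩ := h μ m1 (od_of hf a m2 s2) (by rw [← ut_dim m2 s2, hn])
      exact n2 ▸ unip_sub (natCast_ne (F := F) Nat.prime_two (Ne.symm h2)) μ hf a m2 s2 ν n1 n3
  obtain ⟨T, H⟩ := exists_UP_id (F := F) hr h2 hrp
  rw [← hi] at H
  refine UP.nd_fin (P := FP.symp F) H hc hf hr hrp u1 (rz_symp hr h2 hrp H hf) (rz_symp hr h2 hrp H u1) (rz_symp hr h2 hrp H (hf.res_perp u1))
    (fun x y a => (symp_isConj hf a (natCast_ne hr hrp)).mpr) hΩ hrΩ (m := k + k) (by omega) hn (by omega) (by omega) fun M0 M1 M2 a0 a1 a2 => ?_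
  have := div_sub (H.cpos hc) (show k + k ≤ 2 * d by omega)
  simp only [El.IsM, h2, hrp, show 2 < r by omega, false_or, true_and, false_and, ne_eq, not_false_eq_true, not_true, or_true, and_false] at *
  omega

end Cfsg.Agent.S5956
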