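import Cfsg.Statements.S5957
import Cfsg.Agent.H5.El5

set_option autoImplicit false
open scoped MatrixGroups
open Cfsg

namespace Cfsg.Agent.S5957

open CfsgH5 CfsgH5.El CfsgH5.Gl Polynomial

theorem pd {F : Type*} [Field F] [Fintype F] {p : ℕ} [Fact p.Prime] [CharP F p] {V : Type*} [AddCommGroup V] [Module F V]
    [FiniteDimensional F V] {f : Module.End F V} {z : F} (hz : z ≠ 0) (h : f ^ 2 = z • 1) (hn : ∀ c : F, f ≠ c • 1) :
    PD (fun _ _ => 0) f 1 (Module.finrank F V) := by
  by_cases hp : 2 = p
  · subst hp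
    obtain ⟨c, μ, a1, a2, -, a3⟩ := unip_type hz h
    obtain ⟨k, j, rfl⟩ := two_parts a2
    have b := pp_unip (F := F) fun a ha => (a2 a ha).1
    rw [a3.dim fun a ha => PP.ne (b a ha), deg_unip]
    rw [Multiset.map_add, Multiset.map_replicate, Multiset.map_replicate, sub_pow_char _ _ (p := 2), ← C_pow] at a3 b
    simp only [Multiset.sum_add, Multiset.sum_replicate, smul_eq_mul, mul_one]
    refine (PD_add a3 b (fun U g hg => PD_parts (parts_rep (i := 1) (c := k) (j := 0) k (by simp) (by simp)) hg
      (fun a ha => b a (Multiset.mem_add.mpr (Or.inl ha))) (by simp [← C_1, natDegree_X_sub_C, -map_one]))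
      fun U g hg => PD_cycs two_ne_zero ?_ j (by rwa [mul_one])).smul a1
    rw [C_pow, ← sub_pow_char]; exact Un.pp_pow 1 (by omega)
  by_cases hb : ∃ b, b ^ 2 = z
  · rcases classify Nat.prime_two hp hz h hn with ⟨c, j, -, k⟩ | k
    · have e : orderOf (Fintype.card F : ZMod 2) = 1 := by
        have := Gc.card_ne_zmod (F := F) Nat.prime_two hp
        rw [orderOf_eq_one_iff]; revert this; generalize (Fintype.card F : ZMod 2) = x; revert x; decide
      rw [e] at k
      exact k.pd (parts_rep _ (by simpa using k.sum) (by have := k.sum; simp at this ⊢; omega))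
    · exact absurd hb.choose_spec (k.2.1 _)
  · have hb' : ∀ b, b ^ 2 ≠ z := fun b k => hb ⟨b, k⟩
    obtain ⟨j, hj⟩ := HT_kummer Nat.prime_two h hb'
    rw [hj.dim fun a ha => Multiset.eq_of_mem_replicate ha ▸ PP.ne (pp_kummer Nat.prime_two hb')]
    simpa using PD_cycs two_ne_zero (pp_kummer Nat.prime_two hb') j (a := 1) (by rwa [mul_one])

/-- Involutions of PSL_n(q) and imprimitive subgroups. Here `T = PSL_n(F)` for a field `F` with `q = p^f` elements (`n ≥ 2`, `(n, q) ≠ (2, 2), (2, 3)`), `n = a·t` with `t ≥ 2`, and Ω is the set of direct-sum decompositions of `F^n` into `t` subspaces of dimension `a` (unordered; their number is the number of ordered ones divided by `t!`), whose stabilizers are the imprimitive subgroups of type GL_a(q) ≀ S_t (maximal except in some small cases; maximality is not assumed); an element of `T` of prime order `r` (a matrix `x` of determinant 1 with `x^r` scalar, `x` not scalar) fixes a point of Ω when it permutes the summands of some such decomposition. If the number of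 such decompositions is even, then every involution of `T` stabilizes one of them (the action is 2-elusive). -/
theorem result {F : Type*} [Field F] [Fintype F] {p : ℕ} [Fact p.Prime] [CharP F p] {q : ℕ} (hq : Fintype.card F = q)
    (n a t : ℕ) (hn : 2 ≤ n) (hT : (n, q) ≠ (2, 2) ∧ (n, q) ≠ (2, 3)) (hat : n = a * t) (ha : 1 ≤ a) (ht : 2 ≤ t)
    (hΩ : 2 ∣ Nat.card {D : Fin t → Submodule F (Fin n → F) // Cfsg.Geo.IsMDecomposition a D} / Nat.factorial t)
    (x : Matrix.SpecialLinearGroup (Fin n) F)
    (hx1 : ∃ z : F, ((x ^ 2 : Matrix.SpecialLinearGroup (Fin n) F) : Matrix (Fin n) (Fin n) F) = z • (1 : Matrix (Fin n) (Fin n) F))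
    (hx2 : ∀ z : F, (x : Matrix (Fin n) (Fin n) F) ≠ z • (1 : Matrix (Fin n) (Fin n) F)) :
    ∃ D : Fin t → Submodule F (Fin n → F), Cfsg.Geo.IsMDecomposition a D ∧
        ∃ σ : Equiv.Perm (Fin t), ∀ j, (D j).map (Matrix.toLin' (x : Matrix (Fin n) (Fin n) F)) = D (σ j) := by
  obtain ⟨z, hz⟩ := hx1
  rw [Matrix.SpecialLinearGroup.coe_pow, pow_iff] at hz
  have z0 := z_ne (by simp; omega) (by simp) hz
  have k := pd (p := p) z0 hz fun c => mt scal_iff.mpr (hx2 c)
  rw [show Module.finrank F (Fin n → F) = t * a by rw [Module.finrank_fin_fun, hat, mul_comm]] at k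
  obtain ⟨D, σ, h1, h2, h3, h4, -⟩ := (k.regroup (fun _ => ⟨by simp, by simp⟩) (fun _ => ⟨by simp, by simp⟩) z0 hz one_pos).fin
    (Matrix.SpecialLinearGroup.toLin' x).injective
  exact ⟨D, ⟨ht, ha, by simpa using h1, h2, h3⟩, σ, h4⟩

end Cfsg.Agent.S5957
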