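import Cfsg.Statements.S5958
import Cfsg.Agent.H5.El6

set_option autoImplicit false
open scoped MatrixGroups
open Cfsg

namespace Cfsg.Agent.S5958

open CfsgH5 CfsgH5.El CfsgH5.Gl Polynomial

/-- Elements of odd prime order of PSL_n(q) and imprimitive subgroups. Here `T = PSL_n(F)` for a field `F` with `q = p^f` elements (`n ≥ 2`, `(n, q) ≠ (2, 2), (2, 3)`), `n = a·t` with `t ≥ 2`, and Ω is the set of direct-sum decompositions of `F^n` into `t` subspaces of dimension `a` (unordered; their number is the number of ordered ones divided by `t!`), whose stabilizers are the imprimitive subgroups of type GL_a(q) ≀ S_t (maximal except in some small cases; maximality is not assumed); an element of `T` of prime order `r` (a matrix `x` of determinant 1 with `x^r` scalar, `x` not scalar) fixes a point of Ω when it permutes the summands of some such decomposition. Let `r ≠ p` be an odd prime dividing the number of such decompositions, let `c` be the multiplicative order of `q` modulo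 `r`, and write `k = n mod c`, `ℓ = a mod c`. Then every element of `T` of order `r` stabilizes such a decomposition if and only if either `a = 1`, `c = r − 1 > 1` and `n ≤ k·r`, or `c ≤ a` and `k = t·ℓ`. -/
theorem result {F : Type*} [Field F] [Fintype F] {p : ℕ} [Fact p.Prime] [CharP F p] {q : ℕ} (hq : Fintype.card F = q)
    (n a t : ℕ) (hn : 2 ≤ n) (hT : (n, q) ≠ (2, 2) ∧ (n, q) ≠ (2, 3)) (hat : n = a * t) (ha : 1 ≤ a) (ht : 2 ≤ t)
    (r : ℕ) [Fact r.Prime] (hr2 : r ≠ 2) (hrp : r ≠ p) (hΩ : r ∣ Nat.card {D : Fin t → Submodule F (Fin n → F) // Cfsg.Geo.IsMDecomposition a D} / Nat.factorial t)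
    (c : ℕ) (hc : c = orderOf (q : ZMod r)) :
    (∀ x : Matrix.SpecialLinearGroup (Fin n) F,
      (∃ z : F, ((x ^ r : Matrix.SpecialLinearGroup (Fin n) F) : Matrix (Fin n) (Fin n) F) = z • (1 : Matrix (Fin n) (Fin n) F)) →
      (∀ z : F, (x : Matrix (Fin n) (Fin n) F) ≠ z • (1 : Matrix (Fin n) (Fin n) F)) →
      ∃ D : Fin t → Submodule F (Fin n → F), Cfsg.Geo.IsMDecomposition a D ∧
        ∃ σ : Equiv.Perm (Fin t), ∀ j, (D j).map (Matrix.toLin' (x : Matrix (Fin n) (Fin n) F)) = D (σ j)) ↔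
    ((a = 1 ∧ 1 < c ∧ c = r - 1 ∧ n ≤ (n % c) * r) ∨ (c ≤ a ∧ n % c = t * (a % c))) := by
  classical
  have hr : r.Prime := Fact.out
  have hr3 : 3 ≤ r := by have := hr.two_le; omega
  subst hq
  have hV : Module.finrank F (Fin n → F) = t * a := by rw [Module.finrank_fin_fun, hat, mul_comm]
  have fin : ∀ f : Module.End F (Fin n → F), LinearMap.det f = 1 → PD (fun _ _ => 0) f a t → ∃ D : Fin t → Submodule F (Fin n → F),
      Cfsg.Geo.IsMDecomposition a D ∧ ∃ σ : Equiv.Perm (Fin t), ∀ j, (D j).map f = D (σ j) := fun f h1 h2 => by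
    obtain ⟨D, σ, h1, h2, h3, h4, -⟩ := h2.fin ((Module.End.isUnit_iff _).mp ((LinearMap.isUnit_iff_isUnit_det f).mpr (h1 ▸ isUnit_one))).1
    exact ⟨D, ⟨ht, ha, h1, h2, h3⟩, σ, h4⟩
  have c0 : 0 < c := hc ▸ ord_pos hr hrp
  have hcn : c ≤ n := by
    have k1 := fact_dvd (Cfsg.Geo.IsMDecomposition (F := F) (ι := Fin n) (t := t) a)
      (fun D h => h.indep.injective fun j k => by have := h.finrank_eq j; rw [k, finrank_bot] at this; omega)
      fun D σ h => ⟨ht, ha, fun i => h.finrank_eq _, h.indep.comp σ.injective, (σ.surjective.iSup_comp D).trans h.iSup_eq_top⟩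
    obtain ⟨D, hD, -⟩ := fin 1 (map_one _) (PD_parts (parts_rep (i := 1) (c := t * a) (j := 0) t (by simp) (by simp))
      (by simpa [hV] using Gc.HT_scalar (V := Fin n → F) (1 : F)) (fun b hb => Multiset.eq_of_mem_replicate hb ▸ Gc.pp_lin 1)
      (by rw [Multiset.map_replicate, deg_one, Multiset.replicate_zero, add_zero]))
    have k2 := card_dvd_of_trans (⊤ : Subgroup ((Fin n → F) ≃ₗ[F] (Fin n → F))) (Cfsg.Geo.IsMDecomposition a) (w := D) fun E =>
      ⟨fun h => ?_, ?_⟩
    · have := ord_le (V := Fin n → F) hr hrp ((hΩ.trans (Nat.div_dvd_of_dvd k1)).trans (k2.trans Subgroup.card_top.dvd))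
      rwa [← hc, Module.finrank_fin_fun] at this
    · obtain ⟨g, -, hg⟩ := exists_glue hD.indep hD.iSup_eq_top h.indep h.iSup_eq_top fun i =>
        LinearEquiv.ofFinrankEq _ _ ((hD.finrank_eq i).trans (h.finrank_eq i).symm)
      exact ⟨g, trivial, funext hg⟩
    · rintro ⟨g, -, rfl⟩
      exact ⟨ht, ha, fun i => (g.finrank_map_eq _).trans (hD.finrank_eq i), hD.indep.map_orderIso (Submodule.orderIsoMapComap g),
        (Submodule.map_iSup g.toLinearMap D).symm.trans (by rw [hD.iSup_eq_top]; simp)⟩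
  rw [SL_iff (fun f => ∃ D : Fin t → Submodule F (Fin n → F), Cfsg.Geo.IsMDecomposition a D ∧
    ∃ σ : Equiv.Perm (Fin t), ∀ j, (D j).map f = D (σ j))]
  obtain ⟨T, t1, t2, t3, t5, t4⟩ := cyclo_factors (F := F) hr hrp
  rw [← hc] at t2 t3
  have e0 := Nat.mod_add_div' n c
  constructor
  · intro h
    by_cases c1 : c = 1
    · right; simp [c1, ha, Nat.mod_one]
    have c2 : 1 < c := by omega
    have hi : ¬ r ∣ Fintype.card F - 1 := mt (ord_one_iff Fintype.card_pos).mpr (hc ▸ c1)
    obtain ⟨b, hb⟩ : T.Nonempty := Finset.card_pos.mp (Nat.pos_of_ne_zero fun k => by rw [k] at t3; omega)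
    have b1 := (t4 b).mpr (Or.inr hb)
    have mem : ∀ k j, ∀ x ∈ Multiset.replicate k (X - C 1) + Multiset.replicate j b, x = X - C 1 ∨ x = b := fun k j x hx =>
      (Multiset.mem_add.mp hx).imp Multiset.eq_of_mem_replicate Multiset.eq_of_mem_replicate
    have pp : ∀ k j, ∀ x ∈ Multiset.replicate k (X - C 1) + Multiset.replicate j b, PP x ∧ x ∣ X ^ r - 1 := fun k j x hx =>
      (t4 x).mpr ((mem k j x hx).imp_right fun e => by rwa [e])
    have irr : ∀ k j, ∀ x ∈ Multiset.replicate k (X - C 1) + Multiset.replicate j b, x.Monic ∧ Irreducible x := fun k j x hx => by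
      rcases mem k j x hx with rfl | rfl
      exacts [⟨monic_X_sub_C 1, irreducible_X_sub_C 1⟩, ⟨((t5 x).mp hb).1, ((t5 x).mp hb).2.1⟩]
    have nb : X - C 1 ≠ b := fun e => t1 (e ▸ hb)
    have ex : ∀ k j, 1 ≤ j → k + j * c = n → ∃ f D σ, Sy (ι := Fin t) f D σ a r ∧ HT f (Multiset.replicate k (X - C 1) + Multiset.replicate j b) ∧
        Module.finrank F (LinearMap.ker (f - 1) : Submodule F (Fin n → F)) = k ∧
        ((∀ i, σ i = i) → c ≤ a ∧ (k < c → k = t * (a % c))) := fun k j hj e => by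
      obtain ⟨f, a1, a2, a3, a4⟩ := exists_cyc' (V := Fin n → F) hr hi b1.1 b1.2 (by rwa [t2 b hb]) hj (by simpa [t2 b hb] using e)
      obtain ⟨D, hD, σ, hσ⟩ := h f 1 a1 (by rwa [one_smul]) a3
      have S : Sy f D σ a r := ⟨hσ, hD.indep, hD.iSup_eq_top, hD.finrank_eq, ha, hr, a2⟩
      refine ⟨f, D, σ, S, a4, by rw [ker_sub_one a4 (irr k j)]; simp [Multiset.count_replicate, nb.symm, -map_one], fun k' => ?_⟩
      have := S.fixed k' (fun x hx => (pp k j x hx).1) a4 c2 (by rw [deg_rep, t2 b hb])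
      exact ⟨by_contra fun k'' => by have := this.1 (by omega); omega, by simpa using this.2⟩
    obtain ⟨f, D, σ, S, a1, a2, a3⟩ := ex (n % c) (n / c) (Nat.div_pos hcn c0) e0
    by_cases k : ∀ i, σ i = i
    · exact Or.inr ⟨(a3 k).1, (a3 k).2 (Nat.mod_lt _ c0)⟩
    obtain ⟨i, hi'⟩ := not_forall.mp k
    have T1 : T.card = 1 := by
      by_contra k'
      obtain ⟨π, p1, p2⟩ := Finset.exists_mem_ne (show 1 < T.card by have := Finset.card_pos.mpr ⟨b, hb⟩; omega) b
      exact hi' (S.no_cyc (fun x hx => ⟨(irr _ _ x hx).1, (irr _ _ x hx).2, (pp _ _ x hx).2⟩) a1 ((t5 π).mp p1).1 ((t5 π).mp p1).2.1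
        ((t4 π).mpr (Or.inr p1)).2 (fun e => (mem _ _ π e).elim (fun e => t1 (e ▸ p1)) p2) i)
    rw [T1, one_mul] at t3
    have k1 := S.rank_poly hi' (PP.ne b1.1) (by rw [t2 b hb]; omega)
    rw [a1.ker fun x hx => PP.ne (pp _ _ x hx).1, Multiset.map_add, Multiset.sum_add, Multiset.map_replicate (k := n / c),
      cd_dvd (PP.ne b1.1) dvd_rfl, t2 b hb, Multiset.sum_replicate, smul_eq_mul, Module.finrank_fin_fun] at k1
    have k2 := Nat.mod_lt n c0
    obtain ⟨f', D', σ', S', -, b2, b3⟩ := ex (n - c) 1 le_rfl (by omega)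
    obtain ⟨i', hi''⟩ := not_forall.mp (mt b3 (by omega))
    have k3 := S'.rank_sub hi''
    rw [b2, Module.finrank_fin_fun, ← t3] at k3
    obtain rfl : a = 1 := by nlinarith [Nat.sub_add_cancel hcn]
    refine Or.inl ⟨rfl, c2, t3, ?_⟩
    have := S.orbits (Gc.natCast_ne hr hrp) fun j hj v hv => ?_
    · rw [a2, Fintype.card_fin] at this; rw [mul_comm]; omega
    by_cases v0 : v = 0
    · simp [v0]
    obtain ⟨l, hl⟩ := (finrank_eq_one_iff_of_nonzero' (⟨v, hv⟩ : D j) (by simpa using v0)).mp (S.rk j)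
      ⟨f v, hj ▸ S.map j ▸ Submodule.mem_map_of_mem hv⟩
    have e1 : f v = l • v := (congrArg Subtype.val hl).symm
    have e2 := (Module.End.HasEigenvector.pow_apply ⟨Module.End.mem_eigenspace_iff.mpr e1, v0⟩ r).symm
    rw [S.pow, Module.End.one_apply, ← sub_eq_zero, ← one_smul F v, smul_smul, ← sub_smul, smul_eq_zero, or_iff_left v0, mul_one,
      sub_eq_zero] at e2
    rw [e1, eq_one_of_pow hr hi e2, one_smul]
  · intro h f z d1 d2 d3
    have z0 := z_ne (by simp; omega) (by rw [d1]; exact one_ne_zero) d2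
    refine fin f d1 ?_
    by_cases hb : ∃ b, b ^ r = z
    · rcases h with ⟨rfl, h1, h2, h3⟩ | ⟨h1, h2⟩
      · obtain ⟨b, rfl⟩ := hb
        have b0 : b ≠ 0 := by rintro rfl; simp [hr.ne_zero] at z0
        obtain ⟨π, rfl⟩ := Finset.card_eq_one.mp (Nat.eq_of_mul_eq_mul_right c0 (by rw [t3, one_mul, h2]))
        simp only [Finset.mem_singleton, forall_eq] at t4 t2
        obtain ⟨s, s1, s2⟩ := exists_HT (b⁻¹ • f)
        obtain ⟨k, j, rfl⟩ := two_rep fun x hx => (t4 x).mp ⟨s1 x hx, (Gc.HT_pow_iff s2 r).mp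
          (by rw [_root_.smul_pow, d2, smul_smul, ← mul_pow, inv_mul_cancel₀ b0, one_pow, one_smul]) x hx⟩
        have d := s2.dim fun x hx => PP.ne (s1 x hx)
        rw [deg_rep, t2] at d
        simp only [Module.finrank_fin_fun, Multiset.sum_add, Multiset.sum_replicate, smul_eq_mul, mul_one] at d
        have k1 := mod_le d.symm
        obtain ⟨r', rfl⟩ : ∃ r', r = r' + 1 := ⟨r - 1, by omega⟩
        obtain rfl : c = r' := by omega
        obtain ⟨m, rfl⟩ := Nat.exists_eq_add_of_le' (show j ≤ k by nlinarith)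
        rw [Multiset.replicate_add, add_assoc] at s1 s2
        rw [show t = m + j * (c + 1) by rw [mul_add]; omega]
        exact (PD_add s2 s1 (fun U g hg => PD_parts (parts_rep (i := 1) (c := m) (j := 0) m (by simp) (by simp)) hg
          (fun b hb => Multiset.eq_of_mem_replicate hb ▸ Gc.pp_lin 1) (by rw [Multiset.map_replicate, deg_one, Multiset.replicate_zero, add_zero]))
          fun U g hg => PD_cyclo hr3 t4 (by simpa using t2) j hg).smul (inv_ne_zero b0)
      · rcases classify hr hrp z0 d2 d3 with ⟨k, j, -, e⟩ | e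
        · have e1 := e.sum
          simp only [hV, Multiset.sum_add, Multiset.sum_replicate, smul_eq_mul, mul_one, ← hc] at e1 e
          exact e.pd (parts_rep t e1 (le_blocks c0 e1 (by rwa [mul_comm, ← hat])))
        · exact absurd hb.choose_spec (e.2.1 _)
    · have hb' : ∀ b, b ^ r ≠ z := fun b k => hb ⟨b, k⟩
      obtain ⟨j, hj⟩ := HT_kummer hr d2 hb'
      have pp := pp_kummer hr hb'
      have d : t * a = j * r := by rw [← hV, hj.dim fun x hx => Multiset.eq_of_mem_replicate hx ▸ PP.ne pp]; simp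
      rcases (Nat.Prime.dvd_mul hr).mp (d ▸ dvd_mul_left r j) with ⟨u, rfl⟩ | ⟨u, rfl⟩
      · rw [mul_comm r u]
        exact PD_cycs hr.ne_zero pp u (by rwa [Nat.eq_of_mul_eq_mul_right hr.pos (show u * a * r = j * r by rw [← d]; ring)])
      · exact PD_parts (parts_rep (c := 0) (j := j) (i := r) t (by omega) (by
          rw [Nat.mul_div_cancel_left _ hr.pos]; exact Nat.le_of_mul_le_mul_right (by rw [← d]; ring_nf; rfl) hr.pos)) hj
          (fun x hx => Multiset.eq_of_mem_replicate hx ▸ pp) (by simp)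

end Cfsg.Agent.S5958
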