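import Cfsg.Statements.S5959
import Cfsg.Agent.H5.El5

set_option autoImplicit false
open scoped MatrixGroups
open Cfsg

namespace Cfsg.Agent.S5959

open CfsgH5 CfsgH5.El CfsgH5.Gl Polynomial

/-- Elements of order `p` of PSL_n(q) and imprimitive subgroups: a necessary condition. Here `T = PSL_n(F)` for a field `F` with `q = p^f` elements (`n ≥ 2`, `(n, q) ≠ (2, 2), (2, 3)`), `n = a·t` with `t ≥ 2`, and Ω is the set of direct-sum decompositions of `F^n` into `t` subspaces of dimension `a` (unordered; their number is the number of ordered ones divided by `t!`), whose stabilizers are the imprimitive subgroups of type GL_a(q) ≀ S_t (maximal except in some small cases; maximality is not assumed); an element of `T` of prime order `r` (a matrix `x` of determinant 1 with `x^r` scalar, `x` not scalar) fixes a point of Ω when it permutes the summands of some such decomposition. Suppose `p > 2` divides the number of such decompositions. If every element of `T` of order `p` stabilizes such a decomposition, then every partition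 of `n` into parts of size at most `p` in which the part `p` occurs fewer than `a` times contains (as a sub-multiset) a partition of `a`. -/
theorem result {F : Type*} [Field F] [Fintype F] {p : ℕ} [Fact p.Prime] [CharP F p] {q : ℕ} (hq : Fintype.card F = q)
    (n a t : ℕ) (hn : 2 ≤ n) (hT : (n, q) ≠ (2, 2) ∧ (n, q) ≠ (2, 3)) (hat : n = a * t) (ha : 1 ≤ a) (ht : 2 ≤ t)
    (hp : 2 < p) (hΩ : p ∣ Nat.card {D : Fin t → Submodule F (Fin n → F) // Cfsg.Geo.IsMDecomposition a D} / Nat.factorial t)
    (h : ∀ x : Matrix.SpecialLinearGroup (Fin n) F,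
      (∃ z : F, ((x ^ p : Matrix.SpecialLinearGroup (Fin n) F) : Matrix (Fin n) (Fin n) F) = z • (1 : Matrix (Fin n) (Fin n) F)) →
      (∀ z : F, (x : Matrix (Fin n) (Fin n) F) ≠ z • (1 : Matrix (Fin n) (Fin n) F)) →
      ∃ D : Fin t → Submodule F (Fin n → F), Cfsg.Geo.IsMDecomposition a D ∧
        ∃ σ : Equiv.Perm (Fin t), ∀ j, (D j).map (Matrix.toLin' (x : Matrix (Fin n) (Fin n) F)) = D (σ j)) :
    (∀ μ : Multiset ℕ, (∀ b ∈ μ, 0 < b ∧ b ≤ p) → μ.sum = n → μ.count p < a → ∃ ν : Multiset ℕ, ν ≤ μ ∧ ν.sum = a) := by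
  classical
  intro μ a1 a2 a3
  by_cases k : μ = Multiset.replicate μ.sum 1
  · rw [k, a2]; exact (sub_rep' (by nlinarith) one_pos).mpr (one_dvd _)
  have b := pp_unip (F := F) fun a ha => (a1 a ha).1
  obtain ⟨f, hf⟩ := exists_of_type (V := Fin n → F) _ (fun a ha => PP.ne (b a ha)) (by rw [deg_unip, a2]; simp)
  have hp1 := pow_unip (F := F) (fun a ha => (a1 a ha).2) hf
  obtain ⟨D, hD, σ, hσ⟩ := (SL_iff (fun f => ∃ D : Fin t → Submodule F (Fin n → F), Cfsg.Geo.IsMDecomposition a D ∧
    ∃ σ : Equiv.Perm (Fin t), ∀ j, (D j).map f = D (σ j))).mp h f 1 (det_unip (fun a ha => (a1 a ha).1) hf) (by rwa [one_smul])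
    (scal_unip (fun a ha => (a1 a ha).1) hf k)
  have S : Sy f D σ a p := ⟨hσ, hD.indep, hD.iSup_eq_top, hD.finrank_eq, ha, Fact.out, hp1⟩
  by_cases k' : σ ⟨0, by omega⟩ = ⟨0, by omega⟩
  · exact deg_unip (F := F) μ ▸ (split_iff hf b a).mp (S.fix k')
  have e := S.rank_poly k' (P := (X - C 1) ^ (p - 1)) (pow_ne_zero _ (X_sub_C_ne_zero 1))
    (by rw [(monic_X_sub_C 1).natDegree_pow, natDegree_X_sub_C]; omega)
  rw [hf.ker (fun a ha => PP.ne (b a ha)), Multiset.map_map, Module.finrank_fin_fun, ← a2] at e
  have : ∀ μ : Multiset ℕ, (∀ b ∈ μ, b ≤ p) → μ.sum ≤ μ.count p + (μ.map ((fun x => cd x ((X - C 1 : F[X]) ^ (p - 1))) ∘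
      fun e => (X - C 1) ^ e)).sum := fun μ => by
    induction μ using Multiset.induction_on with
    | empty => simp
    | cons c μ ih =>
      intro h
      have := ih fun b hb => h b (Multiset.mem_cons_of_mem hb)
      have := h c (by simp)
      rw [Multiset.map_cons, Multiset.sum_cons, Multiset.sum_cons, Multiset.count_cons, Function.comp, cd_pow (X_sub_C_ne_zero 1),
        natDegree_X_sub_C]
      split_ifs <;> omega
  have := this μ fun b hb => (a1 b hb).2
  omega

end Cfsg.Agent.S5959
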