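import Cfsg.Statements.S5961
import Cfsg.Agent.H5.El17

set_option autoImplicit false
open scoped MatrixGroups
open Cfsg

namespace Cfsg.Agent.S5961

open CfsgH5 CfsgH5.El CfsgH5.Gl CfsgH5.Gc CfsgH5.CForm Polynomial Module

/-- Elements of odd prime order of PSp_n(q) and imprimitive subgroups. Here `T = PSp_n(q)`, `n = 2d ≥ 4`, `(n, q) ≠ (4, 2)`, realised through the symplectic matrices over the field `F` with `q` elements and the standard alternating form; `n = a·t` with `a` even and `t ≥ 2`, and Ω is the (nonempty) set of orthogonal decompositions of `F^n` into `t` nondegenerate subspaces of dimension `a` (unordered; counted as ordered ones divided by `t!`), whose stabilizers are the imprimitive subgroups of type Sp_a(q) ≀ S_t (maximality is not assumed); an element of `T` of prime order `r` (a symplectic matrix `x` with `x^r` scalar, `x` not scalar) fixes a point of Ω when it permutes the summands of some such decomposition. Let `r ≠ p`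 be an odd prime dividing the number of such decompositions, let `i` be the multiplicative order of `q` modulo `r`, `c = i` if `i` is even and `c = 2i` if `i` is odd, and write `k = n mod c`, `ℓ = a mod c`. Then every element of `T` of order `r` stabilizes such a decomposition if and only if `c ≤ a` and `k = t·ℓ`. -/
theorem result {F : Type*} [Field F] [Fintype F] {p : ℕ} [Fact p.Prime] [CharP F p] {q : ℕ} (hq : Fintype.card F = q)
    (d : ℕ) (hd : 2 ≤ d) (hT : (d, q) ≠ (2, 2))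
    (a t : ℕ) (hat : 2 * d = a * t) (ha : 2 ≤ a) (hae : Even a) (ht : 2 ≤ t)
    (r : ℕ) [Fact r.Prime] (hr2 : r ≠ 2) (hrp : r ≠ p) (hΩ : r ∣ Nat.card {D : Fin t → Submodule F (Fin d ⊕ Fin d → F) // (Cfsg.Geo.IsMDecomposition a D ∧ (∀ j, ∀ u ∈ D j, u ≠ 0 → ∃ v ∈ D j, Cfsg.sympForm d F u v ≠ 0) ∧
          (∀ j j', j ≠ j' → ∀ u ∈ D j, ∀ v ∈ D j', Cfsg.sympForm d F u v = 0))} / Nat.factorial t)
    (i c : ℕ) (hi : i = orderOf (q : ZMod r)) (hc : c = if Even i then i else 2 * i) :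
    (∀ x : ↥(Matrix.symplecticGroup (Fin d) F),
      (∃ z : F, ((x ^ r : ↥(Matrix.symplecticGroup (Fin d) F)) : Matrix (Fin d ⊕ Fin d) (Fin d ⊕ Fin d) F) = z • (1 : Matrix (Fin d ⊕ Fin d) (Fin d ⊕ Fin d) F)) →
      (∀ z : F, (x : Matrix (Fin d ⊕ Fin d) (Fin d ⊕ Fin d) F) ≠ z • (1 : Matrix (Fin d ⊕ Fin d) (Fin d ⊕ Fin d) F)) →
      ∃ D : Fin t → Submodule F (Fin d ⊕ Fin d → F), (Cfsg.Geo.IsMDecomposition a D ∧ (∀ j, ∀ u ∈ D j, u ≠ 0 → ∃ v ∈ D j, Cfsg.sympForm d F u v ≠ 0) ∧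
          (∀ j j', j ≠ j' → ∀ u ∈ D j, ∀ v ∈ D j', Cfsg.sympForm d F u v = 0)) ∧
        ∃ σ : Equiv.Perm (Fin t), ∀ j, (D j).map (Matrix.toLin' (x : Matrix (Fin d ⊕ Fin d) (Fin d ⊕ Fin d) F)) = D (σ j)) ↔
    (c ≤ a ∧ (2 * d) % c = t * (a % c)) := by
  subst hq
  have hr : r.Prime := Fact.out
  have hf := spForm_nondeg (F := F) d
  have hn : finrank F (Fin d ⊕ Fin d → F) = 2 * d := by simp [two_mul]
  have hV : finrank F (Fin d ⊕ Fin d → F) = t * a := by rw [hn, hat, mul_comm]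
  obtain ⟨T, H⟩ := exists_UP_id (F := F) hr hr2 hrp
  rw [← hi] at H
  have r0 := natCast_ne (F := F) hr hrp
  have c0 := H.cpos hc
  have hcn : c ≤ 2 * d := by
    obtain ⟨y, -, -, y1⟩ := pd_ex hr hr2 hrp H hc hae t hf hV (t * a) 0 0 ⟨by simp, by simp, by simp⟩ (by simp) (by simp)
    obtain ⟨D, hD, -⟩ := pd_fin hf (by omega) ht y1
    by_contra k
    refine UP.not_dvd (P := FP.symp F) H hc hf hr r0 (by omega) ((hΩ.trans (Nat.div_dvd_of_dvd (fact_dvd _ (fun D h => h.1.indep.injective fun j k => by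
      have := h.1.finrank_eq j; rw [k, finrank_bot] at this; omega) fun D σ ⟨h, h1, h2⟩ => ⟨⟨ht, by omega, fun i => h.finrank_eq _,
        h.indep.comp σ.injective, (σ.surjective.iSup_comp D).trans h.iSup_eq_top⟩, fun j => h1 _, fun j j' e => h2 _ _ (σ.injective.ne e)⟩))).trans
      (card_dvd_of_trans _ _ (w := D) fun E => ⟨fun h => ?_, ?_⟩))
    · obtain ⟨g, g1, g2⟩ := dec_trans (f := spForm F d) hD.1.indep hD.1.iSup_eq_top h.1.indep h.1.iSup_eq_top hD.2.2 h.2.2 fun i =>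
        symp_exists_isIso a (nd_iff.mp (hD.2.1 i)) (nd_iff.mp (h.2.1 i)) (hD.1.finrank_eq i) (h.1.finrank_eq i)
      exact ⟨g, g1, funext g2⟩
    · rintro ⟨g, g1, rfl⟩
      refine ⟨⟨ht, by omega, fun i => (g.finrank_map_eq _).trans (hD.1.finrank_eq i), hD.1.indep.map_orderIso (Submodule.orderIsoMapComap g),
        (Submodule.map_iSup g.toLinearMap D).symm.trans (by rw [hD.1.iSup_eq_top]; simp)⟩,
        fun j => (nd_iff (f := spForm F d)).mpr (nd_map (nd_iff.mp (hD.2.1 j)) g1), ?_⟩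
      rintro i j e _ ⟨u, hu, rfl⟩ _ ⟨v, hv, rfl⟩
      exact (g1.1 u v).trans (hD.2.2 i j e u hu v hv)
  rw [sp_iff fun g => ∃ D : Fin t → Submodule F (Fin d ⊕ Fin d → F), (Cfsg.Geo.IsMDecomposition a D ∧
    (∀ j, ∀ u ∈ D j, u ≠ 0 → ∃ v ∈ D j, Cfsg.sympForm d F u v ≠ 0) ∧ (∀ j j', j ≠ j' → ∀ u ∈ D j, ∀ v ∈ D j', Cfsg.sympForm d F u v = 0)) ∧
      ∃ σ : Equiv.Perm (Fin t), ∀ j, (D j).map g = D (σ j),
    odd_red (fun _ => rfl) hf (by omega) le_rfl (hr.odd_of_ne_two hr2) (fun g => by simp only [Submodule.map_neg, imp_self]) fun _ _ _ h _ => h]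
  have e0 := Nat.mod_add_div' (2 * d) c
  constructor
  · intro h
    have ex : ∀ k j, 1 ≤ j → k + j * c = 2 * d → (c ≤ a ∧ (k < c → k = t * (a % c))) ∨ (a ≤ k ∧ (r - 1) * a ≤ j * c) := fun k j hj e => by
      obtain ⟨w, -, -, hw, -⟩ := H.exists_su hc j
      obtain ⟨x, x1, x2⟩ := (rz_symp hr hr2 hrp H hf k w j hw (by omega)).mpr (Or.inr trivial)
      have x3 : x.1 ^ r = 1 := congrArg Subtype.val x1
      have k0 := UP.ker (P := FP.symp F) H hw.1 x2
      have := Nat.mul_le_mul_right c hj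
      obtain ⟨D, ⟨hD, n1, -⟩, σ, hσ⟩ := h x.1 x.2 x3 fun e => by
        rw [show (x.1.toLinearMap - 1 : End F _) = 0 by rw [e]; exact sub_self _, LinearMap.ker_zero, finrank_top] at k0; omega
      have S : Sy x.1.toLinearMap D σ a r := ⟨hσ, hD.indep, hD.iSup_eq_top, hD.finrank_eq, by omega, hr, by simpa using pow_smul x3⟩
      by_cases s : ∀ i, σ i = i
      · have iv : ∀ i, ∀ v ∈ D i, x.1 v ∈ D i := fun i v hv => s i ▸ (hσ i).le ⟨v, hv, rfl⟩
        choose κ w' b b1 b2 b3 using fun i => UP.isom_ty (P := FP.symp F) H hc (nd_iff.mp (n1 i)) r0 (rs_mem x.2 (iv i)) (rs_pow x3 (iv i))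
        have := HT_internal (f := x.1.toLinearMap) hD.indep hD.iSup_eq_top iv b2
        rw [H.sum_ty] at this
        have k1 := k0.symm.trans (UP.ker (P := FP.symp F) H (fun a ha => by
          obtain ⟨i, -, hi⟩ := Multiset.mem_sum.mp ha; exact (b1 i).1 a hi) this)
        simp only [hD.finrank_eq] at b3
        refine Or.inl ⟨by_contra fun k' => ?_, fun k' => ?_⟩
        · rw [Finset.sum_congr rfl (g := fun _ => a) fun i _ => by
            have := b3 i; rcases hb : b i with _ | n <;> simp [hb, add_mul] at this <;> omega] at k1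
          simp at k1; omega
        · rw [k1, Finset.sum_congr rfl (g := fun _ => a % c) fun i _ => by
            have : κ i ≤ k := k1 ▸ Finset.single_le_sum (fun _ _ => Nat.zero_le _) (Finset.mem_univ i)
            rw [← b3 i, Nat.add_mul_mod_self_right, Nat.mod_eq_of_lt (by omega)]]
          simp
      obtain ⟨i, hi⟩ := not_forall.mp s
      have := S.rank_sub hi
      exact Or.inr ⟨k0 ▸ S.le_ker hi, by omega⟩
    have k2 := Nat.mod_lt (2 * d) c0
    rcases ex _ _ (Nat.div_pos hcn c0) e0 with k | k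
    · exact ⟨k.1, k.2 k2⟩
    rcases ex (2 * d - c) 1 le_rfl (by omega) with k' | k'
    · omega
    have : c ≤ r - 1 := by
      have c1 := H.card
      have := Finset.card_pos.mpr H.ne
      obtain ⟨s, rfl⟩ := hr.odd_of_ne_two hr2
      rw [hc]; split_ifs with e
      · nlinarith
      · exact c1 ▸ Nat.mul_le_mul_right i (Nat.le_of_dvd this (((Nat.prime_two.dvd_mul).mp (c1 ▸ ⟨s, by simp⟩ : 2 ∣ T.card * i)).resolve_right
          (mt even_iff_two_dvd.mpr e)))
    nlinarith [k'.2]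
  · rintro ⟨h1, h2⟩ g hg x3 -
    obtain ⟨k, w, j, hw, x2, e⟩ := UP.isom_ty (P := FP.symp F) H hc hf r0 hg x3
    rw [hV] at e
    obtain ⟨y, y1, y2, y3⟩ := pd_ex hr hr2 hrp H hc hae t hf hV k w j hw e (le_blocks c0 e (by rwa [mul_comm, ← hat]))
    obtain ⟨u, hu⟩ := isConj_iff.mp ((symp_isConj hf (x := ⟨g, hg⟩) (y := ⟨y, y1⟩) (Subtype.ext x3) r0).mpr (x2.sim y2)).symm
    exact pd_fin hf (by omega) ht (y3.conj u.2 fun v => (LinearEquiv.congr_fun (congrArg Subtype.val (mul_inv_eq_iff_eq_mul.mp hu)) v).symm)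

end Cfsg.Agent.S5961
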