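import Cfsg.Statements.S5962
import Cfsg.Agent.H5.El17

set_option autoImplicit false
open scoped MatrixGroups
open Cfsg

namespace Cfsg.Agent.S5962

open CfsgH5 CfsgH5.El CfsgH5.Gl CfsgH5.Gc CfsgH5.CForm Polynomial Module

/-- Involutions of PSp_n(q), q odd, and the subgroups GL_{n/2}(q).2. Here `T = PSp_n(q)`, `n = 2d ≥ 4`, `q` odd, realised through the symplectic matrices over the field `F` with `q` elements; Ω is the set of unordered pairs `{U, W}` of complementary totally isotropic `d`-spaces (`F^n = U ⊕ W`), whose stabilizers are the subgroups of type GL_d(q).2 (maximal except in some small cases; maximality is not assumed); an element of `T` of prime order `r` (a symplectic matrix `x` with `x^r` scalar, `x` not scalar) fixes such a pair when it fixes or interchanges `U` and `W`. If the number of such pairs is even, every involution of `T` fixes one of them (the action is 2-elusive). -/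
theorem result {F : Type*} [Field F] [Fintype F] {p : ℕ} [Fact p.Prime] [CharP F p] {q : ℕ} (hq : Fintype.card F = q)
    (d : ℕ) (hd : 2 ≤ d) (hT : (d, q) ≠ (2, 2)) (hodd : Odd q)
    (hΩ : 2 ∣ Nat.card {P : Submodule F (Fin d ⊕ Fin d → F) × Submodule F (Fin d ⊕ Fin d → F) // IsCompl P.1 P.2 ∧ (∀ u ∈ P.1, ∀ v ∈ P.1, Cfsg.sympForm d F u v = 0) ∧ (∀ u ∈ P.2, ∀ v ∈ P.2, Cfsg.sympForm d F u v = 0)} / 2)
    (x : ↥(Matrix.symplecticGroup (Fin d) F))
    (hx1 : ∃ z : F, ((x ^ 2 : ↥(Matrix.symplecticGroup (Fin d) F)) : Matrix (Fin d ⊕ Fin d) (Fin d ⊕ Fin d) F) = z • (1 : Matrix (Fin d ⊕ Fin d) (Fin d ⊕ Fin d) F))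
    (hx2 : ∀ z : F, (x : Matrix (Fin d ⊕ Fin d) (Fin d ⊕ Fin d) F) ≠ z • (1 : Matrix (Fin d ⊕ Fin d) (Fin d ⊕ Fin d) F)) :
    ∃ U W : Submodule F (Fin d ⊕ Fin d → F), IsCompl U W ∧ (∀ u ∈ U, ∀ v ∈ U, Cfsg.sympForm d F u v = 0) ∧ (∀ u ∈ W, ∀ v ∈ W, Cfsg.sympForm d F u v = 0) ∧
        ((U.map (Matrix.toLin' (x : Matrix (Fin d ⊕ Fin d) (Fin d ⊕ Fin d) F)) = U ∧ W.map (Matrix.toLin' (x : Matrix (Fin d ⊕ Fin d) (Fin d ⊕ Fin d) F)) = W) ∨
         (U.map (Matrix.toLin' (x : Matrix (Fin d ⊕ Fin d) (Fin d ⊕ Fin d) F)) = W ∧ W.map (Matrix.toLin' (x : Matrix (Fin d ⊕ Fin d) (Fin d ⊕ Fin d) F)) = U)) := by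
  subst hq
  have hf := spForm_nondeg (F := F) d
  have hn : finrank F (Fin d ⊕ Fin d → F) = 2 * d := by simp [two_mul]
  have t : (2 : F) ≠ 0 := natCast_ne (F := F) Nat.prime_two (p_ne_two hodd).symm
  revert x
  refine (sp_iff fun g => ∃ U W : Submodule F (Fin d ⊕ Fin d → F), IsCompl U W ∧ (∀ u ∈ U, ∀ v ∈ U, Cfsg.sympForm d F u v = 0) ∧
    (∀ u ∈ W, ∀ v ∈ W, Cfsg.sympForm d F u v = 0) ∧ ((U.map g = U ∧ W.map g = W) ∨ (U.map g = W ∧ W.map g = U))).mpr fun g hg z h1 _ => ?_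
  have m := fun u : Fin d ⊕ Fin d → F => Submodule.mem_span_singleton_self (R := F) u
  have key : ∃ σ : Bool → Bool, (σ = id ∨ σ = not) ∧ ∀ W : Submodule F _, ((spForm F d).res W).Nondeg → (∀ v ∈ W, g v ∈ W) → 2 ≤ finrank F W →
      Even (finrank F W) → ∃ u : Bool → _, (spForm F d).B (u false) (u true) ≠ 0 ∧ ∀ b, u b ∈ W ∧ (spForm F d).Q (u b) = 0 ∧ g (u b) ∈ F ∙ u (σ b) := by
    rcases sq_cases (fun _ => rfl) hf (by omega) hg h1 with e | e
    · refine ⟨id, Or.inl rfl, fun W a b c _ => ?_⟩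
      obtain ⟨v, v1, v0⟩ := W.ne_bot_iff.mp fun e => by rw [e, finrank_bot] at c; omega
      obtain ⟨u, s, u1, u0, s1, u2⟩ : ∃ (u : _) (s : F), u ∈ W ∧ u ≠ 0 ∧ s * s = 1 ∧ g u = s • u := by
        by_cases k : v + g v = 0
        exacts [⟨v, -1, v1, v0, by simp, by rw [eq_neg_of_add_eq_zero_right k]; simp⟩,
          ⟨_, 1, add_mem v1 (b v v1), k, by simp, by simp [e, add_comm]⟩]
      obtain ⟨w, w1, w2⟩ := nd_iff.mpr a u u1 u0
      refine ⟨fun b => if b then w + s • g w else u, ?_, ?_⟩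
      · have := hg.1 u w
        rw [u2, B_smul_left] at this
        simpa [this, ← two_mul, t] using w2
      · rintro (_ | _)
        exacts [⟨u1, symp_Q _ _, u2 ▸ Submodule.smul_mem _ _ (m u)⟩, ⟨add_mem w1 (W.smul_mem _ (b w w1)), symp_Q _ _,
          Submodule.mem_span_singleton.mpr ⟨s, by simp [e, smul_smul, s1, add_comm]⟩⟩]
    · refine ⟨not, Or.inr rfl, fun W a b c _ => ?_⟩
      obtain ⟨v, v1, v0⟩ := W.ne_bot_iff.mp fun e => by rw [e, finrank_bot] at c; omega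
      obtain ⟨u, u1, u2⟩ : ∃ u ∈ W, (spForm F d).B u (g u) ≠ 0 := by
        by_contra k
        push Not at k
        obtain ⟨w, w1, w2⟩ := nd_iff.mpr a (g v) (b v v1) (by simpa)
        have := k _ (add_mem v1 w1)
        have k' := hg.1 v (g w)
        rw [e, B_neg_right] at k'
        rw [map_add, B_add_left, B_add_right, B_add_right, k v v1, k w w1, ← k', symp_B_symm _ (g v) w] at this
        exact w2 (mul_left_cancel₀ t (by linear_combination -this))
      refine ⟨fun b => if b then g u else u, u2, ?_⟩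
      rintro (_ | _)
      exacts [⟨u1, symp_Q _ _, m _⟩, ⟨b u u1, symp_Q _ _, by simp [e]⟩]
  obtain ⟨σ, s, k⟩ := key
  obtain ⟨D, d1, d2⟩ := lag hf hg σ hn k
  have r := TS_half hf (d2 _).1 (d2 _).1 d1
  have e : ∀ b, (D b).map g.toLinearMap = D (σ b) := fun b => Submodule.eq_of_le_of_finrank_eq (Submodule.map_le_iff_le_comap.mpr (d2 b).2)
    ((g.finrank_map_eq _).trans (by rcases b with _ | _ <;> rcases σ _ with _ | _ <;> omega))
  exact ⟨_, _, d1, (d2 _).1.2, (d2 _).1.2, s.imp (by rintro rfl; exact ⟨e _, e _⟩) (by rintro rfl; exact ⟨e _, e _⟩)⟩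

end Cfsg.Agent.S5962
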