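import Cfsg.Statements.S5963
import Cfsg.Agent.H5.El17

set_option autoImplicit false
open scoped MatrixGroups
open Cfsg

namespace Cfsg.Agent.S5963

open CfsgH5 CfsgH5.El CfsgH5.Gl CfsgH5.Gc CfsgH5.CForm Polynomial Module

/-- Derangements of odd prime order of PSp_n(q), q odd, on pairs of complementary totally isotropic subspaces. Here `T = PSp_n(q)`, `n = 2d ≥ 4`, `q` odd, realised through the symplectic matrices over the field `F` with `q` elements; Ω is the set of unordered pairs `{U, W}` of complementary totally isotropic `d`-spaces (`F^n = U ⊕ W`), whose stabilizers are the subgroups of type GL_d(q).2 (maximal except in some small cases; maximality is not assumed); an element of `T` of prime order `r` (a symplectic matrix `x` with `x^r` scalar, `x` not scalar) fixes such a pair when it fixes or interchanges `U` and `W`. For every odd prime `r ≠ p` dividing the number of such pairs, some element of `T` of order `r` fixes no such pair (the action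 is never `r`-elusive for odd `r ≠ p`). -/
theorem result {F : Type*} [Field F] [Fintype F] {p : ℕ} [Fact p.Prime] [CharP F p] {q : ℕ} (hq : Fintype.card F = q)
    (d : ℕ) (hd : 2 ≤ d) (hT : (d, q) ≠ (2, 2)) (hodd : Odd q)
    (r : ℕ) [Fact r.Prime] (hr2 : r ≠ 2) (hrp : r ≠ p) (hΩ : r ∣ Nat.card {P : Submodule F (Fin d ⊕ Fin d → F) × Submodule F (Fin d ⊕ Fin d → F) // IsCompl P.1 P.2 ∧ (∀ u ∈ P.1, ∀ v ∈ P.1, Cfsg.sympForm d F u v = 0) ∧ (∀ u ∈ P.2, ∀ v ∈ P.2, Cfsg.sympForm d F u v = 0)} / 2) :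
    ∃ x : ↥(Matrix.symplecticGroup (Fin d) F),
      (∃ z : F, ((x ^ r : ↥(Matrix.symplecticGroup (Fin d) F)) : Matrix (Fin d ⊕ Fin d) (Fin d ⊕ Fin d) F) = z • (1 : Matrix (Fin d ⊕ Fin d) (Fin d ⊕ Fin d) F)) ∧
      (∀ z : F, (x : Matrix (Fin d ⊕ Fin d) (Fin d ⊕ Fin d) F) ≠ z • (1 : Matrix (Fin d ⊕ Fin d) (Fin d ⊕ Fin d) F)) ∧
      ¬ (∃ U W : Submodule F (Fin d ⊕ Fin d → F), IsCompl U W ∧ (∀ u ∈ U, ∀ v ∈ U, Cfsg.sympForm d F u v = 0) ∧ (∀ u ∈ W, ∀ v ∈ W, Cfsg.sympForm d F u v = 0) ∧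
        ((U.map (Matrix.toLin' (x : Matrix (Fin d ⊕ Fin d) (Fin d ⊕ Fin d) F)) = U ∧ W.map (Matrix.toLin' (x : Matrix (Fin d ⊕ Fin d) (Fin d ⊕ Fin d) F)) = W) ∨
         (U.map (Matrix.toLin' (x : Matrix (Fin d ⊕ Fin d) (Fin d ⊕ Fin d) F)) = W ∧ W.map (Matrix.toLin' (x : Matrix (Fin d ⊕ Fin d) (Fin d ⊕ Fin d) F)) = U))) := by
  subst hq
  have hr : r.Prime := Fact.out
  have hf := spForm_nondeg (F := F) d
  have hn : finrank F (Fin d ⊕ Fin d → F) = 2 * d := by simp [two_mul]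
  obtain ⟨T, H⟩ := exists_UP_id (F := F) hr hr2 hrp
  set i := orderOf (Fintype.card F : ZMod r) with hi
  have key : Even i ∧ i ≤ 2 * d := by
    obtain ⟨D, d1, d2⟩ := lag hf (one_mem _) id hn fun W a _ c _ => by
      obtain ⟨u, w, e⟩ := symp_exists_hyp a (by omega)
      exact ⟨fun b => if b then w else u, e.hxy.trans_ne one_ne_zero, by rintro (_ | _) <;> simp [symp_Q]⟩
    have k := card_pair hf (D := (D false, D true)) ⟨d1, (d2 _).1, (d2 _).1⟩
    have := TS_half hf (d2 _).1 (d2 _).1 d1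
    have pos : ∀ j, 0 < Fintype.card F ^ (j + 1) - 1 := fun j => Nat.sub_pos_of_lt (Nat.one_lt_pow (by omega) Fintype.one_lt_card)
    rw [card_lin, symp_card_Isom d hf hn, show finrank F (D false) = d by omega, Nat.card_eq_fintype_card (α := F), ← mul_assoc,
      Finset.prod_congr rfl (g := fun j => (Fintype.card F ^ (j + 1) + 1) * (Fintype.card F ^ (j + 1) - 1)) (s₂ := Finset.range d)
        (f := fun j => Fintype.card F ^ (2 * (j + 1)) - 1) fun j _ => by rw [← Nat.sq_sub_sq, mul_comm, pow_mul, one_pow],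
      Finset.prod_mul_distrib, ← mul_assoc] at k
    replace k := Nat.eq_of_mul_eq_mul_right (Finset.prod_pos fun j _ => pos j) k
    have e2 : 2 ∣ Nat.card {D // LP (spForm F d) D} := (Nat.coprime_two_left.mpr hodd.pow).dvd_of_dvd_mul_right
      (k ▸ ((by simpa using hodd.add_one.two_dvd : 2 ∣ Fintype.card F ^ (0 + 1) + 1).trans
        (Finset.dvd_prod_of_mem (fun x => Fintype.card F ^ (x + 1) + 1) (Finset.mem_range.mpr (by omega : 0 < d)))).mul_left _)
    have e3 : r ∣ Nat.card {D // LP (spForm F d) D} := Dvd.dvd.trans (by simpa only [LP, TS_symp, spForm_B] using hΩ) (Nat.div_dvd_of_dvd e2)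
    have q0 := card_ne_zmod (F := F) hr hrp
    rcases (hr.dvd_mul).mp (k ▸ e3.mul_right _) with e | e
    · exact absurd ((ZMod.natCast_eq_zero_iff _ _).mpr (hr.dvd_of_dvd_pow e)) q0
    obtain ⟨j, j1, j2⟩ := (Prime.dvd_finset_prod_iff hr.prime _).mp e
    have j3 : (Fintype.card F : ZMod r) ^ (j + 1) = -1 := eq_neg_of_add_eq_zero_left (by exact_mod_cast (ZMod.natCast_eq_zero_iff _ _).mpr j2)
    have j4 : i ∣ 2 * (j + 1) := orderOf_dvd_of_pow_eq_one (by rw [mul_comm, pow_mul, j3]; simp)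
    haveI : Fact (2 < r) := ⟨lt_of_le_of_ne hr.two_le (Ne.symm hr2)⟩
    have := Finset.mem_range.mp j1
    exact ⟨by_contra fun o => ZMod.neg_one_ne_one (j3.symm.trans (orderOf_dvd_iff_pow_eq_one.mp
      ((Nat.coprime_two_right.mpr (Nat.not_even_iff_odd.mp o)).dvd_of_dvd_mul_left j4))), (Nat.le_of_dvd (by omega) j4).trans (by omega)⟩
  by_contra h
  have h := (sp_iff (r := r) fun g => ∃ U W : Submodule F (Fin d ⊕ Fin d → F), IsCompl U W ∧ (∀ u ∈ U, ∀ v ∈ U, Cfsg.sympForm d F u v = 0) ∧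
    (∀ u ∈ W, ∀ v ∈ W, Cfsg.sympForm d F u v = 0) ∧ ((U.map g = U ∧ W.map g = W) ∨ (U.map g = W ∧ W.map g = U))).mp fun x a b =>
      by_contra fun c => h ⟨x, a, b, c⟩
  rw [odd_red (fun _ => rfl) hf (by omega) le_rfl (hr.odd_of_ne_two hr2) (fun g => by simp [Submodule.map_neg]) fun _ _ _ h _ => h] at h
  obtain ⟨a, ha⟩ := H.ne
  have hc : i = if Even i then i else 2 * i := (if_pos key.1).symm
  have sw : El.SU (RingHom.id F) r T i i {a} 1 := ⟨by simpa, H.map_sd key.1 (by simpa), by simp⟩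
  obtain ⟨x, x1, x2⟩ := (rz_symp hr hr2 hrp H hf (2 * d - i) {a} 1 sw (by omega)).mpr (Or.inr trivial)
  have x3 : x.1 ^ r = 1 := congrArg Subtype.val x1
  have k0 := UP.ker (P := FP.symp F) H sw.1 x2
  have i0 := H.pos
  obtain ⟨U, W, u1, u2, u3, u4⟩ := h x.1 x.2 x3 fun e => by
    rw [show (x.1.toLinearMap - 1 : End F _) = 0 by rw [e]; exact sub_self _, LinearMap.ker_zero, finrank_top] at k0; omega
  have hh := TS_half hf (TS_symp.mpr u2) (TS_symp.mpr u3) u1
  have u5 : U.map x.1.toLinearMap = U := u4.elim (·.1) fun e => by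
    obtain ⟨k, rfl⟩ := hr.odd_of_ne_two hr2
    have := map_pow_eq (f := x.1.toLinearMap) (D := fun b => if b then W else U) (σ := Equiv.boolNot) (by rintro (_ | _) <;> simp [e]) (2 * k + 1) false
    rw [pow_smul x3, Function.iterate_succ_apply', Function.iterate_mul, Function.iterate_fixed rfl] at this
    obtain rfl : U = W := by simpa [Module.End.one_eq_id] using this
    exact e.1
  obtain ⟨b, b', t, t', -, -, e1, e2, e3, -⟩ := UP.ts_ty (P := FP.symp F) H hc hf (natCast_ne hr hrp) x.2 x3 sw.1 x2 (TS_symp.mpr u2)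
    fun u hu => u5.le ⟨u, hu, rfl⟩
  have := congrArg Multiset.card e2
  simp only [Multiset.card_add, Multiset.card_map, Multiset.card_singleton] at this
  rw [show t.card = 0 by omega] at e3
  omega

end Cfsg.Agent.S5963
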