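import Cfsg.Statements.S5967
import Cfsg.Agent.H6.Ds2

set_option autoImplicit false
open scoped MatrixGroups
open Cfsg

namespace Cfsg.Agent.S5967

/-- Involutions of PSL_n(q) and the symplectic-type subgroups. Here `T = PSL_n(F)` for a field `F` with `q` elements, `n ≥ 4` even, `f` is a nondegenerate alternating form on `F^n`, and `H` is the subgroup of matrices of determinant 1 preserving `f` up to a scalar — a maximal subgroup of type Sp_n(q); Ω is the set of `T`-conjugates of `H` (cosets of `H`), so an element of `T` of prime order `r` (a matrix `x` of determinant 1 with `x^r` scalar, `x` not scalar) fixes a point of Ω when some conjugate of `x` by a matrix of determinant 1 preserves `f` up to a scalar. Suppose the index of `H` is even. Then every involution of `T` is conjugate in `T` into `H` if and only if `(q − 1)_2 ≤ (n)_2`. -/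
theorem result {F : Type*} [Field F] [Fintype F] {p : ℕ} [Fact p.Prime] [CharP F p] {q : ℕ} (hq : Fintype.card F = q)
    (n : ℕ) (hn : 4 ≤ n) (he : Even n) (f : (Fin n → F) → (Fin n → F) → F) (hf : Cfsg.Geo.IsSymplecticForm f)
    (hΩ : 2 ∣ ((Cfsg.Geo.similarityGroup f).comap (Matrix.SpecialLinearGroup.toGL : Matrix.SpecialLinearGroup (Fin n) F →* GL (Fin n) F)).index) :
    (∀ x : Matrix.SpecialLinearGroup (Fin n) F,
      (∃ z : F, ((x ^ 2 : Matrix.SpecialLinearGroup (Fin n) F) : Matrix (Fin n) (Fin n) F) = z • (1 : Matrix (Fin n) (Fin n) F)) →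
      (∀ z : F, (x : Matrix (Fin n) (Fin n) F) ≠ z • (1 : Matrix (Fin n) (Fin n) F)) →
      ∃ P : Matrix.SpecialLinearGroup (Fin n) F, P⁻¹ * x * P ∈ ((Cfsg.Geo.similarityGroup f).comap (Matrix.SpecialLinearGroup.toGL : Matrix.SpecialLinearGroup (Fin n) F →* GL (Fin n) F))) ↔
    padicValNat 2 (q - 1) ≤ padicValNat 2 n := by
  classical
  subst hq
  have q2 : 2 ≤ Fintype.card F := Fintype.one_lt_card
  let B : LinearMap.BilinForm F (Fin n → F) := LinearMap.mk₂ F f hf.bilinear.add_left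
    hf.bilinear.smul_left hf.bilinear.add_right fun c x y => hf.bilinear.smul_right c x y
  have hB : B.IsAlt := hf.alternating
  have nd : ∀ v, (∀ u, B u v = 0) → v = 0 := fun v h => by
    by_contra hv
    obtain ⟨x, hx⟩ := (hf.nondegenerate v hv).1
    exact hx (h x)
  refine ⟨fun H => ?_, fun hv x ⟨z, hz⟩ hs => ?_⟩
  · by_contra hlt
    have d1 : 2 ^ (padicValNat 2 n + 1) ∣ Fintype.card F - 1 :=
      (padicValNat_dvd_iff_le (by omega)).2 (by omega)
    have h2 : (2 : F) ≠ 0 := fun e => by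
      have : ringChar F = 2 := CharP.ringChar_of_prime_eq_zero Nat.prime_two (by simpa using e)
      have := FiniteField.even_card_of_char_two this
      have := (dvd_pow_self 2 (Nat.succ_ne_zero _)).trans d1
      omega
    have e2 := IsCyclic.card_orderOf_eq_totient (α := Fˣ) (d := 2 ^ (padicValNat 2 n + 1))
      (by rwa [Fintype.card_units])
    obtain ⟨ζ, hζ⟩ := Finset.card_pos.1 (e2 ▸ Nat.totient_pos.2 (Nat.two_pow_pos (padicValNat 2 n + 1)))
    have hζ' : orderOf (ζ : F) = 2 ^ (padicValNat 2 n + 1) := by rw [orderOf_units]; simpa using hζ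
    have zn : (ζ : F) ^ n = -1 := by
      have a1 : (ζ : F) ^ n * (ζ : F) ^ n = 1 := by
        rw [← pow_add, ← orderOf_dvd_iff_pow_eq_one, hζ', pow_succ, ← mul_two]
        exact Nat.mul_dvd_mul_right pow_padicValNat_dvd 2
      refine (mul_self_eq_one_iff.1 a1).resolve_left fun e => ?_
      rw [← orderOf_dvd_iff_pow_eq_one, hζ', padicValNat_dvd_iff_le (by omega)] at e
      omega
    obtain ⟨m, rfl⟩ : ∃ m, n = m + 4 := ⟨n - 4, by omega⟩
    have h3 := CfsgH6.Ds.bad_refl (m := m) h2 ζ.ne_zero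
    obtain ⟨P, c, hc⟩ := H ⟨Matrix.diagonal fun i : Fin (m + 4) => if i = 0 then -(ζ : F) else ζ, by
        rw [Matrix.det_diagonal, Fin.prod_univ_succ, Finset.prod_congr rfl fun i _ => if_neg (Fin.succ_ne_zero i)]
        simp only [if_true, Finset.prod_const, Finset.card_univ, Fintype.card_fin]
        linear_combination -zn⟩
      ⟨ζ ^ 2, by
        change Matrix.diagonal _ ^ 2 = _
        rw [Matrix.diagonal_pow, ← Matrix.diagonal_one, ← Matrix.diagonal_smul]
        congr 1
        funext i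
        rw [Pi.pow_apply]
        split_ifs <;> simp⟩
      fun z e => h3 B hB nd (z * z) fun u v => by
        rw [show Matrix.diagonal _ = z • 1 from e]
        simp [Matrix.smul_mulVec, mul_assoc]
    have hP : P.1 * (P⁻¹).1 = 1 := congrArg Subtype.val (mul_inv_cancel P)
    refine h3 (B.comp (Matrix.toLin' (P⁻¹).1) (Matrix.toLin' (P⁻¹).1)) (fun v => hB _)
      (fun v h => ?_) c fun u v => ?_
    · have := nd ((P⁻¹).1.mulVec v) fun u => by
        have := h (P.1.mulVec u)
        rwa [LinearMap.BilinForm.comp_apply, Matrix.toLin'_apply, Matrix.toLin'_apply,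
          Matrix.mulVec_mulVec, mul_eq_one_comm.1 hP, Matrix.one_mulVec] at this
      rw [← Matrix.one_mulVec v, ← hP, ← Matrix.mulVec_mulVec, this, Matrix.mulVec_zero]
    · have := hc ((P⁻¹).1.mulVec u) ((P⁻¹).1.mulVec v)
      change f (((P⁻¹).1 * Matrix.diagonal _ * P.1).mulVec _) (((P⁻¹).1 * Matrix.diagonal _ * P.1).mulVec _) = _ at this
      rw [Matrix.mulVec_mulVec, Matrix.mulVec_mulVec, mul_assoc, hP, mul_one, ← Matrix.mulVec_mulVec,
        ← Matrix.mulVec_mulVec] at this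
      exact this
  obtain ⟨m, rfl⟩ : ∃ m, n = 2 * m := he.two_dvd
  change x.1 ^ 2 = _ at hz
  have zn : z ^ (2 * m) = 1 := by
    have := congrArg Matrix.det hz
    simpa [x.det_coe] using this.symm
  have z0 : z ≠ 0 := by rintro rfl; rw [zero_pow (by omega)] at zn; exact zero_ne_one zn
  have hx : ∀ v, Matrix.toLin' x.1 (Matrix.toLin' x.1 v) = z • v := fun v => by
    rw [Matrix.toLin'_apply, Matrix.toLin'_apply, Matrix.mulVec_mulVec, ← pow_two, hz, Matrix.smul_mulVec,
      Matrix.one_mulVec]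
  have hs' : ∀ w : F, ¬ ∀ v, Matrix.toLin' x.1 v = w • v := fun w h => hs w
    (Matrix.toLin'.injective (LinearMap.ext fun v => by rw [h]; simp))
  obtain ⟨c, c0, B', a1, a2, a3⟩ : ∃ c : F, c ≠ 0 ∧ CfsgH6.Ds.Good (Matrix.toLin' x.1) c := by
    by_cases h : (2 : F) = 0 ∨ ¬ IsSquare z
    · exact ⟨-z, neg_ne_zero.2 z0, CfsgH6.Ds.good1 h m _ _ (by simp) hx⟩
    push Not at h
    obtain ⟨h2, w, hw⟩ := h
    refine ⟨z, z0, CfsgH6.Ds.good2 z0 h2 m _ _ (by simp) hx ?_⟩
    rw [LinearMap.det_toLin', x.det_coe]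
    have w0 : w ≠ 0 := by rintro rfl; exact z0 (by simpa using hw)
    have o1 := orderOf_dvd_of_pow_eq_one (FiniteField.pow_card_sub_one_eq_one w w0)
    have o2 : orderOf w ∣ 2 * m * 2 := orderOf_dvd_of_pow_eq_one (by
      rw [mul_comm, pow_mul, pow_two, ← hw, zn])
    rw [hw, ← pow_two, ← pow_mul, eq_comm, ← orderOf_dvd_iff_pow_eq_one]
    obtain ⟨k, hk⟩ := o2
    rcases Nat.even_or_odd k with ⟨j, rfl⟩ | ho
    · exact ⟨j, by nlinarith⟩
    · have d1 : 2 ^ (padicValNat 2 (2 * m) + 1) ∣ orderOf w :=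
        ((Nat.coprime_two_left.2 ho).pow_left _).dvd_of_dvd_mul_right (by
          rw [← hk, pow_succ]; exact Nat.mul_dvd_mul_right pow_padicValNat_dvd 2)
      have := (padicValNat_dvd_iff_le (by omega)).1 (d1.trans o1)
      omega
  obtain ⟨g, hg, -⟩ := CfsgH5.CForm.symp_exists_isIso (2 * m) (f := CfsgH5.CForm.ofAlt B hB)
    (f' := CfsgH5.CForm.ofAlt B' a1) nd a2 (by simp) (by simp)
  have g0 : LinearMap.det g.toLinearMap ≠ 0 := (LinearEquiv.isUnit_det' g).ne_zero
  obtain ⟨y, y1, y2⟩ := CfsgH6.Ds.cent z0 hx hs' (LinearMap.det g.toLinearMap)⁻¹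
  have yi : Function.Injective y := LinearMap.ker_eq_bot.1 ((LinearMap.isUnit_iff_ker_eq_bot y).1
    ((LinearMap.isUnit_iff_isUnit_det y).2 (by rw [y1]; exact (inv_ne_zero g0).isUnit)))
  let P : Matrix.SpecialLinearGroup (Fin (2 * m)) F := ⟨LinearMap.toMatrix' (y ∘ₗ g.toLinearMap), by
    rw [LinearMap.det_toMatrix', LinearMap.det_comp, y1, inv_mul_cancel₀ g0]⟩
  have hP : ∀ u, P.1.mulVec u = y (g u) := fun u => LinearMap.toMatrix'_mulVec _ _
  have key : ∀ u, g ((P⁻¹ * x * P).1.mulVec u) = Matrix.toLin' x.1 (g u) := fun u => yi (by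
    rw [← hP, y2, ← hP, Matrix.toLin'_apply, Matrix.mulVec_mulVec, Matrix.mulVec_mulVec]
    congr 1
    exact congrArg Subtype.val (show P * (P⁻¹ * x * P) = x * P by group))
  refine ⟨P, Units.mk0 c c0, fun u v => ?_⟩
  change (CfsgH5.CForm.ofAlt B hB).B ((P⁻¹ * x * P).1.mulVec u) ((P⁻¹ * x * P).1.mulVec v) =
    c * (CfsgH5.CForm.ofAlt B hB).B u v
  rw [← hg, ← hg, key, key]
  exact a3 _ _

end Cfsg.Agent.S5967
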