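import Cfsg.Statements.S5968
import Cfsg.Agent.H6.Ds1

set_option autoImplicit false
open scoped MatrixGroups
open Cfsg

namespace Cfsg.Agent.S5968

/-- Derangements of odd prime order of PSL_n(q) on the cosets of a symplectic-type subgroup. Here `T = PSL_n(F)` for a field `F` with `q` elements, `n ≥ 4` even, `f` is a nondegenerate alternating form on `F^n`, and `H` is the subgroup of matrices of determinant 1 preserving `f` up to a scalar — a maximal subgroup of type Sp_n(q); Ω is the set of `T`-conjugates of `H` (cosets of `H`), so an element of `T` of prime order `r` (a matrix `x` of determinant 1 with `x^r` scalar, `x` not scalar) fixes a point of Ω when some conjugate of `x` by a matrix of determinant 1 preserves `f` up to a scalar. For every odd prime `r` dividing the index of `H`, with `(n, r) ≠ (6, 3)`, there is an element of `T` of order `r` with no conjugate in `H`. (For `n = 6`, `r = 3` this can fail: when `(q − 1)_3 = 3` every element of order 3 is conjugate into `H`.) -/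
theorem result {F : Type*} [Field F] [Fintype F] {p : ℕ} [Fact p.Prime] [CharP F p] {q : ℕ} (hq : Fintype.card F = q)
    (n : ℕ) (hn : 4 ≤ n) (he : Even n) (f : (Fin n → F) → (Fin n → F) → F) (hf : Cfsg.Geo.IsSymplecticForm f)
    (r : ℕ) [Fact r.Prime] (hr2 : r ≠ 2) (hgap : ¬ (n = 6 ∧ r = 3)) (hΩ : r ∣ ((Cfsg.Geo.similarityGroup f).comap (Matrix.SpecialLinearGroup.toGL : Matrix.SpecialLinearGroup (Fin n) F →* GL (Fin n) F)).index) :
    ∃ x : Matrix.SpecialLinearGroup (Fin n) F,
      (∃ z : F, ((x ^ r : Matrix.SpecialLinearGroup (Fin n) F) : Matrix (Fin n) (Fin n) F) = z • (1 : Matrix (Fin n) (Fin n) F)) ∧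
      (∀ z : F, (x : Matrix (Fin n) (Fin n) F) ≠ z • (1 : Matrix (Fin n) (Fin n) F)) ∧
      ∀ P : Matrix.SpecialLinearGroup (Fin n) F, P⁻¹ * x * P ∉ ((Cfsg.Geo.similarityGroup f).comap (Matrix.SpecialLinearGroup.toGL : Matrix.SpecialLinearGroup (Fin n) F →* GL (Fin n) F)) := by
  classical
  have hr : r.Prime := Fact.out
  let B : LinearMap.BilinForm F (Fin n → F) := LinearMap.mk₂ F f hf.bilinear.add_left
    hf.bilinear.smul_left hf.bilinear.add_right fun c x y => hf.bilinear.smul_right c x y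
  have hB : B.IsAlt := hf.alternating
  have nd : ∀ v, (∀ u, B u v = 0) → v = 0 := fun v h => by
    by_contra hv
    obtain ⟨x, hx⟩ := (hf.nondegenerate v hv).1
    exact hx (h x)
  suffices h : ∃ x : Matrix (Fin n) (Fin n) F, x.det = 1 ∧ x ^ r = 1 ∧ CfsgH6.Ds.Bad x by
    obtain ⟨x, h1, h2, h3⟩ := h
    refine ⟨⟨x, h1⟩, ⟨1, by rw [one_smul]; exact h2⟩, fun z e => h3 B hB nd (z * z) fun u v => ?_,
      fun P ⟨c, hc⟩ => ?_⟩
    · rw [show x = z • 1 from e]
      simp [Matrix.smul_mulVec, mul_assoc]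
    · have hP : P.1 * (P⁻¹).1 = 1 := congrArg Subtype.val (mul_inv_cancel P)
      refine h3 (B.comp (Matrix.toLin' (P⁻¹).1) (Matrix.toLin' (P⁻¹).1)) (fun v => hB _)
        (fun v h => ?_) c fun u v => ?_
      · have := nd ((P⁻¹).1.mulVec v) fun u => by
          have := h (P.1.mulVec u)
          rwa [LinearMap.BilinForm.comp_apply, Matrix.toLin'_apply, Matrix.toLin'_apply,
            Matrix.mulVec_mulVec, mul_eq_one_comm.1 hP, Matrix.one_mulVec] at this
        rw [← Matrix.one_mulVec v, ← hP, ← Matrix.mulVec_mulVec, this, Matrix.mulVec_zero]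
      · have := hc ((P⁻¹).1.mulVec u) ((P⁻¹).1.mulVec v)
        change f (((P⁻¹).1 * x * P.1).mulVec _) (((P⁻¹).1 * x * P.1).mulVec _) = _ at this
        rw [Matrix.mulVec_mulVec, Matrix.mulVec_mulVec, mul_assoc, hP, mul_one, ← Matrix.mulVec_mulVec,
          ← Matrix.mulVec_mulVec] at this
        exact this
  by_cases h0 : r ∣ Fintype.card F
  · obtain ⟨k, -, hk⟩ := FiniteField.card F p
    obtain rfl : r = p := (Nat.prime_dvd_prime_iff_eq hr Fact.out).1 (hr.dvd_of_dvd_pow (hk ▸ h0))
    obtain ⟨m, rfl⟩ : ∃ m, n = m + 3 := ⟨n - 3, by omega⟩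
    have n2 : (0 : Fin (m + 3)) ≠ 2 := fun e => by have := congrArg Fin.val e; change 0 = 2 at this; omega
    have n3 : (1 : Fin (m + 3)) ≠ 2 := fun e => by have := congrArg Fin.val e; change 1 = 2 at this; omega
    refine ⟨_, ?_, ?_, CfsgH6.Ds.bad_unip⟩
    · have : (1 + (Matrix.single 0 1 1 + Matrix.single 1 2 1) : Matrix (Fin (m + 3)) (Fin (m + 3)) F) =
          Matrix.transvection 1 2 1 * Matrix.transvection 0 1 1 := by
        simp only [Matrix.transvection, mul_add, add_mul, one_mul, mul_one,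
          Matrix.single_mul_single_of_ne _ _ _ _ n2.symm]
        abel
      rw [this, Matrix.det_mul, Matrix.det_transvection_of_ne _ _ n3,
        Matrix.det_transvection_of_ne _ _ (by simp), mul_one]
    · rw [add_pow_char_of_commute _ (Commute.one_left _), one_pow,
        pow_eq_zero_of_le (m := 3) (by have := hr.two_le; omega), add_zero]
      simp [pow_three, mul_add, add_mul, Matrix.single_mul_single_of_ne, n2.symm, n3.symm]
  by_cases h1 : r ∣ Fintype.card F - 1
  · obtain ⟨ζ, hζ⟩ := exists_prime_orderOf_dvd_card (G := Fˣ) r (by rwa [Fintype.card_units])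
    obtain ⟨m, rfl⟩ : ∃ m, n = m + 4 := ⟨n - 4, by omega⟩
    have zr : (ζ : F) ^ r = 1 := by rw [← Units.val_pow_eq_pow_val, ← hζ, pow_orderOf_eq_one, Units.val_one]
    refine ⟨_, ?_, ?_, CfsgH6.Ds.bad_diag hr hr2 he hgap (orderOf_units.trans hζ)⟩
    · rw [Matrix.det_diagonal, Fin.prod_univ_succ, Fin.prod_univ_succ, Fin.prod_univ_succ,
        Finset.prod_eq_one fun i _ => by rw [if_neg (by simp), if_neg (by simp)]]
      rw [if_pos (by simp), if_pos (by simp), if_neg (by change ¬ (2 < 2); omega), if_pos (by rfl)]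
      field_simp
    · rw [Matrix.diagonal_pow, ← Matrix.diagonal_one]
      congr 1
      funext i
      rw [Pi.pow_apply]
      split_ifs
      · exact zr
      · rw [← pow_mul, mul_comm, pow_mul, inv_pow, zr]; simp
      · exact one_pow r
  obtain ⟨m, rfl⟩ : ∃ m, n = 2 * m := he.two_dvd
  have hs := CfsgH6.Ds.sp_dvd B hB nd ((Cfsg.Geo.similarityGroup f).comap Matrix.SpecialLinearGroup.toGL)
    fun g hg => ⟨1, fun u v => by rw [Units.val_one, one_mul]; exact hg u v⟩
  obtain ⟨i, hi, h2⟩ := (CfsgH6.Ds.idx (by omega) hr _ hs hΩ).resolve_left h0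
  obtain ⟨x, a, -, b⟩ := CfsgH6.Ds.ex_field (n := 2 * m) (odd_two_mul_add_one i) (by omega) h2 h1
  refine ⟨x, ?_, a, b⟩
  have h3 : x.det ^ r = 1 := by rw [← Matrix.det_pow, a, Matrix.det_one]
  exact orderOf_eq_one_iff.1 (Nat.eq_one_of_dvd_coprimes ((Nat.Prime.coprime_iff_not_dvd hr).2 h1)
    (orderOf_dvd_of_pow_eq_one h3) (orderOf_dvd_of_pow_eq_one (FiniteField.pow_card_sub_one_eq_one _
      fun e => by rw [e, zero_pow hr.ne_zero] at h3; exact zero_ne_one h3)))

end Cfsg.Agent.S5968
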