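import Cfsg.Statements.S5969
import Cfsg.Agent.H6.Ds3
import Cfsg.Agent.H6.R3c

set_option autoImplicit false
open scoped MatrixGroups
open Cfsg

namespace Cfsg.Agent.S5969

/-- Involutions of PSL_n(q) and extension-field subgroups of degree 2. Here `T = PSL_n(F)` for a field `F` with `q = p^f` elements (`n ≥ 2`, `(n, q) ≠ (2, 2), (2, 3)`), `k` is a prime dividing `n`, `K` is a subalgebra of the `n × n` matrices that is a field of degree `k` over `F` (an extension-field structure F_{q^k} on `F^n`), and `H` is the subgroup of matrices of determinant 1 normalizing `K` — a subgroup of type GL_{n/k}(q^k) (maximal except in some small cases; maximality is not assumed); Ω is the set of cosets of `H` in `T`, so an element of `T` of prime order `r` (a matrix `x` of determinant 1 with `x^r` scalar, `x` not scalar) fixes a point of Ω when some conjugate of `x` by a matrix of determinant 1 normalizes `K`. Take `k = 2` and suppose the index of `H` is even.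 Then every involution of `T` is conjugate in `T` into `H` if and only if `n = 2`, or `q` is odd and `(q − 1)_2 ≤ (n)_2`. -/
theorem result {F : Type*} [Field F] [Fintype F] {p : ℕ} [Fact p.Prime] [CharP F p] {q : ℕ} (hq : Fintype.card F = q)
    (n : ℕ) (hn : 2 ≤ n) (hT : (n, q) ≠ (2, 2) ∧ (n, q) ≠ (2, 3))
    (k : ℕ) (hk : k.Prime) (hkn : k ∣ n) (K : Subalgebra F (Matrix (Fin n) (Fin n) F)) (hK : Cfsg.Geo.IsFieldSubalgebra k K) (hk2 : k = 2) (hΩ : 2 ∣ ((Cfsg.Geo.subalgebraNormalizer K).comap (Matrix.SpecialLinearGroup.toGL : Matrix.SpecialLinearGroup (Fin n) F →* GL (Fin n) F)).index) :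
    (∀ x : Matrix.SpecialLinearGroup (Fin n) F,
      (∃ z : F, ((x ^ 2 : Matrix.SpecialLinearGroup (Fin n) F) : Matrix (Fin n) (Fin n) F) = z • (1 : Matrix (Fin n) (Fin n) F)) →
      (∀ z : F, (x : Matrix (Fin n) (Fin n) F) ≠ z • (1 : Matrix (Fin n) (Fin n) F)) →
      ∃ P : Matrix.SpecialLinearGroup (Fin n) F, P⁻¹ * x * P ∈ ((Cfsg.Geo.subalgebraNormalizer K).comap (Matrix.SpecialLinearGroup.toGL : Matrix.SpecialLinearGroup (Fin n) F →* GL (Fin n) F))) ↔
    (n = 2 ∨ (Odd q ∧ padicValNat 2 (q - 1) ≤ padicValNat 2 n)) := by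
  classical
  subst hq hk2
  have q2 : 2 ≤ Fintype.card F := Fintype.one_lt_card
  have par : (2 : F) ≠ 0 ↔ Odd (Fintype.card F) := by
    rw [Nat.odd_iff]
    refine ⟨fun h => FiniteField.odd_card_of_char_ne_two fun e => h (by
      have := ringChar.spec F 2; rw [e] at this; exact_mod_cast this.2 dvd_rfl), fun h e => ?_⟩
    have : ringChar F = 2 := CharP.ringChar_of_prime_eq_zero Nat.prime_two (by simpa using e)
    have := FiniteField.even_card_of_char_two this
    omega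
  refine ⟨fun H => ?_, fun hv x ⟨z, hz⟩ hs => ?_⟩
  · by_contra hc
    push Not at hc
    obtain ⟨m, rfl⟩ : ∃ m, n = m + 3 := ⟨n - 3, by omega⟩
    have key : ∀ (ζ : F) (v f : Fin (m + 3) → F), ζ ≠ 0 → v ≠ 0 → f ≠ 0 →
        (ζ • 1 + Matrix.vecMulVec v f).det = 1 → ¬ ∃ z : F, (ζ • 1 + Matrix.vecMulVec v f) ^ 2 = z • 1 := by
      intro ζ v f z0 v0 f0 hd hz
      let x : Matrix.SpecialLinearGroup (Fin (m + 3)) F := ⟨_, hd⟩
      have hx : (x⁻¹).1 * x.1 = 1 := congrArg Subtype.val (inv_mul_cancel x)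
      obtain ⟨P, hP⟩ := H x hz fun z e => (CfsgH6.Ds.rank1 hK hx (fun k hk => by
        rw [e, smul_mul_assoc, one_mul, ← mul_one (z • k), smul_mul_assoc, ← mul_smul_comm, mul_assoc, ← e,
          mul_eq_one_comm.1 hx, mul_one]; exact hk) z0 rfl).elim v0 f0
      have h1 : P.1 * (P⁻¹).1 = 1 := congrArg Subtype.val (mul_inv_cancel P)
      rcases CfsgH6.Ds.rank1 hK (Q := (P⁻¹ * x * P).1) (Q' := ((P⁻¹ * x * P)⁻¹).1)
        (congrArg Subtype.val (inv_mul_cancel (P⁻¹ * x * P))) (fun k hk => (hP k).1 hk) z0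
        (v := (P⁻¹).1.mulVec v) (f := Matrix.vecMul f P.1) (by
          change (P⁻¹).1 * (ζ • 1 + Matrix.vecMulVec v f) * P.1 = _
          rw [mul_add, add_mul, Matrix.mul_vecMulVec, Matrix.vecMulVec_mul, mul_smul_comm, mul_one,
            smul_mul_assoc, mul_eq_one_comm.1 h1]) with h | h
      · exact v0 (by rw [← Matrix.one_mulVec v, ← h1, ← Matrix.mulVec_mulVec, h, Matrix.mulVec_zero])
      · exact f0 (by rw [← Matrix.vecMul_one f, ← h1, ← Matrix.vecMul_vecMul, h, Matrix.zero_vecMul])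
    by_cases h2 : (2 : F) = 0
    · refine key 1 (Pi.single 0 1) (Pi.single 1 1) one_ne_zero (by simp) (by simp)
        (by rw [one_smul]; exact CfsgH6.R3.det_tv (by simp)) ⟨1, ?_⟩
      rw [one_smul, pow_two, CfsgH6.R3.tv_mul (by simp), ← two_smul F, h2, zero_smul,
        Matrix.zero_vecMulVec, add_zero]
    have hlt := hc.2 (par.1 h2)
    have d1 : 2 ^ (padicValNat 2 (m + 3) + 1) ∣ Fintype.card F - 1 :=
      (padicValNat_dvd_iff_le (by omega)).2 (by omega)
    have e2 := IsCyclic.card_orderOf_eq_totient (α := Fˣ) (d := 2 ^ (padicValNat 2 (m + 3) + 1))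
      (by rwa [Fintype.card_units])
    obtain ⟨ζ, hζ⟩ := Finset.card_pos.1 (e2 ▸ Nat.totient_pos.2 (Nat.two_pow_pos (padicValNat 2 (m + 3) + 1)))
    have hζ' : orderOf (ζ : F) = 2 ^ (padicValNat 2 (m + 3) + 1) := by rw [orderOf_units]; simpa using hζ
    have zn : (ζ : F) ^ (m + 3) = -1 := by
      have a1 : (ζ : F) ^ (m + 3) * (ζ : F) ^ (m + 3) = 1 := by
        rw [← pow_add, ← orderOf_dvd_iff_pow_eq_one, hζ', pow_succ, ← mul_two]
        exact Nat.mul_dvd_mul_right pow_padicValNat_dvd 2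
      refine (mul_self_eq_one_iff.1 a1).resolve_left fun e => ?_
      rw [← orderOf_dvd_iff_pow_eq_one, hζ', padicValNat_dvd_iff_le (by omega)] at e
      omega
    refine key ζ ((ζ : F) • Pi.single 0 (-2)) (Pi.single 0 1) ζ.ne_zero (by simp [h2]) (by simp) ?_ ⟨ζ ^ 2, ?_⟩
    · rw [Matrix.smul_vecMulVec, ← smul_add, Matrix.det_smul, Fintype.card_fin, zn,
        Matrix.vecMulVec_eq Unit, Matrix.det_one_add_replicateCol_mul_replicateRow]
      simp; norm_num
    · rw [Matrix.smul_vecMulVec, ← smul_add, smul_pow, pow_two (1 + _), add_mul, one_mul, mul_add, mul_one,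
        Matrix.vecMulVec_mul_vecMulVec, Matrix.vecMulVec_smul]
      simp only [dotProduct_single, Pi.single_eq_same]
      module
  obtain ⟨m, rfl⟩ : ∃ m, n = 2 * (m + 1) := by obtain ⟨m, rfl⟩ := hkn; exact ⟨m - 1, by omega⟩
  obtain ⟨j, j1, j2⟩ : ∃ j : Matrix (Fin (2 * (m + 1))) (Fin (2 * (m + 1))) F,
      (∀ k, k ∈ K ↔ ∃ α β : F, k = α • 1 + β • j) ∧ ∀ c : F, j ≠ c • 1 :=
    CfsgH6.Ds.ex_j (n := 2 * m + 1) hK
  have jK : j ∈ K := (j1 j).2 ⟨0, 1, by simp⟩
  obtain ⟨b, a, hj⟩ := (j1 _).1 (K.mul_mem jK jK)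
  have irr : ∀ l : F, l * l ≠ a * l + b := fun l e => by
    obtain ⟨y, -, hy⟩ := hK.inv _ (K.sub_mem jK (K.smul_mem K.one_mem l)) (sub_ne_zero.2 (j2 l))
    have : (j - l • 1) * (j - (a - l) • 1) = 0 := by
      simp only [sub_mul, mul_sub, hj, smul_mul_assoc, mul_smul_comm, one_mul, mul_one]
      match_scalars <;> first | ring1 | linear_combination -e | linear_combination e
    refine j2 (a - l) (sub_eq_zero.1 ?_)
    have := congrArg (y * ·) this
    simpa only [← mul_assoc, mul_eq_one_comm.1 hy, one_mul, mul_zero] using this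
  change x.1 ^ 2 = _ at hz
  have zn : z ^ (2 * (m + 1)) = 1 := by
    have := congrArg Matrix.det hz
    simpa [x.det_coe] using this.symm
  have z0 : z ≠ 0 := by rintro rfl; rw [zero_pow (by omega)] at zn; exact zero_ne_one zn
  have hx : ∀ v, Matrix.toLin' x.1 (Matrix.toLin' x.1 v) = z • v := fun v => by
    rw [Matrix.toLin'_apply, Matrix.toLin'_apply, Matrix.mulVec_mulVec, ← pow_two, hz, Matrix.smul_mulVec,
      Matrix.one_mulVec]
  have hs' : ∀ w : F, ¬ ∀ v, Matrix.toLin' x.1 v = w • v := fun w h => hs w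
    (Matrix.toLin'.injective (LinearMap.ext fun v => by rw [h]; simp))
  obtain ⟨s, t, t1, j', a1, a2⟩ : ∃ s t : F, t * t = 1 ∧ CfsgH6.Ds.Nc a b s t (Matrix.toLin' x.1) := by
    rcases hv with h | ⟨ho, hv⟩
    · obtain ⟨U, y, e, -, h2⟩ := CfsgH6.Ds.split hx hs'
      have := e.finrank_eq
      simp only [Module.finrank_prod, Module.finrank_self, Module.finrank_fin_fun] at this
      exact ⟨a, -1, by simp, .equiv e h2 ((CfsgH6.Ds.nc_plane z0).prod (CfsgH6.Ds.nc_zero (by omega) y))⟩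
    by_cases h : IsSquare z
    swap
    · exact ⟨a, -1, by simp, CfsgH6.Ds.nc1 h (m + 1) _ _ (by simp) hx⟩
    obtain ⟨w, hw⟩ := h
    refine ⟨0, 1, by simp, CfsgH6.Ds.nc2 z0 (par.2 ho) (m + 1) _ _ (by simp) hx ?_⟩
    rw [LinearMap.det_toLin', x.det_coe]
    have w0 : w ≠ 0 := by rintro rfl; exact z0 (by simpa using hw)
    have o1 := orderOf_dvd_of_pow_eq_one (FiniteField.pow_card_sub_one_eq_one w w0)
    have o2 : orderOf w ∣ 2 * (m + 1) * 2 := orderOf_dvd_of_pow_eq_one (by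
      rw [mul_comm, pow_mul, pow_two, ← hw, zn])
    rw [hw, ← pow_two, ← pow_mul, eq_comm, ← orderOf_dvd_iff_pow_eq_one]
    obtain ⟨k, hk⟩ := o2
    rcases Nat.even_or_odd k with ⟨j, rfl⟩ | ho
    · exact ⟨j, by nlinarith⟩
    · have d1 : 2 ^ (padicValNat 2 (2 * (m + 1)) + 1) ∣ orderOf w :=
        ((Nat.coprime_two_left.2 ho).pow_left _).dvd_of_dvd_mul_right (by
          rw [← hk, pow_succ]; exact Nat.mul_dvd_mul_right pow_padicValNat_dvd 2)
      have := (padicValNat_dvd_iff_le (by omega)).1 (d1.trans o1)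
      omega
  obtain ⟨g, hg⟩ := CfsgH6.Ds.conj2 irr (m + 1) _ _ (Matrix.toLin' j) j' (by simp) (by simp) (fun v => by
    rw [Matrix.toLin'_apply, Matrix.toLin'_apply, Matrix.mulVec_mulVec, hj, Matrix.add_mulVec,
      Matrix.smul_mulVec, Matrix.smul_mulVec, Matrix.one_mulVec]; exact add_comm _ _) a1
  have g0 : LinearMap.det g.toLinearMap ≠ 0 := (LinearEquiv.isUnit_det' g).ne_zero
  obtain ⟨y, y1, y2⟩ := CfsgH6.Ds.cent z0 hx hs' (LinearMap.det g.toLinearMap)⁻¹
  have yi : Function.Injective y := LinearMap.ker_eq_bot.1 ((LinearMap.isUnit_iff_ker_eq_bot y).1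
    ((LinearMap.isUnit_iff_isUnit_det y).2 (by rw [y1]; exact (inv_ne_zero g0).isUnit)))
  let P : Matrix.SpecialLinearGroup (Fin (2 * (m + 1))) F := ⟨LinearMap.toMatrix' (y ∘ₗ g.toLinearMap), by
    rw [LinearMap.det_toMatrix', LinearMap.det_comp, y1, inv_mul_cancel₀ g0]⟩
  have hP : ∀ u, P.1.mulVec u = y (g u) := fun u => LinearMap.toMatrix'_mulVec _ _
  have key : ∀ u, g ((P⁻¹ * x * P).1.mulVec u) = Matrix.toLin' x.1 (g u) := fun u => yi (by
    rw [← hP, y2, ← hP, Matrix.toLin'_apply, Matrix.mulVec_mulVec, Matrix.mulVec_mulVec]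
    congr 1
    exact congrArg Subtype.val (show P * (P⁻¹ * x * P) = x * P by group))
  refine ⟨P, fun k => ?_⟩
  generalize P⁻¹ * x * P = Q at key
  change k ∈ K ↔ Q.1 * k * (Q⁻¹).1 ∈ K
  have hQ : Q.1 * (Q⁻¹).1 = 1 := congrArg Subtype.val (mul_inv_cancel Q)
  have e1 : Q.1 * j = s • Q.1 + t • (j * Q.1) := Matrix.toLin'.injective (LinearMap.ext fun u => g.injective (by
    simp only [Matrix.toLin'_apply, ← Matrix.mulVec_mulVec, Matrix.add_mulVec, Matrix.smul_mulVec, map_add,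
      map_smul, LinearMap.add_apply, LinearMap.smul_apply] at hg key a2 ⊢
    rw [key, hg, hg, key, a2]))
  have e2 : Q.1 * j * (Q⁻¹).1 = s • 1 + t • j := by
    rw [e1, add_mul, smul_mul_assoc, smul_mul_assoc, mul_assoc, hQ, mul_one]
  have cj : ∀ α β : F, Q.1 * (α • 1 + β • j) * (Q⁻¹).1 = (α + β * s) • 1 + (β * t) • j := fun α β => by
    simp only [Matrix.mul_add, Matrix.add_mul, Matrix.mul_smul, Matrix.smul_mul, Matrix.mul_one, hQ, e2]
    module
  rw [j1, j1]
  refine ⟨fun ⟨α, β, e⟩ => ⟨_, _, by rw [e, cj]⟩, fun ⟨α, β, e⟩ => ⟨α - β * t * s, β * t, ?_⟩⟩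
  have := cj (α - β * t * s) (β * t)
  rw [sub_add_cancel, mul_assoc β t t, t1, mul_one β, ← e] at this
  have h3 := congrArg (fun M => (Q⁻¹).1 * M * Q.1) this
  simp only [mul_assoc, mul_eq_one_comm.1 hQ, mul_one] at h3
  simpa only [← mul_assoc, mul_eq_one_comm.1 hQ, one_mul] using h3.symm

end Cfsg.Agent.S5969
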