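import Cfsg.Statements.S5972
import Cfsg.Agent.H5.El13

set_option autoImplicit false
open scoped MatrixGroups
open Cfsg

namespace Cfsg.Agent.S5972

open CfsgH5 CfsgH5.El CfsgH5.Gl CfsgH5.Gc CfsgH5.CForm Polynomial Module

/-- Elements of prime order of Ω_n(q), n = 2d+1 ≥ 7, q odd, with no fixed totally singular `m`-space. Here `T = Ω_n(q)` is realised as the commutator subgroup of the isometry group of the quadratic form `x₀² + Σ xᵢyᵢ` over the field `F` with `q` elements (it has trivial centre, so its elements of prime order `r` are used directly); let `1 ≤ m ≤ d` and let `r` be a prime dividing the number of totally singular `m`-spaces. For `r ≠ p` let `i` be the multiplicative order of `q` modulo `r`, `c = i` for `i` even and `c = 2i` for `i` odd, and write `k = n mod c`, `ℓ = m mod i`, `n' = ⌊n/i⌋`, `m' = ⌊m/i⌋`, `t = (r−1)/i`. Then every element of `T` of order `r` fixes some totally singular `m`-space if and only if either (i) `r = 2` and (`m < (n−1)/2` or `q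 ≡ 1 (mod 4)`); or (ii) `r ≠ p` is odd, `i ≤ m`, `k > 2ℓ`, and (`i` is odd or `n' − 2m' ≥ t`). -/
theorem result {F : Type*} [Field F] [Fintype F] {p : ℕ} [Fact p.Prime] [CharP F p] {q : ℕ} (hq : Fintype.card F = q) (hqodd : Odd q)
    (d m : ℕ) (hd : 3 ≤ d) (hm : 1 ≤ m) (hmd : m ≤ d)
    (r : ℕ) [Fact r.Prime]
    (hrΩ : r ∣ Nat.card {W : Submodule F (Unit ⊕ (Fin d ⊕ Fin d) → F) // Module.finrank F ↥W = m ∧ (∀ w ∈ W, Cfsg.quadFormOdd d F w = 0)})
    (i c : ℕ) (hi : i = orderOf (q : ZMod r)) (hc : c = if Even i then i else 2 * i) :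
    (∀ x : GL (Unit ⊕ (Fin d ⊕ Fin d)) F, x ∈ Cfsg.Geo.omegaGL (Cfsg.quadFormOdd d F) → orderOf x = r →
      ∃ W : Submodule F (Unit ⊕ (Fin d ⊕ Fin d) → F), Module.finrank F ↥W = m ∧ (∀ w ∈ W, Cfsg.quadFormOdd d F w = 0) ∧
        W.map (Matrix.toLin' (x : Matrix (Unit ⊕ (Fin d ⊕ Fin d)) (Unit ⊕ (Fin d ⊕ Fin d)) F)) ≤ W) ↔
    ((r = 2 ∧ (m < d ∨ q % 4 = 1)) ∨
     (r ≠ p ∧ 2 < r ∧ i ≤ m ∧ 2 * (m % i) < (2 * d + 1) % c ∧ (Odd i ∨ (r - 1) / i + 2 * (m / i) ≤ (2 * d + 1) / i))) := by
  subst hq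
  have hr : r.Prime := Fact.out
  have t : (2 : F) ≠ 0 := Ring.two_ne_zero fun e => by have := FiniteField.even_card_of_char_two e; have := Nat.odd_iff.mp hqodd; omega
  have hf := oddQ_nondeg t d
  have hn : finrank F (Unit ⊕ (Fin d ⊕ Fin d) → F) = 2 * d + 1 := by simp; omega
  have hΩ : r ∣ Nat.card {W : Submodule F _ // finrank F W = m ∧ (ofQuad (oddQ F d)).TS W} := by simp only [TS_orth]; exact hrΩ
  have hex := (TS_odd hf hn m).mpr hmd
  have hrp : r ≠ p := by rintro rfl; exact not_p_TS hf hex (by omega) hΩ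
  refine Iff.trans (b := AllO (ofQuad (oddQ F d)).E r (Fx fun W => finrank F W = m ∧ (ofQuad (oddQ F d)).TS W))
    (by rw [← ord_iff (Mx.mem_omegaGL hf (by simp; omega))]; simp only [← Fx_iff, TS_orth, and_assoc]; rfl) ?_
  by_cases h2 : r = 2
  · subst h2
    rw [or_iff_left (by omega), and_iff_right rfl, ord_two' hf (by omega) ⟨d, hn⟩]
    have e : ∀ (U : Submodule F _) (hU : ((ofQuad (oddQ F d)).res U).Nondeg) k, finrank F U = 2 * k → 2 * k < 2 * d + 1 →
        (Fx (fun W => finrank F W = m ∧ (ofQuad (oddQ F d)).TS W) (rho (nd_compl hf hU)).toLinearMap ↔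
        ∃ a b, a + b = m ∧ (a < k ∨ (a = k ∧ ((ofQuad (oddQ F d)).res U).IsPlus)) ∧ b ≤ d - k) := fun U hU k a b => by
      have := hf.finrank_perp U
      simp only [rho_TS _ t, TS_even hU a, TS_odd (hf.res_perp hU) (m := d - k) (by omega)]
    constructor
    · intro h
      by_contra k
      obtain ⟨U, u1, u2, u3⟩ := ex_type hf one_pos (by omega) False
      obtain ⟨a, b, c1, c2, c3⟩ := (e U u1 1 u2 (by omega)).mp (h U u1 1 u2 one_pos (by omega) (u3.trans (by rw [pow_one]; tauto)))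
      have := c2.resolve_right fun k => u3.mp k.2
      omega
    · intro h U hU k a b c d'
      refine (e U hU k a (by omega)).mpr ?_
      rcases h with h | h
      · exact ⟨min (k - 1) m, m - min (k - 1) m, by omega, by omega, by omega⟩
      · have := d'.mpr ((pow4 hqodd k).mpr (Or.inl h))
        exact ⟨min k m, m - min k m, by omega, by simp only [this, and_true]; omega, by omega⟩
  obtain ⟨T, H⟩ := exists_UP_id (F := F) hr h2 hrp
  rw [← hi] at H
  have o := hr.odd_of_ne_two h2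
  rw [odd_all hf (by omega) o]
  simp only [AllO, Fx]
  rw [UP.ts_master (P := FP.orth F) H hc hf hr hrp hex (rz_odd hr h2 hrp H hf ⟨d, hn⟩) (fun _ _ _ h => h)
      (fun K U _ _ _ a h => rz_odd hr h2 hrp H (hf.res_perp h) ⟨d - m, by have := hf.finrank_perp U; omega⟩)
      (fun x y a => (orth_isConj hf a (natCast_ne hr hrp) o).mpr) hΩ, hn]
  refine (H.ts_true hc (by omega)).trans ?_
  have := hr.two_le
  have : (2 * d + 1) % c % 2 = 1 := by rw [Nat.mod_mod_of_dvd _ (by split_ifs at hc with h; exacts [hc ▸ h.two_dvd, hc ▸ dvd_mul_right _ _])]; omega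
  simp only [h2, hrp, show 2 < r by omega, false_and, false_or, ne_eq, not_false_eq_true, true_and]
  exact and_congr_right fun _ => and_congr_left fun _ => by omega

end Cfsg.Agent.S5972
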