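import Cfsg.Statements.S5973
import Cfsg.Agent.H5.El13

set_option autoImplicit false
open scoped MatrixGroups
open Cfsg

namespace Cfsg.Agent.S5973

open CfsgH5 CfsgH5.El CfsgH5.Gl CfsgH5.Gc CfsgH5.CForm Polynomial Module

/-- Elements of prime order of PΩ⁺_n(q), n = 2d ≥ 8, with no fixed totally singular `m`-space, `m < n/2`. Here `T = PΩ⁺_n(q)` is realised through `Ω⁺_n(q)`, the commutator subgroup of the isometry group of the quadratic form `Σ xᵢyᵢ` over the field `F` with `q` elements; an element of `T` of prime order `r` is an element `x` of `Ω⁺_n(q)` with `x^r` scalar and `x` not scalar. Let `1 ≤ m < d` and let `r` be a prime dividing the number of totally singular `m`-spaces. For `r ≠ p` let `i` be the multiplicative order of `q` modulo `r`, `c = i` for `i` even and `c = 2i` for `i` odd, and write `k = n mod c`, `ℓ = m mod i`, `n' = ⌊n/i⌋`, `m' = ⌊m/i⌋`, `t = (r−1)/i`. Then every element of `T` of order `r` fixes some totally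 singular `m`-space if and only if one of: (i) `r = 2 ≠ p` and either `q ≡ 1 (mod 4)`, or `q ≡ 3 (mod 4)`, `m ≤ n/2 − 2` and (`m` even or `n ≡ 2 (mod 4)`); (ii) `r ≠ p` odd, `i` odd, `i ≤ m` and `k ≥ 2ℓ`; (iii) `r ≠ p` odd, `i` even, `i ≤ m`, `n' − 2m' ≥ t`, and one of: `i ≥ 2ℓ`, `k = 0`, `n/i` odd and `n' − 2m' > t`; or `k ≥ 2ℓ` and `n'` even; or `k > 2ℓ` and `n'` odd. -/
theorem result {F : Type*} [Field F] [Fintype F] {p : ℕ} [Fact p.Prime] [CharP F p] {q : ℕ} (hq : Fintype.card F = q)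
    (d m : ℕ) (hd : 4 ≤ d) (hm : 1 ≤ m) (hmd : m < d)
    (r : ℕ) [Fact r.Prime]
    (hrΩ : r ∣ Nat.card {W : Submodule F (Fin d ⊕ Fin d → F) // Module.finrank F ↥W = m ∧ (∀ w ∈ W, Cfsg.quadFormPlus d F w = 0)})
    (i c : ℕ) (hi : i = orderOf (q : ZMod r)) (hc : c = if Even i then i else 2 * i) :
    (∀ x : GL (Fin d ⊕ Fin d) F, x ∈ Cfsg.Geo.omegaGL (Cfsg.quadFormPlus d F) →
      (∃ z : F, ((x ^ r : GL (Fin d ⊕ Fin d) F) : Matrix (Fin d ⊕ Fin d) (Fin d ⊕ Fin d) F) = z • (1 : Matrix (Fin d ⊕ Fin d) (Fin d ⊕ Fin d) F)) →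
      (∀ z : F, (x : Matrix (Fin d ⊕ Fin d) (Fin d ⊕ Fin d) F) ≠ z • (1 : Matrix (Fin d ⊕ Fin d) (Fin d ⊕ Fin d) F)) →
      ∃ W : Submodule F (Fin d ⊕ Fin d → F), Module.finrank F ↥W = m ∧ (∀ w ∈ W, Cfsg.quadFormPlus d F w = 0) ∧
        W.map (Matrix.toLin' (x : Matrix (Fin d ⊕ Fin d) (Fin d ⊕ Fin d) F)) ≤ W) ↔
    ((r = 2 ∧ p ≠ 2 ∧ (q % 4 = 1 ∨ (q % 4 = 3 ∧ m + 2 ≤ d ∧ (Even m ∨ (2 * d) % 4 = 2)))) ∨
     (r ≠ p ∧ 2 < r ∧ Odd i ∧ i ≤ m ∧ 2 * (m % i) ≤ (2 * d) % c) ∨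
     (r ≠ p ∧ 2 < r ∧ Even i ∧ i ≤ m ∧ (r - 1) / i + 2 * (m / i) ≤ (2 * d) / i ∧
       ((2 * (m % i) ≤ i ∧ (2 * d) % c = 0 ∧ Odd ((2 * d) / i) ∧ (r - 1) / i + 2 * (m / i) < (2 * d) / i) ∨
        (2 * (m % i) ≤ (2 * d) % c ∧ Even ((2 * d) / i)) ∨
        (2 * (m % i) < (2 * d) % c ∧ Odd ((2 * d) / i))))) := by
  subst hq
  have hr : r.Prime := Fact.out
  have hf := plusQ_nondeg F d
  have hp := plusQ_isPlus (F := F) d
  have hn : finrank F (Fin d ⊕ Fin d → F) = 2 * d := by simp; omega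
  have hΩ : r ∣ Nat.card {W : Submodule F _ // finrank F W = m ∧ (ofQuad (plusQ F d)).TS W} := by simp only [TS_orth]; exact hrΩ
  have hrp : r ≠ p := by rintro rfl; exact not_p_TS hf ((TS_even hf hn m).mpr (Or.inl hmd)) (by omega) hΩ
  refine Iff.trans (b := AllS (ofQuad (plusQ F d)).E r (Fx fun W => finrank F W = m ∧ (ofQuad (plusQ F d)).TS W))
    (by rw [← all_iff (Mx.mem_omegaGL hf (by simp; omega))]; simp only [← Fx_iff, TS_orth, and_assoc]; rfl) ?_
  by_cases h2 : r = 2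
  · subst h2
    have o := odd_card (F := F) hrp.symm
    have o' := Nat.odd_iff.mp o
    have t := natCast_ne (F := F) hr hrp
    rw [or_iff_left (by omega), and_iff_right rfl, and_iff_right hrp.symm, all_two hf (by omega) t,
      neg_all hf t hn (by omega) fun g a b => neg_TS hf t a b (by omega), NT, iff_true_left hp, pow4 o]
    have e : ∀ (U : Submodule F _) (hU : ((ofQuad (plusQ F d)).res U).Nondeg) k, finrank F U = 2 * k → 2 * k < 2 * d →
        (Fx (fun W => finrank F W = m ∧ (ofQuad (plusQ F d)).TS W) (rho (nd_compl hf hU)).toLinearMap ↔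
        ∃ a b, a + b = m ∧ (a < k ∨ (a = k ∧ ((ofQuad (plusQ F d)).res U).IsPlus)) ∧
          (b < d - k ∨ (b = d - k ∧ ((ofQuad (plusQ F d)).res U).IsPlus))) := fun U hU k a b => by
      have := hf.finrank_perp U
      simp only [rho_TS _ t, TS_even hU a, TS_even (hf.res_perp hU) (m := d - k) (by omega), (plus_perp hf hU hn a).mp hp]
    constructor
    · rintro ⟨h, h'⟩
      refine or_iff_not_imp_left.mpr fun k => ?_
      obtain ⟨U, u1, u2, u3⟩ := ex_type hf one_pos (by omega) False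
      obtain ⟨a, b, c1, c2, c3⟩ := (e U u1 1 u2 (by omega)).mp (h U u1 1 u2 one_pos (by omega) (u3.trans (by rw [pow_one]; tauto)))
      simp only [u3, and_false, or_false, Nat.even_iff] at *
      omega
    · refine fun h => ⟨fun U hU k a b c d' => (e U hU k a (by omega)).mpr ?_, by simp only [Nat.even_iff] at *; omega⟩
      rcases h with h | h
      · have := d'.mpr ((pow4 o k).mpr (Or.inl h))
        exact ⟨min k m, m - min k m, by omega, by simp only [this, and_true]; omega⟩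
      · exact ⟨min (k - 1) m, m - min (k - 1) m, by omega, by omega, by omega⟩
  rw [odd_allS hf (by omega) (hr.odd_of_ne_two h2) (Fx.neg _), ts_even hr h2 hrp hi hc hf hn hmd hΩ (Or.inl ⟨hp, rfl⟩)]
  have := hr.two_le
  have := mod_two_mul d 0 i two_pos
  have : 0 < i := hi ▸ ord_pos hr hrp
  simp only [h2, hrp, show 2 < r by omega, false_and, false_or, ne_eq, not_false_eq_true, true_and, ← Nat.not_even_iff_odd]
  split_ifs at hc ⊢ with h <;> subst hc <;> simp only [h, not_true, not_false_eq_true, false_and, false_or, or_false, true_and, Nat.even_iff,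
    Nat.sub_zero, add_zero] at * <;> omega

end Cfsg.Agent.S5973
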