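import Cfsg.Statements.S5974
import Cfsg.Agent.H5.El14

set_option autoImplicit false
open scoped MatrixGroups
open Cfsg

namespace Cfsg.Agent.S5974

open CfsgH5 CfsgH5.El CfsgH5.Gl CfsgH5.Gc CfsgH5.CForm Polynomial Module

/-- Elements of prime order of PΩ⁺_n(q), n = 2d ≥ 8, with no fixed nondegenerate hyperbolic `m`-space. Here `T = PΩ⁺_n(q)` is realised through `Ω⁺_n(q)`, the commutator subgroup of the isometry group of `Q = Σ xᵢyᵢ` over the field `F` with `q` elements; an element of `T` of prime order `r` is an element `x` of `Ω⁺_n(q)` with `x^r` scalar and `x` not scalar. A hyperbolic `m`-space is a subspace `W` of even dimension `m` on which the polar form of `Q` is nondegenerate and which contains a totally singular subspace of dimension `m/2`. Let `m` be even with `2 ≤ m < n/2`, and let `r` be a prime dividing the number of hyperbolic `m`-spaces, with `r = 2` or `r ≠ p`. For `r ≠ p` let `i` be the multiplicative order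 of `q` modulo `r`, `c = i` for `i` even and `c = 2i` for `i` odd, and write `k = n mod c`, `ℓ' = m mod c`. Then every element of `T` of order `r` fixes some hyperbolic `m`-space if and only if one of: (i) `r = 2` and (`n ≡ 2 (mod 4)`, or `m ≡ 0 (mod 4)`, or `q ≡ 1 (mod 4)`); (ii) `r ≠ p` odd, `i` odd, `c ≤ m` and `k ≥ ℓ'`; (iii) `r ≠ p` odd, `i` even, and either `k = 0` and (`n/i` odd, or `ℓ' = 0` and `m/i` even), or `i ≤ m` and (`k > ℓ' > 0`, or `k = ℓ' > 0` and `(n + m − 2k)/i` even, or `k > ℓ' = 0` and `m/i` even). -/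
theorem result {F : Type*} [Field F] [Fintype F] {p : ℕ} [Fact p.Prime] [CharP F p] {q : ℕ} (hq : Fintype.card F = q)
    (d m : ℕ) (hd : 4 ≤ d) (hm : 2 ≤ m) (hme : Even m) (hmd : m < d)
    (r : ℕ) [Fact r.Prime] (hr : r = 2 ∨ r ≠ p)
    (hrΩ : r ∣ Nat.card {W : Submodule F (Fin d ⊕ Fin d → F) // (Module.finrank F ↥W = m ∧ (∀ u ∈ W, u ≠ 0 → ∃ v ∈ W, QuadraticMap.polar (Cfsg.quadFormPlus d F) u v ≠ 0) ∧
          ∃ U : Submodule F (Fin d ⊕ Fin d → F), U ≤ W ∧ 2 * Module.finrank F ↥U = m ∧ ∀ u ∈ U, Cfsg.quadFormPlus d F u = 0)})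
    (i c : ℕ) (hi : i = orderOf (q : ZMod r)) (hc : c = if Even i then i else 2 * i) :
    (∀ x : GL (Fin d ⊕ Fin d) F, x ∈ Cfsg.Geo.omegaGL (Cfsg.quadFormPlus d F) →
      (∃ z : F, ((x ^ r : GL (Fin d ⊕ Fin d) F) : Matrix (Fin d ⊕ Fin d) (Fin d ⊕ Fin d) F) = z • (1 : Matrix (Fin d ⊕ Fin d) (Fin d ⊕ Fin d) F)) →
      (∀ z : F, (x : Matrix (Fin d ⊕ Fin d) (Fin d ⊕ Fin d) F) ≠ z • (1 : Matrix (Fin d ⊕ Fin d) (Fin d ⊕ Fin d) F)) →
      ∃ W : Submodule F (Fin d ⊕ Fin d → F), (Module.finrank F ↥W = m ∧ (∀ u ∈ W, u ≠ 0 → ∃ v ∈ W, QuadraticMap.polar (Cfsg.quadFormPlus d F) u v ≠ 0) ∧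
          ∃ U : Submodule F (Fin d ⊕ Fin d → F), U ≤ W ∧ 2 * Module.finrank F ↥U = m ∧ ∀ u ∈ U, Cfsg.quadFormPlus d F u = 0) ∧
        W.map (Matrix.toLin' (x : Matrix (Fin d ⊕ Fin d) (Fin d ⊕ Fin d) F)) ≤ W) ↔
    ((r = 2 ∧ ((2 * d) % 4 = 2 ∨ m % 4 = 0 ∨ q % 4 = 1)) ∨
     (r ≠ p ∧ 2 < r ∧ Odd i ∧ c ≤ m ∧ m % c ≤ (2 * d) % c) ∨
     (r ≠ p ∧ 2 < r ∧ Even i ∧
       (((2 * d) % c = 0 ∧ (Odd ((2 * d) / i) ∨ (m % c = 0 ∧ Even (m / i)))) ∨
        (i ≤ m ∧ ((m % c < (2 * d) % c ∧ 0 < m % c) ∨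
                  ((2 * d) % c = m % c ∧ 0 < m % c ∧ Even ((2 * d + m - 2 * ((2 * d) % c)) / i)) ∨
                  (0 < (2 * d) % c ∧ m % c = 0 ∧ Even (m / i))))))) := by
  subst hq
  have hrp := hr
  have hr : r.Prime := Fact.out
  have hf := plusQ_nondeg F d
  have hp := plusQ_isPlus (F := F) d
  have hn : finrank F (Fin d ⊕ Fin d → F) = 2 * d := by simp; omega
  have e : ∀ W : Submodule F _, (finrank F W = m ∧ (∀ u ∈ W, u ≠ 0 → ∃ v ∈ W, QuadraticMap.polar (quadFormPlus d F) u v ≠ 0) ∧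
      ∃ U : Submodule F (Fin d ⊕ Fin d → F), U ≤ W ∧ 2 * finrank F U = m ∧ ∀ u ∈ U, quadFormPlus d F u = 0) ↔
      (finrank F W = m ∧ ((ofQuad (plusQ F d)).res W).Nondeg ∧ (((ofQuad (plusQ F d)).res W).IsPlus ↔ True)) := fun W => by
    rw [← nd_iff, Mx.isPlus_res_iff, iff_true]
    refine and_congr_right fun h => and_congr Iff.rfl (exists_congr fun U => ?_)
    rw [h, and_comm (a := _ = _)]; rfl
  simp only [e] at hrΩ ⊢
  obtain ⟨k, hk⟩ := id hme
  obtain ⟨U, u1, u2, u3⟩ := ex_type hf (k := k) (by omega) (by omega) True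
  have hΩ := orb_even hf u1 (by omega) hme u3
  have u4 := ((plus_perp hf u1 hn u2).mp hp).symm.trans u3
  refine Iff.trans (b := AllS (ofQuad (plusQ F d)).E r (Fx _)) (by rw [← all_iff (Mx.mem_omegaGL hf (by simp; omega))]; simp only [Fx_iff]; rfl) ?_
  by_cases h2 : r = 2
  · subst h2
    rw [or_iff_left (by omega), and_iff_right rfl]
    by_cases t : (2 : F) = 0
    · have := FiniteField.even_card_iff_char_two.mp (show ringChar F = 2 by
        rw [ringChar.eq F p]; exact (Nat.prime_dvd_prime_iff_eq Fact.out Nat.prime_two).mp ((CharP.cast_eq_zero_iff F p 2).mp t))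
      rw [nd_char2' hf t hn (by omega) u1 u2 (by omega) (by omega) (Or.inl ⟨hp, rfl⟩) (Or.inl ⟨u3.mpr trivial, rfl⟩) (Or.inl ⟨u4.mpr trivial, rfl⟩) hΩ]
      omega
    · have o := FiniteField.odd_card_of_char_ne_two (ringChar_ne_two t)
      rw [nd_two hf t hn (by omega) u1 (by omega) hΩ, show (∃ j, finrank F U = 2 * j ∧ NT ((ofQuad (plusQ F d)).res U) j) ↔
        NT ((ofQuad (plusQ F d)).res U) k from ⟨fun ⟨j, a, b⟩ => (show j = k by omega) ▸ b, fun h => ⟨k, u2, h⟩⟩]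
      simp only [NT, hp, u3, true_iff, pow4 (Nat.odd_iff.mpr o), Nat.even_iff]
      omega
  replace hrp := hrp.resolve_left h2
  obtain ⟨T, H⟩ := exists_UP_id (F := F) hr h2 hrp
  rw [← hi] at H
  have o := hr.odd_of_ne_two h2
  have := hf.finrank_perp U
  rw [odd_allS hf (by omega) o (Fx.neg _)]
  refine UP.nd_fin (P := FP.orth F) H hc hf hr hrp u1 (rz_even hr h2 hrp H hi hc hf ⟨d, by omega⟩) (rz_even hr h2 hrp H hi hc u1 ⟨k, by omega⟩)
    (rz_even hr h2 hrp H hi hc (hf.res_perp u1) ⟨d - k, by omega⟩) (fun x y a => (orth_isConj hf a (natCast_ne hr hrp) o).mpr) hΩ hrΩ (m := m) (by omega) hn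
    (by omega) (by omega) fun M0 M1 M2 a0 a1 a2 => ?_
  have := hr.two_le
  have := div_sub (H.cpos hc) (show m ≤ 2 * d by omega)
  have := Nat.mod_add_div m c
  simp only [El.IsM, hp, u3, u4, h2, hrp, show 2 < r by omega, false_or, true_and, ← Nat.not_even_iff_odd, true_iff, false_and, ne_eq, not_false_eq_true] at *
  split_ifs at hc with h <;> subst hc <;> simp only [h, not_true, not_false_eq_true, false_and, false_or, or_false, true_and, Nat.even_iff,
    forall_true_left, false_imp_iff, or_true, and_false] at * <;> omega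

end Cfsg.Agent.S5974
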