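import Cfsg.Statements.S5983
import Cfsg.Agent.H5.El16

set_option autoImplicit false
open scoped MatrixGroups
open Cfsg

namespace Cfsg.Agent.S5983

open CfsgH5 CfsgH5.El CfsgH5.Gl CfsgH5.Gc CfsgH5.CForm CfsgH5.In CfsgH5.Au Module

/-- Elements of prime order of PSp_n(q), q even, and the subgroups of orthogonal type. Here `T = Sp_{2d}(F)` for a field `F` of characteristic 2 with `q` elements (`d ≥ 2`, `(d, q) ≠ (2, 2)`), realised as the invertible matrices preserving the standard alternating form; `Q` is a non-degenerate quadratic form on `F^{2d}` whose polar form is that alternating form, and `H` is the subgroup of `T` preserving `Q` up to a scalar (equivalently preserving `Q`) — a subgroup of type O^±_{2d}(q) (maximality is not assumed); `Q` is of plus type when `F^{2d}` contains a `d`-dimensional subspace on which `Q` vanishes, of minus type otherwise. Ω is the set of cosets of `H` in `T`, so an element of `T` of prime order `r` (`x ∈ T` with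 `x^r` scalar, `x` not scalar) fixes a point of Ω exactly when some `T`-conjugate of `x` preserves `Q`. Let `r` be a prime dividing the index of `H`. Then every element of `T` of order `r` fixes a point of Ω if and only if `r = 2` and either `Q` is of plus type or `d` is odd. -/
theorem result {F : Type*} [Field F] [Fintype F] {p : ℕ} [Fact p.Prime] [CharP F p] {q : ℕ} (hq : Fintype.card F = q)
    (hp : p = 2) (d : ℕ) (hd : 2 ≤ d) (hT : (d, q) ≠ (2, 2)) (Q : (Fin d ⊕ Fin d → F) → F) (hQ : Cfsg.Geo.IsNondegenerateQuadraticForm Q)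
    (hQf : ∀ u v, QuadraticMap.polar Q u v = Cfsg.sympForm d F u v)
    (r : ℕ) [Fact r.Prime]
    (hΩ : r ∣ (Cfsg.Geo.quadSimilarityGroup Q).relIndex (Cfsg.spGL d F)) :
    (∀ x ∈ Cfsg.spGL d F, (∃ z : F, ((x ^ r : GL (Fin d ⊕ Fin d) F) : Matrix (Fin d ⊕ Fin d) (Fin d ⊕ Fin d) F) = z • (1 : Matrix (Fin d ⊕ Fin d) (Fin d ⊕ Fin d) F)) →
      (∀ z : F, (x : Matrix (Fin d ⊕ Fin d) (Fin d ⊕ Fin d) F) ≠ z • (1 : Matrix (Fin d ⊕ Fin d) (Fin d ⊕ Fin d) F)) →
      ∃ g ∈ Cfsg.spGL d F, g⁻¹ * x * g ∈ Cfsg.Geo.quadSimilarityGroup Q) ↔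
    (r = 2 ∧ (Cfsg.Geo.IsPlusTypeOn Q ⊤ ∨ Odd d)) := by
  subst hp hq
  have hr : r.Prime := Fact.out
  have t : (2 : F) = 0 := CharP.cast_eq_zero F 2
  obtain ⟨Q, rfl, hg⟩ := Mx.exists_quad hQ
  have hf := spForm_nondeg (F := F) d
  have hn : finrank F (Fin d ⊕ Fin d → F) = 2 * d := by simp; omega
  have B : ∀ u v, (ofQuad Q).B u v = (spForm F d).B u v := hQf
  have le : (ofQuad Q).Isom ≤ (spForm F d).Isom := fun g h => ⟨fun u v => by rw [← B, ← B, h.1], fun v => by simp [symp_Q]⟩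
  have hH : ∀ g ∈ spGL d F, g ∈ Geo.quadSimilarityGroup Q ↔ gl g ∈ (ofQuad Q).Isom := fun g h => ⟨fun ⟨c, hc⟩ => mem_Isom_orth.mpr fun v => by
    obtain ⟨u, w, e⟩ := symp_exists_hyp hf (by omega)
    have k := (Mx.mem_spGL'.mp h).1 u w
    rw [← B, ← B, orth_B, orth_B, ← map_add] at k
    have k' := e.hxy
    rw [← B, orth_B] at k'
    simp only [ofQuad_Q, gl_apply, hc] at k k' ⊢
    linear_combination Q v * (k - (c - 1) * k'), fun k => ⟨1, fun v => by simpa [gl_apply] using k.2 v⟩⟩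
  rw [cj_iff (fun g => Mx.mem_spGL') hH, ← Mx.isPlus_iff]
  have iv : ∀ y, Iv (ofQuad Q) y → Iv (spForm F d) y := fun y h => ⟨hf, fun _ => rfl, t, le h.mem, h.sq⟩
  have al : ∀ y, Alt (ofQuad Q) y ↔ Alt (spForm F d) y := fun y => forall_congr' fun v => by rw [B]
  by_cases h2 : r = 2
  · subst h2
    rw [and_iff_right rfl]
    have cj : ∀ x : (spForm F d).Isom, Iv (spForm F d) x.1 → (Cj (spForm F d).Isom (ofQuad Q).Isom x.1.toLinearMap ↔
        ∃ y, Iv (ofQuad Q) y ∧ finrank F (WW y) = finrank F (WW x.1) ∧ (Alt (ofQuad Q) y ↔ Alt (spForm F d) x.1)) := fun x hx => by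
      constructor
      · rintro ⟨g, a, y, b, c⟩
        have iy : Iv (ofQuad Q) y := ⟨hg, fun _ => rfl, t, b, fun v => g.injective (by rw [← c, ← c]; exact hx.sq _)⟩
        exact ⟨y, iy, by rw [al]; exact (In.isConj_iff (x := ⟨y, le b⟩) (iv y iy) hx).mp (isConj_iff.mpr ⟨⟨g, a⟩,
          mul_inv_eq_iff_eq_mul.mpr (Subtype.ext (LinearEquiv.ext fun v => (c v).symm))⟩)⟩
      · rintro ⟨y, iy, c⟩
        rw [al] at c
        obtain ⟨g, e⟩ := isConj_iff.mp ((In.isConj_iff (x := ⟨y, le iy.mem⟩) (iv y iy) hx).mpr c)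
        exact ⟨g.1, g.2, y, iy.mem, fun v => (LinearEquiv.congr_fun (congrArg Subtype.val (mul_inv_eq_iff_eq_mul.mp e)) v).symm⟩
    constructor
    · intro h
      by_contra k
      rw [not_or, Nat.not_odd_iff_even] at k
      obtain ⟨K, k1, k2⟩ := symp_exists_TS hf (k := d) (by omega)
      obtain ⟨x, x1, rfl, x3⟩ := exists_alt hf (fun _ => rfl) t k1 (k2.symm ▸ k.2)
      obtain ⟨y, iy, c1, c2⟩ := (cj ⟨x, x1.mem⟩ x1).mp (h x x1.mem 1 (LinearMap.ext fun v => by simp [sq, x1.sq]) fun c e => by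
        obtain ⟨_, ⟨v, rfl⟩, v0⟩ := (WW x).ne_bot_iff.mp fun e => by rw [e, finrank_bot] at k2; omega
        have e' : ∀ v, x v = c • v := LinearMap.congr_fun e
        obtain rfl : c = 1 := smul_left_injective F v0 (by simpa using (e' _).symm.trans (x1.fix ⟨v, rfl⟩))
        exact v0 (by simp [e']))
      exact k.1 ⟨_, iy.TS (c2.mpr x3), by rw [c1, k2, hn]⟩
    · intro h g a z h1 _
      have ig : Iv (spForm F d) g := ⟨hf, fun _ => rfl, t, a, fun v => (sq_cases (fun _ => rfl) hf (by omega) a h1).elim (· v) fun e => by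
        rw [e, neg_eq_iff_add_eq_zero, ← two_smul F, t, zero_smul]⟩
      refine (cj ⟨g, a⟩ ig).mpr ?_
      have := ig.two_mul_le
      by_cases k : Alt (spForm F d) g
      · obtain ⟨K, k1, k2⟩ := (TS_even hg hn (finrank F (WW g))).mpr (by
          have := Nat.even_iff.mp (ig.even k)
          rcases h with h | h
          · simp only [h, and_true]; omega
          · have := Nat.odd_iff.mp h; omega)
        obtain ⟨y, y1, rfl, y3⟩ := exists_alt hg (fun _ => rfl) t k1 (k2.symm ▸ ig.even k)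
        exact ⟨y, y1, k2, iff_of_true y3 k⟩
      · obtain ⟨y, y1, y2, y3⟩ := exists_non_orth hg t hn (s := finrank F (WW g)) (Nat.pos_of_ne_zero fun e => k fun v => by
          rw [show NN g v = 0 from (Submodule.finrank_eq_zero.mp e).le ⟨v, rfl⟩, B_zero_left]) (by omega)
        exact ⟨y, y1, y2, iff_of_false y3 k⟩
  refine iff_of_false (fun h => ?_) fun h => h2 h.1
  rw [odd_red (fun _ => rfl) hf (by omega) le_rfl (hr.odd_of_ne_two h2) (fun g ⟨a, b, y, c, e⟩ => ⟨a, b, LinearEquiv.neg F * y,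
    mul_mem neg_mem c, fun v => by simpa [neg_eq_iff_eq_neg] using e v⟩) fun _ _ _ h _ => h] at h
  obtain ⟨e, rfl⟩ : ∃ e, d = e + 1 := ⟨d - 1, by omega⟩
  haveI : Fact (2 < r) := ⟨lt_of_le_of_ne hr.two_le (Ne.symm h2)⟩
  have q0 := card_ne_zmod (F := F) hr h2
  have s2 := (ofQuad Q).sgn_mul_sgn
  have key : (Fintype.card F : ZMod r) ^ (e + 1) = -(ofQuad Q).sgn := by
    have k := congrArg (Nat.cast : ℕ → ℤ) (rel_card (fun g => Mx.mem_spGL') hH le)
    haveI : Finite ((Fin (e + 1) ⊕ Fin (e + 1) → F) ≃ₗ[F] (Fin (e + 1) ⊕ Fin (e + 1) → F)) := Finite.of_injective _ DFunLike.coe_injective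
    have k0 := (Nat.card_pos (α := (ofQuad Q).Isom)).ne'
    rw [Nat.cast_mul, symp_card_Isom _ hf hn, Finset.prod_range_succ] at k
    rw [← Int.natCast_ne_zero] at k0
    rw [orth_card_even e hg hn, oOrd, Nat.card_eq_fintype_card] at k k0
    have one : ∀ j, 1 ≤ Fintype.card F ^ j := fun j => Nat.one_le_pow _ _ Fintype.card_pos
    simp only [Nat.cast_mul, Nat.cast_prod, Nat.cast_sub (one _), Nat.cast_pow, Nat.cast_one, Nat.add_sub_cancel] at k k0
    have k1 : (2 * (Geo.quadSimilarityGroup ⇑Q).relIndex (spGL (e + 1) F) : ℤ) =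
        Fintype.card F ^ (e + 1) * (Fintype.card F ^ (e + 1) + (ofQuad Q).sgn) := mul_right_cancel₀ k0 (by
      linear_combination 2 * k + (2 * (Fintype.card F : ℤ) ^ ((e + 1) ^ 2) * ∏ x ∈ Finset.range e, ((Fintype.card F : ℤ) ^ (2 * (x + 1)) - 1)) * s2)
    have k2 := congrArg (Int.cast : ℤ → ZMod r) k1
    push_cast at k2
    rw [(ZMod.natCast_eq_zero_iff _ _).mpr hΩ, mul_zero] at k2
    exact eq_neg_of_add_eq_zero_left ((mul_eq_zero.mp k2.symm).resolve_left (pow_ne_zero _ q0))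
  obtain ⟨T, H⟩ := exists_UP_id (F := F) hr h2 h2
  obtain ⟨j, hj⟩ : (if Even (orderOf (Fintype.card F : ZMod r)) then orderOf (Fintype.card F : ZMod r) else 2 * orderOf (Fintype.card F : ZMod r)) ∣
      2 * (e + 1) := by
    have s3 : ((ofQuad Q).sgn : ZMod r) * (ofQuad Q).sgn = 1 := by exact_mod_cast congrArg (Int.cast : ℤ → ZMod r) s2
    have : orderOf (Fintype.card F : ZMod r) ∣ 2 * (e + 1) := orderOf_dvd_of_pow_eq_one (by rw [mul_comm, pow_mul, key, sq, neg_mul_neg, s3])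
    split_ifs with c
    exacts [this, Nat.mul_dvd_mul_left 2 ((Nat.coprime_two_right.mpr (Nat.not_even_iff_odd.mp c)).dvd_of_dvd_mul_left this)]
  obtain ⟨w, -, -, hw, -⟩ := H.exists_su rfl j
  obtain ⟨x, x1, x2⟩ := (rz_symp hr h2 h2 H hf 0 w j hw (by rw [hn, hj]; ring)).mpr (Or.inr trivial)
  have k0 := Submodule.finrank_eq_zero.mp (UP.ker (P := FP.symp F) H hw.1 x2)
  have fp : ∀ v, x.1 v = v → v = 0 := fun v hv => k0.le (show v ∈ LinearMap.ker _ by simp [hv])
  obtain ⟨g, -, y, b, c⟩ := h x.1 x.2 (congrArg Subtype.val x1) fun e => by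
    obtain ⟨u, w, e'⟩ := symp_exists_hyp hf (by omega)
    simpa [fp u (by rw [e]; rfl)] using e'.hxy
  have e1 : y = g⁻¹ * x.1 * g := LinearEquiv.ext fun v => (g.symm_apply_eq.mpr (c v)).symm
  have := (sgn_of_fpf hr h2 hg hn b (by rw [e1, ← inv_inv g, inv_inv g⁻¹, conj_pow, show x.1 ^ r = 1 from congrArg Subtype.val x1]; simp)
    fun v hv => g.injective (by rw [map_zero]; exact fp _ ((c v).trans (by rw [hv])))).symm.trans key
  have n1 := ZMod.neg_one_ne_one (n := r)
  unfold sgn at this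
  split_ifs at this
  exacts [n1 (by simpa using this.symm), n1 (by simpa using this)]

end Cfsg.Agent.S5983
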