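import Cfsg.Statements.S5984
import Cfsg.Agent.H5.El20

set_option autoImplicit false
open scoped MatrixGroups
open Cfsg

namespace Cfsg.Agent.S5984

open CfsgH5 CfsgH5.El CfsgH5.Gl CfsgH5.Gc CfsgH5.CForm CfsgH5.Au Polynomial Module

/-- Elements of prime order of PSU_n(q) and the stabilizers of pairs of complementary totally singular subspaces. Here `T = PSU_n(q)` is realised through `SU_n(q)`, the matrices of determinant 1 over the field `F` with `q²` elements preserving the hermitian form `Σ uᵢ vᵢ^q`, with `n ≥ 4` even; `D` is a pair of complementary subspaces of dimension `n/2` on each of which the form vanishes identically, and `H` is the subgroup of `SU_n(q)` fixing or interchanging the two members — a subgroup of type GL_{n/2}(q²).2 (maximality is not assumed). Ω is the set of cosets of `H`, so an element of `T` of prime order `r` (`x ∈ SU_n(q)` with `x^r` scalar, `x` not scalar) fixes a point of Ω exactly when some `SU_n(q)`-conjugate of `x` lies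 in `H`. Let `r` be a prime dividing the index of `H`. Then every element of `T` of order `r` fixes a point of Ω if and only if `r = 2`, `q` is odd and `(q + 1)_2 ≤ (n)_2` (2-parts). -/
theorem result {F : Type*} [Field F] [Fintype F] {p : ℕ} [Fact p.Prime] [CharP F p] {q : ℕ} (hq : Fintype.card F = q ^ 2)
    (n : ℕ) (hn : 4 ≤ n) (he : Even n) (D : Fin 2 → Submodule F (Fin n → F)) (hD : Cfsg.Geo.IsMDecomposition (n / 2) D)
    (hDs : ∀ i, Cfsg.Geo.IsTotallySingularFor (Cfsg.hermForm n F q) (D i))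
    (r : ℕ) [Fact r.Prime]
    (hΩ : r ∣ (Cfsg.Geo.decompositionStabilizer D).relIndex (Cfsg.GU n F q ⊓ Cfsg.Geo.specialLinear (Fin n) F)) :
    (∀ x ∈ Cfsg.GU n F q ⊓ Cfsg.Geo.specialLinear (Fin n) F, (∃ z : F, ((x ^ r : GL (Fin n) F) : Matrix (Fin n) (Fin n) F) = z • (1 : Matrix (Fin n) (Fin n) F)) →
      (∀ z : F, (x : Matrix (Fin n) (Fin n) F) ≠ z • (1 : Matrix (Fin n) (Fin n) F)) →
      ∃ g ∈ Cfsg.GU n F q ⊓ Cfsg.Geo.specialLinear (Fin n) F, g⁻¹ * x * g ∈ Cfsg.Geo.decompositionStabilizer D) ↔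
    (r = 2 ∧ Odd q ∧ padicValNat 2 (q + 1) ≤ padicValNat 2 n) := by
  have hr : r.Prime := Fact.out
  obtain ⟨σ, H⟩ := exists_UF hq
  have hf := hermC_nondeg H n
  have hV : finrank F (Fin n → F) = n := by simp
  obtain ⟨m, rfl⟩ := he
  have hG : ∀ g, g ∈ Cfsg.GU (m + m) F q ⊓ Cfsg.Geo.specialLinear _ F ↔ gl g ∈ (hermC H (m + m)).SIsom := fun g => by
    rw [Mx.mem_SU H (by omega), herm_SIsom H (by omega)]
  have L : LP (hermC H (m + m)) (D 0, D 1) := ⟨⟨hD.indep.pairwiseDisjoint zero_ne_one, codisjoint_iff.mpr (by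
    rw [eq_top_iff, ← hD.iSup_eq_top]; exact iSup_le (Fin.forall_fin_two.mpr ⟨le_sup_left, le_sup_right⟩))⟩, TS_unit.mpr (hDs 0), TS_unit.mpr (hDs 1)⟩
  have O := L.orbS H hf (by omega)
  have mem : ∀ g : GL _ F, g ∈ Geo.decompositionStabilizer D ↔ (((D 0).map (gl g).toLinearMap = D 0 ∧ (D 1).map (gl g).toLinearMap = D 1) ∨
      ((D 0).map (gl g).toLinearMap = D 1 ∧ (D 1).map (gl g).toLinearMap = D 0)) := fun g => by
    rw [gl_coe]
    refine ⟨fun ⟨s, hs⟩ => ?_, fun h => h.elim (fun h => ⟨1, Fin.forall_fin_two.mpr h⟩) fun h => ⟨Equiv.swap 0 1, Fin.forall_fin_two.mpr h⟩⟩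
    rw [hs, hs]
    have := s.injective.ne zero_ne_one
    generalize s 0 = a at *; generalize s 1 = b at *
    fin_cases a <;> fin_cases b <;> simp at this ⊢
  have cv : ∀ (g x : (Fin (m + m) → F) ≃ₗ[F] (Fin (m + m) → F)) (A B : Submodule F _), A.map (g⁻¹ * x * g).toLinearMap = B ↔ (g • A).map x.toLinearMap = g • B :=
    fun g x A B => by rw [← actS_def, ← actS_def, mul_smul, mul_smul, inv_smul_eq_iff]
  refine Iff.trans (b := AllS (hermC H (m + m)).SIsom r (SP (hermC H (m + m)))) (by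
    rw [← all_iff hG]
    refine forall₄_congr fun x _ _ _ => ⟨fun ⟨g, a, b⟩ => ⟨gl g • (D 0, D 1), (O _).mpr ⟨_, (hG g).mp a, rfl⟩, ?_⟩, fun ⟨E, a, b⟩ => ?_⟩
    · simpa only [mem, map_mul, map_inv, cv, ← gl_coe, Prod.smul_mk] using b
    · obtain ⟨g, c, rfl⟩ := (O E).mp a
      obtain ⟨g, rfl⟩ := gl_surjective g
      exact ⟨g, (hG g).mpr c, by simpa only [mem, map_mul, map_inv, cv, ← gl_coe, Prod.smul_mk] using b⟩) ?_
  obtain ⟨u, -, w, -, e⟩ := L.hyp hf (by omega)
  by_cases hrp : r = p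
  · subst hrp
    refine iff_of_false (fun h => ?_) fun ⟨a, b, _⟩ => by
      subst a; exact p_ne_two (F := F) (hq ▸ b.pow) rfl
    obtain ⟨c, c0, c1⟩ := unit_ker (h := H.invol) H.ne_id
    obtain ⟨x, hx⟩ := (hermC H (m + m)).exists_eich (a := 0) e.hx (by simp) (by rw [c1, Q_zero])
    have k : ∀ v, x v - v = (-(c * (hermC H (m + m)).B v u)) • u := fun v => by rw [hx.app]; simp
    have x1 : x ≠ 1 := fun a => by simpa [a, c0, e.hyx, e.x_ne] using k w
    refine rank_one hf (by omega) hx.mem_Isom x1 (fun v => k v ▸ Submodule.smul_mem _ _ (Submodule.mem_span_singleton_self u))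
      (h x (mem_SIsom.mpr ⟨hx.mem_Isom, hx.det⟩) 1 ?_ fun l a => x1 (LinearEquiv.toLinearMap_injective ?_))
    · obtain ⟨j, hj⟩ := Nat.exists_eq_add_of_le hr.two_le
      rw [one_smul, pow_char_iff, map_pow]
      conv_lhs => rw [hj, pow_add, show aeval x.toLinearMap (X - C 1 : F[X]) ^ 2 = 0 from LinearMap.ext fun v => by simp [sq, k, hx.fix_x], zero_mul]
    · rw [a, smul_left_injective F e.x_ne ((LinearMap.congr_fun a u).symm.trans (hx.fix_x.trans (one_smul F u).symm)), one_smul]; rfl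
  have r0 := natCast_ne (F := F) hr hrp
  by_cases h2 : r = 2
  · subst h2
    have o : Odd q := (Nat.odd_pow_iff two_ne_zero).mp (hq ▸ odd_card (F := F) (Ne.symm hrp))
    rw [uni_red hf (by omega) SP.smul, and_iff_right rfl, and_iff_right o, and_iff_left fun x a z b c => by
      obtain ⟨l, rfl, l1⟩ := b.two H o
      obtain ⟨E, e1, e2, e3⟩ := c2_pair r0 (mem_SIsom.mp a).1 l1 (sq_app c)
      exact SP.of_inv e1 (fun v k => e2 v k ▸ E.1.smul_mem _ k) fun v k => e3 v k ▸ E.2.smul_mem _ k]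
    constructor
    · intro h
      by_contra k
      obtain ⟨l, l1, l2⟩ := (N_neg H r0 (by omega)).mpr k
      obtain ⟨a, a1⟩ := unit_exists_Q_ne H.ne_id hf (by omega)
      rw [unit_Q] at a1
      have u2 := finrank_span_singleton (K := F) (show a ≠ 0 from fun k => a1 (by simp [k]))
      have := hf.finrank_perp (F ∙ a)
      have ns := (rho_not_scal (nd_compl hf (nd_span a1)) r0).mpr ⟨fun e => by rw [e, finrank_bot] at u2; omega,
        fun e => by rw [e, finrank_bot] at this; omega⟩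
      refine rank_one hf (by omega) (rho_mem _) (fun e => ns 1 (by rw [e, one_smul]; rfl)) (a := a) (fun v => ?_)
        (h _ (rho_mem _) (rho_sq _) ns ⟨l, l1, by rw [det_rho, hV, l2, u2]; simp⟩)
      obtain ⟨c, d, rfl, -⟩ := Submodule.existsUnique_add_of_isCompl (nd_compl hf (nd_span a1)) v
      rw [map_add, rho_left _ c.2, rho_right _ d.2, add_sub_add_right_eq_sub]
      exact sub_mem (neg_mem c.2) c.2
    · rintro h y a b - ⟨l, l1, l2⟩
      obtain ⟨U, u1, rfl⟩ := exists_rho hf r0 a fun v => LinearEquiv.congr_fun (sq y ▸ b) v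
      have := hf.finrank_perp U
      have : finrank F U % 2 = 0 := by_contra fun k' => (N_neg H r0 (by omega)).mp ⟨l, l1, by
        rw [det_rho, hV, Odd.neg_one_pow (Nat.odd_iff.mpr (by omega))] at l2; linear_combination -l2⟩ h
      obtain ⟨A, a1⟩ := lp_un H u1 (d := finrank F U / 2) (by omega)
      obtain ⟨B, b1⟩ := lp_un H (hf.res_perp u1) (d := m - finrank F U / 2) (by omega)
      refine SP.of_inv (lp_sum (nd_compl hf u1) a1 b1) ?_ ?_ <;>
      exact inv_sup (g := (rho _).toLinearMap) (fun v k => (rho_left _ (Submodule.map_subtype_le _ _ k)).symm ▸ neg_mem k)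
        fun v k => (rho_right _ (Submodule.map_subtype_le _ _ k)).symm ▸ k
  refine iff_of_false (fun h => ?_) fun h => h2 h.1
  obtain ⟨i0, i2, T, UU⟩ := exists_UP_u H hr h2 hrp rfl rfl
  set i := orderOf (q : ZMod r) with hi
  have t := TS_half hf L.2.1 L.2.2 L.1
  have fx : ∀ x ∈ (hermC H (m + m)).Isom, x ^ r = 1 → SP (hermC H (m + m)) x.toLinearMap →
      ∃ K, (hermC H (m + m)).TS K ∧ finrank F K = m ∧ ∀ v ∈ K, x v ∈ K := fun x _ x3 ⟨E, e1, e2⟩ => by
    have := TS_half hf e1.2.1 e1.2.2 e1.1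
    refine ⟨E.1, e1.2.1, by omega, fun v hv => (e2.elim (·.1) fun e => ?_).le ⟨v, hv, rfl⟩⟩
    obtain ⟨k, rfl⟩ := hr.odd_of_ne_two h2
    have := map_pow_eq (f := x.toLinearMap) (D := fun b => if b then E.2 else E.1) (σ := Equiv.boolNot) (by rintro (_ | _) <;> simp [e]) (2 * k + 1) false
    rw [pow_smul x3, Function.iterate_succ_apply', Function.iterate_mul, Function.iterate_fixed rfl] at this
    exact e.1.trans (by simpa [Module.End.one_eq_id] using this.symm)
  by_cases k : i = 2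
  · have := Nat.odd_iff.mp (hr.odd_of_ne_two h2)
    have := hr.two_le
    obtain ⟨x, x1, x2, x3, x4, x5⟩ := two_s H hf r0 (i2.mp k) (by simpa [k] using UU) one_pos (by omega) (by omega)
    obtain ⟨K, k1, k2, k3⟩ := fx x x1 x2 (h x (mem_SIsom.mpr ⟨x1, x3⟩) 1 (pow_smul x2) x4)
    have := x5 K k1 k3
    omega
  rw [uni_cop H hf (by omega) hr (mt i2.mpr k) SP.smul] at h
  have key : i % 4 = 2 ∧ i / 2 ≤ m + m := by
    haveI := H.fin
    have k1 := card_pair hf L
    have k2 := card_orb _ _ O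
    let S := (MulAction.stabilizer ((Fin (m + m) → F) ≃ₗ[F] _) (D 0, D 1)) ⊓ (hermC H (m + m)).SIsom
    have k3 := rel_card (H := S.comap gl) hG (fun _ _ => Iff.rfl) inf_le_right
    rw [← k2, show Nat.card (MulAction.stabilizer (hermC H (m + m)).SIsom (D 0, D 1)) = Nat.card S from Nat.card_congr
      ⟨fun g => ⟨g.1.1, g.2, g.1.2⟩, fun g => ⟨⟨g.1, g.2.2⟩, g.2.1⟩, fun _ => rfl, fun _ => rfl⟩] at k3
    haveI : Finite ((Fin (m + m) → F) ≃ₗ[F] (Fin (m + m) → F)) := DFunLike.finite _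
    have k4 := hΩ.trans ((Subgroup.relIndex_dvd_of_le_left _ fun g (a : g ∈ S.comap gl) => (mem g).mpr (Or.inl (Prod.ext_iff.mp a.1))).trans
      (Nat.eq_of_mul_eq_mul_right Nat.card_pos k3).dvd)
    rw [card_lin, unit_card_Isom H _ hf hV, H.card, show finrank F (D 0) = m by simp only at t; omega] at k1
    exact uni_pair hr h2 H.two_le i0 k4 k1
  obtain ⟨a, ha⟩ := UU.ne
  rw [if_pos (Nat.even_iff.mpr (by omega))] at UU
  have sw : El.SU σ r T (i / 2) (i / 2) {a} 1 := ⟨by simpa, UU.map_sd key.1 (by simpa), by simp⟩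
  obtain ⟨x, x1, x2⟩ := (rz_unit H UU r0 hf (m + m - i / 2) {a} 1 sw (by omega)).mpr (Or.inr trivial)
  have x3 : x.1 ^ r = 1 := congrArg Subtype.val x1
  have k0 := UP.ker (P := FP.unit σ H.invol) UU sw.1 x2
  obtain ⟨K, k1, k2, k3⟩ := fx x.1 x.2 x3 (h x.1 x.2 x3 fun e => by
    rw [show (x.1.toLinearMap - 1 : End F _) = 0 by rw [e]; exact sub_self _, LinearMap.ker_zero, finrank_top] at k0; omega)
  obtain ⟨b, b', t, t', -, -, e1, e2, e3, -⟩ := UP.ts_ty (P := FP.unit σ H.invol) UU (if_pos key.1).symm hf r0 x.2 x3 sw.1 x2 k1 k3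
  have := congrArg Multiset.card e2
  simp only [Multiset.card_add, Multiset.card_map, Multiset.card_singleton] at this
  rw [show t.card = 0 by omega] at e3
  omega

end Cfsg.Agent.S5984
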