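import Cfsg.Statements.S5987
import Cfsg.Agent.H5.El13

set_option autoImplicit false
open scoped MatrixGroups
open Cfsg

namespace Cfsg.Agent.S5987

open CfsgH5 CfsgH5.El CfsgH5.Gl CfsgH5.Gc CfsgH5.CForm Polynomial Module

/-- Elements of prime order of PΩ⁻_n(q) with no fixed totally singular `m`-space. Here `T = PΩ⁻_n(F)`, `n = 2d ≥ 8`, realised through `Ω⁻_n(q)`, the commutator subgroup of the isometry group of `Q = Σ_{i<d−1} xᵢyᵢ + z₁² + a z₁z₂ + b z₂²` with `z₁² + a z₁z₂ + b z₂²` anisotropic, over the field `F` with `q` elements; an element of `T` of prime order `r` is an element `x` of `Ω⁻_n(q)` with `x^r` scalar and `x` not scalar. Let `1 ≤ m ≤ d − 1` and let `r` be a prime dividing the number of totally singular `m`-spaces (subspaces of dimension `m` on which `Q` vanishes); for `r ≠ p` let `i` be the multiplicative order of `q` modulo `r`, `c = i` for `i` even and `c = 2i` for `i` odd, and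 write `k = n mod c`, `ℓ = m mod i`, `n' = ⌊n/i⌋`, `m' = ⌊m/i⌋`, `t = (r−1)/i`. Then every element of `T` of order `r` fixes some totally singular `m`-space if and only if one of: (i) `r = 2 ≠ p` and (`n ≡ 0 (mod 4)`, or `m` is even, or `q ≢ 7 (mod 8)`); (ii) `r ≠ p` odd, `i` odd, `i ≤ m` and (`k = 0` or `k > 2ℓ`); (iii) `r ≠ p` odd, `i` even, `i ≤ m`, `n' − 2m' ≥ t`, and one of: (a) `i ≥ 2ℓ`, `k = 0`, `n/i` even and `n' − 2m' > t` (all four); (b) `k ≥ 2ℓ` and `n'` odd; (c) `k > 2ℓ` and `n'` even. -/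
theorem result {F : Type*} [Field F] [Fintype F] {p : ℕ} [Fact p.Prime] [CharP F p] {q : ℕ} (hq : Fintype.card F = q)
    (d m : ℕ) (hd : 4 ≤ d) (hm : 1 ≤ m) (hmd : m + 1 ≤ d) (a b : F) (hab : ∀ x y : F, x ^ 2 + a * x * y + b * y ^ 2 = 0 → x = 0 ∧ y = 0)
    (r : ℕ) [Fact r.Prime]
    (hrΩ : r ∣ Nat.card {W : Submodule F ((Fin (d - 1) ⊕ Fin (d - 1)) ⊕ Fin 2 → F) // Module.finrank F ↥W = m ∧ Cfsg.Geo.IsTotallySingularQuad (Cfsg.quadFormMinus (d - 1) F a b) W})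
    (i c : ℕ) (hi : i = orderOf (q : ZMod r)) (hc : c = if Even i then i else 2 * i) :
    (∀ x : GL ((Fin (d - 1) ⊕ Fin (d - 1)) ⊕ Fin 2) F, x ∈ Cfsg.Geo.omegaGL (Cfsg.quadFormMinus (d - 1) F a b) →
      (∃ z : F, ((x ^ r : GL ((Fin (d - 1) ⊕ Fin (d - 1)) ⊕ Fin 2) F) : Matrix ((Fin (d - 1) ⊕ Fin (d - 1)) ⊕ Fin 2) ((Fin (d - 1) ⊕ Fin (d - 1)) ⊕ Fin 2) F) = z • (1 : Matrix ((Fin (d - 1) ⊕ Fin (d - 1)) ⊕ Fin 2) ((Fin (d - 1) ⊕ Fin (d - 1)) ⊕ Fin 2) F)) →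
      (∀ z : F, (x : Matrix ((Fin (d - 1) ⊕ Fin (d - 1)) ⊕ Fin 2) ((Fin (d - 1) ⊕ Fin (d - 1)) ⊕ Fin 2) F) ≠ z • (1 : Matrix ((Fin (d - 1) ⊕ Fin (d - 1)) ⊕ Fin 2) ((Fin (d - 1) ⊕ Fin (d - 1)) ⊕ Fin 2) F)) →
      ∃ W : Submodule F ((Fin (d - 1) ⊕ Fin (d - 1)) ⊕ Fin 2 → F), (Module.finrank F ↥W = m ∧ Cfsg.Geo.IsTotallySingularQuad (Cfsg.quadFormMinus (d - 1) F a b) W) ∧ W.map (Matrix.toLin' (x : Matrix ((Fin (d - 1) ⊕ Fin (d - 1)) ⊕ Fin 2) ((Fin (d - 1) ⊕ Fin (d - 1)) ⊕ Fin 2) F)) ≤ W) ↔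
    ((r = 2 ∧ p ≠ 2 ∧ (Even d ∨ Even m ∨ q % 8 ≠ 7)) ∨
     (r ≠ p ∧ 2 < r ∧ Odd i ∧ i ≤ m ∧ ((2 * d) % c = 0 ∨ 2 * (m % i) < (2 * d) % c)) ∨
     (r ≠ p ∧ 2 < r ∧ Even i ∧ i ≤ m ∧ (r - 1) / i + 2 * (m / i) ≤ (2 * d) / i ∧
       ((2 * (m % i) ≤ i ∧ (2 * d) % c = 0 ∧ Even ((2 * d) / i) ∧ (r - 1) / i + 2 * (m / i) < (2 * d) / i) ∨
        (2 * (m % i) ≤ (2 * d) % c ∧ Odd ((2 * d) / i)) ∨
        (2 * (m % i) < (2 * d) % c ∧ Even ((2 * d) / i))))) := by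
  subst hq
  have hr : r.Prime := Fact.out
  have hf := minusQ_nondeg (d - 1) hab
  have hp := minusQ_not_isPlus (d - 1) hab
  have hn : finrank F ((Fin (d - 1) ⊕ Fin (d - 1)) ⊕ Fin 2 → F) = 2 * d := by simp; omega
  have hΩ : r ∣ Nat.card {W : Submodule F _ // finrank F W = m ∧ (ofQuad (minusQ (d - 1) a b)).TS W} := by simp only [TS_orth]; exact hrΩ
  have hrp : r ≠ p := by rintro rfl; exact not_p_TS hf ((TS_even hf hn m).mpr (Or.inl hmd)) (by omega) hΩ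
  refine Iff.trans (b := AllS (ofQuad (minusQ (d - 1) a b)).E r (Fx fun W => finrank F W = m ∧ (ofQuad (minusQ (d - 1) a b)).TS W))
    (by rw [← all_iff (Mx.mem_omegaGL hf (by simp; omega))]; simp only [← Fx_iff, TS_orth, and_assoc]; rfl) ?_
  by_cases h2 : r = 2
  · subst h2
    have o := odd_card (F := F) hrp.symm
    have o' := Nat.odd_iff.mp o
    have t := natCast_ne (F := F) hr hrp
    rw [or_iff_left (by omega), and_iff_right rfl, and_iff_right hrp.symm, all_two hf (by omega) t,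
      neg_all hf t hn (by omega) fun g a b => neg_TS hf t a b (by omega), NT, iff_false_left hp, pow4 o, and_iff_right]
    · simp only [Nat.even_iff]; omega
    intro U hU k a1 a2 a3 _
    have := hf.finrank_perp U
    have e := mt (plus_perp hf hU hn a1).mpr hp
    simp only [rho_TS _ t, TS_even hU a1, TS_even (hf.res_perp hU) (m := d - k) (by omega)]
    by_cases c : ((ofQuad (minusQ (d - 1) a b)).res U).IsPlus
    · exact ⟨min k m, m - min k m, by omega, by simp only [c, and_true]; omega, by omega⟩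
    · exact ⟨min (k - 1) m, m - min (k - 1) m, by omega, by omega, by simp only [show ((ofQuad (minusQ (d - 1) a b)).res
        ((ofQuad (minusQ (d - 1) a b)).perp U)).IsPlus by tauto, and_true]; omega⟩
  rw [odd_allS hf (by omega) (hr.odd_of_ne_two h2) (Fx.neg _), ts_even hr h2 hrp hi hc hf hn hmd hΩ (Or.inr ⟨hp, rfl⟩)]
  have := hr.two_le
  have := mod_two_mul d 0 i two_pos
  have i0 : 0 < i := hi ▸ ord_pos hr hrp
  have := Nat.mod_lt m i0
  have : (d % i = 0 ∧ (d - 1) % i + 1 = i) ∨ (d - 1) % i + 1 = d % i := by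
    obtain ⟨e, rfl⟩ : ∃ e, d = e + 1 := ⟨d - 1, by omega⟩
    rw [Nat.add_sub_cancel, ← Nat.mod_add_mod]
    rcases (Nat.succ_le_of_lt (Nat.mod_lt e i0)).eq_or_lt with k | k
    · exact Or.inl ⟨by rw [show e % i + 1 = i from k, Nat.mod_self], k⟩
    · exact Or.inr (Nat.mod_eq_of_lt k).symm
  simp only [h2, hrp, show 2 < r by omega, false_and, false_or, ne_eq, not_false_eq_true, true_and, ← Nat.not_even_iff_odd]
  split_ifs at hc ⊢ with h <;> subst hc <;> simp only [h, not_true, not_false_eq_true, false_and, false_or, or_false, true_and, Nat.even_iff,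
    add_zero] at * <;> omega

end Cfsg.Agent.S5987
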