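import Cfsg.Statements.S5988
import Cfsg.Agent.H5.El15

set_option autoImplicit false
open scoped MatrixGroups
open Cfsg

namespace Cfsg.Agent.S5988

open CfsgH5 CfsgH5.El CfsgH5.Gl CfsgH5.Gc CfsgH5.CForm Polynomial Module

/-- Elements of prime order of PΩ⁺_n(q) with no fixed elliptic `m`-space. Here `T = PΩ⁺_n(F)`, `n = 2d ≥ 8`, realised through `Ω⁺_n(q)`, the commutator subgroup of the isometry group of `Q = Σ xᵢyᵢ` over the field `F` with `q` elements; an element of `T` of prime order `r` is an element `x` of `Ω⁺_n(q)` with `x^r` scalar and `x` not scalar; a nondegenerate `m`-space (even `m`) is a subspace on which the polar form of `Q` is nondegenerate; it is hyperbolic if it contains an `m/2`-dimensional subspace on which `Q` vanishes, elliptic otherwise. Let `m` be even with `2 ≤ m < n/2` and let `r` be a prime dividing the number of elliptic `m`-spaces; for `r ≠ p` let `i` be the multiplicative order of `q` modulo `r`,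 `c = i` for `i` even and `c = 2i` for `i` odd, and write `k = n mod c`, `ℓ = m mod i`, `ℓ' = m mod c`, `n' = ⌊n/i⌋`, `m' = ⌊m/i⌋`, `t = (r−1)/i`. Then every element of `T` of order `r` fixes some elliptic `m`-space if and only if one of: (i) `r = 2 ≠ p` and either `n ≡ 0 (mod 4)`, `q ≡ 3 (mod 4)` and `m ≡ 2 (mod 4)`, or `n ≡ 2 (mod 4)` and `q ≢ 1 (mod 8)`; (ii) `r ≠ p` odd, `i` odd, `c ≤ m` and `k > ℓ' > 0`; (iii) `r ≠ p` odd, `i` even, and either `k = 0` and (`n/i` odd, or `ℓ' = 0` and `m/i` odd), or `i ≤ m` and (`k > ℓ' > 0`, or `k = ℓ' > 0` and `(n + m − 2k)/i` odd, or `k > ℓ' = 0` and `m/i` odd). (For `r = p` there is always an element of order `p` fixing no elliptic `m`-space.) -/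
theorem result {F : Type*} [Field F] [Fintype F] {p : ℕ} [Fact p.Prime] [CharP F p] {q : ℕ} (hq : Fintype.card F = q)
    (d m : ℕ) (hd : 4 ≤ d) (hm : 2 ≤ m) (hme : Even m) (hmd : m < d)
    (r : ℕ) [Fact r.Prime]
    (hrΩ : r ∣ Nat.card {W : Submodule F (Fin d ⊕ Fin d → F) // Module.finrank F ↥W = m ∧ Cfsg.Geo.IsNondegenerateOn (QuadraticMap.polar (Cfsg.quadFormPlus d F)) W ∧ ¬ Cfsg.Geo.IsPlusTypeOn (Cfsg.quadFormPlus d F) W})
    (i c : ℕ) (hi : i = orderOf (q : ZMod r)) (hc : c = if Even i then i else 2 * i) :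
    (∀ x : GL (Fin d ⊕ Fin d) F, x ∈ Cfsg.Geo.omegaGL (Cfsg.quadFormPlus d F) →
      (∃ z : F, ((x ^ r : GL (Fin d ⊕ Fin d) F) : Matrix (Fin d ⊕ Fin d) (Fin d ⊕ Fin d) F) = z • (1 : Matrix (Fin d ⊕ Fin d) (Fin d ⊕ Fin d) F)) →
      (∀ z : F, (x : Matrix (Fin d ⊕ Fin d) (Fin d ⊕ Fin d) F) ≠ z • (1 : Matrix (Fin d ⊕ Fin d) (Fin d ⊕ Fin d) F)) →
      ∃ W : Submodule F (Fin d ⊕ Fin d → F), (Module.finrank F ↥W = m ∧ Cfsg.Geo.IsNondegenerateOn (QuadraticMap.polar (Cfsg.quadFormPlus d F)) W ∧ ¬ Cfsg.Geo.IsPlusTypeOn (Cfsg.quadFormPlus d F) W) ∧ W.map (Matrix.toLin' (x : Matrix (Fin d ⊕ Fin d) (Fin d ⊕ Fin d) F)) ≤ W) ↔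
    ((r = 2 ∧ p ≠ 2 ∧ ((Even d ∧ q % 4 = 3 ∧ m % 4 = 2) ∨ (Odd d ∧ q % 8 ≠ 1))) ∨
     (r ≠ p ∧ 2 < r ∧ Odd i ∧ c ≤ m ∧ 0 < m % c ∧ m % c < (2 * d) % c) ∨
     (r ≠ p ∧ 2 < r ∧ Even i ∧
       (((2 * d) % c = 0 ∧ (Odd ((2 * d) / i) ∨ (m % c = 0 ∧ Odd (m / i)))) ∨
        (i ≤ m ∧ ((0 < m % c ∧ m % c < (2 * d) % c) ∨
                  (0 < m % c ∧ m % c = (2 * d) % c ∧ Odd ((2 * d + m - 2 * ((2 * d) % c)) / i)) ∨
                  (m % c = 0 ∧ 0 < (2 * d) % c ∧ Odd (m / i))))))) := by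
  subst hq
  have hr : r.Prime := Fact.out
  have hf := plusQ_nondeg F d
  have hp := plusQ_isPlus (F := F) d
  have hn : finrank F (Fin d ⊕ Fin d → F) = 2 * d := by simp; omega
  have e : ∀ W : Submodule F _, (finrank F W = m ∧ Geo.IsNondegenerateOn (QuadraticMap.polar (quadFormPlus d F)) W ∧
      ¬ Geo.IsPlusTypeOn (quadFormPlus d F) W) ↔
      (finrank F W = m ∧ ((ofQuad (plusQ F d)).res W).Nondeg ∧ (((ofQuad (plusQ F d)).res W).IsPlus ↔ False)) := fun W => by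
    rw [← on_iff, Mx.isPlus_res_iff, iff_false]; rfl
  simp only [e] at hrΩ ⊢
  obtain ⟨k, hk⟩ := id hme
  obtain ⟨U, u1, u2, u3⟩ := ex_type hf (k := k) (by omega) (by omega) False
  have hΩ := orb_even hf u1 (by omega) hme u3
  have u4 := ((plus_perp hf u1 hn u2).mp hp).symm.trans u3
  refine Iff.trans (b := AllS (ofQuad (plusQ F d)).E r (Fx _)) (by rw [← all_iff (Mx.mem_omegaGL hf (by simp; omega))]; simp only [Fx_iff]; rfl) ?_
  by_cases h2 : r = 2
  · subst h2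
    rw [or_iff_left (by omega), and_iff_right rfl]
    by_cases t : p = 2
    · subst t
      rw [nd_char2' hf (CharP.cast_eq_zero F 2) hn (by omega) u1 u2 (by omega) (by omega) (Or.inl ⟨hp, rfl⟩) (Or.inr ⟨u3.mp, rfl⟩) (Or.inr ⟨u4.mp, rfl⟩) hΩ]
      omega
    · have o := odd_card (F := F) t
      have o' := Nat.odd_iff.mp o
      rw [nd_two hf (natCast_ne (F := F) hr (Ne.symm t)) hn (by omega) u1 (by omega) hΩ, show (∃ j, finrank F U = 2 * j ∧ NT ((ofQuad (plusQ F d)).res U) j) ↔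
        NT ((ofQuad (plusQ F d)).res U) k from ⟨fun ⟨j, a, b⟩ => (show j = k by omega) ▸ b, fun h => ⟨k, u2, h⟩⟩]
      simp only [NT, hp, u3, true_iff, false_iff, pow4 o, Nat.even_iff, Nat.odd_iff, t, true_and, ne_eq, not_false_eq_true]
      omega
  have o := hr.odd_of_ne_two h2
  rw [odd_allS hf (by omega) o (Fx.neg _)]
  by_cases hrp : r = p
  · subst hrp
    refine iff_of_false (fun h => ?_) (by simp [h2])
    obtain ⟨W, w, a1, b1, c1, a2, b2, c2, e1, e2, e3, e4, e5, e6, e7⟩ := unip3 h2 hf (fun W h => h.2.1) h (2 * (d % 2)) (d - d % 2) 0 (by omega)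
      (by omega) (by omega) (Or.inr hp)
    replace e5 := e5.trans w.1
    have := mt (fun k => w.2.2.mp (e6 k)) id
    have := mt (fun j => w.2.2.mp (((plus_perp hf w.2.1 hn (k := k) (by rw [w.1]; omega)).mp hp).mpr (e7 j))) id
    omega
  obtain ⟨T, H⟩ := exists_UP_id (F := F) hr h2 hrp
  rw [← hi] at H
  have := hf.finrank_perp U
  refine UP.nd_fin (P := FP.orth F) H hc hf hr hrp u1 (rz_even hr h2 hrp H hi hc hf ⟨d, by omega⟩) (rz_even hr h2 hrp H hi hc u1 ⟨k, by omega⟩)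
    (rz_even hr h2 hrp H hi hc (hf.res_perp u1) ⟨d - k, by omega⟩) (fun x y a => (orth_isConj hf a (natCast_ne hr hrp) o).mpr) hΩ hrΩ (m := m) (by omega) hn
    (by omega) (by omega) fun M0 M1 M2 a0 a1 a2 => ?_
  have := hr.two_le
  have := div_sub (H.cpos hc) (show m ≤ 2 * d by omega)
  have := Nat.mod_add_div m c
  simp only [El.IsM, hp, u3, u4, h2, hrp, show 2 < r by omega, false_or, true_and, ← Nat.not_even_iff_odd, true_iff, false_iff, false_and, ne_eq,
    not_false_eq_true] at *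
  split_ifs at hc with h <;> subst hc <;> simp only [h, not_true, not_false_eq_true, false_and, false_or, or_false, true_and, Nat.even_iff,
    forall_true_left, false_imp_iff, or_true, and_false] at * <;> omega

end Cfsg.Agent.S5988
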