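import Cfsg.Statements.S5989
import Cfsg.Agent.H5.El15

set_option autoImplicit false
open scoped MatrixGroups
open Cfsg

namespace Cfsg.Agent.S5989

open CfsgH5 CfsgH5.El CfsgH5.Gl CfsgH5.Gc CfsgH5.CForm Polynomial Module


/-- Elements of prime order of PΩ⁺_n(q), q odd, with no fixed nondegenerate `m`-space of odd dimension. Here `T = PΩ⁺_n(F)`, `n = 2d ≥ 8`, realised through `Ω⁺_n(q)`, the commutator subgroup of the isometry group of `Q = Σ xᵢyᵢ` over the field `F` with `q` elements; an element of `T` of prime order `r` is an element `x` of `Ω⁺_n(q)` with `x^r` scalar and `x` not scalar; `q` and `m` are odd, `1 ≤ m < n/2`. The nondegenerate `m`-spaces (subspaces on which the polar form is nondegenerate) fall into two isometry classes, each an orbit of `T`, and the two actions are equivalent; fix one such space `W₀` and let Ω be the set of nondegenerate `m`-spaces isometric to `W₀` (some linear isomorphism preserves `Q`). Let `r` be a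 prime dividing the size of Ω; for `r ≠ p` let `i` be the multiplicative order of `q` modulo `r`, `c = i` for `i` even and `c = 2i` for `i` odd, and write `k = n mod c`, `ℓ = m mod i`, `ℓ' = m mod c`, `n' = ⌊n/i⌋`, `m' = ⌊m/i⌋`, `t = (r−1)/i`. Then every element of `T` of order `r` fixes a member of Ω if and only if one of: (i) `r = 2`, `n ≡ 2 (mod 4)` and `q ≢ 1 (mod 8)`; (ii) `r ≠ p` odd, `i` odd, `c ≤ m` and `k > ℓ' > 0`; (iii) `r ≠ p` odd, `i` even, and either `k = 0` and `n/i` odd, or `i ≤ m` and `k > ℓ' > 0`. (For `r = p` there is always an element of order `p` fixing no member of Ω.) -/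
theorem result {F : Type*} [Field F] [Fintype F] {p : ℕ} [Fact p.Prime] [CharP F p] {q : ℕ} (hq : Fintype.card F = q)
    (hodd : Odd q) (d m : ℕ) (hd : 4 ≤ d) (hm : Odd m) (hmd : m < d)
    (W₀ : Submodule F (Fin d ⊕ Fin d → F)) (hW₀ : Module.finrank F ↥W₀ = m ∧ Cfsg.Geo.IsNondegenerateOn (QuadraticMap.polar (Cfsg.quadFormPlus d F)) W₀)
    (r : ℕ) [Fact r.Prime]
    (hrΩ : r ∣ Nat.card {W : Submodule F (Fin d ⊕ Fin d → F) // Module.finrank F ↥W = m ∧ Cfsg.Geo.IsNondegenerateOn (QuadraticMap.polar (Cfsg.quadFormPlus d F)) W ∧ Cfsg.Geo.AreIsometricFor (Cfsg.quadFormPlus d F) W W₀})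
    (i c : ℕ) (hi : i = orderOf (q : ZMod r)) (hc : c = if Even i then i else 2 * i) :
    (∀ x : GL (Fin d ⊕ Fin d) F, x ∈ Cfsg.Geo.omegaGL (Cfsg.quadFormPlus d F) →
      (∃ z : F, ((x ^ r : GL (Fin d ⊕ Fin d) F) : Matrix (Fin d ⊕ Fin d) (Fin d ⊕ Fin d) F) = z • (1 : Matrix (Fin d ⊕ Fin d) (Fin d ⊕ Fin d) F)) →
      (∀ z : F, (x : Matrix (Fin d ⊕ Fin d) (Fin d ⊕ Fin d) F) ≠ z • (1 : Matrix (Fin d ⊕ Fin d) (Fin d ⊕ Fin d) F)) →
      ∃ W : Submodule F (Fin d ⊕ Fin d → F), (Module.finrank F ↥W = m ∧ Cfsg.Geo.IsNondegenerateOn (QuadraticMap.polar (Cfsg.quadFormPlus d F)) W ∧ Cfsg.Geo.AreIsometricFor (Cfsg.quadFormPlus d F) W W₀) ∧ W.map (Matrix.toLin' (x : Matrix (Fin d ⊕ Fin d) (Fin d ⊕ Fin d) F)) ≤ W) ↔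
    ((r = 2 ∧ Odd d ∧ q % 8 ≠ 1) ∨
     (r ≠ p ∧ 2 < r ∧ Odd i ∧ c ≤ m ∧ 0 < m % c ∧ m % c < (2 * d) % c) ∨
     (r ≠ p ∧ 2 < r ∧ Even i ∧ (((2 * d) % c = 0 ∧ Odd ((2 * d) / i)) ∨ (i ≤ m ∧ 0 < m % c ∧ m % c < (2 * d) % c)))) := by
  subst hq
  have hr : r.Prime := Fact.out
  have hp2 := p_ne_two (p := p) hodd
  have t := natCast_ne (F := F) Nat.prime_two hp2.symm
  have hf := plusQ_nondeg F d
  have hp := plusQ_isPlus (F := F) d
  have hn : finrank F (Fin d ⊕ Fin d → F) = 2 * d := by simp; omega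
  have u1 := (on_iff (ofQuad (plusQ F d))).mp hW₀.2
  have u2 := hW₀.1
  have hΩ := orb_of hf (U := W₀) (Ω := fun W => finrank F W = m ∧ Geo.IsNondegenerateOn (QuadraticMap.polar (quadFormPlus d F)) W ∧
    Geo.AreIsometricFor (quadFormPlus d F) W W₀) (fun W ⟨_, _, e, h⟩ => ⟨e.symm, IsIso.symm ⟨fun u v => by
      rw [orth_B, orth_B, ← map_add]; exact congrArg₂ _ (congrArg₂ _ (h _) (h _)) (h _), h⟩⟩)
    fun W e h => ⟨e.finrank_eq.symm.trans u2, (on_iff (ofQuad (plusQ F d))).mpr (h.nondeg u1), e.symm, h.symm.2⟩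
  refine Iff.trans (b := AllS (ofQuad (plusQ F d)).E r (Fx _)) (by rw [← all_iff (Mx.mem_omegaGL hf (by simp; omega))]; simp only [Fx_iff]; rfl) ?_
  have m1 := Nat.odd_iff.mp hm
  by_cases h2 : r = 2
  · subst h2
    have o' := Nat.odd_iff.mp hodd
    rw [or_iff_left (by omega), and_iff_right rfl, nd_two hf t hn (by omega) u1 (by omega) hΩ, show (∃ j, finrank F W₀ = 2 * j ∧
      NT ((ofQuad (plusQ F d)).res W₀) j) ↔ False from iff_false_intro fun ⟨j, a, _⟩ => by omega]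
    simp only [NT, hp, true_iff, pow4 hodd, Nat.even_iff, Nat.odd_iff, imp_false]
    omega
  have o := hr.odd_of_ne_two h2
  rw [odd_allS hf (by omega) o (Fx.neg _)]
  by_cases hrp : r = p
  · subst hrp
    refine iff_of_false (fun h => ?_) (by simp [h2])
    have key := unip3 h2 hf (fun W h => (on_iff (ofQuad (plusQ F d))).mp h.2.1) h
    by_cases c : d % 2 = 1 ∧ m % 4 = 1
    · obtain ⟨W, w, a1, b1, c1, a2, b2, c2, e1, e2, e3, e4, e5, -⟩ := key 0 (d - 3) 2 (by omega) (by omega) (by omega) (Or.inr hp)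
      replace e5 := e5.trans w.1
      rcases (by omega : c1 = 0 ∨ c1 = 1 ∨ c1 = 2) with rfl | rfl | rfl <;> omega
    · obtain ⟨W, w, a1, b1, c1, a2, b2, c2, e1, e2, e3, e4, e5, -⟩ := key (2 * (d % 2)) (d - d % 2) 0 (by omega) (by omega) (by omega) (Or.inr hp)
      replace e5 := e5.trans w.1
      rcases (by omega : a1 = 0 ∨ a1 = 1 ∨ a1 = 2) with rfl | rfl | rfl <;> omega
  obtain ⟨T, H⟩ := exists_UP_id (F := F) hr h2 hrp
  rw [← hi] at H
  have := hf.finrank_perp W₀
  refine UP.nd_fin (P := FP.orth F) H hc hf hr hrp u1 (rz_even hr h2 hrp H hi hc hf ⟨d, by omega⟩) (rz_odd hr h2 hrp H u1 (u2 ▸ hm))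
    (rz_odd hr h2 hrp H (hf.res_perp u1) (Nat.odd_iff.mpr (by omega))) (fun x y a => (orth_isConj hf a (natCast_ne hr hrp) o).mpr) hΩ hrΩ u2 hn
    (by omega) (by omega) fun M0 M1 M2 a0 a1 a2 => ?_
  have := hr.two_le
  have := div_sub (H.cpos hc) (show m ≤ 2 * d by omega)
  have := c_even hc m
  have := c_even hc (2 * d)
  have := Nat.mod_add_div m c
  simp only [El.IsM, hp, h2, hrp, show 2 < r by omega, false_or, true_and, ← Nat.not_even_iff_odd, true_iff, false_and, ne_eq,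
    not_false_eq_true] at *
  split_ifs at hc with h <;> subst hc <;> simp only [h, not_true, not_false_eq_true, false_and, false_or, or_false, true_and, Nat.even_iff,
    forall_true_left, false_imp_iff, or_true, and_false] at * <;> omega

end Cfsg.Agent.S5989
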