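import Cfsg.Statements.S5990
import Cfsg.Agent.H5.El14

set_option autoImplicit false
open scoped MatrixGroups
open Cfsg

namespace Cfsg.Agent.S5990

open CfsgH5 CfsgH5.El CfsgH5.Gl CfsgH5.Gc CfsgH5.CForm Polynomial Module

/-- Elements of prime order of PΩ⁻_n(q) with no fixed elliptic `m`-space. Here `T = PΩ⁻_n(F)`, `n = 2d ≥ 8`, realised through `Ω⁻_n(q)`, the commutator subgroup of the isometry group of `Q = Σ_{i<d−1} xᵢyᵢ + z₁² + a z₁z₂ + b z₂²` with `z₁² + a z₁z₂ + b z₂²` anisotropic, over the field `F` with `q` elements; an element of `T` of prime order `r` is an element `x` of `Ω⁻_n(q)` with `x^r` scalar and `x` not scalar; a nondegenerate `m`-space (even `m`) is a subspace on which the polar form of `Q` is nondegenerate; it is hyperbolic if it contains an `m/2`-dimensional subspace on which `Q` vanishes, elliptic otherwise. Let `m` be even with `2 ≤ m ≤ n − 2` (no restriction `m < n/2`: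 fixing an elliptic `m`-space is the same as fixing its hyperbolic orthogonal complement) and let `r` be a prime dividing the number of elliptic `m`-spaces, with `r = 2` or `r ≠ p`; for `r ≠ p` let `i` be the multiplicative order of `q` modulo `r`, `c = i` for `i` even and `c = 2i` for `i` odd, and write `k = n mod c`, `ℓ = m mod i`, `ℓ' = m mod c`, `n' = ⌊n/i⌋`, `m' = ⌊m/i⌋`, `t = (r−1)/i`. Then every element of `T` of order `r` fixes some elliptic `m`-space if and only if one of: (i) `r = p = 2` and (`n ≡ 0 (mod 4)` or `m ≡ 2 (mod 4)`); (ii) `r = 2 ≠ p` and (`n ≡ 0 (mod 4)`, or `q ≢ 7 (mod 8)`, or `m ≡ 2 (mod 4)`); (iii) `r ≠ p` odd, `i` odd, and `k = 0` or (`c ≤ m` and `k ≥ ℓ' > 0`); (iv) `r ≠ p` odd, `i` even, and either `k = 0` and (`n/i` even, or `ℓ' = 0` and `m/i` odd), or `k > 0`, `i ≤ m` and (`k > ℓ' > 0`, or `ℓ' = 0` and `m/i` odd, or `k = ℓ'` and `(n + m − 2k)/i` even). (Odd `r = p` is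 not covered by this statement.) -/
theorem result {F : Type*} [Field F] [Fintype F] {p : ℕ} [Fact p.Prime] [CharP F p] {q : ℕ} (hq : Fintype.card F = q)
    (d m : ℕ) (hd : 4 ≤ d) (hm : 2 ≤ m) (hme : Even m) (hmn : m + 2 ≤ 2 * d) (a b : F) (hab : ∀ x y : F, x ^ 2 + a * x * y + b * y ^ 2 = 0 → x = 0 ∧ y = 0)
    (r : ℕ) [Fact r.Prime] (hr : r = 2 ∨ r ≠ p)
    (hrΩ : r ∣ Nat.card {W : Submodule F ((Fin (d - 1) ⊕ Fin (d - 1)) ⊕ Fin 2 → F) // Module.finrank F ↥W = m ∧ Cfsg.Geo.IsNondegenerateOn (QuadraticMap.polar (Cfsg.quadFormMinus (d - 1) F a b)) W ∧ ¬ Cfsg.Geo.IsPlusTypeOn (Cfsg.quadFormMinus (d - 1) F a b) W})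
    (i c : ℕ) (hi : i = orderOf (q : ZMod r)) (hc : c = if Even i then i else 2 * i) :
    (∀ x : GL ((Fin (d - 1) ⊕ Fin (d - 1)) ⊕ Fin 2) F, x ∈ Cfsg.Geo.omegaGL (Cfsg.quadFormMinus (d - 1) F a b) →
      (∃ z : F, ((x ^ r : GL ((Fin (d - 1) ⊕ Fin (d - 1)) ⊕ Fin 2) F) : Matrix ((Fin (d - 1) ⊕ Fin (d - 1)) ⊕ Fin 2) ((Fin (d - 1) ⊕ Fin (d - 1)) ⊕ Fin 2) F) = z • (1 : Matrix ((Fin (d - 1) ⊕ Fin (d - 1)) ⊕ Fin 2) ((Fin (d - 1) ⊕ Fin (d - 1)) ⊕ Fin 2) F)) →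
      (∀ z : F, (x : Matrix ((Fin (d - 1) ⊕ Fin (d - 1)) ⊕ Fin 2) ((Fin (d - 1) ⊕ Fin (d - 1)) ⊕ Fin 2) F) ≠ z • (1 : Matrix ((Fin (d - 1) ⊕ Fin (d - 1)) ⊕ Fin 2) ((Fin (d - 1) ⊕ Fin (d - 1)) ⊕ Fin 2) F)) →
      ∃ W : Submodule F ((Fin (d - 1) ⊕ Fin (d - 1)) ⊕ Fin 2 → F), (Module.finrank F ↥W = m ∧ Cfsg.Geo.IsNondegenerateOn (QuadraticMap.polar (Cfsg.quadFormMinus (d - 1) F a b)) W ∧ ¬ Cfsg.Geo.IsPlusTypeOn (Cfsg.quadFormMinus (d - 1) F a b) W) ∧ W.map (Matrix.toLin' (x : Matrix ((Fin (d - 1) ⊕ Fin (d - 1)) ⊕ Fin 2) ((Fin (d - 1) ⊕ Fin (d - 1)) ⊕ Fin 2) F)) ≤ W) ↔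
    ((r = 2 ∧ p = 2 ∧ (Even d ∨ m % 4 = 2)) ∨
     (r = 2 ∧ p ≠ 2 ∧ (Even d ∨ q % 8 ≠ 7 ∨ m % 4 = 2)) ∨
     (r ≠ p ∧ 2 < r ∧ Odd i ∧ ((2 * d) % c = 0 ∨ (c ≤ m ∧ 0 < m % c ∧ m % c ≤ (2 * d) % c))) ∨
     (r ≠ p ∧ 2 < r ∧ Even i ∧
       (((2 * d) % c = 0 ∧ (Even ((2 * d) / i) ∨ (m % c = 0 ∧ Odd (m / i)))) ∨
        (0 < (2 * d) % c ∧ i ≤ m ∧ ((0 < m % c ∧ m % c < (2 * d) % c) ∨ (m % c = 0 ∧ Odd (m / i)) ∨
                                    (m % c = (2 * d) % c ∧ Even ((2 * d + m - 2 * ((2 * d) % c)) / i))))))) := by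
  subst hq
  have hrp := hr
  have hr : r.Prime := Fact.out
  have hf := minusQ_nondeg (d - 1) hab
  have hp := minusQ_not_isPlus (d - 1) hab
  have hn : finrank F ((Fin (d - 1) ⊕ Fin (d - 1)) ⊕ Fin 2 → F) = 2 * d := by simp; omega
  have e : ∀ W : Submodule F _, (finrank F W = m ∧ Geo.IsNondegenerateOn (QuadraticMap.polar (quadFormMinus (d - 1) F a b)) W ∧
      ¬ Geo.IsPlusTypeOn (quadFormMinus (d - 1) F a b) W) ↔ (finrank F W = m ∧ ((ofQuad (minusQ (d - 1) a b)).res W).Nondeg ∧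
      (((ofQuad (minusQ (d - 1) a b)).res W).IsPlus ↔ False)) := fun W => by
    rw [← on_iff, Mx.isPlus_res_iff, iff_false]; rfl
  simp only [e] at hrΩ ⊢
  obtain ⟨k, hk⟩ := id hme
  obtain ⟨U, u1, u2, u3⟩ := ex_type hf (k := k) (by omega) (by omega) False
  have hΩ := orb_even hf u1 (by omega) hme u3
  have u4 : ((ofQuad (minusQ (d - 1) a b)).res ((ofQuad (minusQ (d - 1) a b)).perp U)).IsPlus := by have := plus_perp hf u1 hn u2; tauto
  refine Iff.trans (b := AllS (ofQuad (minusQ (d - 1) a b)).E r (Fx _))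
    (by rw [← all_iff (Mx.mem_omegaGL hf (by simp; omega))]; simp only [Fx_iff]; rfl) ?_
  by_cases h2 : r = 2
  · subst h2
    rw [← or_assoc, or_iff_left (by omega)]
    by_cases t : p = 2
    · subst t
      rw [nd_char2' hf (CharP.cast_eq_zero F 2) hn (by omega) u1 u2 (by omega) (by omega) (Or.inr ⟨hp, rfl⟩) (Or.inr ⟨u3.mp, rfl⟩) (Or.inl ⟨u4, rfl⟩) hΩ,
        Nat.even_iff]
      omega
    · have o := odd_card (F := F) t
      have o' := Nat.odd_iff.mp o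
      rw [nd_two hf (natCast_ne (F := F) hr (Ne.symm t)) hn (by omega) u1 (by omega) hΩ, show (∃ j, finrank F U = 2 * j ∧ NT ((ofQuad (minusQ (d - 1) a b)).res U) j) ↔
        NT ((ofQuad (minusQ (d - 1) a b)).res U) k from ⟨fun ⟨j, a, b⟩ => (show j = k by omega) ▸ b, fun h => ⟨k, u2, h⟩⟩]
      simp only [NT, hp, u3, false_iff, pow4 o, Nat.even_iff, t, and_false, false_or, true_and, ne_eq, not_false_eq_true]
      omega
  replace hrp := hrp.resolve_left h2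
  obtain ⟨T, H⟩ := exists_UP_id (F := F) hr h2 hrp
  rw [← hi] at H
  have o := hr.odd_of_ne_two h2
  have := hf.finrank_perp U
  rw [odd_allS hf (by omega) o (Fx.neg _)]
  refine UP.nd_fin (P := FP.orth F) H hc hf hr hrp u1 (rz_even hr h2 hrp H hi hc hf ⟨d, by omega⟩) (rz_even hr h2 hrp H hi hc u1 ⟨k, by omega⟩)
    (rz_even hr h2 hrp H hi hc (hf.res_perp u1) ⟨d - k, by omega⟩) (fun x y a => (orth_isConj hf a (natCast_ne hr hrp) o).mpr) hΩ hrΩ (m := m) (by omega) hn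
    (by omega) (by omega) fun M0 M1 M2 a0 a1 a2 => ?_
  have := hr.two_le
  have := div_sub (H.cpos hc) (show m ≤ 2 * d by omega)
  simp only [El.IsM, hp, u3, u4, h2, hrp, show 2 < r by omega, false_or, true_and, ← Nat.not_even_iff_odd, true_iff, false_iff, false_and, ne_eq,
    not_false_eq_true] at *
  split_ifs at hc with h <;> subst hc <;> simp only [h, not_true, not_false_eq_true, false_and, false_or, or_false, true_and, Nat.even_iff,
    forall_true_left, false_imp_iff, or_true, and_false] at * <;> omega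

end Cfsg.Agent.S5990
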