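import Cfsg.Statements.S5991
import Cfsg.Agent.H5.El15

set_option autoImplicit false
open scoped MatrixGroups
open Cfsg

namespace Cfsg.Agent.S5991

open CfsgH5 CfsgH5.El CfsgH5.Gl CfsgH5.Gc CfsgH5.CForm CfsgH5.In Polynomial Module

theorem delta {F V : Type*} [Field F] [Fintype F] [AddCommGroup V] [Module F V] [FiniteDimensional F V] {f : CForm (FP.orth F) V} {p : ℕ} [Fact p.Prime]
    [CharP F p] (hp : p ≠ 2) (hf : f.Nondeg) {d a : ℕ} (hd : finrank F V = 4 * d + 4) {U : Submodule F V} (hU : (f.res U).Nondeg) (ha : finrank F U = 4 * a + 1) :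
    ¬ AllO f.Isom p fun x => ∃ g ∈ f.Isom, ∀ v ∈ U.map g.toLinearMap, x v ∈ U.map g.toLinearMap := fun h => by
  have h2 : (2 : F) ≠ 0 := natCast_ne (F := F) Nat.prime_two hp.symm
  have := (Fact.out : p.Prime).two_le
  have pos : ∀ {a b c e : ℕ}, e ∈ m3 a b c → 0 < e := fun m => (m3_mem m).1
  obtain ⟨K, k1, k2⟩ := (TS_odd hU (m := 2 * a) (by omega) _).mpr le_rfl
  obtain ⟨u, u1, u2⟩ := exists_nonsing hU (K := K) (by omega)
  obtain ⟨ν, hν⟩ := FiniteField.exists_nonsquare (ringChar_ne_two h2)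
  obtain ⟨v, hv⟩ := orth_universal hf (by omega) (mul_ne_zero (show ν ≠ 0 by rintro rfl; simp at hν) u2)
  have v1 : f.Q v ≠ 0 := hv ▸ mul_ne_zero (by rintro rfl; simp at hν) u2
  have n := nd_span (B_self_ne h2 v1)
  have d1 := finrank_span_singleton (K := F) (show v ≠ 0 from fun e => v1 (by simp [e]))
  have d2 := hf.finrank_perp (F ∙ v)
  obtain ⟨z, z1, z2⟩ := m3_ru n h2 (a := 1) (b := 0) (c := 0) rfl (by omega) (Or.inl one_pos)
  obtain ⟨y, y1, y2⟩ := m3_ru (hf.res_perp n) h2 (a := 0) (b := 2 * d) (c := 1) (by omega) (by omega) (Or.inl one_pos)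
  have hc := nd_compl hf n
  have x1 := (sumHom_mem_Isom hc (p := (z, y))).mpr ⟨z1, y1⟩
  have x2 := HT_sum hc z2 y2 (pp_unip fun _ => pos) (pp_unip fun _ => pos)
  rw [← Multiset.map_add, show m3 1 0 0 + m3 0 (2 * d) 1 = m3 1 (2 * d) 1 by simp [m3, add_assoc]] at x2
  have fx : ∀ w, sumHom hc (z, y) w = w → ∃ c : F, f.Q w = c * c * f.Q v := fun w hw => by
    obtain ⟨s, t, rfl, uq⟩ := Submodule.existsUnique_add_of_isCompl hc w
    obtain ⟨c, hs⟩ := Submodule.mem_span_singleton.mp s.2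
    have e : NN y t = 0 := sub_eq_zero.mpr (uq _ _ ((sumHom_apply hc (z, y) s t).symm.trans hw)).2
    have a1 := Un.finrank_comap_inf (NN y) (LinearMap.ker (NN y))
    have a2 : finrank F (LinearMap.ker (NN y)) = 2 * d + 1 := by rw [← pow_one (NN y), ut_ker (fun _ => pos) y2 1, m3_min]; simp
    have a3 : finrank F (LinearMap.ker (NN y ^ 2)) = 4 * d + 2 := by rw [ut_ker (fun _ => pos) y2 2, m3_min]; simp; omega
    rw [← LinearMap.ker_comp, ← End.mul_eq_comp, ← sq, a3] at a1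
    have := (Submodule.eq_of_le_of_finrank_eq (inf_le_left (a := LinearMap.ker (NN y)) (b := LinearMap.range (NN y))) (by omega)).ge e
    have q : f.Q t = 0 := (mul_eq_zero.mp ((orth_B_self f _).symm.trans ((perp_W (hf.res_perp n) y1).ge e _ this.2))).resolve_left h2
    exact ⟨c, by rw [f.Q_add, q, f.mem_perp'.mp t.2 _ s.2, ← hs, f.Q_smul]; simp⟩
  generalize sumHom hc (z, y) = x at *
  obtain ⟨g, g1, g2⟩ := all_unip h x1 (fun e m => by have := m3_mem m; omega) (m3_ne (by omega)) x2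
  have nW := nd_map hU g1
  obtain ⟨μ, μ', e, c1, -⟩ := unip_nd hf x1 (fun _ => pos) x2 nW g2
  obtain ⟨a1, b1, c1', a2, b2, c2', e1, e2, e3, rfl, rfl⟩ := m3_sub e
  have b0 : b1 % 2 = 0 := by simpa [m3_count, Nat.even_iff] using ev_of nW h2 (rs_mem x1 g2) (fun _ => pos) c1 2 even_two
  have dW := ut_dim (fun _ => pos) c1
  rw [m3_sum, g.finrank_map_eq] at dW
  obtain rfl : c1' = 0 := by rcases (by omega : a1 = 0 ∨ a1 = 1) with rfl | rfl <;> omega
  obtain ⟨t1, t2⟩ := sq_TS nW h2 (rs_mem x1 g2) c1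
  have i := isIso_res_map g1 (rfl : U.map g.toLinearMap = _)
  obtain ⟨k, k3, k4⟩ := TS.exists_map_eq nW (W := K.map (g.ofSubmodules U _ rfl).toLinearMap) (TS_orth.mpr (by
    rintro _ ⟨w, hw, rfl⟩; exact (i.2 w).trans (k1.1 w hw))) t1 (by rw [LinearEquiv.finrank_map_eq]; omega)
  have : k (g.ofSubmodules U _ rfl u) ∈ LinearMap.ker (NN (rs x g2)) := by
    rw [← perp_W nW (rs_mem x1 g2), ← k4]
    rintro _ ⟨_, ⟨w, hw, rfl⟩, rfl⟩
    exact (k3.1 _ _).trans ((i.1 _ _).trans (u1 w hw))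
  obtain ⟨c, hc⟩ := fx _ (congrArg Subtype.val (sub_eq_zero.mp this))
  have e : c * c * ν = 1 := mul_right_cancel₀ u2 (by rw [mul_assoc _ ν, ← hv, ← hc, one_mul]; exact (k3.2 _).trans (i.2 u))
  exact hν ⟨c * ν, by linear_combination -ν * e⟩

/-- Elements of prime order of PΩ⁻_n(q), q odd, with no fixed nondegenerate `m`-space of odd dimension. Here `T = PΩ⁻_n(F)`, `n = 2d ≥ 8`, realised through `Ω⁻_n(q)`, the commutator subgroup of the isometry group of `Q = Σ_{i<d−1} xᵢyᵢ + z₁² + a z₁z₂ + b z₂²` with `z₁² + a z₁z₂ + b z₂²` anisotropic, over the field `F` with `q` elements; an element of `T` of prime order `r` is an element `x` of `Ω⁻_n(q)` with `x^r` scalar and `x` not scalar; `q` and `m` are odd, `1 ≤ m < n/2`. The nondegenerate `m`-spaces fall into two isometry classes, each an orbit of `T`, with equivalent actions; fix one such space `W₀` and let Ω be the set of nondegenerate `m`-spaces isometric to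 `W₀`. Let `r` be a prime dividing the size of Ω; for `r ≠ p` let `i` be the multiplicative order of `q` modulo `r`, `c = i` for `i` even and `c = 2i` for `i` odd, and write `k = n mod c`, `ℓ = m mod i`, `ℓ' = m mod c`, `n' = ⌊n/i⌋`, `m' = ⌊m/i⌋`, `t = (r−1)/i`. Then every element of `T` of order `r` fixes a member of Ω if and only if one of: (i) `r = 2` and (`n ≡ 0 (mod 4)` or `q ≢ 7 (mod 8)`); (ii) `r ≠ p` odd, `i` odd, and `k = 0` or (`c ≤ m` and `k > ℓ' > 0`); (iii) `r ≠ p` odd, `i` even, and either `k = 0` and `n/i` even, or `k > 0`, `i ≤ m` and `k > ℓ' > 0`. (For `r = p` there is always an element of order `p` fixing no member of Ω.) -/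
theorem result {F : Type*} [Field F] [Fintype F] {p : ℕ} [Fact p.Prime] [CharP F p] {q : ℕ} (hq : Fintype.card F = q)
    (hodd : Odd q) (d m : ℕ) (hd : 4 ≤ d) (hm : Odd m) (hmd : m < d) (a b : F) (hab : ∀ x y : F, x ^ 2 + a * x * y + b * y ^ 2 = 0 → x = 0 ∧ y = 0)
    (W₀ : Submodule F ((Fin (d - 1) ⊕ Fin (d - 1)) ⊕ Fin 2 → F)) (hW₀ : Module.finrank F ↥W₀ = m ∧ Cfsg.Geo.IsNondegenerateOn (QuadraticMap.polar (Cfsg.quadFormMinus (d - 1) F a b)) W₀)
    (r : ℕ) [Fact r.Prime]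
    (hrΩ : r ∣ Nat.card {W : Submodule F ((Fin (d - 1) ⊕ Fin (d - 1)) ⊕ Fin 2 → F) // Module.finrank F ↥W = m ∧ Cfsg.Geo.IsNondegenerateOn (QuadraticMap.polar (Cfsg.quadFormMinus (d - 1) F a b)) W ∧ Cfsg.Geo.AreIsometricFor (Cfsg.quadFormMinus (d - 1) F a b) W W₀})
    (i c : ℕ) (hi : i = orderOf (q : ZMod r)) (hc : c = if Even i then i else 2 * i) :
    (∀ x : GL ((Fin (d - 1) ⊕ Fin (d - 1)) ⊕ Fin 2) F, x ∈ Cfsg.Geo.omegaGL (Cfsg.quadFormMinus (d - 1) F a b) →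
      (∃ z : F, ((x ^ r : GL ((Fin (d - 1) ⊕ Fin (d - 1)) ⊕ Fin 2) F) : Matrix ((Fin (d - 1) ⊕ Fin (d - 1)) ⊕ Fin 2) ((Fin (d - 1) ⊕ Fin (d - 1)) ⊕ Fin 2) F) = z • (1 : Matrix ((Fin (d - 1) ⊕ Fin (d - 1)) ⊕ Fin 2) ((Fin (d - 1) ⊕ Fin (d - 1)) ⊕ Fin 2) F)) →
      (∀ z : F, (x : Matrix ((Fin (d - 1) ⊕ Fin (d - 1)) ⊕ Fin 2) ((Fin (d - 1) ⊕ Fin (d - 1)) ⊕ Fin 2) F) ≠ z • (1 : Matrix ((Fin (d - 1) ⊕ Fin (d - 1)) ⊕ Fin 2) ((Fin (d - 1) ⊕ Fin (d - 1)) ⊕ Fin 2) F)) →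
      ∃ W : Submodule F ((Fin (d - 1) ⊕ Fin (d - 1)) ⊕ Fin 2 → F), (Module.finrank F ↥W = m ∧ Cfsg.Geo.IsNondegenerateOn (QuadraticMap.polar (Cfsg.quadFormMinus (d - 1) F a b)) W ∧ Cfsg.Geo.AreIsometricFor (Cfsg.quadFormMinus (d - 1) F a b) W W₀) ∧ W.map (Matrix.toLin' (x : Matrix ((Fin (d - 1) ⊕ Fin (d - 1)) ⊕ Fin 2) ((Fin (d - 1) ⊕ Fin (d - 1)) ⊕ Fin 2) F)) ≤ W) ↔
    ((r = 2 ∧ (Even d ∨ q % 8 ≠ 7)) ∨
     (r ≠ p ∧ 2 < r ∧ Odd i ∧ ((2 * d) % c = 0 ∨ (c ≤ m ∧ 0 < m % c ∧ m % c < (2 * d) % c))) ∨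
     (r ≠ p ∧ 2 < r ∧ Even i ∧ (((2 * d) % c = 0 ∧ Even ((2 * d) / i)) ∨ (0 < (2 * d) % c ∧ i ≤ m ∧ 0 < m % c ∧ m % c < (2 * d) % c)))) := by
  subst hq
  have hr : r.Prime := Fact.out
  have hp2 := p_ne_two (p := p) hodd
  have t := natCast_ne (F := F) Nat.prime_two hp2.symm
  have hf := minusQ_nondeg (d - 1) hab
  have hp := minusQ_not_isPlus (d - 1) hab
  have hn : finrank F ((Fin (d - 1) ⊕ Fin (d - 1)) ⊕ Fin 2 → F) = 2 * d := by simp; omega
  have u1 := (on_iff (ofQuad (minusQ (d - 1) a b))).mp hW₀.2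
  have u2 := hW₀.1
  have hΩ := orb_of hf (U := W₀) (Ω := fun W => finrank F W = m ∧ Geo.IsNondegenerateOn (QuadraticMap.polar (quadFormMinus (d - 1) F a b)) W ∧
    Geo.AreIsometricFor (quadFormMinus (d - 1) F a b) W W₀) (fun W ⟨_, _, e, h⟩ => ⟨e.symm, IsIso.symm ⟨fun u v => by
      rw [orth_B, orth_B, ← map_add]; exact congrArg₂ _ (congrArg₂ _ (h _) (h _)) (h _), h⟩⟩)
    fun W e h => ⟨e.finrank_eq.symm.trans u2, (on_iff (ofQuad (minusQ (d - 1) a b))).mpr (h.nondeg u1), e.symm, h.symm.2⟩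
  refine Iff.trans (b := AllS (ofQuad (minusQ (d - 1) a b)).E r (Fx _))
    (by rw [← all_iff (Mx.mem_omegaGL hf (by simp; omega))]; simp only [Fx_iff]; rfl) ?_
  have m1 := Nat.odd_iff.mp hm
  have := hf.finrank_perp W₀
  by_cases h2 : r = 2
  · subst h2
    have o' := Nat.odd_iff.mp hodd
    rw [or_iff_left (by omega), and_iff_right rfl, nd_two hf t hn (by omega) u1 (by omega) hΩ, show (∃ j, finrank F W₀ = 2 * j ∧
      NT ((ofQuad (minusQ (d - 1) a b)).res W₀) j) ↔ False from iff_false_intro fun ⟨j, a, _⟩ => by omega]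
    simp only [NT, hp, false_iff, pow4 hodd, Nat.even_iff, Nat.odd_iff, imp_false]
    omega
  have o := hr.odd_of_ne_two h2
  rw [odd_allS hf (by omega) o (Fx.neg _)]
  by_cases hrp : r = p
  · subst hrp
    refine iff_of_false (fun h => ?_) (by simp [h2])
    have key := unip3 h2 hf (fun W h => (on_iff (ofQuad (minusQ (d - 1) a b))).mp h.2.1) h
    by_cases c : d % 2 = 1 <;> by_cases c' : m % 4 = 1
    · obtain ⟨W, w, a1, b1, c1, a2, b2, c2, e1, e2, e3, e4, e5, -⟩ := key 0 (d - 3) 2 (by omega) (by omega) (by omega) (Or.inl two_pos)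
      replace e5 := e5.trans w.1
      rcases (by omega : c1 = 0 ∨ c1 = 1 ∨ c1 = 2) with rfl | rfl | rfl <;> omega
    · obtain ⟨W, w, a1, b1, c1, a2, b2, c2, e1, e2, e3, e4, e5, -⟩ := key 2 (d - 1) 0 (by omega) (by omega) (by omega) (Or.inl two_pos)
      replace e5 := e5.trans w.1
      rcases (by omega : a1 = 0 ∨ a1 = 1 ∨ a1 = 2) with rfl | rfl | rfl <;> omega
    · exact delta h2 hf (d := d / 2 - 1) (a := m / 4) (by omega) u1 (by omega) fun g a b c => (Fx_orb hΩ).mp (h g a b c)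
    · refine delta h2 hf (d := d / 2 - 1) (a := (2 * d - m) / 4) (by omega) (hf.res_perp u1) (by omega) fun g a b c => ?_
      obtain ⟨y, y1, y2⟩ := (Fx_orb hΩ).mp (h g a b c)
      exact ⟨y, y1, map_perp y1 W₀ ▸ inv_perp a y2⟩
  obtain ⟨T, H⟩ := exists_UP_id (F := F) hr h2 hrp
  rw [← hi] at H
  refine UP.nd_fin (P := FP.orth F) H hc hf hr hrp u1 (rz_even hr h2 hrp H hi hc hf ⟨d, by omega⟩) (rz_odd hr h2 hrp H u1 (u2 ▸ hm))
    (rz_odd hr h2 hrp H (hf.res_perp u1) (Nat.odd_iff.mpr (by omega))) (fun x y a => (orth_isConj hf a (natCast_ne hr hrp) o).mpr) hΩ hrΩ u2 hn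
    (by omega) (by omega) fun M0 M1 M2 a0 a1 a2 => ?_
  have := hr.two_le
  have := div_sub (H.cpos hc) (show m ≤ 2 * d by omega)
  have := c_even hc m
  have := c_even hc (2 * d)
  simp only [El.IsM, hp, h2, hrp, show 2 < r by omega, false_or, true_and, ← Nat.not_even_iff_odd, false_iff, false_and, ne_eq,
    not_false_eq_true] at *
  split_ifs at hc with h <;> subst hc <;> simp only [h, not_true, not_false_eq_true, false_and, false_or, or_false, true_and, Nat.even_iff,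
    forall_true_left, false_imp_iff, or_true, and_false] at * <;> omega

end Cfsg.Agent.S5991
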