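import Cfsg.Statements.S5993
import Cfsg.Agent.H5.El15

set_option autoImplicit false
open scoped MatrixGroups
open Cfsg

namespace Cfsg.Agent.S5993

open CfsgH5 CfsgH5.El CfsgH5.Gl CfsgH5.Gc CfsgH5.CForm Polynomial Module

/-- Elements of prime order of Ω_n(q), nq odd, with no fixed elliptic `m`-space. Here `T = Ω_n(F)`, `n = 2d+1 ≥ 7`, `q` odd, realised as the commutator subgroup of the isometry group of `Q = x₀² + Σ xᵢyᵢ` over the field `F` with `q` elements (trivial centre, so its elements of prime order `r` are used directly); a nondegenerate `m`-space (even `m`) is a subspace on which the polar form of `Q` is nondegenerate; it is hyperbolic if it contains an `m/2`-dimensional subspace on which `Q` vanishes, elliptic otherwise. Let `m` be even with `2 ≤ m ≤ n − 1` (no restriction `m < n/2`) and let `r` be a prime dividing the number of elliptic `m`-spaces; for `r ≠ p` let `i` be the multiplicative order of `q` modulo `r`, `c = i` for `i` even and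 `c = 2i` for `i` odd, and write `k = n mod c`, `ℓ' = m mod c`. Then every element of `T` of order `r` fixes some elliptic `m`-space if and only if `r = 2`, or `r ≠ p` is odd and one of: (i) `i` odd, `c ≤ m` and `k > ℓ' > 0`; (ii) `i` even, `i ≤ m`, `k > ℓ'`, and `m/i` odd whenever `ℓ' = 0`. (For `r = p` there is always an element of order `p` fixing no elliptic `m`-space.) -/
theorem result {F : Type*} [Field F] [Fintype F] {p : ℕ} [Fact p.Prime] [CharP F p] {q : ℕ} (hq : Fintype.card F = q) (hqodd : Odd q)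
    (d m : ℕ) (hd : 3 ≤ d) (hm : 2 ≤ m) (hme : Even m) (hmn : m ≤ 2 * d)
    (r : ℕ) [Fact r.Prime]
    (hrΩ : r ∣ Nat.card {W : Submodule F (Unit ⊕ (Fin d ⊕ Fin d) → F) // Module.finrank F ↥W = m ∧ Cfsg.Geo.IsNondegenerateOn (QuadraticMap.polar (Cfsg.quadFormOdd d F)) W ∧ ¬ Cfsg.Geo.IsPlusTypeOn (Cfsg.quadFormOdd d F) W})
    (i c : ℕ) (hi : i = orderOf (q : ZMod r)) (hc : c = if Even i then i else 2 * i) :
    (∀ x : GL (Unit ⊕ (Fin d ⊕ Fin d)) F, x ∈ Cfsg.Geo.omegaGL (Cfsg.quadFormOdd d F) → orderOf x = r →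
      ∃ W : Submodule F (Unit ⊕ (Fin d ⊕ Fin d) → F), (Module.finrank F ↥W = m ∧ Cfsg.Geo.IsNondegenerateOn (QuadraticMap.polar (Cfsg.quadFormOdd d F)) W ∧ ¬ Cfsg.Geo.IsPlusTypeOn (Cfsg.quadFormOdd d F) W) ∧ W.map (Matrix.toLin' (x : Matrix (Unit ⊕ (Fin d ⊕ Fin d)) (Unit ⊕ (Fin d ⊕ Fin d)) F)) ≤ W) ↔
    (r = 2 ∨
     (r ≠ p ∧ 2 < r ∧ Odd i ∧ c ≤ m ∧ 0 < m % c ∧ m % c < (2 * d + 1) % c) ∨
     (r ≠ p ∧ 2 < r ∧ Even i ∧ i ≤ m ∧ m % c < (2 * d + 1) % c ∧ (0 < m % c ∨ Odd (m / i)))) := by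
  subst hq
  have hr : r.Prime := Fact.out
  have hp2 := p_ne_two (p := p) hqodd
  have hf := oddQ_nondeg (natCast_ne (F := F) Nat.prime_two hp2.symm) d
  have hn : finrank F (Unit ⊕ (Fin d ⊕ Fin d) → F) = 2 * d + 1 := by simp; omega
  have e : ∀ W : Submodule F _, (finrank F W = m ∧ Geo.IsNondegenerateOn (QuadraticMap.polar (quadFormOdd d F)) W ∧
      ¬ Geo.IsPlusTypeOn (quadFormOdd d F) W) ↔
      (finrank F W = m ∧ ((ofQuad (oddQ F d)).res W).Nondeg ∧ (((ofQuad (oddQ F d)).res W).IsPlus ↔ False)) := fun W => by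
    rw [← on_iff, Mx.isPlus_res_iff, iff_false]; rfl
  simp only [e] at hrΩ ⊢
  obtain ⟨k, hk⟩ := id hme
  obtain ⟨U, u1, u2, u3⟩ := ex_type hf (k := k) (by omega) (by omega) False
  have hΩ := orb_even hf u1 (by omega) hme u3
  refine Iff.trans (b := AllO (ofQuad (oddQ F d)).E r (Fx _)) (by rw [← ord_iff (Mx.mem_omegaGL hf (by simp; omega))]; simp only [Fx_iff]; rfl) ?_
  by_cases h2 : r = 2
  · subst h2
    exact iff_of_true (nd_two_odd hf (by omega) ⟨d, hn⟩ u1 (by omega) hΩ) (Or.inl rfl)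
  have o := hr.odd_of_ne_two h2
  rw [odd_all hf (by omega) o]
  by_cases hrp : r = p
  · subst hrp
    refine iff_of_false (fun h => ?_) (by simp [h2])
    obtain ⟨W, w, a1, b1, c1, a2, b2, c2, e1, e2, e3, e4, e5, e6, -⟩ := unip3 hp2 hf (fun W h => h.2.1) h (1 - d % 2) (d - d % 2) (d % 2) (by omega)
      (by omega) (by omega) (Or.inl (by omega))
    replace e5 := e5.trans w.1
    have := mt (fun k => w.2.2.mp (e6 k)) id
    rcases (by omega : a1 = 0 ∨ a1 = 1) with rfl | rfl <;> rcases (by omega : c1 = 0 ∨ c1 = 1) with rfl | rfl <;> omega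
  obtain ⟨T, H⟩ := exists_UP_id (F := F) hr h2 hrp
  rw [← hi] at H
  have := hf.finrank_perp U
  refine UP.nd_fin (P := FP.orth F) H hc hf hr hrp u1 (rz_odd hr h2 hrp H hf ⟨d, hn⟩) (rz_even hr h2 hrp H hi hc u1 ⟨k, by omega⟩)
    (rz_odd hr h2 hrp H (hf.res_perp u1) ⟨d - k, by omega⟩) (fun x y a => (orth_isConj hf a (natCast_ne hr hrp) o).mpr) hΩ hrΩ (m := m) (by omega) hn
    (by omega) (by omega) fun M0 M1 M2 a0 a1 a2 => ?_
  have := hr.two_le
  have := div_sub (H.cpos hc) (show m ≤ 2 * d + 1 by omega)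
  have := c_even hc m
  have := c_even hc (2 * d + 1)
  simp only [El.IsM, u3, h2, hrp, show 2 < r by omega, false_or, true_and, ← Nat.not_even_iff_odd, false_iff, ne_eq, not_false_eq_true] at *
  split_ifs at hc with h <;> subst hc <;> simp only [h, not_true, not_false_eq_true, false_and, false_or, or_false, true_and, Nat.even_iff,
    forall_true_left, false_imp_iff, or_true, and_false] at * <;> omega

end Cfsg.Agent.S5993
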