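import Cfsg.Statements.S5994
import Cfsg.Agent.H5.El15

set_option autoImplicit false
open scoped MatrixGroups
open Cfsg

namespace Cfsg.Agent.S5994

open CfsgH5 CfsgH5.El CfsgH5.Gl CfsgH5.Gc CfsgH5.CForm Polynomial Module

/-- A necessary condition for every element of order p of PΩ⁻_n(q), q odd, to fix an elliptic `m`-space. Here `T = PΩ⁻_n(F)`, `n = 2d ≥ 8`, realised through `Ω⁻_n(q)`, the commutator subgroup of the isometry group of `Q = Σ_{i<d−1} xᵢyᵢ + z₁² + a z₁z₂ + b z₂²` with `z₁² + a z₁z₂ + b z₂²` anisotropic, over the field `F` with `q` elements; an element of `T` of prime order `r` is an element `x` of `Ω⁻_n(q)` with `x^r` scalar and `x` not scalar; `q` is odd; a nondegenerate `m`-space (even `m`) is a subspace on which the polar form of `Q` is nondegenerate; it is hyperbolic if it contains an `m/2`-dimensional subspace on which `Q` vanishes, elliptic otherwise. Let `m` be even with `2 ≤ m ≤ n − 2`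 and suppose `p` divides the number of elliptic `m`-spaces. If every element of `T` of order `p` fixes some elliptic `m`-space, then `n ≡ m (mod 4)` and every partition of `n` into parts of size at most `p` in which every even part has even multiplicity contains (as a sub-multiset) a partition of `m` in which every even part has even multiplicity. -/
theorem result {F : Type*} [Field F] [Fintype F] {p : ℕ} [Fact p.Prime] [CharP F p] {q : ℕ} (hq : Fintype.card F = q) (hqodd : Odd q)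
    (d m : ℕ) (hd : 4 ≤ d) (hm : 2 ≤ m) (hme : Even m) (hmn : m + 2 ≤ 2 * d) (a b : F) (hab : ∀ x y : F, x ^ 2 + a * x * y + b * y ^ 2 = 0 → x = 0 ∧ y = 0)
    (hpΩ : p ∣ Nat.card {W : Submodule F ((Fin (d - 1) ⊕ Fin (d - 1)) ⊕ Fin 2 → F) // Module.finrank F ↥W = m ∧ Cfsg.Geo.IsNondegenerateOn (QuadraticMap.polar (Cfsg.quadFormMinus (d - 1) F a b)) W ∧ ¬ Cfsg.Geo.IsPlusTypeOn (Cfsg.quadFormMinus (d - 1) F a b) W}) :
    (∀ x : GL ((Fin (d - 1) ⊕ Fin (d - 1)) ⊕ Fin 2) F, x ∈ Cfsg.Geo.omegaGL (Cfsg.quadFormMinus (d - 1) F a b) →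
      (∃ z : F, ((x ^ p : GL ((Fin (d - 1) ⊕ Fin (d - 1)) ⊕ Fin 2) F) : Matrix ((Fin (d - 1) ⊕ Fin (d - 1)) ⊕ Fin 2) ((Fin (d - 1) ⊕ Fin (d - 1)) ⊕ Fin 2) F) = z • (1 : Matrix ((Fin (d - 1) ⊕ Fin (d - 1)) ⊕ Fin 2) ((Fin (d - 1) ⊕ Fin (d - 1)) ⊕ Fin 2) F)) →
      (∀ z : F, (x : Matrix ((Fin (d - 1) ⊕ Fin (d - 1)) ⊕ Fin 2) ((Fin (d - 1) ⊕ Fin (d - 1)) ⊕ Fin 2) F) ≠ z • (1 : Matrix ((Fin (d - 1) ⊕ Fin (d - 1)) ⊕ Fin 2) ((Fin (d - 1) ⊕ Fin (d - 1)) ⊕ Fin 2) F)) →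
      ∃ W : Submodule F ((Fin (d - 1) ⊕ Fin (d - 1)) ⊕ Fin 2 → F), (Module.finrank F ↥W = m ∧ Cfsg.Geo.IsNondegenerateOn (QuadraticMap.polar (Cfsg.quadFormMinus (d - 1) F a b)) W ∧ ¬ Cfsg.Geo.IsPlusTypeOn (Cfsg.quadFormMinus (d - 1) F a b) W) ∧ W.map (Matrix.toLin' (x : Matrix ((Fin (d - 1) ⊕ Fin (d - 1)) ⊕ Fin 2) ((Fin (d - 1) ⊕ Fin (d - 1)) ⊕ Fin 2) F)) ≤ W) →
    ((2 * d) % 4 = m % 4 ∧ (∀ μ : Multiset ℕ, (∀ e ∈ μ, 0 < e ∧ e ≤ p) → (∀ e : ℕ, Even e → Even (μ.count e)) → μ.sum = 2 * d →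
        ∃ ν : Multiset ℕ, ν ≤ μ ∧ ν.sum = m ∧ ∀ e : ℕ, Even e → Even (ν.count e))) := by
  subst hq
  have hp := p_ne_two (p := p) hqodd
  have hf := minusQ_nondeg (d - 1) hab
  have hn : finrank F ((Fin (d - 1) ⊕ Fin (d - 1)) ⊕ Fin 2 → F) = 2 * d := by simp; omega
  have po := (Fact.out : p.Prime).odd_of_ne_two hp
  intro h
  simp only [Fx_iff] at h
  rw [← minusQ_coe, all_iff (Mx.mem_omegaGL hf (by simp; omega)), odd_allS hf (by omega) po (Fx.neg _)] at h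
  rw [Nat.even_iff] at hme
  have part := unip_part hp hf (fun W h => ⟨h.1, (on_iff (ofQuad (minusQ (d - 1) a b))).mp h.2.1⟩) (by omega) h
  refine ⟨?_, fun μ h0 h1 h2 => ?_⟩
  · obtain ⟨W, w, a1, b1, c1, a2, b2, c2, e1, e2, e3, e4, e5, e6, -⟩ := unip3 hp hf (fun W h => (on_iff (ofQuad (minusQ (d - 1) a b))).mp h.2.1) h (1 + d % 2) (d - 2 + d % 2) (1 - d % 2)
      (by omega) (by omega) (by omega) (Or.inl (by omega))
    replace e5 := e5.trans w.1
    have := mt (fun k => Mx.isPlus_res_iff.mp (e6 k)) w.2.2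
    rcases (by omega : a1 = 0 ∨ a1 = 1 ∨ a1 = 2) with rfl | rfl | rfl <;> rcases (by omega : c1 = 0 ∨ c1 = 1) with rfl | rfl <;> omega
  by_cases k : ∃ e ∈ μ, Odd e
  · exact part μ h0 h1 (h2.trans hn.symm) (Or.inl k)
  obtain ⟨e, he⟩ := Multiset.exists_mem_of_ne_zero (show μ ≠ 0 by rintro rfl; simp at h2; omega)
  have ev : ∀ a ∈ μ, a % 2 = 0 := fun a ha => Nat.even_iff.mp (Nat.not_odd_iff_even.mp fun o => k ⟨a, ha, o⟩)
  have e0 := ev e he
  have e1 := h0 e he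
  obtain ⟨t, rfl⟩ := Multiset.le_iff_exists_add.mp (Multiset.le_count_iff_replicate_le.mp
    (Nat.le_of_dvd (Multiset.count_pos.mpr he) (h1 e (Nat.even_iff.mpr e0)).two_dvd))
  rw [Nat.odd_iff] at po
  have c2 : ∀ j, Even (Multiset.count j (Multiset.replicate 2 e)) := fun j => by rw [Multiset.count_replicate]; split_ifs <;> simp
  have n1 : ∀ j, Even j → j ≠ e + 1 ∧ j ≠ e - 1 := fun j hj => by rw [Nat.even_iff] at hj; omega
  obtain ⟨ν, a1, a2, a3⟩ := part ((e + 1) ::ₘ (e - 1) ::ₘ t) (fun x hx => by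
    simp only [Multiset.mem_cons] at hx
    rcases hx with rfl | rfl | hx
    exacts [by omega, by omega, h0 x (by simp [hx])]) (fun j hj => by
      rw [Multiset.count_cons_of_ne (n1 j hj).1, Multiset.count_cons_of_ne (n1 j hj).2]
      exact (Nat.even_add.mp (Multiset.count_add j _ t ▸ h1 j hj)).mp (c2 j)) (by simp at h2 ⊢; omega)
    (Or.inl ⟨e + 1, by simp, Nat.odd_iff.mpr (by omega)⟩)
  have key : ∀ s ≤ t, s.sum % 2 = 0 := fun s hs => Nat.mod_eq_zero_of_dvd (Multiset.dvd_sum fun a ha =>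
    Nat.dvd_of_mod_eq_zero (ev a (by simp [Multiset.mem_of_le hs ha])))
  by_cases m1 : e + 1 ∈ ν <;> by_cases m2 : e - 1 ∈ ν
  · obtain ⟨s, rfl⟩ := Multiset.exists_cons_of_mem m1
    obtain ⟨s, rfl⟩ := Multiset.exists_cons_of_mem ((Multiset.mem_cons.mp m2).resolve_left (by omega))
    rw [Multiset.cons_le_cons_iff, Multiset.cons_le_cons_iff] at a1
    refine ⟨Multiset.replicate 2 e + s, add_le_add le_rfl a1, by simp at a2 ⊢; omega, fun j hj => ?_⟩
    have := a3 j hj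
    rw [Multiset.count_cons_of_ne (n1 j hj).1, Multiset.count_cons_of_ne (n1 j hj).2] at this
    exact Multiset.count_add j _ s ▸ (c2 j).add this
  · obtain ⟨s, rfl⟩ := Multiset.exists_cons_of_mem m1
    rw [Multiset.cons_le_cons_iff, Multiset.le_cons_of_notMem fun x => m2 (Multiset.mem_cons_of_mem x)] at a1
    have := key s a1
    simp at a2; omega
  · rw [Multiset.le_cons_of_notMem m1] at a1
    obtain ⟨s, rfl⟩ := Multiset.exists_cons_of_mem m2
    have := key s ((Multiset.cons_le_cons_iff _).mp a1)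
    simp at a2; omega
  · rw [Multiset.le_cons_of_notMem m1, Multiset.le_cons_of_notMem m2] at a1
    exact ⟨ν, a1.trans (Multiset.le_add_left _ _), a2, a3⟩

end Cfsg.Agent.S5994
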