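import Cfsg.Statements.S5995
import Cfsg.Agent.H5.El15

set_option autoImplicit false
open scoped MatrixGroups
open Cfsg

namespace Cfsg.Agent.S5995

open CfsgH5 CfsgH5.El CfsgH5.Gl CfsgH5.Gc CfsgH5.CForm Polynomial Module

/-- A necessary condition for every element of order p of Ω_n(q), nq odd, to fix a hyperbolic `m`-space. Here `T = Ω_n(F)`, `n = 2d+1 ≥ 7`, `q` odd, realised as the commutator subgroup of the isometry group of `Q = x₀² + Σ xᵢyᵢ` over the field `F` with `q` elements (trivial centre, so its elements of prime order `r` are used directly); a nondegenerate `m`-space (even `m`) is a subspace on which the polar form of `Q` is nondegenerate; it is hyperbolic if it contains an `m/2`-dimensional subspace on which `Q` vanishes, elliptic otherwise. Let `m` be even with `2 ≤ m ≤ n − 1` and suppose `p` divides the number of hyperbolic `m`-spaces. If every element of `T` of order `p` fixes some hyperbolic `m`-space, then `m ≡ 0 (mod 4)` and every partition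 of `n` into parts of size at most `p` in which every even part has even multiplicity contains (as a sub-multiset) a partition of `m` in which every even part has even multiplicity. -/
theorem result {F : Type*} [Field F] [Fintype F] {p : ℕ} [Fact p.Prime] [CharP F p] {q : ℕ} (hq : Fintype.card F = q) (hqodd : Odd q)
    (d m : ℕ) (hd : 3 ≤ d) (hm : 2 ≤ m) (hme : Even m) (hmn : m ≤ 2 * d)
    (hpΩ : p ∣ Nat.card {W : Submodule F (Unit ⊕ (Fin d ⊕ Fin d) → F) // Module.finrank F ↥W = m ∧ Cfsg.Geo.IsNondegenerateOn (QuadraticMap.polar (Cfsg.quadFormOdd d F)) W ∧ Cfsg.Geo.IsPlusTypeOn (Cfsg.quadFormOdd d F) W}) :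
    (∀ x : GL (Unit ⊕ (Fin d ⊕ Fin d)) F, x ∈ Cfsg.Geo.omegaGL (Cfsg.quadFormOdd d F) → orderOf x = p →
      ∃ W : Submodule F (Unit ⊕ (Fin d ⊕ Fin d) → F), (Module.finrank F ↥W = m ∧ Cfsg.Geo.IsNondegenerateOn (QuadraticMap.polar (Cfsg.quadFormOdd d F)) W ∧ Cfsg.Geo.IsPlusTypeOn (Cfsg.quadFormOdd d F) W) ∧ W.map (Matrix.toLin' (x : Matrix (Unit ⊕ (Fin d ⊕ Fin d)) (Unit ⊕ (Fin d ⊕ Fin d)) F)) ≤ W) →
    (m % 4 = 0 ∧ (∀ μ : Multiset ℕ, (∀ e ∈ μ, 0 < e ∧ e ≤ p) → (∀ e : ℕ, Even e → Even (μ.count e)) → μ.sum = 2 * d + 1 →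
        ∃ ν : Multiset ℕ, ν ≤ μ ∧ ν.sum = m ∧ ∀ e : ℕ, Even e → Even (ν.count e))) := by
  subst hq
  have hp := p_ne_two (p := p) hqodd
  have hf := oddQ_nondeg (natCast_ne (F := F) Nat.prime_two hp.symm) d
  have hn : finrank F (Unit ⊕ (Fin d ⊕ Fin d) → F) = 2 * d + 1 := by simp; omega
  intro h
  simp only [Fx_iff] at h
  rw [← oddQ_coe, ord_iff (Mx.mem_omegaGL hf (by simp; omega)), odd_all hf (by omega) ((Fact.out : p.Prime).odd_of_ne_two hp)] at h
  refine ⟨?_, fun μ h0 h1 h2 => unip_part hp hf (fun W h => ⟨h.1, (on_iff (ofQuad (oddQ F d))).mp h.2.1⟩) (by omega) h μ h0 h1 (h2.trans hn.symm) (Or.inl ?_)⟩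
  · rw [Nat.even_iff] at hme
    obtain ⟨W, w, a1, b1, c1, a2, b2, c2, e1, e2, e3, e4, e5, -⟩ := unip3 hp hf (fun W h => (on_iff (ofQuad (oddQ F d))).mp h.2.1) h (1 - d % 2) (d - d % 2) (d % 2) (by omega) (by omega)
      (by omega) (Or.inl (by omega))
    replace e5 := e5.trans w.1
    rcases (by omega : a1 = 0 ∨ a1 = 1) with rfl | rfl <;> rcases (by omega : c1 = 0 ∨ c1 = 1) with rfl | rfl <;> omega
  · by_contra k
    have : 2 ∣ μ.sum := Multiset.dvd_sum fun a ha => (Nat.not_odd_iff_even.mp fun o => k ⟨a, ha, o⟩).two_dvd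
    omega

end Cfsg.Agent.S5995
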