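import Mathlib
import Cfsg.Statements.S5997
import Cfsg.Agent.H8.P2a
import Cfsg.Agent.H8.AutQ8

set_option autoImplicit false
open scoped MatrixGroups
open Cfsg

namespace Cfsg.Agent.S5997

open CfsgH8 Matrix QuaternionGroup

/-- Elements of prime order of PSL_2(p) and the normalizer of a quaternion subgroup. Here `T = PSL_2(F)` for the field `F` with `p` elements, `p ≥ 5` prime; `R` is a subgroup of GL_2(F) isomorphic to the quaternion group of order 8 (an absolutely irreducible 2-group of symplectic type), and `H` is the subgroup of matrices of determinant 1 normalizing `R` — a subgroup of type 2^{1+2}.O₂⁻(2), isomorphic modulo scalars to A₄ or S₄ (maximality is not assumed). Ω is the set of cosets of `H` in `T`, so an element of `T` of prime order `r` (a matrix `x` of determinant 1 with `x^r` scalar, `x` not scalar) fixes a point of Ω exactly when some conjugate of `x` by a matrix of determinant 1 normalizes `R`. Let `r` be a prime dividing the index of `H`. Then every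 element of `T` of order `r` fixes a point of Ω if and only if `r = 2` or `r = 3`. -/
theorem result {F : Type*} [Field F] [Fintype F] {p : ℕ} [Fact p.Prime] [CharP F p] (hF : Fintype.card F = p) (hp : 5 ≤ p)
    (R : Subgroup (GL (Fin 2) F)) (hR : Nonempty (↥R ≃* QuaternionGroup 2))
    (r : ℕ) [Fact r.Prime]
    (hΩ : r ∣ (Cfsg.Geo.subgroupNormalizer R).relIndex (Cfsg.Geo.specialLinear (Fin 2) F)) :
    (∀ x ∈ Cfsg.Geo.specialLinear (Fin 2) F, (∃ z : F, ((x ^ r : GL (Fin 2) F) : Matrix (Fin 2) (Fin 2) F) = z • (1 : Matrix (Fin 2) (Fin 2) F)) →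
      (∀ z : F, (x : Matrix (Fin 2) (Fin 2) F) ≠ z • (1 : Matrix (Fin 2) (Fin 2) F)) →
      ∃ g ∈ Cfsg.Geo.specialLinear (Fin 2) F, g⁻¹ * x * g ∈ Cfsg.Geo.subgroupNormalizer R) ↔ (r = 2 ∨ r = 3) := by
  obtain ⟨e⟩ := hR
  let φ : Q8 →* GL (Fin 2) F := R.subtype.comp e.symm.toMonoidHom
  have ij : Function.Injective φ := R.subtype_injective.comp e.symm.injective
  have mem : ∀ u, φ u ∈ R := fun u => (e.symm u).2
  have nc : ∀ u v, u * v ≠ v * u → (φ u).1 * (φ v).1 ≠ (φ v).1 * (φ u).1 := fun u v h k =>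
    h (ij (by rw [map_mul, map_mul]; exact Units.ext k))
  have sc : ∀ y : GL (Fin 2) F, (∀ u, φ u * y = y * φ u) → IsSc y.1 := fun y h => by_contra fun t =>
    nc (a 1) (xa 0) (by decide) (comm_of_comm t (congrArg Units.val (h _)) (congrArg Units.val (h _)))
  have lift : ∀ x ∈ Geo.specialLinear (Fin 2) F, ∃ s : SpecialLinearGroup (Fin 2) F, SpecialLinearGroup.toGL s = x :=
    fun x hx => exists_toGL_eq (congrArg Units.val hx)
  have od : Fintype.card F % 2 = 1 := odd_of_char p (by omega)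
  have h2 := two_ne_zero_of_odd od
  have rp : r.Prime := Fact.out
  refine ⟨fun h => ?_, fun h x hx h1 h3 => ?_⟩
  · by_contra t
    obtain ⟨⟨x, hx⟩, o⟩ := exists_prime_orderOf_dvd_card' r (hΩ.trans (Subgroup.relIndex_dvd_card _ _))
    rw [Subgroup.orderOf_mk] at o
    have n : ¬ IsSc x.1 := fun s => by
      obtain ⟨y, rfl⟩ := lift x hx
      have : SpecialLinearGroup.toGL y ^ 2 = (1 : GL (Fin 2) F) := by
        rw [← map_pow]
        rcases isSc_SL2.1 s with rfl | rfl <;> simp
      exact t (.inl ((Nat.prime_dvd_prime_iff_eq rp Nat.prime_two).1 (o ▸ orderOf_dvd_of_pow_eq_one this)))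
    obtain ⟨g, -, hg⟩ := h x hx ⟨1, by rw [← o, pow_orderOf_eq_one, one_smul, Units.val_one]⟩
      fun z k => n (isSc_iff.2 ⟨z, k⟩)
    have c : IsConj x (g⁻¹ * x * g) := isConj_iff.2 ⟨g⁻¹, by rw [inv_inv]⟩
    refine n ((isSc_iff_of_isConj c).2 (sc _ fun u => ?_))
    obtain ⟨ψ⟩ := aut_q8
    have d := orderOf_dvd_natCard (R.normalizerMonoidHom ⟨_, hg⟩)
    rw [Nat.card_congr ((MulAut.congr e).trans ψ).toEquiv, card_S4] at d
    have d' := (orderOf_map_dvd R.normalizerMonoidHom ⟨_, hg⟩).trans (Subgroup.orderOf_mk _ _).dvd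
    rw [← orderOf_eq_of_isConj c, o] at d'
    rcases (Nat.dvd_prime rp).1 d' with k | k
    · have := congrArg Subtype.val (DFunLike.congr_fun (orderOf_eq_one_iff.1 k) ⟨_, mem u⟩)
      exact (mul_inv_eq_iff_eq_mul.1 this).symm
    · rw [k] at d
      have := Nat.le_of_dvd (by norm_num) d
      interval_cases r <;> first | omega | norm_num at rp
  have z : (φ (a 2)).1 = -1 := by
    obtain ⟨c, hc⟩ := isSc_iff.1 (sc (φ (a 2)) fun u => by
      rw [← map_mul, ← map_mul]; congr 1; revert u; decide)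
    have k : (φ (a 2)).1 * (φ (a 2)).1 = 1 := by
      rw [← Units.val_mul, ← map_mul, show (a 2 * a 2 : Q8) = 1 by decide, map_one, Units.val_one]
    have := congrFun (congrFun k 0) 0
    simp [hc] at this
    rcases mul_self_eq_one_iff.1 this with rfl | rfl
    · exact absurd (ij (Units.ext (by simpa using hc) : φ (a 2) = φ 1)) (by decide)
    · simp [hc]
  have k : ∀ u v, u * v ≠ v * u → u * u = a 2 → ∃ s : SpecialLinearGroup (Fin 2) F,
      SpecialLinearGroup.toGL s = φ u ∧ s.1.trace = 0 := fun u v n q => by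
    have ns : ¬ IsSc (φ u).1 := fun s => by
      obtain ⟨c, hc⟩ := isSc_iff.1 s
      exact nc u v n (by simp [hc])
    have q : (φ u).1 * (φ u).1 = -1 := by rw [← Units.val_mul, ← map_mul, q, z]
    have := lin_inj ns (x := -(φ u).1.det) (y := (φ u).1.trace) (x' := -1) (y' := 0) (by
      rw [zero_smul, add_zero, neg_smul, neg_smul, one_smul, ← q]
      ext i j
      fin_cases i <;> fin_cases j <;> simp [det_fin_two, trace_fin_two, mul_apply, Fin.sum_univ_two] <;> ring)
    obtain ⟨s, hs⟩ := exists_toGL_eq (neg_inj.1 this.1)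
    exact ⟨s, hs, by rw [← toGL_val, hs, this.2]⟩
  obtain ⟨i, hi, ti⟩ := k (a 1) (xa 0) (by decide) (by decide)
  obtain ⟨j, hj, tj⟩ := k (xa 0) (a 1) (by decide) (by decide)
  obtain ⟨l, hl, tl⟩ := k (a 1 * xa 0) (a 1) (by decide) (by decide)
  have Q : Q8P i j := ⟨ti, tj, by rw [← toGL_val, map_mul, hi, hj, ← map_mul, ← hl, toGL_val, tl]⟩
  obtain ⟨x, rfl⟩ := lift x hx
  have n : ¬ IsSc x.1 := fun s => (isSc_iff.1 s).elim h3
  have h1 : πS x ^ r = 1 := by rw [← map_pow, πS_eq_one, ← toGL_val, map_pow]; exact isSc_iff.2 h1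
  suffices ∃ s : SpecialLinearGroup (Fin 2) F, SpecialLinearGroup.toGL s ∈ Geo.subgroupNormalizer R ∧ Reg x.1 ∧
      x.1.trace ^ 2 = s.1.trace ^ 2 by
    obtain ⟨s, hs, rg, t⟩ := this
    obtain ⟨s, hs, t⟩ : ∃ s : SpecialLinearGroup (Fin 2) F, SpecialLinearGroup.toGL s ∈ Geo.subgroupNormalizer R ∧
        x.1.trace = s.1.trace := by
      rcases sq_eq_sq_iff_eq_or_eq_neg.1 t with t | t
      · exact ⟨s, hs, t⟩
      · refine ⟨-s, ?_, by rw [trace_neg_SL, t]⟩
        rw [← neg_one_mul, map_mul, show SpecialLinearGroup.toGL (-1) = φ (a 2) from Units.ext z.symm]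
        exact mul_mem (Subgroup.le_normalizer (mem _)) hs
    obtain ⟨g, hg⟩ := isConj_iff.1 (rg.isConj_SL t)
    refine ⟨SpecialLinearGroup.toGL g⁻¹, Units.ext g⁻¹.2, ?_⟩
    rwa [← map_inv, inv_inv, ← map_mul, ← map_mul, hg]
  rcases h with rfl | rfl
  · have t := (πS_sq_iff.1 h1).resolve_left (mt πS_eq_one.1 n)
    exact ⟨i, hi ▸ Subgroup.le_normalizer (mem _), reg_of_trace_zero od t, by rw [t, ti]⟩
  · obtain ⟨s, s1, s2, s3⟩ := Q.exists_rot h2
    have t := (πS_cube_iff.1 h1).resolve_left (mt πS_eq_one.1 n)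
    have t' := (πS_cube_iff.1 s3).resolve_left fun o => Q.πS_ne h2 (by rw [← s1, map_mul, map_mul, map_inv, o]; simp)
    refine ⟨s, Subgroup.mem_normalizer_fintype fun y hy => ?_, ?_, by linear_combination t - t'⟩
    · obtain ⟨u, rfl⟩ : ∃ u, φ u = y := ⟨e ⟨y, hy⟩, by simp [φ]⟩
      let K := R.comap ((MulAut.conj (SpecialLinearGroup.toGL s : GL (Fin 2) F)).toMonoidHom.comp φ)
      have k1 : a 1 ∈ K := by
        change _ * φ _ * _ ∈ R
        rw [← hi, ← map_inv, ← map_mul, ← map_mul, s1, hj]; exact mem _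
      have k2 : xa 0 ∈ K := by
        change _ * φ _ * _ ∈ R
        rw [← hj, ← map_inv, ← map_mul, ← map_mul, s2, map_mul, hi, hj]; exact mul_mem (mem _) (mem _)
      have k3 : ∀ m, a m ∈ K := fun m => by simpa using pow_mem k1 m.val
      change u ∈ K
      rcases u with m | m
      · exact k3 m
      · simpa using mul_mem k2 (k3 m)
    · rw [Reg, x.2]
      intro o
      have : ((3 : ℕ) : F) = 0 := by push_cast; linear_combination t - o
      have := Nat.le_of_dvd (by norm_num) ((CharP.cast_eq_zero_iff F p 3).1 this)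
      omega

end Cfsg.Agent.S5997
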